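import Cfsg.Statements.S0572
import Mathlib

set_option autoImplicit false
open Cfsg

namespace Cfsg.Agent.S0572

open scoped commutatorElement

/-- Itô's Theorem: if a group G is the product AB of two abelian subgroups, then the commutator subgroup of G is abelian, i.e. the second term of the derived series is trivial. -/
theorem result {G : Type*} [Group G] (A B : Subgroup G) [IsMulCommutative A] [IsMulCommutative B] (hAB : ∀ g : G, ∃ a ∈ A, ∃ b ∈ B, g = a * b) : derivedSeries G 2 = ⊥ := by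
  have comm : ∀ (S : Subgroup G), IsMulCommutative S → ∀ x ∈ S, ∀ y ∈ S, x * y = y * x := by
    intro S hS x hx y hy
    have := hS.is_comm.comm (⟨x, hx⟩ : S) ⟨y, hy⟩
    exact congrArg Subtype.val this
  have hA := comm A inferInstance
  have hB := comm B inferInstance
  have hBA : ∀ g : G, ∃ b ∈ B, ∃ a ∈ A, g = b * a := by
    intro g
    obtain ⟨a, ha, b, hb, e⟩ := hAB g⁻¹
    exact ⟨b⁻¹, B.inv_mem hb, a⁻¹, A.inv_mem ha, by rw [← mul_inv_rev, ← e, inv_inv]⟩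
  -- `K = [A, B]` is normal and contains `G'`
  set K : Subgroup G := ⁅A, B⁆ with hK
  have hKn : K.Normal := by
    rw [← Subgroup.normalizer_eq_top_iff, eq_top_iff]
    intro g _
    obtain ⟨a, ha, b, hb, rfl⟩ := hAB g
    exact Subgroup.mul_mem _ (Subgroup.normalizer_commutator_ge_left A B ha)
      (Subgroup.normalizer_commutator_ge_right A B hb)
  have hGK : commutator G ≤ K := by
    rw [← Subgroup.Normal.quotient_commutative_iff_commutator_le]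
    have hab : ∀ a ∈ A, ∀ b ∈ B, Commute (QuotientGroup.mk a : G ⧸ K) (QuotientGroup.mk b) := by
      intro a ha b hb
      rw [← commutatorElement_eq_one_iff_commute]
      have h1 : (QuotientGroup.mk ⁅a, b⁆ : G ⧸ K) = 1 :=
        (QuotientGroup.eq_one_iff _).mpr (Subgroup.commutator_mem_commutator ha hb)
      exact h1
    constructor
    constructor
    intro x y
    obtain ⟨x, rfl⟩ := QuotientGroup.mk_surjective x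
    obtain ⟨y, rfl⟩ := QuotientGroup.mk_surjective y
    obtain ⟨a, ha, b, hb, rfl⟩ := hAB x
    obtain ⟨a', ha', b', hb', rfl⟩ := hAB y
    rw [QuotientGroup.mk_mul, QuotientGroup.mk_mul]
    have c1 : Commute (QuotientGroup.mk a : G ⧸ K) (QuotientGroup.mk a') := by
      show (QuotientGroup.mk a : G ⧸ K) * QuotientGroup.mk a' = _
      rw [← QuotientGroup.mk_mul, hA a ha a' ha', QuotientGroup.mk_mul]
    have c2 : Commute (QuotientGroup.mk b : G ⧸ K) (QuotientGroup.mk b') := by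
      show (QuotientGroup.mk b : G ⧸ K) * QuotientGroup.mk b' = _
      rw [← QuotientGroup.mk_mul, hB b hb b' hb', QuotientGroup.mk_mul]
    exact ((c1.mul_right (hab a ha b' hb')).mul_left ((hab a' ha' b hb).symm.mul_right c2)).eq
  -- the generators `[a, b]` commute
  have key : ∀ a ∈ A, ∀ b ∈ B, ∀ a₁ ∈ A, ∀ b₁ ∈ B,
      (a₁ * b₁) * ⁅a, b⁆ * (a₁ * b₁)⁻¹ = (b₁ * a₁) * ⁅a, b⁆ * (b₁ * a₁)⁻¹ := by
    intro a ha b hb a₁ ha₁ b₁ hb₁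
    obtain ⟨b₂, hb₂, a₂, ha₂, e1⟩ := hBA (a₁ * b * a₁⁻¹)
    obtain ⟨a₃, ha₃, b₃, hb₃, e2⟩ := hAB (b₁ * a * b₁⁻¹)
    -- both sides equal `[a₃, b₂]`
    have conjc : ∀ g x y : G, g * ⁅x, y⁆ * g⁻¹ = ⁅g * x * g⁻¹, g * y * g⁻¹⁆ := by
      intro g x y
      simp only [commutatorElement_def]
      group
    have f1 : ∀ x ∈ A, ⁅x, a₁ * b * a₁⁻¹⁆ = ⁅x, b₂⁆ := by
      intro x hx
      rw [e1, commutatorElement_def, commutatorElement_def]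
      have : a₂ * x⁻¹ = x⁻¹ * a₂ := hA a₂ ha₂ x⁻¹ (A.inv_mem hx)
      calc x * (b₂ * a₂) * x⁻¹ * (b₂ * a₂)⁻¹ = x * b₂ * (a₂ * x⁻¹) * a₂⁻¹ * b₂⁻¹ := by group
        _ = x * b₂ * (x⁻¹ * a₂) * a₂⁻¹ * b₂⁻¹ := by rw [this]
        _ = _ := by group
    have f2 : ∀ y ∈ B, ⁅b₁ * a * b₁⁻¹, y⁆ = ⁅a₃, y⁆ := by
      intro y hy
      rw [e2, commutatorElement_def, commutatorElement_def]
      have : b₃ * y = y * b₃ := hB b₃ hb₃ y hy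
      calc a₃ * b₃ * y * (a₃ * b₃)⁻¹ * y⁻¹ = a₃ * (b₃ * y) * b₃⁻¹ * a₃⁻¹ * y⁻¹ := by group
        _ = a₃ * (y * b₃) * b₃⁻¹ * a₃⁻¹ * y⁻¹ := by rw [this]
        _ = _ := by group
    have cA : ∀ x ∈ A, a₁ * x * a₁⁻¹ = x := by
      intro x hx
      rw [hA a₁ ha₁ x hx]; group
    have cB : ∀ y ∈ B, b₁ * y * b₁⁻¹ = y := by
      intro y hy
      rw [hB b₁ hb₁ y hy]; group
    have r1 : (b₁ * a₁) * ⁅a, b⁆ * (b₁ * a₁)⁻¹ = ⁅a₃, b₂⁆ := by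
      have : (b₁ * a₁) * ⁅a, b⁆ * (b₁ * a₁)⁻¹ = b₁ * (a₁ * ⁅a, b⁆ * a₁⁻¹) * b₁⁻¹ := by group
      rw [this, conjc a₁, cA a ha, f1 a ha, conjc b₁, cB b₂ hb₂, f2 b₂ hb₂]
    have r2 : (a₁ * b₁) * ⁅a, b⁆ * (a₁ * b₁)⁻¹ = ⁅a₃, b₂⁆ := by
      have : (a₁ * b₁) * ⁅a, b⁆ * (a₁ * b₁)⁻¹ = a₁ * (b₁ * ⁅a, b⁆ * b₁⁻¹) * a₁⁻¹ := by group
      rw [this, conjc b₁, cB b hb, f2 b hb, conjc a₁, cA a₃ ha₃, f1 a₃ ha₃]
    rw [r1, r2]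
  have hcomm : ∀ a ∈ A, ∀ b ∈ B, ∀ a₁ ∈ A, ∀ b₁ ∈ B, ⁅a₁, b₁⁆ * ⁅a, b⁆ = ⁅a, b⁆ * ⁅a₁, b₁⁆ := by
    intro a ha b hb a₁ ha₁ b₁ hb₁
    have h := key a ha b hb a₁⁻¹ (A.inv_mem ha₁) b₁⁻¹ (B.inv_mem hb₁)
    -- `(b₁⁻¹ a₁⁻¹)⁻¹ (a₁⁻¹ b₁⁻¹) = [a₁, b₁]`
    have e : ⁅a₁, b₁⁆ = (b₁⁻¹ * a₁⁻¹)⁻¹ * (a₁⁻¹ * b₁⁻¹) := by
      rw [commutatorElement_def]; group
    have h2 : (b₁⁻¹ * a₁⁻¹)⁻¹ * ((a₁⁻¹ * b₁⁻¹) * ⁅a, b⁆ * (a₁⁻¹ * b₁⁻¹)⁻¹) * (a₁⁻¹ * b₁⁻¹) =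
        (b₁⁻¹ * a₁⁻¹)⁻¹ * ((b₁⁻¹ * a₁⁻¹) * ⁅a, b⁆ * (b₁⁻¹ * a₁⁻¹)⁻¹) * (a₁⁻¹ * b₁⁻¹) := by rw [h]
    calc ⁅a₁, b₁⁆ * ⁅a, b⁆ = (b₁⁻¹ * a₁⁻¹)⁻¹ * ((a₁⁻¹ * b₁⁻¹) * ⁅a, b⁆ * (a₁⁻¹ * b₁⁻¹)⁻¹) *
          (a₁⁻¹ * b₁⁻¹) := by rw [e]; group
      _ = (b₁⁻¹ * a₁⁻¹)⁻¹ * ((b₁⁻¹ * a₁⁻¹) * ⁅a, b⁆ * (b₁⁻¹ * a₁⁻¹)⁻¹) * (a₁⁻¹ * b₁⁻¹) := h2
      _ = ⁅a, b⁆ * ⁅a₁, b₁⁆ := by rw [e]; group
  -- `K` is abelian
  have hKab : ⁅K, K⁆ = ⊥ := by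
    rw [Subgroup.commutator_eq_bot_iff_le_centralizer]
    have hK1 : K ≤ Subgroup.centralizer {g | ∃ a ∈ A, ∃ b ∈ B, ⁅a, b⁆ = g} := by
      rw [hK, Subgroup.commutator_le]
      intro a ha b hb
      rw [Subgroup.mem_centralizer_iff]
      rintro _ ⟨a₁, ha₁, b₁, hb₁, rfl⟩
      exact hcomm a ha b hb a₁ ha₁ b₁ hb₁
    have hK2 : ((K : Subgroup G) : Set G) = Subgroup.closure {g | ∃ a ∈ A, ∃ b ∈ B, ⁅a, b⁆ = g} := rfl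
    rw [hK2, Subgroup.centralizer_closure]
    exact hK1
  have e2 : derivedSeries G 2 = ⁅commutator G, commutator G⁆ := by
    rw [derivedSeries_succ, derivedSeries_one]
  rw [e2, eq_bot_iff, ← hKab]
  exact Subgroup.commutator_mono hGK hGK

end Cfsg.Agent.S0572
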