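import Cfsg.Statements.S2947
import Cfsg.Agent.Lib.LocBase
import Cfsg.Agent.Lib.SylAmb

set_option autoImplicit false
open Cfsg

namespace Cfsg.Agent.S2947

open Subgroup Cfsg.Agent.Lib.LocBase
open scoped commutatorElement

variable {G : Type*} [Group G]

theorem main [Finite G] (hO : Cfsg.pCore 2 G = ⊥) (M : Subgroup G) (hM : Cfsg.IsTwoLocal M) :
    Cfsg.IsStronglyEmbedded M ↔ Cfsg.straddlingTwoSubgroups M = ∅ := by
  have h2 : Fact (Nat.Prime 2) := ⟨Nat.prime_two⟩
  -- nontrivial 2-subgroups have even order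
  have hodd : ∀ P : Subgroup G, IsPGroup 2 P → Odd (Nat.card P) → P = ⊥ := by
    intro P hP ho
    obtain ⟨n, hn⟩ := IsPGroup.iff_card.mp hP
    rcases Nat.eq_zero_or_pos n with h | h
    · rw [h, pow_zero] at hn
      exact Subgroup.card_eq_one.mp hn
    · exfalso
      rw [hn] at ho
      rw [Nat.odd_pow_iff h.ne'] at ho
      exact absurd ho (by decide)
  constructor
  · rintro ⟨-, -, hse⟩
    rw [Set.eq_empty_iff_forall_notMem]
    rintro T ⟨hTp, hT1, hTM, L, ⟨R, hRp, hR1, rfl⟩, hTL, hLM⟩
    have hle : ∀ P : Subgroup G, IsPGroup 2 P → P ⊓ M ≠ ⊥ → P ≤ M := by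
      intro P hP h1
      by_contra hPM
      have hlt : P ⊓ M < P := lt_of_le_of_ne inf_le_left (fun h => hPM (inf_eq_left.mp h))
      have h3 := Cfsg.Agent.Lib.SylAmb.lt_inf_normalizer hP hlt
      obtain ⟨g, hg1, hg2⟩ := SetLike.exists_of_lt h3
      have hgM : g ∉ M := fun h => hg2 ⟨hg1.1, h⟩
      have h4 := hse g hgM
      have h5 : P ⊓ M ≤ M ⊓ M.map (MulAut.conj g).toMonoidHom := by
        refine le_inf inf_le_right ?_
        have := map_conj_eq_of_mem hg1.2
        rw [← this]
        exact Subgroup.map_mono inf_le_right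
      have h6 : Odd (Nat.card ↥(P ⊓ M)) := Odd.of_dvd_nat h4 (Subgroup.card_dvd_of_le h5)
      exact h1 (hodd _ (hP.to_le inf_le_left) h6)
    have hTR : IsPGroup 2 ↥(R ⊔ T) := isPGroup_sup hRp hTp hTL
    have h7 : R ⊔ T ≤ M := by
      apply hle _ hTR
      intro h
      apply hT1
      rw [eq_bot_iff, ← h]
      exact le_inf le_sup_right hTM
    apply hLM
    intro g hg
    by_contra hgM
    have h4 := hse g hgM
    have hRM : R ≤ M := le_sup_left.trans h7
    have h5 : R ≤ M ⊓ M.map (MulAut.conj g).toMonoidHom := by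
      refine le_inf hRM ?_
      rw [← map_conj_eq_of_mem hg]
      exact Subgroup.map_mono hRM
    exact hR1 (hodd _ hRp (Odd.of_dvd_nat h4 (Subgroup.card_dvd_of_le h5)))
  · intro hst
    have hns : ∀ T : Subgroup G, IsPGroup 2 T → T ≠ ⊥ → T ≤ M → normalizer (T : Set G) ≤ M := by
      intro T h1 h2 h3
      by_contra h4
      have : T ∈ Cfsg.straddlingTwoSubgroups M :=
        ⟨h1, h2, h3, _, ⟨T, h1, h2, rfl⟩, le_normalizer, h4⟩
      rw [hst] at this
      exact this
    obtain ⟨R, hRp, hR1, hMR⟩ := hM
    have hRM : R ≤ M := hMR ▸ le_normalizer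
    refine ⟨?_, ?_, ?_⟩
    · intro h
      apply hR1
      have hn : R.Normal := by
        rw [← normalizer_eq_top_iff, ← hMR, h]
      rw [eq_bot_iff, ← hO]
      exact le_pCore hn hRp
    · by_contra ho
      rw [Nat.not_even_iff_odd] at ho
      exact hR1 (hodd R hRp (Odd.of_dvd_nat ho (Subgroup.card_dvd_of_le hRM)))
    · intro g hg
      by_contra ho
      obtain ⟨T, hT⟩ := exists_isSyl 2 (M ⊓ M.map (MulAut.conj g).toMonoidHom)
      have hT1 : T ≠ ⊥ := by
        rintro rfl
        apply ho
        have := hT.ndvd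
        rw [Subgroup.relIndex_bot_left] at this
        rwa [← Nat.not_even_iff_odd, even_iff_two_dvd]
      have hTM : T ≤ M := hT.le.trans inf_le_left
      have hTg : T.map (MulAut.conj g⁻¹).toMonoidHom ≤ M := by
        have := map_conj_mono g⁻¹ (hT.le.trans inf_le_right)
        rwa [← map_conj_mul, inv_mul_cancel, map_conj_one] at this
      have hN1 : normalizer (T : Set G) ≤ M := hns T hT.pgroup hT1 hTM
      have hTg1 : T.map (MulAut.conj g⁻¹).toMonoidHom ≠ ⊥ := by
        intro h
        exact hT1 ((Subgroup.map_eq_bot_iff_of_injective T (MulAut.conj g⁻¹).injective).mp h)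
      have hN2 : normalizer (T : Set G) ≤ M.map (MulAut.conj g).toMonoidHom := by
        have := hns _ (isPGroup_map_conj hT.pgroup g⁻¹) hTg1 hTg
        rw [← map_conj_normalizer] at this
        have := map_conj_mono g this
        rwa [← map_conj_mul, mul_inv_cancel, map_conj_one] at this
      -- T is Sylow in G
      have hTG : IsSyl 2 T ⊤ := by
        obtain ⟨P, hP, hTP⟩ := exists_isSyl_ge (H := ⊤) hT.pgroup le_top
        rcases hTP.lt_or_eq with h | h
        · have h3 := Cfsg.Agent.Lib.SylAmb.lt_inf_normalizer hP.pgroup h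
          have h4 : P ⊓ normalizer (T : Set G) ≤ M ⊓ M.map (MulAut.conj g).toMonoidHom :=
            inf_le_right.trans (le_inf hN1 hN2)
          have h5 := hT.eq_of_le (hP.pgroup.to_le inf_le_left) h4 h3.le
          exact absurd h5 h3.ne
        · rw [h]; exact hP
      have hTM' : IsSyl 2 T M := hTG.of_le hTM le_top
      have hTg' : IsSyl 2 (T.map (MulAut.conj g⁻¹).toMonoidHom) M := by
        have := hTG.map_conj g⁻¹
        rw [Subgroup.map_top_of_surjective _ (MulAut.conj g⁻¹).surjective] at this
        exact this.of_le hTg le_top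
      obtain ⟨m, hm, e⟩ := hTM'.conj hTg'
      rw [← map_conj_mul] at e
      have h8 : m * g⁻¹ ∈ M := hN1 (mem_normalizer_of_map_conj_eq e)
      have h9 : g⁻¹ ∈ M := (M.mul_mem_cancel_left hm).mp h8
      exact hg (M.inv_mem_iff.mp h9)

/-- Let G be a finite group of characteristic 2 type in which every 2-local subgroup is solvable and the centralizer of Ω₁(Z(S)) lies in N_G(S) for every Sylow 2-subgroup S; suppose O₂(G) = 1, fix a Sylow 2-subgroup S and a 2-local subgroup M containing N_G(J(S)) (J the Thompson subgroup generated by the elementary abelian 2-subgroups of largest order). Then M is strongly embedded in G (a proper subgroup of even order whose intersection with each conjugate by an element outside M has odd order) if and only if no nontrivial 2-subgroup of M lies in a 2-local subgroup of G not contained in M. -/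
theorem result {G : Type*} [Group G] [Finite G] (hL : Cfsg.IsCharacteristicTwoType G) (hN : ∀ N : Subgroup G, Cfsg.IsTwoLocal N → Group.IsSolvable ↥N)
    (hZ : ∀ S : Sylow 2 G, Subgroup.centralizer (Cfsg.omegaCenterOf (S : Subgroup G) : Set G) ≤ Subgroup.normalizer ((S : Subgroup G) : Set G)) (hO : Cfsg.pCore 2 G = ⊥) (S : Sylow 2 G) (M : Subgroup G) (hM : Cfsg.IsTwoLocal M)
    (hMJ : Subgroup.normalizer (Cfsg.thompsonSubgroupOf 2 (S : Subgroup G) : Set G) ≤ M) :
    Cfsg.IsStronglyEmbedded M ↔ Cfsg.straddlingTwoSubgroups M = ∅ := 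
  main hO M hM

end Cfsg.Agent.S2947
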