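import Cfsg.Statements.S0941
import Cfsg.Agent.Lib.BlockHom
import Cfsg.Agent.Lib.BlockSecond2

set_option autoImplicit false
open Cfsg

namespace Cfsg.Agent.S0941

open Cfsg Cfsg.Agent.Lib.BlockRing Cfsg.Agent.Lib.BlockGA Cfsg.Agent.Lib.BlockIdem Cfsg.Agent.Lib.BlockHom
open Cfsg.Agent.Lib.BlockRes (resH coeff_resH brH)
open Cfsg.Agent.Lib.CharBasic Cfsg.Agent.Lib.BlockCover Cfsg.Agent.Lib.BlockNormP

/-- an element of order prime to `p` lies in a normal subgroup of `p`-power index. -/
theorem mem_of_index {G : Type*} [Group G] [Finite G] {p : ℕ} (hp : p.Prime) (N : Subgroup G) [N.Normal]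
    (hidx : ∃ k : ℕ, N.index = p ^ k) {g : G} (hpg : ¬ p ∣ orderOf g) : g ∈ N := by
  obtain ⟨k, hk⟩ := hidx
  have h1 : orderOf (QuotientGroup.mk' N g) ∣ orderOf g := orderOf_map_dvd _ g
  have h2 : orderOf (QuotientGroup.mk' N g) ∣ p ^ k := by
    rw [← hk]; exact orderOf_dvd_natCard _
  have h3 : Nat.Coprime (orderOf g) (p ^ k) :=
    Nat.Coprime.pow_right k ((Nat.Prime.coprime_iff_not_dvd hp).2 hpg).symm
  have h4 : orderOf (QuotientGroup.mk' N g) = 1 := Nat.eq_one_of_dvd_coprimes h3 h1 h2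
  rw [orderOf_eq_one_iff] at h4
  exact (QuotientGroup.eq_one_iff g).1 h4

/-- lifting `p`-regular elements modulo a normal `p`-subgroup -/
theorem exists_regular_lift {G : Type*} [Group G] [Finite G] {p : ℕ} (hp : p.Prime) {P : Subgroup G} [P.Normal]
    (hP : IsPGroup p P) (y : G ⧸ P) (hy : ¬ p ∣ orderOf y) : ∃ s : G, ¬ p ∣ orderOf s ∧ (s : G ⧸ P) = y := by
  haveI : Fact p.Prime := ⟨hp⟩
  obtain ⟨x, rfl⟩ := QuotientGroup.mk_surjective y
  obtain ⟨u, s, hus, hc, ⟨k, hk⟩, hs, hu', hs'⟩ := Cfsg.Agent.Lib.BlockSecond.exists_ppart hp x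
  refine ⟨s, hs, ?_⟩
  have h1 : u ∈ P := by
    obtain ⟨m, hm⟩ := Subgroup.mem_zpowers_iff.1 hu'
    have h2 : ((u : G) : G ⧸ P) ∈ Subgroup.zpowers ((x : G) : G ⧸ P) := by
      rw [Subgroup.mem_zpowers_iff]
      exact ⟨m, by rw [← hm]; rfl⟩
    have h3 : orderOf ((u : G) : G ⧸ P) ∣ orderOf ((x : G) : G ⧸ P) := orderOf_dvd_of_mem_zpowers h2
    have h4 : orderOf ((u : G) : G ⧸ P) ∣ p ^ k := by
      rw [← hk]
      exact orderOf_map_dvd (QuotientGroup.mk' P) u
    have h5 : Nat.Coprime (orderOf ((x : G) : G ⧸ P)) (p ^ k) :=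
      Nat.Coprime.pow_right k ((Nat.Prime.coprime_iff_not_dvd hp).2 hy).symm
    have h6 := Nat.eq_one_of_dvd_coprimes h5 h3 h4
    rw [orderOf_eq_one_iff] at h6
    exact (QuotientGroup.eq_one_iff u).1 h6
  rw [← hus, QuotientGroup.mk_mul, (QuotientGroup.eq_one_iff u).2 h1, one_mul]

/-- Let P be a normal p-subgroup of the finite group G such that the index of C_G(P) is a power of p, and fix a maximal ideal M of the algebraic integers containing p. Then (i) two irreducible characters of G ⧸ P lie in the same block if and only if their inflations to G do, and (ii) every block of G contains the inflation of some irreducible character of G ⧸ P; so inflation induces a bijection between the blocks of G ⧸ P and the blocks of G. -/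
theorem result {G : Type*} [Group G] [Finite G] (p : ℕ) [Fact p.Prime] (M : Ideal Cfsg.AlgInt) (hM : Cfsg.IsPModular p M) (P : Subgroup G) [P.Normal] (hP : IsPGroup p P) (hC : ∃ k : ℕ, (Subgroup.centralizer (P : Set G)).index = p ^ k) : (∀ χ ψ : Cfsg.IrrCharacter (G ⧸ P), Cfsg.SameBlock M (χ : G ⧸ P → ℂ) (ψ : G ⧸ P → ℂ) ↔ Cfsg.SameBlock M ((χ : G ⧸ P → ℂ) ∘ QuotientGroup.mk) ((ψ : G ⧸ P → ℂ) ∘ QuotientGroup.mk)) ∧ ∀ B : Set (Cfsg.IrrCharacter G), Cfsg.IsPBlock M B → ∃ χ : Cfsg.IrrCharacter (G ⧸ P), ∃ θ ∈ B, (θ : G → ℂ) = (χ : G ⧸ P → ℂ) ∘ QuotientGroup.mk := by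
  classical
  haveI := isPrime hM
  haveI := Fintype.ofFinite G
  refine ⟨fun χ ψ => ⟨fun h => sameBlock_inflate P h, fun h => ?_⟩, fun B hB => ?_⟩
  · set b := blockOf M (χ : G ⧸ P → ℂ) with hbdef
    have hb : IsPBlock M b := isPBlock_blockOf χ
    let z : GA G := ofFun fun x => if p ∣ orderOf x then 0 else blockCoeff b (x : G ⧸ P)
    have hzc : z ∈ Subalgebra.center ℂ (GA G) := by
      rw [mem_center_iff]
      intro x g
      show (if p ∣ orderOf (g * x * g⁻¹) then (0 : ℂ) else blockCoeff b ((g * x * g⁻¹ : G) : G ⧸ P)) =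
        if p ∣ orderOf x then 0 else blockCoeff b (x : G ⧸ P)
      have h1 : orderOf (g * x * g⁻¹) = orderOf x := MulEquiv.orderOf_eq (MulAut.conj g) x
      have h2 : blockCoeff b ((g * x * g⁻¹ : G) : G ⧸ P) = blockCoeff b (x : G ⧸ P) :=
        isClassFunction_blockCoeff b (x : G ⧸ P) (g : G ⧸ P)
      rw [h1, h2]
    have hzl : LocA M z := by
      intro x
      show MemLocalRing M (if p ∣ orderOf x then (0 : ℂ) else blockCoeff b (x : G ⧸ P))
      split_ifs
      · exact loc_zero
      · exact loc_blockCoeff hb _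
    have hpz : projQ P z = eB b := by
      ext y
      rw [coeff_projQ, coeff_eB]
      by_cases hy : p ∣ orderOf y
      · rw [Cfsg.Agent.Lib.BlockOsima.blockCoeff_eq_zero hM hb hy]
        refine Finset.sum_eq_zero fun x _ => ?_
        split_ifs with h1
        · show (if p ∣ orderOf x then (0 : ℂ) else blockCoeff b (x : G ⧸ P)) = 0
          rw [if_pos]
          subst h1
          exact hy.trans (orderOf_map_dvd (QuotientGroup.mk' P) x)
        · rfl
      · obtain ⟨s, hs, hsy⟩ := exists_regular_lift hM.1 hP y hy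
        rw [Finset.sum_eq_single s]
        · rw [if_pos hsy]
          show (if p ∣ orderOf s then (0 : ℂ) else blockCoeff b (s : G ⧸ P)) = _
          rw [if_neg hs, hsy]
        · intro t _ hts
          by_cases h1 : (t : G ⧸ P) = y
          · rw [if_pos h1]
            show (if p ∣ orderOf t then (0 : ℂ) else blockCoeff b (t : G ⧸ P)) = 0
            by_cases ht : p ∣ orderOf t
            · rw [if_pos ht]
            · exfalso
              apply hts
              have hw : s⁻¹ * t ∈ P := by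
                rw [← QuotientGroup.eq]
                rw [hsy, h1]
              have hsC : s ∈ Subgroup.centralizer (P : Set G) := mem_of_index hM.1 _ hC hs
              have hcomm : Commute (s⁻¹ * t) s := Subgroup.mem_centralizer_iff.1 hsC _ hw
              obtain ⟨k, hk⟩ := (IsPGroup.iff_orderOf.1 hP) ⟨s⁻¹ * t, hw⟩
              rw [Subgroup.orderOf_mk] at hk
              have h2 := Cfsg.Agent.Lib.BlockSecond.eq_of_comm_of_orders hM.1 (x := s⁻¹ * t) (y := s) (x' := 1) (y' := t)
                hcomm (Commute.one_left t) (by rw [hcomm.eq]; group) hk (k' := 0) (by simp) hs ht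
              exact h2.2.symm
          · rw [if_neg h1]
        · intro h1; exact absurd (Finset.mem_univ _) h1
    have h1 := sameBlock_omega (χ.2.inflate P).isClassFunction (ψ.2.inflate P).isClassFunction h hzc hzl
    rw [← omega_projQ, ← omega_projQ, hpz, omega_eB_mem (mem_blockOf_self χ)] at h1
    have h2 : ψ ∈ b := by
      by_contra hn
      rw [omega_eB_not_mem hn, sub_zero] at h1
      exact one_not_idl h1
    exact h2
  · obtain ⟨χ, hχ, h1⟩ := exists_trivial hM hP (unionOfBlocks_of_isPBlock hB) (isPBlock_nonempty hB)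
    obtain ⟨ψ, hψ, h2⟩ := χ.2.deflate P h1
    exact ⟨⟨ψ, hψ⟩, χ, hχ, funext fun x => (h2 x).symm⟩

end Cfsg.Agent.S0941
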