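import Cfsg.Statements.S4633
import Cfsg.Agent.Lib.AbDefect
-- import your own Cfsg.Agent.* helpers here

set_option autoImplicit false
open Cfsg

namespace Cfsg.Agent.S4633

open Cfsg Cfsg.Agent.Lib Cfsg.Agent.Lib.BlockAlg Cfsg.Agent.Lib.BrauerPairs Cfsg.Agent.Lib.PairAlg
open Cfsg.Agent.Lib.PairMax Cfsg.Agent.Lib.BlkIdem Cfsg.Agent.Lib.NormalPBlk
open Cfsg.Agent.Lib.BlockGA Cfsg.Agent.Lib.BlockIdem Cfsg.Agent.Lib.BlockRing
open Cfsg.Agent.Lib.InducedPair Cfsg.Agent.Lib.BlkTransport Cfsg.Agent.Lib.StabQuot Cfsg.Agent.Lib.AbDefect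

theorem key {G : Type*} [Group G] [Finite G] {p : ℕ} [hp : Fact p.Prime] {M : Ideal AlgInt}
    [hMm : M.IsMaximal] [hchar : CharP (Kf M) p] {P : Subgroup G} {e : MonoidAlgebra (Kf M) G}
    (hPe : BPair p P e) (hmax : MaxPair p P e) {z : G} (hz : Subgroup.zpowers z = P) {n : ℕ}
    (hn : orderOf z = p ^ (n + 1)) {g : G} (hg : g ∈ stab (Subgroup.normalizer (P : Set G)) e)
    (hgz : g * z ^ p ^ n * g⁻¹ = z ^ p ^ n) : g ∈ Subgroup.centralizer (P : Set G) := by
  have hab : P ≤ Subgroup.centralizer (P : Set G) := by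
    rw [← hz]
    intro x hx
    rw [Subgroup.mem_centralizer_iff]
    intro y hy
    obtain ⟨i, rfl⟩ := Subgroup.mem_zpowers_iff.mp hx
    obtain ⟨j, rfl⟩ := Subgroup.mem_zpowers_iff.mp hy
    rw [← zpow_add, ← zpow_add, add_comm]
  have hzP : z ∈ P := by rw [← hz]; exact Subgroup.mem_zpowers z
  have h1 : g * z * g⁻¹ ∈ P := (Subgroup.mem_normalizer_iff.mp hg.1 z).mp hzP
  rw [← hz] at h1
  obtain ⟨a, ha⟩ := Subgroup.mem_zpowers_iff.mp h1
  have h2 : z ^ (a * (p : ℤ) ^ n) = z ^ ((p : ℤ) ^ n) := by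
    rw [zpow_mul, ha]
    have : (g * z * g⁻¹) ^ ((p : ℤ) ^ n) = g * z ^ p ^ n * g⁻¹ := by
      rw [← Nat.cast_pow, zpow_natCast, conj_pow]
    rw [this, hgz, ← Nat.cast_pow, zpow_natCast]
  have h3 : (p : ℤ) ∣ a - 1 := by
    rw [zpow_eq_zpow_iff_modEq, hn] at h2
    have h4 := h2.symm.dvd
    have h5 : a * (p : ℤ) ^ n - (p : ℤ) ^ n = (p : ℤ) ^ n * (a - 1) := by ring
    rw [h5, Nat.cast_pow, pow_succ] at h4
    exact Int.dvd_of_mul_dvd_mul_left (pow_ne_zero _ (by exact_mod_cast hp.out.ne_zero)) h4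
  have h4 := dvd_sub_pow_of_dvd_sub h3 n
  rw [one_pow] at h4
  have h5 : ∀ k : ℕ, g ^ k * z * (g ^ k)⁻¹ = z ^ (a ^ k) := by
    intro k
    induction k with
    | zero => simp
    | succ k ih =>
      have e1 : g ^ (k + 1) * z * (g ^ (k + 1))⁻¹ = g * (g ^ k * z * (g ^ k)⁻¹) * g⁻¹ := by
        rw [pow_succ']; group
      rw [e1, ih, ← conj_zpow, ← ha, ← zpow_mul, pow_succ']
  have h6 : g ^ p ^ n ∈ Subgroup.centralizer (P : Set G) := by
    have h7 := h5 (p ^ n)
    have h8 : z ^ (a ^ p ^ n) = z := by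
      have : z ^ (a ^ p ^ n) = z ^ (1 : ℤ) := by
        rw [zpow_eq_zpow_iff_modEq, hn]
        exact (Int.modEq_iff_dvd.mpr (by rw [Nat.cast_pow]; exact h4)).symm
      rw [this, zpow_one]
    rw [h8] at h7
    rw [Subgroup.mem_centralizer_iff, ← hz]
    intro x hx
    obtain ⟨i, rfl⟩ := Subgroup.mem_zpowers_iff.mp hx
    have h9 : Commute z (g ^ p ^ n) := by
      show z * g ^ p ^ n = g ^ p ^ n * z
      have := mul_inv_eq_iff_eq_mul.mp h7
      exact this.symm
    exact (h9.zpow_left i)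
  exact mem_centralizer_of_pow hPe hmax hab hg h6


/-- Let B be a block of the finite group G relative to a maximal ideal M of the algebraic integers containing the prime p, with a nontrivial cyclic defect group P. Let c be a block of C_G(P) inducing B and T the stabilizer of c in N_G(P) (the elements of N_G(P) conjugating c to itself); T contains C_G(P). Then T/C_G(P) is cyclic of order dividing p − 1, and it acts freely on the non-identity elements of P: an element of T fixing some non-identity element of P under conjugation lies in C_G(P). -/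
theorem result {G : Type*} [Group G] [Finite G] (p : ℕ) [Fact p.Prime] (M : Ideal Cfsg.AlgInt) (hM : Cfsg.IsPModular p M) (B : Set (Cfsg.IrrCharacter G)) (hB : Cfsg.IsPBlock M B) (P : Subgroup G) (hPD : Cfsg.IsDefectGroup p M B P) (hP1 : P ≠ ⊥) (hcyc : IsCyclic P) (c : Set (Cfsg.IrrCharacter (Subgroup.centralizer (P : Set G)))) (hc : Cfsg.IsInducedBlock M (Subgroup.centralizer (P : Set G)) c B) (T : Subgroup G) (hT : ∀ g : G, g ∈ T ↔ (g ∈ Subgroup.normalizer (P : Set G) ∧ Cfsg.StabilizesBlock (Subgroup.centralizer (P : Set G)) c g)) [hn : ((Subgroup.centralizer (P : Set G)).subgroupOf T).Normal] : IsCyclic (T ⧸ (Subgroup.centralizer (P : Set G)).subgroupOf T) ∧ (Subgroup.centralizer (P : Set G)).relIndex T ∣ p - 1 ∧ ∀ g ∈ T, ∀ x ∈ P, x ≠ 1 → g * x * g⁻¹ = x → g ∈ Subgroup.centralizer (P : Set G) := by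
  have hMm : M.IsMaximal := hM.2.1
  have hch : CharP (Kf M) p := charP_Kf hM

  have hMP := hMm.isPrime
  have hpp : Fact p.Prime := ⟨Fact.out⟩
  have hD := (isDefectGroup_iff hB).mp hPD
  have hPp : IsPGroup p P := hD.pg
  have hc1 : IsPBlock M c := hc.1
  have hPe : BPair p P (bid M _ c) := ⟨hPp, isBlk_bid hc1⟩
  have hbr := (isInducedBlock_iff_br rfl hPp hc1 hB).mp hc
  have hmax := maxPair_of_defectGroup hB hPD hbr
  have hTs : ∀ g, g ∈ T → g ∈ stab (Subgroup.normalizer (P : Set G)) (bid M (Subgroup.centralizer (P : Set G)) c) := by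
    intro g hg
    have h1 := (hT g).mp hg
    exact ⟨h1.1, (stabilizesBlock_iff (normalizer_le_normalizer_centralizer P h1.1) hc1).mp h1.2⟩
  -- a generator
  obtain ⟨z, hz⟩ : ∃ z : G, Subgroup.zpowers z = P := (Subgroup.isCyclic_iff_exists_zpowers_eq_top P).mp hcyc
  obtain ⟨n, hn⟩ : ∃ n, orderOf z = p ^ n := by
    have := (IsPGroup.iff_card (p := p)).mp hPp
    rwa [← hz, Nat.card_zpowers] at this
  have hn0 : n ≠ 0 := by
    rintro rfl
    rw [pow_zero, orderOf_eq_one_iff] at hn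
    exact hP1 (by rw [← hz, hn, Subgroup.zpowers_one_eq_bot])
  obtain ⟨n, rfl⟩ := Nat.exists_eq_succ_of_ne_zero hn0
  rw [Nat.succ_eq_add_one] at hn
  set z0 : G := z ^ p ^ n with hz0
  have hz0o : orderOf z0 = p := by
    rw [hz0, orderOf_pow' _ (pow_ne_zero _ hpp.out.ne_zero), hn, pow_succ,
      Nat.gcd_eq_right (Dvd.intro _ rfl), Nat.mul_div_cancel_left _ (pow_pos hpp.out.pos _)]
  have hfree : ∀ g ∈ T, ∀ x ∈ P, x ≠ 1 → g * x * g⁻¹ = x → g ∈ Subgroup.centralizer (P : Set G) := by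
    intro g hg x hx hx1 hgx
    refine key hPe hmax hz hn (hTs g hg) ?_
    -- `z ^ p ^ n` is a power of `x`
    obtain ⟨m, hm⟩ : ∃ m : ℕ, x ^ m = z ^ p ^ n := by
      rw [← hz, ← mem_powers_iff_mem_zpowers] at hx
      obtain ⟨i, hi⟩ := hx
      have hi' : z ^ i = x := hi
      have hi0 : i ≠ 0 := by
        rintro rfl
        exact hx1 (by rw [← hi', pow_zero])
      obtain ⟨s, j, hj, hsj⟩ := Nat.exists_eq_pow_mul_and_not_dvd hi0 p hpp.out.ne_one
      have hsn : s ≤ n := by
        by_contra hcon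
        apply hx1
        rw [← hi', ← orderOf_dvd_iff_pow_eq_one, hn, hsj]
        exact Dvd.dvd.mul_right (pow_dvd_pow p (by omega)) j
      obtain ⟨j', hj'⟩ := Nat.exists_mul_mod_eq_one_of_coprime
        (((Nat.Prime.coprime_iff_not_dvd hpp.out).mpr hj).symm) hpp.out.one_lt
      refine ⟨p ^ (n - s) * j', ?_⟩
      have e1 : p ^ s * j * (p ^ (n - s) * j') = p ^ n * (j * j') := by
        have : p ^ n = p ^ s * p ^ (n - s) := by rw [← pow_add]; congr 1; omega
        rw [this]; ring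
      have hj2 := hj'.2
      rw [← hi', ← pow_mul, hsj, e1, pow_mul, ← hz0, ← pow_mod_orderOf, hz0o, hj2, pow_one]
    rw [← hm, ← conj_pow, hgx]
  -- the action on the subgroup of order `p`
  have hTN : ∀ g ∈ T, ∀ y, y ∈ Subgroup.zpowers z0 → g * y * g⁻¹ ∈ Subgroup.zpowers z0 := by
    intro g hg y hy
    obtain ⟨i, rfl⟩ := Subgroup.mem_zpowers_iff.mp hy
    rw [← conj_zpow]
    apply zpow_mem
    have hgP := (Subgroup.mem_normalizer_iff.mp (hTs g hg).1 z).mp (by rw [← hz]; exact Subgroup.mem_zpowers z)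
    rw [← hz] at hgP
    obtain ⟨a, ha⟩ := Subgroup.mem_zpowers_iff.mp hgP
    rw [hz0, ← conj_pow, ← ha]
    have e1 : (z ^ a) ^ p ^ n = (z ^ p ^ n) ^ a := by
      rw [← zpow_natCast, ← zpow_natCast, ← zpow_mul, ← zpow_mul, mul_comm]
    rw [e1]
    exact zpow_mem (Subgroup.mem_zpowers _) _
  have hTn : T ≤ Subgroup.normalizer ((Subgroup.zpowers z0 : Subgroup G) : Set G) := by
    intro g hg
    rw [Subgroup.mem_normalizer_iff]
    intro y
    refine ⟨hTN g hg y, fun h => ?_⟩
    have := hTN g⁻¹ (inv_mem hg) _ h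
    have e1 : g⁻¹ * (g * y * g⁻¹) * g⁻¹⁻¹ = y := by group
    rwa [e1] at this
  let f : T →* MulAut (Subgroup.zpowers z0) :=
    (Subgroup.normalizerMonoidHom (Subgroup.zpowers z0)).comp (Subgroup.inclusion hTn)
  have hker : f.ker = (Subgroup.centralizer (P : Set G)).subgroupOf T := by
    ext g
    rw [Subgroup.mem_subgroupOf]
    constructor
    · intro hg
      refine key hPe hmax hz hn (hTs g g.2) ?_
      have h1 : f g = 1 := hg
      have h2 := congrArg Subtype.val (DFunLike.congr_fun h1 ⟨z0, Subgroup.mem_zpowers z0⟩)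
      exact h2
    · intro hg
      show f g = 1
      ext y
      show (g : G) * (y : G) * (g : G)⁻¹ = y
      have hyP : (y : G) ∈ P := by
        have h1 : Subgroup.zpowers z0 ≤ P := by
          rw [Subgroup.zpowers_le, ← hz]
          exact pow_mem (Subgroup.mem_zpowers z) _
        exact h1 y.2
      have := Subgroup.mem_centralizer_iff.mp hg y hyP
      rw [← this]; group
  have hcard : Nat.card (Subgroup.zpowers z0) = p := by rw [Nat.card_zpowers, hz0o]
  have hcycz0 : IsCyclic (Subgroup.zpowers z0) := inferInstance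
  let ψ := IsCyclic.mulAutMulEquiv (Subgroup.zpowers z0)
  have hcyAut : IsCyclic (MulAut (Subgroup.zpowers z0)) := by
    have h1 : IsCyclic (ZMod (Nat.card (Subgroup.zpowers z0)))ˣ := by
      rw [hcard]; infer_instance
    exact isCyclic_of_injective ψ.toMonoidHom ψ.injective
  have hcardAut : Nat.card (MulAut (Subgroup.zpowers z0)) = p - 1 := by
    rw [Nat.card_congr ψ.toEquiv, hcard, Nat.card_eq_fintype_card, ZMod.card_units]
  let F : T ⧸ (Subgroup.centralizer (P : Set G)).subgroupOf T →* MulAut (Subgroup.zpowers z0) :=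
    QuotientGroup.lift ((Subgroup.centralizer (P : Set G)).subgroupOf T) f (by rw [← hker])
  have hF : Function.Injective F := by
    rw [injective_iff_map_eq_one]
    intro q hq
    obtain ⟨t, rfl⟩ := QuotientGroup.mk'_surjective _ q
    have h1 : f t = 1 := hq
    have h2 : t ∈ f.ker := h1
    rw [hker] at h2
    exact (QuotientGroup.eq_one_iff t).mpr h2
  refine ⟨isCyclic_of_injective F hF, ?_, hfree⟩
  have h1 := Subgroup.card_dvd_of_injective F hF
  rw [hcardAut] at h1
  exact h1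

end Cfsg.Agent.S4633
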