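import Cfsg.Statements.S4718
import Cfsg.Agent.Lib.LandauBound
import Cfsg.Agent.Lib.ContribApps
import Cfsg.Agent.Lib.BlockThird

set_option autoImplicit false
universe u
open Cfsg

namespace Cfsg.Agent.S4718

/-- Let p be a prime and a a natural number. There is a bound N such that every finite group whose Sylow p-subgroups have order p^a and whose only p-block (relative to a maximal ideal of the algebraic integers containing p) is the principal block has order at most N. -/
theorem result (p : ℕ) [Fact p.Prime] (a : ℕ) : ∃ N : ℕ, ∀ (G : Type u) [Group G] [Finite G] (M : Ideal Cfsg.AlgInt), Cfsg.IsPModular p M → (Nat.card G).factorization p = a → (∀ B : Set (Cfsg.IrrCharacter G), Cfsg.IsPBlock M B → B = Cfsg.principalBlock M G) → Nat.card G ≤ N := by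
  obtain ⟨N, hN⟩ := Lib.LandauBound.landau_le.{u} ((p ^ (2 * a) + 4) / 4)
  refine ⟨N, fun G _ _ M hM ha hB => hN G ?_⟩
  haveI := Lib.BlockRing.isPrime hM
  have hB0 : Cfsg.IsPBlock M (Cfsg.principalBlock M G) := Lib.BlockThird.isPBlock_principal
  have huniv : Cfsg.principalBlock M G = Set.univ := by
    rw [Set.eq_univ_iff_forall]
    intro χ
    rw [← hB (Cfsg.blockOf M (χ : G → ℂ)) ⟨χ, rfl⟩]
    exact Lib.BlockIdem.mem_blockOf_self χ
  have h1 := Lib.Contrib.brauer_feit hM hB0
  have h2 := Lib.ContribApps.defect_le hM hB0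
  rw [ha] at h2
  rw [huniv, Nat.card_congr (Equiv.Set.univ _), Lib.CharBasic.card_irr] at h1
  have h3 : p ^ (2 * Cfsg.blockDefect p (Set.univ : Set (Cfsg.IrrCharacter G))) ≤ p ^ (2 * a) := by
    rw [huniv] at h2
    exact Nat.pow_le_pow_right hM.1.pos (by omega)
  rw [Nat.le_div_iff_mul_le (by norm_num)]
  omega

end Cfsg.Agent.S4718
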