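import Cfsg.Statements.S0944
import Cfsg.Agent.Lib.CharBasic

set_option autoImplicit false
open Cfsg

namespace Cfsg.Agent.S0944

/-- Let χ be an irreducible character of the finite group G and u an involution. Then χ u is a rational integer n with n ≡ χ 1 (mod 2). -/
theorem result {G : Type*} [Group G] [Finite G] (χ : Cfsg.IrrCharacter G) (u : G) (hu : orderOf u = 2) : ∃ n : ℤ, (χ : G → ℂ) u = (n : ℂ) ∧ (2 : ℤ) ∣ (Cfsg.charDegree (χ : G → ℂ) : ℤ) - n := by
  obtain ⟨χ, n, ρ, hρ, rfl⟩ := χ
  -- the projection (1 + ρ u)/2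
  set P : (Fin n → ℂ) →ₗ[ℂ] (Fin n → ℂ) := (2 : ℂ)⁻¹ • (1 + ρ u) with hP
  have hu2 : ρ u * ρ u = 1 := by
    rw [← map_mul, ← pow_two, ← hu, pow_orderOf_eq_one, map_one]
  have hidem : IsIdempotentElem P := by
    unfold IsIdempotentElem
    rw [hP, smul_mul_smul_comm]
    have : (1 + ρ u) * (1 + ρ u) = (2 : ℂ) • (1 + ρ u) := by
      rw [mul_add, mul_one, add_mul, hu2, one_mul, two_smul, add_comm (ρ u) 1]
    rw [this, smul_smul]
    norm_num
  have htr : LinearMap.trace ℂ _ P = (Module.finrank ℂ (LinearMap.range P) : ℂ) := by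
    exact (LinearMap.IsProj.trace (LinearMap.IsIdempotentElem.isProj_range _ hidem))
  refine ⟨2 * (Module.finrank ℂ (LinearMap.range P) : ℤ) - n, ?_, ?_⟩
  · have h1 : LinearMap.trace ℂ _ P = (2 : ℂ)⁻¹ * ((n : ℂ) + ρ.character u) := by
      rw [hP, map_smul, map_add, smul_eq_mul]
      simp [Representation.character]
    rw [h1] at htr
    push_cast
    rw [← htr]
    ring
  · have h2 : Cfsg.charDegree ρ.character = n := by
      unfold Cfsg.charDegree
      rw [Representation.char_one]
      simp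
    simp only [h2]
    exact ⟨n - Module.finrank ℂ (LinearMap.range P), by ring⟩

end Cfsg.Agent.S0944
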