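import Cfsg.Statements.S2330
import Cfsg.Agent.Lib.ClGL2Cls

set_option autoImplicit false
open Cfsg

namespace Cfsg.Agent.S2330

open Cfsg.Agent.Lib

/-- Over a finite field with q elements, the general linear group GL₂ has exactly q² − 1 conjugacy classes. -/
theorem result {F : Type*} [Field F] [Fintype F] :
    Nat.card (ConjClasses (Matrix.GeneralLinearGroup (Fin 2) F)) = Fintype.card F ^ 2 - 1 := by
  classical
  rw [← Nat.card_congr (Equiv.ofBijective _ (ClGL2Cls.clsMap_bijective (F := F)))]
  rw [Nat.card_eq_fintype_card, Fintype.card_sum, Fintype.card_prod, Fintype.card_units]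
  have h : 1 ≤ Fintype.card F := Fintype.card_pos
  obtain ⟨m, hm⟩ : ∃ m, Fintype.card F = m + 1 := ⟨Fintype.card F - 1, by omega⟩
  rw [hm]
  simp only [Nat.add_sub_cancel]
  have : (m + 1) ^ 2 = (m + 1) * m + m + 1 := by ring
  rw [this, Nat.add_sub_cancel]

end Cfsg.Agent.S2330
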