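import Cfsg.Statements.S4481
import Cfsg.Agent.Lib.H52Dih6

set_option autoImplicit false
open Cfsg

namespace Cfsg.Agent.S4481

/-- The principal 2-block of a group with dihedral Sylow 2-subgroups. Let G be a finite group whose Sylow 2-subgroup P is dihedral of order 2^n ≥ 8, let σ be an element of P of order 2^(n−1), ζ a primitive 2^(n−1)-th root of unity, and M a maximal ideal of the algebraic integers containing 2. Then the principal 2-block consists of exactly 3 + 2^(n−2) irreducible characters, which can be labelled 1, χ₁, χ₂, χ₃ and χ^(j) for 1 ≤ j ≤ 2^(n−2) − 1 (all distinct), with signs δ₁, δ₂, δ₃ such that for 0 < λ < 2^(n−1): χ₁(σ^λ) = δ₁, χ₂(σ^λ) = δ₂(−1)^(λ+1), χ₃(σ^λ) = δ₃(−1)^(λ+1) and χ^(j)(σ^λ) = δ₁(ζ^(jλ) + ζ^(−jλ)); and for every element ρ of odd order and every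 j: 1 + δ₁χ₁(ρ) = −δ₂χ₂(ρ) − δ₃χ₃(ρ) = δ₁χ^(j)(ρ). -/
theorem result {G : Type*} [Group G] [Finite G] (M : Ideal Cfsg.AlgInt) (hM : Cfsg.IsPModular 2 M) (n : ℕ) (hn : 3 ≤ n) (P : Sylow 2 G) (hP : Nonempty ((P : Subgroup G) ≃* DihedralGroup (2 ^ (n - 1)))) (σ : G) (hσ : σ ∈ (P : Subgroup G)) (hσo : orderOf σ = 2 ^ (n - 1)) (ζ : ℂ) (hζ : IsPrimitiveRoot ζ (2 ^ (n - 1))) : Nat.card (Cfsg.principalBlock M G) = 3 + 2 ^ (n - 2) ∧ ∃ (χ₁ χ₂ χ₃ : Cfsg.IrrCharacter G) (χ' : Fin (2 ^ (n - 2) - 1) → Cfsg.IrrCharacter G) (δ₁ δ₂ δ₃ : ℤ), (δ₁ = 1 ∨ δ₁ = -1) ∧ (δ₂ = 1 ∨ δ₂ = -1) ∧ (δ₃ = 1 ∨ δ₃ = -1) ∧ Function.Injective χ' ∧ (χ₁ : G → ℂ) ≠ (fun _ => 1) ∧ (χ₂ : G → ℂ) ≠ (fun _ => 1) ∧ (χ₃ : G → ℂ) ≠ (fun _ => 1) ∧ χ₁ ≠ χ₂ ∧ χ₁ ≠ χ₃ ∧ χ₂ ≠ χ₃ ∧ (∀ j, χ' j ≠ χ₁ ∧ χ' j ≠ χ₂ ∧ χ' j ≠ χ₃ ∧ (χ' j : G →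 ℂ) ≠ (fun _ => 1)) ∧ Cfsg.principalBlock M G = {χ : Cfsg.IrrCharacter G | (χ : G → ℂ) = (fun _ => 1) ∨ χ = χ₁ ∨ χ = χ₂ ∨ χ = χ₃ ∨ ∃ j, χ = χ' j} ∧ (∀ l : ℕ, 0 < l → l < 2 ^ (n - 1) → (χ₁ : G → ℂ) (σ ^ l) = δ₁ ∧ (χ₂ : G → ℂ) (σ ^ l) = δ₂ * (-1) ^ (l + 1) ∧ (χ₃ : G → ℂ) (σ ^ l) = δ₃ * (-1) ^ (l + 1) ∧ ∀ j : Fin (2 ^ (n - 2) - 1), (χ' j : G → ℂ) (σ ^ l) = δ₁ * (ζ ^ (((j : ℕ) + 1) * l) + (ζ ^ (((j : ℕ) + 1) * l))⁻¹)) ∧ ∀ ρ : G, Odd (orderOf ρ) → ∀ j : Fin (2 ^ (n - 2) - 1), 1 + δ₁ * (χ₁ : G → ℂ) ρ = -δ₂ * (χ₂ : G → ℂ) ρ - δ₃ * (χ₃ : G → ℂ) ρ ∧ 1 + δ₁ * (χ₁ : G → ℂ) ρ = δ₁ * (χ' j : G → ℂ) ρ := by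
  obtain ⟨m, rfl⟩ : ∃ m, n = m + 2 := ⟨n - 2, by omega⟩
  have e1 : m + 2 - 2 = m := by omega
  have e2 : 2 ^ (m + 2 - 1) = 2 * 2 ^ m := by
    rw [show m + 2 - 1 = m + 1 by omega, pow_succ]; ring
  obtain ⟨y, h⟩ := Lib.H52Dih1.dh_of_rotation P hn hP hσ hσo
  rw [e1] at h
  rw [e2] at hζ ⊢
  rw [e1]
  have hq : 0 < 2 ^ m := by positivity
  obtain ⟨K, c⟩ := Lib.H52Dih1.exists_comp h
  obtain ⟨a, b, d, o, δ, β, γ, L⟩ := Lib.H52Dih6.exists_lab hM h c (by omega) hζ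
  have hcoe : ∀ χ : IrrCharacter G, (χ : G → ℂ) = (fun _ => 1) ↔ χ = Lib.BlockThird.triv G := by
    intro χ
    rw [← Lib.BlockThird.coe_triv]
    exact ⟨fun h => Subtype.ext h, fun h => congrArg Subtype.val h⟩
  have hodd : ∀ ρ : G, Odd (orderOf ρ) → ¬ 2 ∣ orderOf ρ := by
    intro ρ hρ h2
    exact (Nat.not_even_iff_odd.mpr hρ) (even_iff_two_dvd.mpr h2)
  have hj : ∀ j : Fin (2 ^ m - 1), 1 ≤ (j : ℕ) + 1 ∧ (j : ℕ) + 1 < 2 ^ m := fun j =>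
    ⟨by omega, by have := j.2; omega⟩
  refine ⟨L.card hq, a, b, d, fun j => o ((j : ℕ) + 1), δ, β, γ, L.dδ, L.dβ, L.dγ, ?_, ?_, ?_, ?_,
    L.ab, L.ac, L.bc, ?_, ?_, ?_, ?_⟩
  · intro i j hij
    by_contra hne
    refine L.oo _ _ (hj i).1 (hj i).2 (hj j).1 (hj j).2 ?_ hij
    intro h3
    exact hne (Fin.ext (by omega))
  · rw [Ne, hcoe]; exact L.a1
  · rw [Ne, hcoe]; exact L.b1
  · rw [Ne, hcoe]; exact L.c1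
  · intro j
    refine ⟨L.oa _ (hj j).1 (hj j).2, L.ob _ (hj j).1 (hj j).2, L.oc _ (hj j).1 (hj j).2, ?_⟩
    rw [Ne, hcoe]; exact L.o1 _ (hj j).1 (hj j).2
  · ext χ
    rw [L.mem, Set.mem_setOf_eq, hcoe]
    constructor
    · rintro (h1 | h1 | h1 | h1 | ⟨j, h1, h2, h3⟩)
      · tauto
      · tauto
      · tauto
      · tauto
      · refine Or.inr (Or.inr (Or.inr (Or.inr ⟨⟨j - 1, by omega⟩, ?_⟩)))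
        rw [h3]
        congr 1
        show j = j - 1 + 1
        omega
    · rintro (h1 | h1 | h1 | h1 | ⟨j, h3⟩)
      · tauto
      · tauto
      · tauto
      · tauto
      · exact Or.inr (Or.inr (Or.inr (Or.inr ⟨_, (hj j).1, (hj j).2, h3⟩)))
  · intro l hl0 hl
    refine ⟨L.va l hl0 hl, L.vb l hl0 hl, L.vc l hl0 hl, fun j => ?_⟩
    exact L.vo _ (hj j).1 (hj j).2 l hl0 hl
  · intro ρ hρ j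
    refine ⟨L.rel1 ρ (hodd ρ hρ), L.rel2 _ (hj j).1 (hj j).2 ρ (hodd ρ hρ)⟩

end Cfsg.Agent.S4481
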