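import Cfsg.Statements.S4482
import Cfsg.Agent.Lib.H52Dih10
import Cfsg.Agent.Lib.ConjSylow

set_option autoImplicit false
open Cfsg

namespace Cfsg.Agent.S4482

open Cfsg.Agent.Lib.DihSylow in
theorem dh_of_gens {G : Type*} [Group G] [Finite G] (m : ℕ) (hm : 1 ≤ m) (P : Sylow 2 G) (σ τ : G)
    (hσ : σ ∈ (P : Subgroup G)) (hτ : τ ∈ (P : Subgroup G)) (hσo : orderOf σ = 2 * 2 ^ m)
    (hτo : orderOf τ = 2) (hrel : τ * σ * τ⁻¹ = σ⁻¹)
    (hgen : Subgroup.closure ({σ, τ} : Set G) = (P : Subgroup G)) :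
    DH (P : Subgroup G) σ τ (2 ^ m) m := by
  have hττ : τ * τ = 1 := by
    have := pow_orderOf_eq_one τ
    rwa [hτo, sq] at this
  have hpos : 1 < 2 ^ m := Nat.one_lt_two_pow (by omega)
  have hnot : τ ∉ Subgroup.zpowers σ := by
    rintro ⟨i, hi⟩
    have h1 : τ * σ * τ⁻¹ = σ := by
      rw [← hi]
      show σ ^ i * σ * (σ ^ i)⁻¹ = σ
      rw [← zpow_neg, ← zpow_add_one, ← zpow_add]
      rw [show i + 1 + -i = 1 by ring, zpow_one]
    rw [hrel] at h1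
    have h2 : σ ^ 2 = 1 := by
      rw [sq]; nth_rw 1 [← h1]; exact inv_mul_cancel σ
    have := Nat.le_of_dvd (by norm_num) (orderOf_dvd_of_pow_eq_one h2)
    omega
  refine ⟨rfl, ?_, hσ, hτ, hσo, hττ, hrel, hnot⟩
  -- cardinality
  have hnorm : Subgroup.zpowers τ ≤ Subgroup.normalizer (Subgroup.zpowers σ : Set G) := by
    rw [Subgroup.zpowers_le, Subgroup.mem_normalizer_iff]
    intro g
    have hconj : ∀ g, g ∈ Subgroup.zpowers σ → τ * g * τ⁻¹ ∈ Subgroup.zpowers σ := by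
      rintro _ ⟨i, rfl⟩
      show τ * σ ^ i * τ⁻¹ ∈ _
      rw [← conj_zpow, hrel]
      exact Subgroup.zpow_mem _ (Subgroup.inv_mem _ (Subgroup.mem_zpowers σ)) i
    refine ⟨hconj g, fun hg => ?_⟩
    have h1 := hconj _ hg
    have hti : τ⁻¹ = τ := inv_eq_of_mul_eq_one_left hττ
    have : τ * (τ * g * τ⁻¹) * τ⁻¹ = g := by
      rw [hti]
      calc τ * (τ * g * τ) * τ = (τ * τ) * g * (τ * τ) := by group
        _ = g := by rw [hττ]; group
    rwa [this] at h1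
  have hsup : Subgroup.zpowers τ ⊔ Subgroup.zpowers σ = (P : Subgroup G) := by
    rw [← hgen, sup_comm, Subgroup.zpowers_eq_closure, Subgroup.zpowers_eq_closure,
      ← Subgroup.closure_union]
    rfl
  have hinf : Subgroup.zpowers τ ⊓ Subgroup.zpowers σ = ⊥ := by
    rw [eq_bot_iff]
    rintro _ ⟨⟨i, rfl⟩, h2⟩
    rw [Subgroup.mem_bot]
    show τ ^ i = 1
    have h3 : τ ^ i ∈ Subgroup.zpowers σ := h2
    rcases Int.even_or_odd i with ⟨j, rfl⟩ | ⟨j, rfl⟩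
    · rw [← two_mul, zpow_mul]
      norm_cast
      rw [sq, hττ, one_zpow]
    · exfalso
      apply hnot
      have : τ ^ (2 * j + 1) = τ := by
        rw [zpow_add_one, zpow_mul]
        norm_cast
        rw [sq, hττ, one_zpow, one_mul]
      rwa [this] at h3
  have h1 := Lib.ConjSylow.card_sup_mul_card_inf hnorm
  rw [hsup, hinf, Subgroup.card_bot, mul_one, Nat.card_zpowers, Nat.card_zpowers, hτo, hσo] at h1
  rw [h1]; ring

/-- An order formula for groups with dihedral Sylow 2-subgroups and one class of involutions. Let G be a finite group whose Sylow 2-subgroup P = ⟨σ, τ⟩ is dihedral of order 2^n ≥ 8 (σ of order 2^(n−1), τ an involution inverting σ), let J be the central involution σ^(2^(n−2)), and suppose J, τ and στ are conjugate in G. Fix M over 2 and let χ₁ be an irreducible character in the principal 2-block taking one constant value δ₁ = ±1 at every non-identity power of σ, with χ₁ ≠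 1. Then, with x₁ = χ₁(1) and c(·) denoting orders of centralizers, x₁ ≠ δ₁ and #G · (x₁ − δ₁)² = 2·x₁(x₁ + δ₁)·c(J)³·(1/c(J, τ) + 1/c(J, στ))², where c(J, y) is the order of the joint centralizer of J and y. -/
theorem result {G : Type*} [Group G] [Finite G] (M : Ideal Cfsg.AlgInt) (hM : Cfsg.IsPModular 2 M) (n : ℕ) (hn : 3 ≤ n) (P : Sylow 2 G) (σ τ : G) (hσ : σ ∈ (P : Subgroup G)) (hτ : τ ∈ (P : Subgroup G)) (hσo : orderOf σ = 2 ^ (n - 1)) (hτo : orderOf τ = 2) (hrel : τ * σ * τ⁻¹ = σ⁻¹) (hgen : Subgroup.closure ({σ, τ} : Set G) = (P : Subgroup G)) (hconj : IsConj (σ ^ (2 ^ (n - 2))) τ ∧ IsConj (σ ^ (2 ^ (n - 2))) (σ * τ)) (χ₁ : Cfsg.IrrCharacter G) (hχ₁ : χ₁ ∈ Cfsg.principalBlock M G) (h1 : (χ₁ : G → ℂ) ≠ (fun _ => 1)) (δ₁ : ℤ) (hδ₁ : δ₁ = 1 ∨ δ₁ = -1) (hval : ∀ l : ℕ, 0 < l → l < 2 ^ (n - 1) → (χ₁ : G → ℂ) (σ ^ l) = δ₁) : (Cfsg.charDegree (χ₁ : G → ℂ) : ℤ) ≠ δ₁ ∧ (Nat.card G : ℚ) * ((Cfsg.charDegree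 (χ₁ : G → ℂ) : ℚ) - δ₁) ^ 2 = 2 * (Cfsg.charDegree (χ₁ : G → ℂ) : ℚ) * ((Cfsg.charDegree (χ₁ : G → ℂ) : ℚ) + δ₁) * (Nat.card (Subgroup.centralizer ({σ ^ (2 ^ (n - 2))} : Set G)) : ℚ) ^ 3 * (1 / (Nat.card (Subgroup.centralizer ({σ ^ (2 ^ (n - 2)), τ} : Set G)) : ℚ) + 1 / (Nat.card (Subgroup.centralizer ({σ ^ (2 ^ (n - 2)), σ * τ} : Set G)) : ℚ)) ^ 2 := by
  obtain ⟨m, rfl⟩ : ∃ m, n = m + 2 := ⟨n - 2, by omega⟩
  have e1 : m + 2 - 2 = m := by omega
  have e2 : 2 ^ (m + 2 - 1) = 2 * 2 ^ m := by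
    rw [show m + 2 - 1 = m + 1 by omega, pow_succ]; ring
  rw [e2] at hσo hval
  rw [e1] at hconj ⊢
  have hm : 1 ≤ m := by omega
  have h := dh_of_gens m hm P σ τ hσ hτ hσo hτo hrel hgen
  have hq2 : 2 ≤ 2 ^ m := by
    calc 2 = 2 ^ 1 := rfl
      _ ≤ 2 ^ m := Nat.pow_le_pow_right (by norm_num) hm
  have hq : 0 < 2 ^ m := by omega
  obtain ⟨K, c⟩ := Lib.H52Dih1.exists_comp h
  haveI : Fintype G := Fintype.ofFinite G
  have hζ := Complex.isPrimitiveRoot_exp (2 * 2 ^ m) (by omega)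
  set ζ := Complex.exp (2 * Real.pi * Complex.I / ((2 * 2 ^ m : ℕ) : ℂ)) with hζdef
  obtain ⟨a, b, d, o, δ, β, γ, L⟩ := Lib.H52Dih6.exists_lab hM h c (by omega) hζ
  have hz : σ ^ ((2 ^ m : ℕ) : ℤ) = σ ^ (2 ^ m) := zpow_natCast σ _
  have hone : ∀ s : G, orderOf s = 2 → IsConj (σ ^ ((2 ^ m : ℕ) : ℤ)) s := by
    intro s hs
    apply Lib.H52Dih9.isConj_of_order_two h _ _ hs
    · rw [hz]; exact hconj.1
    · rw [hz]; exact hconj.2
  -- identify `χ₁`
  have hcoe : ∀ χ : IrrCharacter G, (χ : G → ℂ) = (fun _ => 1) ↔ χ = Lib.BlockThird.triv G := by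
    intro χ
    rw [← Lib.BlockThird.coe_triv]
    exact ⟨fun h => Subtype.ext h, fun h => congrArg Subtype.val h⟩
  have hδ2 : (δ₁ : ℂ) * δ₁ = 1 := by rcases hδ₁ with e | e <;> rw [e] <;> norm_num
  have halt : ∀ ε : ℤ, (ε = 1 ∨ ε = -1) → ¬ (∀ l : ℕ, 0 < l → l < 2 * 2 ^ m →
      (δ₁ : ℂ) = ε * (-1) ^ (l + 1)) := by
    intro ε hε hall
    have h1 := hall 1 (by norm_num) (by omega)
    have h2 := hall 2 (by norm_num) (by omega)
    rw [h1] at h2
    have h3 : (ε : ℂ) ≠ 0 := by rcases hε with e | e <;> rw [e] <;> norm_num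
    apply h3
    linear_combination (1 / 2 : ℂ) * h2
  have hχa : χ₁ = a := by
    rcases (L.mem χ₁).mp hχ₁ with e | e | e | e | ⟨j, hj1, hj2, e⟩
    · exact absurd ((hcoe χ₁).mpr e) h1
    · exact e
    · exfalso
      apply halt β L.dβ
      intro l hl0 hl
      rw [← hval l hl0 hl, e]; exact L.vb l hl0 hl
    · exfalso
      apply halt γ L.dγ
      intro l hl0 hl
      rw [← hval l hl0 hl, e]; exact L.vc l hl0 hl
    · exfalso
      have h2 := L.vo j hj1 hj2 (2 ^ m) hq (by omega)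
      rw [← e, hval (2 ^ m) hq (by omega)] at h2
      have hζq : ζ ^ (j * 2 ^ m) = (-1) ^ j := by
        rw [mul_comm, pow_mul, Lib.H52Dih6.ζ_q hq hζ]
      rw [hζq] at h2
      have hδ' : (δ : ℂ) * δ = 1 := by rcases L.dδ with e | e <;> rw [e] <;> norm_num
      have h3 : ((-1 : ℂ)) ^ j = 1 ∨ ((-1 : ℂ)) ^ j = -1 := neg_one_pow_eq_or ℂ j
      have h4 : (δ₁ : ℂ) * δ₁ = 4 := by
        rw [h2]
        rcases h3 with e | e <;> rw [e] <;> norm_num <;> linear_combination 4 * hδ'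
      rw [hδ2] at h4
      norm_num at h4
  have hδδ : δ₁ = δ := by
    have h2 := hval 1 (by norm_num) (by omega)
    rw [hχa, L.va 1 (by norm_num) (by omega)] at h2
    exact_mod_cast h2.symm
  subst hχa hδδ
  obtain ⟨f1, f2⟩ := Lib.H52Dih10.formula hM h hq2 c hone hζ L
  rw [hz, ← Lib.BlockDeg.charDegree_cast_irr] at f2
  rw [← Lib.BlockDeg.charDegree_cast_irr] at f1
  constructor
  · intro he
    apply f1
    exact_mod_cast he
  · apply Rat.cast_injective (α := ℂ)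
    push_cast
    exact f2

end Cfsg.Agent.S4482
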