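import Cfsg.Statements.S0957
import Cfsg.Agent.Lib.SylIn

set_option autoImplicit false
open Cfsg

namespace Cfsg.Agent.S0957

open Cfsg.Agent.Lib.SylIn

/-- If `n` divides the length of every orbit then it divides the size of the set. -/
theorem dvd_card_of_dvd_orbits {P X : Type*} [Group P] [MulAction P X] [Finite X] (n : ℕ)
    (h : ∀ x : X, n ∣ Nat.card (MulAction.orbit P x)) : n ∣ Nat.card X := by
  classical
  have := Fintype.ofFinite X
  have : Fintype (MulAction.orbitRel.Quotient P X) := Fintype.ofFinite _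
  rw [Nat.card_congr (MulAction.selfEquivSigmaOrbits P X), Nat.card_sigma]
  refine Finset.dvd_sum fun ω _ => ?_
  exact h _

/-- Let P be a Sylow p-subgroup of the finite group G, let g, h ∈ G and let p ^ d be the order of a Sylow p-subgroup of the centralizer of g. Then the number of pairs (y, z) with y conjugate to g, z conjugate to h and z * y⁻¹ ∈ P is divisible by the order of P divided by p ^ d. -/
theorem result {G : Type*} [Group G] [Finite G] (p : ℕ) [Fact p.Prime] (P : Sylow p G) (g h : G) (S : Sylow p (Subgroup.centralizer ({g} : Set G))) : Nat.card P / Nat.card S ∣ Nat.card {yz : G × G // IsConj g yz.1 ∧ IsConj h yz.2 ∧ yz.2 * yz.1⁻¹ ∈ (P : Subgroup G)} := by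
  classical
  set X := {yz : G × G // IsConj g yz.1 ∧ IsConj h yz.2 ∧ yz.2 * yz.1⁻¹ ∈ (P : Subgroup G)} with hX
  let act : MulAction P X :=
    { smul := fun u x => ⟨((u : G) * x.1.1 * (u : G)⁻¹, (u : G) * x.1.2 * (u : G)⁻¹),
        x.2.1.trans (isConj_iff.2 ⟨u, rfl⟩), x.2.2.1.trans (isConj_iff.2 ⟨u, rfl⟩), by
          have h1 := (P : Subgroup G).mul_mem ((P : Subgroup G).mul_mem u.2 x.2.2.2)
            ((P : Subgroup G).inv_mem u.2)
          have h2 : (u : G) * x.1.2 * (u : G)⁻¹ * ((u : G) * x.1.1 * (u : G)⁻¹)⁻¹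
              = (u : G) * (x.1.2 * x.1.1⁻¹) * (u : G)⁻¹ := by group
          rw [h2]; exact h1⟩
      one_smul := fun x => by
        apply Subtype.ext
        change (((1 : P) : G) * x.1.1 * ((1 : P) : G)⁻¹, ((1 : P) : G) * x.1.2 * ((1 : P) : G)⁻¹) = x.1
        simp
      mul_smul := fun u v x => by
        apply Subtype.ext
        change (((u * v : P) : G) * x.1.1 * ((u * v : P) : G)⁻¹, ((u * v : P) : G) * x.1.2 * ((u * v : P) : G)⁻¹)
          = ((u : G) * ((v : G) * x.1.1 * (v : G)⁻¹) * (u : G)⁻¹, (u : G) * ((v : G) * x.1.2 * (v : G)⁻¹) * (u : G)⁻¹)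
        simp [mul_assoc] }
  apply dvd_card_of_dvd_orbits (P := P)
  intro x
  have h1 : Nat.card (MulAction.orbit P x) * Nat.card (MulAction.stabilizer P x) = Nat.card P := by
    rw [← Nat.card_prod]
    exact Nat.card_congr (MulAction.orbitProdStabilizerEquivGroup P x)
  -- the stabilizer is isomorphic to a `p`-subgroup of `C(y)`
  have h2 : Nat.card (MulAction.stabilizer P x) ∣ Nat.card S := by
    obtain ⟨c, hc⟩ := isConj_iff.1 x.2.1
    have hle : (MulAction.stabilizer P x).map (P : Subgroup G).subtype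
        ≤ Subgroup.centralizer ({x.1.1} : Set G) := by
      rintro _ ⟨u, hu, rfl⟩
      rw [Subgroup.mem_centralizer_singleton_iff]
      have h3 : u • x = x := hu
      have h4 := congrArg (fun t => t.1.1) h3
      change (u : G) * x.1.1 * (u : G)⁻¹ = x.1.1 at h4
      exact mul_inv_eq_iff_eq_mul.1 h4
    have hp : IsPGroup p ((MulAction.stabilizer P x).map (P : Subgroup G).subtype) :=
      (P.isPGroup'.to_subgroup _).map _
    have hS : SylIn p ((S : Subgroup (Subgroup.centralizer ({g} : Set G))).map
        (Subgroup.centralizer ({g} : Set G)).subtype) (Subgroup.centralizer ({g} : Set G)) := ⟨S, rfl⟩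
    have hS2 := hS.conj c
    rw [map_conj_centralizer, hc] at hS2
    obtain ⟨k, -, hk⟩ := hS2.exists_conj_le hle hp
    have h5 := Subgroup.card_dvd_of_le hk
    rwa [card_map_conj, card_map_conj, Subgroup.card_map_of_injective (Subgroup.subtype_injective _),
      Subgroup.card_map_of_injective (Subgroup.subtype_injective _)] at h5
  obtain ⟨m, hm⟩ := h2
  have hpos : 0 < Nat.card S := Nat.card_pos
  have h6 : Nat.card S ∣ Nat.card P := by
    have h7 : Nat.card ((S : Subgroup (Subgroup.centralizer ({g} : Set G))).map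
        (Subgroup.centralizer ({g} : Set G)).subtype) = Nat.card S :=
      Subgroup.card_map_of_injective (Subgroup.subtype_injective _)
    obtain ⟨Q, hQ⟩ := (S.isPGroup'.map (Subgroup.centralizer ({g} : Set G)).subtype).exists_le_sylow
    have h8 := Subgroup.card_dvd_of_le hQ
    rw [h7] at h8
    rwa [Nat.card_congr (Sylow.equiv Q P).toEquiv] at h8
  have hb : 0 < Nat.card (MulAction.stabilizer P x) := Nat.card_pos
  rw [← h1, hm, mul_comm (Nat.card (MulAction.orbit P x)), Nat.mul_div_mul_left _ _ hb]
  rw [← h1, hm, mul_comm (Nat.card (MulAction.orbit P x))] at h6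
  exact Nat.div_dvd_of_dvd (Nat.dvd_of_mul_dvd_mul_left hb h6)

end Cfsg.Agent.S0957
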