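import Cfsg.Statements.S3379
import Mathlib

set_option autoImplicit false
open Cfsg
open scoped commutatorElement

namespace Cfsg.Agent.S3379

/-- Let G be a finite group all of whose Sylow subgroups are cyclic. Then G is generated by two elements x and y of coprime orders n and m with x⁻¹yx = y^r, where gcd(r − 1, m) = 1 and r^n ≡ 1 (mod m). -/
theorem result {G : Type*} [Group G] [Finite G]
    (hZ : ∀ (p : ℕ) [Fact p.Prime] (P : Sylow p G), IsCyclic (P : Subgroup G)) :
    ∃ (x y : G) (n m r : ℕ), Subgroup.closure {x, y} = ⊤ ∧ orderOf x = n ∧ orderOf y = m ∧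
      x⁻¹ * y * x = y ^ r ∧ Nat.Coprime (r - 1) m ∧ Nat.Coprime n m ∧ 1 ≤ r ∧ r ^ n % m = 1 % m := by
  have hG : IsZGroup G := ⟨fun p hp P => by have := Fact.mk hp; exact hZ p P⟩
  obtain ⟨H, hH⟩ := Subgroup.exists_right_complement'_of_coprime hG.coprime_commutator_index
  have h1 : Abelianization G ≃* H := hH.symm.QuotientMulEquiv
  have hHc : IsCyclic H := isCyclic_of_surjective _ h1.surjective
  have hNc : IsCyclic (commutator G) := hG.isCyclic_commutator
  obtain ⟨⟨x, hxH⟩, hx⟩ := hHc.exists_zpow_surjective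
  obtain ⟨⟨y, hyN⟩, hy⟩ := hNc.exists_zpow_surjective
  have hHx : H = Subgroup.zpowers x := by
    apply le_antisymm
    · intro z hz
      obtain ⟨k, hk⟩ := hx ⟨z, hz⟩
      exact ⟨k, congrArg Subtype.val hk⟩
    · rw [Subgroup.zpowers_le]; exact hxH
  have hNy : commutator G = Subgroup.zpowers y := by
    apply le_antisymm
    · intro z hz
      obtain ⟨k, hk⟩ := hy ⟨z, hz⟩
      exact ⟨k, congrArg Subtype.val hk⟩
    · rw [Subgroup.zpowers_le]; exact hyN
  have hconj : x⁻¹ * y * x ∈ Subgroup.zpowers y := by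
    rw [← hNy]
    have := (inferInstance : (commutator G).Normal).conj_mem y hyN x⁻¹
    simpa using this
  have hypos : 0 < orderOf y := orderOf_pos y
  obtain ⟨r₀, hr₀⟩ : ∃ r₀ : ℕ, y ^ r₀ = x⁻¹ * y * x := by
    have := mem_powers_iff_mem_zpowers.2 hconj
    exact this
  set r : ℕ := r₀ + orderOf y with hrdef
  have hr : x⁻¹ * y * x = y ^ r := by
    rw [hrdef, pow_add, pow_orderOf_eq_one, mul_one]; exact hr₀.symm
  have hr1 : 1 ≤ r := by omega
  have hcop : (orderOf x).Coprime (orderOf y) := by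
    have h2 : Nat.card H = orderOf x := by rw [hHx, Nat.card_zpowers]
    have h3 : Nat.card (commutator G) = orderOf y := by rw [hNy, Nat.card_zpowers]
    have h4 : (commutator G).index = Nat.card H := hH.symm.index_eq_card
    rw [← h2, ← h3, ← h4]
    exact hG.coprime_commutator_index.symm
  have hclos : Subgroup.closure {x, y} = ⊤ := by
    have h5 := hH.sup_eq_top
    rw [eq_top_iff, ← h5, hNy, hHx, sup_le_iff, Subgroup.zpowers_le, Subgroup.zpowers_le]
    exact ⟨Subgroup.subset_closure (by simp), Subgroup.subset_closure (by simp)⟩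
  -- power conj
  have hpc : ∀ k : ℕ, (x ^ k)⁻¹ * y * x ^ k = y ^ (r ^ k) := by
    intro k
    induction k with
    | zero => simp
    | succ k ih =>
      have : (x ^ (k+1))⁻¹ * y * x ^ (k+1) = x⁻¹ * ((x ^ k)⁻¹ * y * x ^ k) * x := by
        rw [pow_succ]; group
      rw [this, ih]
      have h6 : x⁻¹ * y ^ r ^ k * x = (x⁻¹ * y * x) ^ (r ^ k) := by
        have := conj_pow (a := x⁻¹) (b := y) (i := r ^ k)
        rw [inv_inv] at this
        exact this.symm
      rw [h6, hr, ← pow_mul, ← pow_succ']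
  have hrn : r ^ orderOf x % orderOf y = 1 % orderOf y := by
    have h7 := hpc (orderOf x)
    rw [pow_orderOf_eq_one, inv_one, one_mul, mul_one] at h7
    have h8 : y ^ 1 = y ^ (r ^ orderOf x) := by rw [pow_one]; exact h7
    exact (pow_eq_pow_iff_modEq.1 h8).symm
  refine ⟨x, y, orderOf x, orderOf y, r, hclos, rfl, rfl, hr, ?_, hcop, hr1, hrn⟩
  -- coprimality of r - 1 and m
  set M := Subgroup.zpowers (y ^ (r - 1)) with hM
  have hMnorm : M.Normal := by
    have hle : M ≤ commutator G := by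
      rw [hNy, hM, Subgroup.zpowers_le]; exact Subgroup.npow_mem_zpowers _ _
    constructor
    intro n hn g
    obtain ⟨k, rfl⟩ := hn
    have hg : g * y * g⁻¹ ∈ Subgroup.zpowers y := by
      rw [← hNy]; exact (inferInstance : (commutator G).Normal).conj_mem y hyN g
    obtain ⟨l, hl⟩ := hg
    have h9 : g * (y ^ (r - 1)) ^ k * g⁻¹ = ((y ^ (r-1)) ^ l) ^ k := by
      rw [← conj_zpow, ← conj_pow]
      have h10 : g * y * g⁻¹ = y ^ l := hl.symm
      rw [h10, ← zpow_natCast, ← zpow_natCast, ← zpow_mul, ← zpow_mul, ← zpow_mul, ← zpow_mul]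
      congr 1
      ring
    show g * (y ^ (r - 1)) ^ k * g⁻¹ ∈ M
    rw [h9]
    exact Subgroup.zpow_mem _ (Subgroup.zpow_mem _ (Subgroup.mem_zpowers _) _) _
  have hcommxy : (x : G ⧸ M) * (y : G ⧸ M) = (y : G ⧸ M) * (x : G ⧸ M) := by
    rw [← QuotientGroup.mk_mul, ← QuotientGroup.mk_mul, QuotientGroup.eq]
    have h11 : (x * y)⁻¹ * (y * x) = y⁻¹ * (x⁻¹ * y * x) := by group
    rw [h11, hr]
    have h12 : y⁻¹ * y ^ r = y ^ (r - 1) := by
      obtain ⟨s, hs⟩ : ∃ s, r = s + 1 := ⟨r - 1, by omega⟩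
      rw [hs, pow_succ']; simp
    rw [h12]
    exact Subgroup.mem_zpowers _
  have hquot : ∀ a b : G ⧸ M, a * b = b * a := by
    have htop : Subgroup.closure ({(x : G ⧸ M), (y : G ⧸ M)} : Set (G ⧸ M)) = ⊤ := by
      have h13 := congrArg (Subgroup.map (QuotientGroup.mk' M)) hclos
      rw [MonoidHom.map_closure, Subgroup.map_top_of_surjective _ (QuotientGroup.mk'_surjective M)] at h13
      rw [← h13]
      congr 1
      rw [Set.image_pair]
      rfl
    have hcl : Subgroup.closure ({(x : G ⧸ M), (y : G ⧸ M)} : Set (G ⧸ M)) ≤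
        Subgroup.centralizer ({(x : G ⧸ M), (y : G ⧸ M)} : Set (G ⧸ M)) := by
      rw [Subgroup.closure_le]
      rintro z (rfl | rfl)
      · rw [SetLike.mem_coe, Subgroup.mem_centralizer_iff]
        rintro w (rfl | rfl)
        · rfl
        · exact hcommxy.symm
      · rw [SetLike.mem_coe, Subgroup.mem_centralizer_iff]
        rintro w (rfl | rfl)
        · exact hcommxy
        · rfl
    have hcl2 : Subgroup.closure ({(x : G ⧸ M), (y : G ⧸ M)} : Set (G ⧸ M)) ≤
        Subgroup.centralizer (Subgroup.closure ({(x : G ⧸ M), (y : G ⧸ M)} : Set (G ⧸ M)) : Set (G ⧸ M)) := by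
      rw [Subgroup.centralizer_closure]; exact hcl
    intro a b
    rw [htop] at hcl2
    have := hcl2 (Subgroup.mem_top b)
    rw [Subgroup.mem_centralizer_iff] at this
    exact this a (Subgroup.mem_top a)
  have hle : commutator G ≤ M := by
    rw [commutator_def, Subgroup.commutator_le]
    intro a _ b _
    rw [commutatorElement_def, ← QuotientGroup.eq_one_iff]
    have := hquot (a : G ⧸ M) b
    rw [QuotientGroup.mk_mul, QuotientGroup.mk_mul, QuotientGroup.mk_mul, this, QuotientGroup.mk_inv,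
      QuotientGroup.mk_inv]
    group
  have hymem : y ∈ M := hle hyN
  obtain ⟨k, hk⟩ := hymem
  -- y = (y^(r-1))^k
  have hk' : (y ^ (r - 1)) ^ k = y := hk
  have h14 : y ^ (((r - 1 : ℕ) : ℤ) * k - 1) = 1 := by
    rw [zpow_sub, zpow_one, zpow_mul, zpow_natCast, hk', mul_inv_cancel]
  rw [← orderOf_dvd_iff_zpow_eq_one] at h14
  rw [← Nat.isCoprime_iff_coprime]
  obtain ⟨c, hc⟩ := h14
  exact ⟨k, -c, by linarith [hc]⟩

end Cfsg.Agent.S3379
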