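import Cfsg.Statements.S1006
import Cfsg.Agent.Lib.Simple168

set_option autoImplicit false
open Cfsg

namespace Cfsg.Agent.S1006

open Cfsg.Agent.Lib.SmallSimple Cfsg.Agent.Lib.Simple168

/-- In a simple group of order 168 there are 56 elements of order 3, all conjugate; 42 elements of order 4, all conjugate; and 48 elements of order 7 falling into two conjugacy classes of size 24, an element of order 7 not being conjugate to its inverse. -/
theorem result {G : Type*} [Group G] [Finite G] [IsSimpleGroup G] (h : Nat.card G = 168) : Nat.card {g : G // orderOf g = 3} = 56 ∧ (∀ s t : G, orderOf s = 3 → orderOf t = 3 → IsConj s t) ∧ Nat.card {g : G // orderOf g = 4} = 42 ∧ (∀ s t : G, orderOf s = 4 → orderOf t = 4 → IsConj s t) ∧ Nat.card {g : G // orderOf g = 7} = 48 ∧ ∀ x : G, orderOf x = 7 → Nat.card {g : G // IsConj x g} = 24 ∧ ¬ IsConj x x⁻¹ := by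
  have c3 := card_orderOf_eq (p := 3) (card3 h)
  rw [n3 h] at c3
  have c7 := card_orderOf_eq (p := 7) (card7 h)
  rw [n7 h] at c7
  refine ⟨c3, ?_, card_order_four h, isConj_order_four h, c7, ?_⟩
  · intro s t hs ht
    have h1 := card_isConj_mul_card_centralizer s
    rw [cent3 h s hs, Nat.card_zpowers, hs, h] at h1
    have h2 : ({g : G | IsConj s g}).ncard = Nat.card {g : G // IsConj s g} := rfl
    have h3 : ({g : G | orderOf g = 3}).ncard = Nat.card {g : G // orderOf g = 3} := rfl
    have h4 : {g : G | IsConj s g} = {g : G | orderOf g = 3} := by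
      refine Set.eq_of_subset_of_ncard_le ?_ ?_ (Set.toFinite _)
      · intro g hg
        exact (orderOf_eq_of_isConj (show IsConj s g from hg)).symm.trans hs
      · omega
    have h5 : t ∈ {g : G | IsConj s g} := by rw [h4]; exact ht
    exact h5
  · intro x hx
    constructor
    · have h1 := card_isConj_mul_card_centralizer x
      rw [cent7 h x hx, Nat.card_zpowers, hx, h] at h1
      omega
    · intro hc
      obtain ⟨g, hg⟩ := isConj_iff.1 hc
      -- `g` normalizes `⟨x⟩`
      have hRp : IsPGroup 7 (Subgroup.zpowers x) := by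
        apply IsPGroup.of_card (n := 1)
        rw [Nat.card_zpowers, hx, pow_one]
      obtain ⟨P, hP⟩ := hRp.exists_le_sylow
      have hPx : Subgroup.zpowers x = P := by
        apply Subgroup.eq_of_le_of_card_ge hP
        rw [card7 h P, Nat.card_zpowers, hx]
      have hgN : g ∈ Subgroup.normalizer ((P : Subgroup G) : Set G) := by
        rw [← hPx, Subgroup.mem_normalizer_iff_map_conj_eq]
        apply Subgroup.eq_of_le_of_card_ge
        · rintro y ⟨w, hw, rfl⟩
          obtain ⟨k, rfl⟩ := Subgroup.mem_zpowers_iff.1 hw
          change MulAut.conj g (x ^ k) ∈ Subgroup.zpowers x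
          rw [map_zpow, MulAut.conj_apply, hg]
          exact Subgroup.zpow_mem _ (Subgroup.inv_mem _ (Subgroup.mem_zpowers x)) k
        · rw [Nat.card_congr ((Subgroup.zpowers x).equivMapOfInjective _ (MulAut.conj g).injective).toEquiv.symm]
      have hgo := orderOf_dvd_card_of_mem hgN
      rw [cardN7 h P] at hgo
      -- `g ^ 2` commutes with `x`
      have hg2 : Commute (g ^ 2) x := by
        have h1 : g * x = x⁻¹ * g := by rw [← hg]; group
        have h2 : g * x⁻¹ = x * g := by
          have : g * x⁻¹ * g⁻¹ = x := by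
            have h3 : g * x⁻¹ * g⁻¹ = (g * x * g⁻¹)⁻¹ := by group
            rw [h3, hg, inv_inv]
          calc g * x⁻¹ = (g * x⁻¹ * g⁻¹) * g := by group
            _ = x * g := by rw [this]
        change g ^ 2 * x = x * g ^ 2
        rw [pow_two, mul_assoc, h1, ← mul_assoc, h2, mul_assoc]
      have hodd : g ^ 21 = 1 := orderOf_dvd_iff_pow_eq_one.1 hgo
      have hgg : g = (g ^ 2) ^ 11 := by
        rw [← pow_mul, show 2 * 11 = 21 + 1 by norm_num, pow_succ, hodd, one_mul]
      have hcomm : Commute g x := by
        rw [hgg]; exact hg2.pow_left 11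
      have h1 : g * x * g⁻¹ = x := by
        rw [hcomm.eq]; group
      rw [h1] at hg
      have h2 : x ^ 2 = 1 := by
        rw [pow_two]
        nth_rewrite 1 [hg]
        group
      have h3 := orderOf_dvd_iff_pow_eq_one.2 h2
      rw [hx] at h3
      exact absurd h3 (by decide)

end Cfsg.Agent.S1006
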