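import Cfsg.Statements.S0303
import Cfsg.Agent.Lib.LowDimH
import Cfsg.Agent.Lib.Grun
import Cfsg.Agent.Lib.ClUnitary2
import Cfsg.Agent.S0288
import Cfsg.Agent.S0278
import Cfsg.Agent.S0780
import Cfsg.Agent.S0781

set_option autoImplicit false
open Cfsg

namespace Cfsg.Agent.S0303

open QuadraticMap QuadraticAlgebra Cfsg.Agent.Lib Cfsg.Agent.Lib.Quad Cfsg.Agent.Lib.QuadExt
  Cfsg.Agent.Lib.QuadNorm Cfsg.Agent.Lib.LowDimB Cfsg.Agent.Lib.LowDimP Cfsg.Agent.Lib.LowDimH Matrix

section Herm

variable (F : Type*) [Field F] (a b : F)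

theorem star_smul' {F : Type*} [Field F] {a b : F} (c : F) (z : L F a b) : star (c • z) = c • star z := by
  ext
  · simp only [re_star, re_smul, im_smul, smul_eq_mul]; ring
  · simp only [im_star, im_smul, smul_eq_mul]; ring

/-- conjugation as a ring homomorphism -/
def cj : L F a b →+* L F a b := starRingEnd (L F a b)

theorem cj_apply (z : L F a b) : cj F a b z = star z := rfl

variable [Fact (∀ r : F, r ^ 2 ≠ -b + a * r)]

/-- the 6-dimensional `F`-space of self-dual alternating matrices -/
def V : Submodule F (M4 (L F a b)) where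
  carrier := {X | X ∈ W (L F a b) ∧ X 2 3 = star (X 0 1) ∧ X 1 3 = - star (X 0 2) ∧ X 1 2 = star (X 0 3)}
  add_mem' {x y} hx hy := by
    refine ⟨(W (L F a b)).add_mem hx.1 hy.1, ?_, ?_, ?_⟩
    · rw [Matrix.add_apply, Matrix.add_apply, star_add, hx.2.1, hy.2.1]
    · rw [Matrix.add_apply, Matrix.add_apply, star_add, hx.2.2.1, hy.2.2.1]; ring
    · rw [Matrix.add_apply, Matrix.add_apply, star_add, hx.2.2.2, hy.2.2.2]
  zero_mem' := ⟨(W (L F a b)).zero_mem, by simp, by simp, by simp⟩
  smul_mem' c x hx := by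
    have hc : c • x = (algebraMap F (L F a b) c) • x := by
      ext1 i j
      rw [Matrix.smul_apply, Matrix.smul_apply, Algebra.smul_def, smul_eq_mul]
    refine ⟨by rw [hc]; exact (W (L F a b)).smul_mem _ hx.1, ?_, ?_, ?_⟩
    · rw [Matrix.smul_apply, Matrix.smul_apply, star_smul', hx.2.1]
    · rw [Matrix.smul_apply, Matrix.smul_apply, star_smul', hx.2.2.1, smul_neg]
    · rw [Matrix.smul_apply, Matrix.smul_apply, star_smul', hx.2.2.2]

variable {F a b}

/-- elements of `V` -/
def vm (x y z : L F a b) : M4 (L F a b) := alt4 x y z (star z) (- star y) (star x)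

theorem vm_mem (x y z : L F a b) : vm x y z ∈ V F a b :=
  ⟨alt4_mem _ _ _ _ _ _, by simp [vm, alt4], by simp [vm, alt4], by simp [vm, alt4]⟩

theorem eq_vm {X : M4 (L F a b)} (hX : X ∈ V F a b) : X = vm (X 0 1) (X 0 2) (X 0 3) := by
  conv_lhs => rw [eq_alt4 hX.1]
  rw [vm, ← hX.2.1, ← hX.2.2.1, ← hX.2.2.2]

/-- self-duality -/
theorem mem_V_iff {X : M4 (L F a b)} : X ∈ V F a b ↔ X ∈ W (L F a b) ∧ (hs X).map (cj F a b) = X := by
  constructor
  · intro hX
    refine ⟨hX.1, ?_⟩
    have h := eq_vm hX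
    rw [h, vm, hs_alt4]
    ext1 i j
    fin_cases i <;> fin_cases j <;> simp [alt4, Matrix.map_apply, cj_apply]
  · rintro ⟨h1, h2⟩
    have e : ∀ i j, star ((hs X) i j) = X i j := fun i j => congrFun (congrFun h2 i) j
    refine ⟨h1, ?_, ?_, ?_⟩
    · rw [← e 2 3]; simp [hs, alt4]
    · rw [← e 1 3]; simp [hs, alt4]
    · rw [← e 1 2]; simp [hs, alt4]

/-- F-linear action of SL4(L) -/
def fF (F : Type*) [Field F] (a b : F) [Fact (∀ r : F, r ^ 2 ≠ -b + a * r)] :
    SpecialLinearGroup (Fin 4) (L F a b) →* (M4 (L F a b) →ₗ[F] M4 (L F a b)) where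
  toFun A :=
    { toFun := fun X => A.1 * X * A.1ᵀ
      map_add' := fun X Y => by rw [mul_add, add_mul]
      map_smul' := fun c X => by rw [Matrix.mul_smul, Matrix.smul_mul]; rfl }
  map_one' := by
    apply LinearMap.ext
    intro X
    show (1 : M4 (L F a b)) * X * (1 : M4 (L F a b))ᵀ = X
    rw [transpose_one, one_mul, mul_one]
  map_mul' A B := by
    apply LinearMap.ext
    intro X
    show (A.1 * B.1) * X * (A.1 * B.1)ᵀ = A.1 * (B.1 * X * B.1ᵀ) * A.1ᵀ
    rw [transpose_mul]
    simp only [mul_assoc]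

theorem fF_apply (A : SpecialLinearGroup (Fin 4) (L F a b)) (X : M4 (L F a b)) :
    fF F a b A X = A.1 * X * A.1ᵀ := rfl

theorem fF_mem (A : SpecialLinearGroup (Fin 4) (L F a b)) (hA : A.1ᵀ * A.1.map (cj F a b) = 1) :
    ∀ X ∈ V F a b, fF F a b A X ∈ V F a b := by
  intro X hX
  rw [fF_apply]
  obtain ⟨hW, hd⟩ := mem_V_iff.1 hX
  rw [mem_V_iff]
  refine ⟨congr_mem A.1 hW, ?_⟩
  have h1 := hs_SL A X hW
  set Y := hs (A.1 * X * A.1ᵀ) with hY
  set B : M4 (L F a b) := A.1.map (cj F a b) with hB
  -- Aᵀ B = 1, so B Aᵀ = 1 and A Bᵀ = 1, Bᵀ A = 1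
  have h2 : B * A.1ᵀ = 1 := mul_eq_one_comm.1 hA
  have h3 : A.1 * Bᵀ = 1 := by
    have := congrArg Matrix.transpose h2
    rw [transpose_mul, transpose_transpose, transpose_one] at this
    exact this
  have h4 : Y = B * hs X * Bᵀ := by
    rw [← h1]
    calc Y = (B * A.1ᵀ) * Y * (A.1 * Bᵀ) := by rw [h2, h3, one_mul, mul_one]
      _ = B * (A.1ᵀ * Y * A.1) * Bᵀ := by simp only [mul_assoc]
  rw [h4]
  have hBB : B.map (cj F a b) = A.1 := by
    rw [hB, Matrix.map_map]
    ext1 i j
    rw [Matrix.map_apply]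
    exact star_star _
  rw [Matrix.map_mul, Matrix.map_mul, hd, Matrix.transpose_map, hBB]

/-- coordinates of V over L -/
def tri (F : Type*) [Field F] (a b : F) [Fact (∀ r : F, r ^ 2 ≠ -b + a * r)] :
    V F a b ≃ₗ[F] L F a b × L F a b × L F a b where
  toFun X := (X.1 0 1, X.1 0 2, X.1 0 3)
  invFun t := ⟨vm t.1 t.2.1 t.2.2, vm_mem _ _ _⟩
  left_inv X := Subtype.ext (eq_vm X.2).symm
  right_inv t := rfl
  map_add' X Y := rfl
  map_smul' c X := rfl

/-- sum of three norm forms -/
def N3 (F : Type*) [Field F] (a b : F) : QuadraticForm F (L F a b × L F a b × L F a b) :=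
  (normForm F a b).comp (LinearMap.fst F _ _) +
    ((normForm F a b).comp ((LinearMap.fst F _ _).comp (LinearMap.snd F _ _)) +
      (normForm F a b).comp ((LinearMap.snd F _ _).comp (LinearMap.snd F _ _)))

theorem N3_apply (t : L F a b × L F a b × L F a b) : N3 F a b t = t.1.norm + (t.2.1.norm + t.2.2.norm) := rfl

def Q' (F : Type*) [Field F] (a b : F) [Fact (∀ r : F, r ^ 2 ≠ -b + a * r)] : QuadraticForm F (V F a b) :=
  (N3 F a b).comp (tri F a b).toLinearMap

theorem Q'_eq (X : V F a b) : Q' F a b X = (X.1 0 1).norm + ((X.1 0 2).norm + (X.1 0 3).norm) := rfl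

theorem Q'_apply (X : V F a b) : algebraMap F (L F a b) (Q' F a b X) = pf X.1 := by
  rw [Q'_eq, map_add, map_add, algebraMap_norm_eq_mul_star, algebraMap_norm_eq_mul_star,
    algebraMap_norm_eq_mul_star, pf, X.2.2.1, X.2.2.2.1, X.2.2.2.2]
  ring

/-- The explicit isometry: hyperbolic plane pair into two norm forms. -/
def e0 (F : Type*) [Field F] (a b : F) (ε κ : L F a b) :
    ((Fin 2 ⊕ Fin 2) ⊕ Fin 2 → F) →ₗ[F] L F a b × L F a b × L F a b where
  toFun v :=
    let p : L F a b := ⟨v (.inl (.inl 0)), v (.inl (.inl 1))⟩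
    let u : L F a b := ⟨(2 * b * v (.inl (.inr 0)) - a * v (.inl (.inr 1))) / (4 * b - a ^ 2),
      (2 * v (.inl (.inr 1)) - a * v (.inl (.inr 0))) / (4 * b - a ^ 2)⟩
    let z : L F a b := ⟨v (.inr 0), v (.inr 1)⟩
    (p + κ * u, ε * (p + κ * u - u), z)
  map_add' v w := by
    apply Prod.ext
    · ext
      · simp; ring
      · simp; ring
    · apply Prod.ext
      · ext
        · simp; ring
        · simp; ring
      · ext <;> simp
  map_smul' c v := by
    apply Prod.ext
    · ext
      · simp; ring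
      · simp; ring
    · apply Prod.ext
      · ext
        · simp; ring
        · simp; ring
      · ext <;> simp

theorem N3_e0 {ε κ : L F a b} (hε : ε.norm = -1) (hκ : trace κ = 1) (hD : 4 * b - a ^ 2 ≠ 0)
    (v : (Fin 2 ⊕ Fin 2) ⊕ Fin 2 → F) : N3 F a b (e0 F a b ε κ v) = quadMinus 2 F a b v := by
  show _ = Cfsg.quadFormMinus 2 F a b v
  rw [N3_apply]
  set p : L F a b := ⟨v (.inl (.inl 0)), v (.inl (.inl 1))⟩ with hp
  set u : L F a b := ⟨(2 * b * v (.inl (.inr 0)) - a * v (.inl (.inr 1))) / (4 * b - a ^ 2),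
      (2 * v (.inl (.inr 1)) - a * v (.inl (.inr 0))) / (4 * b - a ^ 2)⟩ with hu
  set z : L F a b := ⟨v (.inr 0), v (.inr 1)⟩ with hz
  have h0 : e0 F a b ε κ v = (p + κ * u, ε * (p + κ * u - u), z) := rfl
  rw [h0]
  simp only
  rw [map_mul, hε]
  have h1 : (p + κ * u).norm - (p + κ * u - u).norm = trace (p * star u) := by
    apply algebraMap_injective (R := F) (a := -b) (b := a)
    rw [map_sub, algebraMap_norm_eq_mul_star, algebraMap_norm_eq_mul_star, algebraMap_trace_eq_add_star]
    have hκ' : κ + star κ = 1 := by rw [← algebraMap_trace_eq_add_star, hκ, map_one]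
    simp only [star_add, star_sub, star_mul', star_star]
    linear_combination (u * star u) * hκ'
  have h2 : trace (p * star u) = v (.inl (.inl 0)) * v (.inl (.inr 0)) + v (.inl (.inl 1)) * v (.inl (.inr 1)) := by
    rw [trace_def, re_mul, im_mul, re_star, im_star, hp, hu]
    simp only
    have hinv : (4 * b - a ^ 2) * (4 * b - a ^ 2)⁻¹ = 1 := mul_inv_cancel₀ hD
    rw [div_eq_mul_inv, div_eq_mul_inv]
    linear_combination (v (.inl (.inl 0)) * v (.inl (.inr 0)) + v (.inl (.inl 1)) * v (.inl (.inr 1))) * hinv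
  have h3 : z.norm = v (.inr 0) ^ 2 + a * v (.inr 0) * v (.inr 1) + b * v (.inr 1) ^ 2 := by
    rw [norm_eq]
  rw [h3, Cfsg.quadFormMinus, Fin.sum_univ_two]
  linear_combination h1 + h2

theorem exists_trace_one [Finite F] : ∃ κ : L F a b, trace κ = 1 := by
  by_cases h2 : (2 : F) = 0
  · have ha : a ≠ 0 := by
      intro ha
      have h := star_omega_ne (F := F) (a := a) (b := b)
      apply h
      ext
      · simp [ha]
      · have : (-1 : F) = 1 := by linear_combination -h2
        simp [this]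
    exact ⟨⟨0, a⁻¹⟩, by rw [trace_def]; simp [ha]⟩
  · exact ⟨⟨2⁻¹, 0⟩, by rw [trace_def]; simp [h2]⟩

theorem finrank_tri : Module.finrank F (L F a b × L F a b × L F a b) = 6 := by
  rw [Module.finrank_prod, Module.finrank_prod, QuadraticAlgebra.finrank_eq_two]

theorem exists_isometry [Finite F] (hD : 4 * b - a ^ 2 ≠ 0) :
    ∃ e : ((Fin 2 ⊕ Fin 2) ⊕ Fin 2 → F) ≃ₗ[F] V F a b, ∀ v, Q' F a b (e v) = quadMinus 2 F a b v := by
  obtain ⟨ε, hε⟩ := exists_norm_eq (F := F) (a := a) (b := b) (-1)
  obtain ⟨κ, hκ⟩ := exists_trace_one (F := F) (a := a) (b := b)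
  have hN := N3_e0 hε hκ hD
  have hnd : Nd (quadMinus 2 F a b) := nd_quadMinus (by
    intro h; apply hD; linear_combination -h)
  have hinj : Function.Injective (e0 F a b ε κ) := by
    rw [injective_iff_map_eq_zero]
    intro v hv
    apply hnd.eq_zero
    intro w
    rw [← polar_map (e0 F a b ε κ) hN, hv, polar_zero_left]
  have hfr : Module.finrank F ((Fin 2 ⊕ Fin 2) ⊕ Fin 2 → F) =
      Module.finrank F (L F a b × L F a b × L F a b) := by
    rw [finrank_tri, finrank_minus]
  let e1 : ((Fin 2 ⊕ Fin 2) ⊕ Fin 2 → F) ≃ₗ[F] L F a b × L F a b × L F a b :=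
    LinearEquiv.ofInjectiveOfFinrankEq (e0 F a b ε κ) hinj hfr
  refine ⟨e1.trans (tri F a b).symm, fun v => ?_⟩
  rw [← hN v]
  show N3 F a b (tri F a b ((tri F a b).symm (e1 v))) = _
  rw [LinearEquiv.apply_symm_apply]
  rfl

/-- fixing all of `V` forces `±1`. -/
theorem kernel [Finite F] (A : M4 (L F a b)) (h : ∀ X ∈ V F a b, A * X * Aᵀ = X) : A = 1 ∨ A = -1 := by
  apply eq_one_or_neg
  let S : Submodule (L F a b) (M4 (L F a b)) :=
    { carrier := {X | A * X * Aᵀ = X}
      add_mem' := by
        intro x y hx hy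
        show A * (x + y) * Aᵀ = x + y
        rw [mul_add, add_mul, hx, hy]
      zero_mem' := by
        show A * 0 * Aᵀ = 0
        simp
      smul_mem' := by
        intro c x hx
        show A * (c • x) * Aᵀ = c • x
        rw [Matrix.mul_smul, Matrix.smul_mul, hx] }
  have hS : ∀ X, X ∈ S ↔ A * X * Aᵀ = X := fun X => Iff.rfl
  have hv : ∀ x y z : L F a b, vm x y z ∈ S := fun x y z => h _ (vm_mem x y z)
  have hne : (omega : L F a b) - star (omega : L F a b) ≠ 0 := by
    rw [sub_ne_zero]; exact (star_omega_ne).symm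
  -- general: for all s t, alt4 s .. t in S
  have key : ∀ x y z x' y' z' : L F a b, alt4 x y z z' y' x' ∈ S := by
    intro x y z x' y' z'
    -- find X1, X2 in V with X = X1 + ω X2
    set d := (omega : L F a b) - star (omega : L F a b) with hd
    -- a + ω b = x, star a + ω star b = x'
    have solve : ∀ s t : L F a b, ∃ u v : L F a b, u + omega * v = s ∧ star u + omega * star v = t := by
      intro s t
      -- star of second: u + star ω v = star t ; so d v = s - star t
      refine ⟨s - omega * ((s - star t) * d⁻¹), (s - star t) * d⁻¹, by ring, ?_⟩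
      have hsd : star d = - d := by rw [hd, star_sub, star_star]; ring
      have h1 : star (d⁻¹) = - d⁻¹ := by
        have : d⁻¹ * d = 1 := inv_mul_cancel₀ hne
        have h2 := congrArg star this
        rw [star_mul', hsd, star_one] at h2
        have h3 : star d⁻¹ = star d⁻¹ * (d * d⁻¹) := by rw [mul_inv_cancel₀ hne, mul_one]
        rw [h3]
        linear_combination (-d⁻¹) * h2
      simp only [star_sub, star_mul', star_star, h1]
      have h4 : d * d⁻¹ = 1 := mul_inv_cancel₀ hne
      have h5 : star (omega : L F a b) = omega - d := by rw [hd]; ring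
      rw [h5]
      linear_combination (t - star s) * h4
    obtain ⟨u1, v1, h1, h1'⟩ := solve x x'
    obtain ⟨u2, v2, h2, h2'⟩ := solve y (-y')
    obtain ⟨u3, v3, h3, h3'⟩ := solve z z'
    have hX : alt4 x y z z' y' x' = vm u1 u2 u3 + (omega : L F a b) • vm v1 v2 v3 := by
      rw [vm, vm, ← alt4_smul, ← alt4_add, h1, h2, h3, h1', h3']
      congr 1
      linear_combination h2'
    rw [hX]
    exact S.add_mem (hv _ _ _) (S.smul_mem _ (hv _ _ _))
  intro X hX
  rw [eq_alt4 hX]
  exact (hS _).1 (key _ _ _ _ _ _)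

theorem mem_SU_iff [Fintype F] [Fintype (L F a b)] {q : ℕ} (hF : Fintype.card F = q)
    (hL : Fintype.card (L F a b) = q ^ 2) (A : SpecialLinearGroup (Fin 4) (L F a b)) :
    A ∈ SU 4 (L F a b) q ↔ A.1ᵀ * A.1.map (cj F a b) = 1 := by
  rw [ClUnitary.mem_SU, ClUnitary.isUn_iff hL]
  have : A.1.map (ClUnitary.frob hL) = A.1.map (cj F a b) := by
    ext1 i j
    rw [Matrix.map_apply, Matrix.map_apply, ClUnitary.frob_apply, cj_apply, star_eq_pow, hF]
  rw [this]

/-- the representation of `SU_4` -/
noncomputable def ρ [Fintype F] [Fintype (L F a b)] {q : ℕ} (hF : Fintype.card F = q)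
    (hL : Fintype.card (L F a b) = q ^ 2) : SU 4 (L F a b) q →* (V F a b ≃ₗ[F] V F a b) :=
  liftLE (restrictHom ((fF F a b).comp (SU 4 (L F a b) q).subtype) (V F a b)
    (fun g => fF_mem g.1 ((mem_SU_iff hF hL g.1).1 g.2)))

theorem ρ_apply [Fintype F] [Fintype (L F a b)] {q : ℕ} (hF : Fintype.card F = q)
    (hL : Fintype.card (L F a b) = q ^ 2) (A : SU 4 (L F a b) q) (X : V F a b) :
    (ρ hF hL A X).1 = A.1.1 * X.1 * A.1.1ᵀ := rfl

theorem ρ_mem [Fintype F] [Fintype (L F a b)] {q : ℕ} (hF : Fintype.card F = q)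
    (hL : Fintype.card (L F a b) = q ^ 2) (A : SU 4 (L F a b) q) : ρ hF hL A ∈ O (Q' F a b) := by
  intro X
  apply algebraMap_injective (R := F) (a := -b) (b := a)
  rw [Q'_apply, Q'_apply, ρ_apply, pf_SL A.1 _ X.2.1]

theorem ker_ρ [Fintype F] [Fintype (L F a b)] {q : ℕ} (hF : Fintype.card F = q)
    (hL : Fintype.card (L F a b) = q ^ 2) (A : SU 4 (L F a b) q) (h : ρ hF hL A = 1) :
    A.1.1 = 1 ∨ A.1.1 = -1 := by
  apply kernel
  intro X hX
  have := ρ_apply hF hL A ⟨X, hX⟩
  rw [h] at this
  exact this.symm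

end Herm

/-- SL over isomorphic rings -/
def slCongr (n : ℕ) {K K' : Type*} [Field K] [Field K'] (e : K ≃+* K') :
    SpecialLinearGroup (Fin n) K ≃* SpecialLinearGroup (Fin n) K' where
  toFun := SpecialLinearGroup.map (e : K →+* K')
  invFun := SpecialLinearGroup.map (e.symm : K' →+* K)
  left_inv A := by
    apply Subtype.ext
    ext i j
    simp
  right_inv A := by
    apply Subtype.ext
    ext i j
    simp
  map_mul' A B := map_mul _ A B

theorem suCongr (n q : ℕ) {K K' : Type*} [Field K] [Field K'] (e : K ≃+* K') :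
    Nonempty (SU n K q ≃* SU n K' q) := by
  refine ⟨ClIso.subgroupEquivOfIff (slCongr n e) _ _ ?_⟩
  intro A
  have hform : ∀ u v : Fin n → K, hermForm n K' q (fun i => e (u i)) (fun i => e (v i)) =
      e (hermForm n K q u v) := by
    intro u v
    simp [hermForm, map_sum, map_mul, map_pow]
  have hmul : ∀ u : Fin n → K, (slCongr n e A).1 *ᵥ (fun i => e (u i)) = fun i => e ((A.1 *ᵥ u) i) := by
    intro u
    funext i
    show ∑ j, e (A.1 i j) * e (u j) = e (∑ j, A.1 i j * u j)
    rw [map_sum]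
    exact Finset.sum_congr rfl fun j _ => (map_mul e _ _).symm
  constructor
  · intro h u v
    have hu : u = fun i => e (e.symm (u i)) := by funext i; simp
    have hv : v = fun i => e (e.symm (v i)) := by funext i; simp
    show hermForm n K' q ((slCongr n e A).1 *ᵥ u) ((slCongr n e A).1 *ᵥ v) = hermForm n K' q u v
    rw [hu, hv, hmul, hmul, hform, hform]
    congr 1
    exact h _ _
  · intro h u v
    have h1 : hermForm n K' q ((slCongr n e A).1 *ᵥ (fun i => e (u i)))
        ((slCongr n e A).1 *ᵥ (fun i => e (v i))) = hermForm n K' q (fun i => e (u i)) (fun i => e (v i)) :=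
      h _ _
    rw [hmul, hmul, hform, hform] at h1
    exact e.injective h1

/-- PΩ^-_6(q) is isomorphic to PSU_4(q). -/
theorem result {F K : Type*} [Field F] [Fintype F] [Field K] [Fintype K] {q : ℕ} (hF : Fintype.card F = q) (hK : Fintype.card K = q ^ 2) (a b : F) (hab : ∀ z₁ z₂ : F, z₁ ^ 2 + a * z₁ * z₂ + b * z₂ ^ 2 = 0 → z₁ = 0 ∧ z₂ = 0) : Nonempty (Cfsg.POmega F (Cfsg.quadFormMinus 2 F a b) ≃* Cfsg.PSU 4 K q) := by
  haveI := fact_irred hab
  haveI : Fintype (L F a b) := Fintype.ofFinite _
  have hcL : Fintype.card (L F a b) = q ^ 2 := by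
    rw [← Nat.card_eq_fintype_card, card_L, Nat.card_eq_fintype_card, hF]
  have hq : 1 < q := by rw [← hF]; exact Fintype.one_lt_card
  let e : L F a b ≃+* K := FiniteField.ringEquivOfCardEq (by rw [hcL, hK])
  obtain ⟨eS⟩ := suCongr 4 q e
  obtain ⟨eP⟩ := LowDim.center_quot_congr eS
  have hD0 := disc_ne_zero_of_anisotropic hab
  have hD : 4 * b - a ^ 2 ≠ 0 := by intro h; apply hD0; linear_combination -h
  obtain ⟨co, hco⟩ := exists_isometry (F := F) (a := a) (b := b) hD
  have hnd : Nd (quadMinus 2 F a b) := nd_quadMinus hD0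
  have hgen : GenHyp (quadMinus 2 F a b) := genHyp_of_card (Or.inr (by rw [finrank_minus]; norm_num))
  have hperf : commutator (SU 4 (L F a b) q) = ⊤ := by
    rw [eq_top_iff, ← S0780.result hcL 4 (by norm_num) (by omega), Subgroup.closure_le]
    rintro A ⟨v, c, hv, hA⟩
    have h1 := S0781.result hcL 4 (Or.inl le_rfl) A v c hv hA
    rw [commutator_eq_closure]
    exact Subgroup.subset_closure h1
  haveI : Finite (SpecialLinearGroup (Fin 4) (L F a b)) := Subtype.finite
  have key : Nonempty (Cfsg.POmega F ⇑(quadMinus 2 F a b) ≃*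
      SU 4 (L F a b) q ⧸ Subgroup.center (SU 4 (L F a b) q)) := by
    refine LowDim.pomega_equiv (quadMinus 2 F a b) (Q' F a b) co hco (ρ hF hcL)
      (perfect_mem_Om hperf (ρ hF hcL) (ρ_mem hF hcL)) ?_ ?_
    · have hGO := S0288.result (F := F) hF 3 (by norm_num) a b hab
      have hSU := S0278.result (F := L F a b) hcL 4 (by norm_num)
      simp only [show 3 - 1 = 2 from rfl, Finset.prod_range_succ, Finset.prod_range_zero, one_mul] at hGO hSU
      norm_num [-Nat.card_eq_fintype_card, show ¬ Even 1 from by decide, show Even 2 from by decide,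
        show ¬ Even 3 from by decide] at hGO hSU
      have hSU' : Nat.card (SU 4 (L F a b) q) = q ^ 6 * ((q ^ 3 + 1) * ((q ^ 2 - 1) * (q ^ 4 - 1))) := by
        apply Nat.eq_of_mul_eq_mul_left (show 0 < q + 1 by omega)
        rw [hSU]
        ring
      rw [hSU']
      by_cases h2 : (2 : F) = 0
      · haveI : CharP F 2 := CharTwo.of_one_ne_zero_of_two_eq_zero one_ne_zero h2
        have hO := LowDim.card_Omega_even hnd hgen (by rw [finrank_minus]; norm_num)
        have hk : Nat.card (ρ hF hcL).ker = 1 := by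
          apply card_eq_one
          intro A hA
          have hneg : (-1 : M4 (L F a b)) = 1 := by
            have h2L : (2 : L F a b) = 0 := by
              have := congrArg (algebraMap F (L F a b)) h2
              rwa [map_ofNat, map_zero] at this
            have : (-1 : L F a b) = 1 := by linear_combination -h2L
            ext1 i j
            rw [Matrix.neg_apply, Matrix.one_apply]
            split_ifs
            · exact this
            · simp
          rcases ker_ρ hF hcL A ((MonoidHom.mem_ker).1 hA) with h | h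
          · exact Subtype.ext (Subtype.ext h)
          · rw [hneg] at h
            exact Subtype.ext (Subtype.ext h)
        rw [hk, mul_one]
        rw [coe_quadMinus] at *
        rw [hGO] at hO
        nlinarith [hO]
      · have hO := LowDim.card_Omega_odd hnd h2 (by rw [finrank_minus]; norm_num)
        have hk : Nat.card (ρ hF hcL).ker ≤ 2 := by
          let m1 : SpecialLinearGroup (Fin 4) (L F a b) := ⟨-1, by rw [Matrix.det_neg]; norm_num⟩
          have hm1 : m1 ∈ SU 4 (L F a b) q := by
            intro u v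
            show hermForm 4 (L F a b) q ((-1 : M4 (L F a b)) *ᵥ u) ((-1 : M4 (L F a b)) *ᵥ v) = _
            have hodd : Odd q := by
              by_contra hne
              rw [Nat.not_odd_iff_even] at hne
              apply h2
              have hch : ringChar F = 2 := (FiniteField.even_card_iff_char_two).2 (by
                rw [hF]; exact Nat.even_iff.1 hne)
              have := CharP.cast_eq_zero F (ringChar F)
              rw [hch] at this
              exact_mod_cast this
            have hneg : ∀ w : Fin 4 → L F a b, (-1 : M4 (L F a b)) *ᵥ w = -w := by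
              intro w; rw [Matrix.neg_mulVec, Matrix.one_mulVec]
            rw [hneg, hneg]
            simp only [hermForm, Pi.neg_apply]
            apply Finset.sum_congr rfl
            intro i _
            rw [hodd.neg_pow]; ring
          apply card_le_two (ρ hF hcL).ker ⟨m1, hm1⟩
          intro A hA
          rcases ker_ρ hF hcL A ((MonoidHom.mem_ker).1 hA) with h | h
          · exact Or.inl (Subtype.ext (Subtype.ext h))
          · exact Or.inr (Subtype.ext (Subtype.ext h))
        rw [coe_quadMinus] at *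
        rw [hGO] at hO
        refine (Nat.mul_le_mul_left _ hk).trans ?_
        nlinarith [hO]
    · intro A hA
      apply Grun.mem_center_of_perfect hperf
      intro B
      have h1 : ρ hF hcL (A * B * (B * A)⁻¹) = 1 := by
        rw [map_mul, map_inv, map_mul, map_mul, hA B, mul_inv_cancel]
      rw [Subgroup.mem_center_iff]
      intro C
      apply Subtype.ext
      apply Subtype.ext
      show C.1.1 * (A * B * (B * A)⁻¹).1.1 = (A * B * (B * A)⁻¹).1.1 * C.1.1
      rcases ker_ρ hF hcL _ h1 with h | h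
      · rw [h, one_mul, mul_one]
      · rw [h, neg_mul, mul_neg, one_mul, mul_one]
  obtain ⟨e1⟩ := key
  exact ⟨e1.trans eP⟩

end Cfsg.Agent.S0303
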