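import Cfsg.Statements.S4219
import Cfsg.Agent.Lib.H70Basic

set_option autoImplicit false
open Cfsg

namespace Cfsg.Agent.S4219

/-- Let a finite group `G` act `t`-fold transitively on a finite set, let `H` be the stabilizer of `t` distinct points and `P` a Sylow `p`-subgroup of `H`. Then the normalizer of `P` in `G` is `t`-fold transitive on the fixed points of `P`: any `t` distinct fixed points of `P` can be carried to any other `t` distinct fixed points of `P` by an element normalizing `P`. -/
theorem result {G : Type*} [Group G] [Finite G] {α : Type*} [Fintype α] [MulAction G α] {t : ℕ} (hG : MulAction.IsMultiplyPretransitive G α t) (x : Fin t ↪ α) {p : ℕ} [Fact p.Prime] (P : Sylow p (MulAction.stabilizer G x)) (a b : Fin t ↪ α) (ha : ∀ i, a i ∈ MulAction.fixedPoints ((P : Subgroup (MulAction.stabilizer G x)).map (MulAction.stabilizer G x).subtype) α) (hb : ∀ i, b i ∈ MulAction.fixedPoints ((P : Subgroup (MulAction.stabilizer G x)).map (MulAction.stabilizer G x).subtype) α) : ∃ g ∈ Subgroup.normalizer ((((P : Subgroup (MulAction.stabilizer G x)).map (MulAction.stabilizer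 G x).subtype) : Subgroup G) : Set G), g • a = b := by
  classical
  set Q : Subgroup G := (P : Subgroup (MulAction.stabilizer G x)).map (MulAction.stabilizer G x).subtype with hQ
  have hstab : ∀ c : Fin t ↪ α, (∀ i, c i ∈ MulAction.fixedPoints Q α) → Q ≤ MulAction.stabilizer G c := by
    intro c hc g hg
    rw [MulAction.mem_stabilizer_iff]
    ext i
    exact hc i ⟨g, hg⟩
  have hcard : ∀ c : Fin t ↪ α, Nat.card (MulAction.stabilizer G c) = Nat.card (MulAction.stabilizer G x) := by
    intro c
    obtain ⟨g, hg⟩ := MulAction.exists_smul_eq G x c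
    exact Nat.card_congr (MulAction.stabilizerEquivStabilizer hg.symm).symm.toEquiv
  have hQc : Nat.card Q = p ^ (Nat.card (MulAction.stabilizer G b)).factorization p := by
    rw [hQ, Nat.card_congr ((P : Subgroup (MulAction.stabilizer G x)).equivMapOfInjective _ (Subgroup.subtype_injective _)).toEquiv.symm, hcard]
    exact P.card_eq_multiplicity
  obtain ⟨g, hg⟩ := MulAction.exists_smul_eq G a b
  have hle : Q.map (MulAut.conj g).toMonoidHom ≤ MulAction.stabilizer G b := by
    rw [← hg, MulAction.stabilizer_smul_eq_stabilizer_map_conj]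
    exact Subgroup.map_mono (hstab a ha)
  have hgc : Nat.card (Q.map (MulAut.conj g).toMonoidHom : Subgroup G) = p ^ (Nat.card (MulAction.stabilizer G b)).factorization p := by
    rw [Nat.card_congr (Q.equivMapOfInjective _ (MulAut.conj g).injective).toEquiv.symm, hQc]
  obtain ⟨s, hs, h⟩ := Lib.H70Basic.sylow_conj_of_card (MulAction.stabilizer G b) _ Q hle (hstab b hb) hgc hQc
  refine ⟨s * g, ?_, ?_⟩
  · rw [Subgroup.mem_normalizer_iff]
    have h2 : Q.map (MulAut.conj (s * g)).toMonoidHom = Q := by
      rw [Subgroup.map_map] at h
      have : (MulAut.conj (s * g)).toMonoidHom = ((MulAut.conj s).toMonoidHom.comp (MulAut.conj g).toMonoidHom) := by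
        ext y; simp [mul_assoc]
      rw [this]; exact h
    intro y
    constructor
    · intro hy
      rw [← h2]
      exact ⟨y, hy, rfl⟩
    · intro hy
      rw [← h2] at hy
      obtain ⟨z, hz, hzy⟩ := hy
      have : z = y := by
        have h3 : (MulAut.conj (s * g)) z = (MulAut.conj (s * g)) y := hzy
        exact (MulAut.conj (s * g)).injective h3
      exact this ▸ hz
  · rw [mul_smul, hg]
    exact hs

end Cfsg.Agent.S4219
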