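import Cfsg.Statements.S2430
import Cfsg.Agent.Lib.SL2Int

set_option autoImplicit false
open Cfsg

namespace Cfsg.Agent.S2430

open Matrix
open Cfsg.Agent.Lib.SL2Basic Cfsg.Agent.Lib.SL2Tori Cfsg.Agent.Lib.SL2Int

theorem main {F : Type*} [Field F] [Fintype F] (hodd : Odd (Fintype.card F)) (ℓ : ℕ) [Fact ℓ.Prime] (hℓ : ℓ ≠ 2)
    (P : Sylow ℓ (Matrix.SpecialLinearGroup (Fin 2) F))
    (hdvd : ℓ ∣ Fintype.card F - 1 ∨ ℓ ∣ Fintype.card F + 1) :
    ∃ g : Matrix.SpecialLinearGroup (Fin 2) F, tr g ^ 2 ≠ 4 ∧ g ≠ 1 ∧ (∃ k, g ^ (ℓ ^ k) = 1) ∧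
      Subgroup.centralizer ((P : Subgroup (Matrix.SpecialLinearGroup (Fin 2) F)) : Set (Matrix.SpecialLinearGroup (Fin 2) F)) =
        Subgroup.centralizer {g} ∧
      Subgroup.normalizer ((P : Subgroup (Matrix.SpecialLinearGroup (Fin 2) F)) : Set (Matrix.SpecialLinearGroup (Fin 2) F)) =
        Subgroup.normalizer ((Subgroup.centralizer ({g} : Set (Matrix.SpecialLinearGroup (Fin 2) F)) :
          Subgroup (Matrix.SpecialLinearGroup (Fin 2) F)) : Set (Matrix.SpecialLinearGroup (Fin 2) F)) := by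
  classical
  have hlp : ℓ.Prime := Fact.out
  have hcG : Nat.card (Matrix.SpecialLinearGroup (Fin 2) F) = Fintype.card F * ((Fintype.card F - 1) * (Fintype.card F + 1)) := by
    rw [card_SL2', Nat.card_eq_fintype_card]
  have hdG : ℓ ∣ Nat.card (Matrix.SpecialLinearGroup (Fin 2) F) := by
    rw [hcG]
    rcases hdvd with h | h
    · exact (h.mul_right _).mul_left _
    · exact (h.mul_left _).mul_left _
  have hPne : (P : Subgroup (Matrix.SpecialLinearGroup (Fin 2) F)) ≠ ⊥ := P.ne_bot_of_dvd_card hdG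
  have hnt : Nontrivial P := (Subgroup.nontrivial_iff_ne_bot _).2 hPne
  have hcn : Nontrivial (Subgroup.center P) := P.isPGroup'.center_nontrivial
  obtain ⟨⟨⟨g, hgP⟩, hgc⟩, hne⟩ := exists_ne (1 : Subgroup.center P)
  have hg1 : g ≠ 1 := by
    rintro rfl
    apply hne
    rfl
  have hgcomm : ∀ x ∈ (P : Subgroup (Matrix.SpecialLinearGroup (Fin 2) F)), x * g = g * x := by
    intro x hx
    have := Subgroup.mem_center_iff.1 hgc ⟨x, hx⟩
    exact congrArg Subtype.val this
  obtain ⟨k, hk⟩ := P.isPGroup' ⟨g, hgP⟩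
  have hk' : g ^ (ℓ ^ k) = 1 := congrArg Subtype.val hk
  obtain ⟨p, hp⟩ := CharP.exists F
  have hpp : Fact p.Prime := ⟨CharP.char_is_prime F p⟩
  have hpq : p ∣ Fintype.card F := by
    have h1 : ((Fintype.card F : ℕ) : F) = 0 := Nat.cast_card_eq_zero F
    exact (CharP.cast_eq_zero_iff F p _).1 h1
  have hq1 : 1 < Fintype.card F := Fintype.one_lt_card
  have hlp' : ℓ ≠ p := by
    rintro rfl
    rcases hdvd with h | h
    · have := (Nat.dvd_sub_iff_right (by omega) hpq).1 h
      exact hlp.one_lt.ne' (Nat.dvd_one.1 this)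
    · have := (Nat.dvd_add_right hpq).1 h
      exact hlp.one_lt.ne' (Nat.dvd_one.1 this)
  have hord : ∀ n : ℕ, g ^ n = 1 → ℓ ∣ n := by
    intro n hn
    have h1 := orderOf_dvd_of_pow_eq_one hn
    have h2 := orderOf_dvd_of_pow_eq_one hk'
    have h3 : orderOf g ≠ 1 := by rw [ne_eq, orderOf_eq_one_iff]; exact hg1
    obtain ⟨j, hj, hj'⟩ := (Nat.dvd_prime_pow hlp).1 h2
    have hj0 : j ≠ 0 := by rintro rfl; rw [pow_zero] at hj'; exact h3 hj'
    exact ((dvd_pow_self ℓ hj0).trans (by rw [← hj'])).trans h1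
  have h4 : tr g ^ 2 ≠ 4 := by
    intro h4
    have h5 : g ^ (p * 2) = 1 := by
      rw [pow_mul]
      rcases pow_char_of_tr_sq (p := p) h4 with h | h <;> rw [h] <;> simp
    have h6 := hord _ h5
    rcases (hlp.dvd_mul).1 h6 with h7 | h7
    · exact hlp' ((Nat.prime_dvd_prime_iff_eq hlp hpp.out).1 h7)
    · exact hℓ ((Nat.prime_dvd_prime_iff_eq hlp Nat.prime_two).1 h7)
  have hgnc := not_mem_center_of_tr h4
  have hPC : (P : Subgroup (Matrix.SpecialLinearGroup (Fin 2) F)) ≤ Subgroup.centralizer {g} := by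
    intro x hx
    rw [Subgroup.mem_centralizer_singleton_iff]
    exact hgcomm x hx
  refine ⟨g, h4, hg1, ⟨k, hk'⟩, ?_, ?_⟩
  · apply le_antisymm
    · intro x hx
      rw [Subgroup.mem_centralizer_singleton_iff]
      exact (Subgroup.mem_centralizer_iff.1 hx g hgP).symm
    · intro x hx
      rw [Subgroup.mem_centralizer_iff]
      intro y hy
      exact centralizer_comm hgnc (hPC hy) hx
  · apply le_antisymm
    · intro n hn
      rw [mem_normalizer_centralizer_iff h4]
      have h5 : n * g * n⁻¹ ∈ (P : Subgroup (Matrix.SpecialLinearGroup (Fin 2) F)) :=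
        (Subgroup.mem_normalizer_iff.1 hn g).1 hgP
      exact eq_or_eq_inv_of_mem_centralizer h4 (hPC h5) (tr_conj _ _)
    · intro n hn
      have h5 := (mem_normalizer_centralizer_iff h4 n).1 hn
      -- n acts on C(g) trivially or by inversion
      have h6 : ∀ m : Matrix.SpecialLinearGroup (Fin 2) F,
          (m * g * m⁻¹ = g ∨ m * g * m⁻¹ = g⁻¹) →
          ∀ x ∈ (P : Subgroup (Matrix.SpecialLinearGroup (Fin 2) F)), m * x * m⁻¹ ∈
            (P : Subgroup (Matrix.SpecialLinearGroup (Fin 2) F)) := by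
        intro m hm x hx
        rcases hm with h | h
        · have hmC : m ∈ Subgroup.centralizer ({g} : Set (Matrix.SpecialLinearGroup (Fin 2) F)) := by
            rw [Subgroup.mem_centralizer_singleton_iff]
            exact mul_inv_eq_iff_eq_mul.1 h
          have : m * x * m⁻¹ = x := by
            rw [centralizer_comm hgnc hmC (hPC hx)]; group
          rw [this]; exact hx
        · rw [inverts_of_inverts hgnc h (hPC hx)]
          exact inv_mem hx
      rw [Subgroup.mem_normalizer_iff]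
      intro x
      constructor
      · exact h6 n h5 x
      · intro hx
        have h7 := (mem_normalizer_centralizer_iff h4 n⁻¹).1 (inv_mem hn)
        have := h6 n⁻¹ h7 _ hx
        have e : n⁻¹ * (n * x * n⁻¹) * n⁻¹⁻¹ = x := by group
        rwa [e] at this

/-- Let F be a finite field with q elements, q odd, ℓ an odd prime, and P a Sylow ℓ-subgroup of SL₂ over F. If ℓ divides q − 1, the centraliser of P is cyclic of order q − 1 (a split torus) and the normaliser of P has order 2(q − 1); if ℓ divides q + 1, the centraliser of P is cyclic of order q + 1 (a non-split torus) and the normaliser of P has order 2(q + 1). -/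
theorem result {F : Type*} [Field F] [Fintype F] (hodd : Odd (Fintype.card F)) (ℓ : ℕ) [Fact ℓ.Prime] (hℓ : ℓ ≠ 2)
    (P : Sylow ℓ (Matrix.SpecialLinearGroup (Fin 2) F)) :
    (ℓ ∣ Fintype.card F - 1 →
      Nat.card (Subgroup.centralizer ((P : Subgroup (Matrix.SpecialLinearGroup (Fin 2) F)) : Set (Matrix.SpecialLinearGroup (Fin 2) F))) = Fintype.card F - 1 ∧
      IsCyclic (Subgroup.centralizer ((P : Subgroup (Matrix.SpecialLinearGroup (Fin 2) F)) : Set (Matrix.SpecialLinearGroup (Fin 2) F))) ∧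
      Nat.card (Subgroup.normalizer ((P : Subgroup (Matrix.SpecialLinearGroup (Fin 2) F)) : Set (Matrix.SpecialLinearGroup (Fin 2) F))) = 2 * (Fintype.card F - 1)) ∧
    (ℓ ∣ Fintype.card F + 1 →
      Nat.card (Subgroup.centralizer ((P : Subgroup (Matrix.SpecialLinearGroup (Fin 2) F)) : Set (Matrix.SpecialLinearGroup (Fin 2) F))) = Fintype.card F + 1 ∧
      IsCyclic (Subgroup.centralizer ((P : Subgroup (Matrix.SpecialLinearGroup (Fin 2) F)) : Set (Matrix.SpecialLinearGroup (Fin 2) F))) ∧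
      Nat.card (Subgroup.normalizer ((P : Subgroup (Matrix.SpecialLinearGroup (Fin 2) F)) : Set (Matrix.SpecialLinearGroup (Fin 2) F))) = 2 * (Fintype.card F + 1)) := by
  classical
  have hlp : ℓ.Prime := Fact.out
  have hq1 : 1 < Fintype.card F := Fintype.one_lt_card
  have hqn : Nat.card F = Fintype.card F := Nat.card_eq_fintype_card
  have hord : ∀ g : Matrix.SpecialLinearGroup (Fin 2) F, g ≠ 1 → (∃ k, g ^ (ℓ ^ k) = 1) → ∀ n : ℕ, g ^ n = 1 → ℓ ∣ n := by
    rintro g hg1 ⟨k, hk'⟩ n hn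
    have h1 := orderOf_dvd_of_pow_eq_one hn
    have h2 := orderOf_dvd_of_pow_eq_one hk'
    have h3 : orderOf g ≠ 1 := by rw [ne_eq, orderOf_eq_one_iff]; exact hg1
    obtain ⟨j, hj, hj'⟩ := (Nat.dvd_prime_pow hlp).1 h2
    have hj0 : j ≠ 0 := by rintro rfl; rw [pow_zero] at hj'; exact h3 hj'
    exact ((dvd_pow_self ℓ hj0).trans (by rw [← hj'])).trans h1
  have hnot : ¬ (ℓ ∣ Fintype.card F - 1 ∧ ℓ ∣ Fintype.card F + 1) := by
    rintro ⟨h1, h2⟩
    have h3 := (Nat.dvd_sub h2 h1)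
    have h4 : Fintype.card F + 1 - (Fintype.card F - 1) = 2 := by omega
    rw [h4] at h3
    exact hℓ ((Nat.prime_dvd_prime_iff_eq hlp Nat.prime_two).1 h3)
  constructor
  · intro hd
    obtain ⟨g, h4, hg1, hk, hC, hN⟩ := main hodd ℓ hℓ P (Or.inl hd)
    by_cases hr : ∃ c : F, c ^ 2 - tr g * c + 1 = 0
    · obtain ⟨c, hc⟩ := hr
      obtain ⟨h5, h6⟩ := centralizer_of_root h4 hc
      rw [hC, hN]
      refine ⟨by rw [h6, hqn], h5, ?_⟩
      rw [card_normalizer' h4, h6, hqn]
    · exfalso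
      have h5 : g ^ (Fintype.card F + 1) = 1 := pow_card_add_one_of_no_root g (fun x hx => hr ⟨x, hx⟩)
      exact hnot ⟨hd, hord g hg1 hk _ h5⟩
  · intro hd
    obtain ⟨g, h4, hg1, hk, hC, hN⟩ := main hodd ℓ hℓ P (Or.inr hd)
    by_cases hr : ∃ c : F, c ^ 2 - tr g * c + 1 = 0
    · exfalso
      obtain ⟨c, hc⟩ := hr
      have h5 := pow_card_sub_one_of_root h4 hc
      exact hnot ⟨hord g hg1 hk _ h5, hd⟩
    · obtain ⟨h5, h6⟩ := centralizer_of_no_root (A := g) (fun x hx => hr ⟨x, hx⟩)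
      rw [hC, hN]
      refine ⟨by rw [h6, hqn], h5, ?_⟩
      rw [card_normalizer' h4, h6, hqn]

end Cfsg.Agent.S2430
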