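import Cfsg.Statements.S2437
import Cfsg.Agent.Lib.SL2Count

set_option autoImplicit false
open Cfsg

namespace Cfsg.Agent.S2437

open Matrix
open Cfsg.Agent.Lib.SL2Basic Cfsg.Agent.Lib.SL2Tori Cfsg.Agent.Lib.SL2Int Cfsg.Agent.Lib.SL2Ind Cfsg.Agent.Lib.SL2Count

/-- for a non-central element of the Borel subgroup the centralizer lies in the Borel subgroup
unless the element is central; sizes -/
theorem centralizer_le_bor {F : Type*} [Field F] [Finite F] {g : Matrix.SpecialLinearGroup (Fin 2) F}
    (hg : (g : Matrix (Fin 2) (Fin 2) F) 1 0 = 0) (hc : g ∉ Subgroup.center _) :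
    Subgroup.centralizer {g} ≤ Subgroup.comap Matrix.SpecialLinearGroup.toGL (Cfsg.upperTriangularGL 2 F) := by
  intro x hx
  rw [mem_centralizer_iff' hc] at hx
  obtain ⟨a, b, h⟩ := hx
  rw [mem_bor, h]
  simp [hg]

theorem card_centralizer_of_le {G : Type*} [Group G] (H : Subgroup G) (b : H)
    (h : Subgroup.centralizer {(b : G)} ≤ H) :
    Nat.card (Subgroup.centralizer ({b} : Set H)) = Nat.card (Subgroup.centralizer {(b : G)}) := by
  apply Nat.card_congr
  refine ⟨fun x => ⟨(x : H), ?_⟩, fun x => ⟨⟨x, h x.2⟩, ?_⟩, ?_, ?_⟩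
  · have := Subgroup.mem_centralizer_singleton_iff.1 x.2
    rw [Subgroup.mem_centralizer_singleton_iff]
    exact congrArg Subtype.val this
  · have := Subgroup.mem_centralizer_singleton_iff.1 x.2
    rw [Subgroup.mem_centralizer_singleton_iff]
    exact Subtype.ext this
  · intro x; rfl
  · intro x; rfl

/-- Over a finite field F with q elements, q odd, the upper triangular subgroup of SL₂ (a Borel subgroup, of order q(q − 1)) has exactly q + 3 conjugacy classes. -/
theorem result {F : Type*} [Field F] [Fintype F] (hodd : Odd (Fintype.card F)) :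
    Nat.card (ConjClasses ((Cfsg.upperTriangularGL 2 F).comap Matrix.SpecialLinearGroup.toGL)) = Fintype.card F + 3 := by
  classical
  have hqn : Nat.card F = Fintype.card F := Nat.card_eq_fintype_card
  have h2F := two_ne_zero_of_odd hodd
  set B := Subgroup.comap Matrix.SpecialLinearGroup.toGL (Cfsg.upperTriangularGL 2 F) with hB
  have hsum := Cfsg.Agent.Lib.DicyclicCount.sum_card_centralizer B
  have hcB := card_bor_cast (F := F)
  rw [← hB] at hcB
  have hf : ∀ b : B, (Nat.card (Subgroup.centralizer ({b} : Set B)) : ℂ) =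
      ((Nat.card F : ℂ) - 1) +
      (if (b : Matrix.SpecialLinearGroup (Fin 2) F) ∈ Subgroup.center _ then ((Nat.card F : ℂ) - 1) ^ 2 else 0) +
      (if (b : Matrix.SpecialLinearGroup (Fin 2) F) ∈ (SP : Set _) then (Nat.card F : ℂ) + 1 else 0) := by
    intro b
    have hb10 := mem_bor.1 b.2
    by_cases hc : (b : Matrix.SpecialLinearGroup (Fin 2) F) ∈ Subgroup.center _
    · have hnp : (b : Matrix.SpecialLinearGroup (Fin 2) F) ∉ (SP : Set _) := by
        intro h; exact h.2.2 ((mem_center_iff_entries _).1 hc).1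
      rw [if_pos hc, if_neg hnp]
      have : Subgroup.centralizer ({b} : Set B) = ⊤ := by
        rw [eq_top_iff]
        intro x _
        rw [Subgroup.mem_centralizer_singleton_iff]
        exact Subtype.ext (Subgroup.mem_center_iff.1 hc x)
      rw [this, Subgroup.card_top, hcB]
      ring
    · rw [if_neg hc, card_centralizer_of_le B b (centralizer_le_bor hb10 hc)]
      by_cases hp : (b : Matrix.SpecialLinearGroup (Fin 2) F) ∈ (SP : Set _)
      · rw [if_pos hp, card_centralizer_SP hp, card_Zs_odd h2F]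
        push_cast; ring
      · rw [if_neg hp]
        have hd := det2 (b : Matrix.SpecialLinearGroup (Fin 2) F)
        rw [hb10] at hd
        have h00 : ((b : Matrix.SpecialLinearGroup (Fin 2) F) : Matrix (Fin 2) (Fin 2) F) 0 0 ≠
            ((b : Matrix.SpecialLinearGroup (Fin 2) F) : Matrix (Fin 2) (Fin 2) F) 1 1 := by
          intro h
          by_cases h01 : ((b : Matrix.SpecialLinearGroup (Fin 2) F) : Matrix (Fin 2) (Fin 2) F) 0 1 = 0
          · exact hc ((mem_center_iff_entries _).2 ⟨h01, hb10, h⟩)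
          · exact hp ⟨hb10, h, h01⟩
        have h4 : tr (b : Matrix.SpecialLinearGroup (Fin 2) F) ^ 2 ≠ 4 := by
          rw [tr_def]
          intro h
          apply h00
          have : (((b : Matrix.SpecialLinearGroup (Fin 2) F) : Matrix (Fin 2) (Fin 2) F) 0 0 -
            ((b : Matrix.SpecialLinearGroup (Fin 2) F) : Matrix (Fin 2) (Fin 2) F) 1 1) ^ 2 = 0 := by
            linear_combination h - 4 * hd
          exact sub_eq_zero.1 (pow_eq_zero_iff two_ne_zero |>.1 this)
        have hr : (((b : Matrix.SpecialLinearGroup (Fin 2) F) : Matrix (Fin 2) (Fin 2) F) 0 0) ^ 2 -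
            tr (b : Matrix.SpecialLinearGroup (Fin 2) F) *
            (((b : Matrix.SpecialLinearGroup (Fin 2) F) : Matrix (Fin 2) (Fin 2) F) 0 0) + 1 = 0 := by
          rw [tr_def]
          linear_combination -hd
        rw [(centralizer_of_root h4 hr).2]
        have h2 : 1 ≤ Nat.card F := Finite.card_pos
        push_cast [Nat.cast_sub h2]
        ring
  have hsubB : ∀ φ : Matrix.SpecialLinearGroup (Fin 2) F → ℂ, (∀ g, φ g ≠ 0 → g ∈ B) →
      ∑ b : B, φ b = ∑ g, φ g := by
    intro φ hφ
    have h1 : ∑ b : B, φ b = ∑ g ∈ Finset.univ.filter (fun g => g ∈ B), φ g :=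
      (Finset.sum_subtype (Finset.univ.filter (fun g => g ∈ B)) (by simp) φ).symm
    rw [h1]
    apply Finset.sum_filter_of_ne
    intro g _ hg
    exact hφ g hg
  have e1 : ∑ b : B, (if (b : Matrix.SpecialLinearGroup (Fin 2) F) ∈ Subgroup.center _ then ((Nat.card F : ℂ) - 1) ^ 2 else 0) =
      2 * ((Nat.card F : ℂ) - 1) ^ 2 := by
    rw [hsubB (fun g => if g ∈ Subgroup.center _ then ((Nat.card F : ℂ) - 1) ^ 2 else 0) ?_]
    · rw [sum_center (fun _ => ((Nat.card F : ℂ) - 1) ^ 2), Finset.sum_const, card_Zs_odd h2F]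
      simp
    · intro g hg
      by_cases hc : g ∈ Subgroup.center (Matrix.SpecialLinearGroup (Fin 2) F)
      · rw [hB, mem_bor]; exact ((mem_center_iff_entries g).1 hc).2.1
      · simp [hc] at hg
  have e2 : ∑ b : B, (if (b : Matrix.SpecialLinearGroup (Fin 2) F) ∈ (SP : Set _) then (Nat.card F : ℂ) + 1 else 0) =
      2 * (((Nat.card F : ℂ) - 1) * ((Nat.card F : ℂ) + 1)) := by
    rw [hsubB (fun g => if g ∈ (SP : Set _) then (Nat.card F : ℂ) + 1 else 0) ?_]
    · have h3 := sum_SP (F := F) (fun _ => (Nat.card F : ℂ) + 1)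
      refine Eq.trans (Finset.sum_congr rfl (fun g _ => by congr)) (h3.trans ?_)
      rw [Finset.sum_const, card_Zs_odd h2F, Finset.sum_const, Finset.card_univ,
        ← Nat.card_eq_fintype_card, Nat.card_units]
      have h2 : 1 ≤ Nat.card F := Finite.card_pos
      simp only [nsmul_eq_mul]
      push_cast [Nat.cast_sub h2]
      ring
    · intro g hg
      by_cases hc : g ∈ (SP : Set (Matrix.SpecialLinearGroup (Fin 2) F))
      · rw [hB, mem_bor]; exact hc.1
      · simp [hc] at hg
  have e3 : ((∑ b : B, Nat.card (Subgroup.centralizer ({b} : Set B)) : ℕ) : ℂ) =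
      (Nat.card B : ℂ) * ((Nat.card F : ℂ) - 1) + 2 * ((Nat.card F : ℂ) - 1) ^ 2 +
        2 * (((Nat.card F : ℂ) - 1) * ((Nat.card F : ℂ) + 1)) := by
    push_cast
    rw [Finset.sum_congr rfl (fun b _ => hf b), Finset.sum_add_distrib, Finset.sum_add_distrib, e1, e2,
      Finset.sum_const, Finset.card_univ, nsmul_eq_mul, ← Nat.card_eq_fintype_card]
  rw [hsum] at e3
  push_cast at e3
  rw [hcB] at e3
  have h1 := q_ne_zero (F := F)
  have h2 := q_sub_one_ne_zero (F := F)
  have h5 : (Nat.card (ConjClasses B) : ℂ) = (Nat.card F : ℂ) + 3 := by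
    apply mul_left_cancel₀ (mul_ne_zero h1 h2)
    linear_combination e3
  rw [← hqn]
  exact_mod_cast h5

end Cfsg.Agent.S2437
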