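import Cfsg.Statements.S5552
import Cfsg.Agent.Lib.LeechGen
import Cfsg.Agent.Lib.LeechTrans

set_option autoImplicit false
open Cfsg

namespace Cfsg.Agent.S5552

open Cfsg.Agent.Lib.Golay Cfsg.Agent.Lib.LeechMin Cfsg.Agent.Lib.LeechGen

theorem dot_single (x : GolayPt → ℤ) (i : GolayPt) (a : ℤ) : dotInt x (Pi.single i a) = x i * a := by
  unfold dotInt
  rw [Finset.sum_eq_single i]
  · rw [Pi.single_eq_same]
  · intro j _ hj; rw [Pi.single_eq_of_ne hj, mul_zero]
  · intro h; exact absurd (Finset.mem_univ i) h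

theorem dot_add (x y z : GolayPt → ℤ) : dotInt x (y + z) = dotInt x y + dotInt x z := by
  simp only [dotInt, Pi.add_apply, mul_add, Finset.sum_add_distrib]

theorem dot_add' (x y z : GolayPt → ℤ) : dotInt (x + y) z = dotInt x z + dotInt y z := by
  simp only [dotInt, Pi.add_apply, add_mul, Finset.sum_add_distrib]

theorem dot_sub (x y z : GolayPt → ℤ) : dotInt x (y - z) = dotInt x y - dotInt x z := by
  simp only [dotInt, Pi.sub_apply, mul_sub, Finset.sum_sub_distrib]

theorem dot_neg (x y : GolayPt → ℤ) : dotInt x (-y) = -dotInt x y := by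
  simp only [dotInt, Pi.neg_apply, mul_neg, Finset.sum_neg_distrib]

section

variable {Q : ↥leechLattice → ZMod 2}

/-- polar form -/
def B (Q : ↥leechLattice → ZMod 2) (x y : leechLattice) : ZMod 2 := Q (x + y) + Q x + Q y

theorem two_eq : (2 : ZMod 2) = 0 := rfl

theorem Q_zero (hquad : ∀ u v w : ↥leechLattice, Q (u + v + w) + Q u + Q v + Q w = Q (u + v) + Q (u + w) + Q (v + w)) :
    Q 0 = 0 := by
  have h := hquad 0 0 0
  simp only [add_zero] at h
  linear_combination h

theorem B_add (hquad : ∀ u v w : ↥leechLattice, Q (u + v + w) + Q u + Q v + Q w = Q (u + v) + Q (u + w) + Q (v + w))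
    (x y z : leechLattice) : B Q x (y + z) = B Q x y + B Q x z := by
  unfold B
  rw [← add_assoc x y z]
  linear_combination hquad x y z + (Q (y + z) - Q x - Q y - Q z) * two_eq

theorem B_comm (x y : leechLattice) : B Q x y = B Q y x := by
  unfold B; rw [add_comm x y]; ring

theorem Q_neg (hcoset : ∀ v w : ↥leechLattice, Q (v + (w + w)) = Q v) (x : leechLattice) : Q (-x) = Q x := by
  have h := hcoset (-x) x
  rw [← h]; congr 1; abel

theorem B_neg (hcoset : ∀ v w : ↥leechLattice, Q (v + (w + w)) = Q v) (x y : leechLattice) :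
    B Q x y = Q (x - y) + Q x + Q y := by
  unfold B
  have h := hcoset (x - y) y
  rw [← h]; congr 3; abel

theorem Q_trans (hinv : ∀ (g : ↥Co0) (v : ↥leechLattice), Q (g • v) = Q v) {v w : leechLattice}
    (hv : sqNorm (v : GolayPt → ℤ) ≠ 0)
    (hn : sqNorm (v : GolayPt → ℤ) ≤ 64)
    (h : sqNorm (v : GolayPt → ℤ) = sqNorm (w : GolayPt → ℤ)) : Q v = Q w := by
  obtain ⟨g, rfl⟩ := Cfsg.Agent.Lib.LeechTrans.transitive (v := v) (w := w) (by
    rintro rfl
    apply hv
    simp [sqNorm]) hn h
  exact (hinv g v).symm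

end

/-- On the Leech lattice of the definitions, let Q be a function to the field with two elements that is constant on cosets of twice the lattice, is a quadratic form there (Q(u+v+w) + Q(u) + Q(v) + Q(w) = Q(u+v) + Q(u+w) + Q(v+w) for all u, v, w), is invariant under every lattice automorphism, and is not identically zero. Then Q(v) is the squared length of v divided by 16, reduced modulo 2, for every lattice vector v (squared lengths of lattice vectors are multiples of 16). -/
theorem result (Q : ↥Cfsg.leechLattice → ZMod 2) (hcoset : ∀ v w : ↥Cfsg.leechLattice, Q (v + (w + w)) = Q v) (hquad : ∀ u v w : ↥Cfsg.leechLattice, Q (u + v + w) + Q u + Q v + Q w = Q (u + v) + Q (u + w) + Q (v + w)) (hinv : ∀ (g : ↥Cfsg.Co0) (v : ↥Cfsg.leechLattice), Q (g • v) = Q v) (hne : ∃ v : ↥Cfsg.leechLattice, Q v ≠ 0) (v : ↥Cfsg.leechLattice) : Q v = ((Cfsg.sqNorm (v : Cfsg.GolayPt → ℤ) / 16 : ℤ) : ZMod 2) := by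
  -- the explicit vectors
  have hO : mset (bas 0) ∈ octads := bas_octad 0 (by norm_num)
  have ha : pt 0 ∈ mset (bas 0) := by decide +kernel
  have ha' : pt 12 ∈ mset (bas 0) := by decide +kernel
  have hb : pt 1 ∉ mset (bas 0) := by decide +kernel
  obtain ⟨O, hOe⟩ : ∃ O, O = mset (bas 0) := ⟨_, rfl⟩
  rw [← hOe] at hO ha ha' hb
  obtain ⟨a, ha0⟩ : ∃ a, a = pt 0 := ⟨_, rfl⟩
  obtain ⟨a', ha0'⟩ : ∃ a, a = pt 12 := ⟨_, rfl⟩
  obtain ⟨b, hb0⟩ : ∃ a, a = pt 1 := ⟨_, rfl⟩
  have haa : a ≠ a' := by rw [ha0, ha0']; exact pt_ne (by norm_num) (by norm_num) (by norm_num)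
  have hab : a ≠ b := by rw [ha0, hb0]; exact pt_ne (by norm_num) (by norm_num) (by norm_num)
  have hab' : a' ≠ b := by rw [ha0', hb0]; exact pt_ne (by norm_num) (by norm_num) (by norm_num)
  rw [← ha0] at ha
  rw [← ha0'] at ha'
  rw [← hb0] at hb
  clear hOe ha0 ha0' hb0
  have ca : chi O a = 1 := by simp [chi, ha]
  have ca' : chi O a' = 1 := by simp [chi, ha']
  have cb : chi O b = 0 := by simp [chi, hb]
  let u : leechLattice := ⟨fun i => 2 * chi O i, (octad_min hO).1⟩
  let v1 : leechLattice := ⟨Pi.single b 4 - Pi.single a 4, (pair_sub_min hab.symm).1⟩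
  let v2 : leechLattice := ⟨-(Pi.single a' 4 + Pi.single b 4), leechLattice.neg_mem (pair_add_min hab').1⟩
  let v3 : leechLattice := ⟨Pi.single a' 4 - Pi.single b 4, (pair_sub_min hab').1⟩
  have nu : sqNorm (u : GolayPt → ℤ) = 32 := (octad_min hO).2
  have sqn : ∀ x : GolayPt → ℤ, sqNorm (-x) = sqNorm x := fun x => by simp [sqNorm]
  have n1 : sqNorm (v1 : GolayPt → ℤ) = 32 := (pair_sub_min hab.symm).2
  have n2 : sqNorm (v2 : GolayPt → ℤ) = 32 := by
    change sqNorm (-(Pi.single a' 4 + Pi.single b 4)) = 32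
    rw [sqn]; exact (pair_add_min hab').2
  have n3 : sqNorm (v3 : GolayPt → ℤ) = 32 := (pair_sub_min hab').2
  have n12 : sqNorm ((v1 + v2 : leechLattice) : GolayPt → ℤ) = 32 := by
    have : ((v1 + v2 : leechLattice) : GolayPt → ℤ) = -(Pi.single a 4 + Pi.single a' 4) := by
      change (Pi.single b 4 - Pi.single a 4 : GolayPt → ℤ) + -(Pi.single a' 4 + Pi.single b 4) = _
      abel
    rw [this, sqn]; exact (pair_add_min haa).2
  have n13 : sqNorm ((v1 + v3 : leechLattice) : GolayPt → ℤ) = 32 := by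
    have : ((v1 + v3 : leechLattice) : GolayPt → ℤ) = Pi.single a' 4 - Pi.single a 4 := by
      change (Pi.single b 4 - Pi.single a 4 : GolayPt → ℤ) + (Pi.single a' 4 - Pi.single b 4) = _
      abel
    rw [this]; exact (pair_sub_min haa.symm).2
  have d1 : dotInt (u : GolayPt → ℤ) v1 = -8 := by
    change dotInt (fun i => 2 * chi O i) (Pi.single b 4 - Pi.single a 4) = -8
    rw [dot_sub, dot_single, dot_single, ca, cb]; norm_num
  have d2 : dotInt (u : GolayPt → ℤ) v2 = -8 := by
    change dotInt (fun i => 2 * chi O i) (-(Pi.single a' 4 + Pi.single b 4)) = -8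
    rw [dot_neg, dot_add, dot_single, dot_single, ca', cb]; norm_num
  have d3 : dotInt (u : GolayPt → ℤ) v3 = 8 := by
    change dotInt (fun i => 2 * chi O i) (Pi.single a' 4 - Pi.single b 4) = 8
    rw [dot_sub, dot_single, dot_single, ca', cb]; norm_num
  have m1 : sqNorm ((u + v1 : leechLattice) : GolayPt → ℤ) = 48 := by
    rw [AddSubgroup.coe_add, sqNorm_add, nu, n1, d1]; norm_num
  have m2 : sqNorm ((u + v2 : leechLattice) : GolayPt → ℤ) = 48 := by
    rw [AddSubgroup.coe_add, sqNorm_add, nu, n2, d2]; norm_num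
  have m3 : sqNorm ((u - v3 : leechLattice) : GolayPt → ℤ) = 48 := by
    rw [AddSubgroup.coe_sub, sqNorm_sub, nu, n3, d3]; norm_num
  have m12 : sqNorm ((u + (v1 + v2) : leechLattice) : GolayPt → ℤ) = 32 := by
    rw [AddSubgroup.coe_add, sqNorm_add, nu, n12, AddSubgroup.coe_add, dot_add, d1, d2]; norm_num
  have m13 : sqNorm ((u + (v1 + v3) : leechLattice) : GolayPt → ℤ) = 64 := by
    rw [AddSubgroup.coe_add, sqNorm_add, nu, n13, AddSubgroup.coe_add, dot_add, d1, d3]; norm_num
  -- the three values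
  obtain ⟨d, hd⟩ : ∃ d, d = Q (u + v1) := ⟨_, rfl⟩
  have c32 : ∀ w : leechLattice, sqNorm (w : GolayPt → ℤ) = 32 → Q w = Q u := fun w hw =>
    Q_trans hinv (by rw [hw]; norm_num) (by rw [hw]; norm_num) (by rw [hw, nu])
  have c48 : ∀ w : leechLattice, sqNorm (w : GolayPt → ℤ) = 48 → Q w = d := fun w hw => by
    rw [hd]
    exact Q_trans hinv (by rw [hw]; norm_num) (by rw [hw]; norm_num) (by rw [hw, m1])
  have c64 : ∀ w : leechLattice, sqNorm (w : GolayPt → ℤ) = 64 → Q w = Q (u + (v1 + v3)) := fun w hw =>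
    Q_trans hinv (by rw [hw]; norm_num) (by rw [hw]) (by rw [hw, m13])
  have b1 : B Q u v1 = d := by
    unfold B; rw [c48 _ m1, c32 _ n1]; linear_combination (Q u) * two_eq
  have b2 : B Q u v2 = d := by
    unfold B; rw [c48 _ m2, c32 _ n2]; linear_combination (Q u) * two_eq
  have b3 : B Q u v3 = d := by
    rw [B_neg hcoset, c48 _ m3, c32 _ n3]; linear_combination (Q u) * two_eq
  have hc : Q u = 0 := by
    have h1 := B_add hquad u v1 v2
    rw [b1, b2] at h1
    have h2 : B Q u (v1 + v2) = Q u := by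
      unfold B; rw [c32 _ m12, c32 _ n12]; linear_combination (Q u) * two_eq
    rw [h2] at h1
    linear_combination h1 + d * two_eq
  have he : Q (u + (v1 + v3)) = 0 := by
    have h1 := B_add hquad u v1 v3
    rw [b1, b3] at h1
    have h2 : B Q u (v1 + v3) = Q (u + (v1 + v3)) := by
      unfold B; rw [c32 _ n13, hc]; ring
    rw [h2] at h1
    linear_combination h1 + d * two_eq
  rw [hc] at c32
  rw [he] at c64
  -- the polar form on pairs of short vectors
  have hBm : ∀ x y : leechLattice, sqNorm (x : GolayPt → ℤ) = 32 → sqNorm (y : GolayPt → ℤ) = 32 →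
      ∀ t : ℤ, dotInt (x : GolayPt → ℤ) y = 8 * t → B Q x y = d * t := by
    intro x y hx hy t ht
    have hs := sqNorm_sub (x : GolayPt → ℤ) y
    have hp := sqNorm_add (x : GolayPt → ℤ) y
    rw [hx, hy, ht, ← AddSubgroup.coe_sub] at hs
    rw [hx, hy, ht, ← AddSubgroup.coe_add] at hp
    have h0s : 0 ≤ sqNorm ((x - y : leechLattice) : GolayPt → ℤ) := Finset.sum_nonneg fun i _ => sq_nonneg _
    have h0p : 0 ≤ sqNorm ((x + y : leechLattice) : GolayPt → ℤ) := Finset.sum_nonneg fun i _ => sq_nonneg _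
    have hsm : (x - y : leechLattice) = 0 ∨ 32 ≤ sqNorm ((x - y : leechLattice) : GolayPt → ℤ) := by
      by_cases h : (x - y : leechLattice) = 0
      · left; exact h
      · right; exact min_norm (x - y : leechLattice).2 (fun e => h (Subtype.ext e))
    have hpm : (x + y : leechLattice) = 0 ∨ 32 ≤ sqNorm ((x + y : leechLattice) : GolayPt → ℤ) := by
      by_cases h : (x + y : leechLattice) = 0
      · left; exact h
      · right; exact min_norm (x + y : leechLattice).2 (fun e => h (Subtype.ext e))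
    have hz : sqNorm ((0 : leechLattice) : GolayPt → ℤ) = 0 := by simp [sqNorm]
    have hB0 : B Q x y = Q (x + y) := by unfold B; rw [c32 x hx, c32 y hy]; ring
    have hB1 : B Q x y = Q (x - y) := by rw [B_neg hcoset, c32 x hx, c32 y hy]; ring
    have ht1 : t ≤ 4 := by omega
    have ht2 : -4 ≤ t := by omega
    have ht3 : t ≠ 3 := by
      rintro rfl
      rcases hsm with h | h
      · rw [h, hz] at hs; omega
      · omega
    have ht4 : t ≠ -3 := by
      rintro rfl
      rcases hpm with h | h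
      · rw [h, hz] at hp; omega
      · omega
    have hcases : t = 4 ∨ t = 2 ∨ t = 1 ∨ t = 0 ∨ t = -1 ∨ t = -2 ∨ t = -4 := by omega
    rcases hcases with rfl | rfl | rfl | rfl | rfl | rfl | rfl
    · rcases hsm with h | h
      · rw [hB1, h, Q_zero hquad]; push_cast; linear_combination (-2 * d) * two_eq
      · omega
    · rw [hB1, c32 _ (by rw [hs]; norm_num)]; push_cast; linear_combination (-d) * two_eq
    · rw [hB1, c48 _ (by rw [hs]; norm_num)]; push_cast; ring
    · rw [hB1, c64 _ (by rw [hs]; norm_num)]; push_cast; ring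
    · rw [hB0, c48 _ (by rw [hp]; norm_num)]; push_cast; linear_combination d * two_eq
    · rw [hB0, c32 _ (by rw [hp]; norm_num)]; push_cast; linear_combination d * two_eq
    · rcases hpm with h | h
      · rw [hB0, h, Q_zero hquad]; push_cast; linear_combination (2 * d) * two_eq
      · omega
  -- induction
  have key : ∀ v : leechLattice,
      (∀ m : leechLattice, sqNorm (m : GolayPt → ℤ) = 32 → ∀ t : ℤ, dotInt (v : GolayPt → ℤ) m = 8 * t → B Q v m = d * t) ∧
      ∀ s : ℤ, sqNorm (v : GolayPt → ℤ) = 16 * s → Q v = d * s := by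
    intro v
    induction v using induction_min with
    | h0 =>
      refine ⟨fun m hm t ht => ?_, fun s hs => ?_⟩
      · have h0 : t = 0 := by
          have : dotInt ((0 : leechLattice) : GolayPt → ℤ) m = 0 := by simp [dotInt]
          omega
        unfold B
        rw [h0, zero_add, Q_zero hquad]; push_cast; linear_combination (Q m) * two_eq
      · have h0 : s = 0 := by
          have : sqNorm ((0 : leechLattice) : GolayPt → ℤ) = 0 := by simp [sqNorm]
          omega
        rw [h0, Q_zero hquad]; push_cast; ring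
    | hadd v m hm ih =>
      refine ⟨fun m' hm' t ht => ?_, fun s hs => ?_⟩
      · obtain ⟨t1, ht1⟩ := eight_dvd_dot v.2 m'.2
        obtain ⟨t2, ht2⟩ := eight_dvd_dot m.2 m'.2
        have ht12 : t = t1 + t2 := by
          rw [AddSubgroup.coe_add, dot_add', ht1, ht2] at ht
          omega
        rw [B_comm, B_add hquad, B_comm m' v, B_comm m' m, ih.1 m' hm' t1 ht1, hBm m m' hm hm' t2 ht2, ht12]
        push_cast; ring
      · obtain ⟨t1, ht1⟩ := eight_dvd_dot v.2 m.2
        obtain ⟨s1, hs1⟩ := sixteen_dvd_norm v.2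
        have hs2 : s = s1 + t1 + 2 := by
          rw [AddSubgroup.coe_add, sqNorm_add, ht1, hs1, hm] at hs
          omega
        have h1 := ih.1 m hm t1 ht1
        have h2 := ih.2 s1 hs1
        unfold B at h1
        rw [c32 m hm] at h1
        rw [hs2]
        push_cast
        linear_combination h1 - h2 - (d * s1 + d) * two_eq
  have hd1 : d = 1 := by
    have h2 : ∀ z : ZMod 2, z = 0 ∨ z = 1 := by decide
    rcases h2 d with h | h
    · exfalso
      obtain ⟨w, hw⟩ := hne
      obtain ⟨s, hs⟩ := sixteen_dvd_norm w.2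
      apply hw
      rw [(key w).2 s hs, h, zero_mul]
    · exact h
  obtain ⟨s, hs⟩ := sixteen_dvd_norm v.2
  rw [(key v).2 s hs, hd1, hs, Int.mul_ediv_cancel_left _ (by norm_num), one_mul]

end Cfsg.Agent.S5552
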