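import Cfsg.Statements.S0744
import Cfsg.Agent.Lib.Gleason

set_option autoImplicit false
open Cfsg

namespace Cfsg.Agent.S0744

open MulAction

/-- If for some `k > 1` the pointwise stabilisers of all `(k-1)`-subsets have the same order `> 1` and those of all `k`-subsets have the same order, then the group is `(k-1)`-transitive. -/
theorem result {α : Type*} [Fintype α] [DecidableEq α] (G : Subgroup (Equiv.Perm α)) {k : ℕ} (hk : 1 < k) (hkn : k ≤ Fintype.card α) (l m : ℕ) (hl : 1 < l) (hkm1 : ∀ s : Finset α, s.card = k - 1 → Nat.card (fixingSubgroup G (s : Set α)) = l) (hkm : ∀ s : Finset α, s.card = k → Nat.card (fixingSubgroup G (s : Set α)) = m) : MulAction.IsMultiplyPretransitive G α (k - 1) := by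
  obtain ⟨j, rfl⟩ : ∃ j, k = j + 2 := ⟨k - 2, by omega⟩
  have hj : j + 2 - 1 = j + 1 := by omega
  rw [hj] at hkm1 ⊢
  -- orbits of the pointwise stabiliser outside `s` have length `l / m`
  have horb : ∀ (s : Finset α), s.card = j + 1 → ∀ x : α, x ∉ s →
      Nat.card (orbit (fixingSubgroup G (s : Set α)) x) * m = l := by
    intro s hs x hx
    have h1 := Nat.card_congr (orbitProdStabilizerEquivGroup (fixingSubgroup G (s : Set α)) x)
    rw [Nat.card_prod, hkm1 s hs] at h1
    rw [← h1]
    congr 1
    rw [← hkm (insert x s) (by rw [Finset.card_insert_of_notMem hx, hs])]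
    refine Nat.card_congr ⟨fun g => ⟨⟨g.1, ?_⟩, ?_⟩, fun g => ⟨g.1.1, ?_⟩, ?_, ?_⟩
    · rw [mem_fixingSubgroup_iff]
      intro y hy
      have hg := (mem_fixingSubgroup_iff _).1 g.2
      exact hg y (by rw [Finset.coe_insert]; exact Set.mem_insert_of_mem _ hy)
    · have hg := (mem_fixingSubgroup_iff _).1 g.2
      exact hg x (by rw [Finset.coe_insert]; exact Set.mem_insert _ _)
    · rw [mem_fixingSubgroup_iff]
      intro y hy
      rw [Finset.coe_insert] at hy
      rcases hy with rfl | hy
      · exact g.2
      · exact (mem_fixingSubgroup_iff _).1 g.1.2 y hy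
    · intro g; rfl
    · intro g; rfl
  -- a subset of size j+1 exists together with a point outside
  obtain ⟨s0, hs0⟩ : ∃ s : Finset α, s.card = j + 1 := by
    obtain ⟨s, _, hs⟩ := Finset.exists_subset_card_eq (s := (Finset.univ : Finset α)) (n := j + 1)
      (by rw [Finset.card_univ]; omega)
    exact ⟨s, hs⟩
  have hml : m ≠ l := by
    rintro rfl
    have htriv : ∀ g ∈ fixingSubgroup G (s0 : Set α), g = 1 := by
      intro g hg
      apply FaithfulSMul.eq_of_smul_eq_smul (α := α)
      intro x
      rw [one_smul]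
      by_cases hx : x ∈ s0
      · exact (mem_fixingSubgroup_iff _).1 hg x hx
      · have h1 := horb s0 hs0 x hx
        have h2 : Nat.card (orbit (fixingSubgroup G (s0 : Set α)) x) = 1 := by
          have : 0 < m := by omega
          exact Nat.eq_of_mul_eq_mul_right this (by rw [h1, one_mul])
        rw [Nat.card_eq_one_iff_unique] at h2
        have h3 : (⟨(⟨g, hg⟩ : fixingSubgroup G (s0 : Set α)) • x, mem_orbit _ _⟩ : orbit (fixingSubgroup G (s0 : Set α)) x) = ⟨x, mem_orbit_self x⟩ := h2.1.elim _ _
        exact congrArg Subtype.val h3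
    have h1 : Nat.card (fixingSubgroup G (s0 : Set α)) = 1 := by
      rw [Nat.card_eq_one_iff_unique]
      refine ⟨⟨fun a b => ?_⟩, ⟨1⟩⟩
      apply Subtype.ext
      rw [htriv a.1 a.2, htriv b.1 b.2]
    rw [hkm1 s0 hs0] at h1
    omega
  -- the common length of orbits
  obtain ⟨x0, hx0⟩ : ∃ x, x ∉ s0 := by
    by_contra hcon
    push Not at hcon
    have h1 : Finset.univ ⊆ s0 := fun z _ => hcon z
    have h2 := Finset.card_le_card h1
    rw [Finset.card_univ, hs0] at h2
    omega
  have hm0 : 0 < m := by
    rcases Nat.eq_zero_or_pos m with h | h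
    · have h1 := horb s0 hs0 x0 hx0
      rw [h, mul_zero] at h1
      omega
    · exact h
  set r := Nat.card (orbit (fixingSubgroup G (s0 : Set α)) x0) with hr
  have hrm : r * m = l := horb s0 hs0 x0 hx0
  have hr1 : r ≠ 1 := by
    intro h
    rw [h, one_mul] at hrm
    exact hml hrm
  obtain ⟨p, hp, hpr⟩ := Nat.exists_prime_and_dvd hr1
  have hpf := Fact.mk hp
  apply Cfsg.Agent.Lib.Gleason.main j hp (by rw [Nat.card_eq_fintype_card]; omega)
  intro s hs
  set S := s.toFinite.toFinset with hS
  have hScard : S.card = j + 1 := by rw [hS, ← Set.ncard_eq_toFinset_card s]; exact hs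
  have hSs : (S : Set α) = s := s.toFinite.coe_toFinset
  let K := fixingSubgroup G (S : Set α)
  let P : Sylow p K := default
  refine ⟨(P : Subgroup K).map K.subtype, P.2.map _, ?_⟩
  ext x
  constructor
  · intro hx
    by_contra hxs
    have hxS : x ∉ S := by
      intro h
      apply hxs
      rw [← hSs]; exact h
    have h1 : Nat.card (orbit K x) * m = l := horb S hScard x hxS
    have h2 : Nat.card (orbit K x) = r := Nat.eq_of_mul_eq_mul_right hm0 (h1.trans hrm.symm)
    -- `P ≤ stabilizer`, whose index is divisible by `p`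
    have h3 : (stabilizer K x).index = r := by
      rw [MulAction.index_stabilizer, ← h2]
      rfl
    have h4 : (P : Subgroup K) ≤ stabilizer K x := by
      intro g hg
      have h5 := hx ⟨K.subtype g, Subgroup.mem_map_of_mem _ hg⟩
      exact h5
    have h5 : (stabilizer K x).index ∣ (P : Subgroup K).index := Subgroup.index_dvd_of_le h4
    rw [h3] at h5
    exact P.not_dvd_index (hpr.trans h5)
  · intro hx
    rintro ⟨g, hg⟩
    obtain ⟨k, hk, rfl⟩ := hg
    have := (mem_fixingSubgroup_iff _).1 k.2 x (by rw [hSs]; exact hx)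
    exact this

end Cfsg.Agent.S0744
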