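import Cfsg.Statements.S0293
import Cfsg.Agent.Lib.ClOmega

set_option autoImplicit false
open Cfsg

namespace Cfsg.Agent.S0293


/-- gcd(4, q^m - 1) |PΩ^+_{2m}(q)| = q^(m(m-1)) (q^m - 1) prod_{i=1}^{m-1} (q^(2i) - 1), m at least 4 (type D_m). -/
theorem result {F : Type*} [Field F] [Fintype F] {q : ℕ} (hF : Fintype.card F = q) (m : ℕ) (hm : 4 ≤ m) : Nat.gcd 4 (q ^ m - 1) * Nat.card (Cfsg.POmega F (Cfsg.quadFormPlus m F)) = q ^ (m * (m - 1)) * (q ^ m - 1) * ∏ i ∈ Finset.range (m - 1), (q ^ (2 * (i + 1)) - 1) := by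
  subst hF
  exact Cfsg.Agent.Lib.ClOmega.card_POmega_plus m (by omega)

end Cfsg.Agent.S0293
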