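import Cfsg.Statements.S5650
import Cfsg.Agent.Lib.SubfSp4
import Cfsg.Agent.Lib.SubfieldGeo

set_option autoImplicit false
open Cfsg

namespace Cfsg.Agent.S5650

open Matrix Cfsg.Geo Cfsg.Agent.Lib Cfsg.Agent.Lib.SubfSp Cfsg.Agent.Lib.SubfieldGeo Cfsg.Agent.Lib.GeoBridge
  Cfsg.Agent.Lib.SpTrans
open scoped MatrixGroups

variable {ι : Type} [Fintype ι] [DecidableEq ι] {F : Type*} [Field F]

/-- rational vectors, as an `F₀`-subspace -/
def ratS (F₀ : Subfield F) (P : GL ι F) : Submodule F₀ (ι → F) :=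
  { rat F₀ P with
    smul_mem' := fun c _ hv => rat_smul (F₀ := F₀) (P := P) hv c.2 }

theorem mem_ratS {F₀ : Subfield F} {P : GL ι F} {v : ι → F} : v ∈ ratS F₀ P ↔ v ∈ rat F₀ P := Iff.rfl

/-- the parametrization of the rational vectors -/
def par (F₀ : Subfield F) (P : GL ι F) : (ι → F₀) →ₗ[F₀] (ι → F) where
  toFun u := (P : Matrix ι ι F) *ᵥ (fun i => (u i : F))
  map_add' := by
    intro x y
    rw [← Matrix.mulVec_add]; congr 1
  map_smul' := by
    intro c x
    have : (fun i => (((c • x) i : F₀) : F)) = (c : F) • (fun i => (x i : F)) := by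
      ext i; rfl
    rw [this, Matrix.mulVec_smul]; rfl

theorem range_par (F₀ : Subfield F) (P : GL ι F) : LinearMap.range (par F₀ P) = ratS F₀ P := by
  ext v
  rw [mem_ratS, mem_rat, LinearMap.mem_range]
  constructor
  · rintro ⟨u, rfl⟩
    exact ⟨fun i => (u i : F), fun i => (u i).2, rfl⟩
  · rintro ⟨u, hu, rfl⟩
    exact ⟨fun i => ⟨u i, hu i⟩, rfl⟩

theorem par_inj (F₀ : Subfield F) (P : GL ι F) : Function.Injective (par F₀ P) := by
  intro x y h
  have h1 : (P : Matrix ι ι F) *ᵥ (fun i => (x i : F)) = (P : Matrix ι ι F) *ᵥ (fun i => (y i : F)) := h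
  have h2 := congrArg (fun z => ((P⁻¹ : GL ι F) : Matrix ι ι F) *ᵥ z) h1
  simp only [Matrix.mulVec_mulVec, ← Units.val_mul, inv_mul_cancel, Units.val_one, Matrix.one_mulVec] at h2
  ext i
  exact congrFun h2 i

theorem finrank_ratS (F₀ : Subfield F) (P : GL ι F) : Module.finrank F₀ (ratS F₀ P) = Fintype.card ι := by
  rw [← range_par, LinearMap.finrank_range_of_inj (par_inj F₀ P), Module.finrank_fintype_fun_eq_card]

/-- For a finite field F, a subfield F₀ with |F| = |F₀| ^ r for a prime r, and m ≥ 7, let P be an invertible matrix and ζ a non-zero scalar such that ζ times the standard alternating form takes values in F₀ on the F₀-span of the columns of P. Then the elements of Sp_2m(F) lying in the subfield group of P (the conjugate by P of the product of GL_2m(F₀) with the scalars) form a maximal subgroup of Sp_2m(F). -/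
theorem result {F : Type*} [Field F] [Fintype F] (m : ℕ) (hm : 7 ≤ m) (F₀ : Subfield F) (r : ℕ) (hr : r.Prime) (hcard : Fintype.card F = Nat.card F₀ ^ r) (P : Matrix.GeneralLinearGroup (Fin m ⊕ Fin m) F) (ζ : F) (hζ : ζ ≠ 0) (hP : Cfsg.Geo.IsFormRationalStructure (Cfsg.sympForm m F) F₀ ζ P) : Cfsg.Geo.IsMaximalIn (Cfsg.spGL m F) (Cfsg.Geo.subfieldSubgroup F₀ P ⊓ Cfsg.spGL m F) := by
  set B : (Fin m ⊕ Fin m → F) →ₗ[F] (Fin m ⊕ Fin m → F) →ₗ[F] F := ζ • sympB m F with hBdef
  have hBapp : ∀ x y, B x y = ζ * sympB m F x y := fun x y => rfl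
  have hB : B.IsAlt := by
    intro x
    rw [hBapp, sympB_isAlt m x, mul_zero]
  have hiso : ∀ g : (Fin m ⊕ Fin m → F) ≃ₗ[F] (Fin m ⊕ Fin m → F), g ∈ isom (fun x y => B x y) ↔ g ∈ isom (fun x y => sympB m F x y) := by
    intro g
    rw [mem_isom, mem_isom]
    constructor
    · intro h x y
      have := h x y
      simp only [hBapp] at this
      exact mul_left_cancel₀ hζ this
    · intro h x y
      have := h x y
      simp only [hBapp] at this ⊢
      rw [this]
  have hform : ∀ x ∈ rat F₀ P, ∀ y ∈ rat F₀ P, B x y ∈ F₀ := by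
    rintro _ ⟨u, hu, rfl⟩ _ ⟨w, hw, rfl⟩
    exact hP u w hu hw
  have S : SpF B F₀ (ratS F₀ P) :=
    { alt := hB
      form := hform
      span := span_rat
      nd := by
        intro x hx hx0
        obtain ⟨y, hy, hxy⟩ := sympB_nd m x hx hx0
        exact ⟨y, hy, by rw [hBapp]; exact mul_ne_zero hζ hxy⟩
      fin := by
        rw [← range_par]; infer_instance
      dim := by
        rw [finrank_ratS, Fintype.card_sum, Fintype.card_fin]; omega }
  have hsub : ∀ v ∈ rat F₀ P, ∀ a ∈ F₀, le.symm (tv B hB v a) ∈ subfieldSubgroup F₀ P ⊓ spGL m F := by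
    intro v hv a ha
    refine Subgroup.mem_inf.mpr ⟨?_, ?_⟩
    · rw [mem_subfieldSubgroup_iff]
      refine ⟨1, one_ne_zero, fun x hx => ⟨x + (a * B x v) • v, ?_, ?_⟩⟩
      · exact (rat F₀ P).add_mem hx (rat_smul hv (F₀.mul_mem ha (hform x hx v hv)))
      · rw [MulEquiv.apply_symm_apply, one_smul, tv_apply]
    · rw [mem_spGL_iff, MulEquiv.apply_symm_apply, ← hiso]
      exact tv_mem_isom hB v a
  apply isMaximalIn_of
  · -- strictness
    refine lt_of_le_of_ne inf_le_right ?_
    intro heq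
    obtain ⟨l, hl⟩ : ∃ l : F, l ∉ F₀ := by
      by_contra hcon
      push Not at hcon
      have h1 : Nat.card F₀ = Nat.card F :=
        Nat.card_congr (Equiv.subtypeUnivEquiv hcon)
      rw [Nat.card_eq_fintype_card (α := F), hcard] at h1
      have h2 : 1 < Nat.card F₀ := Finite.one_lt_card
      have h3 : Nat.card F₀ ^ 1 < Nat.card F₀ ^ r := Nat.pow_lt_pow_right h2 hr.one_lt
      rw [pow_one] at h3
      omega
    obtain ⟨v, hv, hv0⟩ : ∃ v ∈ rat F₀ P, v ≠ 0 := by
      have h1 : ratS F₀ P ≠ ⊥ := by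
        intro h
        have h2 := finrank_ratS F₀ P
        rw [h, finrank_bot, Fintype.card_sum, Fintype.card_fin] at h2
        omega
      exact Submodule.exists_mem_ne_zero_of_ne_bot h1
    obtain ⟨w, hw, hvw⟩ := S.nd0 hv0
    have h1 : le.symm (tv B hB v l) ∈ spGL m F := by
      rw [mem_spGL_iff, MulEquiv.apply_symm_apply, ← hiso]
      exact tv_mem_isom hB v l
    rw [← heq] at h1
    obtain ⟨c, hc, h2⟩ := (mem_subfieldSubgroup_iff _).mp h1.1
    obtain ⟨x, hx, hx2⟩ := h2 v hv
    obtain ⟨y, hy, hy2⟩ := h2 w hw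
    have hvv : B v v = 0 := hB v
    rw [MulEquiv.apply_symm_apply, tv_apply, hvv, mul_zero, zero_smul, add_zero] at hx2
    rw [MulEquiv.apply_symm_apply, tv_apply] at hy2
    have hcF : c ∈ F₀ := by
      have h3 : x = c⁻¹ • v := by rw [hx2, smul_smul, inv_mul_cancel₀ hc, one_smul]
      rw [h3] at hx
      have h4 := mem_of_smul_mem hv hv0 hx
      have := F₀.inv_mem h4
      rwa [inv_inv] at this
    have h5 : (l * B w v) • v ∈ rat F₀ P := by
      have h6 : (l * B w v) • v = c • y - w := by rw [← hy2]; abel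
      rw [h6]
      exact (rat F₀ P).sub_mem (rat_smul hy hcF) hw
    have h6 := mem_of_smul_mem hv hv0 h5
    have h7 : B w v ≠ 0 := fun h => hvw (S.comm0 h)
    apply hl
    have := F₀.div_mem h6 (hform w hw v hv)
    rwa [mul_div_assoc, div_self h7, mul_one] at this
  · intro M hM1 hM2 hM3
    have H : Hyp B F₀ (ratS F₀ P) hB M :=
      { le := by
          intro g hg
          rw [hiso]
          have h1 := hM2 (le.symm g) (by rw [MulEquiv.apply_symm_apply]; exact hg)
          rwa [mem_spGL_iff, MulEquiv.apply_symm_apply] at h1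
        mem := by
          intro v hv a ha
          have := hM1 _ (hsub v hv a ha)
          rwa [MulEquiv.apply_symm_apply] at this }
    by_contra hcon
    have hnot : ¬ isom (fun x y => B x y) ≤ M := by
      intro hle
      apply hcon
      intro g hg
      apply hle
      rw [hiso]
      exact hg
    have hF : ∀ w ∈ ratS F₀ P, w ≠ 0 → ∀ a : F, tv B hB w a ∈ M → a ∈ F₀ := by
      intro w hw hw0 a ha
      by_contra hl
      exact hnot (full hB S H r hr hcard hw hw0 ha hl)
    obtain ⟨g, hg, hgH⟩ := hM3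
    have hgK := hM2 g hg
    have hgn : g ∉ subfieldSubgroup F₀ P := fun h => hgH ⟨h, hgK⟩
    obtain ⟨v₀, hv₀, h1⟩ : ∃ v₀ ∈ rat F₀ P, ∀ c : F, ∀ v' ∈ rat F₀ P, le g v₀ ≠ c • v' := by
      by_contra hc
      push Not at hc
      exact hgn (mem_subfieldSubgroup_of g hc)
    have hv₀0 : v₀ ≠ 0 := by
      rintro rfl
      exact h1 1 0 (rat F₀ P).zero_mem (by simp)
    have hgv0 : le g v₀ ≠ 0 := by
      intro h
      exact hv₀0 ((map_eq_zero_iff (le g) (le g).injective).mp h)
    have htv : tv B hB (le g v₀) 1 ∈ M := tv_map hB H.le hg (H.mem v₀ hv₀ 1 F₀.one_mem)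
    by_cases hA : ∃ w₀ ∈ ratS F₀ P, w₀ ≠ 0 ∧ B (le g v₀) w₀ = 0
    · obtain ⟨w₀, hw₀, hw₀0, h2⟩ := hA
      obtain ⟨c, hc, v', hv', e⟩ := caseA' hB S H hF hgv0 htv hw₀ hw₀0 h2
      exact h1 c v' hv' e
    · push Not at hA
      exact caseB hB S H r hr hcard hF htv hA

end Cfsg.Agent.S5650
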