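import Cfsg.Statements.S5037
import Cfsg.Agent.Lib.RootTI

set_option autoImplicit false
open Cfsg

namespace Cfsg.Agent.S5037

open Cfsg.Agent.Lib.RankOneGrp Cfsg.Agent.Lib.RootSub Cfsg.Agent.Lib.RootLines
open Cfsg.Agent.Lib.RootOpp Cfsg.Agent.Lib.RootClass Cfsg.Agent.Lib.RootTI


/-- Let S be a class of abstract root subgroups of G that is either degenerate or non-degenerate (so either the commutator case never occurs, or all three cases occur), and A ≠ C members of S. If every member of S commuting with A commutes with C, then A and C have the same commuting members of S; and if every rank one partner of A is a rank one partner of C, then A and C commute and have the same rank one partners. -/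
theorem result {G : Type*} [Group G] {S : Set (Subgroup G)} (hS : Cfsg.IsRootSubgroupClass S)
    (hdn : Cfsg.IsDegenerateRootSet S ∨ Cfsg.IsNondegenerateRootSet S)
    {A C : Subgroup G} (hA : A ∈ S) (hC : C ∈ S) (hAC : A ≠ C) :
    (Cfsg.centralizingMembers S A ⊆ Cfsg.centralizingMembers S C →
      Cfsg.centralizingMembers S A = Cfsg.centralizingMembers S C) ∧
    (Cfsg.rankOnePartners S A ⊆ Cfsg.rankOnePartners S C →
      ⁅A, C⁆ = ⊥ ∧ Cfsg.rankOnePartners S A = Cfsg.rankOnePartners S C) := by
  have hS' := hS.1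
  -- if there is no rank one pair at all then everything commutes
  have hnone : (¬ ∃ A ∈ S, ∃ B ∈ S, IsRankOnePair A B) → ∀ A ∈ S, ∀ B ∈ S, ⁅A, B⁆ = ⊥ := by
    intro hno A hA B hB
    rcases hdn with hdeg | hnd
    · rcases hS'.pair A hA B hB with h1 | h1 | h1
      · exact h1
      · exact absurd ⟨A, hA, B, hB, h1⟩ hno
      · exact absurd h1 (hdeg A hA B hB)
    · exact absurd hnd.2.1 hno
  by_cases hex : ∃ A ∈ S, ∃ B ∈ S, IsRankOnePair A B
  swap
  · have hall := hnone hex
    refine ⟨fun _ => ?_, fun _ => ⟨hall A hA C hC, ?_⟩⟩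
    · ext B
      rw [mem_centralizingMembers, mem_centralizingMembers]
      exact ⟨fun h => ⟨h.1, hall B h.1 C hC⟩, fun h => ⟨h.1, hall B h.1 A hA⟩⟩
    · ext B
      constructor
      · intro h; exact absurd ⟨A, hA, B, h.1, h.2⟩ hex
      · intro h; exact absurd ⟨C, hC, B, h.1, h.2⟩ hex
  obtain ⟨A₀, hA₀, B₀, hB₀, h₀⟩ := hex
  have hiso := class_iso hS hA₀ hB₀ h₀
  constructor
  · intro hsub
    apply Set.Subset.antisymm hsub
    have hAC' : ⁅A, C⁆ = ⊥ := by
      have : A ∈ Cfsg.centralizingMembers S A := by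
        rw [mem_centralizingMembers]
        exact ⟨hA, commutator_self_bot (hS'.commutative A hA)⟩
      have := hsub this
      rw [mem_centralizingMembers] at this
      exact this.2
    obtain ⟨E, hE, hCE⟩ := hiso C hC
    have hAE : IsRankOnePair A E := by
      rcases hS'.pair A hA E hE with h1 | h1 | h1
      · exfalso
        have h2 : E ∈ Cfsg.centralizingMembers S A := by
          rw [mem_centralizingMembers]; exact ⟨hE, bot_symm h1⟩
        have h3 := hsub h2
        rw [mem_centralizingMembers] at h3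
        exact not_commute hCE (bot_symm h3.2)
      · exact h1
      · exfalso
        have h2 : ⁅A, E⁆ ∈ Cfsg.centralizingMembers S A := by
          rw [mem_centralizingMembers]; exact ⟨h1.1, bot_symm (cc_bot_left h1)⟩
        have h3 := hsub h2
        rw [mem_centralizingMembers] at h3
        have hEs := cc_symm h1
        refine not_comm_of_prod hS' (RankOnePair_symm hCE) hE h1.1 (cc_bot_right h1) ?_ h3.2
        intro e he f hf he1 _
        rw [Subgroup.commutator_comm] at hf
        obtain ⟨a, _, hm, _⟩ := cc_mem_conj hEs he he1 hf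
        exact ⟨_, hS'.conj_mem E hE a, hm⟩
    have hsw := swap_rel (R := fun X Y => Cfsg.centralizingMembers S X ⊆ Cfsg.centralizingMembers S Y ∧
        X ∈ S) (A := A) (C := C) (D := E) ?_ ?_ ?_ hAC' hAE hCE ⟨hsub, hA⟩
    · exact hsw.1
    · rintro X Y g ⟨h1, h2⟩
      exact ⟨conj_centralizingMembers hS' g h1, hS'.conj_mem X h2 g⟩
    · rintro X Y Z ⟨h1, h2⟩ ⟨h3, _⟩
      exact ⟨h1.trans h3, h2⟩
    · rintro X Y ⟨h1, h2⟩ hp
      have h3 : X ∈ Cfsg.centralizingMembers S X := by
        rw [mem_centralizingMembers]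
        exact ⟨h2, commutator_self_bot (hS'.commutative X h2)⟩
      have h4 := h1 h3
      rw [mem_centralizingMembers] at h4
      exact not_commute hp h4.2
  · intro hsub
    have hAC' : ⁅A, C⁆ = ⊥ := by
      rcases hS'.pair A hA C hC with h1 | h1 | h1
      · exact h1
      · exact absurd rfl (hsub ⟨hC, h1⟩).2.ne
      · exact absurd h1 (rank_sub_not_cc hS' hiso hA hC hsub)
    refine ⟨hAC', Set.Subset.antisymm hsub ?_⟩
    obtain ⟨E, hE, hAE⟩ := hiso A hA
    have hCE := (hsub ⟨hE, hAE⟩).2
    have hsw := swap_rel (R := fun X Y => Cfsg.rankOnePartners S X ⊆ Cfsg.rankOnePartners S Y ∧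
        Y ∈ S ∧ X ∈ S) (A := A) (C := C) (D := E) ?_ ?_ ?_ hAC' hAE hCE ⟨hsub, hC, hA⟩
    · exact hsw.1
    · rintro X Y g ⟨h1, h2, h3⟩
      exact ⟨conj_rankOnePartners hS' g h1, hS'.conj_mem Y h2 g, hS'.conj_mem X h3 g⟩
    · rintro X Y Z ⟨h1, h2, h3⟩ ⟨h4, h5, h6⟩
      exact ⟨h1.trans h4, h5, h3⟩
    · rintro X Y ⟨h1, h2, h3⟩ hp
      exact absurd rfl (h1 ⟨h2, hp⟩).2.ne

end Cfsg.Agent.S5037
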