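import Mathlib
import Cfsg.Statements.S0801
import Cfsg.Agent.Lib.MobCard
import Cfsg.Agent.Lib.MobPlat
import Cfsg.Agent.Lib.MobSolv

set_option autoImplicit false
set_option linter.unusedSectionVars false
set_option linter.unnecessarySeqFocus false

namespace Cfsg.Agent.S0801

open Cfsg.Agent.Lib Cfsg.Agent.Lib.SL2Basic Cfsg.Agent.Lib.MobCount MulAction Matrix
open scoped LinearAlgebra.Projectivization MatrixGroups

section

variable {F : Type*} [Field F]

def LL (F : Type*) [Field F] : SL(2, F) := ⟨!![1, 0; 1, 1], by simp [Matrix.det_fin_two]⟩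
def UU' (lam : F) : SL(2, F) := ⟨!![1, lam; 0, 1], by simp [Matrix.det_fin_two]⟩

/-- the group generated by the two transvections -/
def GG (lam : F) : Subgroup SL(2, F) := Subgroup.closure {g : Matrix.SpecialLinearGroup (Fin 2) F | (g : Matrix (Fin 2) (Fin 2) F) = !![1, 0; 1, 1] ∨ (g : Matrix (Fin 2) (Fin 2) F) = !![1, lam; 0, 1]}

theorem LL_mem (lam : F) : LL F ∈ GG lam := Subgroup.subset_closure (Or.inl rfl)
theorem UU_mem (lam : F) : UU' lam ∈ GG lam := Subgroup.subset_closure (Or.inr rfl)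

/-! ### the orbit of forty vectors -/

abbrev C9 : Type := ZMod 3 × ZMod 3

def c9mul (x : C9) : C9 := (-x.2, x.1)

def aMap (v : C9 × C9) : C9 × C9 := (v.1, v.1 + v.2)
def aMap' (v : C9 × C9) : C9 × C9 := (v.1, v.2 - v.1)
def bMap (v : C9 × C9) : C9 × C9 := (v.1 + c9mul v.2, v.2)
def bMap' (v : C9 × C9) : C9 × C9 := (v.1 - c9mul v.2, v.2)

def OO : List (C9 × C9) := [((0, 0), (1, 1)), ((0, 0), (1, 2)), ((0, 0), (2, 1)), ((0, 0), (2, 2)), ((0, 1), (0, 0)), ((0, 1), (0, 1)), ((0, 1), (0, 2)), ((0, 2), (0, 0)), ((0, 2), (0, 1)), ((0, 2), (0, 2)), ((1, 0), (0, 0)), ((1, 0), (1, 0)), ((1, 0), (2, 0)), ((1, 1), (0, 1)), ((1, 1), (0, 2)), ((1, 1), (1, 0)), ((1, 1), (1, 2)), ((1, 1), (2, 0)), ((1, 1), (2, 1)), ((1, 2), (0, 1)), ((1, 2), (0, 2)), ((1, 2), (1, 0)), ((1, 2), (1, 1)), ((1, 2), (2, 0)), ((1, 2), (2, 2)), ((2, 0), (0, 0)), ((2, 0), (1, 0)), ((2, 0), (2, 0)), ((2, 1), (0, 1)), ((2, 1), (0, 2)), ((2, 1), (1, 0)), ((2, 1), (1, 1)), ((2, 1), (2, 0)), ((2, 1),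 (2, 2)), ((2, 2), (0, 1)), ((2, 2), (0, 2)), ((2, 2), (1, 0)), ((2, 2), (1, 2)), ((2, 2), (2, 0)), ((2, 2), (2, 1))]

theorem OO_stable : ∀ v ∈ OO, aMap v ∈ OO ∧ aMap' v ∈ OO ∧ bMap v ∈ OO ∧ bMap' v ∈ OO := by
  decide +kernel

variable [CharP F 3]

def ev (lam : F) (x : C9) : F := ZMod.castHom (dvd_refl 3) F x.1 + ZMod.castHom (dvd_refl 3) F x.2 * lam

theorem ev_add (lam : F) (x y : C9) : ev lam (x + y) = ev lam x + ev lam y := by
  simp only [ev, Prod.fst_add, Prod.snd_add, map_add]; ring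

theorem ev_sub (lam : F) (x y : C9) : ev lam (x - y) = ev lam x - ev lam y := by
  simp only [ev, Prod.fst_sub, Prod.snd_sub, map_sub]; ring

theorem ev_mul (lam : F) (hl : lam ^ 2 = -1) (x : C9) : ev lam (c9mul x) = lam * ev lam x := by
  simp only [ev, c9mul, map_neg]
  linear_combination (-(ZMod.castHom (dvd_refl 3) F x.2)) * hl

theorem ev_inj (lam : F) (hl : lam ^ 2 = -1) (x y : C9) (h : ev lam x = ev lam y) : x = y := by
  simp only [ev] at h
  have hinj : Function.Injective (ZMod.castHom (dvd_refl 3) F) := (ZMod.castHom (dvd_refl 3) F).injective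
  by_cases h2 : x.2 = y.2
  · rw [h2] at h
    exact Prod.ext (hinj (add_right_cancel h)) h2
  · exfalso
    have hne : y.2 - x.2 ≠ 0 := fun h => h2 (sub_eq_zero.mp h).symm
    have h3 : ZMod.castHom (dvd_refl 3) F ((x.1 - y.1) ^ 2) = ZMod.castHom (dvd_refl 3) F (-(y.2 - x.2) ^ 2) := by
      simp only [map_pow, map_sub, map_neg]
      have h4 : ZMod.castHom (dvd_refl 3) F x.1 - ZMod.castHom (dvd_refl 3) F y.1 =
          (ZMod.castHom (dvd_refl 3) F y.2 - ZMod.castHom (dvd_refl 3) F x.2) * lam := by linear_combination h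
      rw [h4, mul_pow, hl]
      ring
    have h5 := hinj h3
    have h6 : ∀ a b : ZMod 3, b ≠ 0 → a ^ 2 ≠ -b ^ 2 := by decide
    exact h6 _ _ hne h5

/-- the invariant set of vectors -/
def PP (lam : F) : Set (Fin 2 → F) := {v | ∃ c ∈ OO, v = ![ev lam c.1, ev lam c.2]}

theorem GG_stable (lam : F) (hl : lam ^ 2 = -1) (g : SL(2, F)) (hg : g ∈ GG lam) :
    (∀ v ∈ PP lam, (g : Matrix (Fin 2) (Fin 2) F) *ᵥ v ∈ PP lam) ∧
    (∀ v ∈ PP lam, ((g⁻¹ : SL(2, F)) : Matrix (Fin 2) (Fin 2) F) *ᵥ v ∈ PP lam) := by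
  induction hg using Subgroup.closure_induction with
  | mem x hx =>
    rcases hx with hx | hx
    · constructor
      · rintro _ ⟨c, hc, rfl⟩
        refine ⟨aMap c, (OO_stable c hc).1, ?_⟩
        rw [hx, aMap, ev_add]
        ext i; fin_cases i <;> simp [Matrix.mulVec, dotProduct, Fin.sum_univ_two]
      · rintro _ ⟨c, hc, rfl⟩
        refine ⟨aMap' c, (OO_stable c hc).2.1, ?_⟩
        change (x.1.adjugate) *ᵥ _ = _
        rw [hx, aMap', ev_sub, Matrix.adjugate_fin_two]
        ext i; fin_cases i <;> simp [Matrix.mulVec, dotProduct, Fin.sum_univ_two] <;> ring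
    · constructor
      · rintro _ ⟨c, hc, rfl⟩
        refine ⟨bMap c, (OO_stable c hc).2.2.1, ?_⟩
        rw [hx, bMap, ev_add, ev_mul lam hl]
        ext i; fin_cases i <;> simp [Matrix.mulVec, dotProduct, Fin.sum_univ_two]
      · rintro _ ⟨c, hc, rfl⟩
        refine ⟨bMap' c, (OO_stable c hc).2.2.2, ?_⟩
        change (x.1.adjugate) *ᵥ _ = _
        rw [hx, bMap', ev_sub, ev_mul lam hl, Matrix.adjugate_fin_two]
        ext i; fin_cases i <;> simp [Matrix.mulVec, dotProduct, Fin.sum_univ_two] <;> ring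
  | one => simp
  | mul x y _ _ hx hy =>
    constructor
    · intro v hv
      change (x.1 * y.1) *ᵥ v ∈ PP lam
      rw [← Matrix.mulVec_mulVec]
      exact hx.1 _ (hy.1 _ hv)
    · intro v hv
      rw [_root_.mul_inv_rev]
      change ((y⁻¹).1 * (x⁻¹).1) *ᵥ v ∈ PP lam
      rw [← Matrix.mulVec_mulVec]
      exact hy.2 _ (hx.2 _ hv)
  | inv x _ hx => exact ⟨hx.2, by rw [inv_inv]; exact hx.1⟩

theorem GG_ne_top (lam : F) (hl : lam ^ 2 = -1) : GG lam ≠ ⊤ := by
  intro htop
  let w : SL(2, F) := ⟨!![0, -1; 1, 0], by simp [Matrix.det_fin_two]⟩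
  have h1 := (GG_stable lam hl w (htop ▸ Subgroup.mem_top w)).1 ![1, 0]
    ⟨((1, 0), (0, 0)), by decide, by
      ext i; fin_cases i <;> simp [ev]⟩
  obtain ⟨c, hc, h2⟩ := h1
  have e0 := congrFun h2 0
  have e1 := congrFun h2 1
  simp [w, Matrix.mulVec, dotProduct, Fin.sum_univ_two] at e0 e1
  have e0' : c.1 = (0, 0) := ev_inj lam hl _ _ (by rw [← e0]; simp [ev])
  have e1' : c.2 = (1, 0) := ev_inj lam hl _ _ (by rw [← e1]; simp [ev])
  have : c = ((0, 0), (1, 0)) := Prod.ext e0' e1'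
  rw [this] at hc
  revert hc
  decide

end

section

variable {F : Type*} [Field F]

theorem alt5_pow : ∀ g : Equiv.Perm (Fin 5), Equiv.Perm.sign g = 1 → g ^ 2 = 1 ∨ g ^ 3 = 1 ∨ g ^ 5 = 1 := by
  decide +kernel

/-- the invariant `tr²/det` -/
theorem tr_sq_of_mk_eq (A B : GL (Fin 2) F)
    (h : (Matrix.ProjGenLinGroup.mk A : PGL(Fin 2, F)) = Matrix.ProjGenLinGroup.mk B) :
    Matrix.trace A.1 ^ 2 * B.1.det = Matrix.trace B.1 ^ 2 * A.1.det := by
  have h1 : (Matrix.ProjGenLinGroup.mk (B⁻¹ * A) : PGL(Fin 2, F)) = 1 := by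
    rw [map_mul, map_inv, h, inv_mul_cancel]
  rw [Matrix.ProjGenLinGroup.mk_eq_one, Matrix.GeneralLinearGroup.center_eq_range_scalar] at h1
  obtain ⟨u, hu⟩ := h1
  have h2 : A = B * Matrix.GeneralLinearGroup.scalar (Fin 2) u := by rw [hu, mul_inv_cancel_left]
  have h3 : A.1 = (u : F) • B.1 := by
    rw [h2]
    ext i j
    simp [Matrix.mul_apply, Fin.sum_univ_two]
    fin_cases j <;> simp [mul_comm]
  rw [h3, Matrix.trace_smul, Matrix.det_smul]
  simp only [smul_eq_mul, Fintype.card_fin]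
  ring

theorem tr_sq_mem (k : Subfield F) (g : PGL(Fin 2, F)) (H : Subgroup (P2 F))
    (hle : (H.map Matrix.ProjectiveSpecialLinearGroup.toPGL).map (MulAut.conj g).toMonoidHom ≤
      (Matrix.ProjGenLinGroup.map (n := Fin 2) k.subtype).range) (M : SL(2, F)) (hM : (M : P2 F) ∈ H) :
    tr M ^ 2 ∈ k := by
  obtain ⟨A, rfl⟩ := Matrix.ProjGenLinGroup.mk_surjective g
  have h1 : (MulAut.conj (Matrix.ProjGenLinGroup.mk A : PGL(Fin 2, F))) (Matrix.ProjectiveSpecialLinearGroup.toPGL (M : P2 F)) ∈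
      (Matrix.ProjGenLinGroup.map (n := Fin 2) k.subtype).range :=
    hle ⟨_, ⟨_, hM, rfl⟩, rfl⟩
  rw [ProjectiveSpecialLinearGroup.toPGL_mk, MulAut.conj_apply, ← map_mul, ← map_inv, ← map_mul] at h1
  obtain ⟨N, hN⟩ := h1
  obtain ⟨N, rfl⟩ := Matrix.ProjGenLinGroup.mk_surjective N
  rw [Matrix.ProjGenLinGroup.map_mk] at hN
  have h2 := tr_sq_of_mk_eq _ _ hN
  have h3 : Matrix.trace (A * (M : GL (Fin 2) F) * A⁻¹ : GL (Fin 2) F).1 = tr M := by
    change Matrix.trace (A.1 * M.1 * (A⁻¹).1) = _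
    rw [Matrix.trace_mul_comm, ← mul_assoc]
    have : (A⁻¹).1 * A.1 = 1 := A.inv_mul
    rw [this, one_mul, trace_eq]
  have h4 : (A * (M : GL (Fin 2) F) * A⁻¹ : GL (Fin 2) F).1.det = 1 := by
    change (A.1 * M.1 * (A⁻¹).1).det = _
    rw [Matrix.det_mul, Matrix.det_mul, M.2, mul_one, ← Matrix.det_mul]
    have : A.1 * (A⁻¹).1 = 1 := A.mul_inv
    rw [this, Matrix.det_one]
  rw [h3, h4, mul_one] at h2
  have h5 : (Matrix.GeneralLinearGroup.map k.subtype N : GL (Fin 2) F).1.det = k.subtype N.1.det := by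
    rw [Matrix.det_fin_two, Matrix.det_fin_two]; simp
  have h6 : Matrix.trace (Matrix.GeneralLinearGroup.map k.subtype N : GL (Fin 2) F).1 = k.subtype (Matrix.trace N.1) := by
    rw [Matrix.trace_fin_two, Matrix.trace_fin_two]; simp
  rw [h5, h6] at h2
  have h7 : k.subtype N.1.det ≠ 0 := by
    rw [map_ne_zero]; exact N.det_ne_zero
  have h8 : tr M ^ 2 = k.subtype ((Matrix.trace N.1) ^ 2 / N.1.det) := by
    rw [map_div₀, map_pow, eq_div_iff h7, h2]
  rw [h8]
  exact ((Matrix.trace N.1) ^ 2 / N.1.det).2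

/-- the image in `PSL_2` -/
noncomputable def HH (lam : F) : Subgroup (P2 F) := (GG lam).map (QuotientGroup.mk' (Subgroup.center SL(2, F)))

theorem mem_HH (lam : F) (M : SL(2, F)) (h : M ∈ GG lam) : (M : P2 F) ∈ HH lam := ⟨M, h, rfl⟩

variable [Fintype F]

theorem neg_one_mem (h2 : (2 : F) ≠ 0) (lam : F) (h : 2 ∣ Nat.card (HH lam)) : (-1 : SL(2, F)) ∈ GG lam := by
  have h1 : 2 ∣ Nat.card (GG lam) := h.trans (Subgroup.card_map_dvd _ _)
  obtain ⟨g, hg⟩ := exists_prime_orderOf_dvd_card' 2 h1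
  have h3 : (g : SL(2, F)) ^ 2 = 1 := by
    have := pow_orderOf_eq_one g
    rw [hg] at this
    exact congrArg Subtype.val this
  rcases eq_one_or_neg_one_of_sq h2 g h3 with e | e
  · exfalso
    have : g = 1 := Subtype.ext e
    rw [this, orderOf_one] at hg
    omega
  · rw [← e]; exact g.2

theorem center_le (h2 : (2 : F) ≠ 0) (lam : F) (h : 2 ∣ Nat.card (HH lam)) : Subgroup.center SL(2, F) ≤ GG lam := by
  intro z hz
  rcases (mem_center_iff' z).mp hz with rfl | rfl
  · exact one_mem _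
  · exact neg_one_mem h2 lam h

omit [Fintype F] in
theorem card_center2 (h2 : (2 : F) ≠ 0) : Nat.card (Subgroup.center SL(2, F)) = 2 := by
  have h1 : ((Subgroup.center SL(2, F) : Subgroup SL(2, F)) : Set SL(2, F)) = {1, -1} := by
    ext z
    rw [SetLike.mem_coe, mem_center_iff']
    rfl
  have h3 : (1 : SL(2, F)) ≠ -1 := by
    intro h
    have := congrArg (fun M : SL(2, F) => M.1 0 0) h
    simp at this
    apply h2
    linear_combination this
  have h4 := Set.ncard_pair h3
  rw [← h1] at h4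
  exact h4

theorem card_GG (h2 : (2 : F) ≠ 0) (lam : F) (h : 2 ∣ Nat.card (HH lam)) : Nat.card (GG lam) = 2 * Nat.card (HH lam) := by
  let φ : GG lam →* P2 F := (QuotientGroup.mk' (Subgroup.center SL(2, F))).comp (GG lam).subtype
  have hr : φ.range = HH lam := by
    rw [MonoidHom.range_comp, Subgroup.range_subtype]; rfl
  have hk : φ.ker = (Subgroup.center SL(2, F)).subgroupOf (GG lam) := by
    ext x
    rw [MonoidHom.mem_ker, Subgroup.mem_subgroupOf]
    exact QuotientGroup.eq_one_iff (x : SL(2, F))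
  have h3 : Nat.card φ.ker = 2 := by
    rw [hk]
    exact (Nat.card_congr (Subgroup.subgroupOfEquivOfLe (center_le h2 lam h)).toEquiv).trans (card_center2 h2)
  rw [← Subgroup.card_mul_index φ.ker, Subgroup.index_ker, hr, h3]

theorem GG_top_of (h2 : (2 : F) ≠ 0) (lam : F) (h : HH lam = ⊤) : GG lam = ⊤ := by
  have h4 : 2 ∣ Nat.card (HH lam) := by
    rw [h, Subgroup.card_top]
    have h1 := card_P2 (F := F) rfl
    have hodd : Odd (Fintype.card F) := by
      rw [Nat.odd_iff]
      apply FiniteField.odd_card_of_char_ne_two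
      intro h3
      apply h2
      have := ringChar.Nat.cast_ringChar (R := F)
      rw [h3] at this
      exact_mod_cast this
    obtain ⟨c, hc⟩ := hodd
    have hg : Nat.gcd 2 (Fintype.card F - 1) = 2 := Nat.gcd_eq_left ⟨c, by omega⟩
    rw [hg, hc] at h1
    have h5 : (2 * c + 1) ^ 2 - 1 = 4 * (c * (c + 1)) := by
      have : (2 * c + 1) ^ 2 = 4 * (c * (c + 1)) + 1 := by ring
      omega
    rw [h5] at h1
    refine ⟨(2 * c + 1) * (c * (c + 1)), ?_⟩
    have h6 : 2 * Nat.card (P2 F) = 2 * (2 * ((2 * c + 1) * (c * (c + 1)))) := by rw [h1]; ring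
    exact Nat.eq_of_mul_eq_mul_left (by norm_num) h6
  rw [eq_top_iff]
  intro x _
  have h5 : (x : P2 F) ∈ HH lam := h ▸ Subgroup.mem_top _
  obtain ⟨g, hg, hgx⟩ := h5
  have h6 : g⁻¹ * x ∈ Subgroup.center SL(2, F) := QuotientGroup.eq.mp hgx
  have h7 := center_le h2 lam h4 h6
  have h8 := (GG lam).mul_mem hg h7
  rwa [mul_inv_cancel_left] at h8

omit [Fintype F] in
theorem LL_pow (n : ℕ) : ((LL F ^ n : SL(2, F)) : Matrix (Fin 2) (Fin 2) F) = !![1, 0; (n : F), 1] := by
  induction n with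
  | zero =>
    rw [pow_zero]
    ext i j; fin_cases i <;> fin_cases j <;> simp
  | succ n ih =>
    rw [pow_succ]
    change (LL F ^ n : SL(2, F)).1 * (LL F).1 = _
    rw [ih]
    ext i j; fin_cases i <;> fin_cases j <;> simp [LL, Matrix.mul_apply, Fin.sum_univ_two]

theorem p_dvd (p : ℕ) [Fact p.Prime] [CharP F p] (lam : F) : p ∣ Nat.card (HH lam) := by
  let x : HH lam := ⟨(LL F : P2 F), mem_HH lam _ (LL_mem lam)⟩
  have h1 : x ^ p = 1 := by
    apply Subtype.ext
    change (LL F : P2 F) ^ p = 1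
    have h2 : LL F ^ p = 1 := by
      apply Subtype.ext
      rw [LL_pow, CharP.cast_eq_zero]
      ext i j; fin_cases i <;> fin_cases j <;> simp
    have h3 : (LL F : P2 F) ^ p = ((LL F ^ p : SL(2, F)) : P2 F) := rfl
    rw [h3, h2]; rfl
  have h2 : x ≠ 1 := by
    intro h
    have h3 : (LL F : P2 F) = 1 := congrArg Subtype.val h
    rw [psl_mk_eq_one] at h3
    rcases h3 with h | h
    · have := congrArg (fun M : SL(2, F) => M.1 1 0) h
      simp [LL] at this
    · have := congrArg (fun M : SL(2, F) => M.1 1 0) h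
      simp [LL] at this
  rw [← orderOf_eq_prime h1 h2]
  exact orderOf_dvd_natCard x

/-- no common fixed point -/
theorem no_fix (lam : F) (hlam : lam ≠ 0) (x : ℙ F (Fin 2 → F)) (h : HH lam ≤ stabilizer (P2 F) x) : False := by
  induction x using Projectivization.ind with | h v hv =>
  have key : ∀ M : SL(2, F), M ∈ GG lam → ∃ l : F, (M : Matrix (Fin 2) (Fin 2) F) *ᵥ v = l • v := by
    intro M hM
    have h1 : (M : P2 F) • Projectivization.mk F v hv = Projectivization.mk F v hv := h (mem_HH lam M hM)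
    rw [← toPGL_smul, ProjectiveSpecialLinearGroup.toPGL_mk, fixed_iff] at h1
    exact h1
  obtain ⟨l, hl⟩ := key _ (LL_mem lam)
  obtain ⟨m, hm⟩ := key _ (UU_mem lam)
  have a0 := congrFun hl 0
  have a1 := congrFun hl 1
  have b0 := congrFun hm 0
  have b1 := congrFun hm 1
  simp [LL, UU', Matrix.mulVec, dotProduct, Fin.sum_univ_two] at a0 a1 b0 b1
  have hv0 : v 0 = 0 := by
    by_contra hne
    have hl1 : l = 1 := by
      apply mul_right_cancel₀ hne
      rw [one_mul]; exact a0.symm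
    rw [hl1] at a1
    apply hne
    linear_combination a1
  have hv1 : v 1 = 0 := by
    by_contra hne
    have hm1 : m = 1 := by
      apply mul_right_cancel₀ hne
      rw [one_mul]; exact b1.symm
    rw [hm1] at b0
    have : lam * v 1 = 0 := by linear_combination b0
    rcases mul_eq_zero.mp this with h | h
    · exact hlam h
    · exact hne h
  apply hv
  ext i; fin_cases i
  · exact hv0
  · exact hv1

theorem tr_LU (lam : F) : tr (LL F * UU' lam) = 2 + lam := by
  rw [tr_def]
  change ((LL F).1 * (UU' lam).1) 0 0 + ((LL F).1 * (UU' lam).1) 1 1 = _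
  simp [LL, UU', Matrix.mul_apply, Fin.sum_univ_two]
  ring

theorem entry_LU (lam : F) : (LL F * UU' lam).1 1 0 = 1 := by
  change ((LL F).1 * (UU' lam).1) 1 0 = 1
  simp [LL, UU', Matrix.mul_apply, Fin.sum_univ_two]

theorem UU_neg (lam : F) : UU' (-lam) ∈ GG lam := by
  have : UU' (-lam) = (UU' lam)⁻¹ := by
    rw [eq_inv_iff_mul_eq_one]
    apply Subtype.ext
    change (UU' (-lam)).1 * (UU' lam).1 = _
    ext i j; fin_cases i <;> fin_cases j <;> simp [UU', Matrix.mul_apply, Fin.sum_univ_two]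
  rw [this]
  exact inv_mem (UU_mem lam)

theorem UU_dbl (lam : F) : UU' (2 * lam) ∈ GG lam := by
  have : UU' (2 * lam) = UU' lam * UU' lam := by
    apply Subtype.ext
    change (UU' (2 * lam)).1 = (UU' lam).1 * (UU' lam).1
    ext i j; fin_cases i <;> fin_cases j <;> simp [UU', Matrix.mul_apply, Fin.sum_univ_two, two_mul]
  rw [this]
  exact mul_mem (UU_mem lam) (UU_mem lam)

/-- the trace restriction in characteristic three -/
theorem tr_of_pow [CharP F 3] (M : SL(2, F)) (hM : M.1 1 0 = 1)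
    (h : (M : P2 F) ^ 2 = 1 ∨ (M : P2 F) ^ 3 = 1 ∨ (M : P2 F) ^ 5 = 1) :
    tr M = 0 ∨ tr M ^ 2 = 1 ∨ tr M ^ 4 = -1 := by
  have h3 : (3 : F) = 0 := by exact_mod_cast CharP.cast_eq_zero F 3
  have hc : ∀ n : ℕ, (M : P2 F) ^ n = 1 → (M ^ n : SL(2, F)).1 1 0 = 0 := by
    intro n hn
    have h1 : (M : P2 F) ^ n = ((M ^ n : SL(2, F)) : P2 F) := rfl
    rw [h1, psl_mk_eq_one] at hn
    rcases hn with hn | hn
    · rw [hn]; simp
    · rw [hn]; simp
  have hs := sq_eq M
  rcases h with h | h | h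
  · left
    have h1 := hc 2 h
    have h2 : (M ^ 2 : SL(2, F)).1 = M.1 * M.1 := by rw [sq]; rfl
    rw [h2, hs] at h1
    simpa [hM] using h1
  · right; left
    have h1 := hc 3 h
    have h2 : (M ^ 3 : SL(2, F)).1 = M.1 * M.1 * M.1 := by rw [pow_succ, sq]; rfl
    rw [h2, hs, sub_mul, smul_mul_assoc, hs] at h1
    simp [hM] at h1
    linear_combination h1
  · right; right
    have h1 := hc 5 h
    rw [Cfsg.Agent.Lib.MobPlat.pow_five] at h1
    simp [hM] at h1
    linear_combination h1 + tr M ^ 2 * h3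

/-- the exceptional case -/
theorem case60 [CharP F 3] (lam : F) (hlam : lam ≠ 0) (hgen : Subfield.closure ({lam} : Set F) = ⊤)
    (h60 : Nat.card (HH lam) = 60) (e : HH lam ≃* alternatingGroup (Fin 5)) :
    Fintype.card F = 9 ∧ lam ^ 2 = -1 := by
  have h3 : (3 : F) = 0 := by exact_mod_cast CharP.cast_eq_zero F 3
  have hpow : ∀ M ∈ GG lam, (M : P2 F) ^ 2 = 1 ∨ (M : P2 F) ^ 3 = 1 ∨ (M : P2 F) ^ 5 = 1 := by
    intro M hM
    have h1 := alt5_pow (e ⟨(M : P2 F), mem_HH lam M hM⟩).1 (Equiv.Perm.mem_alternatingGroup.mp (e ⟨(M : P2 F), mem_HH lam M hM⟩).2)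
    have key : ∀ n : ℕ, (e ⟨(M : P2 F), mem_HH lam M hM⟩).1 ^ n = 1 → (M : P2 F) ^ n = 1 := by
      intro n hn
      have h2 : (e ⟨(M : P2 F), mem_HH lam M hM⟩) ^ n = 1 := Subtype.ext hn
      rw [← map_pow, EmbeddingLike.map_eq_one_iff] at h2
      exact congrArg Subtype.val h2
    rcases h1 with h | h | h
    · exact Or.inl (key 2 h)
    · exact Or.inr (Or.inl (key 3 h))
    · exact Or.inr (Or.inr (key 5 h))
  have hq : ∃ n : ℕ, Fintype.card F = 3 ^ n := by
    obtain ⟨n, _, hn⟩ := FiniteField.card F 3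
    exact ⟨n, hn⟩
  -- the field is not the prime field
  have hbig : 4 ≤ Fintype.card F := by
    by_contra hlt
    push Not at hlt
    have h5 := Subgroup.card_subgroup_dvd_card (HH lam)
    rw [h60] at h5
    have h6 := card_P2 (F := F) rfl
    obtain ⟨n, hn⟩ := hq
    have h7 : Fintype.card F = 3 := by
      have h1 : 1 < Fintype.card F := Fintype.one_lt_card
      have h8 : 3 ∣ Fintype.card F := by
        rcases Nat.eq_zero_or_pos n with h0 | h0
        · rw [h0, pow_zero] at hn; omega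
        · rw [hn]; exact dvd_pow_self 3 (by omega)
      omega
    rw [h7] at h6
    norm_num at h6
    have h9 : Nat.card (P2 F) = 12 := by omega
    rw [h9] at h5
    omega
  have hnp : ∀ a : F, a = 0 ∨ a ^ 2 = 1 → ∀ c : ℤ, lam ≠ a + c := by
    intro a ha c hac
    have h4 : ∃ b : ℤ, a = b := by
      rcases ha with rfl | ha
      · exact ⟨0, by simp⟩
      · have : (a - 1) * (a + 1) = 0 := by linear_combination ha
        rcases mul_eq_zero.mp this with h | h
        · exact ⟨1, by simp; linear_combination h⟩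
        · exact ⟨-1, by simp; linear_combination h⟩
    obtain ⟨b, hb⟩ := h4
    have h5 : lam ^ 3 = lam := by
      rw [hac, hb]
      have h6 : ((b : F) + (c : F)) = ((b + c : ℤ) : F) := by push_cast; ring
      rw [h6]
      have h7 : frobenius F 3 ((b + c : ℤ) : F) = ((b + c : ℤ) : F) := map_intCast _ _
      rwa [frobenius_def] at h7
    -- all elements satisfy x^3 = x
    have h6 : Subfield.closure ({lam} : Set F) ≤ (RingHom.eqLocusField (frobenius F 3) (RingHom.id F)) := by
      rw [Subfield.closure_le]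
      intro x hx
      rw [Set.mem_singleton_iff] at hx
      rw [hx]
      exact h5
    rw [hgen] at h6
    have h7 : Fintype.card F ≤ 3 := by
      classical
      have h8 : (Finset.univ : Finset F) ⊆ (Polynomial.X ^ 3 - Polynomial.X : Polynomial F).roots.toFinset := by
        intro x _
        rw [Multiset.mem_toFinset, Polynomial.mem_roots (FiniteField.X_pow_card_sub_X_ne_zero F (by norm_num)), Polynomial.IsRoot.def]
        simp only [Polynomial.eval_sub, Polynomial.eval_pow, Polynomial.eval_X]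
        have : frobenius F 3 x = x := h6 (Subfield.mem_top x)
        rw [frobenius_def] at this
        rw [this, sub_self]
      have h9 := Finset.card_le_card h8
      rw [Finset.card_univ] at h9
      refine h9.trans ((Multiset.toFinset_card_le _).trans ((Polynomial.card_roots' _).trans ?_))
      rw [FiniteField.X_pow_card_sub_X_natDegree_eq F (by norm_num)]
    omega
  have t1 := tr_of_pow (LL F * UU' lam) (entry_LU lam) (hpow _ (mul_mem (LL_mem lam) (UU_mem lam)))
  have t2 := tr_of_pow (LL F * UU' (-lam)) (entry_LU _) (hpow _ (mul_mem (LL_mem lam) (UU_neg lam)))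
  rw [tr_LU] at t1 t2
  have u1 : (2 + lam) ^ 4 = -1 := by
    rcases t1 with h | h | h
    · exact absurd (show lam = (2 + lam) + ((-2 : ℤ) : F) by push_cast; ring) (hnp _ (Or.inl h) _)
    · exact absurd (show lam = (2 + lam) + ((-2 : ℤ) : F) by push_cast; ring) (hnp _ (Or.inr h) _)
    · exact h
  have u2 : (2 + -lam) ^ 4 = -1 := by
    rcases t2 with h | h | h
    · exact absurd (show lam = -(2 + -lam) + ((2 : ℤ) : F) by push_cast; ring) (hnp _ (Or.inl (by rw [h, neg_zero])) _)
    · exact absurd (show lam = -(2 + -lam) + ((2 : ℤ) : F) by push_cast; ring) (hnp _ (Or.inr (by rw [neg_sq]; exact h)) _)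
    · exact h
  have hl : lam ^ 2 = -1 := by
    have h4 : lam * (lam ^ 2 + 1) = 0 := by
      linear_combination u1 - u2 - (5 * lam ^ 3 + 21 * lam) * h3
    rcases mul_eq_zero.mp h4 with h | h
    · exact absurd h hlam
    · linear_combination h
  refine ⟨?_, hl⟩
  have h6 : Subfield.closure ({lam} : Set F) ≤ (RingHom.eqLocusField (iterateFrobenius F 3 2) (RingHom.id F)) := by
    rw [Subfield.closure_le]
    intro x hx
    rw [Set.mem_singleton_iff] at hx
    rw [hx]
    change iterateFrobenius F 3 2 lam = lam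
    rw [iterateFrobenius_def]
    have : lam ^ 3 ^ 2 = (lam ^ 2) ^ 4 * lam := by ring
    rw [this, hl]; ring
  rw [hgen] at h6
  have h7 : Fintype.card F ≤ 9 := by
    classical
    have h8 : (Finset.univ : Finset F) ⊆ (Polynomial.X ^ 9 - Polynomial.X : Polynomial F).roots.toFinset := by
      intro x _
      rw [Multiset.mem_toFinset, Polynomial.mem_roots (FiniteField.X_pow_card_sub_X_ne_zero F (by norm_num)), Polynomial.IsRoot.def]
      simp only [Polynomial.eval_sub, Polynomial.eval_pow, Polynomial.eval_X]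
      have : iterateFrobenius F 3 2 x = x := h6 (Subfield.mem_top x)
      rw [iterateFrobenius_def] at this
      norm_num at this
      rw [this, sub_self]
    have h9 := Finset.card_le_card h8
    rw [Finset.card_univ] at h9
    refine h9.trans ((Multiset.toFinset_card_le _).trans ((Polynomial.card_roots' _).trans ?_))
    rw [FiniteField.X_pow_card_sub_X_natDegree_eq F (by norm_num)]
  obtain ⟨n, hn⟩ := hq
  have : n = 2 := by
    have h8 : n < 3 := by
      by_contra hge
      push Not at hge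
      have := Nat.pow_le_pow_right (n := 3) (by norm_num) hge
      omega
    interval_cases n
    · omega
    · omega
    · rfl
  rw [hn, this]; norm_num

end

theorem result {F : Type*} [Field F] [Fintype F] (h2 : (2 : F) ≠ 0) (lam : F) (hlam : lam ≠ 0) (hgen : Subfield.closure ({lam} : Set F) = ⊤) : (Subgroup.closure {g : Matrix.SpecialLinearGroup (Fin 2) F | (g : Matrix (Fin 2) (Fin 2) F) = !![1, 0; 1, 1] ∨ (g : Matrix (Fin 2) (Fin 2) F) = !![1, lam; 0, 1]} = ⊤ ∧ ¬ (Fintype.card F = 9 ∧ lam ^ 2 = -1)) ∨ (Fintype.card F = 9 ∧ lam ^ 2 = -1 ∧ Nat.card ↥(Subgroup.closure {g : Matrix.SpecialLinearGroup (Fin 2) F | (g : Matrix (Fin 2) (Fin 2) F) = !![1, 0; 1, 1] ∨ (g : Matrix (Fin 2) (Fin 2) F) = !![1, lam; 0, 1]}) = 120) := by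
  change (GG lam = ⊤ ∧ ¬ (Fintype.card F = 9 ∧ lam ^ 2 = -1)) ∨ (Fintype.card F = 9 ∧ lam ^ 2 = -1 ∧ Nat.card (GG lam) = 120)
  obtain ⟨p, hchar⟩ := CharP.exists F
  have hp : Fact p.Prime := ⟨CharP.char_is_prime F p⟩
  have hp2 : p ≠ 2 := by
    rintro rfl
    apply h2
    exact_mod_cast CharP.cast_eq_zero F 2
  have hpd := p_dvd p lam
  by_cases hH : HH lam = ⊤
  · left
    refine ⟨GG_top_of h2 lam hH, ?_⟩
    rintro ⟨h9, hl⟩
    have hp3 : p = 3 := by
      obtain ⟨n, hn, hn'⟩ := FiniteField.card F p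
      rw [h9] at hn'
      have h1 : p ∣ 9 := by rw [hn']; exact dvd_pow_self p n.ne_zero
      have h3 : p ∣ 3 ^ 2 := by norm_num; exact h1
      have := hp.out.dvd_of_dvd_pow h3
      exact (Nat.prime_dvd_prime_iff_eq hp.out Nat.prime_three).mp this
    subst hp3
    exact GG_ne_top lam hl (GG_top_of h2 lam hH)
  · right
    rcases psl_cases rfl p (HH lam) hH with h | ⟨C, _, _, hpC, hcard, _⟩ | h | h | ⟨h5, h60, ⟨e⟩⟩ | ⟨_, x, hx⟩ | ⟨g, k, m, hm, hkm, hk⟩
    · exact absurd hpd h.2.1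
    · exfalso
      rw [hcard] at hpd
      rcases (Nat.Prime.dvd_mul hp.out).mp hpd with h | h
      · exact hp2 ((Nat.prime_dvd_prime_iff_eq hp.out Nat.prime_two).mp h)
      · exact hpC h
    · exact absurd hpd h.1
    · exact absurd hpd h.1
    · rcases h5 with h5 | rfl
      · exact absurd hpd h5
      · obtain ⟨h9, hl⟩ := case60 lam hlam hgen h60 e
        refine ⟨h9, hl, ?_⟩
        rw [card_GG h2 lam (by rw [h60]; norm_num), h60]
    · exact (no_fix lam hlam x hx).elim
    · exfalso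
      have hle : ((HH lam).map Matrix.ProjectiveSpecialLinearGroup.toPGL).map (MulAut.conj g).toMonoidHom ≤
          (Matrix.ProjGenLinGroup.map (n := Fin 2) k.subtype).range := by
        rcases hk with hk | hk
        · rw [hk]
          rintro _ ⟨y, rfl⟩
          exact ⟨_, rfl⟩
        · rw [hk]
      have h3 := tr_sq_mem k g (HH lam) hle _ (mem_HH lam _ (mul_mem (LL_mem lam) (UU_mem lam)))
      have h4 := tr_sq_mem k g (HH lam) hle _ (mem_HH lam _ (mul_mem (LL_mem lam) (UU_dbl lam)))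
      rw [tr_LU] at h3 h4
      have h8 : (8 : F) ≠ 0 := by
        have : (8 : F) = 2 ^ 3 := by norm_num
        rw [this]; exact pow_ne_zero 3 h2
      have h5 : lam ∈ k := by
        have h6 : lam = (4 * (2 + lam) ^ 2 - (2 + 2 * lam) ^ 2 - 12) / 8 := by
          rw [eq_div_iff h8]; ring
        rw [h6]
        have hn : ∀ n : ℕ, (n : F) ∈ k := fun n => natCast_mem k n
        exact div_mem (sub_mem (sub_mem (mul_mem (by exact_mod_cast hn 4) h3) h4) (by exact_mod_cast hn 12)) (by exact_mod_cast hn 8)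
      have h6 : k = ⊤ := by
        rw [eq_top_iff, ← hgen, Subfield.closure_le]
        intro x hx
        rw [Set.mem_singleton_iff] at hx
        rw [hx]; exact h5
      subst h6
      have h7 : Nat.card (⊤ : Subfield F) = Fintype.card F := by
        rw [← Nat.card_eq_fintype_card]
        exact Nat.card_congr Subfield.topEquiv.toEquiv
      rw [h7] at hkm
      have h9 : 1 < Fintype.card F := Fintype.one_lt_card
      have := Nat.pow_lt_pow_right h9 (show 1 < m by omega)
      rw [pow_one] at this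
      omega

end Cfsg.Agent.S0801
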