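import Cfsg.Statements.S2054
import Cfsg.Agent.Lib.Fi23Mult
import Cfsg.Agent.Lib.H3U62S

set_option autoImplicit false
open Cfsg

namespace Cfsg.Agent.S2054

/-- The Schur multiplier of the Fischer group Fi₂₃ (the finitely presented group of the definitions) is trivial; here the Schur multiplier is described through stem extensions, as in the definitions: surjective homomorphisms onto the group from a finite group, whose kernel is central in that finite group and contained in that finite group's commutator subgroup. -/
theorem result : Cfsg.HasCyclicSchurMultiplier Cfsg.Spor.Fi23 1 := by
  exact Cfsg.Agent.Lib.Fi23Mult.mult Cfsg.Agent.Lib.H3U62.stemPSU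

end Cfsg.Agent.S2054
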