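import Cfsg.Statements.S0302
import Cfsg.Agent.Lib.LowDimP
import Cfsg.Agent.S0287
import Cfsg.Agent.S0242

set_option autoImplicit false
open Cfsg

namespace Cfsg.Agent.S0302

open QuadraticMap Cfsg.Agent.Lib Cfsg.Agent.Lib.Quad Cfsg.Agent.Lib.LowDimB Cfsg.Agent.Lib.LowDimP Matrix

/-- coordinates -/
def coord (F : Type*) [Field F] : (Fin 3 ⊕ Fin 3 → F) ≃ₗ[F] W F where
  toFun v := ⟨alt4 (v (.inl 0)) (v (.inl 1)) (v (.inl 2)) (v (.inr 2)) (- v (.inr 1)) (v (.inr 0)), alt4_mem _ _ _ _ _ _⟩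
  invFun X := Sum.elim ![X.1 0 1, X.1 0 2, X.1 0 3] ![X.1 2 3, - X.1 1 3, X.1 1 2]
  left_inv v := by
    funext i
    rcases i with i | i
    · fin_cases i <;> rfl
    · fin_cases i <;> simp [alt4]
  right_inv X := by
    apply Subtype.ext
    show alt4 (X.1 0 1) (X.1 0 2) (X.1 0 3) (X.1 1 2) (- - X.1 1 3) (X.1 2 3) = X.1
    rw [neg_neg]
    exact (eq_alt4 X.2).symm
  map_add' v w := by
    apply Subtype.ext
    show alt4 (v (.inl 0) + w (.inl 0)) (v (.inl 1) + w (.inl 1)) (v (.inl 2) + w (.inl 2))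
      (v (.inr 2) + w (.inr 2)) (- (v (.inr 1) + w (.inr 1))) (v (.inr 0) + w (.inr 0)) = _
    rw [neg_add, alt4_add]
    rfl
  map_smul' c v := by
    apply Subtype.ext
    show alt4 (c * v (.inl 0)) (c * v (.inl 1)) (c * v (.inl 2))
      (c * v (.inr 2)) (- (c * v (.inr 1))) (c * v (.inr 0)) = _
    rw [← mul_neg, alt4_smul]
    rfl

def Q' (F : Type*) [Field F] : QuadraticForm F (W F) :=
  (quadPlus 3 F).comp (coord F).symm.toLinearMap

theorem Q'_apply {F : Type*} [Field F] (X : W F) : Q' F X = pf X.1 := by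
  show Cfsg.quadFormPlus 3 F ((coord F).symm X) = _
  rw [Cfsg.quadFormPlus, Fin.sum_univ_three, pf]
  have h0 : (coord F).symm X (.inl 0) = X.1 0 1 := rfl
  have h1 : (coord F).symm X (.inl 1) = X.1 0 2 := rfl
  have h2 : (coord F).symm X (.inl 2) = X.1 0 3 := rfl
  have h3 : (coord F).symm X (.inr 0) = X.1 2 3 := rfl
  have h4 : (coord F).symm X (.inr 1) = - X.1 1 3 := rfl
  have h5 : (coord F).symm X (.inr 2) = X.1 1 2 := rfl
  rw [h0, h1, h2, h3, h4, h5]
  ring

theorem Q'_coord {F : Type*} [Field F] (v : Fin 3 ⊕ Fin 3 → F) :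
    Q' F (coord F v) = quadPlus 3 F v := by
  show quadPlus 3 F ((coord F).symm (coord F v)) = _
  rw [LinearEquiv.symm_apply_apply]

noncomputable def ρ (F : Type*) [Field F] : SpecialLinearGroup (Fin 4) F →* (W F ≃ₗ[F] W F) :=
  liftLE (restrictHom f (W F) f_mem)

theorem ρ_apply {F : Type*} [Field F] (A : SpecialLinearGroup (Fin 4) F) (X : W F) :
    (ρ F A X).1 = A.1 * X.1 * A.1ᵀ := rfl

theorem ρ_mem {F : Type*} [Field F] (A : SpecialLinearGroup (Fin 4) F) : ρ F A ∈ O (Q' F) := by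
  intro X
  rw [Q'_apply, Q'_apply, ρ_apply, pf_SL A _ X.2]

theorem ker_ρ {F : Type*} [Field F] (A : SpecialLinearGroup (Fin 4) F) (h : ρ F A = 1) :
    A.1 = 1 ∨ A.1 = -1 := by
  apply eq_one_or_neg
  intro X hX
  have := ρ_apply A ⟨X, hX⟩
  rw [h] at this
  exact this.symm

theorem order_identity (q : ℕ) (hq : 1 ≤ q) :
    (q ^ 4 - 1) * (q ^ 4 - q) * (q ^ 4 - q ^ 2) * (q ^ 4 - q ^ 3) =
      (q - 1) * (q ^ 6 * (q ^ 3 - 1) * ((q ^ 2 - 1) * (q ^ 4 - 1))) := by
  have e1 : q ^ 4 - q = q * (q ^ 3 - 1) := by rw [Nat.mul_sub, mul_one]; ring_nf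
  have e2 : q ^ 4 - q ^ 2 = q ^ 2 * (q ^ 2 - 1) := by rw [Nat.mul_sub, mul_one]; ring_nf
  have e3 : q ^ 4 - q ^ 3 = q ^ 3 * (q - 1) := by rw [Nat.mul_sub, mul_one]; ring_nf
  rw [e1, e2, e3]
  ring

/-- PΩ^+_6(q) is isomorphic to PSL_4(q). -/
theorem result {F : Type*} [Field F] [Fintype F] : Nonempty (Cfsg.POmega F (Cfsg.quadFormPlus 3 F) ≃* Matrix.ProjectiveSpecialLinearGroup (Fin 4) F) := by
  have hnd : Nd (quadPlus 3 F) := nd_quadPlus
  have hgen : GenHyp (quadPlus 3 F) := genHyp_of_card (Or.inr (by rw [finrank_plus]; norm_num))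
  have hR : R (Q' F) = O (Q' F) := (nd_of_equiv (coord F) Q'_coord hnd).R_eq_O
    (genHyp_of_equiv (coord F) Q'_coord hgen)
  have hperf : commutator (SpecialLinearGroup (Fin 4) F) = ⊤ :=
    ClSLn.commutator_SL_eq_top (by simp)
  refine LowDim.pomega_equiv (quadPlus 3 F) (Q' F) (coord F) Q'_coord (ρ F)
    (SL_mem_Om (ρ F) ρ_mem hR (Or.inr hperf)) ?_ ?_
  · have hq1 : 1 < Fintype.card F := Fintype.one_lt_card
    have hGO := S0287.result (F := F) rfl 3 (by norm_num)
    have hSL := S0242.result (F := F) rfl 4 (by norm_num)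
    simp only [Fin.prod_univ_four] at hSL
    simp only [Fin.val_zero, Fin.val_one, Fin.val_two, pow_zero, pow_one] at hSL
    rw [show ((3 : Fin 4) : ℕ) = 3 from rfl, order_identity _ hq1.le] at hSL
    have hSL' := Nat.eq_of_mul_eq_mul_left (by omega) hSL
    simp only [show 3 - 1 = 2 from rfl, Finset.prod_range_succ, Finset.prod_range_zero, one_mul] at hGO
    norm_num [-Nat.card_eq_fintype_card] at hGO
    rw [hSL']
    by_cases h2 : (2 : F) = 0
    · haveI : CharP F 2 := CharTwo.of_one_ne_zero_of_two_eq_zero one_ne_zero h2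
      have hO := LowDim.card_Omega_even hnd hgen (by rw [finrank_plus]; norm_num)
      have hk : Nat.card (ρ F).ker = 1 := by
        apply card_eq_one
        intro A hA
        have hneg : (-1 : M4 F) = 1 := by
          have : (-1 : F) = 1 := by linear_combination -h2
          ext i j
          rw [Matrix.neg_apply, Matrix.one_apply]
          split_ifs
          · exact this
          · simp
        rcases ker_ρ A ((MonoidHom.mem_ker).1 hA) with h | h
        · exact Subtype.ext h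
        · rw [hneg] at h
          exact Subtype.ext h
      rw [hk, mul_one]
      rw [coe_quadPlus] at *
      rw [hGO] at hO
      nlinarith [hO]
    · have hO := LowDim.card_Omega_odd hnd h2 (by rw [finrank_plus]; norm_num)
      have hk : Nat.card (ρ F).ker ≤ 2 := by
        apply card_le_two (ρ F).ker ⟨-1, by rw [Matrix.det_neg]; norm_num⟩
        intro A hA
        rcases ker_ρ A ((MonoidHom.mem_ker).1 hA) with h | h
        · exact Or.inl (Subtype.ext h)
        · exact Or.inr (Subtype.ext h)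
      rw [coe_quadPlus] at *
      rw [hGO] at hO
      nlinarith [hO, hk, Nat.zero_le (Nat.card ↥(Cfsg.Omega F (Cfsg.quadFormPlus 3 F)))]
  · intro A hA
    apply mem_center_of_sign
    · by_cases h2 : (2 : F) = 0
      · exact Or.inl h2
      · right
        have : (2 * ((4 : ℕ) : F)) = 2 * 2 * 2 := by norm_num
        rw [this]
        exact mul_ne_zero (mul_ne_zero h2 h2) h2
    · intro B
      apply eq_or_eq_neg_of_comm
      apply ker_ρ
      rw [map_mul, map_inv, map_mul, map_mul, hA B, mul_inv_cancel]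

end Cfsg.Agent.S0302
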