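import Cfsg.Statements.S5998
import Cfsg.Agent.Lib.DiagTool
import Cfsg.Agent.Lib.NormTool
import Cfsg.Agent.Lib.ElusiveTool

set_option autoImplicit false
open scoped MatrixGroups
open Cfsg

namespace Cfsg.Agent.S5998

open Cfsg.Agent.Lib.DiagTool Cfsg.Agent.Lib.NormTool Module Matrix

section grp

theorem comm_of_dvd_nine {G : Type*} [Group G] (h : Nat.card G ∣ 9) (a b : G) : a * b = b * a := by
  have hf : Finite G := Nat.finite_of_card_ne_zero (by rintro h0; rw [h0] at h; simp at h)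
  have h' : Nat.card G ∣ 3 ^ 2 := h
  obtain ⟨k, hk, hk'⟩ := (Nat.dvd_prime_pow Nat.prime_three).1 h'
  haveI : Fact (Nat.Prime 3) := ⟨Nat.prime_three⟩
  have hk3 : k = 0 ∨ k = 1 ∨ k = 2 := by omega
  rcases hk3 with rfl | rfl | rfl
  · have : Subsingleton G := (Nat.card_eq_one_iff_unique.1 (by simpa using hk')).1
    exact Subsingleton.elim _ _
  · have hc : IsCyclic G := isCyclic_of_prime_card (p := 3) (by simpa using hk')
    letI := hc.commGroup
    exact mul_comm a b
  · letI := IsPGroup.commGroupOfCardEqPrimeSq (p := 3) hk'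
    exact mul_comm a b

/-- nonabelian groups of order 27 and exponent 3 -/
theorem exists_pair {G : Type*} [Group G] (h : Nat.card G = 27) (he : Monoid.exponent G = 3) (hna : ¬ IsMulCommutative G) :
    ∃ a b z : G, a * b = z * (b * a) ∧ z ≠ 1 ∧ (∀ g, z * g = g * z) ∧ Subgroup.closure {a, b} = (⊤ : Subgroup G) ∧
      a ^ 3 = 1 ∧ b ^ 3 = 1 ∧ z ^ 3 = 1 := by
  have hf : Finite G := Nat.finite_of_card_ne_zero (by omega)
  haveI : Fact (Nat.Prime 3) := ⟨Nat.prime_three⟩
  have hex : ∀ g : G, g ^ 3 = 1 := fun g => by rw [← he]; exact Monoid.pow_exponent_eq_one g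
  obtain ⟨a, b, hab⟩ : ∃ a b : G, a * b ≠ b * a := by
    by_contra hcon
    push Not at hcon
    exact hna ⟨⟨hcon⟩⟩
  have hp : IsPGroup 3 G := IsPGroup.of_card (n := 3) (by rw [h]; norm_num)
  have hnt : Nontrivial G := Finite.one_lt_card_iff_nontrivial.1 (by omega)
  have hZ := hp.center_nontrivial
  have hZc : Nat.card (Subgroup.center G) ∣ 27 := by rw [← h]; exact Subgroup.card_subgroup_dvd_card _
  have hZ1 : 1 < Nat.card (Subgroup.center G) := Finite.one_lt_card
  have hidx := Subgroup.card_mul_index (Subgroup.center G)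
  rw [h] at hidx
  have h3 : 3 ∣ Nat.card (Subgroup.center G) := by
    have : Nat.card (Subgroup.center G) ∣ 3 ^ 3 := hZc
    obtain ⟨k, hk, hk'⟩ := (Nat.dvd_prime_pow Nat.prime_three).1 this
    rw [hk'] at hZ1 ⊢
    have : k ≠ 0 := by rintro rfl; simp at hZ1
    exact dvd_pow_self 3 this
  have h9 : Nat.card (G ⧸ Subgroup.center G) ∣ 9 := by
    have h4 : (Subgroup.center G).index = Nat.card (G ⧸ Subgroup.center G) := rfl
    rw [← h4]
    obtain ⟨t, ht⟩ := h3
    refine ⟨t, ?_⟩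
    have h5 : 3 * (t * (Subgroup.center G).index) = 3 * 9 := by rw [← mul_assoc, ← ht, hidx]
    have h6 := Nat.eq_of_mul_eq_mul_left (by norm_num) h5
    rw [← h6]; ring
  let z := a * b * (b * a)⁻¹
  have hz1 : z ≠ 1 := by
    intro h
    exact hab (mul_inv_eq_one.1 h)
  have hzc : z ∈ Subgroup.center G := by
    rw [← QuotientGroup.eq_one_iff]
    have := comm_of_dvd_nine h9 (a : G ⧸ Subgroup.center G) (b : G ⧸ Subgroup.center G)
    show ((a * b * (b * a)⁻¹ : G) : G ⧸ Subgroup.center G) = 1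
    rw [QuotientGroup.mk_mul, QuotientGroup.mk_inv, QuotientGroup.mk_mul, QuotientGroup.mk_mul, this, mul_inv_cancel]
  refine ⟨a, b, z, by simp only [z]; group, hz1, fun g => (Subgroup.mem_center_iff.1 hzc g).symm, ?_, hex a, hex b, hex z⟩
  by_contra hne
  have h5 : Nat.card (Subgroup.closure {a, b}) ∣ 9 := by
    have h6 : Nat.card (Subgroup.closure {a, b}) ∣ 3 ^ 3 := by
      have := Subgroup.card_subgroup_dvd_card (Subgroup.closure {a, b})
      rwa [h] at this
    obtain ⟨k, hk, hk'⟩ := (Nat.dvd_prime_pow Nat.prime_three).1 h6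
    have h7 : k ≠ 3 := by
      rintro rfl
      apply hne
      apply Subgroup.eq_top_of_card_eq
      rw [hk', h]; norm_num
    rw [hk']
    exact pow_dvd_pow 3 (show k ≤ 2 by omega)
  have h6 := comm_of_dvd_nine h5 ⟨a, Subgroup.subset_closure (by simp)⟩ ⟨b, Subgroup.subset_closure (by simp)⟩
  exact hab (congrArg Subtype.val h6)

end grp

section lin

variable {F : Type*} [Field F]

/-- the cyclic permutation matrix -/
def C3 (F : Type*) [Field F] : Matrix (Fin 3) (Fin 3) F := !![0, 0, 1; 1, 0, 0; 0, 1, 0]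

/-- coordinates for the group `R` -/
theorem struct {R : Subgroup (GL (Fin 3) F)} (h3 : (3 : F) ≠ 0) {ω : F} (hω : ω ^ 2 + ω + 1 = 0)
    (hR : Nat.card R = 27) (hRe : Monoid.exponent R = 3) (hRna : ¬ IsMulCommutative R) :
    ∃ (a b P : GL (Fin 3) F) (t : F), a ∈ R ∧ b ∈ R ∧ Subgroup.closure {a, b} = R ∧ t ^ 2 + t + 1 = 0 ∧
      a.1 * P.1 = P.1 * Matrix.diagonal ![1, t, t ^ 2] ∧ b.1 * P.1 = P.1 * C3 F ∧
      ∃ z ∈ R, z.1 = t • (1 : Matrix (Fin 3) (Fin 3) F) := by
  obtain ⟨a, b, z, hab, hz1, hzc, hcl, ha3, hb3, hz3⟩ := exists_pair hR hRe hRna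
  have hω0 : ω ≠ 0 := by rintro rfl; norm_num at hω
  have hω3 : ω ^ 3 = 1 := by linear_combination (ω - 1) * hω
  -- linear maps
  let A : Module.End F (Fin 3 → F) := Matrix.toLin' a.1.1
  let B : Module.End F (Fin 3 → F) := Matrix.toLin' b.1.1
  let Z : Module.End F (Fin 3 → F) := Matrix.toLin' z.1.1
  have hmul : ∀ (x y : R) v, Matrix.toLin' (x * y).1.1 v = Matrix.toLin' x.1.1 (Matrix.toLin' y.1.1 v) := by
    intro x y v
    rw [Matrix.toLin'_apply, Matrix.toLin'_apply, Matrix.toLin'_apply, Matrix.mulVec_mulVec]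
    rfl
  have hAB : ∀ v, A (B v) = Z (B (A v)) := by
    intro v
    show Matrix.toLin' a.1.1 (Matrix.toLin' b.1.1 v) = Matrix.toLin' z.1.1 (Matrix.toLin' b.1.1 (Matrix.toLin' a.1.1 v))
    rw [← hmul, ← hmul, ← hmul, hab, mul_assoc]
  have hZA : ∀ v, Z (A v) = A (Z v) := by
    intro v
    show Matrix.toLin' z.1.1 (Matrix.toLin' a.1.1 v) = Matrix.toLin' a.1.1 (Matrix.toLin' z.1.1 v)
    rw [← hmul, ← hmul, hzc]
  have hZB : ∀ v, Z (B v) = B (Z v) := by
    intro v
    show Matrix.toLin' z.1.1 (Matrix.toLin' b.1.1 v) = Matrix.toLin' b.1.1 (Matrix.toLin' z.1.1 v)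
    rw [← hmul, ← hmul, hzc]
  have hcube : ∀ (x : R), x ^ 3 = 1 → ∀ v, Matrix.toLin' x.1.1 (Matrix.toLin' x.1.1 (Matrix.toLin' x.1.1 v)) = v := by
    intro x hx v
    rw [← hmul, ← hmul]
    have : x * x * x = 1 := by rw [← hx, pow_succ, pow_two]
    rw [this]
    show Matrix.toLin' (1 : Matrix (Fin 3) (Fin 3) F) v = v
    rw [Matrix.toLin'_one]; rfl
  have hAAA : ∀ v, A (A (A v)) = v := hcube a ha3
  have hBBB : ∀ v, B (B (B v)) = v := hcube b hb3
  have hZZZ : ∀ v, Z (Z (Z v)) = v := hcube z hz3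
  -- eigenvector tool
  have key : ∀ (T : Module.End F (Fin 3 → F)), (∀ v, T (T (T v)) = v) → ∀ μ : F, μ ^ 3 = 1 → ∀ v,
      T (v + μ ^ 2 • T v + μ • T (T v)) = μ • (v + μ ^ 2 • T v + μ • T (T v)) := by
    intro T hT μ hμ v
    rw [map_add, map_add, map_smul, map_smul, hT, smul_add, smul_add, smul_smul, smul_smul]
    have h1 : μ * μ ^ 2 = 1 := by rw [← hμ]; ring
    rw [h1, one_smul, show μ * μ = μ ^ 2 by ring]
    abel
  -- a nontrivial eigenvalue of `z`
  obtain ⟨t, v₀, ht3, ht1, hv₀, hZv₀⟩ : ∃ (t : F) (v : Fin 3 → F), t ^ 3 = 1 ∧ t ≠ 1 ∧ v ≠ 0 ∧ Z v = t • v := by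
    by_contra hcon
    push Not at hcon
    have h1 : ∀ μ : F, μ ^ 3 = 1 → μ ≠ 1 → ∀ v, v + μ ^ 2 • Z v + μ • Z (Z v) = 0 := by
      intro μ hμ hμ1 v
      by_contra hne
      exact hcon μ _ hμ hμ1 hne (key Z hZZZ μ hμ v)
    have hω1 : ω ≠ 1 := by rintro rfl; apply h3; linear_combination hω
    have hω21 : ω ^ 2 ≠ 1 := by
      intro h; apply h3
      have hω' : ω = -2 := by linear_combination hω - h
      rw [hω'] at hω
      linear_combination hω
    apply hz1
    have h2 : ∀ v, Z v = v := by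
      intro v
      have e1 := h1 ω hω3 hω1 v
      have e2 := h1 (ω ^ 2) (by rw [← pow_mul]; linear_combination (ω ^ 3 + 1) * hω3) hω21 v
      -- v + ω² Zv + ω Z²v = 0, v + ω Zv + ω² Z²v = 0
      have e3 : (3 : F) • v = (3 : F) • Z v := by
        have hω4 : (ω ^ 2) ^ 2 = ω := by linear_combination ω * hω3
        rw [hω4] at e2
        funext i
        have e1' := congrFun e1 i
        have e2' := congrFun e2 i
        simp only [Pi.add_apply, Pi.smul_apply, smul_eq_mul, Pi.zero_apply] at e1' e2' ⊢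
        linear_combination (1 - ω) * e1' + (2 + ω) * e2' + ((ω - 3) * (Z v i) - ω * (Z (Z v) i)) * hω
      have e4 := smul_right_injective (Fin 3 → F) h3 e3
      exact e4.symm
    apply Subtype.ext
    apply Units.ext
    apply Matrix.toLin'.injective
    apply LinearMap.ext
    intro v
    rw [show Matrix.toLin' z.1.1 v = v from h2 v]
    show v = Matrix.toLin' (1 : Matrix (Fin 3) (Fin 3) F) v
    rw [Matrix.toLin'_one]; rfl
  have htt : t ^ 2 + t + 1 = 0 := by
    have : (t - 1) * (t ^ 2 + t + 1) = 0 := by linear_combination ht3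
    exact (mul_eq_zero.1 this).resolve_left (sub_ne_zero.2 ht1)
  have ht0 : t ≠ 0 := by rintro rfl; norm_num at htt
  have ht2 : t ^ 2 ≠ 1 := by
    intro h
    apply ht1
    have : t ^ 3 = t := by rw [pow_succ, h, one_mul]
    rw [← this, ht3]
  have ht21 : t ^ 2 ≠ t := by
    intro h
    apply ht1
    have : t * (t - 1) = 0 := by linear_combination h
    exact sub_eq_zero.1 ((mul_eq_zero.1 this).resolve_left ht0)
  -- a common eigenvector
  obtain ⟨μ, v₁, hμ, hv₁, hAv₁, hZv₁⟩ : ∃ (μ : F) (v : Fin 3 → F), μ ^ 3 = 1 ∧ v ≠ 0 ∧ A v = μ • v ∧ Z v = t • v := by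
    by_contra hcon
    push Not at hcon
    have h1 : ∀ μ : F, μ ^ 3 = 1 → v₀ + μ ^ 2 • A v₀ + μ • A (A v₀) = 0 := by
      intro μ hμ
      by_contra hne
      apply hcon μ _ hμ hne (key A hAAA μ hμ v₀)
      rw [map_add, map_add, map_smul, map_smul, hZA, hZA, hZA, hZv₀, map_smul, map_smul, smul_add, smul_add,
        smul_comm t (μ ^ 2), smul_comm t μ]
    have e0 := h1 1 (one_pow 3)
    have e1 := h1 t ht3
    have e2 := h1 (t ^ 2) (by rw [← pow_mul]; linear_combination (t ^ 3 + 1) * ht3)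
    apply hv₀
    have e3 : (3 : F) • v₀ = 0 := by
      funext i
      have e0' := congrFun e0 i
      have e1' := congrFun e1 i
      have e2' := congrFun e2 i
      simp only [Pi.add_apply, Pi.smul_apply, smul_eq_mul, Pi.zero_apply] at e0' e1' e2' ⊢
      linear_combination e0' + e1' + e2' - (A (A v₀) i) * htt - (t ^ 2 - t + 1) * (A v₀ i) * htt
    exact (smul_eq_zero.1 e3).resolve_left h3
  have hABt : ∀ v (ν : F), A v = ν • v → Z v = t • v → A (B v) = (ν * t) • B v ∧ Z (B v) = t • B v := by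
    intro v ν h1 h2
    have h4 : Z (B v) = t • B v := by rw [hZB, h2, map_smul]
    refine ⟨?_, h4⟩
    rw [hAB, h1, map_smul, map_smul, h4, smul_smul]
  have hBinj : ∀ v, v ≠ 0 → B v ≠ 0 := by
    intro v hv h
    apply hv
    rw [← hBBB v, h, map_zero, map_zero]
  obtain ⟨w, hw, hAw, hZw⟩ : ∃ w : Fin 3 → F, w ≠ 0 ∧ A w = w ∧ Z w = t • w := by
    have h1 : (μ - 1) * ((μ - t) * (μ - t ^ 2)) = 0 := by
      linear_combination hμ + (-μ ^ 2 + μ) * htt - (1 - μ) * ht3 * 1 + 0 * ht3
    have hμt : μ = 1 ∨ μ = t ∨ μ = t ^ 2 := by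
      rcases mul_eq_zero.1 h1 with h | h
      · exact Or.inl (sub_eq_zero.1 h)
      · rcases mul_eq_zero.1 h with h | h
        · exact Or.inr (Or.inl (sub_eq_zero.1 h))
        · exact Or.inr (Or.inr (sub_eq_zero.1 h))
    rcases hμt with rfl | rfl | rfl
    · exact ⟨v₁, hv₁, by rw [hAv₁, one_smul], hZv₁⟩
    · obtain ⟨h2, h4⟩ := hABt v₁ _ hAv₁ hZv₁
      obtain ⟨h5, h6⟩ := hABt _ _ h2 h4
      refine ⟨B (B v₁), hBinj _ (hBinj _ hv₁), ?_, h6⟩
      rw [h5, show μ * μ * μ = 1 by rw [← ht3]; ring, one_smul]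
    · obtain ⟨h2, h4⟩ := hABt v₁ _ hAv₁ hZv₁
      refine ⟨B v₁, hBinj _ hv₁, ?_, h4⟩
      rw [h2, show t ^ 2 * t = 1 by rw [← ht3]; ring, one_smul]
  obtain ⟨h1, h2⟩ := hABt w 1 (by rw [hAw, one_smul]) hZw
  rw [one_mul] at h1
  obtain ⟨h4, h5⟩ := hABt _ _ h1 h2
  have h4' : A (B (B w)) = t ^ 2 • B (B w) := by rw [h4, pow_two]
  let e : Fin 3 → (Fin 3 → F) := ![w, B w, B (B w)]
  let ν : Fin 3 → F := ![1, t, t ^ 2]
  have hνinj : Function.Injective ν := by
    have e01 : ν 0 ≠ ν 1 := fun h => ht1 h.symm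
    have e02 : ν 0 ≠ ν 2 := fun h => ht2 h.symm
    have e12 : ν 1 ≠ ν 2 := fun h => ht21 h.symm
    intro i j hij
    fin_cases i <;> fin_cases j
    · rfl
    · exact absurd hij e01
    · exact absurd hij e02
    · exact absurd hij.symm e01
    · rfl
    · exact absurd hij e12
    · exact absurd hij.symm e02
    · exact absurd hij.symm e12
    · rfl
  have hAe : ∀ i, A (e i) = ν i • e i := by
    intro i
    fin_cases i
    · show A w = (1 : F) • w
      rw [one_smul, hAw]
    · exact h1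
    · exact h4'
  have hZe : ∀ i, Z (e i) = t • e i := by
    intro i
    fin_cases i
    · exact hZw
    · exact h2
    · exact h5
  have he0 : ∀ i, e i ≠ 0 := by
    intro i
    fin_cases i
    · exact hw
    · exact hBinj _ hw
    · exact hBinj _ (hBinj _ hw)
  have hli : LinearIndependent F e :=
    Module.End.eigenvectors_linearIndependent' A ν hνinj e (fun i => ⟨Module.End.mem_eigenspace_iff.2 (hAe i), he0 i⟩)
  let bs := basisOfLinearIndependentOfCardEqFinrank hli (by rw [Fintype.card_fin, Module.finrank_fin_fun])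
  have hbs : ∀ i, bs i = e i := fun i => by
    simp only [bs, coe_basisOfLinearIndependentOfCardEqFinrank]
  let P₀ : Matrix (Fin 3) (Fin 3) F := (Pi.basisFun F (Fin 3)).toMatrix bs
  have hP₀ : ∀ i j, P₀ i j = e j i := fun i j => by rw [← hbs]; rfl
  haveI : Invertible P₀ := (Pi.basisFun F (Fin 3)).invertibleToMatrix bs
  have hcol : ∀ (M N : Matrix (Fin 3) (Fin 3) F), (∀ j, M *ᵥ (e j) = fun i => ∑ k, e k i * N k j) → M * P₀ = P₀ * N := by
    intro M N h
    ext i j
    rw [Matrix.mul_apply, Matrix.mul_apply]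
    simp only [hP₀]
    have := congrFun (h j) i
    exact this
  refine ⟨a.1, b.1, unitOfInvertible P₀, t, a.2, b.2, ?_, htt, ?_, ?_, z.1, z.2, ?_⟩
  · have h6 := congrArg (Subgroup.map R.subtype) hcl
    rw [MonoidHom.map_closure, ← MonoidHom.range_eq_map, Subgroup.range_subtype] at h6
    refine Eq.trans ?_ h6
    congr 1
    simp [Set.image_pair]
  · show a.1.1 * P₀ = P₀ * _
    apply hcol
    intro j
    have h6 := hAe j
    have h7 : a.1.1 *ᵥ (e j) = A (e j) := rfl
    rw [h7, h6]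
    funext i
    rw [Finset.sum_eq_single j]
    · rw [Matrix.diagonal_apply_eq, Pi.smul_apply, smul_eq_mul, mul_comm]
    · intro k _ hk
      rw [Matrix.diagonal_apply_ne _ hk, mul_zero]
    · intro h; exact absurd (Finset.mem_univ j) h
  · show b.1.1 * P₀ = P₀ * _
    apply hcol
    intro j
    have h7 : b.1.1 *ᵥ (e j) = B (e j) := rfl
    rw [h7]
    funext i
    rw [Fin.sum_univ_three]
    fin_cases j
    · show B w i = _
      simp [e, C3]
    · show B (B w) i = _
      simp [e, C3]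
    · show B (B (B w)) i = _
      rw [hBBB]
      simp [e, C3]
  · apply Matrix.toLin'.injective
    apply bs.ext
    intro i
    rw [hbs]
    have h7 : Matrix.toLin' z.1.1 (e i) = Z (e i) := rfl
    rw [h7, hZe, map_smul, Matrix.toLin'_one]
    rfl

/-- matrices commuting with the two generators are scalar -/
theorem scalar_of_comm {t : F} (ht : t ^ 2 + t + 1 = 0) (h3 : (3 : F) ≠ 0) {Y : Matrix (Fin 3) (Fin 3) F}
    (hA : Y * Matrix.diagonal ![1, t, t ^ 2] = Matrix.diagonal ![1, t, t ^ 2] * Y) (hB : Y * C3 F = C3 F * Y) :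
    Y = (Y 0 0) • (1 : Matrix (Fin 3) (Fin 3) F) := by
  have ht0 : t ≠ 0 := by rintro rfl; norm_num at ht
  have ht1 : t ≠ 1 := by rintro rfl; apply h3; linear_combination ht
  have ht3 : t ^ 3 = 1 := by linear_combination (t - 1) * ht
  have ht2 : t ^ 2 ≠ 1 := by
    intro h
    apply ht1
    have : t ^ 3 = t := by rw [pow_succ, h, one_mul]
    rw [← this, ht3]
  have ht21 : t ^ 2 ≠ t := by
    intro h
    apply ht1
    have : t * (t - 1) = 0 := by linear_combination h
    exact sub_eq_zero.1 ((mul_eq_zero.1 this).resolve_left ht0)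
  have hent : ∀ i j, Y i j * (![1, t, t ^ 2] j - ![1, t, t ^ 2] i) = 0 := by
    intro i j
    have := congrFun (congrFun hA i) j
    rw [Matrix.mul_diagonal, Matrix.diagonal_mul] at this
    linear_combination this
  have h01 : Y 0 1 = 0 := (mul_eq_zero.1 (hent 0 1)).resolve_right (sub_ne_zero.2 ht1)
  have h02 : Y 0 2 = 0 := (mul_eq_zero.1 (hent 0 2)).resolve_right (sub_ne_zero.2 ht2)
  have h10 : Y 1 0 = 0 := (mul_eq_zero.1 (hent 1 0)).resolve_right (sub_ne_zero.2 (Ne.symm ht1))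
  have h12 : Y 1 2 = 0 := (mul_eq_zero.1 (hent 1 2)).resolve_right (sub_ne_zero.2 ht21)
  have h20 : Y 2 0 = 0 := (mul_eq_zero.1 (hent 2 0)).resolve_right (sub_ne_zero.2 (Ne.symm ht2))
  have h21 : Y 2 1 = 0 := (mul_eq_zero.1 (hent 2 1)).resolve_right (sub_ne_zero.2 (Ne.symm ht21))
  have h11 : Y 1 1 = Y 0 0 := by
    have := congrFun (congrFun hB 1) 0
    simpa [Matrix.mul_apply, Fin.sum_univ_three, C3] using this
  have h22 : Y 2 2 = Y 0 0 := by
    have := congrFun (congrFun hB 2) 1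
    simp [Matrix.mul_apply, Fin.sum_univ_three, C3] at this
    rw [this, h11]
  ext i j
  fin_cases i <;> fin_cases j <;> simp [h01, h02, h10, h12, h20, h21, h11, h22]

/-- elements of the normalizer of prime order at least `5` are scalar -/
theorem scalar_of_norm {R : Subgroup (GL (Fin 3) F)} (h3 : (3 : F) ≠ 0) (hR : Nat.card R = 27) {a b P : GL (Fin 3) F} {t : F}
    (ha : a ∈ R) (hb : b ∈ R) (ht : t ^ 2 + t + 1 = 0)
    (hA : a.1 * P.1 = P.1 * Matrix.diagonal ![1, t, t ^ 2]) (hB : b.1 * P.1 = P.1 * C3 F) {z : GL (Fin 3) F} (hz : z ∈ R)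
    (hzt : z.1 = t • (1 : Matrix (Fin 3) (Fin 3) F)) {r : ℕ} [hr : Fact r.Prime] (hr5 : 5 ≤ r) {y : GL (Fin 3) F}
    (hy : y ∈ Subgroup.normalizer (R : Set (GL (Fin 3) F))) (hyr : y ^ r = 1) : ∃ c : F, y.1 = c • (1 : Matrix (Fin 3) (Fin 3) F) := by
  haveI : Finite R := Nat.finite_of_card_ne_zero (by omega)
  have h1 := card_fix_modEq (r := r) hy (by intro w _; rw [hyr, one_mul, mul_one])
  rw [← card_CR, hR] at h1
  have h2 : Nat.card (CR R y) ∣ 3 ^ 3 := by
    have := Subgroup.card_subgroup_dvd_card (CR R y)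
    rwa [hR] at this
  have ht3 : t ^ 3 = 1 := by linear_combination (t - 1) * ht
  have ht1 : t ≠ 1 := by rintro rfl; apply h3; linear_combination ht
  have h4 : Nat.card (CR R y) ≠ 1 := by
    intro h
    have hzC : (⟨z, hz⟩ : R) ∈ CR R y := by
      rw [mem_CR]
      apply Units.ext
      show y.1 * z.1 = z.1 * y.1
      rw [hzt]; simp
    have hsub : Subsingleton (CR R y) := (Nat.card_eq_one_iff_unique.1 h).1
    have h5 : (⟨⟨z, hz⟩, hzC⟩ : CR R y) = 1 := Subsingleton.elim _ _
    have h6 : z.1 = 1 := congrArg (fun w : CR R y => w.1.1.1) h5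
    rw [hzt] at h6
    have h7 := congrFun (congrFun h6 0) 0
    simp at h7
    exact ht1 h7
  obtain ⟨k, hk, hk'⟩ := (Nat.dvd_prime_pow Nat.prime_three).1 h2
  have htop : Nat.card (CR R y) = 27 := by
    rw [hk'] at h1 h4 ⊢
    have hk3 : k = 0 ∨ k = 1 ∨ k = 2 ∨ k = 3 := by omega
    have hsmall : ∀ m : ℕ, r ∣ m → 0 < m → (∀ s : ℕ, s.Prime → s ∣ m → s ≤ 3) → False := by
      intro m hm _ hs
      have := hs r hr.out hm
      omega
    rcases hk3 with rfl | rfl | rfl | rfl
    · exact absurd rfl h4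
    · exfalso
      have h5 : r ∣ 24 := by
        have := (Nat.modEq_iff_dvd' (by norm_num)).1 h1.symm
        simpa using this
      have : r ∣ 2 ^ 3 * 3 := h5
      rcases hr.out.dvd_mul.1 this with h | h
      · have := Nat.le_of_dvd (by norm_num) (hr.out.dvd_of_dvd_pow h); omega
      · have := Nat.le_of_dvd (by norm_num) h; omega
    · exfalso
      have h5 : r ∣ 18 := by
        have := (Nat.modEq_iff_dvd' (by norm_num)).1 h1.symm
        simpa using this
      have : r ∣ 2 * 3 ^ 2 := h5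
      rcases hr.out.dvd_mul.1 this with h | h
      · have := Nat.le_of_dvd (by norm_num) h; omega
      · have := Nat.le_of_dvd (by norm_num) (hr.out.dvd_of_dvd_pow h); omega
    · norm_num
  have hCtop : CR R y = ⊤ := Subgroup.eq_top_of_card_eq _ (by rw [htop, hR])
  have hcomm : ∀ w ∈ R, y.1 * w.1 = w.1 * y.1 := by
    intro w hw
    have : (⟨w, hw⟩ : R) ∈ CR R y := by rw [hCtop]; trivial
    exact congrArg Units.val (mem_CR.1 this)
  have hPi : P.1 * (P⁻¹).1 = 1 := by rw [← Units.val_mul, mul_inv_cancel]; rfl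
  have hiP : (P⁻¹).1 * P.1 = 1 := by rw [← Units.val_mul, inv_mul_cancel]; rfl
  have hgen : ∀ (w : GL (Fin 3) F) (N : Matrix (Fin 3) (Fin 3) F), w ∈ R → w.1 * P.1 = P.1 * N →
      ((P⁻¹).1 * y.1 * P.1) * N = N * ((P⁻¹).1 * y.1 * P.1) := by
    intro w N hw hN
    have hN' : N * (P⁻¹).1 = (P⁻¹).1 * w.1 := by
      calc N * (P⁻¹).1 = ((P⁻¹).1 * P.1) * N * (P⁻¹).1 := by rw [hiP, Matrix.one_mul]
        _ = (P⁻¹).1 * (P.1 * N) * (P⁻¹).1 := by simp only [Matrix.mul_assoc]
        _ = (P⁻¹).1 * w.1 * (P.1 * (P⁻¹).1) := by rw [← hN]; simp only [Matrix.mul_assoc]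
        _ = _ := by rw [hPi, Matrix.mul_one]
    calc ((P⁻¹).1 * y.1 * P.1) * N = (P⁻¹).1 * y.1 * (P.1 * N) := by simp only [Matrix.mul_assoc]
      _ = (P⁻¹).1 * (y.1 * w.1) * P.1 := by rw [← hN]; simp only [Matrix.mul_assoc]
      _ = ((P⁻¹).1 * w.1) * y.1 * P.1 := by rw [hcomm w hw]; simp only [Matrix.mul_assoc]
      _ = _ := by rw [← hN']; simp only [Matrix.mul_assoc]
  have h5 := scalar_of_comm ht h3 (hgen a _ ha hA) (hgen b _ hb hB)
  refine ⟨((P⁻¹).1 * y.1 * P.1) 0 0, ?_⟩
  set Y := (P⁻¹).1 * y.1 * P.1 with hY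
  calc y.1 = (P.1 * (P⁻¹).1) * y.1 * (P.1 * (P⁻¹).1) := by rw [hPi, Matrix.one_mul, Matrix.mul_one]
    _ = P.1 * Y * (P⁻¹).1 := by rw [hY]; simp only [Matrix.mul_assoc]
    _ = Y 0 0 • (P.1 * (P⁻¹).1) := by rw [h5]; simp
    _ = _ := by rw [hPi]

/-- units from coordinates -/
theorem exists_lift (P : GL (Fin 3) F) {N : Matrix (Fin 3) (Fin 3) F} (hN : N.det ≠ 0) : ∃ y : GL (Fin 3) F, y.1 * P.1 = P.1 * N := by
  let n : GL (Fin 3) F := Matrix.GeneralLinearGroup.mkOfDetNeZero N hN
  refine ⟨P * n * P⁻¹, ?_⟩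
  have : P * n * P⁻¹ * P = P * n := by group
  exact congrArg Units.val this

/-- verification of conjugation relations in coordinates -/
theorem conj_of_coord {P y s s' : GL (Fin 3) F} {N S S' : Matrix (Fin 3) (Fin 3) F} (hy : y.1 * P.1 = P.1 * N)
    (hs : s.1 * P.1 = P.1 * S) (hs' : s'.1 * P.1 = P.1 * S') (h : N * S = S' * N) : y * s * y⁻¹ = s' := by
  rw [mul_inv_eq_iff_eq_mul]
  have : y * s * P = s' * y * P := by
    apply Units.ext
    show y.1 * s.1 * P.1 = s'.1 * y.1 * P.1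
    calc y.1 * s.1 * P.1 = y.1 * (s.1 * P.1) := by rw [Matrix.mul_assoc]
      _ = (y.1 * P.1) * S := by rw [hs, ← Matrix.mul_assoc]
      _ = P.1 * (N * S) := by rw [hy, Matrix.mul_assoc]
      _ = (P.1 * S') * N := by rw [h, Matrix.mul_assoc]
      _ = s'.1 * (y.1 * P.1) := by rw [← hs', hy]; simp only [Matrix.mul_assoc]
      _ = _ := by rw [Matrix.mul_assoc]
  exact mul_right_cancel this

theorem coord_mul {P s s' : GL (Fin 3) F} {S S' : Matrix (Fin 3) (Fin 3) F} 
    (hs : s.1 * P.1 = P.1 * S) (hs' : s'.1 * P.1 = P.1 * S') : (s * s').1 * P.1 = P.1 * (S * S') := by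
  rw [Units.val_mul, Matrix.mul_assoc, hs', ← Matrix.mul_assoc, hs, Matrix.mul_assoc]

theorem coord_pow {P a : GL (Fin 3) F} {t : F} (hA : a.1 * P.1 = P.1 * Matrix.diagonal ![1, t, t ^ 2]) (n : ℕ) :
    (a ^ n).1 * P.1 = P.1 * Matrix.diagonal ![1, t ^ n, (t ^ n) ^ 2] := by
  have h1 : (a ^ n).1 * P.1 = P.1 * (Matrix.diagonal ![1, t, t ^ 2]) ^ n := by
    induction n with
    | zero => simp
    | succ n ih => rw [pow_succ, Units.val_mul, Matrix.mul_assoc, hA, ← Matrix.mul_assoc, ih, Matrix.mul_assoc, ← pow_succ]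
  rw [h1, Matrix.diagonal_pow]
  congr 2
  funext i
  fin_cases i
  · simp
  · simp
  · simp [← pow_mul, mul_comm]

theorem dec1 : ∀ e : Fin 3 → Fin 3, ((e 0).1 + (e 1).1 + (e 2).1) % 3 = 0 → (e 0 = e 1 ∧ e 1 = e 2) ∨
    ∃ π : Equiv.Perm (Fin 3), ∀ i, e (π i) = i := by decide

theorem dec2 : ∀ e : Fin 3 → Fin 3, ((e 0).1 + (e 1).1 + (e 2).1) % 3 ≠ 0 →
    ∃ π : Equiv.Perm (Fin 3), e (π 0) = e (π 1) ∧ ∃ k : Fin 3, (e (π 2)) = (e (π 0)) + k := by decide

theorem dec3 : ∀ e : Fin 3 → Fin 2, ((e 0).1 + (e 1).1 + (e 2).1) % 2 = 0 → (e 0 = e 1 ∧ e 1 = e 2) ∨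
    ∃ π : Equiv.Perm (Fin 3), e (π 0) = 0 ∧ e (π 1) = 1 ∧ e (π 2) = 1 := by decide

/-- the 3-part of the order of `SL_3(p)` -/
theorem val_three {p : ℕ} (hp3 : p % 3 = 1) (hp9 : p % 9 ≠ 1) : ¬ 81 ∣ p ^ 3 * ((p ^ 2 - 1) * (p ^ 3 - 1)) := by
  intro h
  have hp0 : 0 < p := by omega
  have h1 : ((p ^ 3 * ((p ^ 2 - 1) * (p ^ 3 - 1)) : ℕ) : ZMod 81) = 0 := (ZMod.natCast_eq_zero_iff _ _).2 h
  rw [Nat.cast_mul, Nat.cast_mul, Nat.cast_sub (Nat.one_le_pow _ _ hp0), Nat.cast_sub (Nat.one_le_pow _ _ hp0), Nat.cast_pow, Nat.cast_pow] at h1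
  have h2 : ∀ x : ZMod 81, x.val % 3 = 1 → x.val % 9 ≠ 1 → x ^ 3 * ((x ^ 2 - 1) * (x ^ 3 - 1)) ≠ 0 := by decide +kernel
  apply h2 (p : ZMod 81) _ _ (by exact_mod_cast h1)
  · rw [ZMod.val_natCast, Nat.mod_mod_of_dvd _ (by norm_num)]; exact hp3
  · rw [ZMod.val_natCast, Nat.mod_mod_of_dvd _ (by norm_num)]; exact hp9

/-- cube roots -/
theorem exists_cube [Fintype F] {p : ℕ} (hF : Fintype.card F = p) (hp9 : p % 9 = 1) {z : F} (hz : z ^ 3 = 1) : ∃ c : F, c ^ 3 = z := by
  have hz0 : z ≠ 0 := by rintro rfl; norm_num at hz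
  obtain ⟨g, hg⟩ := IsCyclic.exists_generator (α := Fˣ)
  obtain ⟨k, hk⟩ := Subgroup.mem_zpowers_iff.1 (hg (Units.mk0 z hz0))
  have hord : orderOf g = p - 1 := by
    rw [orderOf_eq_card_of_forall_mem_zpowers hg, Nat.card_units, Nat.card_eq_fintype_card, hF]
  have h1 : g ^ (k * 3) = 1 := by
    rw [_root_.zpow_mul, hk]
    have h0 : (Units.mk0 z hz0) ^ 3 = 1 := Units.ext hz
    exact_mod_cast h0
  have h2 : ((p - 1 : ℕ) : ℤ) ∣ k * 3 := by rw [← hord]; exact orderOf_dvd_iff_zpow_eq_one.2 h1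
  have h3 : (9 : ℤ) ∣ ((p - 1 : ℕ) : ℤ) := by omega
  have h4 : (3 : ℤ) ∣ k := by have := h3.trans h2; omega
  obtain ⟨m, rfl⟩ := h4
  refine ⟨((g ^ m : Fˣ) : F), ?_⟩
  rw [← Units.val_pow_eq_pow_val, ← zpow_natCast, ← _root_.zpow_mul]
  have : g ^ (m * (3 : ℕ) : ℤ) = Units.mk0 z hz0 := by rw [← hk]; congr 1; push_cast; ring
  rw [this]; rfl

theorem card_SL [Finite F] {n : ℕ} : Nat.card (Cfsg.Geo.specialLinear (Fin n) F) = Nat.card (Matrix.SpecialLinearGroup (Fin n) F) := by
  apply Nat.card_congr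
  refine ⟨fun x => ⟨x.1.1, mem_SL_iff.1 x.2⟩, fun x => ⟨Matrix.GeneralLinearGroup.mkOfDetNeZero x.1 (by rw [x.2]; exact one_ne_zero), mem_SL_iff.2 x.2⟩, ?_, ?_⟩
  · intro x; exact Subtype.ext (Units.ext rfl)
  · intro x; exact Subtype.ext rfl

end lin


/-- Elements of prime order of PSL_3(p), p ≡ 1 (mod 3), and the normalizer of an extraspecial subgroup of order 27. Here `T = PSL_3(F)` for the field `F` with `p` elements, `p` a prime with `p ≡ 1 (mod 3)`; `R` is a non-abelian subgroup of GL_3(F) of order 27 and exponent 3 (an extraspecial group 3^{1+2}, acting absolutely irreducibly), and `H` is the subgroup of matrices of determinant 1 normalizing `R` — a subgroup of type 3^{1+2}.Sp₂(3) (maximality is not assumed). Ω is the set of cosets of `H` in `T`, so an element of `T` of prime order `r` (a matrix `x` of determinant 1 with `x^r` scalar, `x` not scalar) fixes a point of Ω exactly when some conjugate of `x` by a matrix of determinant 1 normalizes `R`. Let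 `r` be a prime dividing the index of `H`. Then every element of `T` of order `r` fixes a point of Ω if and only if `r = 2`, or `r = 3` and `p ≡ 1 (mod 9)`. -/
theorem result {F : Type*} [Field F] [Fintype F] {p : ℕ} [Fact p.Prime] [CharP F p] (hF : Fintype.card F = p) (hp3 : p % 3 = 1)
    (R : Subgroup (GL (Fin 3) F)) (hR : Nat.card R = 27) (hRe : Monoid.exponent R = 3) (hRna : ¬ IsMulCommutative R)
    (r : ℕ) [Fact r.Prime]
    (hΩ : r ∣ (Cfsg.Geo.subgroupNormalizer R).relIndex (Cfsg.Geo.specialLinear (Fin 3) F)) :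
    (∀ x ∈ Cfsg.Geo.specialLinear (Fin 3) F, (∃ z : F, ((x ^ r : GL (Fin 3) F) : Matrix (Fin 3) (Fin 3) F) = z • (1 : Matrix (Fin 3) (Fin 3) F)) →
      (∀ z : F, (x : Matrix (Fin 3) (Fin 3) F) ≠ z • (1 : Matrix (Fin 3) (Fin 3) F)) →
      ∃ g ∈ Cfsg.Geo.specialLinear (Fin 3) F, g⁻¹ * x * g ∈ Cfsg.Geo.subgroupNormalizer R) ↔ (r = 2 ∨ (r = 3 ∧ p % 9 = 1)) := by
  classical
  have hr : r.Prime := Fact.out
  have hp : p.Prime := Fact.out
  have h3 : (3 : F) ≠ 0 := by
    intro h
    have := (CharP.cast_eq_zero_iff F p 3).1 (by exact_mod_cast h)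
    have := (Nat.prime_dvd_prime_iff_eq hp Nat.prime_three).1 this
    omega
  have h2 : (2 : F) ≠ 0 := by
    intro h
    have := (CharP.cast_eq_zero_iff F p 2).1 (by exact_mod_cast h)
    have := (Nat.prime_dvd_prime_iff_eq hp Nat.prime_two).1 this
    omega
  obtain ⟨ω, hω3, hω1⟩ := Cfsg.Agent.Lib.ElusiveTool.exists_root_of_order_one (F := F) Nat.prime_three (by
    rw [orderOf_eq_one_iff, hF]
    have h1 : ((p : ℕ) : ZMod 3) = ((1 : ℕ) : ZMod 3) := by
      rw [ZMod.natCast_eq_natCast_iff']; omega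
    rw [h1]; simp)
  have hω : ω ^ 2 + ω + 1 = 0 := by
    have : (ω - 1) * (ω ^ 2 + ω + 1) = 0 := by linear_combination hω3
    exact (mul_eq_zero.1 this).resolve_left (sub_ne_zero.2 hω1)
  obtain ⟨a, b, P, t, ha, hb, hcl, ht, hA, hB, z₀, hz₀, hzt⟩ := struct h3 hω hR hRe hRna
  have ht0 : t ≠ 0 := by rintro rfl; norm_num at ht
  have ht3 : t ^ 3 = 1 := by linear_combination (t - 1) * ht
  have ht1 : t ≠ 1 := by rintro rfl; apply h3; linear_combination ht
  have htp : IsPrimitiveRoot t 3 := by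
    rw [IsPrimitiveRoot.iff_orderOf]
    exact orderOf_eq_prime ht3 ht1
  haveI : Finite R := Nat.finite_of_card_ne_zero (by omega)
  constructor
  · intro hall
    by_contra hcon
    push Not at hcon
    obtain ⟨hr2, hr9⟩ := hcon
    by_cases hr3 : r = 3
    · subst hr3
      have hp9 := hr9 rfl
      have hRle : R ≤ Cfsg.Geo.subgroupNormalizer R ⊓ Cfsg.Geo.specialLinear (Fin 3) F := by
        apply le_inf Subgroup.le_normalizer
        rw [← hcl, Subgroup.closure_le]
        rintro x (rfl | hx)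
        · rw [SetLike.mem_coe, mem_SL_iff, det_of_diag hA]
          simp [Fin.prod_univ_three]
          linear_combination ht3
        · rw [Set.mem_singleton_iff] at hx
          rw [hx, SetLike.mem_coe, mem_SL_iff]
          have hPdet : P.1.det ≠ 0 := ((Matrix.isUnit_iff_isUnit_det _).1 P.isUnit).ne_zero
          have h1 := congrArg Matrix.det hB
          rw [Matrix.det_mul, Matrix.det_mul, mul_comm] at h1
          have h4 := mul_left_cancel₀ hPdet h1
          rw [h4, Matrix.det_fin_three]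
          simp [C3]
      have h27 : 27 ∣ Nat.card ↥(Cfsg.Geo.subgroupNormalizer R ⊓ Cfsg.Geo.specialLinear (Fin 3) F) := by
        rw [← hR]; exact Subgroup.card_dvd_of_le hRle
      have hmul : Nat.card ↥(Cfsg.Geo.subgroupNormalizer R ⊓ Cfsg.Geo.specialLinear (Fin 3) F) *
          (Cfsg.Geo.subgroupNormalizer R).relIndex (Cfsg.Geo.specialLinear (Fin 3) F) = Nat.card (Cfsg.Geo.specialLinear (Fin 3) F) := by
        rw [← Subgroup.inf_relIndex_right]
        have h5 := Subgroup.relIndex_mul_relIndex (⊥ : Subgroup (GL (Fin 3) F))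
          (Cfsg.Geo.subgroupNormalizer R ⊓ Cfsg.Geo.specialLinear (Fin 3) F) (Cfsg.Geo.specialLinear (Fin 3) F) bot_le inf_le_right
        rwa [Subgroup.relIndex_bot_left, Subgroup.relIndex_bot_left] at h5
      have h81 : 81 ∣ Nat.card (Cfsg.Geo.specialLinear (Fin 3) F) := by
        rw [← hmul]
        exact Nat.mul_dvd_mul h27 hΩ
      rw [card_SL] at h81
      have h6 := Cfsg.Agent.Lib.ClSLn.card_SL_formula (F := F) hF 3 (by norm_num)
      rw [Finset.prod_range_succ, Finset.prod_range_succ, Finset.prod_range_succ, Finset.prod_range_zero] at h6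
      have h7 : Nat.card (Matrix.SpecialLinearGroup (Fin 3) F) = p ^ 3 * ((p ^ 2 - 1) * (p ^ 3 - 1)) := by
        have hp1 : 0 < p - 1 := by have := hp.two_le; omega
        apply Nat.eq_of_mul_eq_mul_left hp1
        rw [h6]
        norm_num
        ring
      rw [h7] at h81
      exact val_three hp3 hp9 h81
    · have hr5 : 5 ≤ r := by
        have h1 := hr.two_le
        by_contra h
        have : r = 4 := by omega
        rw [this] at hr
        exact absurd hr (by norm_num)
      obtain ⟨x, hx, hxr, hxn⟩ := exists_order (m := 3) (hΩ.trans (Subgroup.relIndex_dvd_card _ _))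
        (fun x hx z hz => scalar_SL hx hz) (fun h => hr3 ((Nat.prime_dvd_prime_iff_eq hr Nat.prime_three).1 h))
      obtain ⟨g, -, hg⟩ := hall x hx ⟨1, by rw [hxr]; simp⟩ hxn
      obtain ⟨c, hc⟩ := scalar_of_norm h3 hR ha hb ht hA hB hz₀ hzt hr5 hg (by rw [conj_pow_eq, hxr]; group)
      exact nonscalar_conj hxn c hc
  · intro hcase x hx ⟨z, hz⟩ hxn
    rw [Units.val_pow_eq_pow_val] at hz
    have hdx := mem_SL_iff.1 hx
    have hz3 : z ^ 3 = 1 := by
      have h1 := congrArg Matrix.det hz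
      rw [Matrix.det_pow, hdx, one_pow, Matrix.det_smul, Matrix.det_one, mul_one, Fintype.card_fin] at h1
      exact h1.symm
    have hz0 : z ≠ 0 := by rintro rfl; norm_num at hz3
    rcases hcase with rfl | ⟨rfl, hp9⟩
    · -- involutions
      have hcc : (z ^ 2) ^ 2 = z := by linear_combination z * hz3
      have hneg : IsPrimitiveRoot (-1 : F) 2 := IsPrimitiveRoot.neg_one p (by rintro rfl; omega)
      obtain ⟨Q, e, hQ⟩ := exists_diag_mat (by exact_mod_cast h2) hneg (pow_ne_zero 2 hz0) (M := x.1) (by rw [hz, hcc])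
      have hdet := det_of_diag hQ
      rw [hdx, Fin.prod_univ_three] at hdet
      have h4 : (-1 : F) ^ ((e 0).1 + (e 1).1 + (e 2).1) = 1 := by
        rw [pow_add, pow_add]
        linear_combination -hdet - (z ^ 3 + 1) * ((-1 : F) ^ (e 0).1 * (-1) ^ (e 1).1 * (-1) ^ (e 2).1) * hz3
      have hm1 : (-1 : F) ≠ 1 := by
        intro h; apply h2; linear_combination -h
      have hev : ((e 0).1 + (e 1).1 + (e 2).1) % 2 = 0 := Nat.even_iff.1 ((neg_one_pow_eq_one_iff_even hm1).1 h4)
      rcases dec3 e hev with ⟨h01, h12⟩ | ⟨π, hπ0, hπ1, hπ2⟩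
      · exfalso
        apply hxn (z ^ 2 * (-1) ^ (e 0).1)
        apply scalar_of_diag (P := Q)
        rw [hQ]
        congr 2
        funext j
        fin_cases j
        · rfl
        · show z ^ 2 * (-1) ^ (e 1).1 = _; rw [← h01]
        · show z ^ 2 * (-1) ^ (e 2).1 = _; rw [← h12, ← h01]
      · let N : Matrix (Fin 3) (Fin 3) F := !![-z ^ 2, 0, 0; 0, 0, -z ^ 2; 0, -z ^ 2, 0]
        have hN : N.det ≠ 0 := by
          rw [Matrix.det_fin_three]
          simp [N]
          exact hz0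
        obtain ⟨y, hy⟩ := exists_lift P hN
        let Q₀ : Matrix (Fin 3) (Fin 3) F := !![0, 1, 0; 1, 0, 1; -1, 0, 1]
        have hQ₀ : Q₀.det ≠ 0 := by
          rw [Matrix.det_fin_three]
          simp [Q₀]
          intro h
          apply h2
          linear_combination -h
        let q₀ : GL (Fin 3) F := Matrix.GeneralLinearGroup.mkOfDetNeZero Q₀ hQ₀
        have hNQ : N * Q₀ = Q₀ * Matrix.diagonal ![z ^ 2, -z ^ 2, -z ^ 2] := by
          ext i j
          fin_cases i <;> fin_cases j <;> simp [N, Q₀, Matrix.mul_apply, Fin.sum_univ_three]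
        have hyQ : y.1 * (P * q₀).1 = (P * q₀).1 * Matrix.diagonal ![z ^ 2, -z ^ 2, -z ^ 2] := by
          show y.1 * (P.1 * Q₀) = P.1 * Q₀ * _
          rw [← Matrix.mul_assoc, hy, Matrix.mul_assoc, hNQ, Matrix.mul_assoc]
        obtain ⟨g, hg, hgy⟩ := conj_SL_of_diag (by norm_num) hQ hyQ π (by
          intro i
          fin_cases i
          · show z ^ 2 * (-1) ^ (e (π 0)).1 = z ^ 2
            rw [hπ0]; simp
          · show z ^ 2 * (-1) ^ (e (π 1)).1 = -z ^ 2
            rw [hπ1]; simp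
          · show z ^ 2 * (-1) ^ (e (π 2)).1 = -z ^ 2
            rw [hπ2]; simp)
        refine ⟨g, hg, ?_⟩
        rw [hgy]
        apply mem_norm_closure hcl
        rintro s (rfl | hs)
        · rw [conj_of_coord hy hA (coord_mul hA hA) (by
            ext i j
            fin_cases i <;> fin_cases j <;> simp [N, Matrix.mul_apply, Fin.sum_univ_three, Matrix.diagonal]
            · ring
            · linear_combination (-z ^ 2 * t) * ht3)]
          exact mul_mem ha ha
        · rw [Set.mem_singleton_iff] at hs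
          subst hs
          rw [conj_of_coord hy hB (coord_mul hB hB) (by
            ext i j
            fin_cases i <;> fin_cases j <;> simp [N, C3, Matrix.mul_apply, Fin.sum_univ_three])]
          exact mul_mem hb hb
    · by_cases hz1 : z = 1
      · obtain ⟨Q, e, hQ⟩ := exists_diag_mat (by exact_mod_cast h3) htp one_ne_zero (M := x.1) (by rw [hz, hz1, one_pow])
        have hdet := det_of_diag hQ
        rw [hdx, Fin.prod_univ_three] at hdet
        have h4 : t ^ ((e 0).1 + (e 1).1 + (e 2).1) = 1 := by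
          rw [pow_add, pow_add]
          linear_combination -hdet
        have h5 := Nat.mod_eq_zero_of_dvd ((htp.pow_eq_one_iff_dvd _).1 h4)
        rcases dec1 e h5 with ⟨h01, h12⟩ | ⟨π, hπ⟩
        · exfalso
          apply hxn (1 * t ^ (e 0).1)
          apply scalar_of_diag (P := Q)
          rw [hQ]
          congr 2
          funext j
          fin_cases j
          · rfl
          · show 1 * t ^ (e 1).1 = _; rw [← h01]
          · show 1 * t ^ (e 2).1 = _; rw [← h12, ← h01]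
        · obtain ⟨g, hg, hgy⟩ := conj_SL_of_diag (by norm_num) hQ hA π (by
            intro i
            show 1 * t ^ (e (π i)).1 = _
            rw [hπ]
            fin_cases i
            · simp
            · simp
            · simp)
          refine ⟨g, hg, ?_⟩
          rw [hgy]
          exact Subgroup.le_normalizer ha
      · obtain ⟨c, hc⟩ := exists_cube hF hp9 hz3
        have hc0 : c ≠ 0 := by rintro rfl; rw [zero_pow (by norm_num)] at hc; exact hz0 hc.symm
        obtain ⟨Q, e, hQ⟩ := exists_diag_mat (by exact_mod_cast h3) htp hc0 (M := x.1) (by rw [hz, hc])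
        have hdet := det_of_diag hQ
        rw [hdx, Fin.prod_univ_three] at hdet
        have h4 : z * t ^ ((e 0).1 + (e 1).1 + (e 2).1) = 1 := by
          rw [pow_add, pow_add, ← hc]
          linear_combination -hdet
        have hne : ((e 0).1 + (e 1).1 + (e 2).1) % 3 ≠ 0 := by
          intro h
          apply hz1
          obtain ⟨m, hm⟩ := Nat.dvd_of_mod_eq_zero h
          rw [hm, pow_mul, ht3, one_pow, mul_one] at h4
          exact h4
        obtain ⟨π, hπ, k, hk⟩ := dec2 e hne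
        let α : F := c * t ^ (e (π 0)).1
        let s : F := t ^ k.1
        have hs3 : s ^ 3 = 1 := by simp only [s]; rw [← pow_mul, mul_comm, pow_mul, ht3, one_pow]
        have hα0 : α ≠ 0 := mul_ne_zero hc0 (pow_ne_zero _ ht0)
        have hs0 : s ≠ 0 := pow_ne_zero _ ht0
        have hsadd : t ^ ((e (π 0)) + k).1 = t ^ (e (π 0)).1 * s := by
          simp only [s]
          rw [← pow_add, Fin.val_add]
          conv_rhs => rw [← Nat.div_add_mod ((e (π 0)).1 + k.1) 3, pow_add, pow_mul, ht3, one_pow, one_mul]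
        obtain ⟨y, hy⟩ := exists_lift P (N := Matrix.diagonal ![α, α, α * s]) (by
          rw [Matrix.det_diagonal, Fin.prod_univ_three]
          exact mul_ne_zero (mul_ne_zero hα0 hα0) (mul_ne_zero hα0 hs0))
        obtain ⟨g, hg, hgy⟩ := conj_SL_of_diag (by norm_num) hQ hy π (by
          intro i
          fin_cases i
          · rfl
          · show c * t ^ (e (π 1)).1 = α
            rw [← hπ]
          · show c * t ^ (e (π 2)).1 = α * s
            rw [hk, hsadd, ← mul_assoc])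
        refine ⟨g, hg, ?_⟩
        rw [hgy]
        apply mem_norm_closure hcl
        rintro w (rfl | hw)
        · rw [conj_of_coord hy hA hA (by
            rw [Matrix.diagonal_mul_diagonal, Matrix.diagonal_mul_diagonal]
            congr 1
            funext i
            exact mul_comm _ _)]
          exact ha
        · rw [Set.mem_singleton_iff] at hw
          subst hw
          rw [conj_of_coord hy hB (coord_mul hB (coord_pow hA k.1)) (by
            show _ = C3 F * Matrix.diagonal ![1, s, s ^ 2] * Matrix.diagonal ![α, α, α * s]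
            ext i j
            rw [Matrix.diagonal_mul, Matrix.mul_diagonal, Matrix.mul_diagonal]
            fin_cases i <;> fin_cases j <;> simp [C3]
            · linear_combination (-α) * hs3
            · ring)]
          exact mul_mem hb (pow_mem ha _)

end Cfsg.Agent.S5998
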