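import Cfsg.Statements.S6000
import Cfsg.Agent.Lib.XR8

set_option autoImplicit false
open scoped MatrixGroups
open Cfsg

namespace Cfsg.Agent.S6000

open Cfsg.Agent.Lib.XR Cfsg.Agent.Lib.DiagTool Cfsg.Agent.Lib.NormTool Cfsg.Agent.Lib.InvSub Cfsg.Agent.Lib.PrimeOrd Module Matrix Polynomial

section

variable {F : Type*} [Field F]

theorem exp_four {ι : Type} [Fintype ι] [DecidableEq ι] {R : Subgroup (GL ι F)} (hS : Cfsg.Geo.IsSymplecticTypeGroup 2 R) {x : GL ι F} (hx : x ∈ R) : x ^ 4 = 1 := by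
  have h1 := Monoid.pow_exponent_eq_one (⟨x, hx⟩ : R)
  rw [hS.exponent_eq] at h1
  have h2 : 2 * Nat.gcd 2 2 = 4 := by norm_num
  rw [h2] at h1
  exact congrArg Subtype.val h1

/-- the scalars of order four -/
theorem exists_I {R : Subgroup (GL (Fin 4) F)} (h : XR R) (hZ : Nat.card (Zs R) = 4) {i : F} (hi : i ^ 2 = -1) : ∃ I ∈ R, I.1 = i • (1 : Matrix (Fin 4) (Fin 4) F) := by
  classical
  have := h.fin
  by_contra hcon
  push Not at hcon
  have hi0 : i ≠ 0 := by rintro rfl; norm_num at hi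
  have key : ∀ w : Zs R, w.1.1.1 0 0 ∈ ({1, -1} : Finset F) ∧ w.1.1.1 = (w.1.1.1 0 0) • (1 : Matrix (Fin 4) (Fin 4) F) := by
    intro w
    obtain ⟨c, hc⟩ := w.2
    have h00 : w.1.1.1 0 0 = c := by rw [hc]; simp
    rw [h00]
    refine ⟨?_, hc⟩
    have h4 : c ^ 4 = 1 := by
      have h5 : w ^ 4 = 1 := by have := pow_card_eq_one' (x := w); rwa [hZ] at this
      have h6 : w.1.1.1 ^ 4 = 1 := congrArg (fun w : Zs R => w.1.1.1) h5
      rw [hc, _root_.smul_pow, one_pow] at h6
      have h7 := congrFun (congrFun h6 0) 0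
      simpa using h7
    have h8 : (c - 1) * (c + 1) * (c ^ 2 + 1) = 0 := by linear_combination h4
    rcases mul_eq_zero.1 h8 with h9 | h9
    · rcases mul_eq_zero.1 h9 with h10 | h10
      · have : c = 1 := sub_eq_zero.1 h10
        rw [this]; simp
      · have : c = -1 := by linear_combination h10
        rw [this]; simp
    · exfalso
      have h11 : (c - i) * (c + i) = 0 := by linear_combination h9 - hi
      rcases mul_eq_zero.1 h11 with h10 | h10
      · have : c = i := sub_eq_zero.1 h10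
        rw [this] at hc
        exact hcon _ w.1.2 hc
      · have hc' : c = -i := by linear_combination h10
        rw [hc'] at hc
        apply hcon _ (h.neg_mem w.1.2)
        show -w.1.1.1 = _
        rw [hc, neg_smul, neg_neg]
  have hinj : Function.Injective (fun w : Zs R => (⟨w.1.1.1 0 0, (key w).1⟩ : ({1, -1} : Finset F))) := by
    intro w w' hw
    have h1 : w.1.1.1 0 0 = w'.1.1.1 0 0 := congrArg Subtype.val hw
    apply Subtype.ext
    apply Subtype.ext
    apply Units.ext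
    rw [(key w).2, (key w').2, h1]
  have h1 := Nat.card_le_card_of_injective _ hinj
  rw [hZ, Nat.card_eq_fintype_card, Fintype.card_coe] at h1
  have h2 := Finset.card_le_two (a := (1 : F)) (b := -1)
  omega

theorem anti_scale {G : Type*} [Group G] [HasDistribNeg G] {u v a b : G} (hu : ∀ w, u * w = w * u) (hv : ∀ w, v * w = w * v) (h : a * b = -(b * a)) :
    (u * a) * (v * b) = -((v * b) * (u * a)) := by
  have e1 : (u * a) * (v * b) = (u * v) * (a * b) := by
    rw [mul_assoc, ← mul_assoc a, ← hv a, mul_assoc, mul_assoc]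
  have e2 : (v * b) * (u * a) = (u * v) * (b * a) := by
    rw [mul_assoc, ← mul_assoc b, ← hu b, mul_assoc, ← mul_assoc, hv u]
  rw [e1, e2, h, mul_neg]

theorem comm_scale {G : Type*} [Group G] {u v a b : G} (hu : ∀ w, u * w = w * u) (hv : ∀ w, v * w = w * v) (h : a * b = b * a) :
    (u * a) * (v * b) = (v * b) * (u * a) := by
  have e1 : (u * a) * (v * b) = (u * v) * (a * b) := by
    rw [mul_assoc, ← mul_assoc a, ← hv a, mul_assoc, mul_assoc]
  have e2 : (v * b) * (u * a) = (u * v) * (b * a) := by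
    rw [mul_assoc, ← mul_assoc b, ← hu b, mul_assoc, ← mul_assoc, hv u]
  rw [e1, e2, h]

/-- adjusting squares -/
theorem scale_sq {R : Subgroup (GL (Fin 4) F)} {I : GL (Fin 4) F} (hI : I ∈ R) (hIc : ∀ w, I * w = w * I)
    (hII : I * I = -1) {a : GL (Fin 4) F} (haa : a * a = 1 ∨ a * a = -1) (ε : GL (Fin 4) F) (hε : ε = 1 ∨ ε = -1) :
    ∃ u ∈ R, (∀ w, u * w = w * u) ∧ (u * a) * (u * a) = ε := by
  by_cases he : a * a = ε
  · exact ⟨1, one_mem _, fun w => by rw [one_mul, mul_one], by rw [one_mul]; exact he⟩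
  · refine ⟨I, hI, hIc, ?_⟩
    have e1 : (I * a) * (I * a) = (I * I) * (a * a) := by
      rw [mul_assoc, ← mul_assoc a, ← hIc a, mul_assoc, mul_assoc]
    rw [e1, hII]
    rcases hε with rfl | rfl
    · rw [haa.resolve_left he, neg_mul_neg, one_mul]
    · rw [haa.resolve_right he, mul_one]

theorem sq_pm {R : Subgroup (GL (Fin 4) F)} (h : XR R) (hS : Cfsg.Geo.IsSymplecticTypeGroup 2 R) {a : GL (Fin 4) F} (ha : a ∈ R) : a * a = 1 ∨ a * a = -1 := by
  obtain ⟨c, hc⟩ := h.sq' ha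
  have h4 := exp_four hS ha
  have hc2 : c ^ 2 = 1 := by
    have h6 : a.1 ^ 4 = 1 := by rw [← Units.val_pow_eq_pow_val, h4]; rfl
    have h7 : a.1 ^ 4 = (a * a).1 * (a * a).1 := by
      rw [Units.val_mul]; simp only [pow_succ, pow_zero, Matrix.one_mul, Matrix.mul_assoc]
    rw [h7, hc, Matrix.smul_mul, Matrix.mul_smul, Matrix.one_mul, smul_smul] at h6
    have h8 := congrFun (congrFun h6 0) 0
    simp at h8
    rw [pow_two]; exact h8
  rw [pow_two] at hc2
  rcases mul_self_eq_one_iff.1 hc2 with rfl | rfl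
  · left; apply Units.ext; rw [hc, one_smul]; rfl
  · right; apply Units.ext; rw [hc, neg_one_smul]; rfl


/-- the quadruple for `S6000` -/
theorem exists_Quad {R : Subgroup (GL (Fin 4) F)} (h : XR R) (hS : Cfsg.Geo.IsSymplecticTypeGroup 2 R) {i : F} (hi : i ^ 2 = -1)
    {I : GL (Fin 4) F} (hI : I ∈ R) (hIi : I.1 = i • (1 : Matrix (Fin 4) (Fin 4) F)) :
    ∃ a b c d : GL (Fin 4) F, Quad R a b c d := by
  have hIc : ∀ w, I * w = w * I := by
    intro w
    apply Units.ext
    show I.1 * w.1 = w.1 * I.1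
    rw [hIi]; simp
  have hII : I * I = -1 := by
    apply Units.ext
    show I.1 * I.1 = -1
    rw [hIi, Matrix.smul_mul, Matrix.mul_smul, smul_smul, ← pow_two, hi, Matrix.one_mul, neg_one_smul]
  obtain ⟨a, ha, b, hb, c, hc, d, hd, hab, hcd, hac, had, hbc, hbd⟩ := h.exists_quad
  obtain ⟨u, hu, huc, hua⟩ := scale_sq hI hIc hII (sq_pm h hS ha) (-1) (Or.inr rfl)
  obtain ⟨v, hv, hvc, hvb⟩ := scale_sq hI hIc hII (sq_pm h hS hb) (-1) (Or.inr rfl)
  obtain ⟨s, hs, hsc, hss⟩ := scale_sq hI hIc hII (sq_pm h hS hc) 1 (Or.inl rfl)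
  obtain ⟨t, ht, htc, htt⟩ := scale_sq hI hIc hII (sq_pm h hS hd) 1 (Or.inl rfl)
  exact ⟨u * a, v * b, s * c, t * d, mul_mem hu ha, mul_mem hv hb, mul_mem hs hc, mul_mem ht hd, anti_scale huc hvc hab,
    anti_scale hsc htc hcd, comm_scale huc hsc hac, comm_scale huc htc had, comm_scale hvc hsc hbc, comm_scale hvc htc hbd,
    hua, hvb, hss, htt⟩

theorem XRdata [Fintype F] {p : ℕ} [Fact p.Prime] [CharP F p] (hp4 : p % 4 = 1)
    {R : Subgroup (GL (Fin 4) F)} (hR : Cfsg.Geo.IsLinearSymplecticTypeData 2 R) (hR6 : Nat.card R = 2 ^ 6) : XR R ∧ Nat.card (Zs R) = 4 := by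
  have h2 : (2 : F) ≠ 0 := by
    intro h
    have := (CharP.cast_eq_zero_iff F p 2).1 (by exact_mod_cast h)
    have := (Nat.prime_dvd_prime_iff_eq Fact.out Nat.prime_two).1 this
    omega
  haveI : Finite R := Nat.finite_of_card_ne_zero (by rw [hR6]; norm_num)
  have hc : Nat.card (Subgroup.center R) = 4 := by
    obtain ⟨_, _, _, _, h1⟩ := hR.field
    rcases h1 with h1 | h1 | h1
    · exact absurd h1.1 (by decide)
    · exact h1.2.2.1
    · exact absurd h1.2.2.1 (by simp)
  have hx : XR R := XR.mk' h2 (by simp) hR.symplecticType hR.absIrred (by rw [hR6, hc]; norm_num)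
  refine ⟨hx, ?_⟩
  have := hx.sc
  rw [hR6] at this
  omega

/-- the negative direction -/
theorem neg_dir [Fintype F] {p : ℕ} [hp : Fact p.Prime] [CharP F p] (hF : Fintype.card F = p) (hp4 : p % 4 = 1)
    {R : Subgroup (GL (Fin 4) F)} (h : XR R) {r : ℕ} [hr : Fact r.Prime] (hdvd : r ∣ Nat.card (Cfsg.Geo.specialLinear (Fin 4) F))
    (hall : ∀ x ∈ Cfsg.Geo.specialLinear (Fin 4) F, x ^ r = 1 → (∀ z : F, x.1 ≠ z • (1 : Matrix (Fin 4) (Fin 4) F)) →
      ∃ g ∈ Cfsg.Geo.specialLinear (Fin 4) F, g⁻¹ * x * g ∈ Subgroup.normalizer (R : Set (GL (Fin 4) F))) :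
    r = 2 ∨ (r = 3 ∧ p % 3 = 2) ∨ (r = 5 ∧ orderOf (p : ZMod 5) = 4) := by
  by_contra hcon
  push Not at hcon
  obtain ⟨hr2, hr3, hr5⟩ := hcon
  have hodd : Odd r := hr.out.odd_of_ne_two hr2
  have hyr : ∀ y : GL (Fin 4) F, y ^ r = 1 → ∀ w ∈ R, y ^ r * w = w * y ^ r := by
    intro y hy w _; rw [hy, one_mul, mul_one]
  by_cases h3 : r = 3
  · subst h3
    have hp3 : p % 3 = 1 := by
      have h1 := hr3 rfl
      have h2 : p % 3 ≠ 0 := by
        intro h
        have := (Nat.prime_dvd_prime_iff_eq Nat.prime_three hp.out).1 (Nat.dvd_of_mod_eq_zero h)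
        omega
      omega
    obtain ⟨ω, hω3, hω1⟩ := Cfsg.Agent.Lib.ElusiveTool.exists_root_of_order_one (F := F) Nat.prime_three (by
      rw [orderOf_eq_one_iff, hF]
      have h1 : ((p : ℕ) : ZMod 3) = ((1 : ℕ) : ZMod 3) := by
        rw [ZMod.natCast_eq_natCast_iff']; omega
      rw [h1]; simp)
    have hω0 : ω ≠ 0 := by rintro rfl; norm_num at hω3
    let u : Fin 4 → F := ![ω, ω, ω, 1]
    have hdet : (Matrix.diagonal u).det = 1 := by
      rw [Matrix.det_diagonal, Fin.prod_univ_four]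
      show ω * ω * ω * 1 = 1
      linear_combination hω3
    let x : GL (Fin 4) F := Matrix.GeneralLinearGroup.mkOfDetNeZero (Matrix.diagonal u) (by rw [hdet]; exact one_ne_zero)
    have hx1 : x.1 = Matrix.diagonal u := rfl
    have hx3 : x ^ 3 = 1 := by
      apply Units.ext
      rw [Units.val_pow_eq_pow_val, hx1, Matrix.diagonal_pow, Units.val_one, ← Matrix.diagonal_one]
      congr 1
      funext i
      fin_cases i
      · exact hω3
      · exact hω3
      · exact hω3
      · exact one_pow 3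
    have hxn : ∀ z : F, x.1 ≠ z • (1 : Matrix (Fin 4) (Fin 4) F) := by
      intro z hz
      rw [hx1] at hz
      have e0 := congrFun (congrFun hz 0) 0
      have e3 := congrFun (congrFun hz 3) 3
      simp [u] at e0 e3
      exact hω1 (e0.trans e3.symm)
    obtain ⟨g, -, hg⟩ := hall x (mem_SL_iff.2 hdet) hx3 hxn
    have hfr : finrank F (Module.End.eigenspace (Matrix.toLin' (g⁻¹ * x * g).1) ω) = 3 := by
      classical
      rw [finrank_conj', hx1]
      have := Cfsg.Agent.Lib.ElusiveTool.finrank_E_diag u ω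
      rw [show (Module.End.eigenspace (Matrix.toLin' (Matrix.diagonal u)) ω) = E (Matrix.toLin' (Matrix.diagonal u)) ω from rfl, this]
      rw [Finset.card_filter, Fin.sum_univ_four]
      simp [u, Ne.symm hω1]
    obtain ⟨c, hc⟩ := h.homology hodd (hyr _ (by rw [conj_pow_eq, hx3]; group)) hg hfr
    exact nonscalar_conj hxn c hc
  · by_cases h5 : r = 5
    · subst h5
      by_cases hp5 : p = 5
      · obtain ⟨x, hxp, hfr⟩ := Cfsg.Agent.Lib.ElusiveTool.exists_transv (F := F) (p := p) (n := 4) (by norm_num)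
        let x' : GL (Fin 4) F := Matrix.GeneralLinearGroup.mkOfDetNeZero x.1 (by rw [x.2]; exact one_ne_zero)
        have hx1 : x'.1 = x.1 := rfl
        have hx5 : x' ^ 5 = 1 := by
          apply Units.ext
          rw [Units.val_pow_eq_pow_val, hx1]
          apply Matrix.toLin'.injective
          rw [← tl_pow]
          rw [hp5] at hxp
          show (Cfsg.Agent.Lib.ElusiveLin.tl x) ^ 5 = _
          rw [hxp, Units.val_one, Matrix.toLin'_one]; rfl
        have hfr' : finrank F (Module.End.eigenspace (Matrix.toLin' x'.1) 1) = 3 := by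
          have : finrank F (E (Cfsg.Agent.Lib.ElusiveLin.tl x) 1) = 3 := by omega
          exact this
        have hxn : ∀ z : F, x'.1 ≠ z • (1 : Matrix (Fin 4) (Fin 4) F) := by
          intro z hz
          rw [hz] at hfr'
          by_cases hz1 : z = 1
          · rw [hz1, one_smul, Matrix.toLin'_one] at hfr'
            have : Module.End.eigenspace (LinearMap.id : Module.End F (Fin 4 → F)) 1 = ⊤ := by
              rw [eq_top_iff]; intro v _; rw [Module.End.mem_eigenspace_iff, one_smul]; rfl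
            rw [this, finrank_top, Module.finrank_fin_fun] at hfr'
            omega
          · have : Module.End.eigenspace (Matrix.toLin' (z • (1 : Matrix (Fin 4) (Fin 4) F))) 1 = ⊥ := by
              rw [eq_bot_iff]
              intro v hv
              rw [Module.End.mem_eigenspace_iff, toLin_smul_one, LinearMap.smul_apply, Module.End.one_apply] at hv
              have h1 : (z - 1) • v = 0 := by rw [sub_smul, hv, sub_self]
              exact (smul_eq_zero.1 h1).resolve_left (sub_ne_zero.2 hz1)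
            rw [this, finrank_bot] at hfr'
            omega
        obtain ⟨g, -, hg⟩ := hall x' (mem_SL_iff.2 x.2) hx5 hxn
        obtain ⟨c, hc⟩ := h.homology hodd (hyr _ (by rw [conj_pow_eq, hx5]; group)) hg (by rw [finrank_conj']; exact hfr')
        exact nonscalar_conj hxn c hc
      · obtain ⟨η, hη⟩ := exists_eta (F := F) (p := p) (by rintro rfl; omega) hp5 (hr5 rfl)
        let M : Matrix (Fin 4) (Fin 4) F := !![1, 0, 0, 0; 0, 1, 0, 0; 0, 0, 0, -1; 0, 0, 1, η]
        let M' : Matrix (Fin 4) (Fin 4) F := !![1, 0, 0, 0; 0, 1, 0, 0; 0, 0, η, 1; 0, 0, -1, 0]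
        let N : Matrix (Fin 4) (Fin 4) F := !![1, 0, 0, 0; 0, 1, 0, 0; 0, 0, -1, -η; 0, 0, η, -η]
        have hMM' : M * M' = 1 := by
          ext i j
          fin_cases i <;> fin_cases j <;> simp [M, M', Matrix.mul_apply, Fin.sum_univ_four]
        have hM'M : M' * M = 1 := by
          ext i j
          fin_cases i <;> fin_cases j <;> simp [M, M', Matrix.mul_apply, Fin.sum_univ_four]
        have hMM : M * M = N := by
          ext i j
          fin_cases i <;> fin_cases j <;> simp [M, N, Matrix.mul_apply, Fin.sum_univ_four]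
          linear_combination hη
        have hNN : N * N = M' := by
          ext i j
          fin_cases i <;> fin_cases j <;> simp [M', N, Matrix.mul_apply, Fin.sum_univ_four]
          · linear_combination -hη
          · linear_combination hη
          · linear_combination -hη
        have hdet : M.det = 1 := by
          simp [M, Matrix.det_succ_row_zero, Fin.sum_univ_succ, Fin.succAbove]
        let x : GL (Fin 4) F := ⟨M, M', hMM', hM'M⟩
        have hx5 : x ^ 5 = 1 := by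
          apply Units.ext
          rw [Units.val_pow_eq_pow_val]
          show M ^ 5 = 1
          have : M ^ 5 = (M * M) * (M * M) * M := by simp only [pow_succ, pow_zero, Matrix.one_mul, Matrix.mul_assoc]
          rw [this, hMM, hNN, hM'M]
        have hxn : ∀ z : F, x.1 ≠ z • (1 : Matrix (Fin 4) (Fin 4) F) := by
          intro z hz
          have e3 : M 2 3 = (z • (1 : Matrix (Fin 4) (Fin 4) F)) 2 3 := congrFun (congrFun hz 2) 3
          simp [M] at e3
        obtain ⟨g, -, hg⟩ := hall x (mem_SL_iff.2 hdet) hx5 hxn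
        have h50 := h.five_contra hg (by rw [conj_pow_eq, hx5]; group) (nonscalar_conj hxn) hη
          (by rw [tr_conj]; show M.trace = _; simp [M, Matrix.trace, Fin.sum_univ_four]; norm_num)
          (by rw [inv_conj, tr_conj]; show M'.trace = _; simp [M', Matrix.trace, Fin.sum_univ_four]; norm_num)
        have := (CharP.cast_eq_zero_iff F p 5).1 (by exact_mod_cast h50)
        exact hp5 ((Nat.prime_dvd_prime_iff_eq hp.out (by norm_num)).1 this)
    · obtain ⟨x, hx, hxr, hxn⟩ := exists_order (m := 4) hdvd (fun x hx z hz => scalar_SL hx hz) (by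
        intro h
        have h1 : r ∣ 2 ^ 2 := h
        exact hr2 ((Nat.prime_dvd_prime_iff_eq hr.out Nat.prime_two).1 (hr.out.dvd_of_dvd_pow h1)))
      obtain ⟨g, -, hg⟩ := hall x hx hxr hxn
      rcases h.card_cases hodd (hyr _ (by rw [conj_pow_eq, hxr]; group)) hg (nonscalar_conj hxn) with ⟨-, h1⟩ | ⟨-, h1⟩
      · omega
      · omega

theorem dec_same : ∀ e e' : Fin 4 → Fin 2, (e 0).1 + (e 1).1 + (e 2).1 + (e 3).1 = (e' 0).1 + (e' 1).1 + (e' 2).1 + (e' 3).1 →
    ∃ π : Equiv.Perm (Fin 4), ∀ i, e (π i) = e' i := by decide +kernel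

theorem dec_opp : ∀ e e' : Fin 4 → Fin 2, (e 0).1 + (e 1).1 + (e 2).1 + (e 3).1 + ((e' 0).1 + (e' 1).1 + (e' 2).1 + (e' 3).1) = 4 →
    ∃ π : Equiv.Perm (Fin 4), ∀ i, e (π i) = 1 + e' i := by decide +kernel

theorem dec_const : ∀ e : Fin 4 → Fin 2, ((e 0).1 + (e 1).1 + (e 2).1 + (e 3).1 = 0 ∨ (e 0).1 + (e 1).1 + (e 2).1 + (e 3).1 = 4) →
    ∀ i, e i = e 0 := by decide +kernel

theorem trace_of_diag {n : ℕ} {M : Matrix (Fin n) (Fin n) F} {P : GL (Fin n) F} {u : Fin n → F}
    (hx : M * P.1 = P.1 * Matrix.diagonal u) : M.trace = ∑ i, u i := by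
  have h1 : P.1 * (P⁻¹).1 = 1 := by rw [← Units.val_mul, mul_inv_cancel]; rfl
  have h2 : (P⁻¹).1 * P.1 = 1 := by rw [← Units.val_mul, inv_mul_cancel]; rfl
  have h3 : M = P.1 * Matrix.diagonal u * (P⁻¹).1 := by rw [← hx, Matrix.mul_assoc, h1, Matrix.mul_one]
  rw [h3, Matrix.trace_mul_comm, ← Matrix.mul_assoc, h2, Matrix.one_mul, Matrix.trace_diagonal]

theorem sum_e (e : Fin 4 → Fin 2) (c : F) : ∑ j, c * (-1 : F) ^ (e j).1 = c * (4 - 2 * (((e 0).1 + (e 1).1 + (e 2).1 + (e 3).1 : ℕ) : F)) := by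
  have h1 : ∀ k : Fin 2, (-1 : F) ^ k.1 = 1 - 2 * (k.1 : F) := by
    intro k
    fin_cases k
    · simp
    · simp; norm_num
  rw [Fin.sum_univ_four, h1, h1, h1, h1]
  push_cast
  ring

/-- the number of eigenvalues `-1` -/
theorem count_of_trace {p : ℕ} [hp : Fact p.Prime] [CharP F p] (hp5 : 5 ≤ p) {M : Matrix (Fin 4) (Fin 4) F} {P : GL (Fin 4) F} {e : Fin 4 → Fin 2}
    (hx : M * P.1 = P.1 * Matrix.diagonal (fun j => (1 : F) * (-1) ^ (e j).1)) {k : ℕ} (hk : k ≤ 4) (ht : M.trace = 4 - 2 * (k : F)) :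
    (e 0).1 + (e 1).1 + (e 2).1 + (e 3).1 = k := by
  have h1 := trace_of_diag hx
  rw [sum_e, ht, one_mul] at h1
  have h2 : (2 : F) ≠ 0 := by
    intro h
    have := (CharP.cast_eq_zero_iff F p 2).1 (by exact_mod_cast h)
    have := Nat.le_of_dvd (by norm_num) this
    omega
  have h3 : ((k : ℕ) : F) = (((e 0).1 + (e 1).1 + (e 2).1 + (e 3).1 : ℕ) : F) := by
    apply mul_left_cancel₀ h2
    linear_combination -h1
  have h4 := CharP.natCast_injOn_Iio F p (show k ∈ Set.Iio p by simp; omega)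
    (show (e 0).1 + (e 1).1 + (e 2).1 + (e 3).1 ∈ Set.Iio p by simp; omega) h3
  exact h4.symm

/-- the case `r = 2` -/
theorem pos_two [Fintype F] {p : ℕ} [hp : Fact p.Prime] [CharP F p] (hp4 : p % 4 = 1)
    {R : Subgroup (GL (Fin 4) F)} (h : XR R) {i : F} (hi : i ^ 2 = -1) {I : GL (Fin 4) F} (hI : I ∈ R) (hIi : I.1 = i • (1 : Matrix (Fin 4) (Fin 4) F))
    {a b c d : GL (Fin 4) F} (hq : Quad R a b c d) {x : GL (Fin 4) F} (hx : x ∈ Cfsg.Geo.specialLinear (Fin 4) F) {z : F}
    (hz : x.1 ^ 2 = z • (1 : Matrix (Fin 4) (Fin 4) F)) (hxn : ∀ z : F, x.1 ≠ z • (1 : Matrix (Fin 4) (Fin 4) F)) :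
    ∃ g ∈ Cfsg.Geo.specialLinear (Fin 4) F, g⁻¹ * x * g ∈ Subgroup.normalizer (R : Set (GL (Fin 4) F)) := by
  have hp5 : 5 ≤ p := by have := hp.out.two_le; omega
  have h2 := h.char
  have hdx := mem_SL_iff.1 hx
  have hz4 : z ^ 4 = 1 := by
    have h1 := congrArg Matrix.det hz
    rw [Matrix.det_pow, hdx, one_pow, Matrix.det_smul, Matrix.det_one, mul_one, Fintype.card_fin] at h1
    exact h1.symm
  have hz0 : z ≠ 0 := by rintro rfl; norm_num at hz4
  have hi0 : i ≠ 0 := by rintro rfl; norm_num at hi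
  have hIc : ∀ w, I * w = w * I := by
    intro w
    apply Units.ext
    show I.1 * w.1 = w.1 * I.1
    rw [hIi]; simp
  have hII : I * I = -1 := by
    apply Units.ext
    show I.1 * I.1 = -1
    rw [hIi, Matrix.smul_mul, Matrix.mul_smul, smul_smul, ← pow_two, hi, Matrix.one_mul, neg_one_smul]
  have hneg : IsPrimitiveRoot (-1 : F) 2 := IsPrimitiveRoot.neg_one p (by rintro rfl; omega)
  obtain ⟨t, ht⟩ : ∃ t : F, t ^ 2 = z := by
    by_contra hcon
    push Not at hcon
    have hT : (Matrix.toLin' x.1) ^ 2 = z • (1 : Module.End F (Fin 4 → F)) := by rw [tl_pow, hz, toLin_smul_one]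
    obtain ⟨k, hk, hdet⟩ := detC Nat.prime_two hcon 4 (Matrix.toLin' x.1) hT (by simp)
    have hk2 : k = 2 := by omega
    rw [LinearMap.det_toLin', hdx, hk2] at hdet
    have h5 : (z - 1) * (z + 1) = 0 := by linear_combination -hdet
    rcases mul_eq_zero.1 h5 with h6 | h6
    · exact hcon 1 (by rw [sub_eq_zero.1 h6]; ring)
    · exact hcon i (by rw [hi]; linear_combination -h6)
  have ht0 : t ≠ 0 := by rintro rfl; rw [zero_pow (by norm_num)] at ht; exact hz0 ht.symm
  obtain ⟨Q, e, hQ⟩ := exists_diag_mat (by exact_mod_cast h2) hneg ht0 (M := x.1) (by rw [hz, ht])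
  -- the element with one eigenvalue
  obtain ⟨P, hP, hPP, hP1⟩ := h.exists_cz (x := c) (y := I * a) hq.hc (mul_mem hI hq.ha) (by
    rw [← mul_assoc, ← hIc, mul_assoc, ← hq.ac, mul_assoc]) hq.cc (by
    have e1 : (I * a) * (I * a) = (I * I) * (a * a) := by
      rw [mul_assoc, ← mul_assoc a, ← hIc a, mul_assoc, mul_assoc]
    rw [e1, hII, hq.aa, neg_mul_neg, one_mul])
  have tc : c.1.trace = 0 := trace_of_anti h2 hq.cd
  have hIaB : (I * a) * b = -(b * (I * a)) := by
    rw [mul_assoc, hq.ab, mul_neg, ← mul_assoc, hIc b, mul_assoc]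
  have tIa : (I * a).1.trace = 0 := trace_of_anti h2 hIaB
  have tcIa : (c * (I * a)).1.trace = 0 := by
    apply trace_of_anti h2 (y := b)
    rw [mul_assoc, hIaB, mul_neg, ← mul_assoc, ← hq.bc, mul_assoc]
  have tP : P.1.trace = 4 - 2 * ((1 : ℕ) : F) := by
    rw [hP1, Matrix.trace_smul, Matrix.trace_sub, Matrix.trace_add, Matrix.trace_add, Matrix.trace_one, tc, tIa]
    have : (c.1 * (I * a).1).trace = 0 := tcIa
    rw [this, Fintype.card_fin, smul_eq_mul]
    push_cast
    have e22 : (2 : F)⁻¹ * 2 = 1 := inv_mul_cancel₀ h2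
    linear_combination 2 * e22
  obtain ⟨QP, eP, hQP⟩ := exists_diag_mat (by exact_mod_cast h2) hneg one_ne_zero (M := P.1) (by
    rw [one_pow, one_smul, pow_two]; exact congrArg Units.val hPP)
  have cP := count_of_trace hp5 hQP (by norm_num) tP
  obtain ⟨QC, eC, hQC⟩ := exists_diag_mat (by exact_mod_cast h2) hneg one_ne_zero (M := c.1) (by
    rw [one_pow, one_smul, pow_two]; exact congrArg Units.val hq.cc)
  have cC := count_of_trace hp5 (k := 2) hQC (by norm_num) (by rw [tc]; norm_num)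
  have main : ∀ (y : GL (Fin 4) F) (Qy : GL (Fin 4) F) (ey : Fin 4 → Fin 2) (s : F), s ≠ 0 → y ∈ Subgroup.normalizer (R : Set (GL (Fin 4) F)) →
      y.1 * Qy.1 = Qy.1 * Matrix.diagonal (fun j => (1 : F) * (-1) ^ (ey j).1) →
      (∃ π : Equiv.Perm (Fin 4), ∀ i, t * (-1) ^ (e (π i)).1 = s * (-1) ^ (ey i).1) →
      ∃ g ∈ Cfsg.Geo.specialLinear (Fin 4) F, g⁻¹ * x * g ∈ Subgroup.normalizer (R : Set (GL (Fin 4) F)) := by
    intro y Qy ey s hs hy hQy ⟨π, hπ⟩
    obtain ⟨y', hy'⟩ := exists_smul y hs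
    obtain ⟨g, hg, hgy⟩ := conj_SL_of_diag (by norm_num) hQ (y := y') (Q := Qy) (w := fun j => s * (-1) ^ (ey j).1) (by
      rw [hy', Matrix.smul_mul, hQy, ← Matrix.mul_smul]
      congr 1
      rw [← Matrix.diagonal_smul]
      congr 1
      funext j
      simp) π hπ
    exact ⟨g, hg, by rw [hgy]; exact norm_smul hs hy' hy⟩
  have hsum : (e 0).1 + (e 1).1 + (e 2).1 + (e 3).1 ≤ 4 := by omega
  by_cases h04 : (e 0).1 + (e 1).1 + (e 2).1 + (e 3).1 = 0 ∨ (e 0).1 + (e 1).1 + (e 2).1 + (e 3).1 = 4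
  · exfalso
    apply hxn (t * (-1) ^ (e 0).1)
    apply scalar_of_diag (P := Q)
    rw [hQ]
    congr 2
    funext j
    rw [dec_const e h04 j]
  push Not at h04
  have hcases : (e 0).1 + (e 1).1 + (e 2).1 + (e 3).1 = 1 ∨ (e 0).1 + (e 1).1 + (e 2).1 + (e 3).1 = 2 ∨ (e 0).1 + (e 1).1 + (e 2).1 + (e 3).1 = 3 := by omega
  rcases hcases with h1 | h1 | h1
  · obtain ⟨π, hπ⟩ := dec_same e eP (by rw [h1, cP])
    exact main P QP eP t ht0 hP hQP ⟨π, fun i => by rw [hπ]⟩
  · obtain ⟨π, hπ⟩ := dec_same e eC (by rw [h1, cC])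
    exact main c QC eC t ht0 (Subgroup.le_normalizer hq.hc) hQC ⟨π, fun i => by rw [hπ]⟩
  · obtain ⟨π, hπ⟩ := dec_opp e eP (by rw [h1, cP])
    refine main P QP eP (-t) (neg_ne_zero.2 ht0) hP hQP ⟨π, fun i => ?_⟩
    rw [hπ]
    have : ∀ k : Fin 2, (-1 : F) ^ (1 + k).1 = -(-1) ^ k.1 := by
      intro k; fin_cases k <;> simp
    rw [this]; ring

/-- the case `r = 3` -/
theorem pos_three [Fintype F] {p : ℕ} [hp : Fact p.Prime] [CharP F p] (hF : Fintype.card F = p) (hp3 : p % 3 = 2) (hp3' : p ≠ 3)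
    {R : Subgroup (GL (Fin 4) F)} (h : XR R) 
    {a b c d : GL (Fin 4) F} (ha : a ∈ R) (hb : b ∈ R) (hc : c ∈ R) (hd : d ∈ R) (hab : a * b = -(b * a)) (hcd : c * d = -(d * c))
    (hac : a * c = c * a) (had : a * d = d * a) (hbc : b * c = c * b) (hbd : b * d = d * b) (haa : a * a = -1) (hbb : b * b = -1)
    (hcc : c * c = -1) (hdd : d * d = -1)
    {x : GL (Fin 4) F} (hx : x ∈ Cfsg.Geo.specialLinear (Fin 4) F) {z : F}
    (hz : x.1 ^ 3 = z • (1 : Matrix (Fin 4) (Fin 4) F)) (hxn : ∀ z : F, x.1 ≠ z • (1 : Matrix (Fin 4) (Fin 4) F)) :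
    ∃ g ∈ Cfsg.Geo.specialLinear (Fin 4) F, g⁻¹ * x * g ∈ Subgroup.normalizer (R : Set (GL (Fin 4) F)) := by
  haveI : Fact (Nat.Prime 3) := ⟨Nat.prime_three⟩
  have hdx := mem_SL_iff.1 hx
  have hz4 : z ^ 4 = 1 := by
    have h1 := congrArg Matrix.det hz
    rw [Matrix.det_pow, hdx, one_pow, Matrix.det_smul, Matrix.det_one, mul_one, Fintype.card_fin] at h1
    exact h1.symm
  have hz0 : z ≠ 0 := by rintro rfl; norm_num at hz4
  have h3 : (3 : F) ≠ 0 := by
    intro h
    have := (CharP.cast_eq_zero_iff F p 3).1 (by exact_mod_cast h)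
    exact hp3' ((Nat.prime_dvd_prime_iff_eq hp.out Nat.prime_three).1 this)
  have hirr := irr3 (F := F) hF hp3 hp3'
  obtain ⟨t, ht0, ht⟩ := Cfsg.Agent.Lib.ElusiveTool.exists_rth_root (F := F) Nat.prime_three (by
    rw [hF]
    have h1 : ((p : ℕ) : ZMod 3) = ((2 : ℕ) : ZMod 3) := by
      rw [ZMod.natCast_eq_natCast_iff']; omega
    rw [h1, ord23]; norm_num) z hz0
  obtain ⟨P, hP, -, hPq, hPc⟩ := h.exists_three ha hb hab haa hbb
  obtain ⟨Q, hQ, -, hQq, hQc⟩ := h.exists_three hc hd hcd hcc hdd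
  have hPC : P * c = c * P := hPc c hac hbc
  have hPD : P * d = d * P := hPc d had hbd
  have hQA : Q * a = a * Q := hQc a hac.symm had.symm
  have hQB : Q * b = b * Q := hQc b hbc.symm hbd.symm
  have hQP : Q * P = P * Q := hQc P hPC.symm hPD.symm
  have cube : ∀ S : GL (Fin 4) F, S.1 * S.1 + S.1 + 1 = 0 → S ^ 3 = 1 := by
    intro S hS
    apply Units.ext
    rw [Units.val_pow_eq_pow_val, Units.val_one]
    have e1 : S.1 * (S.1 * S.1 + S.1 + 1) = 0 := by rw [hS, Matrix.mul_zero]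
    rw [Matrix.mul_add, Matrix.mul_add, Matrix.mul_one] at e1
    have e2 : S.1 ^ 3 = S.1 * (S.1 * S.1) := by simp only [pow_succ, pow_zero, Matrix.one_mul, Matrix.mul_assoc]
    rw [e2]
    have e3 : S.1 * (S.1 * S.1) - 1 = (S.1 * (S.1 * S.1) + S.1 * S.1 + S.1) - (S.1 * S.1 + S.1 + 1) := by abel
    rw [e1, hS, sub_zero] at e3
    exact sub_eq_zero.1 e3
  have hP3 := cube P hPq
  have hQ3 := cube Q hQq
  have toq : ∀ S : GL (Fin 4) F, S.1 * S.1 + S.1 + 1 = 0 → (Matrix.toLin' S.1) * (Matrix.toLin' S.1) + Matrix.toLin' S.1 + 1 = 0 := by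
    intro S hS
    have := congrArg Matrix.toLin' hS
    rw [map_add, map_add, Matrix.toLin'_mul, Matrix.toLin'_one, map_zero] at this
    exact this
  have fromq : ∀ S : GL (Fin 4) F, (Matrix.toLin' S.1) * (Matrix.toLin' S.1) + Matrix.toLin' S.1 + 1 = 0 → S.1 * S.1 + S.1 + 1 = 0 := by
    intro S hS
    apply Matrix.toLin'.injective
    rw [map_add, map_add, Matrix.toLin'_mul, Matrix.toLin'_one, map_zero]
    exact hS
  -- Q is not P or P⁻¹
  have hbad : Q * c = c * Q → Q * d = d * Q → False := by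
    intro e1 e2
    obtain ⟨s, hs⟩ := scalar_of_comm4 h.char h.dim hab hcd hac had hbc hbd haa hbb (Or.inr hcc) (Or.inr hdd)
      (congrArg Units.val hQA) (congrArg Units.val hQB) (congrArg Units.val e1) (congrArg Units.val e2)
    rw [hs, Matrix.smul_mul, Matrix.mul_smul, Matrix.one_mul, smul_smul] at hQq
    have e3 := congrFun (congrFun hQq 0) 0
    simp at e3
    exact no_root3 hF hp3 h3 s (by rw [pow_two]; exact e3)
  have hPQ3 : (P * Q) ^ 3 = 1 := by
    have e1 : (P * Q) ^ 3 = P ^ 3 * Q ^ 3 := (show Commute P Q from hQP.symm).mul_pow 3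
    rw [e1, hP3, hQ3, one_mul]
  have hPQdim : finrank F (E (Matrix.toLin' (P * Q).1) 1) = 2 := by
    have hT : (Matrix.toLin' (P * Q).1) ^ 3 = 1 := by
      rw [tl_pow, ← Units.val_pow_eq_pow_val, hPQ3, Units.val_one, Matrix.toLin'_one]; rfl
    obtain ⟨k, hk⟩ := Cfsg.Agent.Lib.CycConj.finrank_E_cyc (by exact_mod_cast h3) hirr hT
    rw [Module.finrank_fin_fun] at hk
    have hk3 : k = 0 ∨ k = 1 ∨ k = 2 := by omega
    rcases hk3 with rfl | rfl | rfl
    · exfalso
      have e1 := eq_smul_of_finrank (T := Matrix.toLin' (P * Q).1) (one_ne_zero (α := F)) (by rw [inv_one, one_smul, Module.finrank_fin_fun]; omega)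
      have e2 : P * Q = 1 := by
        apply Units.ext
        apply Matrix.toLin'.injective
        rw [e1, one_smul, Units.val_one, Matrix.toLin'_one]; rfl
      have e3 : Q = P⁻¹ := (inv_eq_of_mul_eq_one_right e2).symm
      apply hbad
      · rw [e3, inv_mul_eq_iff_eq_mul, ← mul_assoc, hPC, mul_assoc, mul_inv_cancel, mul_one]
      · rw [e3, inv_mul_eq_iff_eq_mul, ← mul_assoc, hPD, mul_assoc, mul_inv_cancel, mul_one]
    · omega
    · exfalso
      have e1 := fromq _ (quad_of_finrank hT (by omega))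
      -- (PQ)² + PQ + 1 = 0
      have e2 : (P * Q).1 * (P * Q).1 = (P.1 * P.1) * (Q.1 * Q.1) := by
        have : (P * Q) * (P * Q) = (P * P) * (Q * Q) := by
          rw [mul_assoc, ← mul_assoc Q, hQP, mul_assoc, mul_assoc]
        exact congrArg Units.val this
      have eP : P.1 * P.1 = -P.1 - 1 := by
        have : P.1 * P.1 = (P.1 * P.1 + P.1 + 1) - P.1 - 1 := by abel
        rw [this, hPq, zero_sub]
      have eQ : Q.1 * Q.1 = -Q.1 - 1 := by
        have : Q.1 * Q.1 = (Q.1 * Q.1 + Q.1 + 1) - Q.1 - 1 := by abel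
        rw [this, hQq, zero_sub]
      rw [e2, eP, eQ] at e1
      have e3 : (P * Q).1 = P.1 * Q.1 := rfl
      rw [e3] at e1
      have e4 : (2 : F) • (1 : Matrix (Fin 4) (Fin 4) F) + P.1 + Q.1 + (2 : F) • (P.1 * Q.1) = 0 := by
        rw [← e1, two_smul, two_smul]
        noncomm_ring
      have e5 : P.1 * ((2 : F) • (1 : Matrix (Fin 4) (Fin 4) F) + P.1 + Q.1 + (2 : F) • (P.1 * Q.1)) = 0 := by rw [e4, Matrix.mul_zero]
      have e6 : P.1 * ((2 : F) • (1 : Matrix (Fin 4) (Fin 4) F) + P.1 + Q.1 + (2 : F) • (P.1 * Q.1)) =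
          P.1 - 1 - P.1 * Q.1 - (2 : F) • Q.1 := by
        have : P.1 * (P.1 * Q.1) = (P.1 * P.1) * Q.1 := by rw [Matrix.mul_assoc]
        rw [Matrix.mul_add, Matrix.mul_add, Matrix.mul_add, Matrix.mul_smul, Matrix.mul_smul, Matrix.mul_one, this, eP]
        rw [Matrix.sub_mul, Matrix.neg_mul, Matrix.one_mul, two_smul, two_smul, two_smul]
        abel
      have e7 : (3 : F) • (P.1 - Q.1) = 0 := by
        have e8 : (3 : F) • (P.1 - Q.1) = ((2 : F) • (1 : Matrix (Fin 4) (Fin 4) F) + P.1 + Q.1 + (2 : F) • (P.1 * Q.1)) +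
            (2 : F) • (P.1 - 1 - P.1 * Q.1 - (2 : F) • Q.1) := by
          module
        rw [e8, e4, ← e6, e5, smul_zero, add_zero]
      have e9 : P = Q := Units.ext (sub_eq_zero.1 ((smul_eq_zero.1 e7).resolve_left h3))
      exact hbad (by rw [← e9]; exact hPC) (by rw [← e9]; exact hPD)
  have hT : (t⁻¹ • Matrix.toLin' x.1) ^ 3 = 1 := by
    rw [_root_.smul_pow, tl_pow, hz, toLin_smul_one, smul_smul, ← ht, ← mul_pow, inv_mul_cancel₀ ht0, one_pow, one_smul]
  obtain ⟨k, hk⟩ := Cfsg.Agent.Lib.CycConj.finrank_E_cyc (by exact_mod_cast h3) hirr hT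
  rw [Module.finrank_fin_fun] at hk
  have hk3 : k = 0 ∨ k = 1 ∨ k = 2 := by omega
  have fin : ∀ y : GL (Fin 4) F, y ∈ Subgroup.normalizer (R : Set (GL (Fin 4) F)) → y ^ 3 = 1 →
      finrank F (E (t⁻¹ • Matrix.toLin' x.1) 1) = finrank F (E (Matrix.toLin' y.1) 1) →
      ∃ g ∈ Cfsg.Geo.specialLinear (Fin 4) F, g⁻¹ * x * g ∈ Subgroup.normalizer (R : Set (GL (Fin 4) F)) := by
    intro y hy hy3 he
    obtain ⟨g, hg, hgy⟩ := conj_cyc (p := p) (r := 3) (by norm_num) (fun h => hp3' h.symm) hirr ht0 (by rw [hz, ht])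
      (by rw [← Units.val_pow_eq_pow_val, hy3, Units.val_one]) he
    exact ⟨g, hg, norm_smul ht0 hgy hy⟩
  rcases hk3 with rfl | rfl | rfl
  · exfalso
    have e1 := eq_smul_of_finrank ht0 (T := Matrix.toLin' x.1) (by rw [Module.finrank_fin_fun]; omega)
    apply hxn t
    apply Matrix.toLin'.injective
    rw [e1, toLin_smul_one]
  · exact fin (P * Q) (mul_mem hP hQ) hPQ3 (by rw [hPQdim]; omega)
  · exact fin P hP hP3 (by rw [finrank_zero_of_quad h3 (toq P hPq)]; omega)

/-- the case `r = 5` -/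
theorem pos_five [Fintype F] {p : ℕ} [hp : Fact p.Prime] [CharP F p] (hF : Fintype.card F = p) (hp5 : orderOf (p : ZMod 5) = 4)
    {R : Subgroup (GL (Fin 4) F)} (h : XR R) {a b c d : GL (Fin 4) F} (hq : Quad R a b c d)
    {x : GL (Fin 4) F} (hx : x ∈ Cfsg.Geo.specialLinear (Fin 4) F) {z : F}
    (hz : x.1 ^ 5 = z • (1 : Matrix (Fin 4) (Fin 4) F)) (hxn : ∀ z : F, x.1 ≠ z • (1 : Matrix (Fin 4) (Fin 4) F)) :
    ∃ g ∈ Cfsg.Geo.specialLinear (Fin 4) F, g⁻¹ * x * g ∈ Subgroup.normalizer (R : Set (GL (Fin 4) F)) := by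
  haveI : Fact (Nat.Prime 5) := ⟨by norm_num⟩
  have hdx := mem_SL_iff.1 hx
  have hz4 : z ^ 4 = 1 := by
    have h1 := congrArg Matrix.det hz
    rw [Matrix.det_pow, hdx, one_pow, Matrix.det_smul, Matrix.det_one, mul_one, Fintype.card_fin] at h1
    exact h1.symm
  have hz0 : z ≠ 0 := by rintro rfl; norm_num at hz4
  have hp5' : (5 : ℕ) ≠ p := by
    rintro rfl
    have h0 : ((5 : ℕ) : ZMod 5) = 0 := ZMod.natCast_self 5
    rw [h0, orderOf_zero] at hp5
    omega
  have h5 : (5 : F) ≠ 0 := by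
    intro h
    have := (CharP.cast_eq_zero_iff F p 5).1 (by exact_mod_cast h)
    exact hp5' ((Nat.prime_dvd_prime_iff_eq hp.out (by norm_num)).1 this).symm
  have hirr : Irreducible (cyclotomic 5 F) := Cfsg.Agent.Lib.ExtField.irr_cyclotomic (p := p) (r := 5) hp5' (by rw [hF, hp5])
  obtain ⟨P, Q, S, T, -, -, -, -, hy, ⟨s, hs⟩, hyn⟩ := h.exists_five hq rfl
  set y := P * Q * S * T with hyd
  rw [Units.val_pow_eq_pow_val] at hs
  have hs0 : s ≠ 0 := by
    rintro rfl
    rw [zero_smul, ← Units.val_pow_eq_pow_val] at hs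
    exact (y ^ 5).isUnit.ne_zero hs
  obtain ⟨t, ht0, ht⟩ := Cfsg.Agent.Lib.ElusiveTool.exists_rth_root (F := F) (r := 5) (by norm_num) (by rw [hF, hp5]; norm_num) s hs0
  obtain ⟨y', hy'⟩ := exists_smul y (inv_ne_zero ht0)
  have hy'5 : y'.1 ^ 5 = 1 := by
    rw [hy', _root_.smul_pow, hs, smul_smul, ← ht, ← mul_pow, inv_mul_cancel₀ ht0, one_pow, one_smul]
  have dimy : finrank F (E (Matrix.toLin' y'.1) 1) = 0 := by
    have e1 := finrank_five (V := Fin 4 → F) (by simp) h5 hirr (T := Matrix.toLin' y.1) ht0 (by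
      rw [← map_smul, ← hy', tl_pow, hy'5, Matrix.toLin'_one]; rfl) (by
      intro e
      apply hyn t
      apply Matrix.toLin'.injective
      rw [e, toLin_smul_one])
    rw [← map_smul, ← hy'] at e1
    exact e1
  have dimx : finrank F (E (z⁻¹ • Matrix.toLin' x.1) 1) = 0 := by
    refine finrank_five (V := Fin 4 → F) (by simp) h5 hirr (T := Matrix.toLin' x.1) hz0 ?_ ?_
    · rw [_root_.smul_pow, tl_pow, hz, toLin_smul_one, smul_smul]
      have : z⁻¹ ^ 5 * z = 1 := by
        have : z⁻¹ ^ 5 * z = (z ^ 4)⁻¹ := by field_simp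
        rw [this, hz4, inv_one]
      rw [this, one_smul]
    · intro e
      apply hxn z
      apply Matrix.toLin'.injective
      rw [e, toLin_smul_one]
  obtain ⟨g, hg, hgy⟩ := conj_cyc (p := p) (r := 5) (by norm_num) hp5' hirr hz0 (x := x) (y := y') (by
    rw [hz]
    have : z ^ 5 = z := by rw [pow_succ, hz4, one_mul]
    rw [this]) hy'5 (by rw [dimx, dimy])
  refine ⟨g, hg, norm_smul (c := z * t⁻¹) (mul_ne_zero hz0 (inv_ne_zero ht0)) ?_ hy⟩
  rw [hgy, hy', smul_smul]
end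

/-- Elements of prime order of PSL_4(p), p ≡ 1 (mod 4), and the normalizer of a 2-group of symplectic type of order 2⁶. Here `T = PSL_4(F)` for the field `F` with `p` elements, `p` a prime with `p ≡ 1 (mod 4)`; `R` is an absolutely irreducible subgroup of GL_4(F) of order 2⁶ that is a 2-group of symplectic type of exponent 4 with centre of order 4 (the central product of the scalars of order 4 with an extraspecial group 2^{1+4}), and `H` is the subgroup of matrices of determinant 1 normalizing `R` — a subgroup of type 2⁴.Sp₄(2) (maximality is not assumed). Ω is the set of cosets of `H` in `T`, so an element of `T` of prime order `r` (a matrix `x` of determinant 1 with `x^r` scalar, `x` not scalar) fixes a point of Ω exactly when some conjugate of `x` by a matrix of determinant 1 normalizes `R`. Let `r` be a prime dividing the index of `H`. Then every element of `T` of order `r` fixes a point of Ω if and only if `r = 2`, or `r = 3` and `p ≡ 2 (mod 3)`,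 or `r = 5` and `p ≡ ±2 (mod 5)` (`p` has multiplicative order 4 modulo 5). -/
theorem result {F : Type*} [Field F] [Fintype F] {p : ℕ} [Fact p.Prime] [CharP F p] (hF : Fintype.card F = p) (hp4 : p % 4 = 1)
    (R : Subgroup (GL (Fin 4) F)) (hR : Cfsg.Geo.IsLinearSymplecticTypeData 2 R) (hR6 : Nat.card R = 2 ^ 6)
    (r : ℕ) [Fact r.Prime]
    (hΩ : r ∣ (Cfsg.Geo.subgroupNormalizer R).relIndex (Cfsg.Geo.specialLinear (Fin 4) F)) :
    (∀ x ∈ Cfsg.Geo.specialLinear (Fin 4) F, (∃ z : F, ((x ^ r : GL (Fin 4) F) : Matrix (Fin 4) (Fin 4) F) = z • (1 : Matrix (Fin 4) (Fin 4) F)) →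
      (∀ z : F, (x : Matrix (Fin 4) (Fin 4) F) ≠ z • (1 : Matrix (Fin 4) (Fin 4) F)) →
      ∃ g ∈ Cfsg.Geo.specialLinear (Fin 4) F, g⁻¹ * x * g ∈ Cfsg.Geo.subgroupNormalizer R) ↔ (r = 2 ∨ (r = 3 ∧ p % 3 = 2) ∨ (r = 5 ∧ orderOf (p : ZMod 5) = 4)) := by
  obtain ⟨h, hZ⟩ := XRdata (p := p) hp4 hR hR6
  obtain ⟨i, hi⟩ : ∃ i : F, i ^ 2 = -1 := by
    have h1 : IsSquare (-1 : ZMod p) := ZMod.exists_sq_eq_neg_one_iff.2 (by omega)
    obtain ⟨j, hj⟩ := h1
    refine ⟨ZMod.castHom (dvd_refl p) F j, ?_⟩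
    rw [pow_two, ← map_mul, ← hj, map_neg, map_one]
  obtain ⟨I, hI, hIi⟩ := exists_I h hZ hi
  obtain ⟨a, b, c, d, hq⟩ := exists_Quad h hR.symplecticType hi hI hIi
  constructor
  · intro hall
    refine neg_dir hF hp4 h (hΩ.trans (Subgroup.relIndex_dvd_card _ _)) (fun x hx hxr hxn => ?_)
    exact hall x hx ⟨1, by rw [hxr, one_smul]; rfl⟩ hxn
  · intro hcase x hx ⟨z, hz⟩ hxn
    rw [Units.val_pow_eq_pow_val] at hz
    rcases hcase with rfl | ⟨rfl, hp3⟩ | ⟨rfl, hp5⟩
    · exact pos_two hp4 h hi hI hIi hq hx hz hxn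
    · have hIc : ∀ w, I * w = w * I := by
        intro w
        apply Units.ext
        show I.1 * w.1 = w.1 * I.1
        rw [hIi]; simp
      have hII : I * I = -1 := by
        apply Units.ext
        show I.1 * I.1 = -1
        rw [hIi, Matrix.smul_mul, Matrix.mul_smul, smul_smul, ← pow_two, hi, Matrix.one_mul, neg_one_smul]
      have h1c : ∀ w : GL (Fin 4) F, 1 * w = w * 1 := by intro w; rw [one_mul, mul_one]
      have sq : ∀ u : GL (Fin 4) F, u * u = 1 → (I * u) * (I * u) = -1 := by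
        intro u hu
        have e1 : (I * u) * (I * u) = (I * I) * (u * u) := by
          rw [mul_assoc, ← mul_assoc u, ← hIc u, mul_assoc, mul_assoc]
        rw [e1, hII, hu, mul_one]
      refine pos_three (F := F) (p := p) hF hp3 (by rintro rfl; omega) h hq.ha hq.hb (mul_mem hI hq.hc) (mul_mem hI hq.hd) hq.ab
        (anti_scale hIc hIc hq.cd) ?_ ?_ ?_ ?_ hq.aa hq.bb (sq _ hq.cc) (sq _ hq.dd) hx hz hxn
      · have := comm_scale h1c hIc hq.ac; simpa using this
      · have := comm_scale h1c hIc hq.ad; simpa using this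
      · have := comm_scale h1c hIc hq.bc; simpa using this
      · have := comm_scale h1c hIc hq.bd; simpa using this
    · exact pos_five hF hp5 h hq hx hz hxn

end Cfsg.Agent.S6000
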