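import Cfsg.Statements.S5999
import Cfsg.Agent.Lib.UniTool2
import Cfsg.Agent.Lib.XR7
import Cfsg.Agent.S5998
import Cfsg.Agent.S6000

set_option autoImplicit false
open scoped MatrixGroups
open Cfsg

namespace Cfsg.Agent.S5999

open Cfsg.Agent.Lib.XR Cfsg.Agent.Lib.DiagTool Cfsg.Agent.Lib.NormTool Cfsg.Agent.Lib.UniTool Module Matrix Cfsg.Agent.S5998
open Cfsg.Agent.Lib.ClUnitary (frob)
open Cfsg.Agent.Lib.UnitStar (st)

section

variable {F : Type*} [Field F] [Fintype F] {n q : ℕ}

theorem star_norm (hF : Fintype.card F = q ^ 2) {R : Subgroup (GL (Fin n) F)} (hRU : R ≤ Cfsg.GU n F q) {y : GL (Fin n) F}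
    (hy : y ∈ Subgroup.normalizer (R : Set (GL (Fin n) F))) {w : GL (Fin n) F} (hw : w ∈ R) :
    (st (frob hF) y.1 * y.1) * w.1 = w.1 * (st (frob hF) y.1 * y.1) := by
  set w' := y * w * y⁻¹ with hw'
  have hw'R : w' ∈ R := (Subgroup.mem_normalizer_iff.1 hy w).1 hw
  have e1 : y.1 * w.1 = w'.1 * y.1 := by
    have : y * w = w' * y := by rw [hw']; group
    exact congrArg Units.val this
  have e2 := congrArg (st (frob hF)) e1
  rw [Cfsg.Agent.Lib.UnitStar.st_mul, Cfsg.Agent.Lib.UnitStar.st_mul, st_eq_inv hF (hRU hw), st_eq_inv hF (hRU hw'R)] at e2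
  have a1 : w.1 * (w⁻¹).1 = 1 := by rw [← Units.val_mul, mul_inv_cancel]; rfl
  have a2 : (w'⁻¹).1 * w'.1 = 1 := by rw [← Units.val_mul, inv_mul_cancel]; rfl
  have e3 : st (frob hF) y.1 * w'.1 = w.1 * st (frob hF) y.1 := by
    calc st (frob hF) y.1 * w'.1 = (w.1 * (w⁻¹).1) * st (frob hF) y.1 * w'.1 := by rw [a1, Matrix.one_mul]
      _ = w.1 * ((w⁻¹).1 * st (frob hF) y.1) * w'.1 := by simp only [Matrix.mul_assoc]
      _ = w.1 * st (frob hF) y.1 * ((w'⁻¹).1 * w'.1) := by rw [e2]; simp only [Matrix.mul_assoc]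
      _ = _ := by rw [a2, Matrix.mul_one]
  rw [Matrix.mul_assoc, e1, ← Matrix.mul_assoc, e3, Matrix.mul_assoc]

/-- elements of the normalizer conjugate to unitary elements of nonzero trace are unitary -/
theorem gu_of_norm (hF : Fintype.card F = q ^ 2) {R : Subgroup (GL (Fin n) F)} (hRU : R ≤ Cfsg.GU n F q)
    (hirr : ∀ M : Matrix (Fin n) (Fin n) F, (∀ w ∈ R, M * w.1 = w.1 * M) → ∃ c : F, M = c • (1 : Matrix (Fin n) (Fin n) F))
    {y x g : GL (Fin n) F} (hy : y ∈ Subgroup.normalizer (R : Set (GL (Fin n) F))) (hx : x ∈ Cfsg.GU n F q) (hg : g⁻¹ * x * g = y)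
    (ht : x.1.trace ≠ 0) : y ∈ Cfsg.GU n F q := by
  obtain ⟨l, hl⟩ := hirr _ (fun w hw => star_norm hF hRU hy hw)
  have h1 : y.1 * (y⁻¹).1 = 1 := by rw [← Units.val_mul, mul_inv_cancel]; rfl
  have h2 : st (frob hF) y.1 = l • (y⁻¹).1 := by
    calc st (frob hF) y.1 = (st (frob hF) y.1 * y.1) * (y⁻¹).1 := by rw [Matrix.mul_assoc, h1, Matrix.mul_one]
      _ = _ := by rw [hl, Matrix.smul_mul, Matrix.one_mul]
  have h3 := congrArg Matrix.trace h2
  rw [trace_st, Matrix.trace_smul, ← hg, tr_conj, inv_conj, tr_conj, trace_inv hF hx, smul_eq_mul] at h3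
  have h4 : l = 1 := by
    have h5 : x.1.trace ^ q ≠ 0 := pow_ne_zero _ ht
    apply mul_right_cancel₀ h5
    rw [← h3, one_mul]
  rw [mem_GU hF, hl, h4, one_smul]

omit [Fintype F] in
theorem irr_of_coord {R : Subgroup (GL (Fin 3) F)} (h3 : (3 : F) ≠ 0) {a b P : GL (Fin 3) F} {t : F}
    (ha : a ∈ R) (hb : b ∈ R) (ht : t ^ 2 + t + 1 = 0)
    (hA : a.1 * P.1 = P.1 * Matrix.diagonal ![1, t, t ^ 2]) (hB : b.1 * P.1 = P.1 * C3 F) (M : Matrix (Fin 3) (Fin 3) F)
    (hM : ∀ w ∈ R, M * w.1 = w.1 * M) : ∃ c : F, M = c • (1 : Matrix (Fin 3) (Fin 3) F) := by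
  have hPi : P.1 * (P⁻¹).1 = 1 := by rw [← Units.val_mul, mul_inv_cancel]; rfl
  have hiP : (P⁻¹).1 * P.1 = 1 := by rw [← Units.val_mul, inv_mul_cancel]; rfl
  have hgen : ∀ (w : GL (Fin 3) F) (N : Matrix (Fin 3) (Fin 3) F), w ∈ R → w.1 * P.1 = P.1 * N →
      ((P⁻¹).1 * M * P.1) * N = N * ((P⁻¹).1 * M * P.1) := by
    intro w N hw hN
    have hN' : N * (P⁻¹).1 = (P⁻¹).1 * w.1 := by
      calc N * (P⁻¹).1 = ((P⁻¹).1 * P.1) * N * (P⁻¹).1 := by rw [hiP, Matrix.one_mul]
        _ = (P⁻¹).1 * (P.1 * N) * (P⁻¹).1 := by simp only [Matrix.mul_assoc]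
        _ = (P⁻¹).1 * w.1 * (P.1 * (P⁻¹).1) := by rw [← hN]; simp only [Matrix.mul_assoc]
        _ = _ := by rw [hPi, Matrix.mul_one]
    calc ((P⁻¹).1 * M * P.1) * N = (P⁻¹).1 * M * (P.1 * N) := by simp only [Matrix.mul_assoc]
      _ = (P⁻¹).1 * (M * w.1) * P.1 := by rw [← hN]; simp only [Matrix.mul_assoc]
      _ = ((P⁻¹).1 * w.1) * M * P.1 := by rw [hM w hw]; simp only [Matrix.mul_assoc]
      _ = _ := by rw [← hN']; simp only [Matrix.mul_assoc]
  have h5 := scalar_of_comm ht h3 (hgen a _ ha hA) (hgen b _ hb hB)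
  refine ⟨((P⁻¹).1 * M * P.1) 0 0, ?_⟩
  set Y := (P⁻¹).1 * M * P.1 with hY
  calc M = (P.1 * (P⁻¹).1) * M * (P.1 * (P⁻¹).1) := by rw [hPi, Matrix.one_mul, Matrix.mul_one]
    _ = P.1 * Y * (P⁻¹).1 := by rw [hY]; simp only [Matrix.mul_assoc]
    _ = Y 0 0 • (P.1 * (P⁻¹).1) := by rw [h5]; simp
    _ = _ := by rw [hPi]

/-- the 3-part of the order of `SU_3(p)` -/
theorem val_threeU {p : ℕ} (hp3 : p % 3 = 2) (hp9 : p % 9 ≠ 8) : ¬ 81 ∣ p ^ 3 * ((p ^ 2 - 1) * (p ^ 3 + 1)) := by
  intro h
  have hp0 : 0 < p := by omega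
  have h1 : ((p ^ 3 * ((p ^ 2 - 1) * (p ^ 3 + 1)) : ℕ) : ZMod 81) = 0 := (ZMod.natCast_eq_zero_iff _ _).2 h
  rw [Nat.cast_mul, Nat.cast_mul, Nat.cast_sub (Nat.one_le_pow _ _ hp0), Nat.cast_pow, Nat.cast_pow] at h1
  have h2 : ∀ x : ZMod 81, x.val % 3 = 2 → x.val % 9 ≠ 8 → x ^ 3 * ((x ^ 2 - 1) * (x ^ 3 + 1)) ≠ 0 := by decide +kernel
  apply h2 (p : ZMod 81) _ _ (by exact_mod_cast h1)
  · rw [ZMod.val_natCast, Nat.mod_mod_of_dvd _ (by norm_num)]; exact hp3
  · rw [ZMod.val_natCast, Nat.mod_mod_of_dvd _ (by norm_num)]; exact hp9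

theorem card_GUSL : Nat.card ↥(Cfsg.GU n F q ⊓ Cfsg.Geo.specialLinear (Fin n) F) = Nat.card (Cfsg.SU n F q) := by
  apply Nat.card_congr
  refine ⟨fun x => ⟨⟨x.1.1, mem_SL_iff.1 x.2.2⟩, fun u v => x.2.1 u v⟩, fun x => ⟨Matrix.GeneralLinearGroup.mkOfDetNeZero x.1.1 (by rw [x.1.2]; exact one_ne_zero),
    ⟨fun u v => x.2 u v, mem_SL_iff.2 x.1.2⟩⟩, ?_, ?_⟩
  · intro x; exact Subtype.ext (Units.ext rfl)
  · intro x; exact Subtype.ext (Subtype.ext rfl)

end

/-- Elements of prime order of PSU_3(p), p ≡ 2 (mod 3), and the normalizer of an extraspecial subgroup of order 27. Here `T = PSU_3(p)` for a prime `p ≥ 5` with `p ≡ 2 (mod 3)`, realised through `SU_3(p)`, the matrices of determinant 1 over the field `F` with `p²` elements preserving the hermitian form `Σ uᵢvᵢ^p`; `R` is a non-abelian subgroup of order 27 and exponent 3 of the full unitary group of that form (an extraspecial group 3^{1+2}, acting absolutely irreducibly), and `H` is the subgroup of `SU_3(p)` normalizing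 `R` — a subgroup of type 3^{1+2}.Sp₂(3) (maximality is not assumed). Ω is the set of cosets of `H`, so an element of `T` of prime order `r` (`x ∈ SU_3(p)` with `x^r` scalar, `x` not scalar) fixes a point of Ω exactly when some `SU_3(p)`-conjugate of `x` normalizes `R`. Let `r` be a prime dividing the index of `H`. Then every element of `T` of order `r` fixes a point of Ω if and only if `r = 2`, or `r = 3` and `p ≡ 8 (mod 9)`. -/
theorem result {F : Type*} [Field F] [Fintype F] {p : ℕ} [Fact p.Prime] [CharP F p] (hF : Fintype.card F = p ^ 2) (hp : 5 ≤ p) (hp3 : p % 3 = 2)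
    (R : Subgroup (GL (Fin 3) F)) (hRU : R ≤ Cfsg.GU 3 F p) (hR : Nat.card R = 27) (hRe : Monoid.exponent R = 3) (hRna : ¬ IsMulCommutative R)
    (r : ℕ) [Fact r.Prime]
    (hΩ : r ∣ (Cfsg.Geo.subgroupNormalizer R).relIndex (Cfsg.GU 3 F p ⊓ Cfsg.Geo.specialLinear (Fin 3) F)) :
    (∀ x ∈ Cfsg.GU 3 F p ⊓ Cfsg.Geo.specialLinear (Fin 3) F, (∃ z : F, ((x ^ r : GL (Fin 3) F) : Matrix (Fin 3) (Fin 3) F) = z • (1 : Matrix (Fin 3) (Fin 3) F)) →
      (∀ z : F, (x : Matrix (Fin 3) (Fin 3) F) ≠ z • (1 : Matrix (Fin 3) (Fin 3) F)) →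
      ∃ g ∈ Cfsg.GU 3 F p ⊓ Cfsg.Geo.specialLinear (Fin 3) F, g⁻¹ * x * g ∈ Cfsg.Geo.subgroupNormalizer R) ↔ (r = 2 ∨ (r = 3 ∧ p % 9 = 8)) := by
  classical
  have hr : r.Prime := Fact.out
  have hpp : p.Prime := Fact.out
  have h3 : (3 : F) ≠ 0 := by
    intro h
    have := (CharP.cast_eq_zero_iff F p 3).1 (by exact_mod_cast h)
    have := (Nat.prime_dvd_prime_iff_eq hpp Nat.prime_three).1 this
    omega
  have h2 : (2 : F) ≠ 0 := by
    intro h
    have := (CharP.cast_eq_zero_iff F p 2).1 (by exact_mod_cast h)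
    have := (Nat.prime_dvd_prime_iff_eq hpp Nat.prime_two).1 this
    omega
  obtain ⟨ω, hω3, hω1⟩ := Cfsg.Agent.Lib.ElusiveTool.exists_root_of_order_one (F := F) Nat.prime_three (by
    rw [orderOf_eq_one_iff, hF]
    have h1 : ((p ^ 2 : ℕ) : ZMod 3) = ((1 : ℕ) : ZMod 3) := by
      rw [ZMod.natCast_eq_natCast_iff', Nat.pow_mod, hp3]
    rw [h1]; simp)
  have hω : ω ^ 2 + ω + 1 = 0 := by
    have : (ω - 1) * (ω ^ 2 + ω + 1) = 0 := by linear_combination hω3
    exact (mul_eq_zero.1 this).resolve_left (sub_ne_zero.2 hω1)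
  obtain ⟨a, b, P, t, ha, hb, hcl, ht, hA, hB, z₀, hz₀, hzt⟩ := struct h3 hω hR hRe hRna
  have ht0 : t ≠ 0 := by rintro rfl; norm_num at ht
  have ht3 : t ^ 3 = 1 := by linear_combination (t - 1) * ht
  have ht1 : t ≠ 1 := by rintro rfl; apply h3; linear_combination ht
  have htp : IsPrimitiveRoot t 3 := by
    rw [IsPrimitiveRoot.iff_orderOf]
    exact orderOf_eq_prime ht3 ht1
  haveI : Finite R := Nat.finite_of_card_ne_zero (by omega)
  have hirr := irr_of_coord h3 ha hb ht hA hB
  constructor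
  · intro hall
    by_contra hcon
    push Not at hcon
    obtain ⟨hr2, hr9⟩ := hcon
    by_cases hr3 : r = 3
    · subst hr3
      have hp9 := hr9 rfl
      have hRle : R ≤ Cfsg.Geo.subgroupNormalizer R ⊓ (Cfsg.GU 3 F p ⊓ Cfsg.Geo.specialLinear (Fin 3) F) := by
        apply le_inf Subgroup.le_normalizer
        apply le_inf hRU
        rw [← hcl, Subgroup.closure_le]
        rintro x (rfl | hx)
        · rw [SetLike.mem_coe, mem_SL_iff, det_of_diag hA]
          simp [Fin.prod_univ_three]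
          linear_combination ht3
        · rw [Set.mem_singleton_iff] at hx
          rw [hx, SetLike.mem_coe, mem_SL_iff]
          have hPdet : P.1.det ≠ 0 := ((Matrix.isUnit_iff_isUnit_det _).1 P.isUnit).ne_zero
          have h1 := congrArg Matrix.det hB
          rw [Matrix.det_mul, Matrix.det_mul, mul_comm] at h1
          have h4 := mul_left_cancel₀ hPdet h1
          rw [h4, Matrix.det_fin_three]
          simp [C3]
      have h27 : 27 ∣ Nat.card ↥(Cfsg.Geo.subgroupNormalizer R ⊓ (Cfsg.GU 3 F p ⊓ Cfsg.Geo.specialLinear (Fin 3) F)) := by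
        rw [← hR]; exact Subgroup.card_dvd_of_le hRle
      have hmul : Nat.card ↥(Cfsg.Geo.subgroupNormalizer R ⊓ (Cfsg.GU 3 F p ⊓ Cfsg.Geo.specialLinear (Fin 3) F)) *
          (Cfsg.Geo.subgroupNormalizer R).relIndex (Cfsg.GU 3 F p ⊓ Cfsg.Geo.specialLinear (Fin 3) F) = Nat.card ↥(Cfsg.GU 3 F p ⊓ Cfsg.Geo.specialLinear (Fin 3) F) := by
        rw [← Subgroup.inf_relIndex_right]
        have h5 := Subgroup.relIndex_mul_relIndex (⊥ : Subgroup (GL (Fin 3) F))
          (Cfsg.Geo.subgroupNormalizer R ⊓ (Cfsg.GU 3 F p ⊓ Cfsg.Geo.specialLinear (Fin 3) F)) (Cfsg.GU 3 F p ⊓ Cfsg.Geo.specialLinear (Fin 3) F) bot_le inf_le_right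
        rwa [Subgroup.relIndex_bot_left, Subgroup.relIndex_bot_left] at h5
      have h81 : 81 ∣ Nat.card ↥(Cfsg.GU 3 F p ⊓ Cfsg.Geo.specialLinear (Fin 3) F) := by
        rw [← hmul]
        exact Nat.mul_dvd_mul h27 hΩ
      rw [card_GUSL] at h81
      have h6 := Cfsg.Agent.Lib.ClUnitary.card_SU (n := 3) hF (by norm_num)
      rw [Finset.prod_range_succ, Finset.prod_range_succ, Finset.prod_range_succ, Finset.prod_range_zero] at h6
      have h7 : Nat.card (Cfsg.SU 3 F p) = p ^ 3 * ((p ^ 2 - 1) * (p ^ 3 + 1)) := by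
        have hp1 : 0 < p + 1 := by omega
        apply Nat.eq_of_mul_eq_mul_left hp1
        rw [h6]
        norm_num
        ring
      rw [h7] at h81
      exact val_threeU hp3 hp9 h81
    · have hr5 : 5 ≤ r := by
        have h1 := hr.two_le
        by_contra h
        have : r = 4 := by omega
        rw [this] at hr
        exact absurd hr (by norm_num)
      obtain ⟨x, hx, hxr, hxn⟩ := exists_order (m := 3) (hΩ.trans (Subgroup.relIndex_dvd_card _ _))
        (fun x hx z hz => scalar_SL hx.2 hz) (fun h => hr3 ((Nat.prime_dvd_prime_iff_eq hr Nat.prime_three).1 h))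
      obtain ⟨g, -, hg⟩ := hall x hx ⟨1, by rw [hxr]; simp⟩ hxn
      obtain ⟨c, hc⟩ := scalar_of_norm h3 hR ha hb ht hA hB hz₀ hzt hr5 hg (by rw [conj_pow_eq, hxr]; group)
      exact nonscalar_conj hxn c hc
  · intro hcase x hx ⟨z, hz⟩ hxn
    rw [Units.val_pow_eq_pow_val] at hz
    have hdx := mem_SL_iff.1 hx.2
    have hz3 : z ^ 3 = 1 := by
      have h1 := congrArg Matrix.det hz
      rw [Matrix.det_pow, hdx, one_pow, Matrix.det_smul, Matrix.det_one, mul_one, Fintype.card_fin] at h1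
      exact h1.symm
    have hz0 : z ≠ 0 := by rintro rfl; norm_num at hz3
    have hcp2 : Nat.Coprime 2 p := (Nat.coprime_primes Nat.prime_two hpp).2 (by omega)
    have hcp3 : Nat.Coprime 3 p := (Nat.coprime_primes Nat.prime_three hpp).2 (by omega)
    have finish : ∀ (y g : GL (Fin 3) F) (m : ℕ), x ^ m = 1 → m.Coprime p → y ∈ Subgroup.normalizer (R : Set (GL (Fin 3) F)) → g⁻¹ * x * g = y →
        x.1.trace ≠ 0 → ∃ g ∈ Cfsg.GU 3 F p ⊓ Cfsg.Geo.specialLinear (Fin 3) F, g⁻¹ * x * g ∈ Cfsg.Geo.subgroupNormalizer R := by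
      intro y g m hm hmp hy hgy htr
      have hyU := gu_of_norm hF hRU hirr hy hx.1 hgy htr
      obtain ⟨k, hk, hky⟩ := conj_SU_of_conj hF p hx hyU hgy hm hmp
      exact ⟨k, hk, by rw [hky]; exact hy⟩
    have hx6 : ∀ k, x.1 ^ k = z • (1 : Matrix (Fin 3) (Fin 3) F) → x ^ (k * 3) = 1 := by
      intro k hk
      apply Units.ext
      rw [Units.val_pow_eq_pow_val, Units.val_one, pow_mul, hk, _root_.smul_pow, one_pow, hz3, one_smul]
    rcases hcase with rfl | ⟨rfl, hp9⟩
    · -- involutions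
      have hcc : (z ^ 2) ^ 2 = z := by linear_combination z * hz3
      have hneg : IsPrimitiveRoot (-1 : F) 2 := IsPrimitiveRoot.neg_one p (by rintro rfl; omega)
      obtain ⟨Q, e, hQ⟩ := exists_diag_mat (by exact_mod_cast h2) hneg (pow_ne_zero 2 hz0) (M := x.1) (by rw [hz, hcc])
      have hdet := det_of_diag hQ
      rw [hdx, Fin.prod_univ_three] at hdet
      have h4 : (-1 : F) ^ ((e 0).1 + (e 1).1 + (e 2).1) = 1 := by
        rw [pow_add, pow_add]
        linear_combination -hdet - (z ^ 3 + 1) * ((-1 : F) ^ (e 0).1 * (-1) ^ (e 1).1 * (-1) ^ (e 2).1) * hz3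
      have hm1 : (-1 : F) ≠ 1 := by
        intro h; apply h2; linear_combination -h
      have hev : ((e 0).1 + (e 1).1 + (e 2).1) % 2 = 0 := Nat.even_iff.1 ((neg_one_pow_eq_one_iff_even hm1).1 h4)
      rcases dec3 e hev with ⟨h01, h12⟩ | ⟨π, hπ0, hπ1, hπ2⟩
      · exfalso
        apply hxn (z ^ 2 * (-1) ^ (e 0).1)
        apply scalar_of_diag (P := Q)
        rw [hQ]
        congr 2
        funext j
        fin_cases j
        · rfl
        · show z ^ 2 * (-1) ^ (e 1).1 = _; rw [← h01]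
        · show z ^ 2 * (-1) ^ (e 2).1 = _; rw [← h12, ← h01]
      · let N : Matrix (Fin 3) (Fin 3) F := !![-z ^ 2, 0, 0; 0, 0, -z ^ 2; 0, -z ^ 2, 0]
        have hN : N.det ≠ 0 := by
          rw [Matrix.det_fin_three]
          simp [N]
          exact hz0
        obtain ⟨y, hy⟩ := exists_lift P hN
        let Q₀ : Matrix (Fin 3) (Fin 3) F := !![0, 1, 0; 1, 0, 1; -1, 0, 1]
        have hQ₀ : Q₀.det ≠ 0 := by
          rw [Matrix.det_fin_three]
          simp [Q₀]
          intro h
          apply h2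
          linear_combination -h
        let q₀ : GL (Fin 3) F := Matrix.GeneralLinearGroup.mkOfDetNeZero Q₀ hQ₀
        have hNQ : N * Q₀ = Q₀ * Matrix.diagonal ![z ^ 2, -z ^ 2, -z ^ 2] := by
          ext i j
          fin_cases i <;> fin_cases j <;> simp [N, Q₀, Matrix.mul_apply, Fin.sum_univ_three]
        have hyQ : y.1 * (P * q₀).1 = (P * q₀).1 * Matrix.diagonal ![z ^ 2, -z ^ 2, -z ^ 2] := by
          show y.1 * (P.1 * Q₀) = P.1 * Q₀ * _
          rw [← Matrix.mul_assoc, hy, Matrix.mul_assoc, hNQ, Matrix.mul_assoc]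
        obtain ⟨g, hg, hgy⟩ := conj_SL_of_diag (by norm_num) hQ hyQ π (by
          intro i
          fin_cases i
          · show z ^ 2 * (-1) ^ (e (π 0)).1 = z ^ 2
            rw [hπ0]; simp
          · show z ^ 2 * (-1) ^ (e (π 1)).1 = -z ^ 2
            rw [hπ1]; simp
          · show z ^ 2 * (-1) ^ (e (π 2)).1 = -z ^ 2
            rw [hπ2]; simp)
        have hyN : y ∈ Subgroup.normalizer (R : Set (GL (Fin 3) F)) := by
          apply mem_norm_closure hcl
          rintro s (rfl | hs)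
          · rw [conj_of_coord hy hA (coord_mul hA hA) (by
              ext i j
              fin_cases i <;> fin_cases j <;> simp [N, Matrix.mul_apply, Fin.sum_univ_three, Matrix.diagonal]
              · ring
              · linear_combination (-z ^ 2 * t) * ht3)]
            exact mul_mem ha ha
          · rw [Set.mem_singleton_iff] at hs
            subst hs
            rw [conj_of_coord hy hB (coord_mul hB hB) (by
              ext i j
              fin_cases i <;> fin_cases j <;> simp [N, C3, Matrix.mul_apply, Fin.sum_univ_three])]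
            exact mul_mem hb hb
        refine finish y g (2 * 3) (hx6 2 hz) (Nat.Coprime.mul_left hcp2 hcp3) hyN hgy ?_
        have e1 : y.1.trace = x.1.trace := by rw [← hgy, tr_conj]
        rw [← e1, Cfsg.Agent.S6000.trace_of_diag hyQ, Fin.sum_univ_three]
        show z ^ 2 + -z ^ 2 + -z ^ 2 ≠ 0
        rw [add_neg_cancel, zero_add]
        exact neg_ne_zero.2 (pow_ne_zero _ hz0)
    · by_cases hz1 : z = 1
      · obtain ⟨Q, e, hQ⟩ := exists_diag_mat (by exact_mod_cast h3) htp one_ne_zero (M := x.1) (by rw [hz, hz1, one_pow])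
        have hdet := det_of_diag hQ
        rw [hdx, Fin.prod_univ_three] at hdet
        have h4 : t ^ ((e 0).1 + (e 1).1 + (e 2).1) = 1 := by
          rw [pow_add, pow_add]
          linear_combination -hdet
        have h5 := Nat.mod_eq_zero_of_dvd ((htp.pow_eq_one_iff_dvd _).1 h4)
        rcases dec1 e h5 with ⟨h01, h12⟩ | ⟨π, hπ⟩
        · exfalso
          apply hxn (1 * t ^ (e 0).1)
          apply scalar_of_diag (P := Q)
          rw [hQ]
          congr 2
          funext j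
          fin_cases j
          · rfl
          · show 1 * t ^ (e 1).1 = _; rw [← h01]
          · show 1 * t ^ (e 2).1 = _; rw [← h12, ← h01]
        · obtain ⟨g, hg, hgy⟩ := conj_SL_of_diag (by norm_num) hQ hA π (by
            intro i
            show 1 * t ^ (e (π i)).1 = _
            rw [hπ]
            fin_cases i
            · simp
            · simp
            · simp)
          obtain ⟨k, hk, hky⟩ := conj_SU_of_conj hF p hx (hRU ha) hgy (hx6 3 hz) (Nat.Coprime.mul_left hcp3 hcp3)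
          exact ⟨k, hk, by rw [hky]; exact Subgroup.le_normalizer ha⟩
      · obtain ⟨c, hc⟩ := exists_cube (p := p ^ 2) hF (by rw [Nat.pow_mod, hp9]) hz3
        have hc0 : c ≠ 0 := by rintro rfl; rw [zero_pow (by norm_num)] at hc; exact hz0 hc.symm
        obtain ⟨Q, e, hQ⟩ := exists_diag_mat (by exact_mod_cast h3) htp hc0 (M := x.1) (by rw [hz, hc])
        have hdet := det_of_diag hQ
        rw [hdx, Fin.prod_univ_three] at hdet
        have h4 : z * t ^ ((e 0).1 + (e 1).1 + (e 2).1) = 1 := by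
          rw [pow_add, pow_add, ← hc]
          linear_combination -hdet
        have hne : ((e 0).1 + (e 1).1 + (e 2).1) % 3 ≠ 0 := by
          intro h
          apply hz1
          obtain ⟨m, hm⟩ := Nat.dvd_of_mod_eq_zero h
          rw [hm, pow_mul, ht3, one_pow, mul_one] at h4
          exact h4
        obtain ⟨π, hπ, k, hk⟩ := dec2 e hne
        let α : F := c * t ^ (e (π 0)).1
        let s : F := t ^ k.1
        have hs3 : s ^ 3 = 1 := by simp only [s]; rw [← pow_mul, mul_comm, pow_mul, ht3, one_pow]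
        have hα0 : α ≠ 0 := mul_ne_zero hc0 (pow_ne_zero _ ht0)
        have hs0 : s ≠ 0 := pow_ne_zero _ ht0
        have hsadd : t ^ ((e (π 0)) + k).1 = t ^ (e (π 0)).1 * s := by
          simp only [s]
          rw [← pow_add, Fin.val_add]
          conv_rhs => rw [← Nat.div_add_mod ((e (π 0)).1 + k.1) 3, pow_add, pow_mul, ht3, one_pow, one_mul]
        obtain ⟨y, hy⟩ := exists_lift P (N := Matrix.diagonal ![α, α, α * s]) (by
          rw [Matrix.det_diagonal, Fin.prod_univ_three]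
          exact mul_ne_zero (mul_ne_zero hα0 hα0) (mul_ne_zero hα0 hs0))
        obtain ⟨g, hg, hgy⟩ := conj_SL_of_diag (by norm_num) hQ hy π (by
          intro i
          fin_cases i
          · rfl
          · show c * t ^ (e (π 1)).1 = α
            rw [← hπ]
          · show c * t ^ (e (π 2)).1 = α * s
            rw [hk, hsadd, ← mul_assoc])
        have hyN : y ∈ Subgroup.normalizer (R : Set (GL (Fin 3) F)) := by
          apply mem_norm_closure hcl
          rintro w (rfl | hw)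
          · rw [conj_of_coord hy hA hA (by
              rw [Matrix.diagonal_mul_diagonal, Matrix.diagonal_mul_diagonal]
              congr 1
              funext i
              exact mul_comm _ _)]
            exact ha
          · rw [Set.mem_singleton_iff] at hw
            subst hw
            rw [conj_of_coord hy hB (coord_mul hB (coord_pow hA k.1)) (by
              show _ = C3 F * Matrix.diagonal ![1, s, s ^ 2] * Matrix.diagonal ![α, α, α * s]
              ext i j
              rw [Matrix.diagonal_mul, Matrix.mul_diagonal, Matrix.mul_diagonal]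
              fin_cases i <;> fin_cases j <;> simp [C3]
              · linear_combination (-α) * hs3
              · ring)]
            exact mul_mem hb (pow_mem ha _)
        refine finish y g (3 * 3) (hx6 3 hz) (Nat.Coprime.mul_left hcp3 hcp3) hyN hgy ?_
        have e1 : y.1.trace = x.1.trace := by rw [← hgy, tr_conj]
        rw [← e1, Cfsg.Agent.S6000.trace_of_diag hy, Fin.sum_univ_three]
        show α + α + α * s ≠ 0
        intro h0
        have h5 : α * (2 + s) = 0 := by linear_combination h0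
        have h6 : s = -2 := by linear_combination (mul_eq_zero.1 h5).resolve_left hα0
        rw [h6] at hs3
        have h9 : (3 : F) * 3 = 0 := by linear_combination -hs3
        exact h3 ((mul_self_eq_zero).1 h9)

end Cfsg.Agent.S5999
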