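import Cfsg.Statements.S0003
import Cfsg.Agent.Lib.HallPi

set_option autoImplicit false
open Cfsg

namespace Cfsg.Agent.S0003

/-- Hall's Theorem, existence: a finite solvable group of order m * n with m and n coprime has a subgroup of order m. -/
theorem result {G : Type*} [Group G] [Finite G] [Group.IsSolvable G] (m n : ℕ)
    (hG : Nat.card G = m * n) (hmn : m.Coprime n) : ∃ H : Subgroup G, Nat.card H = m := by
  obtain ⟨H, hH⟩ := Cfsg.Agent.Lib.HallPi.exists_isPiHall (G := G) {p | p ∣ m}
  exact ⟨H, Cfsg.Agent.Lib.HallPi.card_of_isPiHall hG hmn hH⟩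

end Cfsg.Agent.S0003
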