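import Cfsg.Statements.S0007

set_option autoImplicit false
open Cfsg

namespace Cfsg.Agent.S0007

/-- Subgroups of coprime index: the intersection has index equal to the product of the indices, and every element is a product of an element of the first subgroup and an element of the second. -/
theorem result {G : Type*} [Group G] [Finite G] (H K : Subgroup G)
    (h : H.index.Coprime K.index) :
    (H ⊓ K).index = H.index * K.index ∧ ∀ g : G, ∃ x ∈ H, ∃ y ∈ K, g = x * y := by
  have h1 : (H ⊓ K).index = H.index * K.index := by
    apply Nat.le_antisymm Subgroup.index_inf_le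
    apply Nat.le_of_dvd
    · exact Nat.pos_of_ne_zero (Subgroup.index_ne_zero_of_finite)
    · exact h.mul_dvd_of_dvd_of_dvd (Subgroup.index_dvd_of_le inf_le_left) (Subgroup.index_dvd_of_le inf_le_right)
  refine ⟨h1, ?_⟩
  have h2 : K.relIndex H = K.index := by
    have h3 := Subgroup.relIndex_mul_index (H := H ⊓ K) (K := H) inf_le_left
    rw [Subgroup.inf_relIndex_left, h1, mul_comm] at h3
    exact Nat.eq_of_mul_eq_mul_left (Nat.pos_of_ne_zero Subgroup.index_ne_zero_of_finite) h3
  intro g
  -- the map `H → G/K` is onto
  have hf : Function.Surjective (fun x : ↥H => ((x : G) : G ⧸ K)) := by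
    have h4 : Set.range (fun x : ↥H => ((x : G) : G ⧸ K)) = Set.univ := by
      apply Set.eq_of_subset_of_ncard_le (Set.subset_univ _)
      rw [Set.ncard_univ, ← Subgroup.index_eq_card, ← h2]
      have e : Nat.card (↥H ⧸ K.subgroupOf H) ≤ (Set.range (fun x : ↥H => ((x : G) : G ⧸ K))).ncard := by
        rw [← Nat.card_coe_set_eq]
        let F : ↥H ⧸ K.subgroupOf H → Set.range (fun x : ↥H => ((x : G) : G ⧸ K)) :=
          Quotient.lift (fun x : ↥H => ⟨((x : G) : G ⧸ K), ⟨x, rfl⟩⟩) (by
            intro a b hab
            apply Subtype.ext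
            have hab' := QuotientGroup.leftRel_apply.1 hab
            exact QuotientGroup.eq.2 hab')
        apply Nat.card_le_card_of_injective F
        intro a b
        induction a using QuotientGroup.induction_on with | H a => ?_
        induction b using QuotientGroup.induction_on with | H b => ?_
        intro hab
        have hab' : ((a : G) : G ⧸ K) = ((b : G) : G ⧸ K) := congrArg Subtype.val hab
        have h5 : (a : G)⁻¹ * (b : G) ∈ K := QuotientGroup.eq.1 hab'
        exact QuotientGroup.eq.2 h5
      exact e
    exact Set.range_eq_univ.1 h4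
  obtain ⟨⟨x, hx⟩, hxg⟩ := hf (g : G ⧸ K)
  have hxg' : x⁻¹ * g ∈ K := QuotientGroup.eq.1 hxg
  exact ⟨x, hx, x⁻¹ * g, hxg', by simp⟩

end Cfsg.Agent.S0007
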