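import Cfsg.Statements.S0015
import Cfsg.Agent.Lib.Cores3

set_option autoImplicit false
open Cfsg

namespace Cfsg.Agent.S0015

/-- In a finite nilpotent group, an abelian normal subgroup that is maximal among abelian normal subgroups equals its own centralizer. -/
theorem result {G : Type*} [Group G] [Finite G] [Group.IsNilpotent G]
    (N : Subgroup G) [N.Normal] [IsMulCommutative N]
    (hmax : ∀ M : Subgroup G, M.Normal → IsMulCommutative M → N ≤ M → M = N) :
    Subgroup.centralizer (N : Set G) = N := by
  have hab : ∀ a ∈ N, ∀ b ∈ N, a * b = b * a := by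
    intro a ha b hb
    have h : IsMulCommutative N := inferInstance
    exact congrArg Subtype.val (h.is_comm.comm (⟨a, ha⟩ : N) ⟨b, hb⟩)
  refine Lib.Cores.centralizer_eq_of_maximal_abelian N hab ?_
  intro M hM hMab hNM
  refine hmax M hM ⟨⟨?_⟩⟩ hNM
  rintro ⟨a, ha⟩ ⟨b, hb⟩
  exact Subtype.ext (hMab a ha b hb)

end Cfsg.Agent.S0015
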