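import Cfsg.Statements.S0020
import Cfsg.Agent.Lib.HallConverse
import Cfsg.Agent.Lib.HallPi

set_option autoImplicit false
open Pointwise
open Cfsg

namespace Cfsg.Agent.S0020

/-- A finite solvable group admits a Sylow system: Sylow subgroups, one for each prime, that pairwise permute as sets. -/
theorem result {G : Type*} [Group G] [Finite G] [Group.IsSolvable G] :
    ∃ S : (p : Nat.Primes) → Sylow (p : ℕ) G,
      ∀ p q : Nat.Primes, (S p : Set G) * (S q : Set G) = (S q : Set G) * (S p : Set G) := by
  refine Cfsg.Agent.Lib.HallConverse.exists_sylow_system ?_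
  intro p hp
  obtain ⟨H, hH⟩ := Cfsg.Agent.Lib.HallPi.exists_isPiHall (G := G) {p}ᶜ
  have hG0 : Nat.card G ≠ 0 := Nat.card_pos.ne'
  have : Fact p.Prime := ⟨hp⟩
  obtain ⟨S⟩ : Nonempty (Sylow p G) := inferInstance
  have hS : Nat.card (S : Subgroup G) = p ^ (Nat.card G).factorization p :=
    Sylow.card_eq_multiplicity S
  have hSi := (S : Subgroup G).card_mul_index
  have hSn : ¬ p ∣ (S : Subgroup G).index := S.not_dvd_index
  have hcop : (p ^ (Nat.card G).factorization p).Coprime (S : Subgroup G).index :=
    Nat.Coprime.pow_left _ ((Nat.Prime.coprime_iff_not_dvd hp).mpr hSn)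
  refine ⟨H, ?_⟩
  have h1 := H.card_mul_index
  rw [Cfsg.Agent.Lib.HallPi.isPiHall_iff] at hH
  -- the index of `H` is a power of `p`, its order is prime to `p`
  have h2 : (Nat.card H).Coprime p := by
    rw [Nat.coprime_comm]
    refine (Nat.Prime.coprime_iff_not_dvd hp).mpr fun hd => ?_
    exact hH.1 p hp hd rfl
  have h3 : p ^ (Nat.card G).factorization p ∣ H.index := by
    have h4 : p ^ (Nat.card G).factorization p ∣ Nat.card H * H.index := by
      rw [h1]; exact Nat.ordProj_dvd _ _
    exact (Nat.Coprime.dvd_mul_left (Nat.Coprime.pow_left _ h2.symm)).mp h4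
  apply Nat.dvd_antisymm _ h3
  -- `|G:H|` divides the `p`-part
  have h5 : H.index.Coprime (S : Subgroup G).index := by
    apply Nat.coprime_of_dvd
    intro q hq hq1 hq2
    have h6 := hH.2 q hq hq1
    rw [compl_compl, Set.mem_singleton_iff] at h6
    rw [h6] at hq2
    exact hSn hq2
  have h7 : H.index ∣ Nat.card (S : Subgroup G) * (S : Subgroup G).index := by
    rw [hSi]; exact H.index_dvd_card
  rw [← hS]
  exact (Nat.Coprime.dvd_mul_right h5).mp h7

end Cfsg.Agent.S0020
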