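import Cfsg.Statements.S0030
import Cfsg.Agent.Lib.CoprimeAction2

set_option autoImplicit false
open Cfsg

namespace Cfsg.Agent.S0030

/-- Under coprime action fixed points of a product of two invariant subgroups factor: if K = X Y with X and Y normalised by A then every A-fixed element of K is a product of an A-fixed element of X and an A-fixed element of Y. -/
theorem result {G : Type*} [Group G] [Finite G] (A K : Subgroup G) (hAK : A ≤ Subgroup.normalizer (K : Set G))
    (hcop : (Nat.card A).Coprime (Nat.card K)) (hsolv : Group.IsSolvable A ∨ Group.IsSolvable K)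
    (X Y : Subgroup G) (hX : X ≤ K) (hY : Y ≤ K) (hXA : A ≤ Subgroup.normalizer (X : Set G)) (hYA : A ≤ Subgroup.normalizer (Y : Set G))
    (hXY : ∀ k ∈ K, ∃ x ∈ X, ∃ y ∈ Y, k = x * y) (k : G) (hk : k ∈ K ⊓ Subgroup.centralizer (A : Set G)) :
    ∃ x ∈ X ⊓ Subgroup.centralizer (A : Set G), ∃ y ∈ Y ⊓ Subgroup.centralizer (A : Set G), k = x * y := by
  obtain ⟨hkK, hkA⟩ := Subgroup.mem_inf.mp hk
  obtain ⟨x, hx, y, hy, hxy⟩ := hXY k hkK
  exact Cfsg.Agent.Lib.CoprimeAction2.centralizer_of_product hcop hsolv hX hXA hYA hkA hx hy hxy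

end Cfsg.Agent.S0030
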