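import Cfsg.Statements.S0032
import Cfsg.Agent.Lib.FPF

set_option autoImplicit false
open Cfsg

namespace Cfsg.Agent.S0032

/-- If an automorphism of a finite group fixes only the identity and maps a normal subgroup N into itself, then the only cosets of N it fixes are those in N: a fixed coset xN forces x ∈ N. -/
theorem result {G : Type*} [Group G] [Finite G] (φ : G ≃* G)
    (hφ : MonoidHom.FixedPointFree (φ : G →* G)) (N : Subgroup G) [N.Normal] (hN : ∀ n ∈ N, φ n ∈ N)
    (x : G) (hx : (φ x)⁻¹ * x ∈ N) : x ∈ N := by
  exact Cfsg.Agent.Lib.FPF.mem_of_inv_mul_mem hφ hN hx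

end Cfsg.Agent.S0032
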