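import Cfsg.Statements.S0038
import Cfsg.Agent.Lib.FrobConj
import Cfsg.Agent.Lib.FrobAction2
import Cfsg.Agent.Lib.FrobThm
-- import your own Cfsg.Agent.* helpers here

set_option autoImplicit false
open Pointwise
open Cfsg

namespace Cfsg.Agent.S0038

/-- All Frobenius complements of a finite group are conjugate to one another. -/
theorem result {G : Type*} [Group G] [Finite G] (H H₀ : Subgroup G)
    (hH : Cfsg.IsFrobeniusComplement H) (hH₀ : Cfsg.IsFrobeniusComplement H₀) :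
    ∃ g : G, MulAut.conj g • H₀ = H := by
  classical
  -- containment implies equality
  have key : ∀ {H H₀ : Subgroup G}, Cfsg.IsFrobeniusComplement H → Cfsg.IsFrobeniusComplement H₀ →
      H₀ ≤ H → H₀ = H := by
    intro H H₀ hH hH₀ hle
    by_contra hne
    have hD : Cfsg.IsFrobeniusComplement (H₀.subgroupOf H) := by
      apply Cfsg.Agent.Lib.FrobConj.inf_isFrobeniusComplement hH₀
      · rw [inf_eq_right.2 hle]; exact hH₀.1
      · intro h; exact hne (le_antisymm hle h)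
    obtain ⟨K, hK, hKn, hc⟩ := Cfsg.Agent.Lib.FrobThm.exists_kernel hH
    have hK1 : K ≠ ⊥ := by
      intro h
      obtain ⟨x, hx, hx1⟩ := Cfsg.Agent.Lib.FrobGroup.exists_kernel_ne_one hH
      rw [← hK, h] at hx
      exact hx1 (Subgroup.mem_bot.1 hx)
    have hfpf := (Cfsg.Agent.Lib.FrobGroup.isFrobeniusComplement_iff hc hK1 hH.1).1 hH
    obtain ⟨V, act, -, hV1, hVab, hact⟩ := Cfsg.Agent.Lib.FrobAction2.exists_fpf_action hc hK1 hfpf
    let _ : CommGroup V := { (inferInstance : Group V) with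
      mul_comm := fun a b => Subtype.ext (hVab a a.2 b b.2) }
    have : Nontrivial V := (Subgroup.nontrivial_iff_ne_bot V).2 hV1
    have hf : Cfsg.Agent.Lib.FrobAction.IsFPF act := hact
    obtain ⟨N, hN, hNn, hcN⟩ := Cfsg.Agent.Lib.FrobThm.exists_kernel hD
    have hN1 : N ≠ ⊥ := by
      intro h
      obtain ⟨x, hx, hx1⟩ := Cfsg.Agent.Lib.FrobGroup.exists_kernel_ne_one hD
      rw [← hN, h] at hx
      exact hx1 (Subgroup.mem_bot.1 hx)
    have hfpfN := (Cfsg.Agent.Lib.FrobGroup.isFrobeniusComplement_iff hcN hN1 hD.1).1 hD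
    refine Cfsg.Agent.Lib.FrobAction.not_frobenius hf hN1 hD.1 ?_
    intro h hh hh1 k hk hcomm
    have h1 : k ∈ N ⊓ Subgroup.centralizer {h} :=
      ⟨hk, Subgroup.mem_centralizer_singleton_iff.2 hcomm.symm⟩
    rw [hfpfN h hh hh1] at h1
    exact Subgroup.mem_bot.1 h1
  rcases le_total (Nat.card H₀) (Nat.card H) with h | h
  · obtain ⟨g, hg⟩ := Cfsg.Agent.Lib.FrobConj.exists_conj_le hH hH₀ h
    exact ⟨g, key hH (Cfsg.Agent.Lib.FrobGroup.conj hH₀ g) hg⟩
  · obtain ⟨g, hg⟩ := Cfsg.Agent.Lib.FrobConj.exists_conj_le hH₀ hH h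
    refine ⟨g⁻¹, ?_⟩
    have h1 := key hH₀ (Cfsg.Agent.Lib.FrobGroup.conj hH g) hg
    rw [← h1, map_inv, inv_smul_smul]

end Cfsg.Agent.S0038
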