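import Cfsg.Statements.S0040
import Cfsg.Agent.Lib.FrobAction2
-- import your own Cfsg.Agent.* helpers here

set_option autoImplicit false
open Cfsg

namespace Cfsg.Agent.S0040

/-- Sylow subgroups of Frobenius complements: if H complements a nontrivial normal subgroup K and every nonidentity element of H has trivial centraliser in K, then each Sylow subgroup of H is cyclic or isomorphic to a generalized quaternion group. -/
theorem result {G : Type*} [Group G] [Finite G] (K H : Subgroup G) [K.Normal]
    (hc : Subgroup.IsComplement' K H) (hK : K ≠ ⊥) (hfpf : ∀ h ∈ H, h ≠ 1 → K ⊓ Subgroup.centralizer {h} = ⊥)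
    (p : ℕ) [Fact p.Prime] (P : Sylow p H) :
    IsCyclic P ∨ ∃ n : ℕ, Nonempty (P ≃* QuaternionGroup (2 ^ n)) := by
  classical
  obtain ⟨V, act, -, hV1, hVab, hact⟩ := Cfsg.Agent.Lib.FrobAction2.exists_fpf_action hc hK hfpf
  let _ : CommGroup V := { (inferInstance : Group V) with
    mul_comm := fun a b => Subtype.ext (hVab a a.2 b b.2) }
  have : Nontrivial V := (Subgroup.nontrivial_iff_ne_bot V).2 hV1
  have hf : Cfsg.Agent.Lib.FrobAction.IsFPF act := hact
  rcases Cfsg.Agent.Lib.FrobAction.pgroup_cyclic_or_quaternion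
    (hf.comp (P : Subgroup H).subtype (Subgroup.subtype_injective _)) P.2 with h | ⟨-, n, -, h⟩
  · exact Or.inl h
  · exact Or.inr ⟨n, h⟩

end Cfsg.Agent.S0040
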