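import Cfsg.Statements.S0052
import Cfsg.Agent.Lib.Gaschutz

set_option autoImplicit false
open Pointwise
open Cfsg

namespace Cfsg.Agent.S0052



/-- Gaschütz's Theorem, conjugacy: for an abelian normal subgroup K ≤ U with the order of K coprime to the index of U, two complements of K in G having the same intersection with U are conjugate. -/
theorem result {G : Type*} [Group G] [Finite G] (K U : Subgroup G) [K.Normal] [IsMulCommutative K]
    (hKU : K ≤ U) (hcop : (Nat.card K).Coprime U.index)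
    (H₀ H₁ : Subgroup G) (h₀ : Subgroup.IsComplement' K H₀) (h₁ : Subgroup.IsComplement' K H₁) (hU : H₀ ⊓ U = H₁ ⊓ U) :
    ∃ g : G, MulAut.conj g • H₀ = H₁ := by
  obtain ⟨z, -, hz⟩ := Cfsg.Agent.Lib.Gaschutz.conj_complements K U hcop H₀ H₁ h₀ h₁ hU hKU
  refine ⟨z, ?_⟩
  have hle : H₁ ≤ MulAut.conj z • H₀ := by
    intro h hh
    refine ⟨z⁻¹ * h * z, hz h hh, ?_⟩
    show z * (z⁻¹ * h * z) * z⁻¹ = h
    group
  symm
  apply Subgroup.eq_of_le_of_card_ge hle
  have h1 : Nat.card (MulAut.conj z • H₀ : Subgroup G) = Nat.card H₀ :=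
    Subgroup.card_map_of_injective (MulAut.conj z).injective
  have h2 := h₀.card_mul
  have h3 := h₁.card_mul
  have h4 : Nat.card K * Nat.card H₀ = Nat.card K * Nat.card H₁ := h2.trans h3.symm
  rw [h1, Nat.eq_of_mul_eq_mul_left Nat.card_pos h4]

end Cfsg.Agent.S0052
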