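import Cfsg.Statements.S0053


set_option autoImplicit false
open Cfsg

namespace Cfsg.Agent.S0053



/-- An abelian minimal normal subgroup N of a finite group is complemented exactly when N is not inside the Frattini subgroup. -/
theorem result {G : Type*} [Group G] [Finite G]
    (N : Subgroup G) [N.Normal] [IsMulCommutative N] (hN : N ≠ ⊥)
    (hmin : ∀ M : Subgroup G, M.Normal → M ≤ N → M = ⊥ ∨ M = N) :
    (∃ H : Subgroup G, Subgroup.IsComplement' N H) ↔ ¬ N ≤ frattini G := by
  classical
  constructor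
  · rintro ⟨H, hH⟩ hle
    have h1 : H ⊔ frattini G = ⊤ := by
      rw [eq_top_iff, ← hH.sup_eq_top]
      exact sup_le (hle.trans le_sup_right) le_sup_left
    have h2 : H = ⊤ := frattini_nongenerating h1
    apply hN
    have h3 := disjoint_iff.1 hH.disjoint
    rwa [h2, inf_top_eq] at h3
  · intro hle
    have h1 : ∃ M : Subgroup G, IsCoatom M ∧ ¬ N ≤ M := by
      by_contra hcon
      push Not at hcon
      apply hle
      unfold frattini Order.radical
      exact le_iInf₂ (fun M hM => hcon M hM)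
    obtain ⟨M, hM, hNM⟩ := h1
    have hsup : N ⊔ M = ⊤ := by
      have h2 : M < N ⊔ M := lt_of_le_of_ne le_sup_right (fun h => hNM (by rw [h]; exact le_sup_left))
      exact hM.2 _ h2
    have hnorm : (N ⊓ M).Normal := by
      have hNn : N.Normal := inferInstance
      refine ⟨fun x hx g => ?_⟩
      have hg : g ∈ (N ⊔ M : Subgroup G) := by rw [hsup]; trivial
      rw [← SetLike.mem_coe, Subgroup.normal_mul, Set.mem_mul] at hg
      obtain ⟨n, hn, m, hm, rfl⟩ := hg
      have h3 : m * x * m⁻¹ ∈ N ⊓ M := ⟨hNn.conj_mem x hx.1 m, M.mul_mem (M.mul_mem hm hx.2) (M.inv_mem hm)⟩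
      have h4 : n * (m * x * m⁻¹) = (m * x * m⁻¹) * n :=
        congrArg Subtype.val (mul_comm' (⟨n, hn⟩ : N) ⟨_, h3.1⟩)
      have h5 : n * m * x * (n * m)⁻¹ = m * x * m⁻¹ := by
        calc n * m * x * (n * m)⁻¹ = n * (m * x * m⁻¹) * n⁻¹ := by group
          _ = (m * x * m⁻¹) * n * n⁻¹ := by rw [h4]
          _ = _ := by group
      rw [h5]; exact h3
    rcases hmin _ hnorm inf_le_left with h | h
    · refine ⟨M, ?_⟩
      apply Subgroup.isComplement'_of_disjoint_and_mul_eq_univ (disjoint_iff.2 h)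
      rw [← Subgroup.normal_mul, hsup]; rfl
    · exact absurd (inf_eq_left.1 h) hNM

end Cfsg.Agent.S0053
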