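import Cfsg.Statements.S0054
import Mathlib.GroupTheory.PGroup

set_option autoImplicit false
open Cfsg

namespace Cfsg.Agent.S0054



/-- A regular normal subgroup of a finite 2-transitive group is elementary abelian: it is commutative and all its elements have order dividing one prime. -/
theorem result {G : Type*} [Group G] [Finite G]
    {X : Type*} [Nonempty X] [MulAction G X] (h2 : MulAction.IsMultiplyPretransitive G X 2)
    (N : Subgroup G) [N.Normal] (htrans : MulAction.IsPretransitive N X) (hreg : ∀ x : X, MulAction.stabilizer N x = ⊥) :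
    IsMulCommutative N ∧ ∃ p : ℕ, p.Prime ∧ ∀ n ∈ N, n ^ p = 1 := by
  classical
  obtain ⟨x⟩ : Nonempty X := inferInstance
  have hconj : ∀ a ∈ N, ∀ b ∈ N, a ≠ 1 → b ≠ 1 → ∃ g : G, g * a * g⁻¹ = b := by
    intro a ha b hb ha1 hb1
    rw [MulAction.is_two_pretransitive_iff] at h2
    have hne : ∀ c ∈ N, c ≠ 1 → x ≠ c • x := by
      intro c hc hc1 h
      have h3 : (⟨c, hc⟩ : N) ∈ MulAction.stabilizer N x := h.symm
      rw [hreg, Subgroup.mem_bot] at h3
      exact hc1 (congrArg Subtype.val h3)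
    obtain ⟨g, hg1, hg2⟩ := h2 (hne a ha ha1) (hne b hb hb1)
    have hNn : N.Normal := inferInstance
    have hga : g * a * g⁻¹ ∈ N := hNn.conj_mem a ha g
    have hgx : g⁻¹ • x = x := by rw [inv_smul_eq_iff]; exact hg1.symm
    have h3 : (⟨b⁻¹ * (g * a * g⁻¹), N.mul_mem (N.inv_mem hb) hga⟩ : N) ∈ MulAction.stabilizer N x := by
      show (b⁻¹ * (g * a * g⁻¹)) • x = x
      rw [mul_smul, mul_smul, mul_smul, hgx, hg2, inv_smul_smul]
    rw [hreg, Subgroup.mem_bot] at h3
    have h4 : b⁻¹ * (g * a * g⁻¹) = 1 := congrArg Subtype.val h3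
    rw [inv_mul_eq_one] at h4
    exact ⟨g, h4.symm⟩
  by_cases hN : N = ⊥
  · subst hN
    refine ⟨⟨⟨fun a b => Subsingleton.elim _ _⟩⟩, 2, Nat.prime_two, ?_⟩
    intro n hn
    rw [Subgroup.mem_bot] at hn
    rw [hn, one_pow]
  · have hcard : Nat.card N ≠ 1 := by
      intro h
      exact hN (Subgroup.card_eq_one.1 h)
    obtain ⟨p, hp, hpd⟩ := Nat.exists_prime_and_dvd hcard
    have : Fact p.Prime := ⟨hp⟩
    obtain ⟨a, ha⟩ := exists_prime_orderOf_dvd_card' p hpd
    have ha1 : (a : G) ≠ 1 := by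
      intro h
      have : a = 1 := Subtype.ext h
      rw [this, orderOf_one] at ha
      exact hp.one_lt.ne ha
    have hexp : ∀ n ∈ N, n ^ p = 1 := by
      intro n hn
      by_cases hn1 : n = 1
      · rw [hn1, one_pow]
      · obtain ⟨g, hg⟩ := hconj a a.2 n hn ha1 hn1
        have h3 : (a : G) ^ p = 1 := by
          rw [← ha]
          exact congrArg Subtype.val (pow_orderOf_eq_one a)
        rw [← hg, conj_pow, h3]; group
    refine ⟨?_, p, hp, hexp⟩
    have hNp : IsPGroup p N := fun n => ⟨1, by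
      apply Subtype.ext
      rw [pow_one]
      exact hexp n n.2⟩
    have hnt : Nontrivial N := by
      rw [Subgroup.nontrivial_iff_ne_bot]; exact hN
    have hc := hNp.center_nontrivial
    obtain ⟨⟨z, hz⟩, hz1⟩ := exists_ne (1 : Subgroup.center N)
    have hz1' : (z : G) ≠ 1 := fun h => hz1 (Subtype.ext (Subtype.ext h))
    have hNn : N.Normal := inferInstance
    have hcomm : ∀ n : N, n ∈ Subgroup.center N := by
      intro n
      by_cases hn1 : (n : G) = 1
      · have : n = 1 := Subtype.ext hn1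
        rw [this]; exact Subgroup.one_mem _
      · obtain ⟨g, hg⟩ := hconj z z.2 n n.2 hz1' hn1
        rw [Subgroup.mem_center_iff]
        intro m
        apply Subtype.ext
        show (m : G) * n = n * m
        have hm : g⁻¹ * m * g ∈ N := by simpa using hNn.conj_mem m m.2 g⁻¹
        have h3 := Subgroup.mem_center_iff.1 hz ⟨_, hm⟩
        have h4 : g⁻¹ * m * g * z = z * (g⁻¹ * m * g) := congrArg Subtype.val h3
        rw [← hg]
        calc (m : G) * (g * z * g⁻¹) = g * (g⁻¹ * m * g * z) * g⁻¹ := by group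
          _ = g * (z * (g⁻¹ * m * g)) * g⁻¹ := by rw [h4]
          _ = _ := by group
    exact ⟨⟨fun a b => (Subgroup.mem_center_iff.1 (hcomm b)) a⟩⟩

end Cfsg.Agent.S0054
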