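import Cfsg.Statements.S0059
import Cfsg.Agent.Lib.CoprimeAction

set_option autoImplicit false
open Cfsg

namespace Cfsg.Agent.S0059

/-- Let a finite group act on a set on which a normal subgroup K of coprime order and index is transitive, with K or the quotient solvable. Then any complement H of K has a fixed point, and any two H-fixed points are interchanged by an element of K centralising H. -/
theorem result {G : Type*} [Group G] [Finite G] {X : Type*} [Nonempty X] [MulAction G X]
    (K H : Subgroup G) [K.Normal] (hc : Subgroup.IsComplement' K H) (hcop : (Nat.card K).Coprime K.index)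
    (hsolv : Group.IsSolvable K ∨ Group.IsSolvable (G ⧸ K)) (htrans : MulAction.IsPretransitive K X) :
    (∃ x : X, ∀ h ∈ H, h • x = x) ∧
    ∀ x y : X, (∀ h ∈ H, h • x = x) → (∀ h ∈ H, h • y = y) → ∃ k ∈ K ⊓ Subgroup.centralizer (H : Set G), k • x = y := by
  have hidx : K.index = Nat.card H := hc.symm.index_eq_card
  have hHK : H ≤ Subgroup.normalizer (K : Set G) := Subgroup.le_normalizer_of_normal
  have hcop' : (Nat.card H).Coprime (Nat.card K) := by rw [← hidx]; exact hcop.symm
  have hsolv' : Group.IsSolvable H ∨ Group.IsSolvable K := by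
    rcases hsolv with hs | hs
    · exact Or.inr hs
    · left
      have hinj : Function.Injective ((QuotientGroup.mk' K).comp H.subtype) := by
        rw [← MonoidHom.ker_eq_bot_iff, eq_bot_iff]
        intro x hx
        have hx' : (x : G) ∈ K := by simpa [MonoidHom.mem_ker] using hx
        have : (x : G) ∈ K ⊓ H := Subgroup.mem_inf.mpr ⟨hx', x.2⟩
        rw [disjoint_iff.mp hc.disjoint, Subgroup.mem_bot] at this
        exact Subtype.ext this
      exact Group.isSolvable_of_isSolvable_injective (f := (QuotientGroup.mk' K).comp H.subtype) hinj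
  have htr : ∀ x y : X, ∃ k ∈ K, k • x = y := by
    intro x y
    obtain ⟨k, hk⟩ := MulAction.exists_smul_eq K x y
    exact ⟨k, k.2, hk⟩
  constructor
  · obtain ⟨x⟩ := (inferInstance : Nonempty X)
    obtain ⟨k, -, hk⟩ := Cfsg.Agent.Lib.CoprimeAction.exists_fixed_point hHK hcop' hsolv' x (by
      intro a _
      obtain ⟨k, hk, h⟩ := htr x (a • x)
      exact ⟨k, hk, h.symm⟩)
    exact ⟨_, hk⟩
  · intro x y hx hy
    exact Cfsg.Agent.Lib.CoprimeAction.exists_smul_eq_of_fixed hHK hcop' hsolv' hx hy (htr x y)

end Cfsg.Agent.S0059
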