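import Cfsg.Statements.S0060
import Cfsg.Agent.Lib.NilpTools
import Cfsg.Agent.Lib.Fitting

set_option autoImplicit false
open Pointwise
open Cfsg Cfsg.Agent.Lib.SubgroupTools

namespace Cfsg.Agent.S0060

/-- Brodkey's Theorem: in a finite group with abelian Sylow p-subgroups and no nontrivial normal p-subgroup, some conjugate of a Sylow p-subgroup meets it trivially. -/
theorem result {G : Type*} [Group G] [Finite G] (p : ℕ) [Fact p.Prime]
    (S : Sylow p G) (hS : IsMulCommutative S) (hOp : Cfsg.pCore p G = ⊥) :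
    ∃ g : G, (S : Subgroup G) ⊓ MulAut.conj g • (S : Subgroup G) = ⊥ := by
  classical

  -- choose `g` such that the intersection has minimal order
  obtain ⟨g, -, hmin⟩ := Set.Finite.exists_minimalFor
    (fun g : G => Nat.card ((S : Subgroup G) ⊓ MulAut.conj g • (S : Subgroup G) : Subgroup G))
    Set.univ (Set.toFinite _) ⟨1, trivial⟩
  have hmin' : ∀ h : G, Nat.card ((S : Subgroup G) ⊓ MulAut.conj g • (S : Subgroup G) : Subgroup G) ≤
      Nat.card ((S : Subgroup G) ⊓ MulAut.conj h • (S : Subgroup G) : Subgroup G) := by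
    intro h
    rcases le_total (Nat.card ((S : Subgroup G) ⊓ MulAut.conj g • (S : Subgroup G) : Subgroup G))
      (Nat.card ((S : Subgroup G) ⊓ MulAut.conj h • (S : Subgroup G) : Subgroup G)) with h1 | h1
    · exact h1
    · exact hmin (Set.mem_univ h) h1
  refine ⟨g, ?_⟩
  set T : Subgroup G := MulAut.conj g • (S : Subgroup G) with hT
  set D : Subgroup G := (S : Subgroup G) ⊓ T with hD
  have hScomm : ∀ a ∈ (S : Subgroup G), ∀ b ∈ (S : Subgroup G), a * b = b * a := fun a ha b hb =>
    isMulCommutative_iff_of_setLike.mp hS a ha b hb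
  have hSN : (S : Subgroup G) ≤ Subgroup.normalizer (D : Set G) := by
    rw [Subgroup.le_normalizer_iff]
    intro a ha d hd
    have hd1 := (Subgroup.mem_inf.mp hd).1
    rw [hScomm a ha d hd1, mul_assoc, mul_inv_cancel, mul_one]
    exact hd
  have hTcomm : ∀ a ∈ T, ∀ b ∈ T, a * b = b * a := by
    intro a ha b hb
    rw [hT, mem_conj_smul] at ha hb
    have h1 := hScomm _ ha _ hb
    have h2 : g⁻¹ * (a * b) * g = g⁻¹ * (b * a) * g := by
      calc g⁻¹ * (a * b) * g = (g⁻¹ * a * g) * (g⁻¹ * b * g) := by group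
        _ = (g⁻¹ * b * g) * (g⁻¹ * a * g) := h1
        _ = _ := by group
    exact mul_left_cancel (mul_right_cancel h2)
  have hTN : T ≤ Subgroup.normalizer (D : Set G) := by
    rw [Subgroup.le_normalizer_iff]
    intro a ha d hd
    have hd1 := (Subgroup.mem_inf.mp hd).2
    rw [hTcomm a ha d hd1, mul_assoc, mul_inv_cancel, mul_one]
    exact hd
  set N := Subgroup.normalizer (D : Set G) with hN
  have hSi : ¬ p ∣ (S : Subgroup G).relIndex N := by
    intro h
    exact S.not_dvd_index (h.trans (Subgroup.relIndex_dvd_index_of_le hSN))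
  -- `D` is contained in every Sylow `p`-subgroup
  have key : D ≤ Cfsg.pCore p G := by
    rw [Cfsg.Agent.Lib.Fitting.pCore_eq_iInf_sylow]
    refine le_iInf fun P => ?_
    obtain ⟨h, hh⟩ := MulAction.exists_smul_eq G S P
    have hP : MulAut.conj h • (S : Subgroup G) = (P : Subgroup G) :=
      congrArg (fun Q : Sylow p G => (Q : Subgroup G)) hh
    obtain ⟨x, hx, hxle⟩ := Cfsg.Agent.Lib.NilpTools.sylow_dominance_rel (p := p) (M := N)
      (Q := (P : Subgroup G) ⊓ N) (R := (S : Subgroup G)) inf_le_right hSN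
      (P.2.to_le inf_le_left) S.2 hSi
    have h1 : T ⊓ MulAut.conj x • (P : Subgroup G) ≤ D := by
      intro z hz
      obtain ⟨hz1, hz2⟩ := Subgroup.mem_inf.mp hz
      refine Subgroup.mem_inf.mpr ⟨hxle ?_, hz1⟩
      rw [mem_conj_smul] at hz2 ⊢
      refine Subgroup.mem_inf.mpr ⟨hz2, ?_⟩
      exact mul_mem (mul_mem (inv_mem hx) (hTN hz1)) hx
    have h2 : Nat.card D ≤ Nat.card (T ⊓ MulAut.conj x • (P : Subgroup G) : Subgroup G) := by
      refine (hmin' (g⁻¹ * (x * h))).trans (le_of_eq ?_)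
      have h3 : T ⊓ MulAut.conj x • (P : Subgroup G) =
          MulAut.conj g • ((S : Subgroup G) ⊓ MulAut.conj (g⁻¹ * (x * h)) • (S : Subgroup G)) := by
        rw [conj_smul_inf, ← conj_smul_mul, mul_inv_cancel_left, ← hT, conj_smul_mul, hP]
      rw [h3, card_conj_smul]
    have h3 : T ⊓ MulAut.conj x • (P : Subgroup G) = D := Subgroup.eq_of_le_of_card_ge h1 h2
    have h4 : D ≤ MulAut.conj x • (P : Subgroup G) := by rw [← h3]; exact inf_le_right
    have h5 : MulAut.conj x⁻¹ • D = D := conj_smul_of_mem_normalizer (inv_mem hx)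
    rw [← h5, conj_smul_le_iff, inv_inv]
    exact h4
  rw [hOp] at key
  exact le_bot_iff.mp key

end Cfsg.Agent.S0060
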