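import Cfsg.Statements.S0062
import Cfsg.Agent.Lib.TransferApps

set_option autoImplicit false
open Cfsg

namespace Cfsg.Agent.S0062

theorem solvable_of_normal {G : Type*} [Group G] [Finite G] (p q : ℕ) (hp : p.Prime) (hq : q.Prime)
    (N : Subgroup G) [N.Normal] (m n : ℕ) (hN : Nat.card N = p ^ m) (hi : N.index = q ^ n) :
    Group.IsSolvable G := by
  have : Fact p.Prime := ⟨hp⟩
  have : Fact q.Prime := ⟨hq⟩
  have h1 : IsPGroup p N := IsPGroup.of_card hN
  have h2 : IsPGroup q (G ⧸ N) := IsPGroup.of_card (n := n) (by rw [← Subgroup.index_eq_card, hi])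
  have h3 := h1.isNilpotent
  have h4 := h2.isNilpotent
  exact Group.isSolvable_of_ker_le_range N.subtype (QuotientGroup.mk' N) (by
    rw [QuotientGroup.ker_mk', Subgroup.range_subtype])

theorem aux {G : Type*} [Group G] [Finite G] (p q : ℕ) (hp : p.Prime) (hq : q.Prime) (hpq : p < q)
    (hG : Nat.card G = p ^ 2 * q ^ 2) : Group.IsSolvable G := by
  have hqF : Fact q.Prime := ⟨hq⟩
  obtain ⟨Q⟩ : Nonempty (Sylow q G) := inferInstance
  have hcop : Nat.Coprime (p ^ 2) (q ^ 2) := Nat.Coprime.pow _ _ ((Nat.coprime_primes hp hq).mpr hpq.ne)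
  have hQcard : Nat.card (Q : Subgroup G) = q ^ 2 := by
    obtain ⟨k, hk⟩ := IsPGroup.iff_card.mp Q.isPGroup'
    have e1 := (Q : Subgroup G).card_mul_index
    have hni := Q.not_dvd_index
    have h1 : Nat.card (Q : Subgroup G) ∣ q ^ 2 := by
      have : Nat.card (Q : Subgroup G) ∣ p ^ 2 * q ^ 2 := by rw [← hG]; exact Subgroup.card_subgroup_dvd_card _
      rw [hk] at this ⊢
      exact (Nat.Coprime.dvd_of_dvd_mul_left (Nat.Coprime.pow _ _ ((Nat.coprime_primes hq hp).mpr hpq.ne')) this)
    have h2 : q ^ 2 ∣ Nat.card (Q : Subgroup G) := by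
      have : q ^ 2 ∣ Nat.card (Q : Subgroup G) * (Q : Subgroup G).index := by rw [e1, hG]; exact dvd_mul_left _ _
      exact Nat.Coprime.dvd_of_dvd_mul_right (Nat.Coprime.pow_left _ ((Nat.Prime.coprime_iff_not_dvd hq).mpr hni)) this
    exact Nat.dvd_antisymm h1 h2
  have hQidx : (Q : Subgroup G).index = p ^ 2 := by
    have e1 := (Q : Subgroup G).card_mul_index
    rw [hQcard, hG, mul_comm (p ^ 2)] at e1
    exact Nat.eq_of_mul_eq_mul_left (pow_pos hq.pos 2) e1
  have hmod := card_sylow_modEq_one q G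
  have hdvd : Nat.card (Sylow q G) ∣ p ^ 2 := by
    rw [← hQidx]; exact Q.card_dvd_index
  obtain ⟨j, hj, hj2⟩ := (Nat.dvd_prime_pow hp).mp hdvd
  have hj3 : j = 0 ∨ j = 1 ∨ j = 2 := by omega
  rcases hj3 with h | h | h
  · -- normal
    rw [h, pow_zero] at hj2
    have hsub : Subsingleton (Sylow q G) := (Nat.card_eq_one_iff_unique.mp hj2).1
    have hn : (Q : Subgroup G).Normal := Sylow.normal_of_subsingleton Q
    exact solvable_of_normal q p hq hp (Q : Subgroup G) 2 2 hQcard hQidx
  · exfalso
    rw [h, pow_one] at hj2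
    rw [hj2] at hmod
    have h1 : q ∣ p - 1 := (Nat.modEq_iff_dvd' hp.one_le).mp hmod.symm
    have := Nat.le_of_dvd (by have := hp.two_le; omega) h1
    omega
  · rw [h] at hj2
    have h1 := Q.card_eq_index_normalizer
    rw [hj2, ← hQidx] at h1
    have h2 : Subgroup.normalizer ((Q : Subgroup G) : Set G) = Q := by
      symm
      apply Subgroup.eq_of_le_of_card_ge Subgroup.le_normalizer
      have e1 := (Q : Subgroup G).card_mul_index
      have e2 := (Subgroup.normalizer ((Q : Subgroup G) : Set G)).card_mul_index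
      have h1' : (Q : Subgroup G).index = (Subgroup.normalizer ((Q : Subgroup G) : Set G)).index := h1
      rw [← h1', ← e1] at e2
      have hpos : 0 < (Q : Subgroup G).index := Nat.pos_of_ne_zero Subgroup.index_ne_zero_of_finite
      exact (Nat.eq_of_mul_eq_mul_right hpos e2).le
    have hcomm := IsPGroup.isMulCommutative_of_card_eq_prime_sq hQcard
    have h3 : Subgroup.normalizer (Q : Set G) ≤ Subgroup.centralizer (Q : Set G) := by
      have h2' : Subgroup.normalizer (Q : Set G) = Q := h2
      rw [h2']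
      intro x hx y hy
      simpa using congrArg Subtype.val (hcomm.is_comm.comm (⟨y, hy⟩ : (Q : Subgroup G)) ⟨x, hx⟩)
    have h4 := MonoidHom.ker_transferSylow_isComplement' Q h3
    exact solvable_of_normal p q hp hq (MonoidHom.transferSylow Q h3).ker 2 2
      (by rw [← h4.index_eq_card, hQidx]) (by rw [h4.symm.index_eq_card, hQcard])

/-- A finite group of order p^2 * q^2 with p and q prime is solvable. -/
theorem result {G : Type*} [Group G] [Finite G] (p q : ℕ) (hp : p.Prime) (hq : q.Prime)
    (hG : Nat.card G = p ^ 2 * q ^ 2) : Group.IsSolvable G := by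
  rcases lt_trichotomy p q with h | h | h
  · exact aux p q hp hq h hG
  · subst h
    have : Fact p.Prime := ⟨hp⟩
    have h1 : IsPGroup p G := IsPGroup.of_card (n := 4) (by rw [hG]; ring)
    have h2 := h1.isNilpotent
    infer_instance
  · exact aux q p hq hp h (by rw [hG]; ring)

end Cfsg.Agent.S0062
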