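import Cfsg.Statements.S0063

set_option autoImplicit false
open Cfsg

namespace Cfsg.Agent.S0063

theorem aux {p : ℕ} [Fact p.Prime] (m : ℕ) (hm : 1 < m) : ∀ {G : Type*} [Group G] [Finite G],
    Nat.card G = p ^ m → Group.nilpotencyClass G ≤ m - 1 := by
  induction m using Nat.strong_induction_on with
  | _ m ih =>
  intro G _ _ hG
  have hp : IsPGroup p G := IsPGroup.of_card hG
  have hnil : Group.IsNilpotent G := hp.isNilpotent
  have hpp : p.Prime := Fact.out
  have hnt : Nontrivial G := by
    rw [← Finite.one_lt_card_iff_nontrivial, hG]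
    exact Nat.one_lt_pow (by omega) hpp.one_lt
  obtain ⟨k, hk⟩ := IsPGroup.iff_card.mp (hp.to_quotient (Subgroup.center G))
  have hZ : 1 < Nat.card (Subgroup.center G) := (Subgroup.one_lt_card_iff_ne_bot _).mpr (ne_of_gt hp.bot_lt_center)
  have hcard : p ^ k * Nat.card (Subgroup.center G) = p ^ m := by
    rw [← hk, ← hG]
    exact (Subgroup.card_eq_card_quotient_mul_card_subgroup _).symm
  have hkm : k < m := by
    have h1 : p ^ k < p ^ m := by
      rw [← hcard]
      exact lt_mul_of_one_lt_right (pow_pos hpp.pos k) hZ
    exact (Nat.pow_lt_pow_iff_right hpp.one_lt).mp h1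
  by_cases hk1 : k ≤ 1
  · have hcyc : IsCyclic (G ⧸ Subgroup.center G) := by
      rcases Nat.le_one_iff_eq_zero_or_eq_one.mp hk1 with h | h
      · rw [h, pow_zero] at hk
        have : Subsingleton (G ⧸ Subgroup.center G) := (Nat.card_eq_one_iff_unique.mp hk).1
        infer_instance
      · rw [h, pow_one] at hk
        exact isCyclic_of_prime_card hk
    have hc : IsMulCommutative G := isMulCommutative_of_isCyclic_quotient_center_self G
    have h1 : Group.nilpotencyClass G ≤ 1 := by
      rw [Group.IsNilpotent.nilpotencyClass_le_one_iff]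
      exact hc
    omega
  · push Not at hk1
    have h1 := ih k hkm hk1 (G := G ⧸ Subgroup.center G) hk
    have h2 := Group.nilpotencyClass_eq_quotient_center_plus_one (G := G)
    omega

/-- A finite group of prime-power order p ^ m with m > 1 is nilpotent of class at most m - 1. -/
theorem result {G : Type*} [Group G] [Finite G] (p m : ℕ) [Fact p.Prime]
    (hG : Nat.card G = p ^ m) (hm : 1 < m) : Group.nilpotencyClass G ≤ m - 1 := by
  exact aux m hm hG

end Cfsg.Agent.S0063
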