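import Cfsg.Statements.S0064

set_option autoImplicit false
open Cfsg

namespace Cfsg.Agent.S0064

/-- A finite group is nilpotent exactly when each of its subgroups is subnormal. -/
theorem result {G : Type*} [Group G] [Finite G] :
    Group.IsNilpotent G ↔ ∀ H : Subgroup G, H.IsSubnormal := by
  constructor
  · intro hG
    have hnc := Group.normalizerCondition_of_isNilpotent (G := G)
    intro H
    -- downward induction
    have key : ∀ n : ℕ, ∀ H : Subgroup G, H.index ≤ n → H.IsSubnormal := by
      intro n
      induction n with
      | zero =>
        intro H hH
        exact absurd (Nat.le_zero.mp hH) Subgroup.index_ne_zero_of_finite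
      | succ k ih =>
        intro H hH
        by_cases hT : H = ⊤
        · rw [hT]; exact Subgroup.IsSubnormal.top
        have hlt : H < Subgroup.normalizer (H : Set G) := hnc H (lt_top_iff_ne_top.mpr hT)
        have hidx := Subgroup.index_strictAnti hlt
        exact Subgroup.IsSubnormal.step H _ hlt.le (ih _ (by omega)) Subgroup.normal_in_normalizer
    exact key _ H le_rfl
  · intro h
    have h2 : NormalizerCondition G := by
      intro H hH
      rcases Subgroup.IsSubnormal.iff_eq_top_or_exists.mp (h H) with h1 | ⟨K, hHK, _, hN⟩
      · exact absurd h1 hH.ne
      · exact lt_of_lt_of_le hHK ((Subgroup.normal_subgroupOf_iff_le_normalizer hHK.le).mp hN)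
    exact (Group.isNilpotent_of_finite_tfae.out 1 0).mp h2

end Cfsg.Agent.S0064
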