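import Cfsg.Statements.S0065
import Cfsg.Agent.Lib.GroupUtil

set_option autoImplicit false
open Cfsg

namespace Cfsg.Agent.S0065

/-- A nontrivial normal subgroup of a nilpotent group intersects the centre nontrivially. -/
theorem result {G : Type*} [Group G] [Finite G] [Group.IsNilpotent G]
    (N : Subgroup G) [N.Normal] (hN : N ≠ ⊥) : N ⊓ Subgroup.center G ≠ ⊥ := by
  intro hbot
  apply hN
  -- consider the largest term of the lower central series of `N` w.r.t. `G`
  have hnil : Group.IsNilpotent (⊤ : Subgroup G) := (Group.isNilpotent_top (G := G)).mpr inferInstance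
  obtain ⟨n, hn⟩ := (Subgroup.isNilpotent_iff_lowerCentralSeries (⊤ : Subgroup G)).mp hnil
  have key : ∀ k : ℕ, N ⊓ (⊤ : Subgroup G).lowerCentralSeries k = ⊥ → N = ⊥ := by
    intro k
    induction k with
    | zero => intro h; simpa using h
    | succ j ih =>
      intro h
      apply ih
      rw [eq_bot_iff, ← hbot]
      rintro x ⟨hxN, hxj⟩
      refine ⟨hxN, ?_⟩
      show x ∈ Subgroup.center G
      rw [Subgroup.mem_center_iff]
      intro g
      have h1 : x * g * x⁻¹ * g⁻¹ ∈ N ⊓ (⊤ : Subgroup G).lowerCentralSeries (j + 1) := by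
        constructor
        · have e : x * g * x⁻¹ * g⁻¹ = x * (g * x⁻¹ * g⁻¹) := by group
          rw [e]
          exact N.mul_mem hxN ((inferInstance : N.Normal).conj_mem _ (N.inv_mem hxN) g)
        · rw [Subgroup.lowerCentralSeries_succ]
          exact Subgroup.commutator_mem_commutator hxj (Subgroup.mem_top g)
      rw [h, Subgroup.mem_bot, ← commutatorElement_def] at h1
      exact (commutatorElement_eq_one_iff_mul_comm.mp h1).symm
  exact key n (by rw [hn, inf_bot_eq])

end Cfsg.Agent.S0065
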