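import Cfsg.Statements.S0066
import Cfsg.Agent.Lib.ZipperH72
import Cfsg.Agent.Lib.Layer

set_option autoImplicit false
universe u
open Pointwise
open Cfsg

namespace Cfsg.Agent.S0066


open Pointwise

theorem main (n : ℕ) : ∀ {G : Type u} [Group G] [Finite G] (A : Subgroup G), Nat.card G ≤ n →
    (∀ g : G, (A.subgroupOf (A ⊔ MulAut.conj g • A)).IsSubnormal) → A.IsSubnormal := by
  induction n with
  | zero =>
    intro G _ _ A hn
    exact absurd hn (not_le.2 Nat.card_pos)
  | succ n ih =>
    intro G _ _ A hn h
    by_contra hA
    -- `A` is subnormal in every proper subgroup containing it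
    have hX : ∀ X : Subgroup G, A ≤ X → X ≠ ⊤ → (A.subgroupOf X).IsSubnormal := by
      intro X hAX hX
      have hcard : Nat.card X ≤ n := by
        have h1 : Nat.card X < Nat.card G := by
          have h2 : X < ⊤ := lt_top_iff_ne_top.2 hX
          have h3 := Subgroup.card_le_card_group X
          refine lt_of_le_of_ne h3 (fun h4 => hX (Subgroup.eq_top_of_card_eq X h4))
        omega
      refine ih (A.subgroupOf X) hcard ?_
      intro x
      have h1 := h (x : G)
      have hsup : A ⊔ MulAut.conj (x : G) • A ≤ X := by
        refine sup_le hAX ?_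
        intro y hy
        rw [Subgroup.mem_pointwise_smul_iff_inv_smul_mem] at hy
        have h2 : (x : G)⁻¹ * y * x ∈ A := by
          have : (MulAut.conj (x : G))⁻¹ • y = (x : G)⁻¹ * y * x := by
            show ((MulAut.conj (x : G))⁻¹) y = _
            rw [← map_inv, MulAut.conj_apply, inv_inv]
          rwa [this] at hy
        have h3 := X.mul_mem (X.mul_mem x.2 (hAX h2)) (X.inv_mem x.2)
        have h4 : (x : G) * ((x : G)⁻¹ * y * x) * (x : G)⁻¹ = y := by group
        rwa [h4] at h3
      have h2 := Cfsg.Agent.Lib.ZipperH72.snIn_comap hsup h1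
      have h3 : A.subgroupOf X ⊔ MulAut.conj x • (A.subgroupOf X) = (A ⊔ MulAut.conj (x : G) • A).subgroupOf X := by
        rw [Cfsg.Agent.Lib.ZipperH72.conj_subgroupOf]
        rw [Subgroup.subgroupOf_sup hAX (le_sup_right.trans hsup)]
      rw [h3]
      exact h2
    obtain ⟨M, hM, hAM, huniq⟩ := Cfsg.Agent.Lib.ZipperH72.zipper A hA hX
    -- all conjugates lie in `M`
    have hconj : ∀ g : G, MulAut.conj g • A ≤ M := by
      intro g
      have hne : A ⊔ MulAut.conj g • A ≠ ⊤ := by
        intro htop
        apply hA
        have h1 := h g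
        rw [htop] at h1
        exact Subgroup.IsSubnormal.trans le_top h1 Subgroup.IsSubnormal.top
      obtain ⟨K, hK, hle⟩ := (eq_top_or_exists_le_coatom (A ⊔ MulAut.conj g • A)).resolve_left hne
      have := huniq K hK (le_sup_left.trans hle)
      rw [← this]
      exact le_sup_right.trans hle
    let N : Subgroup G := Subgroup.normalClosure (A : Set G)
    have hAN : A ≤ N := Subgroup.subset_normalClosure
    have hNM : N ≤ M := by
      show Subgroup.closure (Group.conjugatesOfSet (A : Set G)) ≤ M
      rw [Subgroup.closure_le]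
      intro y hy
      obtain ⟨a, ha, hay⟩ := Group.mem_conjugatesOfSet_iff.1 hy
      obtain ⟨c, hc⟩ := isConj_iff.1 hay
      rw [← hc]
      exact hconj c ⟨a, ha, rfl⟩
    have hNtop : N ≠ ⊤ := fun h => hM.1 (top_le_iff.1 (h ▸ hNM))
    have hNn : N.Normal := Subgroup.normalClosure_normal
    exact hA (Subgroup.IsSubnormal.trans hAN (hX N hAN hNtop) hNn.isSubnormal)


/-- Wielandt's subnormality criterion: a subgroup that is subnormal in its join with each of its conjugates is subnormal in the whole finite group. -/
theorem result {G : Type*} [Group G] [Finite G] (A : Subgroup G)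
    (h : ∀ g : G, (A.subgroupOf (A ⊔ MulAut.conj g • A)).IsSubnormal) : A.IsSubnormal := by
  exact main (Nat.card G) A le_rfl h

end Cfsg.Agent.S0066
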