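import Cfsg.Statements.S0068
import Cfsg.Agent.Lib.FrobGroup
-- import your own Cfsg.Agent.* helpers here

set_option autoImplicit false
open Cfsg

namespace Cfsg.Agent.S0068

/-- Frobenius complements of even order: if H complements a nontrivial normal subgroup K, each nonidentity element of H has trivial centraliser in K, and H has even order, then H contains a unique involution s, K is abelian, and s inverts every element of K. -/
theorem result {G : Type*} [Group G] [Finite G] (K H : Subgroup G) [K.Normal]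
    (hc : Subgroup.IsComplement' K H) (hK : K ≠ ⊥) (hfpf : ∀ h ∈ H, h ≠ 1 → K ⊓ Subgroup.centralizer {h} = ⊥)
    (heven : 2 ∣ Nat.card H) :
    (∃ s ∈ H, orderOf s = 2 ∧ (∀ t ∈ H, orderOf t = 2 → t = s) ∧ ∀ k ∈ K, s * k * s⁻¹ = k⁻¹) ∧ IsMulCommutative K := by
  classical
  have hH : H ≠ ⊥ := by
    rintro rfl
    rw [Subgroup.card_bot] at heven
    omega
  have hF : Cfsg.IsFrobeniusComplement H :=
    (Cfsg.Agent.Lib.FrobGroup.isFrobeniusComplement_iff hc hK hH).2 hfpf
  have hker := Cfsg.Agent.Lib.FrobGroup.kernel_eq_of_complement hc hF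
  have := Fact.mk Nat.prime_two
  obtain ⟨s, hs⟩ := exists_prime_orderOf_dvd_card' (G := H) 2 heven
  have hs' : orderOf (s : G) = 2 := (Subgroup.orderOf_coe s).trans hs
  have hord : ∀ t : G, orderOf t = 2 → t ≠ 1 ∧ t * t = 1 := by
    intro t ht
    refine ⟨fun h => ?_, ?_⟩
    · rw [h, orderOf_one] at ht; omega
    · rw [← pow_two, ← ht]; exact pow_orderOf_eq_one t
  have hinv : ∀ k ∈ K, (s : G) * k * (s : G)⁻¹ = k⁻¹ := by
    intro k hk
    refine Cfsg.Agent.Lib.FrobGroup.invol_inverts hF s.2 (hord _ hs').1 (hord _ hs').2 ?_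
    rw [hker]; exact hk
  refine ⟨⟨s, s.2, hs', ?_, hinv⟩, ⟨⟨fun a b => Subtype.ext ?_⟩⟩⟩
  · intro t ht ht2
    exact Cfsg.Agent.Lib.FrobGroup.invol_unique hF s.2 (hord _ hs').1 (hord _ hs').2 ht
      (hord _ ht2).1 (hord _ ht2).2
  · have h1 := hinv _ (K.mul_mem a.2 b.2)
    have h2 : (s : G) * (a * b) * (s : G)⁻¹ = (s * a * (s : G)⁻¹) * (s * b * (s : G)⁻¹) := by group
    rw [h2, hinv a a.2, hinv b b.2, ← mul_inv_rev] at h1
    exact (inv_injective h1).symm

end Cfsg.Agent.S0068
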