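import Cfsg.Statements.S0069
import Cfsg.Agent.Lib.FrobAction2
import Cfsg.Agent.Lib.FrobAction3
-- import your own Cfsg.Agent.* helpers here

set_option autoImplicit false
open Cfsg

namespace Cfsg.Agent.S0069

/-- A Frobenius complement has nontrivial centre: if H ≠ 1 complements a nontrivial normal subgroup K and every nonidentity element of H has trivial centraliser in K, then the centre of H is nontrivial. -/
theorem result {G : Type*} [Group G] [Finite G] (K H : Subgroup G) [K.Normal]
    (hc : Subgroup.IsComplement' K H) (hK : K ≠ ⊥) (hH : H ≠ ⊥) (hfpf : ∀ h ∈ H, h ≠ 1 → K ⊓ Subgroup.centralizer {h} = ⊥) :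
    Subgroup.center H ≠ ⊥ := by
  classical
  obtain ⟨V, act, -, hV1, hVab, hact⟩ := Cfsg.Agent.Lib.FrobAction2.exists_fpf_action hc hK hfpf
  let _ : CommGroup V := { (inferInstance : Group V) with
    mul_comm := fun a b => Subtype.ext (hVab a a.2 b b.2) }
  have : Nontrivial V := (Subgroup.nontrivial_iff_ne_bot V).2 hV1
  have : Nontrivial H := (Subgroup.nontrivial_iff_ne_bot H).2 hH
  have hf : Cfsg.Agent.Lib.FrobAction.IsFPF act := hact
  obtain ⟨z, hz1, hz⟩ := Cfsg.Agent.Lib.FrobAction3.exists_central hf
  intro h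
  apply hz1
  have : z ∈ Subgroup.center H := Subgroup.mem_center_iff.2 hz
  rwa [h, Subgroup.mem_bot] at this

end Cfsg.Agent.S0069
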