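import Cfsg.Statements.S0078
import Cfsg.Agent.Lib.TateApps

set_option autoImplicit false
open Cfsg

namespace Cfsg.Agent.S0078

/-- In a p-normal group, a Sylow p-subgroup P meets O^p(G) exactly where it meets O^p(V), for any subgroup V containing the normalizer of the centre of P. -/
theorem result {G : Type*} [Group G] [Finite G] {p : ℕ} [Fact p.Prime] (P : Sylow p G) (hn : ∀ Q : Sylow p G, (P : Subgroup G) ⊓ Subgroup.centralizer (P : Set G) ≤ (Q : Subgroup G) → (Q : Subgroup G) ⊓ Subgroup.centralizer (Q : Set G) = (P : Subgroup G) ⊓ Subgroup.centralizer (P : Set G)) (V : Subgroup G) (hV : Subgroup.normalizer (((P : Subgroup G) ⊓ Subgroup.centralizer (P : Set G) : Subgroup G) : Set G) ≤ V) : (P : Subgroup G) ⊓ Cfsg.pResidual p G = (P : Subgroup G) ⊓ (Cfsg.pResidual p V).map V.subtype := by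
  have hW := Cfsg.Agent.Lib.TateApps.weaklyClosed_of_pnormal P hn
  have hPZ : (P : Subgroup G) ≤ V := by
    refine le_trans ?_ hV
    intro x hx
    rw [Subgroup.mem_normalizer_iff]
    intro z
    constructor
    · rintro ⟨hz1, hz2⟩
      have h1 := hz2 x hx
      have h2 : x * z * x⁻¹ = z := by rw [h1]; group
      show x * z * x⁻¹ ∈ (P : Subgroup G) ⊓ Subgroup.centralizer (P : Set G)
      rw [h2]
      exact ⟨hz1, hz2⟩
    · rintro ⟨hz1, hz2⟩
      have h1 := hz2 x hx
      have h2 : x * z * x⁻¹ = z := by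
        have h3 : x * (x * z * x⁻¹) * x⁻¹ = x * z * x⁻¹ := by rw [h1]; group
        have h4 := mul_left_cancel (mul_right_cancel h3)
        exact h4
      show z ∈ (P : Subgroup G) ⊓ Subgroup.centralizer (P : Set G)
      rw [h2] at hz1 hz2
      exact ⟨hz1, hz2⟩
  apply Cfsg.Agent.Lib.TateApps.sylow_inf_pResidual_eq_of_controls P V hPZ
  intro x hx g hg
  obtain ⟨n, hn, h⟩ := Cfsg.Agent.Lib.FusionControl.weaklyClosed_central_controls P _ inf_le_right hW {x}
    (by simpa using hx) g (by simpa using hg)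
  exact ⟨n, hV hn, h x rfl⟩

end Cfsg.Agent.S0078
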