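import Cfsg.Statements.S0084
import Cfsg.Agent.Lib.TransferApps2

set_option autoImplicit false
open Cfsg

namespace Cfsg.Agent.S0084

/-- A group whose Sylow 2-subgroups are Klein four-groups and whose order is prime to 3 has a normal 2-complement. -/
theorem result {G : Type*} [Group G] [Finite G] (T : Sylow 2 G) (hT : IsKleinFour T) (h3 : ¬ 3 ∣ Nat.card G) : Cfsg.HasNormalPComplement 2 G := by
  have hcard : Nat.card T = 4 := hT.card_four
  have hcomm : IsMulCommutative T := hT.isMulCommutative
  apply Cfsg.Agent.Lib.TransferApps2.hasNormalPComplement_of_small T hcomm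
  intro r hr hr2 hrG d hd hmod
  have hr3 : r ≠ 3 := by rintro rfl; exact h3 hrG
  rw [hcard] at hd hmod ⊢
  have hd4 : d ≤ 4 := Nat.le_of_dvd (by norm_num) hd
  have h5 : r ∣ 4 - d := (Nat.modEq_iff_dvd' hd4).mp hmod.symm
  have hr5 : 4 ≤ r := by
    have := hr.two_le
    omega
  have hd0 : 0 < d := Nat.pos_of_dvd_of_pos hd (by norm_num)
  by_contra hne
  have := Nat.le_of_dvd (by omega) h5
  omega

end Cfsg.Agent.S0084
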