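import Cfsg.Statements.S0085
import Cfsg.Agent.Lib.TransferApps2

set_option autoImplicit false
open Cfsg

namespace Cfsg.Agent.S0085

/-- A group whose Sylow 2-subgroups are elementary abelian of order 8 and whose order is prime to 3 and to 7 has a normal 2-complement. -/
theorem result {G : Type*} [Group G] [Finite G] (T : Sylow 2 G) (h8 : Nat.card T = 8) (he : ∀ x : T, x * x = 1) (h3 : ¬ 3 ∣ Nat.card G) (h7 : ¬ 7 ∣ Nat.card G) : Cfsg.HasNormalPComplement 2 G := by
  have hcomm : IsMulCommutative T := by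
    refine ⟨⟨fun a b => ?_⟩⟩
    have hinv : ∀ x : T, x⁻¹ = x := fun x => inv_eq_of_mul_eq_one_left (he x)
    calc a * b = (a * b)⁻¹ := (hinv _).symm
      _ = b⁻¹ * a⁻¹ := mul_inv_rev _ _
      _ = b * a := by rw [hinv, hinv]
  apply Cfsg.Agent.Lib.TransferApps2.hasNormalPComplement_of_small T hcomm
  intro r hr hr2 hrG d hd hmod
  have hr3 : r ≠ 3 := by rintro rfl; exact h3 hrG
  have hr7 : r ≠ 7 := by rintro rfl; exact h7 hrG
  rw [h8] at hd hmod ⊢
  have hd8 : d ≤ 8 := Nat.le_of_dvd (by norm_num) hd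
  have h5 : r ∣ 8 - d := (Nat.modEq_iff_dvd' hd8).mp hmod.symm
  have hr5 : 5 ≤ r := by
    have := hr.two_le
    have : r ≠ 4 := by rintro rfl; norm_num at hr
    omega
  have hd0 : 0 < d := Nat.pos_of_dvd_of_pos hd (by norm_num)
  by_contra hne
  have hle := Nat.le_of_dvd (by omega) h5
  have hr6 : r ≠ 6 := by rintro rfl; norm_num at hr
  have hd3 : d ≠ 3 := by rintro rfl; norm_num at hd
  have hrr : r = 5 := by omega
  subst hrr
  omega

end Cfsg.Agent.S0085
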