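import Cfsg.Statements.S0099
import Cfsg.Agent.Lib.Extraspecial

set_option autoImplicit false
open Cfsg

namespace Cfsg.Agent.S0099

/-- Among three extraspecial 2-groups of equal order, some two are isomorphic. -/
theorem result {E₁ : Type*} {E₂ : Type*} {E₃ : Type*} [Group E₁] [Group E₂] [Group E₃] [Finite E₁] [Finite E₂] [Finite E₃] (h₁ : Cfsg.IsExtraspecial 2 E₁) (h₂ : Cfsg.IsExtraspecial 2 E₂) (h₃ : Cfsg.IsExtraspecial 2 E₃) (h12 : Nat.card E₁ = Nat.card E₂) (h23 : Nat.card E₂ = Nat.card E₃) : Nonempty (E₁ ≃* E₂) ∨ Nonempty (E₂ ≃* E₃) ∨ Nonempty (E₁ ≃* E₃) := by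
  have hp : Fact (Nat.Prime 2) := ⟨Nat.prime_two⟩
  obtain ⟨z₁, hz₁⟩ := Cfsg.Agent.Lib.Extraspecial.XS.of_extraspecial h₁
  obtain ⟨z₂, hz₂⟩ := Cfsg.Agent.Lib.Extraspecial.XS.of_extraspecial h₂
  obtain ⟨z₃, hz₃⟩ := Cfsg.Agent.Lib.Extraspecial.XS.of_extraspecial h₃
  rcases Cfsg.Agent.Lib.Extraspecial.iso_of_three (Nat.card E₁) E₁ E₂ E₃ z₁ z₂ z₃ hz₁ hz₂ hz₃ h12 h23 le_rfl
    with ⟨e, -⟩ | ⟨e, -⟩ | ⟨e, -⟩
  · exact Or.inl ⟨e⟩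
  · exact Or.inr (Or.inl ⟨e⟩)
  · exact Or.inr (Or.inr ⟨e⟩)

end Cfsg.Agent.S0099
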