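import Cfsg.Statements.S0102
import Cfsg.Agent.Lib.TransferApps2

set_option autoImplicit false
open Cfsg

namespace Cfsg.Agent.S0102

/-- A finite perfect group with cyclic Sylow p-subgroups has no perfect central extension whose kernel has order divisible by p. -/
theorem result {G : Type*} {H : Type*} [Group G] [Group H] [Finite G] [Finite H] (hG : commutator G = ⊤) {p : ℕ} [Fact p.Prime] (hcyc : ∀ P : Sylow p G, IsCyclic P) (σ : H →* G) (hσ : Function.Surjective σ) (hz : σ.ker ≤ Subgroup.center H) (hH : commutator H = ⊤) : ¬ p ∣ Nat.card σ.ker := by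
  intro hd
  obtain ⟨x, hx⟩ := exists_prime_orderOf_dvd_card' p hd
  have hz' : IsPGroup p (Subgroup.zpowers (x : H)) := by
    apply IsPGroup.of_card (n := 1)
    rw [Nat.card_zpowers, Subgroup.orderOf_coe, hx, pow_one]
  obtain ⟨P, hP⟩ := hz'.exists_le_sylow
  have hcycQ : IsCyclic (P.mapSurjective hσ : Subgroup G) := hcyc _
  -- P is abelian
  have hcomm : IsMulCommutative P := by
    let f : (P : Subgroup H) →* (P.mapSurjective hσ : Subgroup G) := σ.subgroupMap P
    refine ⟨⟨fun a b => ?_⟩⟩
    have hker : f.ker ≤ Subgroup.center (P : Subgroup H) := by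
      intro y hy
      have h1 : (y : H) ∈ σ.ker := by
        rw [MonoidHom.mem_ker] at hy ⊢
        exact congrArg Subtype.val hy
      rw [Subgroup.mem_center_iff]
      intro g
      apply Subtype.ext
      exact Subgroup.mem_center_iff.mp (hz h1) g
    have hcf : IsCyclic f.range := inferInstance
    exact commutative_of_cyclic_center_quotient f hker a b
  have h1 := Cfsg.Agent.Lib.TransferApps.abelian_hall_inf_commutator_inf_center (P : Subgroup H) hcomm P.card_coprime_index
  have h2 : (x : H) ∈ (P : Subgroup H) ⊓ commutator H ⊓ Subgroup.center H :=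
    ⟨⟨hP (Subgroup.mem_zpowers _), by rw [hH]; trivial⟩, hz x.2⟩
  rw [h1, Subgroup.mem_bot] at h2
  have h5 : orderOf x = 1 := by rw [← Subgroup.orderOf_coe, h2, orderOf_one]
  rw [hx] at h5
  exact (Fact.out : p.Prime).one_lt.ne' h5

end Cfsg.Agent.S0102
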