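import Cfsg.Statements.S0103
import Cfsg.Agent.Lib.FusionControl

set_option autoImplicit false
open Cfsg

namespace Cfsg.Agent.S0103

/-- If a Sylow p-subgroup P intersects every distinct conjugate trivially, then its normalizer controls fusion in P. -/
theorem result {G : Type*} [Group G] [Finite G] {p : ℕ} [Fact p.Prime] (P : Sylow p G) (hTI : ∀ g : G, (P : Subgroup G).map (MulAut.conj g).toMonoidHom ≠ (P : Subgroup G) → (P : Subgroup G) ⊓ (P : Subgroup G).map (MulAut.conj g).toMonoidHom = ⊥) (x y : G) (hx : x ∈ P) (hy : y ∈ P) (hc : ∃ g : G, g * x * g⁻¹ = y) : ∃ n ∈ Subgroup.normalizer (P : Set G), n * x * n⁻¹ = y := by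
  obtain ⟨g, rfl⟩ := hc
  by_cases h1 : x = 1
  · subst h1
    exact ⟨1, Subgroup.one_mem _, by simp⟩
  by_cases h2 : (P : Subgroup G).map (MulAut.conj g).toMonoidHom = (P : Subgroup G)
  · refine ⟨g, ?_, rfl⟩
    rw [Cfsg.Agent.Lib.GroupUtil.map_conj_eq_smul] at h2
    exact (Cfsg.Agent.Lib.GroupUtil.mem_normalizer_iff_smul _ _).mpr h2
  · exfalso
    have h3 := hTI g h2
    have h4 : g * x * g⁻¹ ∈ (P : Subgroup G) ⊓ (P : Subgroup G).map (MulAut.conj g).toMonoidHom := by
      refine ⟨hy, ?_⟩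
      show g * x * g⁻¹ ∈ (P : Subgroup G).map (MulAut.conj g).toMonoidHom
      rw [Cfsg.Agent.Lib.GroupUtil.mem_map_conj]
      have : g⁻¹ * (g * x * g⁻¹) * g = x := by group
      rw [this]; exact hx
    rw [h3, Subgroup.mem_bot] at h4
    apply h1
    simpa using h4

end Cfsg.Agent.S0103
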