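import Cfsg.Statements.S0104
import Cfsg.Agent.Lib.FusionControl

set_option autoImplicit false
open Cfsg

namespace Cfsg.Agent.S0104

/-- A subgroup Z of a Sylow p-subgroup P that is normalized by N_G(P) is weakly closed in P exactly when it is normal in every Sylow p-subgroup containing it. -/
theorem result {G : Type*} [Group G] [Finite G] {p : ℕ} [Fact p.Prime] (P : Sylow p G) (Z : Subgroup G) (hZP : Z ≤ (P : Subgroup G)) (hZN : Subgroup.normalizer (P : Set G) ≤ Subgroup.normalizer (Z : Set G)) : Cfsg.IsWeaklyClosed Z P ↔ ∀ R : Sylow p G, Z ≤ (R : Subgroup G) → (R : Subgroup G) ≤ Subgroup.normalizer (Z : Set G) := by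
  constructor
  · intro hW R hR
    obtain ⟨k, hk⟩ := MulAction.exists_smul_eq G P R
    have h1 : Z.map (MulAut.conj k⁻¹).toMonoidHom = Z := by
      apply hW.2 k⁻¹
      intro z hz
      rw [Cfsg.Agent.Lib.GroupUtil.mem_map_conj, inv_inv] at hz
      have h7 : k * z * k⁻¹ ∈ (R : Subgroup G) := hR hz
      rw [← hk, Cfsg.Agent.Lib.GroupUtil.mem_smul_sylow] at h7
      have e : k⁻¹ * (k * z * k⁻¹) * k = z := by group
      rwa [e] at h7
    have hk1 : k⁻¹ ∈ Subgroup.normalizer (Z : Set G) :=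
      (Cfsg.Agent.Lib.GroupUtil.mem_normalizer_iff_smul _ _).mpr h1
    intro x hx
    rw [← hk, Cfsg.Agent.Lib.GroupUtil.mem_smul_sylow] at hx
    have h2 := hZN (Subgroup.le_normalizer hx)
    have h3 := (Subgroup.normalizer (Z : Set G)).mul_mem ((Subgroup.normalizer (Z : Set G)).mul_mem
      ((Subgroup.normalizer (Z : Set G)).inv_mem hk1) h2) hk1
    have e : k⁻¹⁻¹ * (k⁻¹ * x * k) * k⁻¹ = x := by group
    rwa [e] at h3
  · intro h
    refine ⟨hZP, fun g hg => ?_⟩
    have hR : Z ≤ ((g⁻¹ • P : Sylow p G) : Subgroup G) := by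
      intro z hz
      rw [Cfsg.Agent.Lib.GroupUtil.mem_smul_sylow, inv_inv]
      apply hg
      rw [Cfsg.Agent.Lib.GroupUtil.mem_map_conj]
      have e : g⁻¹ * (g * z * g⁻¹) * g = z := by group
      rwa [e]
    have h1 := h _ hR
    have h2 : (P : Subgroup G) ≤ Subgroup.normalizer (Z : Set G) := Subgroup.le_normalizer.trans hZN
    obtain ⟨n, hn, hng⟩ := Cfsg.Agent.Lib.FusionControl.exists_mul_mem_normalizer P _ g⁻¹ h2 h1
    have h3 := hZN hng
    have h4 : g ∈ Subgroup.normalizer (Z : Set G) := by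
      have := (Subgroup.normalizer (Z : Set G)).inv_mem
        ((Subgroup.normalizer (Z : Set G)).mul_mem ((Subgroup.normalizer (Z : Set G)).inv_mem hn) h3)
      have e : (n⁻¹ * (n * g⁻¹))⁻¹ = g := by group
      rwa [e] at this
    rw [Cfsg.Agent.Lib.GroupUtil.map_conj_eq_smul]
    exact (Cfsg.Agent.Lib.GroupUtil.mem_normalizer_iff_smul _ _).mp h4

end Cfsg.Agent.S0104
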