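import Cfsg.Statements.S0106
import Cfsg.Agent.Lib.Transfer
import Cfsg.Agent.Lib.QuatSylow
import Cfsg.Agent.Lib.H55Quat

set_option autoImplicit false
open Cfsg

namespace Cfsg.Agent.S0106

/-- A finite group with generalized quaternion Sylow 2-subgroups either has a normal 2-complement or has a section isomorphic to SL(2,3). -/
theorem result {G : Type*} [Group G] [Finite G] (T : Sylow 2 G) (n : ℕ) (hn : 1 ≤ n) (hT : Nonempty ((T : Subgroup G) ≃* QuaternionGroup (2 ^ n))) : Cfsg.HasNormalPComplement 2 G ∨ ∃ (H K : Subgroup G) (hK : (K.subgroupOf H).Normal), Nonempty ((H ⧸ K.subgroupOf H) ≃* Matrix.SpecialLinearGroup (Fin 2) (ZMod 3)) := by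
  have hf2 : Fact (Nat.Prime 2) := ⟨Nat.prime_two⟩
  obtain ⟨e⟩ := hT
  by_cases h : Cfsg.HasNormalPComplement 2 G
  · exact Or.inl h
  right
  rw [Cfsg.Agent.Lib.Transfer.hasNormalPComplement_iff_le_sylow T] at h
  push Not at h
  obtain ⟨Q, hQT, g, hgN, hgo, hgC⟩ := h
  have hne : NeZero (2 ^ n) := ⟨by positivity⟩
  have hinv : ∀ u ∈ Q, ∀ v ∈ Q, orderOf u = 2 → orderOf v = 2 → u = v := by
    intro u hu v hv h1 h2
    have k1 : e ⟨u, hQT hu⟩ = QuaternionGroup.a ((2 ^ n : ℕ) : ZMod (2 * 2 ^ n)) :=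
      Cfsg.Agent.Lib.H55Quat.eq_of_orderOf_two (2 ^ n) (by rw [MulEquiv.orderOf_eq, Subgroup.orderOf_mk, h1])
    have k2 : e ⟨v, hQT hv⟩ = QuaternionGroup.a ((2 ^ n : ℕ) : ZMod (2 * 2 ^ n)) :=
      Cfsg.Agent.Lib.H55Quat.eq_of_orderOf_two (2 ^ n) (by rw [MulEquiv.orderOf_eq, Subgroup.orderOf_mk, h2])
    have k3 := e.injective (k1.trans k2.symm)
    exact congrArg Subtype.val k3
  obtain ⟨x, hx, y, hy, h1, h2, h3, h4, h5, h6⟩ :=
    Cfsg.Agent.Lib.QuatSylow.quaternion_action (T.2.to_le hQT) hinv hgo hgN hgC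
  obtain ⟨H, K, hK, h⟩ := Cfsg.Agent.Lib.QuatSylow.exists_section h6 hgo hgN hx hy h1 h2 h3 h4 h5
  exact ⟨H, K, hK, h⟩

end Cfsg.Agent.S0106
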