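import Cfsg.Statements.S0109
import Cfsg.Agent.Lib.ThompsonFact
import Cfsg.Agent.Lib.WSup
import Cfsg.Agent.Lib.PLength

set_option autoImplicit false
open Cfsg

namespace Cfsg.Agent.S0109

/-- The Thompson factorization Theorem for solvable groups states that, with p odd (and abelian Sylow 2-subgroups when p = 3) and no nontrivial normal subgroup of order prime to p, every element of G is a product of an element normalizing J(P) and an element centralizing the elements of order dividing p in the centre of P. -/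
theorem result {G : Type*} [Group G] [Finite G] {p : ℕ} [Fact p.Prime] (hp : p ≠ 2) (hs : Group.IsSolvable G) (h3 : p = 3 → ∀ T : Sylow 2 G, IsMulCommutative T) (hF : ∀ N : Subgroup G, N.Normal → Nat.Coprime (Nat.card N) p → N = ⊥) (P : Sylow p G) (g : G) : ∃ a ∈ Subgroup.normalizer (Cfsg.thompsonSubgroupOf p (P : Subgroup G) : Set G), ∃ c ∈ Subgroup.centralizer {x : G | x ∈ (P : Subgroup G) ∧ (∀ y ∈ (P : Subgroup G), x * y = y * x) ∧ x ^ p = 1}, g = a * c := by
  have hps : Cfsg.IsPSolvable p G := Lib.PLength.isPSolvable_of_isSolvable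
  have h1 : Cfsg.pPrimeCore p G = ⊥ :=
    hF _ inferInstance (Lib.Cores.coprime_card_pPrimeCore p G)
  have hc : Subgroup.centralizer (Cfsg.pCore p G : Set G) ≤ Cfsg.pCore p G :=
    (Lib.PConstraint.isPConstrained_iff_of_pPrimeCore_eq_bot h1).1 (Lib.WSup.isPConstrained_of_isPSolvable hps)
  have hinv : ¬ Cfsg.Involves (Matrix.SpecialLinearGroup (Fin 2) (ZMod p)) G := by
    by_cases hp3 : p = 3
    · exact Lib.PStabInvolve.not_involves_sl2_of_abelian hp (h3 hp3)
    · apply Lib.PSolvStable.not_involves_of_isPSolvable _ hps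
      have h2 := (Fact.out : p.Prime).two_le
      have h4 : p ≠ 4 := by
        rintro rfl
        exact absurd (Fact.out : Nat.Prime 4) (by decide)
      omega
  set Z := Cfsg.omegaOne p ((P : Subgroup G) ⊓ Subgroup.centralizer ((P : Subgroup G) : Set G)) with hZ
  have hZc : Z ≤ Subgroup.centralizer ((P : Subgroup G) : Set G) :=
    (Lib.ThompsonJ.omegaOne_le _).trans inf_le_right
  obtain ⟨-, h2⟩ := Lib.ThompsonFact.factor hp hc
    (fun V _ hV => Lib.PStabInvolve.isPStableOn hp Lib.PStabInvolve.obst_sl2 hinv V hV)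
    (Lib.RelSylow.isSyl_top_iff P) hZc
  obtain ⟨c, hc', n, hn, hg⟩ := h2 g⁻¹
  refine ⟨n⁻¹, ?_, c⁻¹, ?_, ?_⟩
  · rw [Lib.ThompsonJ.thompsonSubgroupOf_eq]
    exact inv_mem hn
  · apply inv_mem
    refine Subgroup.centralizer_le ?_ hc'
    intro x hx
    apply Subgroup.subset_normalClosure
    refine Lib.ThompsonJ.mem_omegaOne (Subgroup.mem_inf.2 ⟨hx.1, ?_⟩) hx.2.2
    rw [Subgroup.mem_centralizer_iff]
    intro y hy
    exact (hx.2.1 y hy).symm
  · rw [← mul_inv_rev, ← hg, inv_inv]

end Cfsg.Agent.S0109
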