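import Cfsg.Statements.S0119
import Cfsg.Agent.Lib.Critical

set_option autoImplicit false
open Cfsg

namespace Cfsg.Agent.S0119

/-- If a p'-group A of automorphisms of a p-group G satisfies G = [G, A] and acts trivially on every characteristic abelian subgroup, then G is special with centre equal to the fixed points of A. -/
theorem result {G : Type*} [Group G] [Finite G] {p : ℕ} [Fact p.Prime] (hG : IsPGroup p G) (A : Subgroup (MulAut G)) (hA : Nat.Coprime (Nat.card A) p) (hGA : Subgroup.closure {x : G | ∃ g : G, ∃ a ∈ A, x = g⁻¹ * a g} = ⊤) (hchar : ∀ H : Subgroup G, H.Characteristic → IsMulCommutative H → ∀ a ∈ A, ∀ h ∈ H, a h = h) : Cfsg.IsSpecial p G ∧ (∀ g : G, (g ∈ Subgroup.center G ↔ ∀ a ∈ A, a g = g)) := by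
  exact Cfsg.Agent.Lib.Critical.special_of_trivial hG A hA hGA hchar

end Cfsg.Agent.S0119
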