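import Cfsg.Statements.S0122
import Cfsg.Agent.Lib.NormalE4
import Cfsg.Agent.Lib.NormalE2

set_option autoImplicit false
open Cfsg

namespace Cfsg.Agent.S0122

/-- For odd p, a p-group containing an elementary abelian subgroup of order p^4 has a normal elementary abelian subgroup of order p^4. -/
theorem result {G : Type*} [Group G] [Finite G] {p : ℕ} [Fact p.Prime] (hp : p ≠ 2) (hG : IsPGroup p G) (E : Subgroup G) (hE : Cfsg.IsElementaryAbelian p E) (hE4 : Nat.card E = p ^ 4) : ∃ A : Subgroup G, A.Normal ∧ Cfsg.IsElementaryAbelian p A ∧ Nat.card A = p ^ 4 := by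
  have hpp : p.Prime := Fact.out
  by_contra hcon
  apply hcon
  refine ⟨E, ?_, hE, hE4⟩
  apply Lib.NormalE4.normal_of_no_big hp hG hE hE4
  intro V hVn hVe
  by_contra hlt
  push Not at hlt
  obtain ⟨k, hk⟩ := IsPGroup.iff_card.1 (hG.to_subgroup V)
  have h4 : p ^ 4 ≤ Nat.card V := Lib.NormalE4.dvd_ge hpp (k := k) (by rw [hk]) hlt
  obtain ⟨L, hLn, hLV, hLc⟩ := Lib.PGroupOdd.exists_normal_card' hG hVn h4
  exact hcon ⟨L, hLn, Lib.NormalE2.elemAb_mono hLV hVe, hLc⟩

end Cfsg.Agent.S0122
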