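import Cfsg.Statements.S0123
import Cfsg.Agent.Lib.H3PowThree

set_option autoImplicit false
open Cfsg

namespace Cfsg.Agent.S0123

/-- For a p-group of small class relative to p (class ≤ 2 with p odd, or class ≤ 3 with p > 3) whose derived subgroup is generated by elements of order dividing p, the p-th power map is multiplicative. -/
theorem result {R : Type*} [Group R] [Finite R] {p : ℕ} [Fact p.Prime] (hR : IsPGroup p R) (hcl : (p ≠ 2 ∧ ⁅commutator R, (⊤ : Subgroup R)⁆ = ⊥) ∨ (3 < p ∧ ⁅⁅commutator R, (⊤ : Subgroup R)⁆, (⊤ : Subgroup R)⁆ = ⊥)) (hder : commutator R ≤ Subgroup.closure {x : R | x ^ p = 1}) (x y : R) : (x * y) ^ p = x ^ p * y ^ p := by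
  exact Cfsg.Agent.Lib.H3PowThree.pow_hom (Fact.out : p.Prime) hcl hder x y

end Cfsg.Agent.S0123
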