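import Cfsg.Statements.S0125
import Cfsg.Agent.Lib.H34Basic
import Cfsg.Agent.Lib.ProdCard

set_option autoImplicit false
open Cfsg

namespace Cfsg.Agent.S0125

/-- The centralizer of a self-centralizing normal subgroup A of a Sylow p-subgroup is the direct product of A with a normal p'-subgroup. -/
theorem result {G : Type*} [Group G] [Finite G] {p : ℕ} [Fact p.Prime] (R : Sylow p G) (A : Subgroup G) (hAR : A ≤ (R : Subgroup G)) (hAn : (R : Subgroup G) ≤ Subgroup.normalizer (A : Set G)) (hC : (R : Subgroup G) ⊓ Subgroup.centralizer (A : Set G) = A) : ∃ H : Subgroup G, H ≤ Subgroup.centralizer (A : Set G) ∧ Nat.Coprime (Nat.card H) p ∧ Subgroup.centralizer (A : Set G) ≤ Subgroup.normalizer (H : Set G) ∧ H ⊓ A = ⊥ ∧ H ⊔ A = Subgroup.centralizer (A : Set G) := by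
  set C : Subgroup G := Subgroup.centralizer (A : Set G) with hCdef
  have hAC : A ≤ C := hC ▸ inf_le_right
  have hRC : (R : Subgroup G) ≤ Subgroup.normalizer (C : Set G) := by
    refine hAn.trans ?_
    intro x hx
    rw [Subgroup.mem_normalizer_iff]
    intro y
    have key : ∀ z : G, z ∈ Subgroup.normalizer (A : Set G) → ∀ y ∈ C, z * y * z⁻¹ ∈ C := by
      intro z hz y hy
      rw [hCdef, Subgroup.mem_centralizer_iff] at hy ⊢
      intro a ha
      have h1 : z⁻¹ * a * z ∈ A := by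
        have := (Subgroup.mem_normalizer_iff.mp ((Subgroup.normalizer (A : Set G)).inv_mem hz) a).mp ha
        simpa using this
      have h2 := hy _ h1
      calc a * (z * y * z⁻¹) = z * ((z⁻¹ * a * z) * y) * z⁻¹ := by group
        _ = z * (y * (z⁻¹ * a * z)) * z⁻¹ := by rw [h2]
        _ = z * y * z⁻¹ * a := by group
    constructor
    · exact key x hx y
    · intro h
      have := key x⁻¹ ((Subgroup.normalizer (A : Set G)).inv_mem hx) _ h
      have h3 : x⁻¹ * (x * y * x⁻¹) * x⁻¹⁻¹ = y := by group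
      rwa [h3] at this
  -- `A` as a Sylow subgroup of `C`
  have hidx : ¬ p ∣ (A.subgroupOf C).index := by
    have h1 : (A.subgroupOf C).index = (R : Subgroup G).relIndex C := by
      show A.relIndex C = _
      conv_lhs => rw [← hC]
      rw [Subgroup.inf_relIndex_right]
    rw [h1, ← Cfsg.Agent.Lib.ProdCard.relIndex_sup_left_of_le_normalizer hRC]
    intro hd
    have h2 := Subgroup.relIndex_mul_index (le_sup_left : (R : Subgroup G) ≤ (R : Subgroup G) ⊔ C)
    exact R.not_dvd_index (h2 ▸ Dvd.dvd.mul_right hd _)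
  have hAp : IsPGroup p (A.subgroupOf C) := by
    have h1 : IsPGroup p A := R.isPGroup'.to_le hAR
    exact h1.of_equiv (Subgroup.subgroupOfEquivOfLe hAC).symm
  let Q : Sylow p C := hAp.toSylow hidx
  have hQ : (Q : Subgroup C) = A.subgroupOf C := rfl
  have hQc : (Q : Subgroup C) ≤ Subgroup.center C := by
    rw [hQ]
    intro x hx
    rw [Subgroup.mem_center_iff]
    intro y
    apply Subtype.ext
    have h1 := (Subgroup.mem_centralizer_iff.mp y.2) x (Subgroup.mem_subgroupOf.mp hx)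
    exact h1.symm
  obtain ⟨K, hKn, hK1, hK2, _⟩ := Cfsg.Agent.Lib.H34Basic.exists_compl_of_central_sylow Q hQc
  refine ⟨K.map C.subtype, ?_, ?_, ?_, ?_, ?_⟩
  · rintro _ ⟨x, _, rfl⟩
    exact x.2
  · rw [Subgroup.card_map_of_injective (Subgroup.subtype_injective C)]
    exact hK2
  · intro x hx
    rw [Subgroup.mem_normalizer_iff]
    intro y
    constructor
    · rintro ⟨k, hk, rfl⟩
      exact ⟨⟨x, hx⟩ * k * ⟨x, hx⟩⁻¹, hKn.conj_mem k hk _, rfl⟩
    · rintro ⟨k, hk, hky⟩
      refine ⟨⟨x, hx⟩⁻¹ * k * ⟨x, hx⟩, by simpa using hKn.conj_mem k hk ⟨x, hx⟩⁻¹, ?_⟩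
      have h1 : (k : G) = x * y * x⁻¹ := hky
      show x⁻¹ * (k : G) * x = y
      rw [h1]; group
  · rw [eq_bot_iff]
    intro y hy
    obtain ⟨⟨k, hk, rfl⟩, hyA⟩ := Subgroup.mem_inf.mp hy
    have h1 : k ∈ K ⊓ (Q : Subgroup C) := ⟨hk, Subgroup.mem_subgroupOf.mpr hyA⟩
    rw [hK1.isCompl.inf_eq_bot, Subgroup.mem_bot] at h1
    rw [h1]
    exact Subgroup.one_mem _
  · have h1 : K ⊔ (Q : Subgroup C) = ⊤ := hK1.isCompl.sup_eq_top
    have h2 : (A.subgroupOf C).map C.subtype = A := by
      rw [Subgroup.subgroupOf_map_subtype]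
      exact inf_eq_left.mpr hAC
    rw [hQ] at h1
    calc K.map C.subtype ⊔ A = K.map C.subtype ⊔ (A.subgroupOf C).map C.subtype := by rw [h2]
      _ = (K ⊔ A.subgroupOf C).map C.subtype := (Subgroup.map_sup _ _ _).symm
      _ = C := by rw [h1, ← MonoidHom.range_eq_map, Subgroup.range_subtype]

end Cfsg.Agent.S0125
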