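import Cfsg.Statements.S0127
import Cfsg.Agent.Lib.PGroupRankThree

set_option autoImplicit false
open Cfsg

namespace Cfsg.Agent.S0127

theorem result {R : Type*} [Group R] [Finite R] {p : ℕ} [Fact p.Prime] (hp : p ≠ 2) (hR : IsPGroup p R) (hnc : ¬ IsCyclic R) (C : Subgroup R) (hC : IsCyclic C) (hCi : C.index = p) : Cfsg.IsElementaryAbelian p (Subgroup.closure {x : R | x ^ p = 1}) ∧ Nat.card (Subgroup.closure {x : R | x ^ p = 1}) = p ^ 2 := by
  obtain ⟨E, _, hEe, hEc, hE⟩ :=
    Cfsg.Agent.Lib.PGroupRankThree.exists_of_cyclic_maximal hp hR hnc hC hCi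
  have h : Subgroup.closure {x : R | x ^ p = 1} = E := by
    apply le_antisymm
    · rw [Subgroup.closure_le]
      intro x hx
      exact hE x hx
    · intro x hx
      exact Subgroup.subset_closure (hEe.2 x hx)
  rw [h]
  exact ⟨hEe, hEc⟩

end Cfsg.Agent.S0127
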