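import Cfsg.Statements.S0129
import Cfsg.Agent.Lib.H3PGroup

set_option autoImplicit false
open Cfsg

namespace Cfsg.Agent.S0129

/-- The order of a p-group is bounded by p^(a(a+1)/2) when it has a maximal normal abelian subgroup of order p^a. -/
theorem result {G : Type*} [Group G] [Finite G] {p : ℕ} [Fact p.Prime] (hG : IsPGroup p G) (A : Subgroup G) [A.Normal] (hA : IsMulCommutative A) (hmax : ∀ B : Subgroup G, B.Normal → IsMulCommutative B → A ≤ B → B = A) (a : ℕ) (ha : Nat.card A = p ^ a) : Nat.card G ≤ p ^ (a * (a + 1) / 2) := by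
  have hA' : ∀ x ∈ A, ∀ y ∈ A, x * y = y * x := fun x hx y hy =>
    congrArg Subtype.val (hA.is_comm.comm (⟨x, hx⟩ : A) ⟨y, hy⟩)
  refine Cfsg.Agent.Lib.H3PGroup.card_le_of_maximal hG A hA' (fun B hB hBc hAB => ?_) a ha
  exact hmax B hB ⟨⟨fun x y => Subtype.ext (hBc x x.2 y y.2)⟩⟩ hAB

end Cfsg.Agent.S0129
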