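import Cfsg.Statements.S0131
import Mathlib

set_option autoImplicit false
open Cfsg

namespace Cfsg.Agent.S0131

/-- P/P' has a normal complement in G exactly when the focal subgroup G' ∩ P is as small as possible, namely P'. -/
theorem result {G : Type*} [Group G] [Finite G] {p : ℕ} [Fact p.Prime] (P : Sylow p G) : (∃ N : Subgroup G, N.Normal ∧ N ⊓ (P : Subgroup G) = ⁅(P : Subgroup G), (P : Subgroup G)⁆ ∧ N ⊔ (P : Subgroup G) = ⊤) ↔ commutator G ⊓ (P : Subgroup G) = ⁅(P : Subgroup G), (P : Subgroup G)⁆ := by
  constructor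
  · rintro ⟨N, hN, h1, h2⟩
    have hPn : ⁅(P : Subgroup G), (P : Subgroup G)⁆ ≤ N := h1 ▸ inf_le_left
    have hcomm : commutator G ≤ N := by
      rw [commutator_def, Subgroup.commutator_le]
      intro g _ h _
      -- write g = n x, h = m y
      have hdec : ∀ g : G, ∃ n ∈ N, ∃ x ∈ (P : Subgroup G), g = n * x := by
        intro g
        have hg : g ∈ N ⊔ (P : Subgroup G) := by rw [h2]; exact Subgroup.mem_top g
        rw [← SetLike.mem_coe, Subgroup.normal_mul] at hg
        obtain ⟨n, hn, x, hx, hnx⟩ := Set.mem_mul.mp hg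
        exact ⟨n, hn, x, hx, hnx.symm⟩
      obtain ⟨n, hn, x, hx, rfl⟩ := hdec g
      obtain ⟨m, hm, y, hy, rfl⟩ := hdec h
      rw [← QuotientGroup.eq_one_iff, ← QuotientGroup.mk'_apply, map_commutatorElement, map_mul, map_mul]
      have e1 : (QuotientGroup.mk' N) n = 1 := (QuotientGroup.eq_one_iff n).mpr hn
      have e2 : (QuotientGroup.mk' N) m = 1 := (QuotientGroup.eq_one_iff m).mpr hm
      rw [e1, e2, one_mul, one_mul, ← map_commutatorElement]
      exact (QuotientGroup.eq_one_iff _).mpr (hPn (Subgroup.commutator_mem_commutator hx hy))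
    apply le_antisymm
    · rw [← h1]
      exact inf_le_inf_right _ hcomm
    · apply le_inf
      · rw [commutator_def]
        exact Subgroup.commutator_mono le_top le_top
      · rw [Subgroup.commutator_le]
        intro x hx y hy
        exact (P : Subgroup G).mul_mem ((P : Subgroup G).mul_mem ((P : Subgroup G).mul_mem hx hy)
          ((P : Subgroup G).inv_mem hx)) ((P : Subgroup G).inv_mem hy)
  · intro h
    -- the p'-part of G / G'
    let A := G ⧸ commutator G
    have hAc : ∀ a b : A, a * b = b * a := by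
      intro a b
      obtain ⟨x, rfl⟩ := QuotientGroup.mk_surjective a
      obtain ⟨y, rfl⟩ := QuotientGroup.mk_surjective b
      rw [← QuotientGroup.mk_mul, ← QuotientGroup.mk_mul, QuotientGroup.eq]
      have h1 : (x * y)⁻¹ * (y * x) = y⁻¹ * x⁻¹ * y⁻¹⁻¹ * x⁻¹⁻¹ := by group
      rw [h1, commutator_def]
      exact Subgroup.commutator_mem_commutator (Subgroup.mem_top y⁻¹) (Subgroup.mem_top x⁻¹)
    let _ : CommGroup A := { (inferInstance : Group A) with mul_comm := hAc }
    obtain ⟨k, m, hm, hcard⟩ := Nat.exists_eq_pow_mul_and_not_dvd (n := Nat.card A)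
      Nat.card_pos.ne' p (Fact.out : p.Prime).ne_one
    let pw : A →* A := powMonoidHom m
    let N : Subgroup G := pw.ker.comap (QuotientGroup.mk' (commutator G))
    have hmemN : ∀ g : G, g ∈ N ↔ g ^ m ∈ commutator G := by
      intro g
      rw [Subgroup.mem_comap, MonoidHom.mem_ker]
      show ((QuotientGroup.mk g : A)) ^ m = 1 ↔ _
      rw [← QuotientGroup.mk_pow, QuotientGroup.eq_one_iff]
    have hNn : N.Normal := inferInstance
    have hGN : commutator G ≤ N := by
      intro x hx
      rw [hmemN]
      exact (commutator G).pow_mem hx m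
    refine ⟨N, hNn, ?_, ?_⟩
    · rw [← h]
      apply le_antisymm
      · intro x hx
        obtain ⟨hxN, hxP⟩ := Subgroup.mem_inf.mp hx
        refine Subgroup.mem_inf.mpr ⟨?_, hxP⟩
        obtain ⟨j, hj⟩ := (IsPGroup.iff_orderOf.mp P.isPGroup') ⟨x, hxP⟩
        have hj' : orderOf x = p ^ j := by
          rw [← hj]; exact Subgroup.orderOf_coe (⟨x, hxP⟩ : (P : Subgroup G))
        have hcop : Nat.Coprime (orderOf x) m := by
          rw [hj']
          exact Nat.Coprime.pow_left j (((Fact.out : p.Prime).coprime_iff_not_dvd).mpr hm)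
        have h1 : x ∈ Subgroup.zpowers (x ^ m) := by
          obtain ⟨y, hy⟩ := exists_pow_eq_self_of_coprime hcop.symm
          exact ⟨y, by simpa using hy⟩
        exact (Subgroup.zpowers_le.mpr ((hmemN x).mp hxN)) h1
      · exact inf_le_inf_right _ hGN
    · -- index considerations
      have hq : IsPGroup p (G ⧸ N) := by
        intro x
        obtain ⟨g, rfl⟩ := QuotientGroup.mk_surjective x
        refine ⟨k, ?_⟩
        rw [← QuotientGroup.mk_pow, QuotientGroup.eq_one_iff, hmemN, ← pow_mul, ← hcard,
          ← QuotientGroup.eq_one_iff, QuotientGroup.mk_pow]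
        exact pow_card_eq_one'
      obtain ⟨j, hj⟩ := IsPGroup.iff_card.mp hq
      have h1 : (N ⊔ (P : Subgroup G)).index ∣ p ^ j := by
        rw [← hj]
        exact Subgroup.index_dvd_of_le le_sup_left
      have h2 : (N ⊔ (P : Subgroup G)).index ∣ (P : Subgroup G).index :=
        Subgroup.index_dvd_of_le le_sup_right
      have h3 : ¬ p ∣ (P : Subgroup G).index := P.not_dvd_index
      rw [← Subgroup.index_eq_one]
      obtain ⟨i, _, hi⟩ := (Nat.dvd_prime_pow (Fact.out : p.Prime)).mp h1
      rcases Nat.eq_zero_or_pos i with h4 | h4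
      · rw [hi, h4, pow_zero]
      · exfalso
        apply h3
        refine dvd_trans ?_ h2
        rw [hi]
        exact dvd_pow_self p h4.ne'

end Cfsg.Agent.S0131
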