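import Cfsg.Statements.S0141
import Cfsg.Agent.Lib.CharCentral

set_option autoImplicit false
open Cfsg

namespace Cfsg.Agent.S0141

/-- For an irreducible complex representation of a finite group and an element g, the size of the class of g times the character value at g, divided by the degree, is an algebraic integer. -/
theorem result {G : Type*} [Group G] [Finite G] {V : Type*} [AddCommGroup V] [Module ℂ V] [FiniteDimensional ℂ V] (ρ : Representation ℂ G V) [ρ.IsIrreducible] (g : G) : IsIntegral ℤ (((Subgroup.centralizer ({g} : Set G)).index : ℂ) * ρ.character g / (Module.finrank ℂ V : ℂ)) := by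
  exact Cfsg.Agent.Lib.CharCentral.isIntegral_index_mul_character_div ρ g

end Cfsg.Agent.S0141
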