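import Cfsg.Statements.S0156
import Cfsg.Agent.Lib.CharBasic2

set_option autoImplicit false
open Cfsg

namespace Cfsg.Agent.S0156

/-- The character of the left regular representation is the sum over the irreducible characters χ of χ 1 • χ. -/
theorem result {G : Type*} [Group G] [Fintype G] : (Representation.leftRegular ℂ G).character = ∑ᶠ χ : Cfsg.IrrCharacter G, (χ : G → ℂ) 1 • (χ : G → ℂ) := by
  rw [finsum_eq_sum_of_fintype]
  exact Cfsg.Agent.Lib.CharBasic.leftRegular_character_eq_sum

end Cfsg.Agent.S0156
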