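import Cfsg.Statements.S0160
import Cfsg.Agent.Lib.PermLemma

set_option autoImplicit false
open Cfsg

namespace Cfsg.Agent.S0160

/-- A finite group has as many real-valued irreducible complex characters as conjugacy classes closed under taking inverses. -/
theorem result {G : Type*} [Group G] [Finite G] : Nat.card {χ : Cfsg.IrrCharacter G // ∀ g : G, ((χ : G → ℂ) g).im = 0} = Nat.card {C : ConjClasses G // ∀ g : G, ConjClasses.mk g = C → IsConj g g⁻¹} := by
  exact Cfsg.Agent.Lib.PermLemma.card_real_irr_eq_card_real_classes

end Cfsg.Agent.S0160
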