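import Cfsg.Statements.S0170
import Cfsg.Agent.Lib.TIFN3
import Cfsg.Agent.Lib.IndFun

set_option autoImplicit false
open Cfsg
open Cfsg.Agent.Lib.CharBasic

namespace Cfsg.Agent.S0170

open Cfsg.Agent.Lib

theorem result {G : Type*} [Group G] [Fintype G] (S : Set G) (hSN : S ⊆ Subgroup.normalizer S) (hTI : ∀ g : G, g ∉ Subgroup.normalizer S → ∀ s ∈ S, g * s * g⁻¹ ∈ S → s = 1) (n : ℕ) (hn : 2 ≤ n) (χ : Fin n → (Subgroup.normalizer S → ℂ)) (hirr : ∀ i, Cfsg.IsIrrCharacter (Subgroup.normalizer S) (χ i)) (hinj : Function.Injective χ) (hvan : ∀ i, ∀ x : Subgroup.normalizer S, (x : G) ∉ S → χ i x = 0) (hdeg : ∀ i j, χ i 1 = χ j 1) : ∃ ε : ℂ, (ε = 1 ∨ ε = -1) ∧ ∃ θ : Fin n → (G → ℂ), (∀ i, Cfsg.IsIrrCharacter G (θ i)) ∧ Function.Injective θ ∧ ∀ i j, Cfsg.indFun (Subgroup.normalizer S) (χ i) - Cfsg.indFun (Subgroup.normalizer S) (χ j) = ε • (θ i - θ j) := by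
  classical
  have hF : Fintype (Subgroup.normalizer S) := Fintype.ofFinite _
  have hcf : ∀ i j, IsClassFunction (Subgroup.normalizer S) (χ i - χ j) := fun i j =>
    (hirr i).isClassFunction.sub (hirr j).isClassFunction
  have hoff : ∀ i j, ∀ x : Subgroup.normalizer S, (x : G) ∉ S → (χ i - χ j) x = 0 := by
    intro i j x hx
    rw [Pi.sub_apply, hvan i x hx, hvan j x hx, sub_zero]
  have hone : ∀ i j, (χ i - χ j) 1 = 0 := by
    intro i j
    rw [Pi.sub_apply, hdeg i j, sub_self]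
  have hiso : ∀ i j k l, classInner (indFun (Subgroup.normalizer S) (χ i) - indFun (Subgroup.normalizer S) (χ j))
      (indFun (Subgroup.normalizer S) (χ k) - indFun (Subgroup.normalizer S) (χ l)) =
      classInner (χ i - χ j) (χ k - χ l) := by
    intro i j k l
    rw [← IndFun.indFun_sub, ← IndFun.indFun_sub]
    exact IndFun.classInner_indFun_ti S (Subgroup.normalizer S) hTI (χ i - χ j) (χ k - χ l) (hoff i j)
      (hcf k l) (hoff k l) (hone i j)
  obtain ⟨ε, f, hε, hf, hv⟩ := TIFN.exceptional_family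
    (fun i j => indFun (Subgroup.normalizer S) (χ i) - indFun (Subgroup.normalizer S) (χ j))
    (fun i j => ((hirr i).isCharacter.indFun _).isGeneralized.sub ((hirr j).isCharacter.indFun _).isGeneralized)
    (by
      intro i j
      rw [← IndFun.indFun_sub, IndFun.indFun_one, hone, mul_zero])
    (by intro i j k; simp)
    (by
      intro i j hij
      rw [hiso, TIFN.classInner_sub_sub (hirr i) (hirr j) (hirr i) (hirr j)]
      have h1 : χ i ≠ χ j := fun h => hij (hinj h)
      have h2 : χ j ≠ χ i := fun h => hij (hinj h.symm)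
      rw [if_pos rfl, if_neg h1, if_neg h2, if_pos rfl]
      norm_num)
    (by
      intro i j k hij hik hjk
      rw [hiso, TIFN.classInner_sub_sub (hirr i) (hirr j) (hirr i) (hirr k)]
      have h1 : χ i ≠ χ k := fun h => hik (hinj h)
      have h2 : χ j ≠ χ i := fun h => hij (hinj h.symm)
      have h3 : χ j ≠ χ k := fun h => hjk (hinj h)
      rw [if_pos rfl, if_neg h1, if_neg h2, if_neg h3]
      norm_num)
    ⟨⟨0, by omega⟩, ⟨1, by omega⟩, by simp [Fin.ext_iff]⟩
  refine ⟨ε, hε, fun i => (f i : G → ℂ), fun i => (f i).2, ?_, hv⟩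
  intro i j hij
  exact hf (Subtype.ext hij)

end Cfsg.Agent.S0170
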