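import Cfsg.Statements.S0171
import Cfsg.Agent.Lib.FrobInd
import Cfsg.Agent.Lib.Sibley

set_option autoImplicit false
open Cfsg

namespace Cfsg.Agent.S0171

theorem result {G : Type*} [Group G] [Fintype G] (K H : Subgroup G) [K.Normal] (hKH : K ⊓ H = ⊥) (hKH' : K ⊔ H = ⊤) (hfpf : ∀ h ∈ H, h ≠ 1 → ∀ k ∈ K, h * k = k * h → k = 1) (τ : K → ℂ) (hτ : Cfsg.IsIrrCharacter K τ) (hτ1 : τ ≠ fun _ => 1) : Cfsg.IsIrrCharacter G (Cfsg.indFun K τ) := by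
  apply Lib.FrobInd.indFun_irr K _ hτ hτ1
  intro k hk hk1
  exact Lib.Sibley.centralizer_le_of_complement K H hKH' hfpf k hk hk1

end Cfsg.Agent.S0171
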