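import Cfsg.Statements.S0172
import Mathlib.GroupTheory.CommutingProbability
import Mathlib.Tactic
import Mathlib.GroupTheory.Complement

set_option autoImplicit false
open Cfsg

namespace Cfsg.Agent.S0172

variable {G : Type*} [Group G] [Finite G] (K H : Subgroup G) [hK : K.Normal]

theorem exists_mul (hKH' : K ⊔ H = ⊤) (x : G) : ∃ k ∈ K, ∃ h ∈ H, x = k * h := by
  have hx : x ∈ K ⊔ H := by rw [hKH']; exact Subgroup.mem_top x
  obtain ⟨k, hk, h, hh, e⟩ := Subgroup.mem_sup_of_normal_left.mp hx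
  exact ⟨k, hk, h, hh, e.symm⟩

theorem eq_of_mul (hKH : K ⊓ H = ⊥) {k k' h h' : G} (hk : k ∈ K) (hk' : k' ∈ K) (hh : h ∈ H) (hh' : h' ∈ H)
    (e : k * h = k' * h') : k = k' ∧ h = h' := by
  have h1 : k'⁻¹ * k = h' * h⁻¹ := by
    have : k = k' * h' * h⁻¹ := by rw [← e]; group
    rw [this]; group
  have h2 : k'⁻¹ * k ∈ K ⊓ H := ⟨K.mul_mem (K.inv_mem hk') hk, by rw [h1]; exact H.mul_mem hh' (H.inv_mem hh)⟩
  rw [hKH, Subgroup.mem_bot] at h2
  have h3 : k = k' := by
    have := inv_mul_eq_one.mp h2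
    exact this.symm
  subst h3
  exact ⟨rfl, mul_left_cancel e⟩

theorem exists_conj (hKH : K ⊓ H = ⊥) (hKH' : K ⊔ H = ⊤)
    (hfpf : ∀ h ∈ H, h ≠ 1 → ∀ k ∈ K, h * k = k * h → k = 1) (x : G) (hx : x ∉ K) :
    ∃ k ∈ K, ∃ h ∈ H, h ≠ 1 ∧ x = k * h * k⁻¹ := by
  obtain ⟨k₀, hk₀, h, hh, rfl⟩ := exists_mul K H hKH' x
  have hh1 : h ≠ 1 := by
    rintro rfl
    exact hx (by simpa using hk₀)
  let f : K → K := fun k => ⟨k * (h * (k : G)⁻¹ * h⁻¹), K.mul_mem k.2 (hK.conj_mem _ (K.inv_mem k.2) h)⟩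
  have hf : Function.Injective f := by
    intro a b hab
    have h1 : (a : G) * (h * (a : G)⁻¹ * h⁻¹) = b * (h * (b : G)⁻¹ * h⁻¹) := congrArg Subtype.val hab
    have h2 : h * ((b : G)⁻¹ * a) = ((b : G)⁻¹ * a) * h := by
      have h3 : (b : G)⁻¹ * a * h = h * (b : G)⁻¹ * h⁻¹ * h * a := by
        have : (b : G)⁻¹ * (a * (h * (a : G)⁻¹ * h⁻¹)) = h * (b : G)⁻¹ * h⁻¹ := by rw [h1]; group
        rw [← this]; group
      rw [h3]; group
    have h4 := hfpf h hh hh1 ((b : G)⁻¹ * a) (K.mul_mem (K.inv_mem b.2) a.2) h2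
    exact Subtype.ext (inv_mul_eq_one.mp h4).symm
  obtain ⟨k, hk⟩ := (Finite.injective_iff_surjective.mp hf) ⟨k₀, hk₀⟩
  have h5 : (k : G) * (h * (k : G)⁻¹ * h⁻¹) = k₀ := congrArg Subtype.val hk
  refine ⟨k, k.2, h, hh, hh1, ?_⟩
  rw [← h5]; group

theorem cent_le (hKH : K ⊓ H = ⊥) (hKH' : K ⊔ H = ⊤)
    (hfpf : ∀ h ∈ H, h ≠ 1 → ∀ k ∈ K, h * k = k * h → k = 1) {h y : G} (hh : h ∈ H) (hh1 : h ≠ 1)
    (hy : Commute h y) : y ∈ H := by
  obtain ⟨k, hk, h', hh', rfl⟩ := exists_mul K H hKH' y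
  have e1 : h * (k * h') = k * h' * h := hy
  have e2 : (h * k * h⁻¹) * (h * h') = k * (h' * h) := by
    calc (h * k * h⁻¹) * (h * h') = h * (k * h') := by group
      _ = k * h' * h := e1
      _ = k * (h' * h) := by group
  obtain ⟨e3, -⟩ := eq_of_mul K H hKH (hK.conj_mem k hk h) hk (H.mul_mem hh hh') (H.mul_mem hh' hh) e2
  have e4 : h * k = k * h := by
    calc h * k = (h * k * h⁻¹) * h := by group
      _ = k * h := by rw [e3]
  rw [hfpf h hh hh1 k hk e4, one_mul]
  exact hh'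

theorem result {G : Type*} [Group G] [Finite G] (K H : Subgroup G) [K.Normal] (hKH : K ⊓ H = ⊥) (hKH' : K ⊔ H = ⊤) (hfpf : ∀ h ∈ H, h ≠ 1 → ∀ k ∈ K, h * k = k * h → k = 1) : Nat.card H * Nat.card (ConjClasses G) + 1 = Nat.card H * Nat.card (ConjClasses H) + Nat.card (ConjClasses K) := by
  classical
  have cG := card_comm_eq_card_conjClasses_mul_card G
  have cH := card_comm_eq_card_conjClasses_mul_card H
  have cK := card_comm_eq_card_conjClasses_mul_card K
  -- the commuting pairs of `G`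
  let f : ({p : K × K // Commute p.1 p.2} ⊕ (K × {p : {p : H × H // Commute p.1 p.2} // p.1 ≠ 1})) →
      {p : G × G // Commute p.1 p.2} := fun s => match s with
    | Sum.inl p => ⟨(p.1.1, p.1.2), by
        have := p.2
        exact congrArg Subtype.val this⟩
    | Sum.inr (k, p) => ⟨(k * p.1.1.1 * (k : G)⁻¹, k * p.1.1.2 * (k : G)⁻¹), by
        have h1 : Commute (p.1.1.1 : G) (p.1.1.2 : G) := congrArg Subtype.val p.1.2
        exact (Commute.conj_iff (k : G)).mpr h1⟩
  have hf : Function.Bijective f := by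
    constructor
    · rintro (⟨⟨a, b⟩, hab⟩ | ⟨k, ⟨⟨⟨a, b⟩, hab⟩, hne⟩⟩) (⟨⟨c, d⟩, hcd⟩ | ⟨k', ⟨⟨⟨c, d⟩, hcd⟩, hne'⟩⟩) h
      · replace h : _ ∧ _ := ⟨congrArg (fun p : {p : G × G // Commute p.1 p.2} => p.1.1) h,
          congrArg (fun p : {p : G × G // Commute p.1 p.2} => p.1.2) h⟩
        simp only [f] at h
        congr 3
        · exact Subtype.ext h.1
        · exact Subtype.ext h.2
      · exfalso
        replace h : _ ∧ _ := ⟨congrArg (fun p : {p : G × G // Commute p.1 p.2} => p.1.1) h,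
          congrArg (fun p : {p : G × G // Commute p.1 p.2} => p.1.2) h⟩
        simp only [f] at h
        apply hne'
        have key : ∀ u : H, (k' : G) * u * (k' : G)⁻¹ ∈ K → u = 1 := by
          intro u hu
          have h1 : (u : G) ∈ K ⊓ H := by
            refine ⟨?_, u.2⟩
            have := Subgroup.Normal.conj_mem inferInstance _ hu (k' : G)⁻¹
            have e : (k' : G)⁻¹ * (k' * u * (k' : G)⁻¹) * ((k' : G)⁻¹)⁻¹ = u := by group
            rwa [e] at this
          rw [hKH, Subgroup.mem_bot] at h1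
          exact Subtype.ext h1
        exact Prod.ext (key c (by rw [← h.1]; exact a.2)) (key d (by rw [← h.2]; exact b.2))
      · exfalso
        replace h : _ ∧ _ := ⟨congrArg (fun p : {p : G × G // Commute p.1 p.2} => p.1.1) h,
          congrArg (fun p : {p : G × G // Commute p.1 p.2} => p.1.2) h⟩
        simp only [f] at h
        apply hne
        have key : ∀ u : H, (k : G) * u * (k : G)⁻¹ ∈ K → u = 1 := by
          intro u hu
          have h1 : (u : G) ∈ K ⊓ H := by
            refine ⟨?_, u.2⟩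
            have := Subgroup.Normal.conj_mem inferInstance _ hu (k : G)⁻¹
            have e : (k : G)⁻¹ * (k * u * (k : G)⁻¹) * ((k : G)⁻¹)⁻¹ = u := by group
            rwa [e] at this
          rw [hKH, Subgroup.mem_bot] at h1
          exact Subtype.ext h1
        exact Prod.ext (key a (by rw [h.1]; exact c.2)) (key b (by rw [h.2]; exact d.2))
      · replace h : _ ∧ _ := ⟨congrArg (fun p : {p : G × G // Commute p.1 p.2} => p.1.1) h,
          congrArg (fun p : {p : G × G // Commute p.1 p.2} => p.1.2) h⟩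
        simp only [f] at h
        have key : ∀ u v : H, (k : G) * u * (k : G)⁻¹ = k' * v * (k' : G)⁻¹ → u = v ∧ (u ≠ 1 → k = k') := by
          intro u v huv
          have e1 : ((k : G) * (u * (k : G)⁻¹ * (u : G)⁻¹)) * u = (k' * (v * (k' : G)⁻¹ * (v : G)⁻¹)) * v := by
            calc ((k : G) * (u * (k : G)⁻¹ * (u : G)⁻¹)) * u = (k : G) * u * (k : G)⁻¹ := by group
              _ = _ := huv
              _ = _ := by group
          obtain ⟨-, e2⟩ := eq_of_mul K H hKH
            (K.mul_mem k.2 (Subgroup.Normal.conj_mem inferInstance _ (K.inv_mem k.2) _))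
            (K.mul_mem k'.2 (Subgroup.Normal.conj_mem inferInstance _ (K.inv_mem k'.2) _)) u.2 v.2 e1
          have e3 : u = v := Subtype.ext e2
          refine ⟨e3, fun hu1 => ?_⟩
          subst e3
          have e4 : (u : G) * ((k' : G)⁻¹ * k) = ((k' : G)⁻¹ * k) * u := by
            have : (k' : G)⁻¹ * (k * u * (k : G)⁻¹) * k = (k' : G)⁻¹ * (k' * u * (k' : G)⁻¹) * k := by rw [huv]
            calc (u : G) * ((k' : G)⁻¹ * k) = (k' : G)⁻¹ * (k' * u * (k' : G)⁻¹) * k := by group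
              _ = (k' : G)⁻¹ * (k * u * (k : G)⁻¹) * k := this.symm
              _ = ((k' : G)⁻¹ * k) * u := by group
          have e5 := hfpf u u.2 (fun h0 => hu1 (Subtype.ext h0)) _ (K.mul_mem (K.inv_mem k'.2) k.2) e4
          exact Subtype.ext (inv_mul_eq_one.mp e5).symm
        obtain ⟨h1, h1'⟩ := key a c h.1
        obtain ⟨h2, h2'⟩ := key b d h.2
        subst h1 h2
        have hkk : k = k' := by
          by_cases ha : a = 1
          · apply h2'
            intro hb
            exact hne (Prod.ext ha hb)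
          · exact h1' ha
        subst hkk
        rfl
    · rintro ⟨⟨x, y⟩, hxy⟩
      by_cases hx : x ∈ K
      · by_cases hy : y ∈ K
        · exact ⟨Sum.inl ⟨(⟨x, hx⟩, ⟨y, hy⟩), Subtype.ext hxy⟩, rfl⟩
        · obtain ⟨k, hk, h, hh, hh1, rfl⟩ := exists_conj K H hKH hKH' hfpf y hy
          have hc : Commute h (k⁻¹ * x * k) := by
            have h1 : Commute x (k * h * k⁻¹) := hxy
            have h2 : Commute (k⁻¹ * (k * h * k⁻¹) * (k⁻¹)⁻¹) (k⁻¹ * x * (k⁻¹)⁻¹) :=
              (Commute.conj_iff (k⁻¹ : G)).mpr h1.symm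
            have e : k⁻¹ * (k * h * k⁻¹) * (k⁻¹)⁻¹ = h := by group
            rwa [e, inv_inv] at h2
          have h3 := cent_le K H hKH hKH' hfpf hh hh1 hc
          refine ⟨Sum.inr (⟨k, hk⟩, ⟨⟨(⟨k⁻¹ * x * k, h3⟩, ⟨h, hh⟩), Subtype.ext hc.symm⟩, ?_⟩), ?_⟩
          · intro h0
            exact hh1 (congrArg (fun p : H × H => (p.2 : G)) h0)
          · simp only [f, Subtype.mk.injEq, Prod.mk.injEq]
            refine ⟨by group, trivial⟩
      · obtain ⟨k, hk, h, hh, hh1, rfl⟩ := exists_conj K H hKH hKH' hfpf x hx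
        have hc : Commute h (k⁻¹ * y * k) := by
          have h1 : Commute (k * h * k⁻¹) y := hxy
          have h2 : Commute (k⁻¹ * (k * h * k⁻¹) * (k⁻¹)⁻¹) (k⁻¹ * y * (k⁻¹)⁻¹) :=
            (Commute.conj_iff (k⁻¹ : G)).mpr h1
          have e : k⁻¹ * (k * h * k⁻¹) * (k⁻¹)⁻¹ = h := by group
          rwa [e, inv_inv] at h2
        have h3 := cent_le K H hKH hKH' hfpf hh hh1 hc
        refine ⟨Sum.inr (⟨k, hk⟩, ⟨⟨(⟨h, hh⟩, ⟨k⁻¹ * y * k, h3⟩), Subtype.ext hc⟩, ?_⟩), ?_⟩
        · intro h0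
          exact hh1 (congrArg (fun p : H × H => (p.1 : G)) h0)
        · simp only [f, Subtype.mk.injEq, Prod.mk.injEq]
          refine ⟨trivial, by group⟩
  have e1 := Nat.card_congr (Equiv.ofBijective f hf)
  rw [Nat.card_sum, Nat.card_prod, cK, cG] at e1
  have e2 : Nat.card {p : {p : H × H // Commute p.1 p.2} // p.1 ≠ 1} + 1 =
      Nat.card {p : H × H // Commute p.1 p.2} := by
    have : Fintype {p : H × H // Commute p.1 p.2} := Fintype.ofFinite _
    have : Fintype {p : {p : H × H // Commute p.1 p.2} // p.1 ≠ 1} := Fintype.ofFinite _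
    rw [Nat.card_eq_fintype_card, Nat.card_eq_fintype_card]
    have h1 : Fintype.card {p : {p : H × H // Commute p.1 p.2} // p.1 ≠ 1} =
        Fintype.card {p : {p : H × H // Commute p.1 p.2} // p ≠ ⟨1, Commute.one_left _⟩} := by
      apply Fintype.card_congr
      apply Equiv.subtypeEquivRight
      intro p
      constructor
      · intro h h0; exact h (congrArg Subtype.val h0)
      · intro h h0; exact h (Subtype.ext h0)
    rw [h1]
    have h2 := Fintype.card_subtype_compl (fun p : {p : H × H // Commute p.1 p.2} => p = ⟨1, Commute.one_left _⟩)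
    rw [Fintype.card_subtype_eq] at h2
    have : 0 < Fintype.card {p : H × H // Commute p.1 p.2} :=
      Fintype.card_pos_iff.mpr ⟨⟨1, Commute.one_left _⟩⟩
    have h3 : Fintype.card {p : {p : H × H // Commute p.1 p.2} // p ≠ ⟨1, Commute.one_left _⟩} =
      Fintype.card {p : {p : H × H // Commute p.1 p.2} // ¬ p = ⟨1, Commute.one_left _⟩} := rfl
    omega
  rw [cH] at e2
  have hcard : Nat.card K * Nat.card H = Nat.card G := by
    refine Subgroup.IsComplement'.card_mul_card ?_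
    apply Subgroup.isComplement'_of_disjoint_and_mul_eq_univ (disjoint_iff.mpr hKH)
    rw [← Subgroup.normal_mul, hKH', Subgroup.coe_top]
  have hKpos : 0 < Nat.card K := Nat.card_pos
  rw [← hcard] at e1
  apply Nat.eq_of_mul_eq_mul_left hKpos
  nlinarith [e1, e2]

end Cfsg.Agent.S0172
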