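import Cfsg.Statements.S0189
import Cfsg.Agent.Lib.CharBasic2

set_option autoImplicit false
open Cfsg

namespace Cfsg.Agent.S0189

/-- If a complex character of a finite group vanishes at every non-identity element of a Sylow p-subgroup P, then |P| divides its degree. -/
theorem result {G : Type*} [Group G] [Finite G] (p : ℕ) [Fact p.Prime] (P : Sylow p G) (χ : G → ℂ) (hχ : Cfsg.IsCharacter G χ) (hvan : ∀ g : G, g ∈ P → g ≠ 1 → χ g = 0) : ∃ k : ℕ, χ 1 = (Nat.card P : ℂ) * k := by
  have := Fintype.ofFinite (P : Subgroup G)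
  obtain ⟨k, hk⟩ := (hχ.restrict (P : Subgroup G)).classInner_nat
    (Lib.CharBasic.isCharacter_one (G := (P : Subgroup G)))
  refine ⟨k, ?_⟩
  rw [← hk]
  unfold Cfsg.classInner
  have h1 : ∑ g : (P : Subgroup G), (fun h : (P : Subgroup G) => χ h) g *
      (starRingEnd ℂ) ((1 : ↥(P : Subgroup G) → ℂ) g) = χ 1 := by
    rw [Finset.sum_eq_single (1 : (P : Subgroup G))]
    · simp
    · intro b _ hb
      have : χ b = 0 := hvan b b.2 (fun h => hb (Subtype.ext h))
      simp [this]
    · intro h
      exact absurd (Finset.mem_univ _) h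
  have hcard : (Nat.card (P : Subgroup G) : ℂ) ≠ 0 := by
    exact_mod_cast Nat.card_pos.ne'
  rw [← mul_assoc, mul_inv_cancel₀ hcard, one_mul]
  exact h1.symm

end Cfsg.Agent.S0189
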