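import Cfsg.Statements.S0190
import Cfsg.Agent.Lib.IndFun
import Cfsg.Agent.Lib.InvLocal

set_option autoImplicit false
open Cfsg

namespace Cfsg.Agent.S0190

/-- For a transitive action of a finite group on X, the permutation character g ↦ (number of fixed points of g) is the function induced from the principal character of the stabilizer of any point. -/
theorem result {G : Type*} [Group G] [Fintype G] (X : Type*) [MulAction G X] [Finite X] [MulAction.IsPretransitive G X] (x : X) : (fun g : G => (Nat.card (MulAction.fixedBy X g) : ℂ)) = Cfsg.indFun (MulAction.stabilizer G x) (fun _ => 1) := by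
  classical
  funext g
  unfold Cfsg.indFun
  have hS : ∀ y : G, Cfsg.extendByZero (MulAction.stabilizer G x) (fun _ => (1 : ℂ)) y =
      if y ∈ MulAction.stabilizer G x then 1 else 0 := by
    intro y
    split_ifs with h
    · rw [Lib.IndFun.extendByZero_mem _ _ h]
    · rw [Lib.IndFun.extendByZero_not_mem _ _ h]
  simp only [hS]
  rw [Finset.sum_boole]
  have e : {a : G // a⁻¹ * g * a ∈ MulAction.stabilizer G x} ≃
      MulAction.fixedBy X g × MulAction.stabilizer G x := by
    have hex : ∀ y : X, ∃ b : G, b • x = y := fun y => MulAction.exists_smul_eq G x y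
    choose b hb using hex
    exact
      { toFun := fun a => (⟨a.1 • x, by
            have h1 : (a.1⁻¹ * g * a.1) • x = x := a.2
            rw [mul_smul, mul_smul, inv_smul_eq_iff] at h1
            exact h1⟩, ⟨(b (a.1 • x))⁻¹ * a.1, by
            rw [MulAction.mem_stabilizer_iff, mul_smul, inv_smul_eq_iff, hb]⟩)
        invFun := fun p => ⟨b p.1.1 * p.2.1, by
          have h1 : g • p.1.1 = p.1.1 := p.1.2
          have h2 : p.2.1 • x = x := p.2.2
          rw [MulAction.mem_stabilizer_iff, mul_smul, mul_smul, mul_smul, h2, hb, h1,
            inv_smul_eq_iff, mul_smul, h2, hb]⟩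
        left_inv := by
          intro a
          apply Subtype.ext
          simp
        right_inv := by
          rintro ⟨⟨y, hy⟩, ⟨s, hs⟩⟩
          have hs' : s • x = x := hs
          have h1 : (b y * s) • x = y := by rw [mul_smul, hs', hb]
          simp [h1] }
  have h1 : (Finset.univ.filter (fun a : G => a⁻¹ * g * a ∈ MulAction.stabilizer G x)).card =
      Nat.card (MulAction.fixedBy X g) * Nat.card (MulAction.stabilizer G x) := by
    rw [← Nat.card_prod, ← Nat.card_congr e, Nat.card_eq_fintype_card, Fintype.card_subtype]
  rw [h1]
  have hcard : (Nat.card (MulAction.stabilizer G x) : ℂ) ≠ 0 := by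
    exact_mod_cast Nat.card_pos.ne'
  push_cast
  field_simp

end Cfsg.Agent.S0190
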