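import Cfsg.Statements.S0192
import Cfsg.Agent.Lib.CharBasic2

set_option autoImplicit false
open Cfsg

namespace Cfsg.Agent.S0192

/-- Brauer's generation criterion. Let G be a finite simple group, H₁ and H₂ subgroups, and χ a non-principal irreducible character. If the multiplicity of the principal character in χ restricted to H₁ ⊓ H₂ is less than the sum of the corresponding multiplicities for H₁ and H₂, then H₁ and H₂ do not generate G. -/
theorem result {G : Type*} [Group G] [Fintype G] [IsSimpleGroup G] (H₁ H₂ : Subgroup G) [Fintype H₁] [Fintype H₂] [Fintype ↥(H₁ ⊓ H₂)] (χ : G → ℂ) (hχ : Cfsg.IsIrrCharacter G χ) (hχ1 : χ ≠ fun _ => 1) (hlt : (Cfsg.classInner (fun x : ↥(H₁ ⊓ H₂) => χ x) (fun _ => 1)).re < (Cfsg.classInner (fun x : H₁ => χ x) (fun _ => 1)).re + (Cfsg.classInner (fun x : H₂ => χ x) (fun _ => 1)).re) : H₁ ⊔ H₂ ≠ ⊤ := by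
  intro htop
  obtain ⟨n, ρ, hirr, rfl⟩ := hχ
  have e1 : ∀ (H : Subgroup G) [Fintype H], (Cfsg.classInner (fun x : H => ρ.character x)
      (fun _ => 1)) = (Module.finrank ℂ (Representation.invariants (ρ.comp H.subtype)) : ℂ) := by
    intro H _
    exact Lib.CharBasic.classInner_one_eq_finrank_invariants (ρ.comp H.subtype : Representation ℂ H _)
  rw [e1, e1, e1] at hlt
  simp only [Complex.natCast_re] at hlt
  set A := Representation.invariants (ρ.comp H₁.subtype : Representation ℂ H₁ _) with hA
  set B := Representation.invariants (ρ.comp H₂.subtype : Representation ℂ H₂ _) with hB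
  set C := Representation.invariants (ρ.comp (H₁ ⊓ H₂).subtype : Representation ℂ ↥(H₁ ⊓ H₂) _) with hC
  have hAC : A ⊔ B ≤ C := by
    refine sup_le ?_ ?_
    · intro v hv g
      exact hv ⟨g.1, g.2.1⟩
    · intro v hv g
      exact hv ⟨g.1, g.2.2⟩
  have h1 : Module.finrank ℂ ↥(A ⊔ B) ≤ Module.finrank ℂ C := Submodule.finrank_mono hAC
  have h2 := Submodule.finrank_sup_add_finrank_inf_eq A B
  have h3 : 0 < Module.finrank ℂ ↥(A ⊓ B) := by
    have : Module.finrank ℂ C < Module.finrank ℂ A + Module.finrank ℂ B := by exact_mod_cast hlt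
    omega
  have h4 : A ⊓ B ≤ Representation.invariants ρ := by
    intro v hv g
    have hg : g ∈ H₁ ⊔ H₂ := by rw [htop]; trivial
    rw [← Subgroup.closure_eq H₁, ← Subgroup.closure_eq H₂, ← Subgroup.closure_union] at hg
    induction hg using Subgroup.closure_induction with
    | mem x hx =>
      rcases hx with hx | hx
      · exact hv.1 ⟨x, hx⟩
      · exact hv.2 ⟨x, hx⟩
    | one => simp
    | mul a b _ _ ha hb =>
      rw [map_mul, Module.End.mul_apply, hb, ha]
    | inv a _ ha =>
      have : ρ a⁻¹ (ρ a v) = v := by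
        rw [← Module.End.mul_apply, ← map_mul]
        simp
      rw [ha] at this
      exact this
  have h5 : 0 < Module.finrank ℂ (Representation.invariants ρ) :=
    lt_of_lt_of_le h3 (Submodule.finrank_mono h4)
  have h6 := Lib.CharBasic.classInner_one_eq_finrank_invariants ρ
  have h7 : Cfsg.classInner ρ.character 1 = 0 :=
    Cfsg.IsIrrCharacter.classInner_eq_zero ⟨n, ρ, hirr, rfl⟩ Lib.CharBasic.isIrrCharacter_one hχ1
  rw [h7] at h6
  have h8 : Module.finrank ℂ (Representation.invariants ρ) = 0 := by exact_mod_cast h6.symm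
  omega

end Cfsg.Agent.S0192
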