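import Cfsg.Statements.S0195

set_option autoImplicit false
open Cfsg

namespace Cfsg.Agent.S0195

/-- Let A be a subgroup of G that equals the centralizer of each of its non-identity elements. If g lies outside the normalizer of A, then the only element of A conjugated by g into A is the identity (A is a trivial-intersection set). -/
theorem result {G : Type*} [Group G] [Finite G] (A : Subgroup G) (hA : ∀ x ∈ A, x ≠ 1 → Subgroup.centralizer ({x} : Set G) = A) (g : G) (hg : g ∉ Subgroup.normalizer (A : Set G)) (x : G) (hx : x ∈ A) (hgx : g * x * g⁻¹ ∈ A) : x = 1 := by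
  by_contra hne
  apply hg
  have h1 := hA x hx hne
  have hne' : g * x * g⁻¹ ≠ 1 := by
    intro h
    apply hne
    have := congrArg (fun y => g⁻¹ * y * g) h
    simpa [mul_assoc] using this
  have h2 := hA _ hgx hne'
  rw [Subgroup.mem_normalizer_iff]
  intro y
  have e1 : y ∈ A ↔ x * y = y * x := by
    conv_lhs => rw [← h1]
    rw [Subgroup.mem_centralizer_singleton_iff]; exact eq_comm
  have e2 : g * y * g⁻¹ ∈ A ↔ (g * x * g⁻¹) * (g * y * g⁻¹) = (g * y * g⁻¹) * (g * x * g⁻¹) := by
    conv_lhs => rw [← h2]
    rw [Subgroup.mem_centralizer_singleton_iff]; exact eq_comm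
  rw [e1, e2]
  constructor
  · intro h
    have : g * (x * y) * g⁻¹ = g * (y * x) * g⁻¹ := by rw [h]
    simpa [mul_assoc] using this
  · intro h
    have := congrArg (fun z => g⁻¹ * z * g) h
    simpa [mul_assoc] using this

end Cfsg.Agent.S0195
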