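import Cfsg.Statements.S0198
import Cfsg.Agent.Lib.Coherence
import Cfsg.Agent.Lib.CharBasic2

set_option autoImplicit false
open Cfsg

namespace Cfsg.Agent.S0198

open Cfsg.Agent.Lib.CharBasic Cfsg.Agent.Lib.Coherence

theorem diff_of_norm_two {G : Type*} [Group G] [Fintype G] {θ : G → ℂ}
    (h : Cfsg.IsGeneralizedCharacter G θ) (h1 : Cfsg.classInner θ θ = 2) (h0 : θ 1 = 0) :
    ∃ χ ψ : G → ℂ, Cfsg.IsIrrCharacter G χ ∧ Cfsg.IsIrrCharacter G ψ ∧ χ ≠ ψ ∧ θ = χ - ψ := by
  obtain ⟨α, β, hα, hβ, hαβ, rfl⟩ := norm_two_decomp h h1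
  rcases hα with hα | hα <;> rcases hβ with hβ | hβ
  · exfalso
    obtain ⟨n, hn, hn'⟩ := hα.exists_degree
    obtain ⟨m, hm, hm'⟩ := hβ.exists_degree
    rw [Pi.add_apply, hn', hm'] at h0
    have : n + m = 0 := by exact_mod_cast h0
    omega
  · refine ⟨α, -β, hα, hβ, ?_, by rw [sub_neg_eq_add]⟩
    intro h2
    rw [h2, classInner_neg_left] at hαβ
    have := hβ.classInner_self
    rw [classInner_neg_left, classInner_neg_right, neg_neg] at this
    rw [this] at hαβ
    norm_num at hαβ
  · refine ⟨β, -α, hβ, hα, ?_, by rw [sub_neg_eq_add, add_comm]⟩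
    intro h2
    rw [h2, classInner_neg_right] at hαβ
    have := hα.classInner_self
    rw [classInner_neg_left, classInner_neg_right, neg_neg] at this
    rw [this] at hαβ
    norm_num at hαβ
  · exfalso
    obtain ⟨n, hn, hn'⟩ := hα.exists_degree
    obtain ⟨m, hm, hm'⟩ := hβ.exists_degree
    rw [Pi.neg_apply] at hn' hm'
    rw [Pi.add_apply] at h0
    have h2 : (n : ℂ) + m = 0 := by rw [← hn', ← hm', ← neg_add, h0, neg_zero]
    have : n + m = 0 := by exact_mod_cast h2
    omega

open scoped Classical in
theorem inner_diff {G : Type*} [Group G] [Fintype G] {a b c d : G → ℂ}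
    (ha : Cfsg.IsIrrCharacter G a) (hb : Cfsg.IsIrrCharacter G b) (hc : Cfsg.IsIrrCharacter G c)
    (hd : Cfsg.IsIrrCharacter G d) : Cfsg.classInner (a - b) (c - d) =
      (if a = c then 1 else 0) - (if a = d then 1 else 0) - (if b = c then 1 else 0) +
        (if b = d then 1 else 0) := by
  rw [classInner_sub_left, classInner_sub_right, classInner_sub_right, ha.classInner_eq hc,
    ha.classInner_eq hd, hb.classInner_eq hc, hb.classInner_eq hd]
  ring

/-- exactly one coincidence -/
theorem one_coincidence {G : Type*} [Group G] [Fintype G] {a b c d : G → ℂ}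
    (ha : Cfsg.IsIrrCharacter G a) (hb : Cfsg.IsIrrCharacter G b) (hc : Cfsg.IsIrrCharacter G c)
    (hd : Cfsg.IsIrrCharacter G d) (hab : a ≠ b) (hcd : c ≠ d)
    (h : Cfsg.classInner (a - b) (c - d) = 1) : (a = c ∧ b ≠ d) ∨ (a ≠ c ∧ b = d) := by
  classical
  rw [inner_diff ha hb hc hd] at h
  by_cases h1 : a = c
  · subst h1
    left
    refine ⟨rfl, ?_⟩
    intro h2
    subst h2
    simp [hab, hab.symm] at h
  · right
    refine ⟨h1, ?_⟩
    by_contra h2
    rw [if_neg h1, if_neg h2] at h
    split_ifs at h <;> norm_num at h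

/-- The isometry lemma behind exceptional characters. Let τ be a family of generalized characters of a finite group G indexed by Fin n, with τ i₀ = 0, every τ i vanishing at the identity, and inner products ⟨τ i, τ j⟩ = 2 if i = j and 1 otherwise for i, j ≠ i₀. Then there are a sign ε and pairwise distinct irreducible characters μ i with τ i = ε (μ i − μ i₀) for all i. -/
theorem result {G : Type*} [Group G] [Fintype G] (n : ℕ) (i₀ : Fin n) (τ : Fin n → (G → ℂ)) (h0 : τ i₀ = 0) (hgen : ∀ i, Cfsg.IsGeneralizedCharacter G (τ i)) (hone : ∀ i, τ i 1 = 0) (hgram : ∀ i j, i ≠ i₀ → j ≠ i₀ → Cfsg.classInner (τ i) (τ j) = if i = j then 2 else 1) : ∃ ε : ℂ, (ε = 1 ∨ ε = -1) ∧ ∃ μ : Fin n → (G → ℂ), (∀ i, Cfsg.IsIrrCharacter G (μ i)) ∧ Function.Injective μ ∧ ∀ i, τ i = ε • (μ i - μ i₀) := by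
  classical
  have hdec : ∀ i : {i : Fin n // i ≠ i₀}, ∃ χ ψ : G → ℂ, Cfsg.IsIrrCharacter G χ ∧
      Cfsg.IsIrrCharacter G ψ ∧ χ ≠ ψ ∧ τ i = χ - ψ := by
    intro i
    exact diff_of_norm_two (hgen i) (by rw [hgram i i i.2 i.2, if_pos rfl]) (hone i)
  choose γ δ hγ hδ hne hτ using hdec
  have hpair : ∀ i j : {i : Fin n // i ≠ i₀}, i ≠ j →
      (γ i = γ j ∧ δ i ≠ δ j) ∨ (γ i ≠ γ j ∧ δ i = δ j) := by
    intro i j hij
    apply one_coincidence (hγ i) (hδ i) (hγ j) (hδ j) (hne i) (hne j)
    rw [← hτ i, ← hτ j, hgram i j i.2 j.2, if_neg (fun h => hij (Subtype.ext h))]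
  -- dichotomy: all δ equal or all γ equal
  have hdich : (∀ i j : {i : Fin n // i ≠ i₀}, δ i = δ j) ∨
      (∀ i j : {i : Fin n // i ≠ i₀}, γ i = γ j) := by
    by_cases hδall : ∀ i j : {i : Fin n // i ≠ i₀}, δ i = δ j
    · exact Or.inl hδall
    · right
      push Not at hδall
      obtain ⟨a, b, hab⟩ := hδall
      have hab' : a ≠ b := fun h => hab (by rw [h])
      have hγab : γ a = γ b := by
        rcases hpair a b hab' with h | h
        · exact h.1
        · exact absurd h.2 hab
      -- every c has γ c = γ a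
      have key : ∀ c : {i : Fin n // i ≠ i₀}, γ c = γ a := by
        intro c
        by_contra hc
        have hca : c ≠ a := fun h => hc (by rw [h])
        have hcb : c ≠ b := fun h => hc (by rw [h, hγab])
        rcases hpair c a hca with h | h
        · exact hc h.1
        · rcases hpair c b hcb with h' | h'
          · exact hc (h'.1.trans hγab.symm)
          · exact hab (h.2.symm.trans h'.2)
      intro i j
      rw [key i, key j]
  have htriv : Cfsg.IsIrrCharacter G (fun _ => 1) := isIrrCharacter_fun_one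
  by_cases hempty : Nonempty {i : Fin n // i ≠ i₀}
  · obtain ⟨k⟩ := hempty
    rcases hdich with hd | hd
    · -- common negative part
      refine ⟨1, Or.inl rfl, fun i => if h : i = i₀ then δ k else γ ⟨i, h⟩, ?_, ?_, ?_⟩
      · intro i
        by_cases h : i = i₀
        · simp only [h, dite_true]; exact hδ k
        · simp only [h, dite_false]; exact hγ _
      · intro i j hij
        by_cases hi : i = i₀ <;> by_cases hj : j = i₀
        · rw [hi, hj]
        · simp only [hi, hj, dite_true, dite_false] at hij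
          exact absurd (hij.symm.trans (hd k ⟨j, hj⟩)) (hne _)
        · simp only [hi, hj, dite_true, dite_false] at hij
          exact absurd (hij.trans (hd k ⟨i, hi⟩)) (hne _)
        · simp only [hi, hj, dite_false] at hij
          by_contra hne'
          rcases hpair ⟨i, hi⟩ ⟨j, hj⟩ (fun h => hne' (congrArg Subtype.val h)) with h | h
          · exact h.2 (hd _ _)
          · exact h.1 hij
      · intro i
        by_cases hi : i = i₀
        · simp [hi, h0]
        · simp only [hi, dite_true, dite_false, one_smul]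
          rw [hd k ⟨i, hi⟩]
          exact hτ ⟨i, hi⟩
    · refine ⟨-1, Or.inr rfl, fun i => if h : i = i₀ then γ k else δ ⟨i, h⟩, ?_, ?_, ?_⟩
      · intro i
        by_cases h : i = i₀
        · simp only [h, dite_true]; exact hγ k
        · simp only [h, dite_false]; exact hδ _
      · intro i j hij
        by_cases hi : i = i₀ <;> by_cases hj : j = i₀
        · rw [hi, hj]
        · simp only [hi, hj, dite_true, dite_false] at hij
          exact absurd ((hd k ⟨j, hj⟩).symm.trans hij) (hne _)
        · simp only [hi, hj, dite_true, dite_false] at hij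
          exact absurd ((hd k ⟨i, hi⟩).symm.trans hij.symm) (hne _)
        · simp only [hi, hj, dite_false] at hij
          by_contra hne'
          rcases hpair ⟨i, hi⟩ ⟨j, hj⟩ (fun h => hne' (congrArg Subtype.val h)) with h | h
          · exact h.2 hij
          · exact h.1 (hd _ _)
      · intro i
        by_cases hi : i = i₀
        · simp [hi, h0]
        · simp only [hi, dite_true, dite_false, neg_smul, one_smul, neg_sub]
          rw [hd k ⟨i, hi⟩]
          exact hτ ⟨i, hi⟩
  · refine ⟨1, Or.inl rfl, fun _ => fun _ => 1, fun _ => htriv, ?_, ?_⟩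
    · intro i j _
      have hi : i = i₀ := by
        by_contra h
        exact hempty ⟨⟨i, h⟩⟩
      have hj : j = i₀ := by
        by_contra h
        exact hempty ⟨⟨j, h⟩⟩
      rw [hi, hj]
    · intro i
      have hi : i = i₀ := by
        by_contra h
        exact hempty ⟨⟨i, h⟩⟩
      simp [hi, h0]

end Cfsg.Agent.S0198
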