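import Cfsg.Statements.S0216
import Cfsg.Agent.Lib.InvLocal

set_option autoImplicit false
open Cfsg

namespace Cfsg.Agent.S0216

/-- For an involution u in a Sylow 2-subgroup P of a finite group G, the following are equivalent: no G-conjugate of u other than u lies in P; every commutator of u with an element of G has odd order. -/
theorem result {G : Type*} [Group G] [Finite G] (P : Sylow 2 G) (u : G) (hu : orderOf u = 2) (huP : u ∈ P) : (∀ g : G, g * u * g⁻¹ ∈ P → g * u * g⁻¹ = u) ↔ (∀ g : G, Odd (orderOf (u * g * u⁻¹ * g⁻¹))) := by
  exact Lib.InvLocal.isolated_iff P u hu huP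

end Cfsg.Agent.S0216
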