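import Cfsg.Statements.S0218
import Mathlib

set_option autoImplicit false
open Cfsg

namespace Cfsg.Agent.S0218

/-- The generalized quaternion group of order 2^(n+3) contains exactly one element of order 2. -/
theorem result (n : ℕ) : Nat.card {x : QuaternionGroup (2 ^ (n + 1)) // orderOf x = 2} = 1 := by
  have hn : NeZero (2 ^ (n + 1)) := ⟨by positivity⟩
  have key : ∀ x : QuaternionGroup (2 ^ (n + 1)), orderOf x = 2 ↔
      x = QuaternionGroup.a ((2 ^ (n + 1) : ℕ) : ZMod (2 * 2 ^ (n + 1))) := by
    intro x
    constructor
    · intro hx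
      rcases x with i | i
      · have h2 : (QuaternionGroup.a i) ^ 2 = 1 := by
          have := pow_orderOf_eq_one (QuaternionGroup.a i)
          rw [hx] at this
          exact this
        have h1 : QuaternionGroup.a i ≠ 1 := by
          intro h
          rw [h] at hx
          simp at hx
        rw [pow_two, QuaternionGroup.a_mul_a] at h2
        have h3 : i + i = 0 := by
          have : QuaternionGroup.a (i + i) = QuaternionGroup.a 0 := h2
          exact QuaternionGroup.a.inj this
        have h4 : i ≠ 0 := by
          rintro rfl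
          exact h1 rfl
        congr 1
        obtain ⟨k, rfl⟩ := ZMod.intCast_surjective i
        rw [← Int.cast_add, ZMod.intCast_zmod_eq_zero_iff_dvd] at h3
        rw [Ne, ZMod.intCast_zmod_eq_zero_iff_dvd] at h4
        obtain ⟨c, hc⟩ := h3
        have hk : k = 2 ^ (n + 1) * c := by
          push_cast at hc
          linarith
        rw [hk] at h4 ⊢
        rcases Int.even_or_odd' c with ⟨m, hm | hm⟩
        · exfalso
          apply h4
          rw [hm]
          exact ⟨m, by push_cast; ring⟩
        · rw [hm]
          rw [← sub_eq_zero]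
          have : ((2 ^ (n + 1) * (2 * m + 1) : ℤ) : ZMod (2 * 2 ^ (n + 1))) -
              (((2 ^ (n + 1) : ℕ) : ZMod (2 * 2 ^ (n + 1)))) =
              ((2 ^ (n + 1) * (2 * m + 1) - 2 ^ (n + 1) : ℤ) : ZMod (2 * 2 ^ (n + 1))) := by
            push_cast
            rfl
          rw [this, ZMod.intCast_zmod_eq_zero_iff_dvd]
          exact ⟨m, by push_cast; ring⟩
      · rw [QuaternionGroup.orderOf_xa] at hx
        omega
    · rintro rfl
      rw [QuaternionGroup.orderOf_a]
      have h1 : ((2 ^ (n + 1) : ℕ) : ZMod (2 * 2 ^ (n + 1))).val = 2 ^ (n + 1) := by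
        rw [ZMod.val_natCast, Nat.mod_eq_of_lt]
        have : 0 < 2 ^ (n + 1) := by positivity
        omega
      rw [h1, Nat.gcd_eq_right (Dvd.intro_left _ rfl)]
      exact Nat.mul_div_cancel _ (by positivity)
  rw [Nat.card_congr (Equiv.subtypeEquivRight key)]
  simp

end Cfsg.Agent.S0218
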