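import Cfsg.Statements.S0221
import Cfsg.Agent.Lib.NormalE2
import Cfsg.Agent.Lib.UniqueInvolution
import Cfsg.Agent.S0111
import Cfsg.Agent.Lib.BSQ8Local
import Cfsg.Agent.Lib.Involutions

set_option autoImplicit false
open Cfsg

namespace Cfsg.Agent.S0221

/-- a subgroup of exponent 2 generated by commuting elements -/
theorem exists_e8 {G : Type*} [Group G] (V : Subgroup G) (hV : Nat.card V = 4)
    (hV2 : ∀ v ∈ V, v ^ 2 = 1) (e : G) (he : e ^ 2 = 1) (heV : e ∉ V) (hc : ∀ v ∈ V, Commute e v) :
    ∃ F : Subgroup G, Nat.card F = 8 ∧ (∀ f ∈ F, f ^ 2 = 1) ∧ V ≤ F ∧ e ∈ F ∧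
      ∀ f ∈ F, f ∈ V ∨ ∃ v ∈ V, f = e * v := by
  have hee : e * e = 1 := by rw [← pow_two]; exact he
  let F : Subgroup G :=
    { carrier := {f | f ∈ V ∨ ∃ v ∈ V, f = e * v}
      one_mem' := Or.inl V.one_mem
      mul_mem' := by
        rintro a b (ha | ⟨v, hv, rfl⟩) (hb | ⟨w, hw, rfl⟩)
        · exact Or.inl (V.mul_mem ha hb)
        · right
          refine ⟨a * w, V.mul_mem ha hw, ?_⟩
          rw [← mul_assoc, ← (hc a ha).eq, mul_assoc]
        · right
          exact ⟨v * b, V.mul_mem hv hb, by rw [mul_assoc]⟩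
        · left
          have : e * v * (e * w) = v * w := by
            calc e * v * (e * w) = (e * v) * e * w := by group
              _ = (v * e) * e * w := by rw [(hc v hv).eq]
              _ = v * (e * e) * w := by group
              _ = v * w := by rw [hee, mul_one]
          rw [this]
          exact V.mul_mem hv hw
      inv_mem' := by
        rintro a (ha | ⟨v, hv, rfl⟩)
        · exact Or.inl (V.inv_mem ha)
        · right
          refine ⟨v⁻¹, V.inv_mem hv, ?_⟩
          rw [mul_inv_rev, inv_eq_of_mul_eq_one_right hee]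
          exact (hc _ (V.inv_mem hv)).eq.symm }
  have hmem : ∀ f, f ∈ F ↔ (f ∈ V ∨ ∃ v ∈ V, f = e * v) := fun f => Iff.rfl
  have hVF : V ≤ F := fun v hv => Or.inl hv
  have heF : e ∈ F := Or.inr ⟨1, V.one_mem, by simp⟩
  refine ⟨F, ?_, ?_, hVF, heF, fun f hf => hf⟩
  · have hidx : (V.subgroupOf F).index = 2 := by
      rw [Subgroup.index_eq_two_iff']
      refine ⟨⟨e, heF⟩, ?_⟩
      rintro ⟨f, hf⟩
      have e1 : (⟨e, heF⟩ * ⟨f, hf⟩ : F) ∈ V.subgroupOf F ↔ e * f ∈ V := Iff.rfl
      have e2 : (⟨f, hf⟩ : F) ∈ V.subgroupOf F ↔ f ∈ V := Iff.rfl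
      rw [e1, e2]
      rcases hf with hf | ⟨v, hv, rfl⟩
      · right
        refine ⟨hf, fun h => heV ?_⟩
        exact (V.mul_mem_cancel_right hf).1 h
      · left
        refine ⟨?_, fun h => heV ((V.mul_mem_cancel_right hv).1 h)⟩
        rw [← mul_assoc, hee, one_mul]; exact hv
    have h1 := (V.subgroupOf F).card_mul_index
    rw [hidx, Nat.card_congr (Subgroup.subgroupOfEquivOfLe hVF).toEquiv, hV] at h1
    omega
  · rintro f (hf | ⟨v, hv, rfl⟩)
    · exact hV2 f hf
    · rw [(hc v hv).mul_pow, he, hV2 v hv, one_mul]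

theorem comm_of_sq {G : Type*} [Group G] {E : Subgroup G} (hE : ∀ e ∈ E, e ^ 2 = 1) :
    ∀ a ∈ E, ∀ b ∈ E, Commute a b := by
  intro a ha b hb
  have h1 := hE a ha
  have h2 := hE b hb
  have h3 := hE _ (E.mul_mem ha hb)
  rw [pow_two] at h1 h2 h3
  have ia : a⁻¹ = a := inv_eq_of_mul_eq_one_right h1
  have ib : b⁻¹ = b := inv_eq_of_mul_eq_one_right h2
  have iab : (a * b)⁻¹ = a * b := inv_eq_of_mul_eq_one_right h3
  show a * b = b * a
  calc a * b = (a * b)⁻¹ := iab.symm
    _ = b⁻¹ * a⁻¹ := mul_inv_rev a b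
    _ = b * a := by rw [ia, ib]

/-- Let G be a finite group with no subgroup of index 2 whose 2-rank is at least 3 (it contains an elementary abelian subgroup of order 8). Then the centralizer of every involution of G also contains an elementary abelian subgroup of order 8. -/
theorem result {G : Type*} [Group G] [Finite G] (hno : ∀ H : Subgroup G, H.index ≠ 2) (hrank : ∃ E : Subgroup G, Nat.card E = 8 ∧ ∀ e ∈ E, e ^ 2 = 1) (x : G) (hx : orderOf x = 2) : ∃ E : Subgroup G, E ≤ Subgroup.centralizer ({x} : Set G) ∧ Nat.card E = 8 ∧ ∀ e ∈ E, e ^ 2 = 1 := by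
  have : Fact (Nat.Prime 2) := ⟨Nat.prime_two⟩
  obtain ⟨E, hE8, hE2⟩ := hrank
  have hEc := comm_of_sq hE2
  have hEp : IsPGroup 2 E := IsPGroup.of_card (n := 3) (by rw [hE8]; norm_num)
  obtain ⟨S, hES⟩ := hEp.exists_le_sylow
  -- a normal four-group of `S`
  have hE'e : IsElementaryAbelian 2 (E.subgroupOf (S : Subgroup G)) := by
    refine ⟨⟨⟨?_⟩⟩, ?_⟩
    · rintro ⟨⟨a, haS⟩, ha⟩ ⟨⟨b, hbS⟩, hb⟩
      apply Subtype.ext
      apply Subtype.ext
      exact (hEc a ha b hb).eq
    · rintro ⟨a, haS⟩ ha
      apply Subtype.ext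
      exact hE2 a ha
  have hE'8 : Nat.card (E.subgroupOf (S : Subgroup G)) = 2 ^ 3 := by
    rw [Nat.card_congr (Subgroup.subgroupOfEquivOfLe hES).toEquiv, hE8]
    norm_num
  obtain ⟨U, hUn, hUe, hU4⟩ := Cfsg.Agent.Lib.NormalE2.exists_normal_of_card S.isPGroup' hE'e hE'8
  set V := U.map (S : Subgroup G).subtype with hV
  have hVcard : Nat.card V = 4 := by
    rw [hV, Subgroup.card_map_of_injective (S : Subgroup G).subtype_injective, hU4]
    norm_num
  have hV2 : ∀ v ∈ V, v ^ 2 = 1 := by
    rintro _ ⟨u, hu, rfl⟩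
    exact congrArg Subtype.val (hUe.2 u hu)
  have hVS : V ≤ (S : Subgroup G) := by
    rintro _ ⟨u, hu, rfl⟩
    exact u.2
  have hVn : ∀ g ∈ (S : Subgroup G), ∀ v ∈ V, g * v * g⁻¹ ∈ V := by
    rintro g hg _ ⟨u, hu, rfl⟩
    exact ⟨⟨g, hg⟩ * u * ⟨g, hg⟩⁻¹, hUn.conj_mem u hu ⟨g, hg⟩, rfl⟩
  have hVc := comm_of_sq hV2
  -- central involution in `V`
  have hUne : U ≠ ⊥ := by
    intro h
    rw [h, Subgroup.card_bot] at hU4
    norm_num at hU4
  obtain ⟨w', hw'U, hw'c, hw'2⟩ : ∃ w : (S : Subgroup G), w ∈ U ∧ w ∈ Subgroup.center (S : Subgroup G) ∧ w ≠ 1 := by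
    obtain ⟨z, hz1, hz2, hz3⟩ := Cfsg.Agent.Lib.UniqueInvolution.exists_central_of_normal S.isPGroup' U hUne
    exact ⟨z, hz1, Subgroup.mem_center_iff.2 hz3, hz2⟩
  set w : G := (w' : G) with hw
  have hwV : w ∈ V := ⟨w', hw'U, rfl⟩
  have hw1 : w ≠ 1 := fun h => hw'2 (Subtype.ext h)
  have hwc : ∀ g ∈ (S : Subgroup G), Commute g w := by
    intro g hg
    have := Subgroup.mem_center_iff.1 hw'c ⟨g, hg⟩
    exact congrArg Subtype.val this
  -- another element of `V`
  obtain ⟨v, hvV, hv1, hvw⟩ : ∃ v ∈ V, v ≠ 1 ∧ v ≠ w := by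
    by_contra hcon
    push Not at hcon
    have hle : V ≤ Subgroup.zpowers w := by
      intro v hv
      by_cases h : v = 1
      · rw [h]; exact Subgroup.one_mem _
      · rw [hcon v hv h]; exact Subgroup.mem_zpowers w
    have h1 := Subgroup.card_le_of_le hle
    rw [hVcard, Nat.card_zpowers] at h1
    have h2 := orderOf_le_of_pow_eq_one (by norm_num) (hV2 w hwV)
    omega
  have hww : w * w = 1 := by rw [← pow_two]; exact hV2 w hwV
  have hvv : v * v = 1 := by rw [← pow_two]; exact hV2 v hvV
  have hform : ∀ y ∈ V, y = 1 ∨ y = w ∨ y = v ∨ y = w * v := by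
    intro y hy
    by_contra hcon
    push Not at hcon
    obtain ⟨c1, c2, c3, c4⟩ := hcon
    classical
    have h1 : ({1, w, v, w * v, y} : Finset G).card ≤ Nat.card V := by
      rw [← Set.ncard_coe_finset]
      show _ ≤ Set.ncard (V : Set G)
      apply Set.ncard_le_ncard _ (Set.toFinite _)
      intro a ha
      simp only [Finset.coe_insert, Finset.coe_singleton, Set.mem_insert_iff, Set.mem_singleton_iff] at ha
      rcases ha with rfl | rfl | rfl | rfl | rfl
      · exact V.one_mem
      · exact hwV
      · exact hvV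
      · exact V.mul_mem hwV hvV
      · exact hy
    have h2 : ({1, w, v, w * v, y} : Finset G).card = 5 := by
      rw [Finset.card_insert_of_notMem, Finset.card_insert_of_notMem, Finset.card_insert_of_notMem,
        Finset.card_insert_of_notMem, Finset.card_singleton]
      · simpa using c4.symm
      · simp only [Finset.mem_insert, Finset.mem_singleton, not_or]
        refine ⟨?_, c3.symm⟩
        intro h
        apply hw1
        have : 1 * v = w * v := by rw [one_mul]; exact h
        exact (mul_right_cancel this).symm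
      · simp only [Finset.mem_insert, Finset.mem_singleton, not_or]
        refine ⟨hvw.symm, ?_, c2.symm⟩
        intro h
        apply hv1
        have : w * 1 = w * v := by rw [mul_one]; exact h
        exact (mul_left_cancel this).symm
      · simp only [Finset.mem_insert, Finset.mem_singleton, not_or]
        refine ⟨hw1.symm, hv1.symm, ?_, c1.symm⟩
        intro h
        apply hvw
        have h3 : v = w⁻¹ := eq_inv_of_mul_eq_one_right h.symm
        rw [h3, inv_eq_of_mul_eq_one_right hww]
    omega
  -- E8 containing V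
  obtain ⟨F, hF8, hF2, hVF⟩ : ∃ F : Subgroup G, Nat.card F = 8 ∧ (∀ f ∈ F, f ^ 2 = 1) ∧ V ≤ F := by
    by_cases hcase : ∃ e ∈ E, (∀ y ∈ V, Commute e y) ∧ e ∉ V
    · obtain ⟨e, heE, hec, heV⟩ := hcase
      obtain ⟨F, h1, h2, h3, -, -⟩ := exists_e8 V hVcard hV2 e (hE2 e heE) heV hec
      exact ⟨F, h1, h2, h3⟩
    · push Not at hcase
      -- the elements of `E` commuting with `v`
      by_cases hEv : ∀ e ∈ E, Commute e v
      · have hle : E ≤ V := by
          intro e he
          apply hcase e he
          intro y hy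
          rcases hform y hy with rfl | rfl | rfl | rfl
          · exact Commute.one_right e
          · exact hwc e (hES he)
          · exact hEv e he
          · exact (hwc e (hES he)).mul_right (hEv e he)
        have h1 := Subgroup.card_le_of_le hle
        omega
      · push Not at hEv
        obtain ⟨e₀, he₀, he₀v⟩ := hEv
        -- the index of `E ∩ V` in `E`
        have hidx : (V.subgroupOf E).index = 2 := by
          rw [Subgroup.index_eq_two_iff']
          refine ⟨⟨e₀, he₀⟩, ?_⟩
          rintro ⟨f, hf⟩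
          have e1 : (⟨e₀, he₀⟩ * ⟨f, hf⟩ : E) ∈ V.subgroupOf E ↔ e₀ * f ∈ V := Iff.rfl
          have e2 : (⟨f, hf⟩ : E) ∈ V.subgroupOf E ↔ f ∈ V := Iff.rfl
          rw [e1, e2]
          have hmv : ∀ g ∈ E, ¬ Commute g v → g * v * g⁻¹ = w * v := by
            intro g hg hgv
            rcases hform _ (hVn g (hES hg) v hvV) with h | h | h | h
            · exfalso
              apply hv1
              have : v = g⁻¹ * 1 * g := by rw [← h]; group
              rw [this]; group
            · exfalso
              apply hvw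
              have : v = g⁻¹ * w * g := by rw [← h]; group
              rw [this]
              calc g⁻¹ * w * g = g⁻¹ * (w * g) := by group
                _ = w := by rw [← (hwc g (hES hg)).eq]; group
            · exfalso
              apply hgv
              show g * v = v * g
              calc g * v = g * v * g⁻¹ * g := by group
                _ = v * g := by rw [h]
            · exact h
          have hin : ∀ g ∈ E, Commute g v → g ∈ V := by
            intro g hg hgv
            apply hcase g hg
            intro y hy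
            rcases hform y hy with rfl | rfl | rfl | rfl
            · exact Commute.one_right g
            · exact hwc g (hES hg)
            · exact hgv
            · exact (hwc g (hES hg)).mul_right hgv
          by_cases hfv : Commute f v
          · right
            refine ⟨hin f hf hfv, ?_⟩
            intro h
            apply he₀v
            have h1 : e₀ ∈ V := (V.mul_mem_cancel_right (hin f hf hfv)).1 h
            exact hVc e₀ h1 v hvV
          · left
            refine ⟨?_, fun h => hfv (hVc f h v hvV)⟩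
            apply hin _ (E.mul_mem he₀ hf)
            have h1 := hmv f hf hfv
            have h2 := hmv e₀ he₀ he₀v
            have h3 : e₀ * f * v * (e₀ * f)⁻¹ = v := by
              calc e₀ * f * v * (e₀ * f)⁻¹ = e₀ * (f * v * f⁻¹) * e₀⁻¹ := by group
                _ = e₀ * (w * v) * e₀⁻¹ := by rw [h1]
                _ = (e₀ * w) * v * e₀⁻¹ := by group
                _ = (w * e₀) * v * e₀⁻¹ := by rw [(hwc e₀ (hES he₀)).eq]
                _ = w * (e₀ * v * e₀⁻¹) := by group
                _ = w * (w * v) := by rw [h2]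
                _ = v := by rw [← mul_assoc, hww, one_mul]
            show e₀ * f * v = v * (e₀ * f)
            calc e₀ * f * v = e₀ * f * v * (e₀ * f)⁻¹ * (e₀ * f) := by group
              _ = v * (e₀ * f) := by rw [h3]
        have h1 := (V.subgroupOf E).card_mul_index
        rw [hidx, hE8] at h1
        have h2 : Nat.card (V.subgroupOf E) = 4 := by omega
        -- so `V ≤ E`, contradiction
        have h3 : Nat.card ((V.subgroupOf E).map E.subtype) = 4 := by
          rw [Subgroup.card_map_of_injective E.subtype_injective, h2]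
        have h4 : (V.subgroupOf E).map E.subtype ≤ V := by
          rintro _ ⟨y, hy, rfl⟩
          exact hy
        have h5 : (V.subgroupOf E).map E.subtype = V :=
          Subgroup.eq_of_le_of_card_ge h4 (by rw [h3, hVcard])
        exfalso
        apply he₀v
        have h6 : v ∈ (V.subgroupOf E).map E.subtype := by rw [h5]; exact hvV
        obtain ⟨y, -, hy⟩ := h6
        have h7 : v ∈ E := by rw [← hy]; exact y.2
        exact hEc e₀ he₀ v h7
  -- Thompson transfer
  obtain ⟨g, hgS, hgv⟩ : ∃ g : G, g * x * g⁻¹ ∈ (S : Subgroup G) ∧ Commute (g * x * g⁻¹) v := by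
    obtain ⟨h, hh⟩ : ∃ h : G, h * x * h⁻¹ ∈ (S : Subgroup G) := by
      have hxp : IsPGroup 2 (Subgroup.zpowers x) := IsPGroup.of_card (n := 1) (by rw [Nat.card_zpowers, hx, pow_one])
      obtain ⟨h, hh⟩ := Cfsg.Agent.Lib.BSQ8Local.exists_conj_le S hxp
      exact ⟨h, hh x (Subgroup.mem_zpowers x)⟩
    by_cases hcv : Commute (h * x * h⁻¹) v
    · exact ⟨h, hh, hcv⟩
    · set Q := (S : Subgroup G) ⊓ Subgroup.centralizer ({v} : Set G) with hQ
      have hQmem : ∀ y, y ∈ Q ↔ y ∈ (S : Subgroup G) ∧ Commute y v := by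
        intro y
        rw [hQ, Subgroup.mem_inf, Subgroup.mem_centralizer_singleton_iff]
        exact Iff.rfl
      have hmv : ∀ g ∈ (S : Subgroup G), ¬ Commute g v → g * v * g⁻¹ = w * v := by
        intro g hg hgv
        rcases hform _ (hVn g hg v hvV) with h | h | h | h
        · exfalso
          apply hv1
          have : v = g⁻¹ * 1 * g := by rw [← h]; group
          rw [this]; group
        · exfalso
          apply hvw
          have : v = g⁻¹ * w * g := by rw [← h]; group
          rw [this]
          calc g⁻¹ * w * g = g⁻¹ * (w * g) := by group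
            _ = w := by rw [← (hwc g hg).eq]; group
        · exfalso
          apply hgv
          show g * v = v * g
          calc g * v = g * v * g⁻¹ * g := by group
            _ = v * g := by rw [h]
        · exact h
      have hwv : w * v ≠ v := by
        intro h
        apply hw1
        have : w * v = 1 * v := by rw [one_mul]; exact h
        exact mul_right_cancel this
      have hidx : Q.relIndex (S : Subgroup G) = 2 := by
        show (Q.subgroupOf (S : Subgroup G)).index = 2
        rw [Subgroup.index_eq_two_iff']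
        refine ⟨⟨h * x * h⁻¹, hh⟩, ?_⟩
        rintro ⟨f, hf⟩
        have e1 : (⟨h * x * h⁻¹, hh⟩ * ⟨f, hf⟩ : (S : Subgroup G)) ∈ Q.subgroupOf (S : Subgroup G) ↔
            Commute (h * x * h⁻¹ * f) v := by
          rw [Subgroup.mem_subgroupOf, hQmem]
          exact ⟨fun h => h.2, fun h => ⟨mul_mem hh hf, h⟩⟩
        have e2 : (⟨f, hf⟩ : (S : Subgroup G)) ∈ Q.subgroupOf (S : Subgroup G) ↔ Commute f v := by
          rw [Subgroup.mem_subgroupOf, hQmem]
          exact ⟨fun h => h.2, fun h => ⟨hf, h⟩⟩
        rw [e1, e2]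
        set y := h * x * h⁻¹ with hy
        have h2 := hmv y hh hcv
        by_cases hfv : Commute f v
        · right
          refine ⟨hfv, fun h => hcv ?_⟩
          have := h.mul_left hfv.inv_left
          rwa [mul_inv_cancel_right] at this
        · left
          refine ⟨?_, hfv⟩
          have h1 := hmv f hf hfv
          have h3 : y * f * v * (y * f)⁻¹ = v := by
            calc y * f * v * (y * f)⁻¹ = y * (f * v * f⁻¹) * y⁻¹ := by group
              _ = y * (w * v) * y⁻¹ := by rw [h1]
              _ = (y * w) * v * y⁻¹ := by group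
              _ = (w * y) * v * y⁻¹ := by rw [(hwc y hh).eq]
              _ = w * (y * v * y⁻¹) := by group
              _ = w * (w * v) := by rw [h2]
              _ = v := by rw [← mul_assoc, hww, one_mul]
          show y * f * v = v * (y * f)
          calc y * f * v = y * f * v * (y * f)⁻¹ * (y * f) := by group
            _ = v * (y * f) := by rw [h3]
      rcases Cfsg.Agent.S0111.result S Q inf_le_left hidx (h * x * h⁻¹)
        (by rw [Cfsg.Agent.Lib.Involutions.orderOf_conj, hx]) hh (fun h1 => hcv ((hQmem _).1 h1).2) with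
        ⟨M, -, hM, -⟩ | ⟨g, hg⟩
      · exact absurd hM (hno M)
      · rw [hQmem] at hg
        refine ⟨g * h, ?_, ?_⟩
        · have : g * h * x * (g * h)⁻¹ = g * (h * x * h⁻¹) * g⁻¹ := by group
          rw [this]; exact hg.1
        · have : g * h * x * (g * h)⁻¹ = g * (h * x * h⁻¹) * g⁻¹ := by group
          rw [this]; exact hg.2
  set y := g * x * g⁻¹ with hy
  have hy2 : y ^ 2 = 1 := by
    have h1 : orderOf y = 2 := by rw [hy, Cfsg.Agent.Lib.Involutions.orderOf_conj, hx]
    rw [← h1]
    exact pow_orderOf_eq_one y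
  have hyV : ∀ u ∈ V, Commute y u := by
    intro u hu
    rcases hform u hu with rfl | rfl | rfl | rfl
    · exact Commute.one_right y
    · exact hwc y hgS
    · exact hgv
    · exact (hwc y hgS).mul_right hgv
  -- E8 in the centralizer of `y`
  obtain ⟨F', hF'8, hF'2, hF'c⟩ : ∃ F : Subgroup G, Nat.card F = 8 ∧ (∀ f ∈ F, f ^ 2 = 1) ∧ ∀ f ∈ F, Commute y f := by
    by_cases hyin : y ∈ V
    · exact ⟨F, hF8, hF2, fun f hf => comm_of_sq hF2 y (hVF hyin) f hf⟩
    · obtain ⟨F', h1, h2, h3, h4, -⟩ := exists_e8 V hVcard hV2 y hy2 hyin hyV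
      exact ⟨F', h1, h2, fun f hf => comm_of_sq h2 y h4 f hf⟩
  refine ⟨F'.map (MulAut.conj g⁻¹).toMonoidHom, ?_, ?_, ?_⟩
  · rintro _ ⟨f, hf, rfl⟩
    rw [Subgroup.mem_centralizer_singleton_iff]
    show g⁻¹ * f * g⁻¹⁻¹ * x = x * (g⁻¹ * f * g⁻¹⁻¹)
    have h1 := (hF'c f hf).eq
    rw [hy] at h1
    calc g⁻¹ * f * g⁻¹⁻¹ * x = g⁻¹ * (f * (g * x * g⁻¹)) * g := by group
      _ = g⁻¹ * (g * x * g⁻¹ * f) * g := by rw [h1]
      _ = _ := by group
  · rw [Subgroup.card_map_of_injective (MulAut.conj g⁻¹).injective, hF'8]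
  · rintro _ ⟨f, hf, rfl⟩
    rw [← map_pow, hF'2 f hf, map_one]

end Cfsg.Agent.S0221
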