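import Cfsg.Statements.S0225
import Cfsg.Agent.Lib.BrauerSuzuki
import Cfsg.Agent.Lib.ZStar
import Cfsg.Agent.Lib.InvLocal
import Cfsg.Agent.Lib.Cores

set_option autoImplicit false
open Cfsg

namespace Cfsg.Agent.S0225

theorem exists_klein {G : Type*} [Group G] {u v : G} (hu : orderOf u = 2) (hv : orderOf v = 2)
    (hc : Commute u v) (hne : u ≠ v) : ∃ E : Subgroup G, IsKleinFour E := by
  have e1 : u * u = 1 := Lib.Involutions.mul_self hu
  have e2 : v * v = 1 := Lib.Involutions.mul_self hv
  have e4 : v * u = u * v := hc.symm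
  have e5 : u * v * u = v := by rw [mul_assoc, e4, ← mul_assoc, e1, one_mul]
  have e6 : u * v * v = u := by rw [mul_assoc, e2, mul_one]
  have e7 : v * (u * v) = u := by rw [← mul_assoc, e4, e6]
  have e8 : u * (u * v) = v := by rw [← mul_assoc, e1, one_mul]
  have e3 : u * v * (u * v) = 1 := by rw [← mul_assoc, e5, e2]
  have iu : u⁻¹ = u := Lib.Involutions.inv_self hu
  have iv : v⁻¹ = v := Lib.Involutions.inv_self hv
  have iuv : (u * v)⁻¹ = u * v := by rw [mul_inv_rev, iu, iv, e4]
  let K : Subgroup G :=
    { carrier := {1, u, v, u * v}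
      one_mem' := by simp
      mul_mem' := by
        rintro a b (rfl | rfl | rfl | rfl) (rfl | rfl | rfl | rfl) <;>
          simp [e1, e2, e3, e4, e5, e6, e7, e8]
      inv_mem' := by
        rintro a (rfl | rfl | rfl | rfl)
        · simp
        · rw [iu]; simp
        · rw [iv]; simp
        · rw [iuv]; simp }
  have hK4 : Nat.card K = 4 := by
    classical
    have h13 : (K : Set G) = (({1, u, v, u * v} : Finset G) : Set G) := by
      ext y; simp [K]
    have h10 : Nat.card K = ({1, u, v, u * v} : Finset G).card := by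
      have h14 : Nat.card K = Set.ncard (K : Set G) := rfl
      rw [h14, h13, Set.ncard_coe_finset]
    have n1 : (1 : G) ≠ u := (Lib.Involutions.ne_one hu).symm
    have n2 : (1 : G) ≠ v := (Lib.Involutions.ne_one hv).symm
    have n3 : (1 : G) ≠ u * v := by
      intro h
      apply hne
      rw [← iu]
      exact (eq_inv_of_mul_eq_one_right h.symm).symm
    have n4 : u ≠ v := hne
    have n5 : u ≠ u * v := by
      intro h
      apply n2
      have : u * 1 = u * v := by rw [mul_one]; exact h
      exact mul_left_cancel this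
    have n6 : v ≠ u * v := by
      intro h
      have h15 : (1 : G) * v = u * v := by rw [one_mul]; exact h
      exact n1 (mul_right_cancel h15)
    rw [h10, Finset.card_insert_of_notMem, Finset.card_insert_of_notMem,
      Finset.card_insert_of_notMem, Finset.card_singleton]
    · simpa using n6
    · simp only [Finset.mem_insert, Finset.mem_singleton, not_or]
      exact ⟨n4, n5⟩
    · simp only [Finset.mem_insert, Finset.mem_singleton, not_or]
      exact ⟨n1, n2, n3⟩
  refine ⟨K, ⟨hK4, ?_⟩⟩
  have hdvd : Monoid.exponent K ∣ 2 := by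
    rw [Monoid.exponent_dvd_iff_forall_pow_eq_one]
    rintro ⟨g, hg⟩
    apply Subtype.ext
    show g ^ 2 = 1
    rw [pow_two]
    rcases hg with rfl | rfl | rfl | rfl
    · simp
    · exact e1
    · exact e2
    · exact e3
  rcases (Nat.dvd_prime Nat.prime_two).1 hdvd with h | h
  · exfalso
    rw [Monoid.exp_eq_one_iff] at h
    have : Nat.card K = 1 := by
      haveI := h
      exact Nat.card_of_subsingleton 1
    omega
  · exact h

/-- If a finite group G has even order but contains no Klein four-subgroup (2-rank 1), then some involution z of G is central modulo a normal subgroup of odd order: there is a normal subgroup N of odd order containing every commutator z g z⁻¹ g⁻¹. -/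
theorem result {G : Type*} [Group G] [Finite G] (heven : Even (Nat.card G)) (hrank : ∀ E : Subgroup G, ¬ IsKleinFour E) : ∃ z : G, orderOf z = 2 ∧ ∃ N : Subgroup G, N.Normal ∧ Odd (Nat.card N) ∧ ∀ g : G, z * g * z⁻¹ * g⁻¹ ∈ N := by
  have : Fact (Nat.Prime 2) := ⟨Nat.prime_two⟩
  obtain ⟨P⟩ : Nonempty (Sylow 2 G) := inferInstance
  have hPne : Nontrivial P := by
    rw [← Finite.one_lt_card_iff_nontrivial]
    obtain ⟨k, hk⟩ := (IsPGroup.iff_card.1 P.isPGroup')
    have h1 : 2 ∣ Nat.card (P : Subgroup G) := P.dvd_card_of_dvd_card (even_iff_two_dvd.1 heven)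
    exact lt_of_lt_of_le one_lt_two (Nat.le_of_dvd Nat.card_pos h1)
  haveI := P.isPGroup'.center_nontrivial
  have h2 : 2 ∣ Nat.card (Subgroup.center (P : Subgroup G)) := by
    obtain ⟨k, hk⟩ := IsPGroup.iff_card.1 (P.isPGroup'.to_subgroup (Subgroup.center (P : Subgroup G)))
    have h3 : 1 < Nat.card (Subgroup.center (P : Subgroup G)) := Finite.one_lt_card_iff_nontrivial.2 inferInstance
    rw [hk] at h3 ⊢
    exact dvd_pow_self 2 (by rintro rfl; simp at h3)
  obtain ⟨c, hc⟩ := exists_prime_orderOf_dvd_card' 2 h2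
  have hz : orderOf ((c : (P : Subgroup G)) : G) = 2 := by
    rw [Subgroup.orderOf_coe, Subgroup.orderOf_coe, hc]
  set z : G := ((c : (P : Subgroup G)) : G) with hzdef
  have hzP : z ∈ (P : Subgroup G) := (c : (P : Subgroup G)).2
  have huniq : ∀ x ∈ (P : Subgroup G), orderOf x = 2 → x = z := by
    intro x hx hx2
    by_contra hne
    have hcomm : Commute z x := by
      have := Subgroup.mem_center_iff.1 c.2 ⟨x, hx⟩
      exact (congrArg Subtype.val this).symm
    obtain ⟨E, hE⟩ := exists_klein hz hx2 hcomm (fun h => hne h.symm)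
    exact hrank E hE
  have hodd : Cfsg.Agent.Lib.ZStar.OddIso z := by
    intro g
    have := Cfsg.Agent.Lib.InvLocal.odd_of_isolated P z hz (fun g hg => huniq _ hg (by
      rw [Lib.Involutions.orderOf_conj]; exact hz))
    exact this g
  have hzs := Cfsg.Agent.Lib.ZStar.inZStar_of_oddIso
    (fun G _ _ S n e hO => Cfsg.Agent.Lib.BrauerSuzuki.card_center_eq_two S n e hO) hz hodd
  refine ⟨z, hz, pPrimeCore 2 G, pPrimeCore_normal 2 G,
    Nat.coprime_two_right.1 (Lib.Cores.coprime_card_pPrimeCore 2 G), fun g => ?_⟩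
  have h1 := hzs g
  have h2 : z * g * z⁻¹ * g⁻¹ = (g * z * g⁻¹ * z⁻¹)⁻¹ := by group
  rw [h2]
  exact inv_mem h1

end Cfsg.Agent.S0225
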