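import Cfsg.Statements.S0230
import Cfsg.Agent.Lib.InvLocal

set_option autoImplicit false
open Cfsg

namespace Cfsg.Agent.S0230

/-- Let G be a finite group with two non-conjugate involutions, and let t be an involution whose centralizer has maximal order among centralizers of involutions. Then |G| < |C_G(t)|^3. -/
theorem result {G : Type*} [Group G] [Finite G] (s t : G) (hs : orderOf s = 2) (ht : orderOf t = 2) (hnc : ¬ IsConj s t) (hmax : ∀ u : G, orderOf u = 2 → Nat.card (Subgroup.centralizer ({u} : Set G)) ≤ Nat.card (Subgroup.centralizer ({t} : Set G))) : Nat.card G < Nat.card (Subgroup.centralizer ({t} : Set G)) ^ 3 := by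
  exact Lib.InvLocal.card_lt_cube_of_not_conj s t hs ht hnc hmax

end Cfsg.Agent.S0230
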