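import Cfsg.Statements.S0992
import Cfsg.Agent.Lib.SmallSimple

set_option autoImplicit false
open Cfsg

namespace Cfsg.Agent.S0992

open Cfsg.Agent.Lib.SmallSimple

/-- Let G be a non-abelian finite simple group of even order not divisible by 8, and T a Sylow 2-subgroup. Then T is a Klein four-group and the centralizer of T has index 3 in the normalizer of T. -/
theorem result {G : Type*} [Group G] [Finite G] [IsSimpleGroup G] (hG : ¬ IsMulCommutative G) (h2 : Even (Nat.card G)) (h8 : ¬ 8 ∣ Nat.card G) (T : Sylow 2 G) : IsKleinFour ↥(T : Subgroup G) ∧ (Subgroup.centralizer ((T : Subgroup G) : Set G)).relIndex (Subgroup.normalizer ((T : Subgroup G) : Set G)) = 3 := by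
  have hNC := not_normalizer_le_centralizer hG h2.two_dvd T
  have hnc : ¬ IsCyclic (T : Subgroup G) := by
    intro hc
    apply hNC
    have hmin : (Nat.card G).minFac = 2 := (Nat.minFac_eq_two_iff _).2 h2.two_dvd
    exact IsCyclic.normalizer_le_centralizer hmin hc
  have hcard : Nat.card T = 4 := by
    have h1 := T.card_eq_multiplicity
    have h3 : (Nat.card G).factorization 2 < 3 := by
      by_contra hcon
      push Not at hcon
      apply h8
      have h4 : 2 ^ 3 ∣ Nat.card G := (Nat.Prime.pow_dvd_iff_le_factorization Nat.prime_two Nat.card_pos.ne').2 hcon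
      simpa using h4
    interval_cases hf : (Nat.card G).factorization 2
    · exfalso; apply hnc
      rw [pow_zero] at h1
      have : Subsingleton T := (Nat.card_eq_one_iff_unique.1 h1).1
      infer_instance
    · exfalso; apply hnc
      exact isCyclic_of_prime_card (p := 2) (by rw [h1]; rfl)
    · rw [h1]; norm_num
  have hK : IsKleinFour (T : Subgroup G) := by
    refine ⟨hcard, ?_⟩
    have h5 : Monoid.exponent T ∣ 4 := by
      rw [← hcard]; exact Group.exponent_dvd_nat_card
    have h6 : Monoid.exponent T ≠ 4 := by
      intro h6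
      apply hnc
      have h7 : IsMulCommutative (T : Subgroup G) :=
        IsPGroup.isMulCommutative_of_card_eq_prime_sq (p := 2) (by rw [hcard]; norm_num)
      let _ : CommGroup (T : Subgroup G) := { (inferInstance : Group (T : Subgroup G)) with mul_comm := h7.is_comm.comm }
      exact IsCyclic.iff_exponent_eq_card.2 (by rw [h6, hcard])
    have h8 : Monoid.exponent T ≠ 1 := by
      intro h8
      apply hnc
      rw [Monoid.exp_eq_one_iff] at h8
      infer_instance
    have h9 := (Nat.dvd_prime_pow Nat.prime_two (m := 2)).1 (by simpa using h5)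
    obtain ⟨k, hk, hk'⟩ := h9
    interval_cases k
    · exact absurd hk' h8
    · simpa using hk'
    · exact absurd hk' h6
  refine ⟨hK, ?_⟩
  have h10 := relIndex_centralizer_dvd (T : Subgroup G)
  have h11 := h10.trans (card_mulAut_dvd_factorial _)
  rw [hcard] at h11
  have h12 : (Subgroup.centralizer ((T : Subgroup G) : Set G)).relIndex (Subgroup.normalizer ((T : Subgroup G) : Set G)) ∣ (T : Subgroup G).relIndex (Subgroup.normalizer ((T : Subgroup G) : Set G)) := by
    apply Subgroup.relIndex_dvd_of_le_left
    intro x hx
    rw [Subgroup.mem_centralizer_iff]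
    intro y hy
    have := (IsKleinFour.isMulCommutative (G := (T : Subgroup G))).is_comm.comm ⟨y, hy⟩ ⟨x, hx⟩
    exact congrArg Subtype.val this
  have h13 : ¬ 2 ∣ (T : Subgroup G).relIndex (Subgroup.normalizer ((T : Subgroup G) : Set G)) := by
    intro hd
    apply T.not_dvd_index
    exact hd.trans (Subgroup.relIndex_dvd_index_of_le Subgroup.le_normalizer)
  have h14 : ¬ 2 ∣ (Subgroup.centralizer ((T : Subgroup G) : Set G)).relIndex (Subgroup.normalizer ((T : Subgroup G) : Set G)) :=
    fun hd => h13 (hd.trans h12)
  have h15 : (Subgroup.centralizer ((T : Subgroup G) : Set G)).relIndex (Subgroup.normalizer ((T : Subgroup G) : Set G)) ≠ 1 := by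
    intro h1
    exact hNC (Subgroup.relIndex_eq_one.1 h1)
  have h16 : (4 - 1).factorial = 6 := rfl
  rw [h16] at h11
  have h17 := Nat.le_of_dvd (by norm_num) h11
  generalize (Subgroup.centralizer ((T : Subgroup G) : Set G)).relIndex (Subgroup.normalizer ((T : Subgroup G) : Set G)) = n at *
  interval_cases n <;> omega

end Cfsg.Agent.S0992
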