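import Cfsg.Statements.S0234
import Cfsg.Agent.Lib.SmallSimple2
import Cfsg.Agent.Lib.BrauerFowler
import Cfsg.Agent.Lib.SmallFusion
import Cfsg.Agent.S0991
import Cfsg.Agent.S0992

set_option autoImplicit false
open Cfsg

namespace Cfsg.Agent.S0234

theorem card_inv_A5 : (Finset.univ.filter (fun t : Equiv.Perm (Fin 5) =>
    t * t = 1 ∧ t ≠ 1 ∧ Equiv.Perm.sign t = 1)).card = 15 := by
  decide +kernel

theorem card_involutions_A5 (m : ℕ) (hm : m = 5) :
    Nat.card {t : alternatingGroup (Fin m) // orderOf t = 2} ≤ 15 := by
  subst hm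
  rw [← card_inv_A5, ← Fintype.card_subtype, ← Nat.card_eq_fintype_card]
  refine Nat.card_le_card_of_injective (fun t => ⟨t.1.1, ?_, ?_, t.1.2⟩) ?_
  · have := Lib.Involutions.mul_self t.2
    exact congrArg Subtype.val this
  · intro h
    exact Lib.Involutions.ne_one t.2 (Subtype.ext h)
  · intro s t h
    have h1 : s.1.1 = t.1.1 := congrArg (fun x : {t : Equiv.Perm (Fin 5) //
      t * t = 1 ∧ t ≠ 1 ∧ Equiv.Perm.sign t = 1} => x.1) h
    exact Subtype.ext (Subtype.ext h1)

/-- In a finite simple group G of even order greater than 2, the number n of involutions satisfies 3n < |G|. -/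
theorem result {G : Type*} [Group G] [Finite G] [IsSimpleGroup G] (heven : Even (Nat.card G)) (hgt : 2 < Nat.card G) : 3 * Nat.card {t : G // orderOf t = 2} < Nat.card G := by
  have hnc : ¬ IsMulCommutative G := by
    apply Lib.SmallSimple.not_isMulCommutative_of_card (n := Nat.card G) rfl
    intro hp
    have := (Nat.Prime.even_iff hp).1 heven
    omega
  by_contra hlt
  push Not at hlt
  set n := Nat.card {t : G // orderOf t = 2} with hn
  have hZ : Odd (Nat.card (Subgroup.center G)) := by
    rcases (inferInstance : (Subgroup.center G).Normal).eq_bot_or_eq_top with h | h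
    · rw [h, Subgroup.card_bot]; exact odd_one
    · exfalso
      apply hnc
      refine ⟨⟨fun a b => ?_⟩⟩
      have : b ∈ Subgroup.center G := by rw [h]; trivial
      exact (Subgroup.mem_center_iff.1 this a)
  obtain ⟨H, hH, hHi⟩ := Lib.BrauerFowler.index_bound heven hZ
  have hm : H.index ≤ 5 := by
    rcases hHi with h | h
    · omega
    · rw [← hn] at h
      have h1 : 2 * H.index * n ^ 2 < 12 * n ^ 2 := by
        calc 2 * H.index * n ^ 2 < Nat.card G * (Nat.card G + n) := h
          _ ≤ (3 * n) * (3 * n + n) := Nat.mul_le_mul hlt (Nat.add_le_add_right hlt _)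
          _ = 12 * n ^ 2 := by ring
      have := Nat.lt_of_mul_lt_mul_right h1
      omega
  have hm1 : H.index ≠ 1 := fun h => hH (Subgroup.index_eq_one.1 h)
  have hm0 : H.index ≠ 0 := Subgroup.index_ne_zero_of_finite
  obtain ⟨f, hf⟩ := S0991.result hnc H hH
  have hcardA : ∀ m : ℕ, m ≤ 5 → m ≠ 0 → m ≠ 1 → 2 * Nat.card (alternatingGroup (Fin m)) = m.factorial := by
    intro m h5 h0 h1
    have : Nontrivial (Fin m) := by
      rw [← Fintype.one_lt_card_iff_nontrivial, Fintype.card_fin]
      omega
    rw [two_mul_nat_card_alternatingGroup, Nat.card_perm, Nat.card_eq_fintype_card, Fintype.card_fin]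
  have hA := hcardA _ hm hm0 hm1
  have hdvd : Nat.card G ∣ Nat.card (alternatingGroup (Fin H.index)) := Subgroup.card_dvd_of_injective f hf
  have hd60 : Nat.card G ∣ 60 := by
    interval_cases hmm : H.index
    · omega
    · omega
    · have : Nat.card (alternatingGroup (Fin 2)) = 1 := by
        have hA' : 2 * Nat.card (alternatingGroup (Fin 2)) = 2 := hA
        omega
      rw [this] at hdvd
      exact hdvd.trans (by norm_num)
    · have : Nat.card (alternatingGroup (Fin 3)) = 3 := by
        have hA' : 2 * Nat.card (alternatingGroup (Fin 3)) = 6 := hA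
        omega
      rw [this] at hdvd
      exact hdvd.trans (by norm_num)
    · have : Nat.card (alternatingGroup (Fin 4)) = 12 := by
        have hA' : 2 * Nat.card (alternatingGroup (Fin 4)) = 24 := hA
        omega
      rw [this] at hdvd
      exact hdvd.trans (by norm_num)
    · have : Nat.card (alternatingGroup (Fin 5)) = 60 := by
        have hA' : 2 * Nat.card (alternatingGroup (Fin 5)) = 120 := hA
        omega
      rw [this] at hdvd
      exact hdvd
  obtain ⟨T⟩ : Nonempty (Sylow 2 G) := inferInstance
  have h8 : ¬ 8 ∣ Nat.card G := fun h => by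
    have := h.trans hd60
    omega
  obtain ⟨hT, hrel⟩ := S0992.result hnc heven h8 T
  have hT4 : Nat.card T = 4 := hT.card_four
  have h4 : 4 ∣ Nat.card G := by rw [← hT4]; exact Subgroup.card_subgroup_dvd_card _
  have h3 : 3 ∣ Nat.card G := by
    rw [← hrel]
    exact (Subgroup.relIndex_dvd_card _ _).trans (Subgroup.card_subgroup_dvd_card _)
  have h12 : Nat.card G = 12 ∨ Nat.card G = 60 := by
    obtain ⟨c, hc⟩ := hd60
    obtain ⟨d, hd⟩ : 12 ∣ Nat.card G := by omega
    rw [hd] at hc
    have hd5 : d ≤ 5 := by
      rcases Nat.eq_zero_or_pos c with h | h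
      · subst h; omega
      · nlinarith
    interval_cases d <;> omega
  rcases h12 with h12 | h60
  · -- order 12
    have hcommT : (T : Subgroup G) ≤ Subgroup.centralizer ((T : Subgroup G) : Set G) := by
      intro x hx
      rw [Subgroup.mem_centralizer_iff]
      intro y hy
      exact Lib.SmallFusion.comm_of_mem_klein hT hy hx
    have h5 : Nat.card T ≤ Nat.card (Subgroup.centralizer ((T : Subgroup G) : Set G)) :=
      Subgroup.card_le_of_le hcommT
    have h6 : Subgroup.centralizer ((T : Subgroup G) : Set G) ≤
        Subgroup.normalizer ((T : Subgroup G) : Set G) := Subgroup.centralizer_le_normalizer _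
    have h7 : 3 * Nat.card (Subgroup.centralizer ((T : Subgroup G) : Set G)) =
        Nat.card (Subgroup.normalizer ((T : Subgroup G) : Set G)) := by
      rw [← hrel]
      have h0 := Subgroup.relIndex_mul_relIndex ⊥ _ _ bot_le h6
      rw [Subgroup.relIndex_bot_left, Subgroup.relIndex_bot_left] at h0
      rw [← h0, mul_comm]
    have h9 : Nat.card (Subgroup.normalizer ((T : Subgroup G) : Set G)) ≤ Nat.card G :=
      Subgroup.card_le_card_group _
    have h10 : Subgroup.normalizer ((T : Subgroup G) : Set G) = ⊤ := by
      rw [← Subgroup.card_eq_iff_eq_top]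
      omega
    have h11 : (T : Subgroup G).Normal := Subgroup.normalizer_eq_top_iff.1 h10
    rcases h11.eq_bot_or_eq_top with h | h
    · have : Nat.card (T : Subgroup G) = 1 := by rw [h, Subgroup.card_bot]
      have h' : Nat.card (T : Subgroup G) = 4 := hT4
      omega
    · have : Nat.card (T : Subgroup G) = 12 := by rw [h, Subgroup.card_top, h12]
      have h' : Nat.card (T : Subgroup G) = 4 := hT4
      omega
  · -- order 60
    have hm5 : H.index = 5 := by
      by_contra hne
      have h5 : H.index ≤ 4 := by omega
      have h6 : H.index.factorial ≤ Nat.factorial 4 := Nat.factorial_le h5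
      have h7 : Nat.factorial 4 = 24 := by decide
      have h8' : Nat.card G ≤ Nat.card (alternatingGroup (Fin H.index)) :=
        Nat.card_le_card_of_injective f hf
      omega
    have hn15 : n ≤ 15 := by
      refine le_trans ?_ (card_involutions_A5 H.index hm5)
      refine Nat.card_le_card_of_injective (fun t => ⟨f t.1, ?_⟩) ?_
      · rw [orderOf_injective f hf, t.2]
      · intro s t h
        exact Subtype.ext (hf (congrArg Subtype.val h))
    omega

end Cfsg.Agent.S0234
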