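import Cfsg.Statements.S0237
import Cfsg.Agent.Lib.Involutions

set_option autoImplicit false
open Cfsg

namespace Cfsg.Agent.S0237

/-- If x is real (conjugate to x⁻¹) in a finite group G, the number of g with g x g⁻¹ = x⁻¹ equals |C_G(x)|. -/
theorem result {G : Type*} [Group G] [Finite G] (x : G) (hreal : IsConj x x⁻¹) : Nat.card {g : G // g * x * g⁻¹ = x⁻¹} = Nat.card (Subgroup.centralizer ({x} : Set G)) := by
  exact Lib.Involutions.card_inverters x hreal

end Cfsg.Agent.S0237
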