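import Cfsg.Statements.S0240
import Cfsg.Agent.Lib.Involutions

set_option autoImplicit false
open Cfsg

namespace Cfsg.Agent.S0240

/-- Let G be a finite group with n involutions and H a subgroup with |H|·(n+1) > |G|. Then some nontrivial h ∈ H is strongly real in G: an involution t of G satisfies t h t⁻¹ = h⁻¹. -/
theorem result {G : Type*} [Group G] [Finite G] (H : Subgroup G) (hH : Nat.card G < Nat.card H * (Nat.card {t : G // orderOf t = 2} + 1)) : ∃ h : G, h ∈ H ∧ h ≠ 1 ∧ ∃ t : G, orderOf t = 2 ∧ t * h * t⁻¹ = h⁻¹ := by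
  exact Lib.Involutions.exists_inverted_of_card_lt H hH

end Cfsg.Agent.S0240
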