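import Cfsg.Statements.S0244
-- import your own Cfsg.Agent.* helpers here

set_option autoImplicit false
open Cfsg

namespace Cfsg.Agent.S0244


/-- Sp_2 = SL_2: a matrix on Fin 1 ⊕ Fin 1 lies in Mathlib's symplectic group iff its determinant is 1. -/
theorem result {R : Type*} [CommRing R] (A : Matrix (Fin 1 ⊕ Fin 1) (Fin 1 ⊕ Fin 1) R) : A ∈ Matrix.symplecticGroup (Fin 1) R ↔ A.det = 1 := by
  rw [SymplecticGroup.mem_iff]
  have hdet : A.det = A (Sum.inl 0) (Sum.inl 0) * A (Sum.inr 0) (Sum.inr 0)
      - A (Sum.inl 0) (Sum.inr 0) * A (Sum.inr 0) (Sum.inl 0) := by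
    rw [← Matrix.det_submatrix_equiv_self (finSumFinEquiv (m := 1) (n := 1)).symm A, Matrix.det_fin_two]
    rfl
  have key : A * Matrix.J (Fin 1) R * A.transpose = A.det • Matrix.J (Fin 1) R := by
    ext i j
    rcases i with i | i <;> rcases j with j | j <;> 
    · obtain rfl := Subsingleton.elim i 0
      obtain rfl := Subsingleton.elim j 0
      simp [Matrix.mul_apply, Matrix.J, hdet]
      try ring
  rw [key]
  constructor
  · intro h
    have := congrFun (congrFun h (Sum.inr 0)) (Sum.inl 0)
    simpa [Matrix.J] using this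
  · intro h
    rw [h, one_smul]

end Cfsg.Agent.S0244
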