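import Cfsg.Statements.S0257
import Cfsg.Agent.Lib.ClSmall

set_option autoImplicit false
open Cfsg

namespace Cfsg.Agent.S0257


/-- SL_2(3) has a normal subgroup of index 3 isomorphic to the quaternion group of order 8, and its centre has order 2. -/
theorem result {F : Type*} [Field F] [Fintype F] (hF : Fintype.card F = 3) : (∃ Q : Subgroup (Matrix.SpecialLinearGroup (Fin 2) F), Q.Normal ∧ Q.index = 3 ∧ Nonempty (Q ≃* QuaternionGroup 2)) ∧ Nat.card (Subgroup.center (Matrix.SpecialLinearGroup (Fin 2) F)) = 2 := by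
  exact ⟨Cfsg.Agent.Lib.ClSmall.sl2_three hF, Cfsg.Agent.Lib.ClSL2Syl.card_center_SL2 (by rw [hF]; decide)⟩

end Cfsg.Agent.S0257
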