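import Cfsg.Statements.S0266
import Cfsg.Agent.Lib.ClProjLine

set_option autoImplicit false
open scoped MatrixGroups
open Cfsg

namespace Cfsg.Agent.S0266


/-- PGL_2(F) is sharply 3-transitive on the projective line: it is 3-transitive and the stabiliser of three distinct points is trivial. -/
theorem result {F : Type*} [Field F] : MulAction.IsMultiplyPretransitive (Matrix.ProjGenLinGroup (Fin 2) F) (Projectivization F (Fin 2 → F)) 3 ∧ ∀ (g : Matrix.ProjGenLinGroup (Fin 2) F) (a b c : Projectivization F (Fin 2 → F)), a ≠ b → a ≠ c → b ≠ c → g • a = a → g • b = b → g • c = c → g = 1 := by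
  exact ⟨Cfsg.Agent.Lib.ClProjLine.pgl_three_transitive, Cfsg.Agent.Lib.ClProjLine.pgl_sharp⟩

end Cfsg.Agent.S0266
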