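import Cfsg.Statements.S0268
import Mathlib
import Cfsg.Agent.Lib.ClUtil

set_option autoImplicit false
open Cfsg

namespace Cfsg.Agent.S0268


/-- For q odd, -1 is the unique involution of SL_2(q). -/
theorem result {F : Type*} [Field F] [Fintype F] (hF : Odd (Fintype.card F)) (g : Matrix.SpecialLinearGroup (Fin 2) F) (h1 : g ≠ 1) (h2 : g * g = 1) : (g : Matrix (Fin 2) (Fin 2) F) = -1 := by
  have hchar : (2 : F) ≠ 0 := Cfsg.Agent.Lib.ClUtil.two_ne_zero_of_odd_card hF
  have hd : (g : Matrix (Fin 2) (Fin 2) F).det = 1 := g.2
  rw [Matrix.det_fin_two] at hd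
  have h2' : (g : Matrix (Fin 2) (Fin 2) F) * g = 1 := by
    rw [← Matrix.SpecialLinearGroup.coe_mul, h2, Matrix.SpecialLinearGroup.coe_one]
  set a := (g : Matrix (Fin 2) (Fin 2) F) 0 0 with ha
  set b := (g : Matrix (Fin 2) (Fin 2) F) 0 1 with hb
  set c := (g : Matrix (Fin 2) (Fin 2) F) 1 0 with hc
  set d := (g : Matrix (Fin 2) (Fin 2) F) 1 1 with hdd
  have e00 : a * a + b * c = 1 := by
    have := congrFun (congrFun h2' 0) 0
    simpa [Matrix.mul_apply, Fin.sum_univ_two] using this
  have e01 : a * b + b * d = 0 := by
    have := congrFun (congrFun h2' 0) 1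
    simpa [Matrix.mul_apply, Fin.sum_univ_two] using this
  have e10 : c * a + d * c = 0 := by
    have := congrFun (congrFun h2' 1) 0
    simpa [Matrix.mul_apply, Fin.sum_univ_two] using this
  have e11 : c * b + d * d = 1 := by
    have := congrFun (congrFun h2' 1) 1
    simpa [Matrix.mul_apply, Fin.sum_univ_two] using this
  -- (a + d) b = 0, (a+d) c = 0, a^2 = d^2 ; a d - b c = 1
  have h1' : (a + d) * a = 2 := by linear_combination e00 + hd
  have had : a + d ≠ 0 := by
    intro h; rw [h, zero_mul] at h1'; exact hchar h1'.symm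
  have hb0 : b = 0 := by
    have : (a + d) * b = 0 := by linear_combination e01
    exact (mul_eq_zero.1 this).resolve_left had
  have hc0 : c = 0 := by
    have : (a + d) * c = 0 := by linear_combination e10
    exact (mul_eq_zero.1 this).resolve_left had
  have haa : a * a = 1 := by rw [hb0] at e00; linear_combination e00
  have had1 : a * d = 1 := by rw [hb0] at hd; linear_combination hd
  have hda : d = a := by
    have ha0 : a ≠ 0 := by rintro h; rw [h] at haa; simp at haa
    exact mul_left_cancel₀ ha0 (had1.trans haa.symm)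
  rcases mul_self_eq_one_iff.1 haa with h | h
  · exfalso
    apply h1
    ext i j
    fin_cases i <;> fin_cases j
    · simpa using h
    · simpa using hb0
    · simpa using hc0
    · simpa using (hda.trans h)
  · ext i j
    fin_cases i <;> fin_cases j
    · simpa using h
    · simpa using hb0
    · simpa using hc0
    · simpa using (hda.trans h)

end Cfsg.Agent.S0268
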