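import Cfsg.Statements.S0275
import Cfsg.Agent.Lib.ClDickson
import Cfsg.Agent.Lib.ClSL2Syl
import Cfsg.Agent.Lib.UniqueInvolution

set_option autoImplicit false
open Cfsg

namespace Cfsg.Agent.S0275

theorem comm_of_cyclic {G : Type*} [Group G] [IsCyclic G] (x y : G) : x * y = y * x := by
  obtain ⟨g, hg⟩ := IsCyclic.exists_generator (α := G)
  obtain ⟨i, rfl⟩ := Subgroup.mem_zpowers_iff.mp (hg x)
  obtain ⟨j, rfl⟩ := Subgroup.mem_zpowers_iff.mp (hg y)
  rw [← zpow_add, ← zpow_add, add_comm]

theorem quaternion_not_cyclic (k : ℕ) (hk : 1 ≤ k) : ¬ IsCyclic (QuaternionGroup (2 ^ k)) := by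
  intro h
  have h1 := comm_of_cyclic (QuaternionGroup.a (1 : ZMod (2 * 2 ^ k))) (QuaternionGroup.xa 0)
  rw [QuaternionGroup.a_mul_xa, QuaternionGroup.xa_mul_a] at h1
  have h2 : ((0 : ZMod (2 * 2 ^ k)) - 1) = 0 + 1 := by
    injection h1
  have h3 : ((2 : ℕ) : ZMod (2 * 2 ^ k)) = 0 := by
    push_cast
    linear_combination -h2
  rw [ZMod.natCast_eq_zero_iff] at h3
  have h4 := Nat.le_of_dvd two_pos h3
  have h5 : 2 ≤ 2 ^ k := by
    calc 2 = 2 ^ 1 := by norm_num
      _ ≤ 2 ^ k := Nat.pow_le_pow_right two_pos hk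
  omega

/-- If p is odd and H is a subgroup of SL_2(q), q a power of p, with more than one Sylow p-subgroup, then the Sylow 2-subgroups of H are generalised quaternion. -/
theorem result {F : Type*} [Field F] [Fintype F] (p : ℕ) [Fact p.Prime] [CharP F p] (hp : p ≠ 2) (H : Subgroup (Matrix.SpecialLinearGroup (Fin 2) F)) (hH : 1 < Nat.card (Sylow p H)) (S : Sylow 2 H) : ∃ k : ℕ, 1 ≤ k ∧ Nonempty ((S : Subgroup H) ≃* QuaternionGroup (2 ^ k)) := by
  classical
  haveI : DecidableEq F := Classical.decEq F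
  obtain ⟨f, hf, hle⟩ := Cfsg.Agent.Lib.ClDickson.exists_SL2p p hp H hH
  have hodd : Odd p := (Nat.Prime.odd_of_ne_two Fact.out hp)
  have h2 : (2 : F) ≠ 0 := by
    intro h
    have h3 : ((2 : ℕ) : F) = 0 := by exact_mod_cast h
    rw [CharP.cast_eq_zero_iff F p] at h3
    have := (Nat.prime_dvd_prime_iff_eq Fact.out Nat.prime_two).mp h3
    exact hp this
  have hinv : ∀ x : S, orderOf x = 2 → (((x : H) : Matrix.SpecialLinearGroup (Fin 2) F) : Matrix (Fin 2) (Fin 2) F) = -1 := by
    intro x hx
    have hx1 : x ≠ 1 := by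
      rintro rfl
      rw [orderOf_one] at hx
      exact absurd hx (by norm_num)
    have hx2 : x * x = 1 := by
      have := pow_orderOf_eq_one x
      rw [hx, _root_.sq] at this
      exact this
    apply Cfsg.Agent.Lib.ClSL2Syl.unique_involution h2
    · intro e
      exact hx1 (Subtype.ext (Subtype.ext e))
    · have := congrArg (fun z : S => ((z : H) : Matrix.SpecialLinearGroup (Fin 2) F)) hx2
      simpa using this
  rcases Cfsg.Agent.Lib.UniqueInvolution.isCyclic_or_quaternion S.isPGroup' (by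
    intro x y hx hy
    have e : x = y := by
      apply Subtype.ext
      apply Subtype.ext
      apply Subtype.ext
      rw [hinv x hx, hinv y hy]
    rw [e]
    exact Subgroup.mem_zpowers y) with h | ⟨-, h⟩
  · exfalso
    haveI := h
    have P : Sylow 2 (Matrix.SpecialLinearGroup (Fin 2) (ZMod p)) := default
    obtain ⟨k, hk, ⟨e⟩⟩ := Cfsg.Agent.Lib.ClSL2Syl.sylow_two_SL2 (F := ZMod p) (by
      rw [ZMod.card]; exact hodd) P
    -- embed `P` in a Sylow subgroup of `H`
    let g : P →* H := (f.comp (P : Subgroup (Matrix.SpecialLinearGroup (Fin 2) (ZMod p))).subtype).codRestrict H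
      (fun x => hle ⟨_, rfl⟩)
    have hg : Function.Injective g := by
      intro x y e
      have e1 := congrArg Subtype.val e
      exact Subtype.ext (hf e1)
    have hT : IsPGroup 2 g.range := by
      exact IsPGroup.of_equiv P.isPGroup' (MonoidHom.ofInjective hg)
    obtain ⟨S', hS'⟩ := hT.exists_le_sylow
    have eS : S' ≃* S := Sylow.equiv S' S
    haveI : IsCyclic S' := isCyclic_of_surjective eS.symm eS.symm.surjective
    haveI : IsCyclic g.range := isCyclic_of_injective (Subgroup.inclusion hS') (Subgroup.inclusion_injective hS')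
    haveI : IsCyclic P := isCyclic_of_injective (MonoidHom.ofInjective hg).toMonoidHom
      (MonoidHom.ofInjective hg).injective
    exact quaternion_not_cyclic k hk (isCyclic_of_surjective e e.surjective)
  · exact h

end Cfsg.Agent.S0275
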