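import Cfsg.Statements.S0281
import Cfsg.Agent.Lib.ClUnitary2
import Cfsg.Agent.Lib.ClEmbedU
import Cfsg.Agent.Lib.ClSL2

set_option autoImplicit false
open Cfsg

namespace Cfsg.Agent.S0281

open Cfsg.Agent.Lib

/-- SU_2(q) is isomorphic to SL_2(q). -/
theorem result {F K : Type*} [Field F] [Fintype F] [Field K] [Fintype K] {q : ℕ} (hF : Fintype.card F = q ^ 2) (hK : Fintype.card K = q) : Nonempty (Cfsg.SU 2 F q ≃* Matrix.SpecialLinearGroup (Fin 2) K) := by
  classical
  have h2 := HermMat.two_le_q hF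
  obtain ⟨K', hK', φ, hφ⟩ := _root_.Cfsg.Agent.Lib.ClEmbed.exists_sl2_to_SU (q := q) hF 2 le_rfl
  haveI : Fintype K' := Fintype.ofFinite K'
  have hc1 := ClUnitary.card_SU (n := 2) hF (by norm_num)
  have hc : Nat.card (Cfsg.SU 2 F q) = q * (q ^ 2 - 1) := by
    have hq1 : 1 ≤ q ^ 2 := Nat.one_le_pow _ _ (by omega)
    simp [Finset.prod_range_succ, -Nat.card_eq_fintype_card] at hc1
    apply Nat.eq_of_mul_eq_mul_left (by omega : 0 < q + 1)
    rw [hc1]
    ring
  have hc2 : Nat.card (Matrix.SpecialLinearGroup (Fin 2) K') = Fintype.card K' * ((Fintype.card K') ^ 2 - 1) :=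
    ClSL2.card_SL2 rfl
  have hle : Nat.card (Matrix.SpecialLinearGroup (Fin 2) K') ≤ Nat.card (Cfsg.SU 2 F q) :=
    Nat.card_le_card_of_injective φ hφ
  rw [Nat.card_eq_fintype_card] at hK'
  have hKq : Fintype.card K' = q := by
    by_contra hne
    have h3 : q + 1 ≤ Fintype.card K' := by omega
    rw [hc, hc2] at hle
    have h4 : q ^ 2 - 1 ≤ Fintype.card K' ^ 2 - 1 := Nat.sub_le_sub_right (Nat.pow_le_pow_left (by omega) 2) 1
    have h5 : 0 < q ^ 2 - 1 := by
      have : 1 < q ^ 2 := by nlinarith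
      omega
    have h6 : (q + 1) * (q ^ 2 - 1) ≤ Fintype.card K' * (Fintype.card K' ^ 2 - 1) := Nat.mul_le_mul h3 h4
    nlinarith
  have hbij : Function.Bijective φ := by
    rw [Nat.bijective_iff_injective_and_card]
    exact ⟨hφ, by rw [hc, hc2, hKq]⟩
  let e1 := MulEquiv.ofBijective φ hbij
  let e2 : K' ≃+* K := FiniteField.ringEquivOfCardEq (hKq.trans hK.symm)
  have e3 : Matrix.SpecialLinearGroup (Fin 2) K' ≃* Matrix.SpecialLinearGroup (Fin 2) K :=
    MulEquiv.ofBijective (Matrix.SpecialLinearGroup.map (n := Fin 2) e2.toRingHom) (by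
      constructor
      · intro a b hab
        apply Subtype.ext
        ext1 i j
        apply e2.injective
        exact congrArg (fun x : Matrix.SpecialLinearGroup (Fin 2) K => x.1 i j) hab
      · intro b
        refine ⟨Matrix.SpecialLinearGroup.map (n := Fin 2) e2.symm.toRingHom b, ?_⟩
        apply Subtype.ext
        ext1 i j
        exact e2.apply_symm_apply _)
  exact ⟨e1.symm.trans e3⟩

end Cfsg.Agent.S0281
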