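import Cfsg.Statements.S0298
import Cfsg.Agent.Lib.LowDimB
import Cfsg.Agent.Lib.ClSL2
import Cfsg.Agent.S0286

set_option autoImplicit false
open Cfsg

namespace Cfsg.Agent.S0298

open QuadraticMap Cfsg.Agent.Lib Cfsg.Agent.Lib.Quad Cfsg.Agent.Lib.LowDimB Matrix

/-- symmetric matrices -/
def W (F : Type*) [Field F] : Submodule F (Matrix (Fin 2) (Fin 2) F) where
  carrier := {X | X 0 1 = X 1 0}
  add_mem' {a b} ha hb := by
    show (a + b) 0 1 = (a + b) 1 0
    rw [Matrix.add_apply, Matrix.add_apply, ha, hb]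
  zero_mem' := rfl
  smul_mem' c a ha := by
    show (c • a) 0 1 = (c • a) 1 0
    rw [Matrix.smul_apply, Matrix.smul_apply, ha]

def f (F : Type*) [Field F] : SpecialLinearGroup (Fin 2) F →*
    (Matrix (Fin 2) (Fin 2) F →ₗ[F] Matrix (Fin 2) (Fin 2) F) where
  toFun A :=
    { toFun := fun X => A.1 * X * A.1ᵀ
      map_add' := fun X Y => by rw [mul_add, add_mul]
      map_smul' := fun c X => by rw [Matrix.mul_smul, Matrix.smul_mul]; rfl }
  map_one' := by
    apply LinearMap.ext
    intro X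
    show (1 : Matrix (Fin 2) (Fin 2) F) * X * (1 : Matrix (Fin 2) (Fin 2) F)ᵀ = X
    rw [transpose_one, one_mul, mul_one]
  map_mul' A B := by
    apply LinearMap.ext
    intro X
    show (A.1 * B.1) * X * (A.1 * B.1)ᵀ = A.1 * (B.1 * X * B.1ᵀ) * A.1ᵀ
    rw [transpose_mul]
    simp only [mul_assoc]

theorem f_apply {F : Type*} [Field F] (A : SpecialLinearGroup (Fin 2) F) (X : Matrix (Fin 2) (Fin 2) F) :
    f F A X = A.1 * X * A.1ᵀ := rfl

theorem f_mem {F : Type*} [Field F] (A : SpecialLinearGroup (Fin 2) F) :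
    ∀ X ∈ W F, f F A X ∈ W F := by
  intro X hX
  have h : Xᵀ = X := by
    ext i j
    fin_cases i <;> fin_cases j
    · rfl
    · exact (show X 1 0 = X 0 1 from Eq.symm hX)
    · exact hX
    · rfl
  have h2 : (f F A X)ᵀ = f F A X := by
    rw [f_apply, transpose_mul, transpose_mul, transpose_transpose, h, mul_assoc]
  show (f F A X) 0 1 = (f F A X) 1 0
  conv_rhs => rw [← h2]
  rfl

/-- coordinates -/
def coord (F : Type*) [Field F] : (Unit ⊕ (Fin 1 ⊕ Fin 1) → F) ≃ₗ[F] W F where
  toFun v := ⟨!![v (.inr (.inl 0)), v (.inl ()); v (.inl ()), - v (.inr (.inr 0))], rfl⟩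
  invFun X := Sum.elim (fun _ => X.1 0 1) (Sum.elim (fun _ => X.1 0 0) (fun _ => - X.1 1 1))
  left_inv v := by
    funext i
    rcases i with i | i | i
    · rfl
    · fin_cases i; rfl
    · fin_cases i
      simp
  right_inv X := by
    apply Subtype.ext
    ext i j
    fin_cases i <;> fin_cases j
    · rfl
    · rfl
    · exact X.2
    · simp
  map_add' v w := by
    apply Subtype.ext
    ext i j
    fin_cases i <;> fin_cases j <;> simp [add_comm]
  map_smul' c v := by
    apply Subtype.ext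
    ext i j
    fin_cases i <;> fin_cases j <;> simp

def Q' (F : Type*) [Field F] : QuadraticForm F (W F) := (quadOdd 1 F).comp (coord F).symm.toLinearMap

theorem Q'_apply {F : Type*} [Field F] (X : W F) : Q' F X = - X.1.det := by
  show Cfsg.quadFormOdd 1 F ((coord F).symm X) = _
  rw [Cfsg.quadFormOdd, Matrix.det_fin_two]
  have h0 : (coord F).symm X (.inl ()) = X.1 0 1 := rfl
  have h1 : ∀ i, (coord F).symm X (.inr (.inl i)) = X.1 0 0 := fun i => rfl
  have h2 : ∀ i, (coord F).symm X (.inr (.inr i)) = - X.1 1 1 := fun i => rfl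
  simp only [h0, h1, h2]
  have h3 : X.1 1 0 = X.1 0 1 := X.2.symm
  rw [h3]
  simp
  ring

theorem Q'_coord {F : Type*} [Field F] (v : Unit ⊕ (Fin 1 ⊕ Fin 1) → F) :
    Q' F (coord F v) = quadOdd 1 F v := by
  show quadOdd 1 F ((coord F).symm (coord F v)) = _
  rw [LinearEquiv.symm_apply_apply]

noncomputable def ρ (F : Type*) [Field F] : SpecialLinearGroup (Fin 2) F →* (W F ≃ₗ[F] W F) :=
  liftLE (restrictHom (f F) (W F) f_mem)

theorem ρ_apply {F : Type*} [Field F] (A : SpecialLinearGroup (Fin 2) F) (X : W F) :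
    (ρ F A X).1 = A.1 * X.1 * A.1ᵀ := rfl

theorem ρ_mem {F : Type*} [Field F] (A : SpecialLinearGroup (Fin 2) F) : ρ F A ∈ O (Q' F) := by
  intro X
  rw [Q'_apply, Q'_apply, ρ_apply, det_mul, det_mul, det_transpose, A.2]
  simp

theorem ker_ρ {F : Type*} [Field F] (A : SpecialLinearGroup (Fin 2) F) (h : ρ F A = 1) :
    A.1 = 1 ∨ A.1 = -1 := by
  have hX : ∀ X : W F, A.1 * X.1 * A.1ᵀ = X.1 := by
    intro X
    rw [← ρ_apply, h]; rfl
  have h1 := hX ⟨!![1, 0; 0, 0], rfl⟩
  have h2 := hX ⟨!![0, 0; 0, 1], rfl⟩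
  have h3 := hX ⟨!![0, 1; 1, 0], rfl⟩
  simp only at h1 h2 h3
  have e : ∀ i j (M N : Matrix (Fin 2) (Fin 2) F), M = N → M i j = N i j := fun i j M N h => by rw [h]
  have a1 := e 0 0 _ _ h1
  have a2 := e 1 1 _ _ h1
  have b1 := e 0 0 _ _ h2
  have b2 := e 1 1 _ _ h2
  have c1 := e 0 1 _ _ h3
  simp [Matrix.mul_apply, Fin.sum_univ_two] at a1 a2 b1 b2 c1
  -- a00^2 = 1, a10 = 0, a01 = 0, a11^2=1
  rw [b1, a2] at c1
  simp at c1
  have ha : A.1 0 0 = 1 ∨ A.1 0 0 = -1 := by
    have : (A.1 0 0 - 1) * (A.1 0 0 + 1) = 0 := by linear_combination a1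
    rcases mul_eq_zero.1 this with h | h
    · left; linear_combination h
    · right; linear_combination h
  rcases ha with h | h
  · left
    have h11 : A.1 1 1 = 1 := by rw [h] at c1; simpa using c1
    ext i j
    fin_cases i <;> fin_cases j
    · simpa using h
    · simpa using b1
    · simpa using a2
    · simpa using h11
  · right
    have h11 : A.1 1 1 = -1 := by rw [h] at c1; linear_combination -c1
    ext i j
    fin_cases i <;> fin_cases j
    · simpa using h
    · simpa using b1
    · simpa using a2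
    · simpa using h11

/-- PΩ_3(q) is isomorphic to PSL_2(q) for q odd. -/
theorem result {F : Type*} [Field F] [Fintype F] (hodd : Odd (Fintype.card F)) : Nonempty (Cfsg.POmega F (Cfsg.quadFormOdd 1 F) ≃* Matrix.ProjectiveSpecialLinearGroup (Fin 2) F) := by
  have h2 : (2 : F) ≠ 0 := two_ne_zero_of_odd rfl hodd
  have hnd : Nd (quadOdd 1 F) := nd_quadOdd h2
  have hgen : GenHyp (quadOdd 1 F) := genHyp_of_two_ne_zero h2
  haveI : FiniteDimensional F (W F) := inferInstance
  have hndW : Nd (Q' F) := by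
    rw [nd_iff]
    intro x hx
    have h1 : ∀ y, polar (quadOdd 1 F) ((coord F).symm x) y = 0 := by
      intro y
      have h3 := hx (coord F y)
      rw [polar, Q', QuadraticMap.comp_apply, QuadraticMap.comp_apply, QuadraticMap.comp_apply] at h3
      simp only [LinearEquiv.coe_coe, map_add, LinearEquiv.symm_apply_apply] at h3
      exact h3
    have := hnd.eq_zero h1
    simpa using this
  have hR : R (Q' F) = O (Q' F) := hndW.R_eq_O (genHyp_of_two_ne_zero h2)
  refine LowDim.pomega_equiv (quadOdd 1 F) (Q' F) (coord F) Q'_coord (ρ F)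
    (SL_mem_Om (ρ F) ρ_mem hR (Or.inl h2)) ?_ ?_
  · have hk : Nat.card (ρ F).ker ≤ 2 := by
      apply card_le_two (ρ F).ker ⟨-1, by simp [Matrix.det_fin_two]⟩
      intro A hA
      rcases ker_ρ A ((MonoidHom.mem_ker).1 hA) with h | h
      · exact Or.inl (Subtype.ext h)
      · exact Or.inr (Subtype.ext h)
    have hO := LowDim.card_Omega_odd hnd h2 (by rw [finrank_odd]; norm_num)
    have hGO := S0286.result (F := F) rfl hodd 1
    have hSL := ClSL2.card_SL2 (F := F) rfl
    rw [coe_quadOdd] at *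
    rw [hGO] at hO
    simp only [Finset.prod_range_one] at hO
    norm_num at hO
    rw [hSL]
    nlinarith [hO, hk, Nat.zero_le (Nat.card ↥(Cfsg.Omega F (Cfsg.quadFormOdd 1 F)))]
  · intro A hA
    apply mem_center_of_sign
    · right
      have : (2 * ((2 : ℕ) : F)) = 2 * 2 := by norm_num
      rw [this]
      exact mul_ne_zero h2 h2
    · intro B
      have h1 : ρ F (A * B * (B * A)⁻¹) = 1 := by
        rw [map_mul, map_inv, map_mul, map_mul, hA B, mul_inv_cancel]
      rcases ker_ρ _ h1 with h | h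
      · left
        have h3 : A * B * (B * A)⁻¹ = 1 := Subtype.ext h
        rw [mul_inv_eq_one] at h3
        rw [h3]
      · right
        have h3 : (A * B).1 = (A * B * (B * A)⁻¹).1 * (B * A).1 := by
          have : A * B = (A * B * (B * A)⁻¹) * (B * A) := by group
          exact congrArg Subtype.val this
        rw [h3, h, neg_mul, one_mul]

end Cfsg.Agent.S0298
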