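import Cfsg.Statements.S0299
import Cfsg.Agent.Lib.LowDimB
import Cfsg.Agent.Lib.ClSL2
import Cfsg.Agent.S0287

set_option autoImplicit false
open Cfsg

namespace Cfsg.Agent.S0299

open QuadraticMap Cfsg.Agent.Lib Cfsg.Agent.Lib.Quad Cfsg.Agent.Lib.LowDimB Matrix

abbrev SS (F : Type*) [Field F] := SpecialLinearGroup (Fin 2) F × SpecialLinearGroup (Fin 2) F

def f (F : Type*) [Field F] : SS F →* (Matrix (Fin 2) (Fin 2) F →ₗ[F] Matrix (Fin 2) (Fin 2) F) where
  toFun A :=
    { toFun := fun X => A.1.1 * X * A.2.1ᵀ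
      map_add' := fun X Y => by rw [mul_add, add_mul]
      map_smul' := fun c X => by rw [Matrix.mul_smul, Matrix.smul_mul]; rfl }
  map_one' := by
    apply LinearMap.ext
    intro X
    show (1 : Matrix (Fin 2) (Fin 2) F) * X * (1 : Matrix (Fin 2) (Fin 2) F)ᵀ = X
    rw [transpose_one, one_mul, mul_one]
  map_mul' A B := by
    apply LinearMap.ext
    intro X
    show (A.1.1 * B.1.1) * X * (A.2.1 * B.2.1)ᵀ = A.1.1 * (B.1.1 * X * B.2.1ᵀ) * A.2.1ᵀ
    rw [transpose_mul]
    simp only [mul_assoc]

/-- coordinates -/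
def coord (F : Type*) [Field F] : (Fin 2 ⊕ Fin 2 → F) ≃ₗ[F] Matrix (Fin 2) (Fin 2) F where
  toFun v := !![v (.inl 0), v (.inl 1); - v (.inr 1), v (.inr 0)]
  invFun X := Sum.elim ![X 0 0, X 0 1] ![X 1 1, - X 1 0]
  left_inv v := by
    funext i
    rcases i with i | i
    · fin_cases i <;> rfl
    · fin_cases i <;> simp
  right_inv X := by
    ext i j
    fin_cases i <;> fin_cases j <;> simp
  map_add' v w := by
    ext i j
    fin_cases i <;> fin_cases j <;> simp [add_comm]
  map_smul' c v := by
    ext i j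
    fin_cases i <;> fin_cases j <;> simp

def Q' (F : Type*) [Field F] : QuadraticForm F (Matrix (Fin 2) (Fin 2) F) :=
  (quadPlus 2 F).comp (coord F).symm.toLinearMap

theorem Q'_apply {F : Type*} [Field F] (X : Matrix (Fin 2) (Fin 2) F) : Q' F X = X.det := by
  show Cfsg.quadFormPlus 2 F ((coord F).symm X) = _
  rw [Cfsg.quadFormPlus, Matrix.det_fin_two, Fin.sum_univ_two]
  have h0 : (coord F).symm X (.inl 0) = X 0 0 := rfl
  have h1 : (coord F).symm X (.inl 1) = X 0 1 := rfl
  have h2 : (coord F).symm X (.inr 0) = X 1 1 := rfl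
  have h3 : (coord F).symm X (.inr 1) = - X 1 0 := rfl
  rw [h0, h1, h2, h3]
  ring

theorem Q'_coord {F : Type*} [Field F] (v : Fin 2 ⊕ Fin 2 → F) :
    Q' F (coord F v) = quadPlus 2 F v := by
  show quadPlus 2 F ((coord F).symm (coord F v)) = _
  rw [LinearEquiv.symm_apply_apply]

noncomputable def ρ (F : Type*) [Field F] : SS F →* (Matrix (Fin 2) (Fin 2) F ≃ₗ[F] Matrix (Fin 2) (Fin 2) F) :=
  liftLE (f F)

theorem ρ_apply {F : Type*} [Field F] (A : SS F) (X : Matrix (Fin 2) (Fin 2) F) :
    ρ F A X = A.1.1 * X * A.2.1ᵀ := rfl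

theorem ρ_mem {F : Type*} [Field F] (A : SS F) : ρ F A ∈ O (Q' F) := by
  intro X
  rw [Q'_apply, Q'_apply, ρ_apply, det_mul, det_mul, det_transpose, A.1.2, A.2.2]
  simp

theorem ker_ρ {F : Type*} [Field F] (A : SS F) (h : ρ F A = 1) :
    (A.1.1 = 1 ∧ A.2.1 = 1) ∨ (A.1.1 = -1 ∧ A.2.1 = -1) := by
  obtain ⟨A, B⟩ := A
  have hX : ∀ X : Matrix (Fin 2) (Fin 2) F, A.1 * X * B.1ᵀ = X := by
    intro X
    have := ρ_apply (A, B) X
    rw [h] at this
    exact this.symm
  have e : ∀ i j (M N : Matrix (Fin 2) (Fin 2) F), M = N → M i j = N i j := fun i j M N h => by rw [h]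
  have h1 := hX !![1, 0; 0, 0]
  have h2 := hX !![0, 0; 0, 1]
  have h3 := hX !![0, 1; 0, 0]
  have h4 := hX !![0, 0; 1, 0]
  have a1 := e 0 0 _ _ h1
  have a2 := e 1 0 _ _ h1
  have a3 := e 0 1 _ _ h1
  have b1 := e 1 1 _ _ h2
  have b2 := e 1 0 _ _ h2
  have b3 := e 0 1 _ _ h2
  have c1 := e 0 1 _ _ h3
  have d1 := e 1 0 _ _ h4
  simp [Matrix.mul_apply, Fin.sum_univ_two] at a1 a2 a3 b1 b2 b3 c1 d1
  have hA00 : A.1 0 0 ≠ 0 := by intro h; rw [h, zero_mul] at a1; exact zero_ne_one a1
  have hB00 : B.1 0 0 ≠ 0 := by intro h; rw [h, mul_zero] at a1; exact zero_ne_one a1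
  have hA11 : A.1 1 1 ≠ 0 := by intro h; rw [h, zero_mul] at b1; exact zero_ne_one b1
  have hB11 : B.1 1 1 ≠ 0 := by intro h; rw [h, mul_zero] at b1; exact zero_ne_one b1
  have hA10 : A.1 1 0 = 0 := a2.resolve_right hB00
  have hB10 : B.1 1 0 = 0 := a3.resolve_left hA00
  have hB01 : B.1 0 1 = 0 := b2.resolve_left hA11
  have hA01 : A.1 0 1 = 0 := b3.resolve_right hB11
  have hdet := A.2
  rw [Matrix.det_fin_two, hA01, zero_mul, sub_zero] at hdet
  have hAA : A.1 0 0 = A.1 1 1 := by
    apply mul_right_cancel₀ hB00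
    rw [a1, d1]
  have hBB : B.1 0 0 = B.1 1 1 := by
    apply mul_left_cancel₀ hA00
    rw [a1, c1]
  have h5 : A.1 0 0 * A.1 0 0 = 1 := by linear_combination hdet + A.1 0 0 * hAA
  have hBA : B.1 0 0 = A.1 0 0 := mul_left_cancel₀ hA00 (a1.trans h5.symm)
  have ha : A.1 0 0 = 1 ∨ A.1 0 0 = -1 := by
    have : (A.1 0 0 - 1) * (A.1 0 0 + 1) = 0 := by
      rw [← hAA] at hdet
      linear_combination hdet
    rcases mul_eq_zero.1 this with h | h
    · left; linear_combination h
    · right; linear_combination h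
  rcases ha with h | h
  · left
    constructor
    · ext i j
      fin_cases i <;> fin_cases j
      · simpa using h
      · simpa using hA01
      · simpa using hA10
      · simpa [← hAA] using h
    · ext i j
      fin_cases i <;> fin_cases j
      · simpa [hBA] using h
      · simpa using hB01
      · simpa using hB10
      · simpa [← hBB, hBA] using h
  · right
    constructor
    · ext i j
      fin_cases i <;> fin_cases j
      · simpa using h
      · simpa using hA01
      · simpa using hA10
      · simpa [← hAA] using h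
    · ext i j
      fin_cases i <;> fin_cases j
      · simpa [hBA] using h
      · simpa using hB01
      · simpa using hB10
      · simpa [← hBB, hBA] using h

theorem quot_prod {G H : Type*} [Group G] [Group H] :
    Nonempty ((G × H) ⧸ Subgroup.center (G × H) ≃* (G ⧸ Subgroup.center G) × (H ⧸ Subgroup.center H)) := by
  let π : G × H →* (G ⧸ Subgroup.center G) × (H ⧸ Subgroup.center H) :=
    (QuotientGroup.mk' (Subgroup.center G)).prodMap (QuotientGroup.mk' (Subgroup.center H))
  have hπ : Function.Surjective π :=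
    Function.Surjective.prodMap (QuotientGroup.mk'_surjective _) (QuotientGroup.mk'_surjective _)
  have hk : π.ker = Subgroup.center (G × H) := by
    ext ⟨g, h⟩
    rw [MonoidHom.mem_ker]
    show (((g : G) : G ⧸ Subgroup.center G), ((h : H) : H ⧸ Subgroup.center H)) = 1 ↔ _
    rw [Prod.mk_eq_one, QuotientGroup.eq_one_iff, QuotientGroup.eq_one_iff, Subgroup.mem_center_iff,
      Subgroup.mem_center_iff, Subgroup.mem_center_iff]
    constructor
    · rintro ⟨h1, h2⟩ ⟨x, y⟩
      exact Prod.ext (h1 x) (h2 y)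
    · intro h1
      exact ⟨fun x => congrArg Prod.fst (h1 (x, 1)), fun y => congrArg Prod.snd (h1 (1, y))⟩
  exact ⟨(QuotientGroup.quotientMulEquivOfEq hk.symm).trans
    (QuotientGroup.quotientKerEquivOfSurjective π hπ)⟩

/-- PΩ^+_4(q) is isomorphic to PSL_2(q) x PSL_2(q) for q at least 3. -/
theorem result {F : Type*} [Field F] [Fintype F] (hF : 3 ≤ Fintype.card F) : Nonempty (Cfsg.POmega F (Cfsg.quadFormPlus 2 F) ≃* Matrix.ProjectiveSpecialLinearGroup (Fin 2) F × Matrix.ProjectiveSpecialLinearGroup (Fin 2) F) := by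
  classical
  have hnd : Nd (quadPlus 2 F) := nd_quadPlus
  have hgen : GenHyp (quadPlus 2 F) := genHyp_of_card (Or.inl (by omega))
  have hR : R (Q' F) = O (Q' F) := (nd_of_equiv (coord F) Q'_coord hnd).R_eq_O
    (genHyp_of_equiv (coord F) Q'_coord hgen)
  have hperf : (2 : F) ≠ 0 ∨ commutator (SpecialLinearGroup (Fin 2) F) = ⊤ := by
    by_cases h2 : (2 : F) = 0
    · right
      apply ClSLn.commutator_SL_eq_top'
      intro _
      by_contra hcon
      push Not at hcon
      have hsub : (Finset.univ : Finset F) ⊆ {0, 1} := by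
        intro x _
        by_cases hx : x = 0
        · simp [hx]
        · have := hcon x hx
          have h3 : (x - 1) * (x - 1) = 0 := by linear_combination this + (1 - x) * h2
          have h4 : x = 1 := by
            rcases mul_eq_zero.1 h3 with h | h <;> linear_combination h
          simp [h4]
      have := Finset.card_le_card hsub
      rw [Finset.card_univ] at this
      have h5 := Finset.card_le_two (a := (0 : F)) (b := 1)
      omega
    · exact Or.inl h2
  have hOm : ∀ g, ρ F g ∈ Om (Q' F) := by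
    rintro ⟨A, B⟩
    have h1 := SL_mem_Om ((ρ F).comp (MonoidHom.inl _ _)) (fun g => ρ_mem _) hR hperf A
    have h2 := SL_mem_Om ((ρ F).comp (MonoidHom.inr _ _)) (fun g => ρ_mem _) hR hperf B
    have h3 : ρ F (A, B) = (ρ F).comp (MonoidHom.inl _ _) A * (ρ F).comp (MonoidHom.inr _ _) B := by
      show ρ F (A, B) = ρ F (A, 1) * ρ F (1, B)
      rw [← map_mul, Prod.mk_mul_mk, mul_one, one_mul]
    rw [h3]
    exact mul_mem h1 h2
  obtain ⟨e⟩ := quot_prod (G := SpecialLinearGroup (Fin 2) F) (H := SpecialLinearGroup (Fin 2) F)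
  have key : Nonempty (Cfsg.POmega F ⇑(quadPlus 2 F) ≃* SS F ⧸ Subgroup.center (SS F)) := by
    refine LowDim.pomega_equiv (quadPlus 2 F) (Q' F) (coord F) Q'_coord (ρ F) hOm ?_ ?_
    · have hGO := S0287.result (F := F) rfl 2 (by norm_num)
      have hSL := ClSL2.card_SL2 (F := F) rfl
      rw [Nat.card_prod, hSL]
      set q := Fintype.card F with hq
      have hq2 : q ^ 2 - 1 = (q ^ 2 - 1) := rfl
      simp only [show 2 - 1 = 1 from rfl, Finset.prod_range_one] at hGO
      norm_num [-Nat.card_eq_fintype_card] at hGO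
      by_cases h2 : (2 : F) = 0
      · haveI : CharP F 2 := CharTwo.of_one_ne_zero_of_two_eq_zero one_ne_zero h2
        have hO := LowDim.card_Omega_even hnd hgen (by rw [finrank_plus]; norm_num)
        have hk : Nat.card (ρ F).ker = 1 := by
          apply card_eq_one
          intro A hA
          have hneg : (-1 : Matrix (Fin 2) (Fin 2) F) = 1 := by
            have : (-1 : F) = 1 := by linear_combination -h2
            ext i j
            rw [Matrix.neg_apply, Matrix.one_apply]
            split_ifs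
            · exact this
            · simp
          rcases ker_ρ A ((MonoidHom.mem_ker).1 hA) with h | h
          · exact Prod.ext (Subtype.ext h.1) (Subtype.ext h.2)
          · rw [hneg] at h
            exact Prod.ext (Subtype.ext h.1) (Subtype.ext h.2)
        rw [hk, mul_one]
        rw [coe_quadPlus] at *
        rw [hGO] at hO
        nlinarith [hO]
      · have hO := LowDim.card_Omega_odd hnd h2 (by rw [finrank_plus]; norm_num)
        have hk : Nat.card (ρ F).ker ≤ 2 := by
          apply card_le_two (ρ F).ker (⟨-1, by simp [Matrix.det_fin_two]⟩, ⟨-1, by simp [Matrix.det_fin_two]⟩)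
          intro A hA
          rcases ker_ρ A ((MonoidHom.mem_ker).1 hA) with h | h
          · exact Or.inl (Prod.ext (Subtype.ext h.1) (Subtype.ext h.2))
          · exact Or.inr (Prod.ext (Subtype.ext h.1) (Subtype.ext h.2))
        rw [coe_quadPlus] at *
        rw [hGO] at hO
        nlinarith [hO, hk, Nat.zero_le (Nat.card ↥(Cfsg.Omega F (Cfsg.quadFormPlus 2 F)))]
    · rintro ⟨A, B⟩ hAB
      have hneg : ∀ C D : SpecialLinearGroup (Fin 2) F, ρ F (C, D) = 1 → D = 1 → C = 1 := by
        intro C D h hD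
        rcases ker_ρ _ h with h1 | h1
        · exact Subtype.ext h1.1
        · have h3 : (1 : Matrix (Fin 2) (Fin 2) F) = -1 := by
            have := h1.2
            rw [hD] at this
            exact this
          apply Subtype.ext
          show C.1 = 1
          rw [h1.1, ← h3]
      have hneg' : ∀ C D : SpecialLinearGroup (Fin 2) F, ρ F (C, D) = 1 → C = 1 → D = 1 := by
        intro C D h hD
        rcases ker_ρ _ h with h1 | h1
        · exact Subtype.ext h1.2
        · have h3 : (1 : Matrix (Fin 2) (Fin 2) F) = -1 := by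
            have := h1.1
            rw [hD] at this
            exact this
          apply Subtype.ext
          show D.1 = 1
          rw [h1.2, ← h3]
      rw [Subgroup.mem_center_iff]
      rintro ⟨C, D⟩
      have h1 : ρ F ((A, B) * (C, 1) * ((C, 1) * (A, B))⁻¹) = 1 := by
        rw [map_mul, map_inv, map_mul, map_mul, hAB (C, 1), mul_inv_cancel]
      have h2 : ρ F ((A, B) * (1, D) * ((1, D) * (A, B))⁻¹) = 1 := by
        rw [map_mul, map_inv, map_mul, map_mul, hAB (1, D), mul_inv_cancel]
      have h3 := hneg _ _ h1 (by simp)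
      have h4 := hneg' _ _ h2 (by simp)
      apply Prod.ext
      · show C * A = A * C
        have h5 : A * C * (C * A)⁻¹ = 1 := h3
        exact (mul_inv_eq_one.1 h5).symm
      · show D * B = B * D
        have h5 : B * D * (D * B)⁻¹ = 1 := h4
        exact (mul_inv_eq_one.1 h5).symm
  obtain ⟨e'⟩ := key
  exact ⟨e'.trans e⟩

end Cfsg.Agent.S0299
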