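import Cfsg.Statements.S0300
import Cfsg.Agent.Lib.LowDimB
import Cfsg.Agent.Lib.ClSL2
import Cfsg.Agent.Lib.ClSymp3
import Cfsg.Agent.Lib.Grun
import Cfsg.Agent.S0288

set_option autoImplicit false
open Cfsg

namespace Cfsg.Agent.S0300

open QuadraticMap QuadraticAlgebra Cfsg.Agent.Lib Cfsg.Agent.Lib.Quad Cfsg.Agent.Lib.QuadExt
  Cfsg.Agent.Lib.QuadNorm Cfsg.Agent.Lib.LowDimB Matrix

section Herm

variable (F : Type*) [Field F] (a b : F)

abbrev M2 := Matrix (Fin 2) (Fin 2) (L F a b)

theorem star_smul' {F : Type*} [Field F] {a b : F} (c : F) (z : L F a b) : star (c • z) = c • star z := by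
  ext
  · simp only [re_star, re_smul, im_smul, smul_eq_mul]; ring
  · simp only [im_star, im_smul, smul_eq_mul]; ring

/-- Hermitian matrices -/
def W : Submodule F (M2 F a b) where
  carrier := {X | Xᴴ = X}
  add_mem' {x y} hx hy := by
    show (x + y)ᴴ = x + y
    rw [conjTranspose_add, hx, hy]
  zero_mem' := conjTranspose_zero
  smul_mem' c x hx := by
    show (c • x)ᴴ = c • x
    ext1 i j
    rw [conjTranspose_apply, Matrix.smul_apply, star_smul', Matrix.smul_apply]
    rw [← conjTranspose_apply, hx]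

def f : SpecialLinearGroup (Fin 2) (L F a b) →* (M2 F a b →ₗ[F] M2 F a b) where
  toFun A :=
    { toFun := fun X => A.1 * X * A.1ᴴ
      map_add' := fun X Y => by rw [mul_add, add_mul]
      map_smul' := fun c X => by rw [Matrix.mul_smul, Matrix.smul_mul]; rfl }
  map_one' := by
    apply LinearMap.ext
    intro X
    show (1 : M2 F a b) * X * (1 : M2 F a b)ᴴ = X
    rw [conjTranspose_one, one_mul, mul_one]
  map_mul' A B := by
    apply LinearMap.ext
    intro X
    show (A.1 * B.1) * X * (A.1 * B.1)ᴴ = A.1 * (B.1 * X * B.1ᴴ) * A.1ᴴ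
    rw [conjTranspose_mul]
    simp only [mul_assoc]

variable {F a b}

theorem f_apply (A : SpecialLinearGroup (Fin 2) (L F a b)) (X : M2 F a b) :
    f F a b A X = A.1 * X * A.1ᴴ := rfl

theorem f_mem (A : SpecialLinearGroup (Fin 2) (L F a b)) : ∀ X ∈ W F a b, f F a b A X ∈ W F a b := by
  intro X hX
  have hX' : Xᴴ = X := hX
  show (f F a b A X)ᴴ = f F a b A X
  rw [f_apply, conjTranspose_mul, conjTranspose_mul, conjTranspose_conjTranspose, hX', mul_assoc]

/-- the Hermitian matrix with given coordinates -/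
def hm (x y : F) (z : L F a b) : M2 F a b :=
  !![algebraMap F _ x, z; star z, - algebraMap F _ y]

theorem star_algebraMap (x : F) : star (algebraMap F (L F a b) x) = algebraMap F (L F a b) x := by
  ext
  · simp
  · simp

theorem hm_mem (x y : F) (z : L F a b) : hm x y z ∈ W F a b := by
  show (hm x y z)ᴴ = hm x y z
  ext1 i j
  fin_cases i <;> fin_cases j
  · exact star_algebraMap x
  · exact star_star z
  · rfl
  · show star (- algebraMap F (L F a b) y) = _
    rw [star_neg, star_algebraMap]; rfl

variable [Finite F] [Fact (∀ r : F, r ^ 2 ≠ -b + a * r)]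

theorem eq_hm {X : M2 F a b} (hX : X ∈ W F a b) : X = hm (X 0 0).re (-(X 1 1).re) (X 0 1) := by
  have hX' : Xᴴ = X := hX
  have e : ∀ i j, star (X j i) = X i j := fun i j => congrFun (congrFun hX' i) j
  have h00 := (QuadExt.star_eq_self_iff (X 0 0)).1 (e 0 0)
  have h11 := (QuadExt.star_eq_self_iff (X 1 1)).1 (e 1 1)
  ext1 i j
  fin_cases i <;> fin_cases j
  · show X 0 0 = algebraMap F (L F a b) (X 0 0).re
    ext
    · simp
    · simpa using h00
  · rfl
  · exact (e 1 0).symm
  · show X 1 1 = - algebraMap F (L F a b) (-(X 1 1).re)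
    ext
    · simp
    · simpa using h11

/-- coordinates -/
def coord (F : Type*) [Field F] (a b : F) [Finite F] [Fact (∀ r : F, r ^ 2 ≠ -b + a * r)] :
    ((Fin 1 ⊕ Fin 1) ⊕ Fin 2 → F) ≃ₗ[F] W F a b where
  toFun v := ⟨hm (v (.inl (.inl 0))) (v (.inl (.inr 0))) ⟨v (.inr 0), v (.inr 1)⟩, hm_mem _ _ _⟩
  invFun X := Sum.elim (Sum.elim (fun _ => (X.1 0 0).re) (fun _ => -(X.1 1 1).re))
    ![(X.1 0 1).re, (X.1 0 1).im]
  left_inv v := by
    funext i
    rcases i with (i | i) | i
    · fin_cases i; simp [hm]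
    · fin_cases i; simp [hm]
    · fin_cases i <;> rfl
  right_inv X := by
    apply Subtype.ext
    exact (eq_hm X.2).symm
  map_add' v w := by
    apply Subtype.ext
    show hm (v (.inl (.inl 0)) + w (.inl (.inl 0))) (v (.inl (.inr 0)) + w (.inl (.inr 0)))
      (⟨v (.inr 0), v (.inr 1)⟩ + ⟨w (.inr 0), w (.inr 1)⟩) = _
    ext1 i j
    fin_cases i <;> fin_cases j
    · exact map_add (algebraMap F (L F a b)) _ _
    · rfl
    · exact star_add _ _
    · show - algebraMap F (L F a b) (v (.inl (.inr 0)) + w (.inl (.inr 0))) =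
        - algebraMap F (L F a b) (v (.inl (.inr 0))) + - algebraMap F (L F a b) (w (.inl (.inr 0)))
      rw [map_add, neg_add]
  map_smul' c v := by
    apply Subtype.ext
    show hm (c * v (.inl (.inl 0))) (c * v (.inl (.inr 0))) (c • ⟨v (.inr 0), v (.inr 1)⟩) = _
    ext1 i j
    fin_cases i <;> fin_cases j
    · show algebraMap F (L F a b) (c * v (.inl (.inl 0))) = c • algebraMap F (L F a b) (v (.inl (.inl 0)))
      rw [Algebra.smul_def, map_mul]
    · rfl
    · exact star_smul' _ _
    · show - algebraMap F (L F a b) (c * v (.inl (.inr 0))) = c • - algebraMap F (L F a b) (v (.inl (.inr 0)))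
      rw [Algebra.smul_def, map_mul, mul_neg]

def Q' (F : Type*) [Field F] (a b : F) [Finite F] [Fact (∀ r : F, r ^ 2 ≠ -b + a * r)] :
    QuadraticForm F (W F a b) :=
  (quadMinus 1 F a b).comp (coord F a b).symm.toLinearMap

theorem Q'_apply (X : W F a b) : algebraMap F (L F a b) (Q' F a b X) = - X.1.det := by
  have h0 : Q' F a b X = (X.1 0 0).re * (-(X.1 1 1).re) + (X.1 0 1).norm := by
    show Cfsg.quadFormMinus 1 F a b ((coord F a b).symm X) = _
    rw [norm_eq, Cfsg.quadFormMinus]
    have e0 : ∀ i, (coord F a b).symm X (.inl (.inl i)) = (X.1 0 0).re := fun i => rfl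
    have e1 : ∀ i, (coord F a b).symm X (.inl (.inr i)) = -(X.1 1 1).re := fun i => rfl
    have e2 : (coord F a b).symm X (.inr 0) = (X.1 0 1).re := rfl
    have e3 : (coord F a b).symm X (.inr 1) = (X.1 0 1).im := rfl
    simp only [e0, e1, e2, e3]
    simp
  have h1 := eq_hm X.2
  rw [h0, map_add, map_mul, algebraMap_norm_eq_mul_star, Matrix.det_fin_two]
  have e0 : X.1 0 0 = algebraMap F (L F a b) (X.1 0 0).re := congrFun (congrFun h1 0) 0
  have e1 : X.1 1 1 = - algebraMap F (L F a b) (-(X.1 1 1).re) := congrFun (congrFun h1 1) 1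
  have e2 : X.1 1 0 = star (X.1 0 1) := congrFun (congrFun h1 1) 0
  rw [e2]
  conv_rhs => rw [e0, e1]
  ring

theorem Q'_coord (v : (Fin 1 ⊕ Fin 1) ⊕ Fin 2 → F) :
    Q' F a b (coord F a b v) = quadMinus 1 F a b v := by
  show quadMinus 1 F a b ((coord F a b).symm (coord F a b v)) = _
  rw [LinearEquiv.symm_apply_apply]

variable (F a b) in
noncomputable def ρ : SpecialLinearGroup (Fin 2) (L F a b) →* (W F a b ≃ₗ[F] W F a b) :=
  liftLE (restrictHom (f F a b) (W F a b) f_mem)

omit [Finite F] [Fact (∀ r : F, r ^ 2 ≠ -b + a * r)] in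
theorem ρ_apply (A : SpecialLinearGroup (Fin 2) (L F a b)) (X : W F a b) :
    (ρ F a b A X).1 = A.1 * X.1 * A.1ᴴ := rfl

theorem ρ_mem (A : SpecialLinearGroup (Fin 2) (L F a b)) : ρ F a b A ∈ O (Q' F a b) := by
  intro X
  apply algebraMap_injective (R := F) (a := -b) (b := a)
  rw [Q'_apply, Q'_apply, ρ_apply, det_mul, det_mul, det_conjTranspose, A.2]
  simp

theorem ker_ρ (A : SpecialLinearGroup (Fin 2) (L F a b)) (h : ρ F a b A = 1) :
    A.1 = 1 ∨ A.1 = -1 := by
  have hX : ∀ x y z, A.1 * (hm x y z : M2 F a b) * A.1ᴴ = hm x y z := by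
    intro x y z
    have := ρ_apply A ⟨hm x y z, hm_mem x y z⟩
    rw [h] at this
    exact this.symm
  have e : ∀ i j (M N : M2 F a b), M = N → M i j = N i j := fun i j M N h => by rw [h]
  have h1 := hX 1 0 0
  have h2 := hX 0 1 0
  have h3 := hX 0 0 1
  have a1 := e 0 0 _ _ h1
  have a2 := e 1 1 _ _ h1
  have b1 := e 0 0 _ _ h2
  have c1 := e 0 1 _ _ h3
  simp [Matrix.mul_apply, Fin.sum_univ_two, hm] at a1 a2 b1 c1
  have hA10 : A.1 1 0 = 0 := a2
  have hA01 : A.1 0 1 = 0 := b1
  rw [hA10, hA01] at c1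
  simp at c1
  have hdet := A.2
  rw [Matrix.det_fin_two, hA01, zero_mul, sub_zero] at hdet
  have hA00 : A.1 0 0 ≠ 0 := by intro h; rw [h, zero_mul] at hdet; exact zero_ne_one hdet
  have hs : star (A.1 1 1) = A.1 1 1 := mul_left_cancel₀ hA00 (c1.trans hdet.symm)
  have hs0 : star (A.1 0 0) = A.1 1 1 := mul_left_cancel₀ hA00 (a1.trans hdet.symm)
  have hs1 : A.1 0 0 = A.1 1 1 := by
    have := congrArg star hs0
    rw [star_star, hs] at this
    exact this
  have hsq : A.1 0 0 * A.1 0 0 = 1 := by linear_combination hdet + A.1 0 0 * hs1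
  have ha : A.1 0 0 = 1 ∨ A.1 0 0 = -1 := by
    have : (A.1 0 0 - 1) * (A.1 0 0 + 1) = 0 := by linear_combination hsq
    rcases mul_eq_zero.1 this with h | h
    · left; linear_combination h
    · right; linear_combination h
  rcases ha with h | h
  · left
    ext1 i j
    fin_cases i <;> fin_cases j
    · simpa using h
    · simpa using hA01
    · simpa using hA10
    · simpa [← hs1] using h
  · right
    ext1 i j
    fin_cases i <;> fin_cases j
    · simpa using h
    · simpa using hA01
    · simpa using hA10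
    · simpa [← hs1] using h

end Herm

theorem genHyp_minus {F : Type*} [Field F] {a b : F}
    (hab : ∀ z₁ z₂ : F, z₁ ^ 2 + a * z₁ * z₂ + b * z₂ ^ 2 = 0 → z₁ = 0 ∧ z₂ = 0) :
    GenHyp (quadMinus 1 F a b) := by
  right; right
  intro u v hu hv huv hu0
  change Cfsg.quadFormMinus 1 F a b u = 0 at hu
  change Cfsg.quadFormMinus 1 F a b v = 0 at hv
  change polar (Cfsg.quadFormMinus 1 F a b) u v = 0 at huv
  rw [polar_quadMinus] at huv
  rw [Cfsg.quadFormMinus] at hu hv
  simp only [Finset.univ_unique, Finset.sum_singleton, Fin.default_eq_zero] at hu hv huv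
  set x1 := u (.inl (.inl 0))
  set y1 := u (.inl (.inr 0))
  set p1 := u (.inr 0)
  set r1 := u (.inr 1)
  set x2 := v (.inl (.inl 0))
  set y2 := v (.inl (.inr 0))
  set p2 := v (.inr 0)
  set r2 := v (.inr 1)
  have hext : ∀ (c : F), x2 = c * x1 → y2 = c * y1 → p2 = c * p1 → r2 = c * r1 → v = c • u := by
    intro c h1 h2 h3 h4
    funext i
    rcases i with (i | i) | i
    · fin_cases i; exact h1
    · fin_cases i; exact h2
    · fin_cases i
      · exact h3
      · exact h4
  by_cases hx : x1 = 0
  · -- u = (0, y1, 0)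
    rw [hx] at hu huv
    obtain ⟨hp, hr⟩ := hab p1 r1 (by linear_combination hu)
    have hy : y1 ≠ 0 := by
      intro hy
      apply hu0
      funext i
      rcases i with (i | i) | i
      · fin_cases i; exact hx
      · fin_cases i; exact hy
      · fin_cases i
        · exact hp
        · exact hr
    have hx2 : x2 = 0 := by
      rw [hp, hr] at huv
      have : y1 * x2 = 0 := by linear_combination huv
      exact (mul_eq_zero.1 this).resolve_left hy
    rw [hx2] at hv
    obtain ⟨hp2, hr2⟩ := hab p2 r2 (by linear_combination hv)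
    refine ⟨y2 / y1, hext _ ?_ ?_ ?_ ?_⟩
    · rw [hx2, hx, mul_zero]
    · field_simp
    · rw [hp2, hp, mul_zero]
    · rw [hr2, hr, mul_zero]
  · -- w = v - c u with c = x2 / x1
    set c := x2 / x1 with hc
    have hcx : x2 = c * x1 := by rw [hc]; field_simp
    have hw : (p2 - c * p1) ^ 2 + a * (p2 - c * p1) * (r2 - c * r1) + b * (r2 - c * r1) ^ 2 = 0 := by
      rw [hcx] at hv huv
      linear_combination hv + c ^ 2 * hu - c * huv
    obtain ⟨hp, hr⟩ := hab _ _ hw
    have hp' : p2 = c * p1 := by linear_combination hp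
    have hr' : r2 = c * r1 := by linear_combination hr
    have hy' : y2 = c * y1 := by
      have : x1 * (y2 - c * y1) = 0 := by
        rw [hcx, hp', hr'] at huv
        linear_combination huv - 2 * c * hu
      rcases mul_eq_zero.1 this with h | h
      · exact absurd h hx
      · linear_combination h
    exact ⟨c, hext c hcx hy' hp' hr'⟩

/-- SL over isomorphic rings -/
def slCongr (n : ℕ) {K K' : Type*} [Field K] [Field K'] (e : K ≃+* K') :
    SpecialLinearGroup (Fin n) K ≃* SpecialLinearGroup (Fin n) K' where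
  toFun := SpecialLinearGroup.map (e : K →+* K')
  invFun := SpecialLinearGroup.map (e.symm : K' →+* K)
  left_inv A := by
    apply Subtype.ext
    ext i j
    simp
  right_inv A := by
    apply Subtype.ext
    ext i j
    simp
  map_mul' A B := map_mul _ A B

/-- PΩ^-_4(q) is isomorphic to PSL_2(q^2). -/
theorem result {F K : Type*} [Field F] [Fintype F] [Field K] [Fintype K] {q : ℕ} (hF : Fintype.card F = q) (hK : Fintype.card K = q ^ 2) (a b : F) (hab : ∀ z₁ z₂ : F, z₁ ^ 2 + a * z₁ * z₂ + b * z₂ ^ 2 = 0 → z₁ = 0 ∧ z₂ = 0) : Nonempty (Cfsg.POmega F (Cfsg.quadFormMinus 1 F a b) ≃* Matrix.ProjectiveSpecialLinearGroup (Fin 2) K) := by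
  haveI := fact_irred hab
  haveI : Fintype (L F a b) := Fintype.ofFinite _
  have hcL : Fintype.card (L F a b) = q ^ 2 := by
    rw [← Nat.card_eq_fintype_card, card_L, Nat.card_eq_fintype_card, hF]
  have hq : 1 < q := by rw [← hF]; exact Fintype.one_lt_card
  let e : L F a b ≃+* K := FiniteField.ringEquivOfCardEq (by rw [hcL, hK])
  obtain ⟨eP⟩ := LowDim.center_quot_congr (slCongr 2 e)
  have hnd : Nd (quadMinus 1 F a b) := nd_quadMinus (disc_ne_zero_of_anisotropic hab)
  have hgen : GenHyp (quadMinus 1 F a b) := genHyp_minus hab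
  have hperf : commutator (SpecialLinearGroup (Fin 2) (L F a b)) = ⊤ := by
    apply ClSLn.commutator_SL_eq_top'
    intro _
    apply ClSymp3.exists_sq_ne_one_of_four_le
    rw [hcL]
    nlinarith
  haveI : Finite (SpecialLinearGroup (Fin 2) (L F a b)) := Subtype.finite
  have key : Nonempty (Cfsg.POmega F ⇑(quadMinus 1 F a b) ≃*
      SpecialLinearGroup (Fin 2) (L F a b) ⧸ Subgroup.center (SpecialLinearGroup (Fin 2) (L F a b))) := by
    refine LowDim.pomega_equiv (quadMinus 1 F a b) (Q' F a b) (coord F a b) Q'_coord (ρ F a b)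
      (perfect_mem_Om hperf (ρ F a b) ρ_mem) ?_ ?_
    · have hGO := S0288.result (F := F) hF 2 (by norm_num) a b hab
      have hSL := ClSL2.card_SL2 (F := L F a b) hcL
      simp only [show 2 - 1 = 1 from rfl, Finset.prod_range_one] at hGO
      norm_num [-Nat.card_eq_fintype_card] at hGO
      have e4 : (q ^ 2) ^ 2 - 1 = (q ^ 2 + 1) * (q ^ 2 - 1) := by
        rw [pow_two (q ^ 2)]; exact Nat.mul_self_sub_mul_self_eq (q ^ 2) 1
      rw [e4] at hSL
      rw [hSL]
      by_cases h2 : (2 : F) = 0
      · haveI : CharP F 2 := CharTwo.of_one_ne_zero_of_two_eq_zero one_ne_zero h2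
        have hO := LowDim.card_Omega_even hnd hgen (by rw [finrank_minus]; norm_num)
        have hk : Nat.card (ρ F a b).ker = 1 := by
          apply card_eq_one
          intro A hA
          have hneg : (-1 : M2 F a b) = 1 := by
            have h2L : (2 : L F a b) = 0 := by
              have := congrArg (algebraMap F (L F a b)) h2
              rwa [map_ofNat, map_zero] at this
            have : (-1 : L F a b) = 1 := by linear_combination -h2L
            ext1 i j
            rw [Matrix.neg_apply, Matrix.one_apply]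
            split_ifs
            · exact this
            · simp
          rcases ker_ρ A ((MonoidHom.mem_ker).1 hA) with h | h
          · exact Subtype.ext h
          · rw [hneg] at h
            exact Subtype.ext h
        rw [hk, mul_one]
        rw [coe_quadMinus] at *
        rw [hGO] at hO
        nlinarith [hO]
      · have hO := LowDim.card_Omega_odd hnd h2 (by rw [finrank_minus]; norm_num)
        have hk : Nat.card (ρ F a b).ker ≤ 2 := by
          apply card_le_two (ρ F a b).ker ⟨-1, by rw [Matrix.det_neg]; norm_num⟩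
          intro A hA
          rcases ker_ρ A ((MonoidHom.mem_ker).1 hA) with h | h
          · exact Or.inl (Subtype.ext h)
          · exact Or.inr (Subtype.ext h)
        rw [coe_quadMinus] at *
        rw [hGO] at hO
        refine (Nat.mul_le_mul_left _ hk).trans ?_
        nlinarith [hO]
    · intro A hA
      apply Grun.mem_center_of_perfect hperf
      intro B
      have h1 : ρ F a b (A * B * (B * A)⁻¹) = 1 := by
        rw [map_mul, map_inv, map_mul, map_mul, hA B, mul_inv_cancel]
      rw [Subgroup.mem_center_iff]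
      intro C
      apply Subtype.ext
      show C.1 * (A * B * (B * A)⁻¹).1 = (A * B * (B * A)⁻¹).1 * C.1
      rcases ker_ρ _ h1 with h | h
      · rw [h, one_mul, mul_one]
      · rw [h, neg_mul, mul_neg, one_mul, mul_one]
  obtain ⟨e1⟩ := key
  exact ⟨e1.trans eP⟩

end Cfsg.Agent.S0300
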