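import Cfsg.Statements.S0301
import Cfsg.Agent.Lib.LowDimP
import Cfsg.Agent.Lib.ClSymp3
import Cfsg.Agent.Lib.Grun
import Cfsg.Agent.S0286
import Cfsg.Agent.S0245

set_option autoImplicit false
open Cfsg

namespace Cfsg.Agent.S0301

open QuadraticMap Cfsg.Agent.Lib Cfsg.Agent.Lib.Quad Cfsg.Agent.Lib.LowDimB Cfsg.Agent.Lib.LowDimP Matrix

/-- index equivalence -/
def ix : Fin 2 ⊕ Fin 2 ≃ Fin 4 := finSumFinEquiv

/-- `Sp_4` in `SL_4` -/
def toSL (F : Type*) [Field F] : Matrix.symplecticGroup (Fin 2) F →* SpecialLinearGroup (Fin 4) F where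
  toFun A := ⟨Matrix.reindex ix ix A.1, by
    rw [Matrix.det_reindex_self]; exact SymplecticGroup.det_eq_one A.2⟩
  map_one' := by
    apply Subtype.ext
    show (1 : Matrix (Fin 2 ⊕ Fin 2) (Fin 2 ⊕ Fin 2) F).submatrix ix.symm ix.symm = 1
    simp
  map_mul' A B := by
    apply Subtype.ext
    show (A.1 * B.1).submatrix ix.symm ix.symm =
      (A.1.submatrix ix.symm ix.symm) * (B.1.submatrix ix.symm ix.symm)
    rw [Matrix.submatrix_mul_equiv]

theorem toSL_coe {F : Type*} [Field F] (A : Matrix.symplecticGroup (Fin 2) F) :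
    (toSL F A).1 = A.1.submatrix ix.symm ix.symm := rfl

theorem toSL_injective {F : Type*} [Field F] : Function.Injective (toSL F) := by
  intro A B h
  apply Subtype.ext
  have h1 := congrArg Subtype.val h
  rw [toSL_coe, toSL_coe] at h1
  ext i j
  have := congrFun (congrFun h1 (ix i)) (ix j)
  simpa using this

/-- the alternating matrix of the form -/
def J4 (F : Type*) [Field F] : M4 F := !![0, 0, -1, 0; 0, 0, 0, -1; 1, 0, 0, 0; 0, 1, 0, 0]

theorem J4_eq (F : Type*) [Field F] : J4 F = (Matrix.J (Fin 2) F).submatrix ix.symm ix.symm := by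
  ext i j
  fin_cases i <;> fin_cases j <;>
    first
    | rfl
    | (show (0 : F) = -0
       rw [neg_zero])

theorem toSL_J {F : Type*} [Field F] (A : Matrix.symplecticGroup (Fin 2) F) :
    (toSL F A).1ᵀ * J4 F * (toSL F A).1 = J4 F := by
  rw [J4_eq, toSL_coe, Matrix.transpose_submatrix, Matrix.submatrix_mul_equiv, Matrix.submatrix_mul_equiv,
    SymplecticGroup.mem_iff'.1 A.2]

theorem trace_J {F : Type*} [Field F] {X : M4 F} (hX : X ∈ W F) :
    (J4 F * X).trace = 2 * (X 0 2 + X 1 3) := by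
  rw [eq_alt4 hX]
  simp [Matrix.trace, Fin.sum_univ_four, Matrix.mul_apply, J4, alt4]
  ring

/-- the five dimensional module -/
def W5 (F : Type*) [Field F] : Submodule F (M4 F) where
  carrier := {X | X ∈ W F ∧ X 0 2 + X 1 3 = 0}
  add_mem' {a b} ha hb := by
    refine ⟨(W F).add_mem ha.1 hb.1, ?_⟩
    rw [Matrix.add_apply, Matrix.add_apply]
    linear_combination ha.2 + hb.2
  zero_mem' := ⟨(W F).zero_mem, by simp⟩
  smul_mem' c a ha := by
    refine ⟨(W F).smul_mem c ha.1, ?_⟩
    rw [Matrix.smul_apply, Matrix.smul_apply, smul_eq_mul, smul_eq_mul]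
    linear_combination c * ha.2

theorem f_mem5 {F : Type*} [Field F] (h2 : (2 : F) ≠ 0) (A : Matrix.symplecticGroup (Fin 2) F) :
    ∀ X ∈ W5 F, f (toSL F A) X ∈ W5 F := by
  intro X hX
  have h1 : f (toSL F A) X ∈ W F := f_mem _ X hX.1
  refine ⟨h1, ?_⟩
  have e1 := trace_J h1
  have e2 := trace_J hX.1
  rw [hX.2, mul_zero] at e2
  have e3 : (J4 F * f (toSL F A) X).trace = (J4 F * X).trace := by
    rw [f_apply]
    calc (J4 F * ((toSL F A).1 * X * (toSL F A).1ᵀ)).trace
        = ((J4 F * (toSL F A).1 * X) * (toSL F A).1ᵀ).trace := by simp only [mul_assoc]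
      _ = ((toSL F A).1ᵀ * (J4 F * (toSL F A).1 * X)).trace := Matrix.trace_mul_comm _ _
      _ = (((toSL F A).1ᵀ * J4 F * (toSL F A).1) * X).trace := by simp only [mul_assoc]
      _ = (J4 F * X).trace := by rw [toSL_J]
  rw [e1, e2] at e3
  exact (mul_eq_zero.1 e3).resolve_left h2

/-- coordinates -/
def coord (F : Type*) [Field F] : (Unit ⊕ (Fin 2 ⊕ Fin 2) → F) ≃ₗ[F] W5 F where
  toFun v := ⟨alt4 (v (.inr (.inl 0))) (v (.inl ())) (v (.inr (.inl 1))) (v (.inr (.inr 1)))
    (- v (.inl ())) (v (.inr (.inr 0))), alt4_mem _ _ _ _ _ _, by simp [alt4]⟩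
  invFun X := Sum.elim (fun _ => X.1 0 2) (Sum.elim ![X.1 0 1, X.1 0 3] ![X.1 2 3, X.1 1 2])
  left_inv v := by
    funext i
    rcases i with i | i | i
    · rfl
    · fin_cases i <;> rfl
    · fin_cases i <;> rfl
  right_inv X := by
    apply Subtype.ext
    show alt4 (X.1 0 1) (X.1 0 2) (X.1 0 3) (X.1 1 2) (- X.1 0 2) (X.1 2 3) = X.1
    have h : - X.1 0 2 = X.1 1 3 := by linear_combination -X.2.2
    rw [h]
    exact (eq_alt4 X.2.1).symm
  map_add' v w := by
    apply Subtype.ext
    show alt4 (v (.inr (.inl 0)) + w (.inr (.inl 0))) (v (.inl ()) + w (.inl ()))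
      (v (.inr (.inl 1)) + w (.inr (.inl 1))) (v (.inr (.inr 1)) + w (.inr (.inr 1)))
      (- (v (.inl ()) + w (.inl ()))) (v (.inr (.inr 0)) + w (.inr (.inr 0))) = _
    rw [neg_add, alt4_add]
    rfl
  map_smul' c v := by
    apply Subtype.ext
    show alt4 (c * v (.inr (.inl 0))) (c * v (.inl ())) (c * v (.inr (.inl 1)))
      (c * v (.inr (.inr 1))) (- (c * v (.inl ()))) (c * v (.inr (.inr 0))) = _
    rw [← mul_neg, alt4_smul]
    rfl

def Q' (F : Type*) [Field F] : QuadraticForm F (W5 F) :=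
  (quadOdd 2 F).comp (coord F).symm.toLinearMap

theorem Q'_apply {F : Type*} [Field F] (X : W5 F) : Q' F X = pf X.1 := by
  show Cfsg.quadFormOdd 2 F ((coord F).symm X) = _
  rw [Cfsg.quadFormOdd, Fin.sum_univ_two, pf]
  have h0 : (coord F).symm X (.inl ()) = X.1 0 2 := rfl
  have h1 : (coord F).symm X (.inr (.inl 0)) = X.1 0 1 := rfl
  have h2 : (coord F).symm X (.inr (.inl 1)) = X.1 0 3 := rfl
  have h3 : (coord F).symm X (.inr (.inr 0)) = X.1 2 3 := rfl
  have h4 : (coord F).symm X (.inr (.inr 1)) = X.1 1 2 := rfl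
  rw [h0, h1, h2, h3, h4]
  linear_combination (X.1 0 2) * X.2.2

theorem Q'_coord {F : Type*} [Field F] (v : Unit ⊕ (Fin 2 ⊕ Fin 2) → F) :
    Q' F (coord F v) = quadOdd 2 F v := by
  show quadOdd 2 F ((coord F).symm (coord F v)) = _
  rw [LinearEquiv.symm_apply_apply]

noncomputable def ρ (F : Type*) [Field F] (h2 : (2 : F) ≠ 0) :
    Matrix.symplecticGroup (Fin 2) F →* (W5 F ≃ₗ[F] W5 F) :=
  liftLE (restrictHom (f.comp (toSL F)) (W5 F) (f_mem5 h2))

theorem ρ_apply {F : Type*} [Field F] (h2 : (2 : F) ≠ 0) (A : Matrix.symplecticGroup (Fin 2) F) (X : W5 F) :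
    (ρ F h2 A X).1 = (toSL F A).1 * X.1 * (toSL F A).1ᵀ := rfl

theorem ρ_mem {F : Type*} [Field F] (h2 : (2 : F) ≠ 0) (A : Matrix.symplecticGroup (Fin 2) F) :
    ρ F h2 A ∈ O (Q' F) := by
  intro X
  rw [Q'_apply, Q'_apply, ρ_apply, pf_SL _ _ X.2.1]

theorem kernel {F : Type*} [Field F] (A : M4 F) (h : ∀ X ∈ W5 F, A * X * Aᵀ = X) : A = 1 ∨ A = -1 := by
  have hs : ∀ {i j : Fin 4}, i ≠ j → (Matrix.single i j (1 : F) - Matrix.single j i 1 : M4 F) 0 2 +
      (Matrix.single i j (1 : F) - Matrix.single j i 1 : M4 F) 1 3 = 0 →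
      A * (Matrix.single i j 1 - Matrix.single j i 1) * Aᵀ = Matrix.single i j 1 - Matrix.single j i 1 :=
    fun hij h0 => h _ ⟨single_mem hij, h0⟩
  have h01 := hs (i := 0) (j := 1) (by decide) (by simp [Matrix.single_apply])
  have h23 := hs (i := 2) (j := 3) (by decide) (by simp [Matrix.single_apply])
  have h03 := hs (i := 0) (j := 3) (by decide) (by simp [Matrix.single_apply])
  have h12 := hs (i := 1) (j := 2) (by decide) (by simp [Matrix.single_apply])
  have z1 := col_zero A (by decide) h01 (k := 2) (by decide) (by decide)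
  have z2 := col_zero A (by decide) h01 (k := 3) (by decide) (by decide)
  have z3 := col_zero A (by decide) h23 (k := 0) (by decide) (by decide)
  have z4 := col_zero A (by decide) h23 (k := 1) (by decide) (by decide)
  have z5 := col_zero A (by decide) h03 (k := 1) (by decide) (by decide)
  have z6 := col_zero A (by decide) h03 (k := 2) (by decide) (by decide)
  have z7 := col_zero A (by decide) h12 (k := 0) (by decide) (by decide)
  have z8 := col_zero A (by decide) h12 (k := 3) (by decide) (by decide)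
  have m1 := minor A (by decide) h01 0 1
  have m2 := minor A (by decide) h12 1 2
  have m3 := minor A (by decide) h23 2 3
  -- the fifth vector
  have h5 := h (alt4 0 1 0 0 (-1) 0) ⟨alt4_mem _ _ _ _ _ _, by simp [alt4]⟩
  have h5' := congrFun (congrFun h5 0) 2
  simp only [Matrix.mul_apply, Fin.sum_univ_four, Matrix.transpose_apply, alt4] at h5'
  simp only [z1.1, z1.2, z2.1, z2.2, z3.1, z3.2, z4.1, z4.2, z5.1, z5.2, z6.1, z6.2, z7.1, z7.2, z8.1, z8.2] at m1 m2 m3 h5'
  simp at m1 m2 m3 h5'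
  have hA0 : A 0 0 ≠ 0 := by intro h; rw [h, zero_mul] at m1; exact zero_ne_one m1
  have e12 : A 1 1 = A 2 2 := mul_left_cancel₀ hA0 (m1.trans h5'.symm)
  have hA2 : A 2 2 ≠ 0 := by intro h; rw [h, mul_zero] at h5'; exact zero_ne_one h5'
  have e10 : A 1 1 = A 0 0 := mul_right_cancel₀ hA2 (m2.trans h5'.symm)
  have e13 : A 1 1 = A 3 3 := by
    apply mul_left_cancel₀ hA2
    rw [m3, ← e12, e10]
    rw [e12] at e10
    conv_lhs => rw [← e10]
    conv_lhs => arg 2; rw [e10]
    rw [mul_comm]; exact h5'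
  have hsq : A 1 1 * A 1 1 = 1 := by
    calc A 1 1 * A 1 1 = A 0 0 * A 1 1 := by rw [e10]
      _ = 1 := m1
  have hcase : A 1 1 = 1 ∨ A 1 1 = -1 := by
    have : (A 1 1 - 1) * (A 1 1 + 1) = 0 := by linear_combination hsq
    rcases mul_eq_zero.1 this with h | h
    · left; linear_combination h
    · right; linear_combination h
  have hoff : ∀ i j : Fin 4, i ≠ j → A i j = 0 := by
    intro i j hij
    fin_cases i <;> fin_cases j <;>
      first
      | exact absurd rfl hij
      | exact z1.1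
      | exact z1.2
      | exact z2.1
      | exact z2.2
      | exact z3.1
      | exact z3.2
      | exact z4.1
      | exact z4.2
      | exact z5.1
      | exact z6.2
      | exact z7.1
      | exact z8.2
  have hall : ∀ i, A i i = A 1 1 := by
    intro i
    fin_cases i
    · exact e10.symm
    · rfl
    · exact e12.symm
    · exact e13.symm
  have hA : A = Matrix.diagonal (fun _ => A 1 1) := by
    ext i j
    by_cases hij : i = j
    · subst hij; rw [Matrix.diagonal_apply_eq, hall]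
    · rw [Matrix.diagonal_apply_ne _ hij, hoff i j hij]
  rcases hcase with h | h
  · left
    rw [hA, h]; simp
  · right
    rw [hA, h]
    ext i j
    rw [Matrix.neg_apply, Matrix.diagonal_apply, Matrix.one_apply]
    split_ifs <;> simp

theorem ker_ρ {F : Type*} [Field F] (h2 : (2 : F) ≠ 0) (A : Matrix.symplecticGroup (Fin 2) F)
    (h : ρ F h2 A = 1) : A.1 = 1 ∨ A.1 = -1 := by
  have h1 : (toSL F A).1 = 1 ∨ (toSL F A).1 = -1 := by
    apply kernel
    intro X hX
    have := ρ_apply h2 A ⟨X, hX⟩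
    rw [h] at this
    exact this.symm
  have h3 : A.1 = (toSL F A).1.submatrix ix ix := by
    rw [toSL_coe]
    ext i j
    simp
  rcases h1 with h1 | h1
  · left
    rw [h3, h1]; simp
  · right
    rw [h3, h1]
    ext i j
    simp [Matrix.one_apply]

/-- PΩ_5(q) is isomorphic to PSp_4(q) for q odd. -/
theorem result {F : Type*} [Field F] [Fintype F] (hodd : Odd (Fintype.card F)) : Nonempty (Cfsg.POmega F (Cfsg.quadFormOdd 2 F) ≃* Cfsg.PSp 2 F) := by
  have h2 : (2 : F) ≠ 0 := two_ne_zero_of_odd rfl hodd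
  have hnd : Nd (quadOdd 2 F) := nd_quadOdd h2
  have hperf : commutator (Matrix.symplecticGroup (Fin 2) F) = ⊤ := by
    apply ClSymp3.commutator_congr (ClIso.sympEquiv (Fin 2) F)
    exact ClSymp2.commutator_Spg_eq_top (Or.inr (Or.inl ⟨by simp, h2⟩))
  haveI : Finite (Matrix.symplecticGroup (Fin 2) F) := by
    haveI : Finite (Matrix (Fin 2 ⊕ Fin 2) (Fin 2 ⊕ Fin 2) F) := inferInstance
    exact Subtype.finite
  refine LowDim.pomega_equiv (quadOdd 2 F) (Q' F) (coord F) Q'_coord (ρ F h2)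
    (perfect_mem_Om hperf (ρ F h2) (ρ_mem h2)) ?_ ?_
  · have hk : Nat.card (ρ F h2).ker ≤ 2 := by
      apply card_le_two (ρ F h2).ker ⟨-1, SymplecticGroup.neg_mem (Submonoid.one_mem _)⟩
      intro A hA
      rcases ker_ρ h2 A ((MonoidHom.mem_ker).1 hA) with h | h
      · exact Or.inl (Subtype.ext h)
      · exact Or.inr (Subtype.ext h)
    have hO := LowDim.card_Omega_odd hnd h2 (by rw [finrank_odd]; norm_num)
    have hGO := S0286.result (F := F) rfl hodd 2
    have hSp := S0245.result (F := F) rfl 2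
    rw [coe_quadOdd] at *
    rw [hGO] at hO
    simp only [Finset.prod_range_succ, Finset.prod_range_zero, one_mul] at hO hSp
    norm_num [-Nat.card_eq_fintype_card] at hO hSp
    rw [hSp]
    refine (Nat.mul_le_mul_left _ hk).trans ?_
    nlinarith [hO]
  · intro A hA
    apply Grun.mem_center_of_perfect hperf
    intro B
    have h1 : ρ F h2 (A * B * (B * A)⁻¹) = 1 := by
      rw [map_mul, map_inv, map_mul, map_mul, hA B, mul_inv_cancel]
    rw [Subgroup.mem_center_iff]
    intro C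
    apply Subtype.ext
    show C.1 * (A * B * (B * A)⁻¹).1 = (A * B * (B * A)⁻¹).1 * C.1
    rcases ker_ρ h2 _ h1 with h | h
    · rw [h, one_mul, mul_one]
    · rw [h, neg_mul, mul_neg, one_mul, mul_one]

end Cfsg.Agent.S0301
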