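import Cfsg.Statements.S0305
import Cfsg.Agent.Lib.QuadNorm
import Cfsg.Agent.Lib.DihRecog

set_option autoImplicit false
open Cfsg

namespace Cfsg.Agent.S0305

open QuadraticMap Cfsg.Agent.Lib Cfsg.Agent.Lib.Quad Cfsg.Agent.Lib.QuadNorm

/-- hyperbolic plane on `F × F` -/
def hyp (F : Type*) [Field F] : QuadraticForm F (F × F) :=
  QuadraticMap.ofPolar (fun z => z.1 * z.2)
    (by intro c z; simp only [Prod.smul_fst, Prod.smul_snd, smul_eq_mul]; ring)
    (by intro x y z; simp only [QuadraticMap.polar, Prod.fst_add, Prod.snd_add]; ring)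
    (by
      intro c x y
      simp only [QuadraticMap.polar, Prod.fst_add, Prod.snd_add, Prod.smul_fst, Prod.smul_snd, smul_eq_mul]
      ring)

theorem hyp_apply {F : Type*} [Field F] (z : F × F) : hyp F z = z.1 * z.2 := rfl

def coordH (F : Type*) [Field F] : (Fin 1 ⊕ Fin 1 → F) ≃ₗ[F] F × F where
  toFun v := ⟨v (.inl 0), v (.inr 0)⟩
  invFun z := Sum.elim (fun _ => z.1) (fun _ => z.2)
  left_inv v := by
    funext i
    rcases i with i | i
    · fin_cases i; rfl
    · fin_cases i; rfl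
  right_inv z := rfl
  map_add' v w := rfl
  map_smul' c v := rfl

theorem coordH_apply (F : Type*) [Field F] (v : Fin 1 ⊕ Fin 1 → F) :
    coordH F v = (v (.inl 0), v (.inr 0)) := rfl

theorem hyp_coordH (F : Type*) [Field F] (v : Fin 1 ⊕ Fin 1 → F) : hyp F (coordH F v) = quadPlus 1 F v := by
  show hyp F (coordH F v) = Cfsg.quadFormPlus 1 F v
  rw [coordH_apply, hyp_apply]
  simp [Cfsg.quadFormPlus]

/-- rotations -/
def D0 (F : Type*) [Field F] : Fˣ →* ((F × F) ≃ₗ[F] (F × F)) where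
  toFun t :=
    { toFun := fun z => ⟨t * z.1, ((t⁻¹ : Fˣ) : F) * z.2⟩
      invFun := fun z => ⟨((t⁻¹ : Fˣ) : F) * z.1, t * z.2⟩
      left_inv := fun z => by ext <;> simp
      right_inv := fun z => by ext <;> simp
      map_add' := fun x y => by ext <;> simp [mul_add]
      map_smul' := fun c z => by ext <;> simp [mul_left_comm] }
  map_one' := by
    apply LinearEquiv.ext
    intro z
    show ((1 : Fˣ) * z.1, (((1 : Fˣ)⁻¹ : Fˣ) : F) * z.2) = z
    ext <;> simp
  map_mul' s t := by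
    apply LinearEquiv.ext
    intro z
    show (((s * t : Fˣ) : F) * z.1, (((s * t)⁻¹ : Fˣ) : F) * z.2)
      = (s * (t * z.1), ((s⁻¹ : Fˣ) : F) * (((t⁻¹ : Fˣ) : F) * z.2))
    rw [mul_inv, Units.val_mul, Units.val_mul, mul_assoc, mul_assoc]

theorem D0_apply {F : Type*} [Field F] (t : Fˣ) (z : F × F) :
    D0 F t z = (t * z.1, ((t⁻¹ : Fˣ) : F) * z.2) := rfl

/-- GO^+_2(q) is dihedral of order 2(q-1). -/
theorem result {F : Type*} [Field F] [Fintype F] {q : ℕ} (hF : Fintype.card F = q) : Nonempty (Cfsg.isometryGroup F (Cfsg.quadFormPlus 1 F) ≃* DihedralGroup (q - 1)) := by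
  suffices h : Nonempty (↥(O (hyp F)) ≃* DihedralGroup (q - 1)) by
    obtain ⟨e⟩ := h
    exact ⟨((toO (quadPlus 1 F)).trans (Ocongr (coordH F) (hyp_coordH F))).trans e⟩
  have hC : Nat.card Fˣ = q - 1 := by rw [Nat.card_units, Nat.card_eq_fintype_card, hF]
  let D : Fˣ →* ↥(O (hyp F)) :=
    { toFun := fun u => ⟨D0 F u, by
        intro z
        rw [D0_apply, hyp_apply, hyp_apply]
        calc (u : F) * z.1 * (((u⁻¹ : Fˣ) : F) * z.2) = ((u : F) * ((u⁻¹ : Fˣ) : F)) * (z.1 * z.2) := by ring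
          _ = z.1 * z.2 := by rw [Units.mul_inv, one_mul]⟩
      map_one' := Subtype.ext (map_one (D0 F))
      map_mul' := fun u v => Subtype.ext (map_mul (D0 F) _ _) }
  have hD : ∀ (u : Fˣ) (z : F × F), (D u : (F × F) ≃ₗ[F] (F × F)) z = (u * z.1, ((u⁻¹ : Fˣ) : F) * z.2) :=
    fun u z => rfl
  let w : ↥(O (hyp F)) := ⟨LinearEquiv.prodComm F F F, by
    intro z
    show z.2 * z.1 = z.1 * z.2
    exact mul_comm _ _⟩
  have hw : ∀ z, (w : (F × F) ≃ₗ[F] (F × F)) z = (z.2, z.1) := fun z => rfl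
  rw [← hC]
  refine DihRecog.dihedral_of_hom D ?_ w ?_ ?_ ?_ ?_
  · intro u v huv
    apply Units.ext
    have := congrArg (fun g : ↥(O (hyp F)) => ((g : (F × F) ≃ₗ[F] (F × F)) (1, 0)).1) huv
    simpa [hD] using this
  · apply Subtype.ext
    apply LinearEquiv.ext
    intro z
    rfl
  · intro u
    rw [eq_inv_iff_mul_eq_one]
    apply Subtype.ext
    apply LinearEquiv.ext
    intro z
    show (((u⁻¹ : Fˣ) : F) * ((u : F) * z.1), (u : F) * (((u⁻¹ : Fˣ) : F) * z.2)) = z
    ext <;> simp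
  · intro u hu
    have h1 := congrArg (fun g : ↥(O (hyp F)) => ((g : (F × F) ≃ₗ[F] (F × F)) (1, 0)).1) hu
    simp only [hD, hw, mul_one] at h1
    exact u.ne_zero h1
  · intro g
    have hg : ∀ z, hyp F ((g : (F × F) ≃ₗ[F] (F × F)) z) = hyp F z := g.2
    obtain ⟨⟨x1, y1⟩, h1⟩ : ∃ p, (g : (F × F) ≃ₗ[F] (F × F)) (1, 0) = p := ⟨_, rfl⟩
    obtain ⟨⟨x2, y2⟩, h2⟩ : ∃ p, (g : (F × F) ≃ₗ[F] (F × F)) (0, 1) = p := ⟨_, rfl⟩
    have hlin : ∀ z : F × F, (g : (F × F) ≃ₗ[F] (F × F)) z = (z.1 * x1 + z.2 * x2, z.1 * y1 + z.2 * y2) := by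
      intro z
      have : z = z.1 • ((1 : F), (0 : F)) + z.2 • ((0 : F), (1 : F)) := by ext <;> simp
      conv_lhs => rw [this, map_add, map_smul, map_smul, h1, h2]
      ext <;> simp
    have e1 : x1 * y1 = 0 := by
      have := hg (1, 0)
      rw [h1, hyp_apply, hyp_apply] at this
      simpa using this
    have e2 : x2 * y2 = 0 := by
      have := hg (0, 1)
      rw [h2, hyp_apply, hyp_apply] at this
      simpa using this
    have e3 : (x1 + x2) * (y1 + y2) = 1 := by
      have := hg (1, 1)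
      rw [hlin, hyp_apply, hyp_apply] at this
      simpa using this
    have e4 : x1 * y2 + x2 * y1 = 1 := by linear_combination e3 - e1 - e2
    by_cases hx1 : x1 = 0
    · -- swap type
      have e5 : x2 * y1 = 1 := by linear_combination e4 - y2 * hx1
      have hy2 : y2 = 0 := by linear_combination y1 * e2 - y2 * e5
      refine ⟨⟨y1, x2, by rw [mul_comm]; exact e5, e5⟩, Or.inr ?_⟩
      apply Subtype.ext
      apply LinearEquiv.ext
      intro z
      show (g : (F × F) ≃ₗ[F] (F × F)) z = (x2 * z.2, y1 * z.1)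
      rw [hlin, hx1, hy2]
      ext <;> simp [mul_comm]
    · have hy1 : y1 = 0 := by
        rcases mul_eq_zero.1 e1 with h | h
        · exact absurd h hx1
        · exact h
      have e5 : x1 * y2 = 1 := by linear_combination e4 - x2 * hy1
      have hx2 : x2 = 0 := by linear_combination x1 * e2 - x2 * e5
      refine ⟨⟨x1, y2, e5, by rw [mul_comm]; exact e5⟩, Or.inl ?_⟩
      apply Subtype.ext
      apply LinearEquiv.ext
      intro z
      show (g : (F × F) ≃ₗ[F] (F × F)) z = (x1 * z.1, y2 * z.2)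
      rw [hlin, hx2, hy1]
      ext <;> simp [mul_comm]

end Cfsg.Agent.S0305
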