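import Cfsg.Statements.S0306
import Cfsg.Agent.Lib.QuadNorm
import Cfsg.Agent.Lib.DihRecog

set_option autoImplicit false
open Cfsg

namespace Cfsg.Agent.S0306

open QuadraticMap QuadraticAlgebra Cfsg.Agent.Lib Cfsg.Agent.Lib.Quad Cfsg.Agent.Lib.QuadExt
  Cfsg.Agent.Lib.QuadNorm

/-- GO^-_2(q) is dihedral of order 2(q+1). -/
theorem result {F : Type*} [Field F] [Fintype F] {q : ℕ} (hF : Fintype.card F = q) (a b : F) (hab : ∀ z₁ z₂ : F, z₁ ^ 2 + a * z₁ * z₂ + b * z₂ ^ 2 = 0 → z₁ = 0 ∧ z₂ = 0) : Nonempty (Cfsg.isometryGroup F (Cfsg.quadFormMinus 0 F a b) ≃* DihedralGroup (q + 1)) := by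
  haveI := fact_irred hab
  haveI := Fintype.ofFinite (L F a b)
  have hcard : Nat.card (L F a b) = q ^ 2 := by rw [card_L, Nat.card_eq_fintype_card, hF]
  have hq : 1 < q := by rw [← hF]; exact Fintype.one_lt_card
  suffices h : Nonempty (↥(O (normForm F a b)) ≃* DihedralGroup (q + 1)) by
    obtain ⟨e⟩ := h
    exact ⟨((toO (quadMinus 0 F a b)).trans (Ocongr (coordL F a b) (normForm_coordL F a b))).trans e⟩
  -- rotations
  let C : Subgroup (L F a b)ˣ := (powMonoidHom (q + 1) : (L F a b)ˣ →* (L F a b)ˣ).ker
  have hC : Nat.card C = q + 1 := by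
    have hcu : Nat.card (L F a b)ˣ = (q + 1) * (q - 1) := by
      rw [Nat.card_units, hcard, pow_two, ← Nat.mul_self_sub_mul_self_eq]
    rw [IsCyclic.card_powMonoidHom_ker, hcu, Nat.gcd_mul_right_left]
  have hCmem : ∀ u : (L F a b)ˣ, u ∈ C ↔ (u : L F a b).norm = 1 := by
    intro u
    rw [MonoidHom.mem_ker]
    simp only [powMonoidHom_apply]
    rw [Units.ext_iff, Units.val_pow_eq_pow_val, Units.val_one, ← hF, ← QuadExt.norm_pow,
      ← map_one (algebraMap F (L F a b))]
    exact (algebraMap_injective (R := F) (a := -b) (b := a)).eq_iff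
  let D0 : (L F a b)ˣ →* (L F a b ≃ₗ[F] L F a b) := DistribMulAction.toModuleAut F (L F a b)
  have hD0 : ∀ (u : (L F a b)ˣ) (z : L F a b), D0 u z = (u : L F a b) * z := fun u z => rfl
  let D : C →* ↥(O (normForm F a b)) :=
    { toFun := fun u => ⟨D0 u, by
        intro z
        rw [hD0, normForm_apply, normForm_apply, map_mul, (hCmem u.1).1 u.2, one_mul]⟩
      map_one' := Subtype.ext (map_one D0)
      map_mul' := fun u v => Subtype.ext (map_mul D0 _ _) }
  have hD : ∀ (u : C) (z : L F a b), (D u : L F a b ≃ₗ[F] L F a b) z = (u.1 : L F a b) * z := fun u z => rfl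
  let w0 : L F a b ≃ₗ[F] L F a b :=
    { toFun := fun z => star z
      invFun := fun z => star z
      left_inv := fun z => star_star z
      right_inv := fun z => star_star z
      map_add' := fun x y => star_add x y
      map_smul' := fun c z => by
        ext
        · simp only [re_star, re_smul, im_smul, smul_eq_mul, RingHom.id_apply]; ring
        · simp only [im_star, im_smul, smul_eq_mul, RingHom.id_apply]; ring }
  let w : ↥(O (normForm F a b)) := ⟨w0, by intro z; exact QuadraticAlgebra.norm_star z⟩
  have hw : ∀ z, (w : L F a b ≃ₗ[F] L F a b) z = star z := fun z => rfl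
  rw [← hC]
  refine DihRecog.dihedral_of_hom D ?_ w ?_ ?_ ?_ ?_
  · intro u v huv
    apply Subtype.ext
    apply Units.ext
    have := congrArg (fun g : ↥(O (normForm F a b)) => (g : L F a b ≃ₗ[F] L F a b) 1) huv
    simpa [hD] using this
  · apply Subtype.ext
    apply LinearEquiv.ext
    intro z
    exact star_star z
  · intro u
    rw [eq_inv_iff_mul_eq_one]
    apply Subtype.ext
    apply LinearEquiv.ext
    intro z
    show star ((u.1 : L F a b) * star ((u.1 : L F a b) * z)) = z
    rw [star_mul', star_star, ← mul_assoc, mul_comm (star _), ← algebraMap_norm_eq_mul_star,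
      (hCmem u.1).1 u.2, map_one, one_mul]
  · intro u hu
    have h1 := congrArg (fun g : ↥(O (normForm F a b)) => (g : L F a b ≃ₗ[F] L F a b) 1) hu
    have h2 := congrArg (fun g : ↥(O (normForm F a b)) => (g : L F a b ≃ₗ[F] L F a b) omega) hu
    simp only [hD, hw, mul_one, star_one] at h1 h2
    rw [h1, one_mul] at h2
    exact star_omega_ne h2.symm
  · intro g
    have hg : ∀ z, ((g : L F a b ≃ₗ[F] L F a b) z).norm = z.norm := g.2
    have hg1 : ((g : L F a b ≃ₗ[F] L F a b) 1).norm = 1 := by rw [hg, map_one]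
    have hne : (g : L F a b ≃ₗ[F] L F a b) 1 ≠ 0 := by
      intro h; rw [h, QuadraticAlgebra.norm_zero] at hg1; exact zero_ne_one hg1
    let u : C := ⟨Units.mk0 _ hne, (hCmem _).2 hg1⟩
    have hu : (u.1 : L F a b) = (g : L F a b ≃ₗ[F] L F a b) 1 := rfl
    -- g' = u⁻¹ g
    set g' : ↥(O (normForm F a b)) := (D u)⁻¹ * g with hg'
    have hgg : g = D u * g' := by rw [hg']; group
    have hg'1 : (g' : L F a b ≃ₗ[F] L F a b) 1 = 1 := by
      have h1 : (g : L F a b ≃ₗ[F] L F a b) 1 = (u.1 : L F a b) * (g' : L F a b ≃ₗ[F] L F a b) 1 := by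
        conv_lhs => rw [hgg]
        rfl
      rw [← hu] at h1
      have hu0 : (u.1 : L F a b) ≠ 0 := u.1.ne_zero
      exact mul_left_cancel₀ hu0 (by rw [← h1, mul_one])
    set α : L F a b := (g' : L F a b ≃ₗ[F] L F a b) omega with hα
    have hαn : α.norm = b := by
      have : α.norm = (omega : L F a b).norm := g'.2 omega
      rw [this, QuadraticAlgebra.norm_def]; simp
    have hαt : trace α = a := by
      have h1 := O_polar g'.2 1 omega
      rw [hg'1, ← hα, polar_normForm, polar_normForm, one_mul, one_mul, trace_star, trace_star,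
        trace_omega] at h1
      exact h1
    have hroot : α * α = algebraMap F _ (-b) + algebraMap F _ a * α := by
      have := sq_eq_trace_smul_sub_norm α
      rw [hαt, hαn] at this
      rw [← pow_two, this, map_neg, Algebra.smul_def]; ring
    have hlin : ∀ (h : L F a b ≃ₗ[F] L F a b) (z : L F a b), h z = z.re • h 1 + z.im • h omega := by
      intro h z
      rw [← map_smul, ← map_smul, ← map_add]
      congr 1
      ext <;> simp
    rcases root_cases α hroot with h | h
    · refine ⟨u, Or.inl ?_⟩
      have : g' = 1 := by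
        apply Subtype.ext
        apply LinearEquiv.ext
        intro z
        rw [hlin, hg'1, ← hα, h]
        show _ = z
        ext <;> simp
      rw [hgg, this, mul_one]
    · refine ⟨⟨star u.1, ?_⟩, Or.inr ?_⟩
      · rw [hCmem]
        show (star (u.1 : L F a b)).norm = 1
        rw [QuadraticAlgebra.norm_star, (hCmem u.1).1 u.2]
      · have h2 : ∀ z, (g' : L F a b ≃ₗ[F] L F a b) z = star z := by
          intro z
          rw [hlin, hg'1, ← hα, h]
          ext
          · simp [mul_comm]
          · simp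
        rw [hgg]
        apply Subtype.ext
        apply LinearEquiv.ext
        intro z
        show (u.1 : L F a b) * (g' : L F a b ≃ₗ[F] L F a b) z = star (star (u.1 : L F a b) * z)
        rw [h2, star_mul', star_star]

end Cfsg.Agent.S0306
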