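import Cfsg.Statements.S0307
import Cfsg.Agent.Lib.ClSLn

set_option autoImplicit false
open Cfsg

namespace Cfsg.Agent.S0307

open Matrix Matrix.SpecialLinearGroup Cfsg.Agent.Lib

/-- PSL_n(q) is normal in PGL_n(q) with cyclic quotient of order gcd(n, q-1): the image of the natural map PSL_n → PGL_n is the kernel of a surjective homomorphism onto the cyclic group of that order. -/
theorem result {F : Type*} [Field F] [Fintype F] {q : ℕ} (hF : Fintype.card F = q) (n : ℕ) (hn : 1 ≤ n) : ∃ g : Matrix.ProjGenLinGroup (Fin n) F →* Multiplicative (ZMod (Nat.gcd n (q - 1))), Function.Surjective g ∧ g.ker = (Matrix.ProjectiveSpecialLinearGroup.toPGL : Matrix.ProjectiveSpecialLinearGroup (Fin n) F →* Matrix.ProjGenLinGroup (Fin n) F).range := by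
  classical
  haveI : NeZero n := ⟨by omega⟩
  haveI : Nonempty (Fin n) := ⟨0⟩
  let P : Subgroup Fˣ := (powMonoidHom n : Fˣ →* Fˣ).range
  have hidx : Nat.card (Fˣ ⧸ P) = Nat.gcd n (q - 1) := by
    change P.index = _
    rw [IsCyclic.index_powMonoidHom_range, ClSLn.card_units q hF, Nat.gcd_comm]
  haveI : IsCyclic (Fˣ ⧸ P) := isCyclic_of_surjective (QuotientGroup.mk' P) (QuotientGroup.mk'_surjective P)
  let e : (Fˣ ⧸ P) ≃* Multiplicative (ZMod (Nat.gcd n (q - 1))) :=
    mulEquivOfCyclicCardEq (by rw [hidx]; exact (Nat.card_zmod _).symm)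
  let f : GL (Fin n) F →* Fˣ ⧸ P := (QuotientGroup.mk' P).comp Matrix.GeneralLinearGroup.det
  have hf1 : ∀ u : Fˣ, Matrix.GeneralLinearGroup.det (Matrix.GeneralLinearGroup.scalar (Fin n) u) = u ^ n := by
    intro u
    apply Units.ext
    simp
  have hf : f.comp (Matrix.GeneralLinearGroup.scalar (Fin n)) = 1 := by
    ext1 u
    change QuotientGroup.mk' P (Matrix.GeneralLinearGroup.det (Matrix.GeneralLinearGroup.scalar (Fin n) u)) = 1
    rw [hf1, ← MonoidHom.mem_ker, QuotientGroup.ker_mk']
    exact ⟨u, rfl⟩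
  refine ⟨e.toMonoidHom.comp (Matrix.ProjGenLinGroup.lift f hf), ?_, ?_⟩
  · intro x
    obtain ⟨y, hy⟩ := QuotientGroup.mk'_surjective P (e.symm x)
    obtain ⟨A, hA⟩ := Matrix.GeneralLinearGroup.det_surjective (n := Fin n) y
    refine ⟨Matrix.ProjGenLinGroup.mk A, ?_⟩
    change e (QuotientGroup.mk' P (Matrix.GeneralLinearGroup.det A)) = x
    rw [hA, hy, MulEquiv.apply_symm_apply]
  · ext X
    induction X using Matrix.ProjGenLinGroup.induction_on with
    | mk A =>
    rw [MonoidHom.mem_ker, MonoidHom.mem_range]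
    change e (QuotientGroup.mk' P (Matrix.GeneralLinearGroup.det A)) = 1 ↔ _
    rw [map_eq_one_iff e e.injective, ← MonoidHom.mem_ker, QuotientGroup.ker_mk']
    constructor
    · rintro ⟨u, hu⟩
      have hu' : u ^ n = Matrix.GeneralLinearGroup.det A := hu
      have hd : Matrix.GeneralLinearGroup.det (A * Matrix.GeneralLinearGroup.scalar (Fin n) u⁻¹) = 1 := by
        rw [map_mul, hf1, ← hu', inv_pow, mul_inv_cancel]
      have hd' : ((A * Matrix.GeneralLinearGroup.scalar (Fin n) u⁻¹ : GL (Fin n) F) : Matrix (Fin n) (Fin n) F).det = 1 := by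
        have := congrArg Units.val hd
        simpa using this
      let X : Matrix.SpecialLinearGroup (Fin n) F := ⟨_, hd'⟩
      have hX : (toGL X : GL (Fin n) F) = A * Matrix.GeneralLinearGroup.scalar (Fin n) u⁻¹ := by
        apply Units.ext
        rfl
      refine ⟨QuotientGroup.mk X, ?_⟩
      rw [Matrix.ProjectiveSpecialLinearGroup.toPGL_mk, Matrix.ProjGenLinGroup.mk_eq_mk_iff]
      refine ⟨u, ?_⟩
      rw [hX, mul_assoc, ← map_mul, inv_mul_cancel, map_one, mul_one]
    · rintro ⟨X, hX⟩
      induction X using QuotientGroup.induction_on with | H X =>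
      obtain ⟨u, hu⟩ : ∃ u, toGL X * (Matrix.GeneralLinearGroup.scalar (Fin n)) u = A := by
        simpa [Matrix.ProjGenLinGroup.mk_eq_mk_iff] using hX
      refine ⟨u, ?_⟩
      change u ^ n = _
      rw [← hu, map_mul, hf1]
      have : Matrix.GeneralLinearGroup.det (toGL X : GL (Fin n) F) = 1 := by
        apply Units.ext
        exact X.2
      rw [this, one_mul]

end Cfsg.Agent.S0307
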