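import Cfsg.Statements.S0309
import Cfsg.Agent.Lib.BNPair

set_option autoImplicit false
open Cfsg

namespace Cfsg.Agent.S0309

/-- Bruhat decomposition, uniqueness part: for `n, n' ∈ N` the double cosets `B n B` and `B n' B` coincide
exactly when `n` and `n'` have the same image in `W = N / (B ⊓ N)`. -/
theorem result {G : Type*} [Group G] (P : Cfsg.BNPair G) {n n' : G}
    (hn : n ∈ P.N) (hn' : n' ∈ P.N) :
    DoubleCoset.doubleCoset n (P.B : Set G) P.B = DoubleCoset.doubleCoset n' (P.B : Set G) P.B ↔ n⁻¹ * n' ∈ P.B := by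
  constructor
  · intro h
    have h1 : n' ∈ DoubleCoset.doubleCoset n (P.B : Set G) P.B := by
      rw [h]; exact Cfsg.Agent.Lib.BNPair.mem_doubleCoset_iff.2 (Cfsg.Agent.Lib.BNPair.dc_refl n')
    exact Cfsg.Agent.Lib.BNPair.dc_unique hn hn' (Cfsg.Agent.Lib.BNPair.mem_doubleCoset_iff.1 h1)
  · intro h
    have h1 : Cfsg.Agent.Lib.BNPair.dc P n n' := ⟨1, one_mem _, _, h, by group⟩
    ext x
    rw [Cfsg.Agent.Lib.BNPair.mem_doubleCoset_iff, Cfsg.Agent.Lib.BNPair.mem_doubleCoset_iff]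
    constructor
    · intro h2
      exact Cfsg.Agent.Lib.BNPair.dc_trans (Cfsg.Agent.Lib.BNPair.dc_symm h1) h2
    · intro h2
      exact Cfsg.Agent.Lib.BNPair.dc_trans h1 h2

end Cfsg.Agent.S0309
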