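import Cfsg.Statements.S0311
import Cfsg.Agent.Lib.BNPair

set_option autoImplicit false
open Cfsg

namespace Cfsg.Agent.S0311

/-- Every subgroup containing `B` is a standard parabolic subgroup: it is generated by `B` and some set of
distinguished generators. -/
theorem result {G : Type*} [Group G] (P : Cfsg.BNPair G) (M : Subgroup G)
    (hM : P.B ≤ M) : ∃ J ⊆ P.S, M = P.parabolic J := by
  exact ⟨_, fun s hs => hs.1, Cfsg.Agent.Lib.BNPair.eq_parabolic hM⟩

end Cfsg.Agent.S0311
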