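import Cfsg.Statements.S0313
import Cfsg.Agent.Lib.BNPair

set_option autoImplicit false
open Cfsg

namespace Cfsg.Agent.S0313

/-- Two standard parabolic subgroups of a group with a (B,N)-pair which are conjugate in `G` coincide. -/
theorem result {G : Type*} [Group G] (P : Cfsg.BNPair G) {J K : Set G}
    (hJ : J ⊆ P.S) (hK : K ⊆ P.S) (g : G)
    (h : (P.parabolic J).map (MulAut.conj g).toMonoidHom = P.parabolic K) :
    P.parabolic J = P.parabolic K := by
  have hg : g ∈ P.parabolic K := by
    have : ∀ b ∈ P.B, g * b * g⁻¹ ∈ P.parabolic K := by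
      intro b hb
      rw [← h]
      exact ⟨b, (le_sup_left : P.B ≤ P.parabolic J) hb, rfl⟩
    exact Cfsg.Agent.Lib.BNPair.mem_of_conj_mem (P := P) le_sup_left this
  have hgJ : g ∈ P.parabolic J := by
    rw [← h] at hg
    obtain ⟨y, hy, hy'⟩ := hg
    have : y = g := by
      have e : g * y * g⁻¹ = g := hy'
      rw [mul_inv_eq_iff_eq_mul] at e
      exact mul_left_cancel e
    rwa [this] at hy
  rw [← h]
  ext x
  constructor
  · intro hx
    exact ⟨g⁻¹ * x * g, mul_mem (mul_mem (inv_mem hgJ) hx) hgJ, by simp [mul_assoc]⟩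
  · intro hx
    obtain ⟨y, hy, rfl⟩ := hx
    exact mul_mem (mul_mem hgJ hy) (inv_mem hgJ)

end Cfsg.Agent.S0313
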