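import Cfsg.Statements.S0314
import Cfsg.Agent.Lib.BNPair

set_option autoImplicit false
open Cfsg

namespace Cfsg.Agent.S0314

/-- Distinct sets of distinguished generators give distinct standard parabolic subgroups. -/
theorem result {G : Type*} [Group G] (P : Cfsg.BNPair G) {J K : Set G}
    (hJ : J ⊆ P.S) (hK : K ⊆ P.S) (h : P.parabolic J = P.parabolic K) : J = K := by
  have key : ∀ {J K : Set G} (hJ : J ⊆ P.S) (hK : K ⊆ P.S) (h : P.parabolic J = P.parabolic K),
      J ⊆ K := by
    intro J K hJ hK h s hs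
    have h1 : s ∈ P.parabolic K := by
      rw [← h]
      exact (le_sup_right : Subgroup.closure J ≤ P.parabolic J) (Subgroup.subset_closure hs)
    rw [Cfsg.Agent.Lib.BNPair.mem_parabolic_iff hK] at h1
    have h2 := Cfsg.Agent.Lib.BNPair.beta_S (P := P) ⟨s, hJ hs⟩
    change Cfsg.Agent.Lib.BNPair.beta P s = _ at h2
    rw [h2] at h1
    exact (Cfsg.Agent.Lib.BNPair.simple_mem_WJ _).1 h1
  exact Set.Subset.antisymm (key hJ hK h) (key hK hJ h.symm)

end Cfsg.Agent.S0314
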