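import Cfsg.Statements.S0315
import Cfsg.Agent.Lib.BNPair

set_option autoImplicit false
open Cfsg

namespace Cfsg.Agent.S0315

/-- Standard parabolic subgroups intersect as the index sets do: `P_J ⊓ P_K = P_{J ∩ K}`. -/
theorem result {G : Type*} [Group G] (P : Cfsg.BNPair G) {J K : Set G}
    (hJ : J ⊆ P.S) (hK : K ⊆ P.S) : P.parabolic J ⊓ P.parabolic K = P.parabolic (J ∩ K) := by
  ext g
  rw [Subgroup.mem_inf, Cfsg.Agent.Lib.BNPair.mem_parabolic_iff hJ,
    Cfsg.Agent.Lib.BNPair.mem_parabolic_iff hK,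
    Cfsg.Agent.Lib.BNPair.mem_parabolic_iff (Set.inter_subset_left.trans hJ)]
  constructor
  · rintro ⟨h1, h2⟩
    exact Cfsg.Agent.Lib.Exchange.closure_inter (Cfsg.Agent.Lib.BNPair.isExch P) h1 h2
  · intro h
    exact ⟨Subgroup.closure_mono (Set.image_mono fun i hi => hi.1) h,
      Subgroup.closure_mono (Set.image_mono fun i hi => hi.2) h⟩

end Cfsg.Agent.S0315
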