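import Cfsg.Statements.S0316
import Cfsg.Agent.Lib.BNPair

set_option autoImplicit false
open Cfsg

namespace Cfsg.Agent.S0316

theorem simple_mem {G : Type*} [Group G] {P : Cfsg.BNPair G} {J : Set G} (hJ : J ⊆ P.S)
    {s : G} (hs : s ∈ P.S) (h : s ∈ P.parabolic J) : s ∈ J := by
  rw [Cfsg.Agent.Lib.BNPair.mem_parabolic_iff hJ] at h
  have h2 := Cfsg.Agent.Lib.BNPair.beta_S (P := P) ⟨s, hs⟩
  change Cfsg.Agent.Lib.BNPair.beta P s = _ at h2
  rw [h2] at h
  exact (Cfsg.Agent.Lib.BNPair.simple_mem_WJ _).1 h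

/-- The map `J ↦ P_J` is a lattice isomorphism from the power set of the set of distinguished generators onto the
subgroups containing `B`. -/
theorem result {G : Type*} [Group G] (P : Cfsg.BNPair G) :
    ∃ e : Set P.S ≃o {M : Subgroup G // P.B ≤ M},
      ∀ J : Set P.S, ((e J : {M : Subgroup G // P.B ≤ M}) : Subgroup G) = P.parabolic (Subtype.val '' J) := by
  have sub : ∀ J : Set P.S, Subtype.val '' J ⊆ P.S := by
    rintro J _ ⟨s, -, rfl⟩
    exact s.2
  have img : ∀ (J : Set P.S) (s : P.S), (s : G) ∈ P.parabolic (Subtype.val '' J) ↔ s ∈ J := by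
    intro J s
    constructor
    · intro h
      obtain ⟨t, ht, hts⟩ := simple_mem (sub J) s.2 h
      have : t = s := Subtype.ext hts
      rwa [this] at ht
    · intro h
      exact (le_sup_right : Subgroup.closure (Subtype.val '' J) ≤ P.parabolic (Subtype.val '' J))
        (Subgroup.subset_closure ⟨s, h, rfl⟩)
  have mono : ∀ J K : Set G, J ⊆ K → P.parabolic J ≤ P.parabolic K := fun J K h =>
    sup_le_sup_left (Subgroup.closure_mono h) _
  refine ⟨{
    toFun := fun J => ⟨P.parabolic (Subtype.val '' J), le_sup_left⟩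
    invFun := fun M => {s : P.S | (s : G) ∈ (M : Subgroup G)}
    left_inv := ?_
    right_inv := ?_
    map_rel_iff' := ?_ }, fun J => rfl⟩
  · intro J
    ext s
    exact img J s
  · rintro ⟨M, hM⟩
    apply Subtype.ext
    show P.parabolic (Subtype.val '' {s : P.S | (s : G) ∈ M}) = M
    have h1 := Cfsg.Agent.Lib.BNPair.eq_parabolic hM
    have h2 : (Subtype.val '' {s : P.S | (s : G) ∈ M}) = {s | s ∈ P.S ∧ s ∈ M} := by
      ext s
      constructor
      · rintro ⟨t, ht, rfl⟩
        exact ⟨t.2, ht⟩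
      · rintro ⟨hs, hm⟩
        exact ⟨⟨s, hs⟩, hm, rfl⟩
    rw [h2]
    exact h1.symm
  · intro J K
    constructor
    · intro h s hs
      exact (img K s).1 (h ((img J s).2 hs))
    · intro h
      exact mono _ _ (Set.image_mono h)

end Cfsg.Agent.S0316
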