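import Cfsg.Statements.S0317
import Cfsg.Agent.Lib.BNPair

set_option autoImplicit false
open Cfsg

namespace Cfsg.Agent.S0317

/-- The distinguished generators of the Weyl group of a (B,N)-pair are a minimal generating set: none of the
representatives lies in the subgroup generated by the remaining ones together with `B ⊓ N`. -/
theorem result {G : Type*} [Group G] (P : Cfsg.BNPair G) {s : G}
    (hs : s ∈ P.S) : s ∉ Subgroup.closure (P.S \ {s}) ⊔ (P.B ⊓ P.N) := by
  intro h
  have hJ : P.S \ {s} ⊆ P.S := Set.sdiff_subset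
  have h1 : s ∈ P.parabolic (P.S \ {s}) := by
    have : Subgroup.closure (P.S \ {s}) ⊔ (P.B ⊓ P.N) ≤ P.parabolic (P.S \ {s}) :=
      sup_le le_sup_right (inf_le_left.trans le_sup_left)
    exact this h
  rw [Cfsg.Agent.Lib.BNPair.mem_parabolic_iff hJ] at h1
  have h2 := Cfsg.Agent.Lib.BNPair.beta_S (P := P) ⟨s, hs⟩
  change Cfsg.Agent.Lib.BNPair.beta P s = _ at h2
  rw [h2] at h1
  have h3 := (Cfsg.Agent.Lib.BNPair.simple_mem_WJ _).1 h1
  exact h3.2 rfl

end Cfsg.Agent.S0317
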