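import Cfsg.Statements.S0321
import Cfsg.Agent.Lib.BNPair

set_option autoImplicit false
open Cfsg

namespace Cfsg.Agent.S0321

theorem union_subgroup {G : Type*} [Group G] (P : Cfsg.BNPair G) {s : G} (hs : s ∈ P.S) :
    ∃ H : Subgroup G, (H : Set G) = (P.B : Set G) ∪ DoubleCoset.doubleCoset s (P.B : Set G) P.B := by
  refine ⟨P.parabolic {s}, ?_⟩
  have hJ : ({s} : Set G) ⊆ P.S := Set.singleton_subset_iff.2 hs
  ext g
  rw [Set.mem_union, Cfsg.Agent.Lib.BNPair.mem_doubleCoset_iff]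
  constructor
  · intro h
    obtain ⟨n, hn, hdc⟩ := Cfsg.Agent.Lib.BNPair.exists_dc_of_mem_parabolic hJ h
    obtain ⟨k, rfl⟩ := Subgroup.mem_closure_singleton.1 hn
    have hT : s ^ (2 : ℤ) ∈ P.B := by
      have := P.sq_mem s hs
      rwa [zpow_two]
    rcases Int.even_or_odd' k with ⟨c, rfl | rfl⟩
    · left
      apply Cfsg.Agent.Lib.BNPair.dc_mem le_rfl hdc
      rw [zpow_mul]
      exact zpow_mem hT c
    · right
      refine Cfsg.Agent.Lib.BNPair.dc_trans ?_ hdc
      rw [zpow_add, zpow_one, zpow_mul]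
      exact Cfsg.Agent.Lib.BNPair.dc_left (zpow_mem hT c)
  · rintro (h | h)
    · exact (le_sup_left : P.B ≤ P.parabolic {s}) h
    · exact Cfsg.Agent.Lib.BNPair.dc_mem le_sup_left h
        ((le_sup_right : Subgroup.closure {s} ≤ P.parabolic {s}) (Subgroup.subset_closure rfl))

/-- For `n ∈ N` not in `B`, the union `B ∪ B n B` is (the underlying set of) a subgroup exactly when `n` agrees
modulo `B ⊓ N` with one of the distinguished representatives; thus the distinguished involutions are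
determined by `B` and `N`. -/
theorem result {G : Type*} [Group G] (P : Cfsg.BNPair G) {n : G}
    (hn : n ∈ P.N) (hnB : n ∉ P.B) :
    (∃ H : Subgroup G, (H : Set G) = (P.B : Set G) ∪ DoubleCoset.doubleCoset n (P.B : Set G) P.B) ↔ ∃ s ∈ P.S, s⁻¹ * n ∈ P.B := by
  constructor
  · rintro ⟨H, hH⟩
    have hB : P.B ≤ H := by
      intro b hb
      have : b ∈ (H : Set G) := by rw [hH]; exact Or.inl hb
      exact this
    have h1 := Cfsg.Agent.Lib.BNPair.eq_parabolic hB
    have hnH : n ∈ H := by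
      have : n ∈ (H : Set G) := by
        rw [hH]; exact Or.inr (Cfsg.Agent.Lib.BNPair.mem_doubleCoset_iff.2
          (Cfsg.Agent.Lib.BNPair.dc_refl n))
      exact this
    have hne : ({s | s ∈ P.S ∧ s ∈ H} : Set G).Nonempty := by
      by_contra hemp
      rw [Set.not_nonempty_iff_eq_empty] at hemp
      rw [hemp] at h1
      rw [h1] at hnH
      have : P.parabolic ∅ = P.B := by
        show P.B ⊔ Subgroup.closure ∅ = P.B
        rw [Subgroup.closure_empty, sup_bot_eq]
      rw [this] at hnH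
      exact hnB hnH
    obtain ⟨s, hs, hsH⟩ := hne
    refine ⟨s, hs, ?_⟩
    have : s ∈ (H : Set G) := hsH
    rw [hH] at this
    rcases this with h | h
    · exact absurd h (Cfsg.Agent.Lib.BNPair.S_not_mem_B hs)
    · rw [Cfsg.Agent.Lib.BNPair.mem_doubleCoset_iff] at h
      exact Cfsg.Agent.Lib.BNPair.dc_unique (P.subset hs) hn (Cfsg.Agent.Lib.BNPair.dc_symm h)
  · rintro ⟨s, hs, hsn⟩
    obtain ⟨H, hH⟩ := union_subgroup P hs
    refine ⟨H, ?_⟩
    rw [hH]
    congr 1
    have h1 : Cfsg.Agent.Lib.BNPair.dc P s n := ⟨1, one_mem _, _, hsn, by group⟩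
    ext x
    rw [Cfsg.Agent.Lib.BNPair.mem_doubleCoset_iff, Cfsg.Agent.Lib.BNPair.mem_doubleCoset_iff]
    exact ⟨fun h2 => Cfsg.Agent.Lib.BNPair.dc_trans (Cfsg.Agent.Lib.BNPair.dc_symm h1) h2,
      fun h2 => Cfsg.Agent.Lib.BNPair.dc_trans h1 h2⟩

end Cfsg.Agent.S0321
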