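import Cfsg.Statements.S0322
import Cfsg.Agent.Lib.BNPair

set_option autoImplicit false
open Cfsg

namespace Cfsg.Agent.S0322

theorem aux {G : Type*} [Group G] (P : Cfsg.BNPair G) (h : P.rank = 1) :
    ∃ s ∈ P.S, ∀ x y : G ⧸ P.B, x ≠ y →
      ∃ g : G, g • (QuotientGroup.mk 1 : G ⧸ P.B) = x ∧ g • (QuotientGroup.mk s : G ⧸ P.B) = y := by
  obtain ⟨s, hs⟩ := Set.ncard_eq_one.1 (show P.S.ncard = 1 from h)
  have hsS : s ∈ P.S := by rw [hs]; rfl
  refine ⟨s, hsS, ?_⟩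
  intro x y hxy
  induction x using QuotientGroup.induction_on with
  | H u =>
  induction y using QuotientGroup.induction_on with
  | H v =>
  have hne : u⁻¹ * v ∉ P.B := fun h => hxy (QuotientGroup.eq.2 h)
  have h1 : u⁻¹ * v ∈ P.parabolic P.S := by rw [Cfsg.Agent.Lib.BNPair.parabolic_S]; trivial
  obtain ⟨n, hn, hdc⟩ := Cfsg.Agent.Lib.BNPair.exists_dc_of_mem_parabolic subset_rfl h1
  rw [hs] at hn
  obtain ⟨k, rfl⟩ := Subgroup.mem_closure_singleton.1 hn
  have hT : s ^ (2 : ℤ) ∈ P.B := by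
    have := P.sq_mem s hsS
    rwa [zpow_two]
  have hdc' : Cfsg.Agent.Lib.BNPair.dc P s (u⁻¹ * v) := by
    rcases Int.even_or_odd' k with ⟨c, rfl | rfl⟩
    · exfalso
      apply hne
      apply Cfsg.Agent.Lib.BNPair.dc_mem le_rfl hdc
      rw [zpow_mul]
      exact zpow_mem hT c
    · refine Cfsg.Agent.Lib.BNPair.dc_trans ?_ hdc
      rw [zpow_add, zpow_one, zpow_mul]
      exact Cfsg.Agent.Lib.BNPair.dc_left (zpow_mem hT c)
  obtain ⟨b, hb, b', hb', e⟩ := hdc'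
  refine ⟨u * b, ?_, ?_⟩
  · show (QuotientGroup.mk (u * b * 1) : G ⧸ P.B) = QuotientGroup.mk u
    rw [QuotientGroup.eq]
    have : (u * b * 1)⁻¹ * u = b⁻¹ := by group
    rw [this]; exact inv_mem hb
  · show (QuotientGroup.mk (u * b * s) : G ⧸ P.B) = QuotientGroup.mk v
    rw [QuotientGroup.eq]
    have : (u * b * s)⁻¹ * v = (b * s)⁻¹ * (u⁻¹ * v) := by group
    rw [this, e]
    have : (b * s)⁻¹ * (b * s * b') = b' := by group
    rw [this]; exact hb'

/-- A group with a (B,N)-pair of rank one acts doubly transitively on the left cosets of `B`. -/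
theorem result {G : Type*} [Group G] (P : Cfsg.BNPair G) (h : P.rank = 1) : MulAction.IsMultiplyPretransitive G (G ⧸ P.B) 2 := by
  obtain ⟨s, -, hs⟩ := aux P h
  rw [MulAction.is_two_pretransitive_iff]
  intro a b c d hab hcd
  obtain ⟨g1, h1, h2⟩ := hs a b hab
  obtain ⟨g2, h3, h4⟩ := hs c d hcd
  exact ⟨g2 * g1⁻¹, by rw [mul_smul, ← h1, inv_smul_smul, h3],
    by rw [mul_smul, ← h2, inv_smul_smul, h4]⟩

end Cfsg.Agent.S0322
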