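import Cfsg.Statements.S0323
import Cfsg.Agent.Lib.BNPair

set_option autoImplicit false
open scoped Pointwise
open Cfsg

namespace Cfsg.Agent.S0323

open scoped Pointwise

theorem memN {G Ω : Type*} [Group G] [MulAction G Ω] {x y : Ω} (g : G) :
    g ∈ MulAction.stabilizer G ({x, y} : Set Ω) ↔
      (g • x = x ∧ g • y = y) ∨ (g • x = y ∧ g • y = x) := by
  rw [MulAction.mem_stabilizer_iff, Set.smul_set_insert, Set.smul_set_singleton,
    Set.pair_eq_pair_iff]

theorem dcSame {G : Type*} [Group G] {B : Subgroup G} {g h k : G}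
    (hg : ∃ b ∈ B, ∃ b' ∈ B, g = b * k * b') (hh : ∃ b ∈ B, ∃ b' ∈ B, h = b * k * b') :
    h ∈ DoubleCoset.doubleCoset g (B : Set G) B := by
  rw [DoubleCoset.mem_doubleCoset]
  obtain ⟨b, hb, b', hb', rfl⟩ := hg
  obtain ⟨c, hc, c', hc', rfl⟩ := hh
  exact ⟨c * b⁻¹, mul_mem hc (inv_mem hb), b'⁻¹ * c', mul_mem (inv_mem hb') hc', by group⟩

/-- A doubly transitive action on a set with at least three points yields a (B,N)-pair of rank one:
`B` is the stabiliser of a point `x`, `N` the setwise stabiliser of a pair `{x, y}`. -/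
theorem result {G Ω : Type*} [Group G] [MulAction G Ω]
    (h2 : MulAction.IsMultiplyPretransitive G Ω 2) {x y z : Ω} (hxy : x ≠ y) (hyz : y ≠ z) (hxz : x ≠ z) :
    ∃ P : Cfsg.BNPair G, P.B = MulAction.stabilizer G x ∧
      P.N = MulAction.stabilizer G ({x, y} : Set Ω) ∧ P.rank = 1 := by
  rw [MulAction.is_two_pretransitive_iff] at h2
  obtain ⟨s, hsx, hsy⟩ := h2 hxy hxy.symm
  have hyx := hxy.symm
  have hsN : s ∈ MulAction.stabilizer G ({x, y} : Set Ω) := (memN s).2 (Or.inr ⟨hsx, hsy⟩)
  have notB : ∀ g : G, g ∉ MulAction.stabilizer G x →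
      ∃ b ∈ MulAction.stabilizer G x, ∃ b' ∈ MulAction.stabilizer G x, g = b * s * b' := by
    intro g hg
    rw [MulAction.mem_stabilizer_iff] at hg
    obtain ⟨b, hb1, hb2⟩ := h2 hxy (Ne.symm hg)
    refine ⟨b, hb1, s⁻¹ * b⁻¹ * g, ?_, by group⟩
    rw [MulAction.mem_stabilizer_iff, mul_smul, mul_smul, ← hb2, inv_smul_smul, ← hsx,
      inv_smul_smul]
  have inB : ∀ g : G, g ∈ MulAction.stabilizer G x →
      ∃ b ∈ MulAction.stabilizer G x, ∃ b' ∈ MulAction.stabilizer G x, g = b * 1 * b' :=
    fun g hg => ⟨g, hg, 1, one_mem _, by group⟩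
  refine ⟨{
    B := MulAction.stabilizer G x
    N := MulAction.stabilizer G ({x, y} : Set Ω)
    S := {s}
    sup_eq_top := ?_
    conj_mem := ?_
    subset := Set.singleton_subset_iff.2 hsN
    sq_mem := ?_
    inj := ?_
    closure_sup := ?_
    mul_mem_union := ?_
    conj_ne := ?_ }, rfl, rfl, ?_⟩
  · rw [eq_top_iff]
    intro g _
    by_cases hg : g ∈ MulAction.stabilizer G x
    · exact Subgroup.mem_sup_left hg
    · obtain ⟨b, hb, b', hb', rfl⟩ := notB g hg
      exact mul_mem (mul_mem (Subgroup.mem_sup_left hb) (Subgroup.mem_sup_right hsN))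
        (Subgroup.mem_sup_left hb')
  · rintro n hn t ⟨ht1, ht2⟩
    have ht1' : t • x = x := ht1
    have hty : t • y = y := by
      rcases (memN t).1 ht2 with h | h
      · exact h.2
      · rw [ht1'] at h; exact absurd h.1 hxy
    rw [MulAction.mem_stabilizer_iff, mul_smul, mul_smul]
    rcases (memN n⁻¹).1 (inv_mem hn) with h | h
    · rw [h.1, ht1', ← h.1, smul_inv_smul, h.1]
    · rw [h.1, hty, ← h.1, smul_inv_smul]
  · rintro t rfl
    rw [MulAction.mem_stabilizer_iff, mul_smul, hsx, hsy]
  · rintro t rfl t' rfl _; rfl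
  · apply le_antisymm
    · apply sup_le
      · rw [Subgroup.closure_le, Set.singleton_subset_iff]; exact hsN
      · exact inf_le_right
    · intro n hn
      rcases (memN n).1 hn with h | h
      · exact Subgroup.mem_sup_right ⟨h.1, hn⟩
      · have e : n = s * (s⁻¹ * n) := by group
        rw [e]
        have h5 : s ∈ Subgroup.closure ({s} : Set G) :=
          Subgroup.subset_closure (Set.mem_singleton s)
        have h6 : s⁻¹ * n ∈ MulAction.stabilizer G x := by
          rw [MulAction.mem_stabilizer_iff, mul_smul, h.1, ← hsx, inv_smul_smul]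
        have h7 : s⁻¹ * n ∈ MulAction.stabilizer G x ⊓ MulAction.stabilizer G ({x, y} : Set Ω) :=
          Subgroup.mem_inf.2 ⟨h6, Subgroup.mul_mem _ (Subgroup.inv_mem _ hsN) hn⟩
        exact mul_mem (Subgroup.mem_sup_left h5) (Subgroup.mem_sup_right h7)
  · rintro t rfl n hn b hb
    have hb' : b • x = x := hb
    rcases (memN n).1 hn with h | h
    · left
      apply dcSame (k := t)
      · apply notB
        rw [MulAction.mem_stabilizer_iff, mul_smul, h.1, hsx]; exact hyx
      · apply notB
        rw [MulAction.mem_stabilizer_iff, mul_smul, mul_smul, h.1, hb', hsx]; exact hyx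
    · by_cases h1 : t * b * n ∈ MulAction.stabilizer G x
      · left
        apply dcSame (k := 1)
        · apply inB
          rw [MulAction.mem_stabilizer_iff, mul_smul, h.1, hsy]
        · exact inB _ h1
      · right
        apply dcSame (k := t)
        · apply notB
          rw [MulAction.mem_stabilizer_iff, h.1]; exact hyx
        · exact notB _ h1
  · rintro t rfl heq
    obtain ⟨c, hc1, hc2⟩ := h2 hxy hxz
    have h1 : t * c * t ∈ (MulAction.stabilizer G x : Set G) := by
      rw [← heq]; exact ⟨c, hc1, rfl⟩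
    have h3 : (t * c * t) • x = x := h1
    rw [mul_smul, mul_smul, hsx, hc2, ← hsy] at h3
    have h4 := smul_left_cancel t h3
    exact hyz h4.symm
  · show Nat.card ({s} : Set G) = 1
    simp

end Cfsg.Agent.S0323
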