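import Cfsg.Statements.S0326


set_option autoImplicit false
open Cfsg

namespace Cfsg.Agent.S0326

/-- the affine vector -/
def pvec {F : Type*} [Field F] (m : ℕ) (x y : F) : Fin 4 → F :=
  ![x * y + x ^ (2 ^ (m + 1) + 2) + y ^ (2 ^ (m + 1)), y, x, 1]

theorem pvec_ne {F : Type*} [Field F] (m : ℕ) (x y : F) : pvec m x y ≠ 0 := by
  intro h
  have := congrFun h 3
  simp [pvec] at this

theorem e_ne {F : Type*} [Field F] : (![1, 0, 0, 0] : Fin 4 → F) ≠ 0 := by simp

/-- the parametrisation -/
noncomputable def par {F : Type*} [Field F] (m : ℕ) : Option (F × F) → Cfsg.suzukiOvoid F m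
  | none => ⟨Projectivization.mk F ![1, 0, 0, 0] e_ne, _, _, rfl, Or.inl rfl⟩
  | some (x, y) => ⟨Projectivization.mk F (pvec m x y) (pvec_ne m x y), _, _, rfl,
      Or.inr ⟨x, y, rfl⟩⟩

theorem par_bij {F : Type*} [Field F] (m : ℕ) : Function.Bijective (par (F := F) m) := by
  constructor
  · rintro (_ | ⟨x, y⟩) (_ | ⟨x', y'⟩) h
    · rfl
    · exfalso
      have h1 : Projectivization.mk F ![1, 0, 0, 0] e_ne =
        Projectivization.mk F (pvec m x' y') (pvec_ne m x' y') := congrArg Subtype.val h
      rw [Projectivization.mk_eq_mk_iff'] at h1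
      obtain ⟨a, ha⟩ := h1
      have h3 := congrFun ha 3
      have h0 := congrFun ha 0
      simp [pvec] at h3
      rw [h3] at h0
      simp at h0
    · exfalso
      have h1 : Projectivization.mk F (pvec m x y) (pvec_ne m x y) =
        Projectivization.mk F ![1, 0, 0, 0] e_ne := congrArg Subtype.val h
      rw [Projectivization.mk_eq_mk_iff'] at h1
      obtain ⟨a, ha⟩ := h1
      have h3 := congrFun ha 3
      simp [pvec] at h3
    · have h1 : Projectivization.mk F (pvec m x y) (pvec_ne m x y) =
        Projectivization.mk F (pvec m x' y') (pvec_ne m x' y') := congrArg Subtype.val h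
      rw [Projectivization.mk_eq_mk_iff'] at h1
      obtain ⟨a, ha⟩ := h1
      have h3 := congrFun ha 3
      simp [pvec] at h3
      have h2 := congrFun ha 2
      have h1 := congrFun ha 1
      simp [pvec, h3] at h1 h2
      rw [h1, h2]
  · rintro ⟨p, v, hv, rfl, rfl | ⟨x, y, rfl⟩⟩
    · exact ⟨none, rfl⟩
    · exact ⟨some (x, y), rfl⟩

/-- The Suzuki–Tits ovoid over a finite field with `q` elements has `q² + 1` points. -/
theorem result {F : Type*} [Field F] [Fintype F] (m : ℕ) :
    Nat.card (Cfsg.suzukiOvoid F m) = Fintype.card F ^ 2 + 1 := by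
  rw [← Nat.card_congr (Equiv.ofBijective _ (par_bij m)), Finite.card_option, Nat.card_prod,
    Nat.card_eq_fintype_card, sq]

end Cfsg.Agent.S0326
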