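import Cfsg.Statements.S0333
import Cfsg.Agent.Lib.SuzukiTori

set_option autoImplicit false
open Cfsg

namespace Cfsg.Agent.S0333

/-- With `q = 2^(2m+1)` and `r = 2^m`, the Suzuki group has cyclic subgroups of orders `q + 2r + 1` and
`q - 2r + 1`; each is the centraliser of each of its non-identity elements and has index `4` in its normaliser. -/
theorem result {F : Type*} [Field F] [Fintype F] {m : ℕ} (hm : 1 ≤ m)
    (hF : Fintype.card F = 2 ^ (2 * m + 1)) :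
    ∀ k ∈ ({2 ^ (2 * m + 1) + 2 ^ (m + 1) + 1, 2 ^ (2 * m + 1) - 2 ^ (m + 1) + 1} : Set ℕ),
      ∃ U : Subgroup (Cfsg.Sz F m), IsCyclic U ∧ Nat.card U = k ∧
        (∀ u ∈ U, u ≠ 1 → Subgroup.centralizer {u} = U) ∧ Nat.card (Subgroup.normalizer (U : Set (Cfsg.Sz F m))) = 4 * k := by
  have : CharP F 2 := Cfsg.Agent.Lib.SuzukiFin.charTwo hF
  have hθ := Cfsg.Agent.Lib.SuzukiFin.th_sq hF
  have hne := Cfsg.Agent.Lib.SuzukiFin.th_ne hm hF
  have hSz := Cfsg.Agent.Lib.SuzukiFin.Sz_eq (F := F) m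
  rw [hSz]
  have hq : Nat.card F = 2 ^ (2 * m + 1) := by rw [Nat.card_eq_fintype_card, hF]
  obtain ⟨x, y, hx, hy, -, -, h1, h2, h3, h4⟩ :=
    Cfsg.Agent.Lib.SuzukiTori.two_classes _ hθ hne hm hq
  intro k hk
  have key : ∀ z : Cfsg.Agent.Lib.SuzukiOvoid.Gz (Cfsg.Agent.Lib.SuzukiFin.th F m),
      Cfsg.Agent.Lib.SuzukiNoFix.NoFix _ z →
      ∀ u ∈ Subgroup.centralizer {z}, u ≠ 1 → Subgroup.centralizer {u} = Subgroup.centralizer {z} :=
    fun z hz u hu hu1 => Cfsg.Agent.Lib.SuzukiNoFix.NoFix.centralizer_eq _ hθ hne hz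
      (Cfsg.Agent.Lib.SuzukiCount.cent_comm _ hθ hne hu) hu1
  rcases hk with rfl | hk
  · exact ⟨Subgroup.centralizer {x}, Cfsg.Agent.Lib.SuzukiNoFix.NoFix.cyclic _ hθ hne hx, h3,
      key x hx, by rw [h1, h3, mul_comm]⟩
  · have hlt : 2 ^ (m + 1) ≤ 2 ^ (2 * m + 1) := Nat.pow_le_pow_right (by norm_num) (by omega)
    have hk' : k = 2 ^ (2 * m + 1) - 2 ^ (m + 1) + 1 := hk
    have h5 : Nat.card (Subgroup.centralizer {y}) = k := by omega
    exact ⟨Subgroup.centralizer {y}, Cfsg.Agent.Lib.SuzukiNoFix.NoFix.cyclic _ hθ hne hy, h5,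
      key y hy, by rw [h2, h5, mul_comm]⟩

end Cfsg.Agent.S0333
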