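import Cfsg.Statements.S0345
import Cfsg.Agent.Lib.Sharp3Simple
import Cfsg.Agent.Lib.ZassCyc
import Cfsg.Agent.S0741
import Cfsg.Agent.S0739
import Cfsg.Agent.S0740

set_option autoImplicit false
open Cfsg

namespace Cfsg.Agent.S0345

open Cfsg.Agent.Lib

/-- In a finite simple Zassenhaus group the stabiliser `H` of two points `a ≠ b` is cyclic, and some involution
interchanging `a` and `b` inverts every element of `H`. -/
theorem result {G Ω : Type*} [Group G] [Finite G] [MulAction G Ω] [Finite Ω]
    (hZ : Cfsg.IsZassenhausGroup G Ω) [IsSimpleGroup G]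
    {a b : Ω} (hab : a ≠ b) :
    IsCyclic ↥(MulAction.stabilizer G a ⊓ MulAction.stabilizer G b) ∧
      ∃ v : G, orderOf v = 2 ∧ v • a = b ∧ v • b = a ∧ ∀ h ∈ MulAction.stabilizer G a ⊓ MulAction.stabilizer G b, v * h * v⁻¹ = h⁻¹ := by
  classical
  have := Fintype.ofFinite Ω
  rcases Nat.even_or_odd (Nat.card ↥(MulAction.stabilizer G a ⊓ MulAction.stabilizer G b)) with heven | hodd
  · have hge := Cfsg.Agent.S0741.result hZ hab heven
    obtain ⟨hfaith, h2, h3, -, -⟩ := hZ
    have h3' : ZassBasic.Fix3 G Ω := h3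
    by_cases hd : 2 * Nat.card ↥(MulAction.stabilizer G a ⊓ MulAction.stabilizer G b) ≤ Nat.card Ω - 2
    · exact ZassCyc.half_cyclic h2 h3' hab heven hd
    · exfalso
      obtain ⟨h, hh1⟩ : ∃ h : ↥(MulAction.stabilizer G a ⊓ MulAction.stabilizer G b), h ≠ 1 := by
        by_contra hcon
        push Not at hcon
        have : Nat.card ↥(MulAction.stabilizer G a ⊓ MulAction.stabilizer G b) = 1 :=
          Nat.card_eq_one_iff_unique.2 ⟨⟨fun x y => by rw [hcon x, hcon y]⟩, ⟨1⟩⟩
        rw [this] at heven
        exact absurd heven (by decide)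
      obtain ⟨c, hc⟩ := ZassBasic.exists_moved (Ω := Ω) (s := (h : G)) (fun h' => hh1 (Subtype.ext h'))
      have hac : a ≠ c := by rintro rfl; exact hc h.2.1
      have hbc : b ≠ c := by rintro rfl; exact hc h.2.2
      exact Sharp3.not_simple_of_move3 h2 h3' (Sharp3.move3_of_big h2 h3' hab hac hbc hd) hab hac hbc
        heven inferInstance
  · have hZ' := hZ
    obtain ⟨hfaith, h2, h3, hmv, -⟩ := hZ'
    have hGnt : Nontrivial G := IsSimpleGroup.toNontrivial
    have hnil : ∀ q : ℕ, q.Prime → q ∣ Nat.card ↥(MulAction.stabilizer G a ⊓ MulAction.stabilizer G b) →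
        ¬ ∃ N : Subgroup G, N.Normal ∧ N.index = q ^ (Nat.card G).factorization q := by
      rintro q hq hqd ⟨N, hN, hidx⟩
      have hqG : q ∣ Nat.card G := hqd.trans (Subgroup.card_subgroup_dvd_card _)
      have hv : (Nat.card G).factorization q ≠ 0 :=
        (hq.factorization_pos_of_dvd Nat.card_pos.ne' hqG).ne'
      rcases hN.eq_bot_or_eq_top with h | h
      · rw [h, Subgroup.index_bot] at hidx
        -- G is a q-group, but |Ω| (|Ω| - 1) divides |G|
        have hcs := ZassBasic.card_stab h2 hab
        have htr : MulAction.IsPretransitive G Ω := by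
          constructor
          intro x y
          by_cases hxy : x = y
          · exact ⟨1, by rw [one_smul, hxy]⟩
          · obtain ⟨g, hg, _⟩ := ZassBasic.exists_move h2 hxy (Ne.symm hxy)
            exact ⟨g, hg⟩
        have hidxa := MulAction.index_stabilizer_of_transitive G a
        have hG := (MulAction.stabilizer G a).index_mul_card
        rw [hidxa, hcs] at hG
        have hcard : Nat.card {x : Ω // x ≠ a} + 1 = Nat.card Ω := by
          rw [Nat.card_eq_fintype_card, Fintype.card_subtype_compl, Fintype.card_subtype_eq,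
            Nat.card_eq_fintype_card]
          have : 0 < Fintype.card Ω := Fintype.card_pos_iff.2 ⟨a⟩
          omega
        obtain ⟨g, hg1, a', b', hab', hga', hgb'⟩ := hmv
        obtain ⟨c', hc'⟩ := ZassBasic.exists_moved (Ω := Ω) (s := g) hg1
        have h3Ω : 3 ≤ Nat.card Ω := by
          have hac : a' ≠ c' := by rintro rfl; exact hc' hga'
          have hbc : b' ≠ c' := by rintro rfl; exact hc' hgb'
          rw [Nat.card_eq_fintype_card]
          exact Fintype.two_lt_card_iff.2 ⟨a', b', c', hab', hac, hbc⟩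
        set m := Nat.card {x : Ω // x ≠ a} with hm
        have hd1 : m ∣ q ^ (Nat.card G).factorization q := by
          rw [← hidx, ← hG]
          exact Dvd.dvd.mul_left (Dvd.intro _ rfl) _
        have hd2 : m + 1 ∣ q ^ (Nat.card G).factorization q := by
          rw [← hidx, ← hG, hcard]
          exact Dvd.intro _ rfl
        obtain ⟨i, -, hi⟩ := (Nat.dvd_prime_pow hq).1 hd1
        obtain ⟨j, -, hj⟩ := (Nat.dvd_prime_pow hq).1 hd2
        have hi0 : i ≠ 0 := by
          rintro rfl
          rw [pow_zero] at hi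
          omega
        have hj0 : j ≠ 0 := by
          rintro rfl
          rw [pow_zero] at hj
          omega
        have h1 : q ∣ m := by rw [hi]; exact dvd_pow_self _ hi0
        have h2 : q ∣ m + 1 := by rw [hj]; exact dvd_pow_self _ hj0
        have h3 : q ∣ 1 := (Nat.dvd_add_right h1).1 h2
        exact hq.one_lt.ne' (Nat.dvd_one.1 h3)
      · rw [h, Subgroup.index_top] at hidx
        have : 1 < q ^ (Nat.card G).factorization q := Nat.one_lt_pow hv hq.one_lt
        omega
    obtain ⟨hcyc, -, hinv⟩ := Cfsg.Agent.S0739.result hZ hab hodd hnil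
    obtain ⟨⟨s, hs2, hsa, hsb⟩, -, -⟩ := Cfsg.Agent.S0740.result hZ hab
    exact ⟨hcyc, s, hs2, hsa, hsb, hinv s hsa hsb⟩

end Cfsg.Agent.S0345
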