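import Cfsg.Statements.S0362
import Cfsg.Agent.Lib.GolaySteiner

set_option autoImplicit false
open Cfsg

namespace Cfsg.Agent.S0362

/-- The length-24 code is self-orthogonal: the dot product over ZMod 2 of any two of its words vanishes (with dimension 12 this makes it self-dual). -/
theorem result (v w : Cfsg.GolayPt → ZMod 2) (hv : v ∈ Cfsg.golayCode) (hw : w ∈ Cfsg.golayCode) : ∑ i, v i * w i = 0 := by
  exact Cfsg.Agent.Lib.Golay.golay_dot v w hv hw

end Cfsg.Agent.S0362
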