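import Cfsg.Statements.S0386
import Cfsg.Agent.Lib.GolayM12b

set_option autoImplicit false
open Cfsg

namespace Cfsg.Agent.S0386

/-- For a fixed dodecad, 132 octads meet it in 6 points, 132 in 2 points and 495 in 4 points. -/
theorem result (d : Finset Cfsg.GolayPt) (hd : d ∈ Cfsg.dodecads) : {o : Finset Cfsg.GolayPt | o ∈ Cfsg.octads ∧ (o ∩ d).card = 6}.ncard = 132 ∧ {o : Finset Cfsg.GolayPt | o ∈ Cfsg.octads ∧ (o ∩ d).card = 2}.ncard = 132 ∧ {o : Finset Cfsg.GolayPt | o ∈ Cfsg.octads ∧ (o ∩ d).card = 4}.ncard = 495 := by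
  exact Cfsg.Agent.Lib.Golay.hexad_counts hd

end Cfsg.Agent.S0386
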