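import Cfsg.Statements.S0400
import Cfsg.Agent.Lib.LeechTrans

set_option autoImplicit false
open Cfsg

namespace Cfsg.Agent.S0400

/-- Automorphisms of the lattice act transitively on vectors of sum of squares 32. -/
theorem result (v w : Cfsg.leechLattice) (hv : Cfsg.sqNorm (v : Cfsg.GolayPt → ℤ) = 32) (hw : Cfsg.sqNorm (w : Cfsg.GolayPt → ℤ) = 32) : ∃ g : Cfsg.Co0, g • v = w := by
  refine Cfsg.Agent.Lib.LeechTrans.transitive (v := v) (w := w) ?_ (by rw [hv]; norm_num) (hv.trans hw.symm)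
  rintro rfl
  simp [Cfsg.sqNorm] at hv

end Cfsg.Agent.S0400
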