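import Cfsg.Statements.S0420
import Cfsg.Agent.Lib.M11Unique
import Cfsg.Agent.S0387
import Cfsg.Agent.S0388

set_option autoImplicit false
open scoped Pointwise
open Cfsg

namespace Cfsg.Agent.S0420

/-- Simple groups of order 7920 are all isomorphic to the concrete smallest Mathieu group. -/
theorem result {G : Type*} [Group G] [Finite G] (hG : Cfsg.IsM11 G) (d : Finset Cfsg.GolayPt) (hd : d ∈ Cfsg.dodecads) (p : Cfsg.GolayPt) (hp : p ∈ d) : Nonempty (G ≃* ↥(MulAction.stabilizer Cfsg.M24 d ⊓ MulAction.stabilizer Cfsg.M24 p)) := by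
  have h1 := hG.1
  have h2 := Cfsg.Agent.S0387.result d hd p hp
  have h3 := Cfsg.Agent.S0388.result d hd p hp
  have h4 : Finite ↥(MulAction.stabilizer Cfsg.M24 d ⊓ MulAction.stabilizer Cfsg.M24 p) :=
    Nat.finite_of_card_ne_zero (by rw [h2]; norm_num)
  exact Cfsg.Agent.Lib.M11ByOrder.unique_7920 hG.2 h2

end Cfsg.Agent.S0420
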