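import Mathlib
import Cfsg.Statements.S0428
import Cfsg.Agent.Lib.Steiner
import Cfsg.Agent.S0427

set_option autoImplicit false
open Cfsg

namespace Cfsg.Agent.S0428

open Cfsg.Agent.Lib.Steiner Finset
open Cfsg.Agent.S0427

variable {α : Type*} [Fintype α] {B : Set (Finset α)}

theorem count_split [Fintype B] (P : Option (α ⊕ B) → Prop) [DecidablePred P] :
    (univ.filter P).card = (if P none then 1 else 0) +
      ((univ.filter fun a : α => P (some (Sum.inl a))).card +
        (univ.filter fun b : B => P (some (Sum.inr b))).card) := by
  classical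
  simp only [card_filter]
  rw [Fintype.sum_option, Fintype.sum_sum_type]

theorem adj_nn : ¬ (pointBlockGraph B).Adj none none := by
  simp [pointBlockGraph]

theorem adj_np (a : α) : (pointBlockGraph B).Adj none (some (Sum.inl a)) := by
  simp [pointBlockGraph, pointBlockRel]

theorem adj_pn (a : α) : (pointBlockGraph B).Adj (some (Sum.inl a)) none := by
  simp [pointBlockGraph, pointBlockRel]

theorem adj_nb (b : B) : ¬ (pointBlockGraph B).Adj none (some (Sum.inr b)) := by
  simp [pointBlockGraph, pointBlockRel]

theorem adj_bn (b : B) : ¬ (pointBlockGraph B).Adj (some (Sum.inr b)) none := by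
  simp [pointBlockGraph, pointBlockRel]

theorem adj_pp (a a' : α) : ¬ (pointBlockGraph B).Adj (some (Sum.inl a)) (some (Sum.inl a')) := by
  simp [pointBlockGraph, pointBlockRel]

theorem adj_pb (a : α) (b : B) : (pointBlockGraph B).Adj (some (Sum.inl a)) (some (Sum.inr b)) ↔ a ∈ b.1 := by
  simp [pointBlockGraph, pointBlockRel]

theorem adj_bp (a : α) (b : B) : (pointBlockGraph B).Adj (some (Sum.inr b)) (some (Sum.inl a)) ↔ a ∈ b.1 := by
  simp [pointBlockGraph, pointBlockRel]

section
variable [DecidableEq α] (hα : Fintype.card α = 22) (hB : Cfsg.IsSteinerSystem 3 6 B)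
include hα hB

theorem adj_bb (b c : B) : (pointBlockGraph B).Adj (some (Sum.inr b)) (some (Sum.inr c)) ↔
    (c.1 ∩ b.1).card = 0 := by
  rw [← adj_iff hα hB, pointBlockGraph, blockGraph, SimpleGraph.fromRel_adj, SimpleGraph.fromRel_adj]
  simp [pointBlockRel]

theorem blocks_pt (p : α) : ((bl B).filter fun b => p ∈ b).card = 21 := by
  have := card_containing hB {p} (by simp)
  simp only [card_singleton, hα, singleton_subset_iff] at this
  have h1 : Nat.choose (6 - 1) (3 - 1) = 10 := by decide
  have h2 : Nat.choose (22 - 1) (3 - 1) = 210 := by decide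
  rw [h1, h2] at this
  omega

theorem blocks_two {p q : α} (hpq : p ≠ q) : ((bl B).filter fun b => p ∈ b ∧ q ∈ b).card = 5 := by
  have := card_containing hB {p, q} (by rw [card_pair hpq]; norm_num)
  rw [card_pair hpq] at this
  simp only [hα, insert_subset_iff, singleton_subset_iff] at this
  have h1 : Nat.choose (6 - 2) (3 - 2) = 4 := by decide
  have h2 : Nat.choose (22 - 2) (3 - 2) = 20 := by decide
  rw [h1, h2] at this
  omega

theorem blocks_pt_disj {p : α} {b : Finset α} (hb : b ∈ B) (hp : p ∉ b) :
    ((bl B).filter fun c => p ∈ c ∧ (c ∩ b).card = 0).card = 6 := by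
  set D := (bl B).filter fun c => p ∈ c with hD
  have h1 : ∑ c ∈ D, (c ∩ b).card = ∑ x ∈ b, ((bl B).filter fun c => p ∈ c ∧ x ∈ c).card := by
    have := Finset.sum_card_bipartiteAbove_eq_sum_card_bipartiteBelow
      (r := fun (c : Finset α) (x : α) => x ∈ c) (s := D) (t := b)
    have e1 : ∀ c ∈ D, (c ∩ b).card = (bipartiteAbove (fun (c : Finset α) (x : α) => x ∈ c) b c).card := by
      intro c _
      congr 1
      ext x
      simp only [bipartiteAbove, mem_inter, mem_filter]
      tauto
    have e2 : ∀ x ∈ b, ((bl B).filter fun c => p ∈ c ∧ x ∈ c).card =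
        (bipartiteBelow (fun (c : Finset α) (x : α) => x ∈ c) D x).card := by
      intro x _
      congr 1
      ext c
      simp only [bipartiteBelow, mem_filter, hD, and_assoc]
    rw [sum_congr rfl e1, sum_congr rfl e2]
    exact this
  have h2 : ∀ x ∈ b, ((bl B).filter fun c => p ∈ c ∧ x ∈ c).card = 5 := by
    intro x hx
    apply blocks_two hα hB
    rintro rfl
    exact hp hx
  rw [sum_congr rfl h2, sum_const, hB.1 b hb, smul_eq_mul] at h1
  have h3 : ∀ c ∈ D, (c ∩ b).card = if (c ∩ b).card = 0 then 0 else 2 := by
    intro c hc
    rw [hD, mem_filter, mem_bl] at hc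
    have hcb : c ≠ b := by
      rintro rfl
      exact hp hc.2
    rcases inter_cases hα hB hc.1 hb hcb with h | h <;> rw [h] <;> simp
  rw [sum_congr rfl h3] at h1
  rw [sum_ite, sum_const, sum_const, smul_eq_mul, mul_zero, zero_add, smul_eq_mul] at h1
  have h4 := card_filter_add_card_filter_not (s := D) (fun c => (c ∩ b).card = 0)
  have h5 : D.card = 21 := blocks_pt hα hB p
  rw [h5] at h4
  have h6 : ((bl B).filter fun c => p ∈ c ∧ (c ∩ b).card = 0) = D.filter fun c => (c ∩ b).card = 0 := by
    rw [hD, filter_filter]
  rw [h6]
  omega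

end

/-- The point-block graph of an S(3, 6, 22) is strongly regular with parameters (100, 22, 0, 6). -/
theorem result {α : Type*} [Fintype α] (hα : Fintype.card α = 22) {B : Set (Finset α)} (hB : Cfsg.IsSteinerSystem 3 6 B) [Fintype B] [DecidableRel (Cfsg.pointBlockGraph B).Adj] : (Cfsg.pointBlockGraph B).IsSRGWith 100 22 0 6 := by
  classical
  have hbb := adj_bb hα hB
  have hsymm : ∀ v w, Fintype.card ((pointBlockGraph B).commonNeighbors v w) =
      Fintype.card ((pointBlockGraph B).commonNeighbors w v) := by
    intro v w
    rw [card_common, card_common]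
    congr 1
    ext u
    simp only [mem_filter, mem_univ, true_and]
    tauto
  constructor
  · rw [Fintype.card_option, Fintype.card_sum, hα]
    have := card_filter_sub (B := B) (fun _ => True)
    simp only [filter_true] at this
    rw [← card_univ (α := B), this, card_blocks hα hB]
  · intro v
    rw [← SimpleGraph.card_neighborFinset_eq_degree, SimpleGraph.neighborFinset_eq_filter, count_split]
    rcases v with _ | a | b
    · simp [adj_nn, adj_np, adj_nb, hα]
    · simp only [adj_pn, adj_pp, adj_pb, if_true, filter_false, card_empty]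
      rw [card_filter_sub (B := B) (fun u => a ∈ u), blocks_pt hα hB]
    · simp only [adj_bn, adj_bp, hbb, if_false]
      rw [card_filter_sub (B := B) (fun u => (u ∩ b.1).card = 0)]
      have := (hexad22_numbers hα hB b.2).1
      unfold nn at this
      rw [this]
      simp [hB.1 b.1 b.2]
  · intro v w hvw
    rcases v with _ | a | b <;> rcases w with _ | a' | c
    · exact absurd hvw adj_nn
    · rw [card_common, count_split]
      simp [adj_nn, adj_np, adj_nb, adj_pn, adj_pp]
    · exact absurd hvw (adj_nb c)
    · rw [card_common, count_split]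
      simp [adj_nn, adj_np, adj_nb, adj_pn, adj_pp]
    · exact absurd hvw (adj_pp _ _)
    · rw [card_common, count_split]
      rw [adj_pb] at hvw
      simp only [adj_pn, adj_bn, adj_pp, adj_bp, adj_pb, hbb, and_false, false_and, if_false,
        filter_false, card_empty, zero_add]
      rw [card_eq_zero, filter_eq_empty_iff]
      rintro d - ⟨h1, h2⟩
      rw [card_eq_zero] at h2
      have : a ∈ d.1 ∩ c.1 := mem_inter.mpr ⟨h1, hvw⟩
      rw [h2] at this
      simp at this
    · exact absurd hvw (adj_bn _)
    · rw [card_common, count_split]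
      rw [adj_bp] at hvw
      simp only [adj_pn, adj_bn, adj_pp, adj_bp, adj_pb, hbb, and_false, false_and, if_false,
        filter_false, card_empty, zero_add]
      rw [card_eq_zero, filter_eq_empty_iff]
      rintro d - ⟨h2, h1⟩
      rw [card_eq_zero] at h2
      have : a' ∈ d.1 ∩ b.1 := mem_inter.mpr ⟨h1, hvw⟩
      rw [h2] at this
      simp at this
    · rw [card_common, count_split]
      rw [hbb, inter_comm] at hvw
      have h0 := numbers_disjoint hα hB b.2 c.2 hvw
      simp only [adj_bn, adj_bp, hbb, and_self, if_false, zero_add]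
      rw [card_filter_sub (B := B) (fun u => (u ∩ b.1).card = 0 ∧ (u ∩ c.1).card = 0)]
      have e : ((bl B).filter fun u => (u ∩ b.1).card = 0 ∧ (u ∩ c.1).card = 0) =
          (bl B).filter fun u => (u ∩ (b.1 ∪ c.1)).card = 0 := by
        ext u
        simp only [mem_filter]
        rw [inter_union_distrib_left]
        simp [card_eq_zero]
      unfold nn at h0
      rw [e, h0, add_zero]
      rw [card_eq_zero, filter_eq_empty_iff]
      rintro x - ⟨h1, h2⟩
      rw [card_eq_zero] at hvw
      have : x ∈ b.1 ∩ c.1 := mem_inter.mpr ⟨h1, h2⟩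
      rw [hvw] at this
      simp at this
  · have key : ∀ v w, v ≠ w → ¬ (pointBlockGraph B).Adj v w →
      Fintype.card ((pointBlockGraph B).commonNeighbors v w) = 6 := by
      have hnb : ∀ b : B, Fintype.card ((pointBlockGraph B).commonNeighbors none (some (Sum.inr b))) = 6 := by
        intro b
        rw [card_common, count_split]
        simp [adj_nn, adj_np, adj_nb, adj_bn, adj_bp, hB.1 b.1 b.2]
      have hpb : ∀ (a : α) (b : B), a ∉ b.1 →
          Fintype.card ((pointBlockGraph B).commonNeighbors (some (Sum.inl a)) (some (Sum.inr b))) = 6 := by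
        intro a b hab
        rw [card_common, count_split]
        simp only [adj_pn, adj_bn, adj_pp, adj_bp, adj_pb, hbb, and_false, false_and, if_false,
          filter_false, card_empty, zero_add]
        rw [card_filter_sub (B := B) (fun u => a ∈ u ∧ (u ∩ b.1).card = 0)]
        exact blocks_pt_disj hα hB b.2 hab
      intro v w hne hvw
      rcases v with _ | a | b <;> rcases w with _ | a' | c
      · exact absurd rfl hne
      · exact absurd (adj_np a') hvw
      · exact hnb c
      · exact absurd (adj_pn a) hvw
      · have haa : a ≠ a' := by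
          rintro rfl
          exact hne rfl
        rw [card_common, count_split]
        simp only [adj_pn, adj_pp, adj_pb, and_self, if_true, filter_false, card_empty, zero_add]
        rw [card_filter_sub (B := B) (fun u => a ∈ u ∧ a' ∈ u), blocks_two hα hB haa]
      · rw [adj_pb] at hvw
        exact hpb a c hvw
      · rw [hsymm]; exact hnb b
      · rw [adj_bp] at hvw
        rw [hsymm]; exact hpb a' b hvw
      · have hbc : b.1 ≠ c.1 := by
          intro h
          exact hne (by rw [Subtype.ext h])
        rw [hbb, inter_comm] at hvw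
        have h2 : (b.1 ∩ c.1).card = 2 := by
          rcases inter_cases hα hB b.2 c.2 hbc with h | h
          · exact absurd h hvw
          · exact h
        have h0 := numbers_two hα hB b.2 c.2 hbc h2
        rw [card_common, count_split]
        simp only [adj_bn, adj_bp, hbb, and_self, if_false, zero_add]
        rw [card_filter_sub (B := B) (fun u => (u ∩ b.1).card = 0 ∧ (u ∩ c.1).card = 0)]
        have e : ((bl B).filter fun u => (u ∩ b.1).card = 0 ∧ (u ∩ c.1).card = 0) =
            (bl B).filter fun u => (u ∩ (b.1 ∪ c.1)).card = 0 := by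
          ext u
          simp only [mem_filter]
          rw [inter_union_distrib_left]
          simp [card_eq_zero]
        unfold nn at h0
        rw [e, h0]
        have e2 : (univ.filter fun x : α => x ∈ b.1 ∧ x ∈ c.1) = b.1 ∩ c.1 := by
          ext x; simp
        rw [e2, h2]
    exact key

end Cfsg.Agent.S0428
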