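import Mathlib
import Cfsg.Statements.S0432

set_option autoImplicit false
open Cfsg

namespace Cfsg.Agent.S0432

open scoped Pointwise

theorem inv_smul_mem {σ : Equiv.Perm GolayPt} (hσ : σ ∈ M24) {b : Finset GolayPt}
    (hb : b ∈ supports (golayCode : Set (GolayPt → ZMod 2))) :
    σ⁻¹ • b ∈ supports (golayCode : Set (GolayPt → ZMod 2)) := by
  have h : σ • supports (golayCode : Set (GolayPt → ZMod 2)) = supports (golayCode : Set (GolayPt → ZMod 2)) := hσ
  rw [← h] at hb
  exact Set.mem_smul_set_iff_inv_smul_mem.mp hb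

theorem mem_of_set {σ : Equiv.Perm GolayPt} (hσ : σ ∈ M24) {x : GolayPt → ℤ} (hx : x ∈ leechSet) :
    (fun i => x (σ i)) ∈ leechSet := by
  obtain ⟨m, h1, h2, h3⟩ := hx
  refine ⟨m, fun i => h1 (σ i), ?_, fun k => ?_⟩
  · rw [Equiv.sum_comp σ x]; exact h2
  · have := inv_smul_mem hσ (h3 k)
    have e : σ⁻¹ • (Finset.univ.filter fun i => x i ≡ k [ZMOD 4]) =
        Finset.univ.filter fun i => x (σ i) ≡ k [ZMOD 4] := by
      ext i
      rw [Finset.mem_inv_smul_finset_iff]
      simp
    rwa [e] at this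

/-- Coordinate permutations from the code's group preserve the lattice. -/
theorem result (σ : Equiv.Perm Cfsg.GolayPt) (hσ : σ ∈ Cfsg.M24) (x : Cfsg.GolayPt → ℤ) (hx : x ∈ Cfsg.leechLattice) : (fun i => x (σ i)) ∈ Cfsg.leechLattice := by
  induction hx using AddSubgroup.closure_induction with
  | mem y hy => exact AddSubgroup.subset_closure (mem_of_set hσ hy)
  | zero => exact leechLattice.zero_mem
  | add y z _ _ hy hz => exact leechLattice.add_mem hy hz
  | neg y _ hy => exact leechLattice.neg_mem hy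

end Cfsg.Agent.S0432
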