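import Mathlib
import Cfsg.Statements.S0433
import Cfsg.Agent.Lib.GolaySteiner

set_option autoImplicit false
open Cfsg

namespace Cfsg.Agent.S0433

open Cfsg.Agent.Lib.Golay

abbrev CS : Set (Finset GolayPt) := supports (golayCode : Set (GolayPt → ZMod 2))

theorem empty_mem_supports : (∅ : Finset GolayPt) ∈ CS := by
  refine ⟨0, Submodule.zero_mem _, ?_⟩
  ext p; simp [support₂]

theorem sum_mod_four {c : Finset GolayPt} (hc : c ∈ CS) {x : GolayPt → ℤ} {m : ℤ}
    (h1 : ∀ i, x i ≡ m [ZMOD 2])
    (h3 : ∀ k : ℤ, (Finset.univ.filter fun i => x i ≡ k [ZMOD 4]) ∈ CS) :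
    ∑ i ∈ c, x i ≡ 0 [ZMOD 4] := by
  set d := Finset.univ.filter fun i => x i ≡ m + 2 [ZMOD 4] with hd
  have hdc : d ∈ CS := h3 (m + 2)
  have h4 : ∀ i, x i ≡ m + 2 * (if i ∈ d then 1 else 0) [ZMOD 4] := by
    intro i
    have h5 := h1 i
    by_cases hi : i ∈ d
    · rw [if_pos hi]
      rw [hd, Finset.mem_filter] at hi
      simpa using hi.2
    · rw [if_neg hi]
      rw [hd, Finset.mem_filter] at hi
      simp only [Finset.mem_univ, true_and] at hi
      rw [Int.ModEq] at *
      omega
  have h5 : ∑ i ∈ c, x i ≡ ∑ i ∈ c, (m + 2 * (if i ∈ d then 1 else 0)) [ZMOD 4] := by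
    apply Int.ModEq.sum
    intro i _
    exact h4 i
  have h6 : ∑ i ∈ c, (m + 2 * (if i ∈ d then (1 : ℤ) else 0)) = c.card * m + 2 * ((c ∩ d).card : ℤ) := by
    rw [Finset.sum_add_distrib, ← Finset.mul_sum]
    simp [Finset.sum_ite_mem]
  rw [h6] at h5
  refine h5.trans ?_
  have h7 := card_cases hc
  have h8 := even_inter hc hdc
  obtain ⟨a, ha⟩ : ∃ a : ℕ, c.card = 4 * a := by
    rcases h7 with h | h | h | h | h <;> rw [h]
    · exact ⟨0, rfl⟩
    · exact ⟨2, rfl⟩
    · exact ⟨3, rfl⟩
    · exact ⟨4, rfl⟩
    · exact ⟨6, rfl⟩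
  obtain ⟨b, hb⟩ : ∃ b : ℕ, (c ∩ d).card = 2 * b := ⟨(c ∩ d).card / 2, by omega⟩
  rw [ha, hb]
  rw [Int.modEq_zero_iff_dvd]
  push_cast
  exact ⟨a * m + b, by ring⟩

theorem mem_of_set {c : Finset GolayPt} (hc : c ∈ CS) {x : GolayPt → ℤ} (hx : x ∈ leechSet) :
    (fun i => if i ∈ c then -x i else x i) ∈ leechSet := by
  obtain ⟨m, h1, h2, h3⟩ := hx
  refine ⟨m, fun i => ?_, ?_, fun k => ?_⟩
  · show (if i ∈ c then -x i else x i) ≡ m [ZMOD 2]
    have := h1 i
    split_ifs
    · rw [Int.ModEq] at *; omega
    · exact this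
  · have h4 := sum_mod_four hc h1 h3
    have h5 : ∑ i, (if i ∈ c then -x i else x i) = ∑ i, x i - 2 * ∑ i ∈ c, x i := by
      have : ∀ i, (if i ∈ c then -x i else x i) = x i - 2 * (if i ∈ c then x i else 0) := by
        intro i; split_ifs <;> ring
      simp_rw [this]
      rw [Finset.sum_sub_distrib, ← Finset.mul_sum]
      simp [Finset.sum_ite_mem]
    show ∑ i, (if i ∈ c then -x i else x i) ≡ 4 * m [ZMOD 8]
    rw [h5]
    rw [Int.ModEq] at *
    omega
  · show (Finset.univ.filter fun i => (if i ∈ c then -x i else x i) ≡ k [ZMOD 4]) ∈ CS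
    by_cases hk : k ≡ m [ZMOD 2]
    · rcases Int.emod_two_eq_zero_or_one m with hm | hm
      · have e : (Finset.univ.filter fun i => (if i ∈ c then -x i else x i) ≡ k [ZMOD 4]) =
            Finset.univ.filter fun i => x i ≡ k [ZMOD 4] := by
          ext i
          simp only [Finset.mem_filter, Finset.mem_univ, true_and]
          have := h1 i
          rw [Int.ModEq] at *
          split_ifs
          · rw [Int.ModEq]; omega
          · rfl
        rw [e]; exact h3 k
      · have e : (Finset.univ.filter fun i => (if i ∈ c then -x i else x i) ≡ k [ZMOD 4]) =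
            symmDiff c (Finset.univ.filter fun i => x i ≡ k [ZMOD 4]) := by
          ext i
          rw [Finset.mem_symmDiff]
          simp only [Finset.mem_filter, Finset.mem_univ, true_and]
          have := h1 i
          rw [Int.ModEq] at *
          by_cases hi : i ∈ c
          · simp only [hi, if_true, true_and, not_true_eq_false, and_false, or_false]
            rw [Int.ModEq]; omega
          · simp only [hi, if_false, false_and, not_false_eq_true, and_true, false_or]
            rw [Int.ModEq]
        rw [e]; exact symmDiff_mem_supports hc (h3 k)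
    · have e : (Finset.univ.filter fun i => (if i ∈ c then -x i else x i) ≡ k [ZMOD 4]) = ∅ := by
        rw [Finset.filter_eq_empty_iff]
        intro i _ h
        apply hk
        have := h1 i
        rw [Int.ModEq] at *
        split_ifs at h <;> omega
      rw [e]; exact empty_mem_supports

/-- Sign changes on the support of a codeword preserve the lattice. -/
theorem result (c : Finset Cfsg.GolayPt) (hc : c ∈ Cfsg.supports (Cfsg.golayCode : Set (Cfsg.GolayPt → ZMod 2))) (x : Cfsg.GolayPt → ℤ) (hx : x ∈ Cfsg.leechLattice) : (fun i => if i ∈ c then -x i else x i) ∈ Cfsg.leechLattice := by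
  induction hx using AddSubgroup.closure_induction with
  | mem y hy => exact AddSubgroup.subset_closure (mem_of_set hc hy)
  | zero =>
    have e : (fun i => if i ∈ c then -(0 : GolayPt → ℤ) i else (0 : GolayPt → ℤ) i) = 0 := by
      funext i; simp
    rw [e]; exact leechLattice.zero_mem
  | add y z _ _ hy hz =>
    have e : (fun i => if i ∈ c then -(y + z) i else (y + z) i) =
        (fun i => if i ∈ c then -y i else y i) + fun i => if i ∈ c then -z i else z i := by
      funext i
      simp only [Pi.add_apply]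
      split_ifs <;> ring
    rw [e]; exact leechLattice.add_mem hy hz
  | neg y _ hy =>
    have e : (fun i => if i ∈ c then -(-y) i else (-y) i) =
        -(fun i => if i ∈ c then -y i else y i) := by
      funext i
      simp only [Pi.neg_apply]
      split_ifs <;> ring
    rw [e]; exact leechLattice.neg_mem hy

end Cfsg.Agent.S0433
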