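import Cfsg.Statements.S0435
import Cfsg.Agent.Lib.M11E

set_option autoImplicit false
open Cfsg

namespace Cfsg.Agent.S0435

/-- Involution centralisers in a simple group of order 7920 have order 48. -/
theorem result {G : Type*} [Group G] [Finite G] (hG : Cfsg.IsM11 G) (x : G) (hx : orderOf x = 2) : Nat.card (Subgroup.centralizer ({x} : Set G)) = 48 := by
  have := hG.1
  exact Cfsg.Agent.Lib.M11ByOrder.card_centralizer_two hG.2 x hx

end Cfsg.Agent.S0435
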