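import Mathlib
import Cfsg.Statements.S0439

set_option autoImplicit false
open Cfsg

namespace Cfsg.Agent.S0439

open Equiv

theorem prod_aux {α : Type*} [DecidableEq α] [Fintype α] {d e : Perm α} (hd : d.IsSwap) (he : e.IsSwap) :
    (d * e) ^ 2 = 1 ∨ (d * e) ^ 3 = 1 := by
  obtain ⟨a, b, hab, rfl⟩ := hd
  obtain ⟨c, f, hcf, rfl⟩ := he
  have key : ∀ x y z : α, x ≠ y → x ≠ z → y ≠ z → (swap x y * swap x z) ^ 3 = 1 := by
    intro x y z h1 h2 h3
    have := Perm.isThreeCycle_swap_mul_swap_same h1 h2 h3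
    rw [← this.orderOf]
    exact pow_orderOf_eq_one _
  have comm : ∀ x y z w : α, x ≠ z → x ≠ w → y ≠ z → y ≠ w → z ≠ w → x ≠ y →
      (swap x y * swap z w) ^ 2 = 1 := by
    intro x y z w h1 h2 h3 h4 h5 h6
    have hc : Commute (swap x y) (swap z w) := by
      apply Perm.Disjoint.commute
      rw [Perm.disjoint_iff_disjoint_support, Perm.support_swap h6, Perm.support_swap h5]
      simp [Finset.disjoint_left, h1, h2, h3, h4]
    rw [hc.mul_pow, pow_two, pow_two, swap_mul_self, swap_mul_self, mul_one]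
  by_cases h1 : a = c
  · subst h1
    by_cases h2 : b = f
    · subst h2
      left; rw [swap_mul_self, one_pow]
    · right; exact key a b f hab hcf h2
  · by_cases h2 : a = f
    · subst h2
      by_cases h3 : b = c
      · subst h3
        left; rw [swap_comm b a, swap_mul_self, one_pow]
      · right; rw [swap_comm c a]; exact key a b c hab hcf.symm h3
    · by_cases h3 : b = c
      · subst h3
        right; rw [swap_comm a b]; exact key b a f hab.symm hcf h2
      · by_cases h4 : b = f
        · subst h4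
          right; rw [swap_comm a b, swap_comm c b]; exact key b a c hab.symm hcf.symm h1
        · left; exact comm a b c f h1 h2 h3 h4 hcf hab

/-- In the symmetric group of degree n ≥ 2, the set of transpositions is a conjugacy class of 3-transpositions which generates the group. -/
theorem result (n : ℕ) (hn : 2 ≤ n) : Cfsg.IsThreeTranspositionClass {σ : Equiv.Perm (Fin n) | σ.IsSwap} := by
  refine ⟨⟨fun d hd => Perm.IsSwap.orderOf hd, fun d hd e he => prod_aux hd he⟩, ?_, Perm.closure_isSwap⟩
  have h01 : (⟨0, by omega⟩ : Fin n) ≠ ⟨1, by omega⟩ := by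
    intro h; simp [Fin.ext_iff] at h
  refine ⟨swap ⟨0, by omega⟩ ⟨1, by omega⟩, ⟨_, _, h01, rfl⟩, ?_⟩
  ext σ
  show σ.IsSwap ↔ IsConj _ σ
  constructor
  · rintro ⟨x, y, hxy, rfl⟩
    exact Perm.isConj_swap h01 hxy
  · intro h
    obtain ⟨c, hc⟩ := isConj_iff.mp h
    rw [← hc]
    refine ⟨c ⟨0, by omega⟩, c ⟨1, by omega⟩, fun h => h01 (c.injective h), ?_⟩
    rw [Equiv.swap_apply_apply]

end Cfsg.Agent.S0439
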