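import Mathlib
import Cfsg.Statements.S0440
import Cfsg.Agent.Lib.SympGen

set_option autoImplicit false
open Cfsg

namespace Cfsg.Agent.S0440

open Matrix Cfsg.Agent.Lib.SympMat

abbrev F2 := ZMod 2

theorem zmod2_cases : ∀ c : F2, c = 0 ∨ c = 1 := by decide

theorem exists_form_one {n : ℕ} {u : Fin n ⊕ Fin n → F2} (hu : u ≠ 0) :
    ∃ y, sympForm n F2 u y = 1 := by
  by_contra h
  push Not at h
  apply hu
  apply eq_zero_of_sympForm
  intro v
  rcases zmod2_cases (sympForm n F2 u v) with h1 | h1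
  · exact h1
  · exact absurd h1 (h v)

theorem form_comm {n : ℕ} (u v : Fin n ⊕ Fin n → F2) : sympForm n F2 u v = sympForm n F2 v u := by
  rw [sympForm_swap u v]
  have : ∀ c : F2, -c = c := by decide
  exact this _

/-- the transvection as a group element -/
def T {n : ℕ} (v : Fin n ⊕ Fin n → F2) : symplecticGroup (Fin n) F2 :=
  ⟨sympTransvection n v 1, transvection_mem v 1⟩

theorem T_mul_self {n : ℕ} (v : Fin n ⊕ Fin n → F2) : T v * T v = 1 := by
  apply Subtype.ext
  show sympTransvection n v 1 * sympTransvection n v 1 = 1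
  rw [transvection_mul]
  have : (1 + 1 : F2) = 0 := by decide
  rw [this, sympTransvection, zero_smul, add_zero]

theorem T_ne_one {n : ℕ} {v : Fin n ⊕ Fin n → F2} (hv : v ≠ 0) : T v ≠ 1 := by
  intro h
  have h1 : sympTransvection n v 1 = 1 := congrArg Subtype.val h
  obtain ⟨y, hy⟩ := exists_form_one hv
  have h2 := congrArg (fun M : Matrix _ _ F2 => M *ᵥ y) h1
  simp only [transvection_mulVec, one_mulVec] at h2
  rw [form_comm, hy, one_mul, one_smul] at h2
  exact hv (by simpa using h2)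

theorem T_conj {n : ℕ} (A : symplecticGroup (Fin n) F2) (v : Fin n ⊕ Fin n → F2) :
    A * T v * A⁻¹ = T ((A : Matrix (Fin n ⊕ Fin n) (Fin n ⊕ Fin n) F2) *ᵥ v) := by
  rw [mul_inv_eq_iff_eq_mul]
  apply Subtype.ext
  exact transvection_conj v A.2 1

theorem T_mulVec {n : ℕ} (v x : Fin n ⊕ Fin n → F2) :
    (T v : Matrix (Fin n ⊕ Fin n) (Fin n ⊕ Fin n) F2) *ᵥ x = x + sympForm n F2 x v • v := by
  show sympTransvection n v 1 *ᵥ x = _
  rw [transvection_mulVec, one_mul]

theorem rank_T {n : ℕ} {v : Fin n ⊕ Fin n → F2} (hv : v ≠ 0) :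
    ((T v : Matrix (Fin n ⊕ Fin n) (Fin n ⊕ Fin n) F2) - 1).rank = 1 := by
  rw [Matrix.rank]
  have : LinearMap.range (((T v : Matrix (Fin n ⊕ Fin n) (Fin n ⊕ Fin n) F2) - 1).mulVecLin) = Submodule.span F2 {v} := by
    ext x
    rw [LinearMap.mem_range, Submodule.mem_span_singleton]
    constructor
    · rintro ⟨y, rfl⟩
      refine ⟨sympForm n F2 y v, ?_⟩
      rw [Matrix.mulVecLin_apply, sub_mulVec, T_mulVec, one_mulVec]
      simp
    · rintro ⟨c, rfl⟩
      obtain ⟨y, hy⟩ := exists_form_one hv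
      refine ⟨c • y, ?_⟩
      rw [Matrix.mulVecLin_apply, sub_mulVec, T_mulVec, one_mulVec, sympForm_smul_left, form_comm, hy]
      simp
  rw [this, finrank_span_singleton hv]

theorem exists_of_rank {n : ℕ} (g : symplecticGroup (Fin n) F2)
    (h : ((g : Matrix (Fin n ⊕ Fin n) (Fin n ⊕ Fin n) F2) - 1).rank = 1) : ∃ v, v ≠ 0 ∧ g = T v := by
  rw [Matrix.rank] at h
  obtain ⟨⟨u, hu'⟩, hu0, hspan⟩ := finrank_eq_one_iff'.mp h
  have hu : u ≠ 0 := fun h => hu0 (Subtype.ext h)
  have hc : ∀ x : Fin n ⊕ Fin n → F2, ∃ c : F2, (g : Matrix (Fin n ⊕ Fin n) (Fin n ⊕ Fin n) F2) *ᵥ x = x + c • u := by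
    intro x
    obtain ⟨c, hc⟩ := hspan ⟨((g : Matrix (Fin n ⊕ Fin n) (Fin n ⊕ Fin n) F2) - 1) *ᵥ x, ⟨x, rfl⟩⟩
    refine ⟨c, ?_⟩
    have h1 : c • u = ((g : Matrix (Fin n ⊕ Fin n) (Fin n ⊕ Fin n) F2) - 1) *ᵥ x := congrArg Subtype.val hc
    rw [h1, sub_mulVec, one_mulVec]
    abel
  choose c hc using hc
  have hform : ∀ x y, c x * sympForm n F2 u y = c y * sympForm n F2 u x := by
    intro x y
    have h1 := mem_iff.mp g.2 x y
    rw [hc x, hc y] at h1
    simp only [sympForm_add_left, sympForm_add_right, sympForm_smul_left, sympForm_smul_right,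
      sympForm_self] at h1
    rw [form_comm x u] at h1
    generalize sympForm n F2 u y = p at *
    generalize sympForm n F2 u x = q at *
    generalize sympForm n F2 x y = r at *
    generalize c x = s at *
    generalize c y = t at *
    revert p q r s t
    decide
  obtain ⟨y, hy⟩ := exists_form_one hu
  have h2 : ∀ x, c x = c y * sympForm n F2 u x := by
    intro x
    have := hform x y
    rwa [hy, mul_one] at this
  refine ⟨u, hu, ?_⟩
  rcases zmod2_cases (c y) with h3 | h3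
  · exfalso
    have h4 : ∀ x, ((g : Matrix (Fin n ⊕ Fin n) (Fin n ⊕ Fin n) F2) - 1) *ᵥ x = 0 := by
      intro x
      rw [sub_mulVec, one_mulVec, hc x, h2 x, h3]
      simp
    have h5 : LinearMap.range (((g : Matrix (Fin n ⊕ Fin n) (Fin n ⊕ Fin n) F2) - 1).mulVecLin) = ⊥ := by
      rw [LinearMap.range_eq_bot]
      refine LinearMap.ext fun x => ?_
      exact h4 x
    rw [h5] at h
    simp at h
  · apply Subtype.ext
    apply Matrix.ext_of_mulVec_single
    intro i
    rw [T_mulVec, hc, h2, h3, one_mul, form_comm]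

theorem mem_iff_T {n : ℕ} (g : symplecticGroup (Fin n) F2) :
    ((g : Matrix (Fin n ⊕ Fin n) (Fin n ⊕ Fin n) F2) - 1).rank = 1 ↔ ∃ v, v ≠ 0 ∧ g = T v := by
  constructor
  · exact exists_of_rank g
  · rintro ⟨v, hv, rfl⟩
    exact rank_T hv

theorem T_comm_or {n : ℕ} (u v : Fin n ⊕ Fin n → F2) : (T u * T v) ^ 2 = 1 ∨ (T u * T v) ^ 3 = 1 := by
  have hu := T_mul_self u
  have hv := T_mul_self v
  have hui : (T u)⁻¹ = T u := inv_eq_of_mul_eq_one_left hu
  have hvi : (T v)⁻¹ = T v := inv_eq_of_mul_eq_one_left hv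
  rcases zmod2_cases (sympForm n F2 v u) with h | h
  · left
    have h1 := T_conj (T u) v
    rw [T_mulVec, h, zero_smul, add_zero, hui] at h1
    have h2 : (T u * T v) ^ 2 = (T u * T v * T u) * T v := by rw [pow_two]; simp only [mul_assoc]
    rw [h2, h1, hv]
  · right
    have h1 := T_conj (T u) v
    rw [T_mulVec, h, one_smul, hui] at h1
    have h3 := T_conj (T v) u
    rw [T_mulVec, form_comm, h, one_smul, hvi] at h3
    have h4 : T u * T v * T u = T v * T u * T v := by rw [h1, h3, add_comm]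
    have h5 : (T u * T v) ^ 3 = (T u * T v * T u) * (T v * T u * T v) := by
      simp only [pow_succ, pow_zero, one_mul, mul_assoc]
    rw [h5, ← h4]
    calc T u * T v * T u * (T u * T v * T u) = T u * T v * (T u * T u) * T v * T u := by simp only [mul_assoc]
      _ = 1 := by rw [hu, mul_one, mul_assoc (T u), hv, mul_one, hu]

theorem result (n : ℕ) (hn : 1 ≤ n) : Cfsg.IsThreeTranspositionClass {g : Matrix.symplecticGroup (Fin n) (ZMod 2) | ((g : Matrix (Fin n ⊕ Fin n) (Fin n ⊕ Fin n) (ZMod 2)) - 1).rank = 1} := by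
  refine ⟨⟨?_, ?_⟩, ?_, ?_⟩
  · intro g hg
    obtain ⟨v, hv, rfl⟩ := (mem_iff_T g).mp hg
    apply orderOf_eq_prime
    · rw [pow_two]; exact T_mul_self v
    · exact T_ne_one hv
  · intro g hg k hk
    obtain ⟨v, hv, rfl⟩ := (mem_iff_T g).mp hg
    obtain ⟨w, hw, rfl⟩ := (mem_iff_T k).mp hk
    exact T_comm_or v w
  · have hne : (Pi.single (Sum.inl ⟨0, hn⟩) 1 : Fin n ⊕ Fin n → F2) ≠ 0 := by
      intro h
      have := congrFun h (Sum.inl ⟨0, hn⟩)
      simp at this
    refine ⟨T (Pi.single (Sum.inl ⟨0, hn⟩) 1), (mem_iff_T _).mpr ⟨_, hne, rfl⟩, ?_⟩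
    ext g
    show ((g : Matrix (Fin n ⊕ Fin n) (Fin n ⊕ Fin n) (ZMod 2)) - 1).rank = 1 ↔ IsConj _ g
    rw [mem_iff_T]
    constructor
    · rintro ⟨v, hv, rfl⟩
      obtain ⟨A, hA⟩ := Cfsg.Agent.Lib.SympGen.witt_family (F := F2) (m := n) (n := 1)
        (fun _ => (Pi.single (Sum.inl ⟨0, hn⟩) 1 : Fin n ⊕ Fin n → F2)) (fun _ => v)
        (LinearIndependent.of_subsingleton (0 : Fin 1) hne) (LinearIndependent.of_subsingleton (0 : Fin 1) hv)
        (by intro i j; rw [sympForm_self, sympForm_self])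
      rw [isConj_iff]
      refine ⟨A, ?_⟩
      rw [T_conj, hA 0]
    · intro h
      obtain ⟨A, hA⟩ := isConj_iff.mp h
      rw [T_conj] at hA
      refine ⟨_, ?_, hA.symm⟩
      intro h0
      apply hne
      have h1 := congrArg (fun x => ((A⁻¹ : symplecticGroup (Fin n) F2) : Matrix (Fin n ⊕ Fin n) (Fin n ⊕ Fin n) F2) *ᵥ x) h0
      simp only [mulVec_mulVec, mulVec_zero] at h1
      have h2 : ((A⁻¹ : symplecticGroup (Fin n) F2) : Matrix (Fin n ⊕ Fin n) (Fin n ⊕ Fin n) F2) * (A : Matrix (Fin n ⊕ Fin n) (Fin n ⊕ Fin n) F2) = 1 := by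
        have : A⁻¹ * A = 1 := inv_mul_cancel A
        exact congrArg Subtype.val this
      rw [h2, one_mulVec] at h1
      exact h1
  · rw [eq_top_iff, ← Cfsg.Agent.Lib.SympGen.closure_transvections n F2, Subgroup.closure_le]
    rintro A ⟨w, c, hA⟩
    rcases zmod2_cases c with hc | hc
    · have : A = 1 := by
        apply Subtype.ext
        rw [hA, hc, sympTransvection, zero_smul, add_zero]; rfl
      rw [this]
      exact Subgroup.one_mem _
    · by_cases hw : w = 0
      · have : A = 1 := by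
          apply Subtype.ext
          rw [hA, hw, sympTransvection]
          simp
        rw [this]
        exact Subgroup.one_mem _
      · apply Subgroup.subset_closure
        apply (mem_iff_T A).mpr
        refine ⟨w, hw, ?_⟩
        apply Subtype.ext
        rw [hA, hc]; rfl

end Cfsg.Agent.S0440
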