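import Mathlib
import Cfsg.Statements.S0442

set_option autoImplicit false
open Cfsg

namespace Cfsg.Agent.S0442

theorem conj_pow_aux {G : Type*} [Group G] (a b : G) (ha : a * a = 1) (hb : b * b = 1) (m : ℕ) :
    (a * b) ^ m * a = a * ((a * b) ^ m)⁻¹ := by
  have h1 : a * (a * b) * a⁻¹ = (a * b)⁻¹ := by
    have ha' : a⁻¹ = a := inv_eq_of_mul_eq_one_left ha
    have hb' : b⁻¹ = b := inv_eq_of_mul_eq_one_left hb
    rw [mul_inv_rev, ha', hb', ← mul_assoc, ha, one_mul]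
  have h2 : a * (a * b) ^ m * a⁻¹ = ((a * b) ^ m)⁻¹ := by
    rw [← conj_pow, h1, inv_pow]
  have ha' : a⁻¹ = a := inv_eq_of_mul_eq_one_left ha
  rw [← h2, ha', ← mul_assoc, ← mul_assoc, ha, one_mul]

theorem result {G : Type*} [Group G] (a g : G) (ha : orderOf a = 2) : (∀ m : ℕ, orderOf (a * (g⁻¹ * a * g)) = 2 * m + 1 → Commute (g * (a * (g⁻¹ * a * g)) ^ m) a) ∧ (∀ m : ℕ, orderOf (a * (g⁻¹ * a * g)) = 2 * m → Commute ((a * (g⁻¹ * a * g)) ^ m) a ∧ Commute ((a * (g * a * g⁻¹)) ^ m) a) := by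
  have haa : a * a = 1 := by
    have := pow_orderOf_eq_one a
    rw [ha, pow_two] at this
    exact this
  have hb : (g⁻¹ * a * g) * (g⁻¹ * a * g) = 1 := by
    calc (g⁻¹ * a * g) * (g⁻¹ * a * g) = g⁻¹ * (a * a) * g := by group
      _ = 1 := by rw [haa]; group
  have hb2 : (g * a * g⁻¹) * (g * a * g⁻¹) = 1 := by
    calc (g * a * g⁻¹) * (g * a * g⁻¹) = g * (a * a) * g⁻¹ := by group
      _ = 1 := by rw [haa]; group
  refine ⟨fun m hm => ?_, fun m hm => ⟨?_, ?_⟩⟩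
  · have hx : (a * (g⁻¹ * a * g)) ^ (2 * m + 1) = 1 := by rw [← hm]; exact pow_orderOf_eq_one _
    set b := g⁻¹ * a * g with hbdef
    have hgb : a * g = g * b := by rw [hbdef]; group
    have h1 := conj_pow_aux a b haa hb m
    have h2 : ((a * b) ^ m)⁻¹ = (a * b) ^ (m + 1) := by
      rw [inv_eq_iff_mul_eq_one, ← pow_add, ← hx]
      congr 1; ring
    show g * (a * b) ^ m * a = a * (g * (a * b) ^ m)
    rw [mul_assoc, h1, h2, ← mul_assoc a g, hgb, mul_assoc, pow_succ', ← mul_assoc a (a * b),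
      ← mul_assoc a a b, haa, one_mul]
  · have hx : (a * (g⁻¹ * a * g)) ^ (2 * m) = 1 := by rw [← hm]; exact pow_orderOf_eq_one _
    have h1 := conj_pow_aux a (g⁻¹ * a * g) haa hb m
    show _ * a = a * _
    rw [h1]
    congr 1
    rw [inv_eq_iff_mul_eq_one, ← pow_add, ← hx]
    congr 1; ring
  · have hx : (a * (g⁻¹ * a * g)) ^ (2 * m) = 1 := by rw [← hm]; exact pow_orderOf_eq_one _
    have hy : (a * (g * a * g⁻¹)) ^ (2 * m) = 1 := by
      have : a * (g * a * g⁻¹) = g * (a * (g⁻¹ * a * g))⁻¹ * g⁻¹ := by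
        have ha' : a⁻¹ = a := inv_eq_of_mul_eq_one_left haa
        calc a * (g * a * g⁻¹) = a⁻¹ * (g * a⁻¹ * g⁻¹) := by rw [ha']
          _ = g * (a * (g⁻¹ * a * g))⁻¹ * g⁻¹ := by group
      rw [this, conj_pow, inv_pow, hx]; simp
    have h1 := conj_pow_aux a (g * a * g⁻¹) haa hb2 m
    show _ * a = a * _
    rw [h1]
    congr 1
    rw [inv_eq_iff_mul_eq_one, ← pow_add, ← hy]
    congr 1; ring

end Cfsg.Agent.S0442
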