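import Mathlib
import Cfsg.Statements.S0443

set_option autoImplicit false
open Cfsg

namespace Cfsg.Agent.S0443

/-- Two definitions of a 2-central involution agree. -/
theorem result {G : Type*} [Group G] [Finite G] (t : G) (ht : orderOf t = 2) : Cfsg.IsTwoCentralInvolution t ↔ ∃ P : Sylow 2 G, (P : Subgroup G) ≤ Subgroup.centralizer ({t} : Set G) := by
  constructor
  · rintro ⟨-, P, -, hP⟩
    refine ⟨P, fun x hx => ?_⟩
    rw [Subgroup.mem_centralizer_singleton_iff]
    exact hP x hx
  · rintro ⟨P, hP⟩
    refine ⟨ht, P, ?_, ?_⟩
    · have h2 : IsPGroup 2 (Subgroup.zpowers t) := by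
        apply IsPGroup.of_card (n := 1)
        rw [Nat.card_zpowers, ht]; norm_num
      have hnorm : Subgroup.zpowers t ≤ Subgroup.normalizer ((P : Subgroup G) : Set G) := by
        rw [Subgroup.zpowers_le]
        rw [Subgroup.mem_normalizer_iff]
        intro h
        constructor
        · intro hh
          have h1 := hP hh
          rw [Subgroup.mem_centralizer_singleton_iff] at h1
          have : t * h * t⁻¹ = h := by rw [← h1]; group
          rwa [this]
        · intro hh
          have h1 := hP hh
          rw [Subgroup.mem_centralizer_singleton_iff] at h1
          have h3 : t * h = h * t := by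
            have h4 : t * h * t⁻¹ * t = t * (t * h * t⁻¹) := h1
            simp only [inv_mul_cancel_right] at h4
            have h5 : h = t * h * t⁻¹ := by
              have := congrArg (fun z => t⁻¹ * z) h4
              simp only [inv_mul_cancel_left] at this
              exact this
            nth_rewrite 2 [h5]
            group
          have : t * h * t⁻¹ = h := by rw [h3]; group
          rwa [this] at hh
      have h3 : IsPGroup 2 ((P : Subgroup G) ⊔ Subgroup.zpowers t : Subgroup G) :=
        P.isPGroup'.to_sup_of_normal_left' h2 hnorm
      have h4 := P.is_maximal' h3 le_sup_left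
      have h5 : t ∈ ((P : Subgroup G) ⊔ Subgroup.zpowers t : Subgroup G) :=
        Subgroup.mem_sup_right (Subgroup.mem_zpowers t)
      rw [h4] at h5
      exact h5
    · intro x hx
      have := hP hx
      rw [Subgroup.mem_centralizer_singleton_iff] at this
      exact this

end Cfsg.Agent.S0443
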