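import Mathlib
import Cfsg.Statements.S0446

set_option autoImplicit false
open Cfsg

namespace Cfsg.Agent.S0446

/-- Every finite group of even order contains a 2-central involution, i.e. an element of order 2 in the centre of some Sylow 2-subgroup. -/
theorem result {G : Type*} [Group G] [Finite G] (h : Even (Nat.card G)) : ∃ t : G, Cfsg.IsTwoCentralInvolution t := by
  haveI : Fact (Nat.Prime 2) := ⟨Nat.prime_two⟩
  obtain ⟨P⟩ : Nonempty (Sylow 2 G) := inferInstance
  have hdvd : 2 ∣ Nat.card P := P.dvd_card_of_dvd_card (even_iff_two_dvd.mp h)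
  haveI : Nontrivial (P : Subgroup G) := by
    rw [← Finite.one_lt_card_iff_nontrivial]
    exact lt_of_lt_of_le one_lt_two (Nat.le_of_dvd Nat.card_pos hdvd)
  haveI : Nontrivial (Subgroup.center (P : Subgroup G)) := P.isPGroup'.center_nontrivial
  have h2 : IsPGroup 2 (Subgroup.center (P : Subgroup G)) := P.isPGroup'.to_subgroup _
  obtain ⟨n, hn⟩ := IsPGroup.iff_card.mp h2
  have hn0 : n ≠ 0 := by
    rintro rfl
    have := Finite.one_lt_card (α := Subgroup.center (P : Subgroup G))
    rw [hn] at this
    simp at this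
  have hdvd2 : 2 ∣ Nat.card (Subgroup.center (P : Subgroup G)) := by
    rw [hn]; exact dvd_pow_self 2 hn0
  obtain ⟨z, hz⟩ := exists_prime_orderOf_dvd_card' 2 hdvd2
  refine ⟨((z : (P : Subgroup G)) : G), ?_, P, (z : (P : Subgroup G)).2, ?_⟩
  · rw [Subgroup.orderOf_coe, Subgroup.orderOf_coe, hz]
  · intro x hx
    have := Subgroup.mem_center_iff.mp z.2 ⟨x, hx⟩
    exact congrArg Subtype.val this

end Cfsg.Agent.S0446
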