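import Cfsg.Statements.S0458
import Cfsg.Agent.Lib.JThreePerm

set_option autoImplicit false
open Cfsg

namespace Cfsg.Agent.S0458

/-- Janko's third group exists as a transitive permutation group of degree 6156 with point stabiliser of order 8160: a simple group of order 50232960. -/
theorem result : ∃ H : Subgroup (Equiv.Perm (Fin 6156)), Cfsg.IsJ3 H ∧ MulAction.IsPretransitive H (Fin 6156) ∧ Nat.card (MulAction.stabilizer H (0 : Fin 6156)) = 8160 := by
  have hs := Cfsg.Agent.Lib.JThree.simple_quot
  obtain ⟨H, ⟨e⟩, ht⟩ := Cfsg.Agent.Lib.JThree.exists_perm Cfsg.Agent.Lib.JThree.BJ Cfsg.Agent.Lib.JThree.index_BJ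
    (by norm_num)
  have hc : Nat.card H = 50232960 := by
    rw [← Nat.card_congr e.toEquiv]; exact Cfsg.Agent.Lib.JThree.card_quot
  refine ⟨H, ⟨e.symm.isSimpleGroup, hc⟩, ht, ?_⟩
  have h1 := MulAction.index_stabilizer_of_transitive H (0 : Fin 6156)
  rw [Nat.card_eq_fintype_card, Fintype.card_fin] at h1
  have h2 := (MulAction.stabilizer H (0 : Fin 6156)).card_mul_index
  rw [h1, hc] at h2
  omega

end Cfsg.Agent.S0458
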