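import Cfsg.Statements.S0459
import Cfsg.Agent.Lib.H8RuLine

set_option autoImplicit false
open Cfsg

namespace Cfsg.Agent.S0459

/-- The Rudvalis group exists as a transitive permutation group of degree 4060: simple of order 145926144000, with point stabiliser of order 35942400 containing a simple subgroup of order 17971200 (the order of the Tits group). -/
theorem result : ∃ H : Subgroup (Equiv.Perm (Fin 4060)), Cfsg.IsRu H ∧ MulAction.IsPretransitive H (Fin 4060) ∧ Nat.card (MulAction.stabilizer H (0 : Fin 4060)) = 35942400 ∧ ∃ T : Subgroup (MulAction.stabilizer H (0 : Fin 4060)), Cfsg.IsTits T :=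
  ⟨Cfsg.Agent.Lib.H8Ru.HL, ⟨Cfsg.Agent.Lib.H8Ru.HL_simple, Cfsg.Agent.Lib.H8Ru.card_HL⟩,
    Cfsg.Agent.Lib.H8Ru.HL_trans, Cfsg.Agent.Lib.H8Ru.card_stab, Cfsg.Agent.Lib.H8Ru.exists_tits⟩

end Cfsg.Agent.S0459
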