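import Cfsg.Statements.S0460
import Cfsg.Agent.Lib.ONJ
import Cfsg.Agent.Lib.FinAct

set_option autoImplicit false
open Cfsg

namespace Cfsg.Agent.S0460

/-- The O'Nan group exists as a transitive permutation group of degree 122760: simple of order 460815505920, point stabiliser of order 3753792, and containing simple subgroups of orders 175560 and 7920. -/
theorem result : ∃ H : Subgroup (Equiv.Perm (Fin 122760)), Cfsg.IsON H ∧ MulAction.IsPretransitive H (Fin 122760) ∧ Nat.card (MulAction.stabilizer H (0 : Fin 122760)) = 3753792 ∧ (∃ K : Subgroup H, Cfsg.IsJ1 K) ∧ (∃ K : Subgroup H, Cfsg.IsM11 K) := by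
  obtain ⟨hs, hc, φ, hφ, hinj, hb⟩ := Cfsg.Agent.Lib.ONOrd.main
  obtain ⟨φ', f, hφ', _, _, hpres, _, horb, _⟩ := Cfsg.Agent.Lib.ONWIdx.main _ rfl
  have hφφ : φ' = φ := by
    have hcl := Cfsg.Agent.Lib.ONWIdx.gen_top
    refine MonoidHom.eq_of_eqOn_dense hcl ?_
    rintro _ ⟨W, hW, rfl⟩
    obtain ⟨c, _, rfl⟩ := List.mem_map.mp hW
    exact (hφ' c).trans (hφ c).symm
  subst hφφ
  let ρ := Cfsg.Agent.Lib.FinAct.toFin φ' 122760 hpres
  have hρ : Function.Injective ρ := Cfsg.Agent.Lib.FinAct.toFin_inj φ' 122760 hpres (bs := _) (by decide) hb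
  have e := Cfsg.Agent.Lib.FinAct.simple_range ρ hρ hs hc
  have hpt : MulAction.IsPretransitive ρ.range (Fin 122760) :=
    Cfsg.Agent.Lib.FinAct.pretransitive φ' 122760 hpres (fun j hj => (horb j).mpr hj)
  obtain ⟨ψ, hψ⟩ := Cfsg.Agent.Lib.ONJ.homJ
  obtain ⟨χ, hχ⟩ := Cfsg.Agent.Lib.ONJ.homM
  refine ⟨ρ.range, e, hpt, Cfsg.Agent.Lib.FinAct.card_stab ρ.range e.2 (by norm_num), ?_, ?_⟩
  · refine ⟨((ρ.rangeRestrict).comp ψ).range, ?_⟩
    exact Cfsg.Agent.Lib.FinAct.simple_range _ (fun a b h => hψ (hρ (congrArg Subtype.val h))) Cfsg.Agent.Lib.J1POrd.main.1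
      Cfsg.Agent.Lib.J1POrd.main.2.1
  · refine ⟨((ρ.rangeRestrict).comp χ).range, ?_⟩
    exact Cfsg.Agent.Lib.FinAct.simple_range _ (fun a b h => hχ (hρ (congrArg Subtype.val h))) Cfsg.Agent.Lib.M11POrd.main.1
      Cfsg.Agent.Lib.M11POrd.main.2.1

end Cfsg.Agent.S0460
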