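import Cfsg.Statements.S0462
import Cfsg.Agent.Lib.HeSp
import Cfsg.Agent.Lib.PermReal

set_option autoImplicit false
open Cfsg

namespace Cfsg.Agent.S0462

/-- The Held group exists as a transitive permutation group of degree 2058: simple of order 4030387200, with point stabiliser containing, with index 2, a copy of the 4-dimensional symplectic group over the field with four elements. -/
theorem result : ∃ H : Subgroup (Equiv.Perm (Fin 2058)), Cfsg.IsHe H ∧ MulAction.IsPretransitive H (Fin 2058) ∧ ∃ (F : Type) (_ : Field F) (_ : Fintype F), Fintype.card F = 4 ∧ ∃ N : Subgroup (MulAction.stabilizer H (0 : Fin 2058)), N.index = 2 ∧ Nonempty (N ≃* Matrix.symplecticGroup (Fin 2) F) := by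
  obtain ⟨hsimp, hcard, -⟩ := Cfsg.Agent.Lib.HeOrd.main
  have hfin : Finite (Cfsg.Spor.CoxPresented Cfsg.Spor.He.Gen Cfsg.Spor.He.edges Cfsg.Spor.He.extra) :=
    Nat.finite_of_card_ne_zero (by rw [hcard]; norm_num)
  obtain ⟨N, -, hN2, ⟨e2⟩⟩ := Cfsg.Agent.Lib.HeSp.main _ rfl
  obtain ⟨_, _, _, _, _, _, _, _, _, _, hidx, _⟩ := Cfsg.Agent.Lib.HeAIdx.main _ rfl
  generalize Subgroup.closure (Cfsg.Agent.Lib.CoxBridge.wset (Cfsg.Agent.Lib.CosetGroup.CoxData.x Cfsg.Agent.Lib.HeRel.C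
      Cfsg.Agent.Lib.HeA.L0) Cfsg.Agent.Lib.HeA.WS) = H at N hN2 e2 hidx
  obtain ⟨P, ⟨φ⟩, ht, ⟨ψ⟩⟩ := Cfsg.Agent.Lib.PermReal.main hsimp H hidx (by
    rintro rfl
    rw [Subgroup.index_top] at hidx
    exact absurd hidx (by norm_num))
  have hsP : IsSimpleGroup P := φ.symm.isSimpleGroup
  refine ⟨P, ⟨hsP, by rw [← hcard]; exact (Nat.card_congr φ.toEquiv).symm⟩, ht, Cfsg.Agent.Lib.K4.K4, inferInstance, inferInstance,
    Cfsg.Agent.Lib.K4.card_K4, N.map ψ.toMonoidHom, ?_, ⟨?_⟩⟩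
  · rw [← hN2]
    exact Subgroup.index_map_of_bijective ψ.bijective N
  · exact (ψ.subgroupMap N).symm.trans e2

end Cfsg.Agent.S0462
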