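import Cfsg.Statements.S0463
import Cfsg.Agent.Lib.HNA12
-- import your own Cfsg.Agent.* helpers here

set_option autoImplicit false
open Cfsg

namespace Cfsg.Agent.S0463

/-- The Harada–Norton group exists as a transitive permutation group of degree 1140000: simple of order 273030912000000 with point stabiliser isomorphic to the alternating group of degree 12. -/
theorem result : ∃ H : Subgroup (Equiv.Perm (Fin 1140000)), Cfsg.IsHN H ∧ MulAction.IsPretransitive H (Fin 1140000) ∧ Nonempty (MulAction.stabilizer H (0 : Fin 1140000) ≃* alternatingGroup (Fin 12)) := by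
  obtain ⟨A, ⟨e⟩⟩ := Cfsg.Agent.Lib.HNPH.alt12
  have hA : Nat.card A = 239500800 := by
    rw [Nat.card_congr e.toEquiv]
    have : Nontrivial (Fin 12) := inferInstance
    have h1 := two_mul_nat_card_alternatingGroup (α := Fin 12)
    rw [Nat.card_perm, Nat.card_fin] at h1
    have h2 : Nat.factorial 12 = 479001600 := by decide +kernel
    omega
  have hidx : A.index = 1140000 := by
    have h1 := A.card_mul_index
    rw [Cfsg.Agent.Lib.HNPH.card_HN, hA] at h1
    omega
  obtain ⟨H, ⟨f⟩, h2, ⟨g⟩⟩ := Cfsg.Agent.Lib.HNAlt.coset_real Cfsg.Agent.Lib.HNPH.simple_HN A 1140000 (by norm_num) hidx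
  have hs : IsSimpleGroup Cfsg.Spor.HN := Cfsg.Agent.Lib.HNPH.simple_HN
  exact ⟨H, ⟨MulEquiv.isSimpleGroup f.symm, by rw [← Nat.card_congr f.toEquiv, Cfsg.Agent.Lib.HNPH.card_HN]⟩, h2, ⟨g.trans e⟩⟩

end Cfsg.Agent.S0463
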