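import Cfsg.Statements.S0464
import Cfsg.Agent.Lib.ThFin

set_option autoImplicit false
open Cfsg

namespace Cfsg.Agent.S0464

/-- The Thompson group exists as a group of 248 × 248 matrices over the field with three elements: a simple subgroup of GL(248, 3) of order 90745943887872000, possessing a subgroup of index 143127000 which contains a simple subgroup of the order of a triality-twisted D4 group. -/
theorem result : ∃ H : Subgroup (GL (Fin 248) (ZMod 3)), Cfsg.IsTh H ∧ ∃ K : Subgroup H, K.index = 143127000 ∧ ∃ L : Subgroup H, L ≤ K ∧ Cfsg.Is3D4 L := by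
  exact Cfsg.Agent.Lib.ThGL.matrix_real Cfsg.Agent.Lib.ThFin.isTh Cfsg.Agent.Lib.ThFin.index_P4

end Cfsg.Agent.S0464
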