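import Cfsg.Statements.S0471
import Cfsg.Agent.Lib.Fi22Real
import Cfsg.Agent.Lib.Fi22U6

set_option autoImplicit false
open Cfsg

namespace Cfsg.Agent.S0471

/-- The Fischer group of order 64561751654400 exists as a 3-transposition group: a simple group of that order generated by a conjugacy class of 3510 3-transpositions, the centraliser of each being a non-split double cover of PSU(6, 2). -/
theorem result : ∃ (G : Type) (_ : Group G) (_ : Finite G), Cfsg.IsFi22 G ∧ ∃ D : Set G, Cfsg.IsThreeTranspositionClass D ∧ Nat.card D = 3510 ∧ ∀ d ∈ D, ∃ (F : Type) (_ : Field F) (_ : Fintype F), Fintype.card F = 4 ∧ Cfsg.IsNonsplitDoubleCover (Subgroup.centralizer ({d} : Set G)) (Cfsg.PSU 6 F 2) := by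
  obtain ⟨h1, h2, -⟩ := Cfsg.Agent.Lib.Fi22Ord.main
  obtain ⟨h3, h4, h5⟩ := Cfsg.Agent.Lib.Fi22Real.main _ rfl
  have hfin : Finite (Cfsg.Spor.CoxPresented Cfsg.Spor.Fi22.Gen Cfsg.Spor.Fi22.edges Cfsg.Spor.Fi22.extra) :=
    Nat.finite_of_card_ne_zero (by rw [h2]; norm_num)
  refine ⟨_, inferInstance, hfin, ⟨h1, h2⟩, _, h3, h4, fun d hd => ⟨Cfsg.Agent.Lib.K4.K4, inferInstance, inferInstance,
    Cfsg.Agent.Lib.K4.card_K4, ?_⟩⟩
  obtain ⟨e⟩ := h5 d hd
  exact Cfsg.Agent.Lib.ThreeReal.dc_congr e (Cfsg.Agent.Lib.Fi22U6.main _ rfl)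

end Cfsg.Agent.S0471
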