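import Cfsg.Statements.S0475
import Cfsg.Agent.Lib.ThCCov
import Cfsg.Agent.Lib.ThFin

set_option autoImplicit false
open Cfsg

namespace Cfsg.Agent.S0475

open Cfsg.Spor Cfsg.Agent.Lib.ThP Cfsg.Agent.Lib.ThDRun Cfsg.Agent.Lib.Dce Cfsg.Agent.Lib.ThGlue in
theorem cov : Cfsg.Agent.Lib.ThCMain.Cov := by
  obtain ⟨ψ, h0, h1, h2, h3, h4, h5, h7, hr⟩ := exists_psi relPTh
  have hr' : ψ.range = P := hr
  obtain ⟨hf, hcard, c, hc0, hinv, hcov, hfix⟩ := Cfsg.Agent.Lib.ThXMain.upper ψ (PresentedGroup.of Th.Gen.u : Th)⁻¹ P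
    (phG twTh relPTh h0 h1 h2 h3 h4 h5 h7)
    (relsG relUTh relPTh h0 h1 h2 h3 h4 h5 h7)
    (by
      intro K hK ht
      apply gen_top
      have e0 := hK (xs 0)
      have e1 := hK (xs 1)
      have e2 := hK (xs 2)
      have e3 := hK (xs 3)
      have e4 := hK (xs 4)
      have e5 := hK (xs 5)
      have e7 := hK (xs 7)
      rw [h0] at e0
      rw [h1] at e1
      rw [h2] at e2
      rw [h3] at e3
      rw [h4] at e4
      rw [h5] at e5
      rw [h7] at e7
      have eu := K.inv_mem ht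
      rw [inv_inv] at eu
      intro x
      cases x
      · exact e0
      · exact e1
      · exact e2
      · exact e3
      · exact e4
      · exact e5
      · exact e7
      · exact eu)
    (by
      intro s _
      rw [← hr']
      exact ⟨xs s, rfl⟩)
  exact Cfsg.Agent.Lib.ThCCov.cov_of h0 h1 h2 h3 h4 h5 h7 hr' hinv hc0 hcov

/-- In some simple group of the Thompson group's order there is an involution whose centraliser C has a normal extraspecial subgroup Q of order 2 ^ 9 such that C / Q is isomorphic to the alternating group of degree 9. -/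
theorem result : ∃ (G : Type) (_ : Group G) (_ : Finite G), Cfsg.IsTh G ∧ ∃ z : G, orderOf z = 2 ∧ ∃ (Q : Subgroup (Subgroup.centralizer ({z} : Set G))) (_ : Q.Normal), Nat.card Q = 2 ^ 9 ∧ Cfsg.IsExtraspecial 2 Q ∧ Nonempty ((Subgroup.centralizer ({z} : Set G)) ⧸ Q ≃* alternatingGroup (Fin 9)) :=
  Cfsg.Agent.Lib.ThCMain.main Cfsg.Agent.Lib.ThFin.isTh cov

end Cfsg.Agent.S0475
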