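import Mathlib
import Cfsg.Statements.S0481

set_option autoImplicit false
open Cfsg

namespace Cfsg.Agent.S0481

theorem result {G : Type*} [Group G] [Finite G] (z : G) (hz : orderOf z = 2) (Q : Subgroup G) (hQC : Q ≤ Subgroup.centralizer ({z} : Set G)) (hQn : ∀ g ∈ Subgroup.centralizer ({z} : Set G), ∀ q ∈ Q, g * q * g⁻¹ ∈ Q) (hQ2 : IsPGroup 2 Q) (hZ : Nat.card (Subgroup.center Q) = 2) (hsq : ∀ x : Q, x ^ 2 ∈ Subgroup.center Q) (hlarge : Subgroup.centralizer (Q : Set G) ≤ Q) : (∃ P : Sylow 2 G, (P : Subgroup G) ≤ Subgroup.centralizer ({z} : Set G)) ∧ ∀ u : G, orderOf u = 2 → (∃ P : Sylow 2 G, (P : Subgroup G) ≤ Subgroup.centralizer ({u} : Set G)) → IsConj z u := by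
  haveI : Fact (Nat.Prime 2) := ⟨Nat.prime_two⟩
  have hz1 : z ≠ 1 := by rintro rfl; simp at hz
  -- z centralises Q
  have hzQ : z ∈ Subgroup.centralizer (Q : Set G) := by
    rw [Subgroup.mem_centralizer_iff]
    intro q hq
    have := hQC hq
    rw [Subgroup.mem_centralizer_singleton_iff] at this
    exact this
  -- every nontrivial element of the centraliser of Q is z
  have key : ∀ x ∈ Subgroup.centralizer (Q : Set G), x = 1 ∨ x = z := by
    intro x hx
    have toZ : ∀ y (hy : y ∈ Subgroup.centralizer (Q : Set G)), (⟨y, hlarge hy⟩ : Q) ∈ Subgroup.center Q := by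
      intro y hy
      rw [Subgroup.mem_center_iff]
      intro g
      apply Subtype.ext
      exact (Subgroup.mem_centralizer_iff.mp hy) g g.2
    have h1 := toZ x hx
    have h2 := toZ z hzQ
    by_contra hcon
    push Not at hcon
    have h3 : Nat.card (Subgroup.center Q) ≥ 3 := by
      let a : Subgroup.center Q := ⟨⟨x, hlarge hx⟩, h1⟩
      let b : Subgroup.center Q := ⟨⟨z, hlarge hzQ⟩, h2⟩
      have hab : a ≠ b := fun h => hcon.2 (congrArg (fun t : Subgroup.center Q => ((t : Q) : G)) h)
      have ha1 : a ≠ 1 := fun h => hcon.1 (congrArg (fun t : Subgroup.center Q => ((t : Q) : G)) h)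
      have hb1 : b ≠ 1 := fun h => hz1 (congrArg (fun t : Subgroup.center Q => ((t : Q) : G)) h)
      haveI := Fintype.ofFinite (Subgroup.center Q)
      classical
      rw [Nat.card_eq_fintype_card]
      have : ({a, b, 1} : Finset (Subgroup.center Q)).card = 3 := by
        rw [Finset.card_insert_of_notMem, Finset.card_insert_of_notMem, Finset.card_singleton]
        · simpa using hb1
        · simp [hab, ha1]
      rw [← this]
      exact Finset.card_le_univ _
    omega
  have key2 : ∀ T : Sylow 2 G, Q ≤ (T : Subgroup G) → (T : Subgroup G) ≤ Subgroup.centralizer ({z} : Set G) := by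
    intro T hT
    have hnt : Nontrivial (T : Subgroup G) := by
      rw [Subgroup.nontrivial_iff_exists_ne_one]
      exact ⟨z, hT (hlarge hzQ), hz1⟩
    haveI := hnt
    haveI : Nontrivial (Subgroup.center (T : Subgroup G)) := T.isPGroup'.center_nontrivial
    obtain ⟨c, hc⟩ := exists_ne (1 : Subgroup.center (T : Subgroup G))
    have hcG : ((c : (T : Subgroup G)) : G) ∈ Subgroup.centralizer (Q : Set G) := by
      rw [Subgroup.mem_centralizer_iff]
      intro q hq
      have := Subgroup.mem_center_iff.mp c.2 ⟨q, hT hq⟩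
      exact congrArg Subtype.val this
    rcases key _ hcG with h | h
    · exfalso; apply hc
      apply Subtype.ext; apply Subtype.ext; exact h
    · intro t ht
      rw [Subgroup.mem_centralizer_singleton_iff]
      rw [← h]
      have := Subgroup.mem_center_iff.mp c.2 ⟨t, ht⟩
      exact congrArg Subtype.val this
  obtain ⟨T, hT⟩ := hQ2.exists_le_sylow
  refine ⟨⟨T, key2 T hT⟩, ?_⟩
  rintro u hu ⟨S, hS⟩
  obtain ⟨g, hg⟩ := MulAction.exists_smul_eq G S T
  have hconj : g * u * g⁻¹ ∈ Subgroup.centralizer (Q : Set G) := by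
    rw [Subgroup.mem_centralizer_iff]
    intro q hq
    have hqT : q ∈ (T : Subgroup G) := hT hq
    rw [← hg] at hqT
    rw [Sylow.coe_subgroup_smul] at hqT
    rw [Subgroup.mem_pointwise_smul_iff_inv_smul_mem] at hqT
    have h1 := hS hqT
    rw [Subgroup.mem_centralizer_singleton_iff] at h1
    rw [MulAut.smul_def, ← map_inv, MulAut.conj_apply, inv_inv] at h1
    have h2 : q * (g * u * g⁻¹) = g * ((g⁻¹ * q * g) * u) * g⁻¹ := by group
    rw [h2, h1]; group
  rcases key _ hconj with h | h
  · exfalso
    have : u = 1 := by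
      have h2 : g⁻¹ * (g * u * g⁻¹) * g = u := by group
      rw [← h2, h]; group
    rw [this] at hu
    simp at hu
  · exact IsConj.symm (isConj_iff.mpr ⟨g, h⟩)

end Cfsg.Agent.S0481
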