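import Cfsg.Statements.S0499
import Cfsg.Agent.S0992
import Cfsg.Agent.Lib.Transfer

set_option autoImplicit false
open Cfsg

namespace Cfsg.Agent.S0499

open Cfsg.Agent.Lib.SmallSimple Cfsg.Agent.Lib.Transfer Cfsg.Agent.Lib.PNilp

/-- an automorphism of a group of order dividing 8 whose order is prime to 2, 3 and 7 is trivial -/
theorem aut_trivial {Q : Type*} [Group Q] [Finite Q] (hQ : Nat.card Q ∣ 8) (σ : MulAut Q)
    (h2 : ¬ 2 ∣ orderOf σ) (h3 : ¬ 3 ∣ orderOf σ) (h7 : ¬ 7 ∣ orderOf σ) : σ = 1 := by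
  have hcase : Nat.card Q = 1 ∨ Nat.card Q = 2 ∨ Nat.card Q = 4 ∨ Nat.card Q = 8 := by
    obtain ⟨k, hk, hk'⟩ := (Nat.dvd_prime_pow Nat.prime_two (m := 3)).1 (by simpa using hQ)
    interval_cases k <;> simp_all
  have h1 : orderOf σ ∣ 5040 := by
    refine (orderOf_dvd_natCard σ).trans ((card_mulAut_dvd_factorial Q).trans ?_)
    rcases hcase with h | h | h | h <;> rw [h] <;> decide
  have hcop : Nat.Coprime (orderOf σ) (2 ^ 4 * 3 ^ 2 * 7) := by
    refine Nat.Coprime.mul_right (Nat.Coprime.mul_right ?_ ?_) ?_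
    · exact Nat.Coprime.pow_right _ ((Nat.Prime.coprime_iff_not_dvd Nat.prime_two).2 h2).symm
    · exact Nat.Coprime.pow_right _ ((Nat.Prime.coprime_iff_not_dvd Nat.prime_three).2 h3).symm
    · exact ((Nat.Prime.coprime_iff_not_dvd (by norm_num)).2 h7).symm
  have h5 : orderOf σ ∣ 5 := by
    have : orderOf σ ∣ (2 ^ 4 * 3 ^ 2 * 7) * 5 := by simpa using h1
    exact hcop.dvd_of_dvd_mul_left this
  have : Fact (Nat.Prime 5) := ⟨by norm_num⟩
  have hpg : IsPGroup 5 (Subgroup.zpowers σ) := by
    intro ⟨x, hx⟩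
    obtain ⟨k, rfl⟩ := Subgroup.mem_zpowers_iff.1 hx
    refine ⟨1, ?_⟩
    apply Subtype.ext
    simp only [pow_one, SubmonoidClass.mk_pow, Subgroup.coe_one]
    rw [← zpow_natCast, zpow_comm, zpow_natCast, orderOf_dvd_iff_pow_eq_one.1 h5, one_zpow]
  let F : Subgroup Q :=
    { carrier := {x | σ x = x}
      one_mem' := map_one σ
      mul_mem' := by
        intro a b ha hb
        change σ (a * b) = a * b
        rw [map_mul, show σ a = a from ha, show σ b = b from hb]
      inv_mem' := by
        intro a ha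
        change σ a⁻¹ = a⁻¹
        rw [map_inv, show σ a = a from ha] }
  have hmod := hpg.card_modEq_card_fixedPoints Q
  have hF : (MulAction.fixedPoints (Subgroup.zpowers σ) Q : Set Q) = (F : Set Q) := by
    ext x
    constructor
    · intro hx
      exact hx ⟨σ, Subgroup.mem_zpowers σ⟩
    · intro hx y
      obtain ⟨y, hy⟩ := y
      have hle : Subgroup.zpowers σ ≤ MulAction.stabilizer (MulAut Q) x := by
        rw [Subgroup.zpowers_le]
        exact hx
      exact hle hy
  rw [hF] at hmod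
  have hFd : Nat.card F ∣ Nat.card Q := Subgroup.card_subgroup_dvd_card F
  have hFQ : Nat.card F = Nat.card Q := by
    change Nat.card Q ≡ Nat.card F [MOD 5] at hmod
    have hle : Nat.card F ≤ Nat.card Q := Nat.le_of_dvd Nat.card_pos hFd
    rcases hcase with h | h | h | h <;> rw [h] at hmod hFd hle ⊢ <;>
      interval_cases hc : Nat.card F <;> revert hmod hFd <;> decide
  have htop : F = ⊤ := Subgroup.eq_top_of_card_eq F hFQ
  ext x
  have : x ∈ F := by rw [htop]; trivial
  exact this

theorem key {G : Type*} [Group G] [Finite G] [IsSimpleGroup G]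
    (hG : ¬ IsMulCommutative G) (h8 : 8 ∣ Nat.card G) (h16 : ¬ 16 ∣ Nat.card G) (h3 : ¬ 3 ∣ Nat.card G)
    (h7 : ¬ 7 ∣ Nat.card G) : False := by
  obtain ⟨P⟩ : Nonempty (Sylow 2 G) := inferInstance
  have h2 : 2 ∣ Nat.card G := (show 2 ∣ 8 by norm_num).trans h8
  have hP : Nat.card (P : Subgroup G) ∣ 8 := by
    rw [P.card_eq_multiplicity]
    have hlt : (Nat.card G).factorization 2 < 4 := by
      by_contra hcon
      push Not at hcon
      exact h16 (by simpa using (Nat.Prime.pow_dvd_iff_le_factorization Nat.prime_two Nat.card_pos.ne').2 hcon)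
    have : (8 : ℕ) = 2 ^ 3 := by norm_num
    rw [this]
    exact Nat.pow_dvd_pow 2 (by omega)
  have hcompl : HasNormalPComplement 2 G := by
    rw [hasNormalPComplement_iff_le_sylow P]
    intro Q hQ g hg hgo
    have h1 := aut_trivial (Q := Q) ((Subgroup.card_dvd_of_le hQ).trans hP)
      (Q.normalizerMonoidHom ⟨g, hg⟩) ?_ ?_ ?_
    · have h2 : (⟨g, hg⟩ : Subgroup.normalizer (Q : Set G)) ∈ Q.normalizerMonoidHom.ker := h1
      rw [Subgroup.normalizerMonoidHom_ker] at h2
      exact h2
    · intro h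
      have := h.trans ((orderOf_map_dvd _ _).trans (dvd_of_eq (Subgroup.orderOf_mk g hg)))
      rw [Nat.coprime_comm, Nat.Prime.coprime_iff_not_dvd Nat.prime_two] at hgo
      exact hgo this
    · intro h
      have := h.trans ((orderOf_map_dvd _ _).trans (dvd_of_eq (Subgroup.orderOf_mk g hg)))
      exact h3 (this.trans (orderOf_dvd_natCard g))
    · intro h
      have := h.trans ((orderOf_map_dvd _ _).trans (dvd_of_eq (Subgroup.orderOf_mk g hg)))
      exact h7 (this.trans (orderOf_dvd_natCard g))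
  rw [hasNormalPComplement_iff] at hcompl
  obtain ⟨N, hN, hN2, k, hk⟩ := hcompl
  rcases IsSimpleGroup.eq_bot_or_eq_top_of_normal N hN with h1 | h1
  · rw [h1, Subgroup.index_bot] at hk
    have hpg : IsPGroup 2 G := IsPGroup.of_card hk
    have hnt : Nontrivial (Subgroup.center G) := hpg.center_nontrivial
    rcases IsSimpleGroup.eq_bot_or_eq_top_of_normal (Subgroup.center G) inferInstance with h4 | h4
    · exact (Subgroup.nontrivial_iff_ne_bot _).1 hnt h4
    · apply hG
      refine ⟨⟨fun a b => ?_⟩⟩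
      have ha : a ∈ Subgroup.center G := by rw [h4]; trivial
      exact (Subgroup.mem_center_iff.1 ha b).symm
  · apply hN2
    rw [h1]
    simpa using h2

/-- A non-abelian finite simple group of even order has order divisible by 12, 16 or 56. -/
theorem result {G : Type*} [Group G] [Finite G] [IsSimpleGroup G]
    (hG : ¬ IsMulCommutative G) (h2 : Even (Nat.card G)) :
    12 ∣ Nat.card G ∨ 16 ∣ Nat.card G ∨ 56 ∣ Nat.card G := by
  by_cases h8 : 8 ∣ Nat.card G
  · by_cases h16 : 16 ∣ Nat.card G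
    · exact Or.inr (Or.inl h16)
    by_cases h3 : 3 ∣ Nat.card G
    · left
      have : Nat.Coprime 8 3 := by norm_num
      have h24 := this.mul_dvd_of_dvd_of_dvd h8 h3
      exact (show 12 ∣ 8 * 3 by norm_num).trans h24
    by_cases h7 : 7 ∣ Nat.card G
    · right; right
      have : Nat.Coprime 8 7 := by norm_num
      exact this.mul_dvd_of_dvd_of_dvd h8 h7
    exact (key hG h8 h16 h3 h7).elim
  · obtain ⟨T⟩ : Nonempty (Sylow 2 G) := inferInstance
    obtain ⟨hT, hidx⟩ := Cfsg.Agent.S0992.result hG h2 h8 T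
    left
    have h4 : 4 ∣ Nat.card G := hT.card_four ▸ Subgroup.card_subgroup_dvd_card (T : Subgroup G)
    have h3 : 3 ∣ Nat.card G := by
      rw [← hidx]
      exact (Subgroup.relIndex_dvd_card _ _).trans (Subgroup.card_subgroup_dvd_card _)
    have : Nat.Coprime 4 3 := by norm_num
    exact this.mul_dvd_of_dvd_of_dvd h4 h3

end Cfsg.Agent.S0499
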