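import Cfsg.Statements.S0501
import Cfsg.Agent.Lib.H81Mac6
import Cfsg.Agent.Lib.SectRank

set_option autoImplicit false
open Cfsg

namespace Cfsg.Agent.S0501

/-- A finite 2-group in which every normal elementary abelian subgroup has order at most 4 has sectional rank at most
4: every quotient of every subgroup has no elementary abelian subgroup of order exceeding 16. -/
theorem result {P : Type*} [Group P] [Finite P] (hP : IsPGroup 2 P)
    (h : ∀ A : Subgroup P, A.Normal → IsMulCommutative A → (∀ a ∈ A, a ^ 2 = 1) → Nat.card A ≤ 4) :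
    Cfsg.SectionalPRankLE 2 4 P := by
  have hno : ∀ E : Subgroup P, E.Normal → (∀ a ∈ E, ∀ b ∈ E, a * b = b * a) → (∀ a ∈ E, a ^ 2 = 1) →
      Nat.card E ≤ 4 := by
    intro E hE hc h2
    refine h E hE ⟨⟨?_⟩⟩ h2
    rintro ⟨a, ha⟩ ⟨b, hb⟩
    exact Subtype.ext (hc a ha b hb)
  refine Cfsg.Agent.Lib.SectRank.sectional_of_rankIn ?_
  intro N H hNH _ hsq hcm
  by_contra hcon
  push Not at hcon
  haveI : Fact (Nat.Prime 2) := ⟨Nat.prime_two⟩
  obtain ⟨n, hn⟩ := (hP.to_subgroup H).index (N.subgroupOf H)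
  have h1 : N.relIndex H = 2 ^ n := hn
  have h2 : 5 ≤ n := by
    by_contra hlt
    have : 2 ^ n ≤ 2 ^ 4 := Nat.pow_le_pow_right (by norm_num) (by omega)
    omega
  have h3 : 32 ≤ N.relIndex H := by
    rw [h1]
    calc 32 = 2 ^ 5 := by norm_num
      _ ≤ 2 ^ n := Nat.pow_le_pow_right (by norm_num) h2
  have h4 := Cfsg.Agent.Lib.H81Mac4.card_mul_rel hNH
  refine Cfsg.Agent.Lib.H81Mac6.main hP hno H N hNH hsq hcm ?_
  rw [← h4, mul_comm]
  exact Nat.mul_le_mul_left _ h3

end Cfsg.Agent.S0501
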