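import Cfsg.Statements.S0505
import Cfsg.Agent.Lib.Cores2
import Cfsg.Agent.Lib.CoprimeAction2
import Cfsg.Agent.Lib.PCoreTools

set_option autoImplicit false
open Cfsg

namespace Cfsg.Agent.S0505

open Subgroup
open scoped commutatorElement

theorem commute_of_inf_eq_bot {G : Type*} [Group G] {A B : Subgroup G} (hAB : A ⊓ B = ⊥)
    {a b : G} (ha : a ∈ A) (hb : b ∈ B) (hn1 : a ∈ normalizer (B : Set G)) (hn2 : b ∈ normalizer (A : Set G)) :
    a * b = b * a := by
  have h1 : a * b * a⁻¹ * b⁻¹ ∈ A ⊓ B := by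
    constructor
    · have : b * a⁻¹ * b⁻¹ ∈ A := (mem_normalizer_iff.1 hn2 _).1 (A.inv_mem ha)
      have h := A.mul_mem ha this
      simpa [mul_assoc] using h
    · have : a * b * a⁻¹ ∈ B := (mem_normalizer_iff.1 hn1 _).1 hb
      exact B.mul_mem this (B.inv_mem hb)
  rw [hAB, mem_bot] at h1
  have := mul_inv_eq_one.1 h1
  rw [mul_inv_eq_iff_eq_mul] at this
  exact this

/-- Let G be a finite group of even order in which the centralizer of every involution is solvable and has trivial
core (no nontrivial normal subgroup of odd order). Then G is of characteristic 2 type. -/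
theorem result {G : Type*} [Group G] [Finite G]
    (h2 : Even (Nat.card G))
    (hs : ∀ t : G, orderOf t = 2 → Group.IsSolvable (Subgroup.centralizer ({t} : Set G)))
    (hc : ∀ t : G, orderOf t = 2 → Cfsg.oddCore (Subgroup.centralizer ({t} : Set G)) = ⊥) :
    Cfsg.IsCharacteristicTwoType G := by
  refine ⟨h2, ?_⟩
  intro T hT hTb
  have hp2 : Fact (Nat.Prime 2) := inferInstance
  -- an involution in the centre of T
  obtain ⟨t, htT, ht, htc⟩ : ∃ t ∈ T, orderOf t = 2 ∧ ∀ x ∈ T, x * t = t * x := by
    have hnt : Nontrivial T := (Subgroup.nontrivial_iff_ne_bot T).2 hTb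
    have hz : Nontrivial (center T) := hT.center_nontrivial
    have hzp : IsPGroup 2 (center T) := hT.to_subgroup _
    have hcard : 2 ∣ Nat.card (center T) := by
      obtain ⟨k, hk⟩ := IsPGroup.iff_card.1 hzp
      rw [hk]
      apply dvd_pow_self
      rintro rfl
      rw [pow_zero] at hk
      exact (Finite.one_lt_card (α := center T)).ne' hk
    obtain ⟨z, hz⟩ := exists_prime_orderOf_dvd_card' 2 hcard
    refine ⟨((z : T) : G), (z : T).2, by rw [Subgroup.orderOf_coe, Subgroup.orderOf_coe]; exact hz, ?_⟩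
    intro x hx
    have := mem_center_iff.1 z.2 ⟨x, hx⟩
    exact congrArg Subtype.val this
  obtain ⟨N, hN⟩ : ∃ N, N = normalizer (T : Set G) := ⟨_, rfl⟩
  obtain ⟨C, hC⟩ : ∃ C, C = centralizer ({t} : Set G) := ⟨_, rfl⟩
  have hCs : Group.IsSolvable C := hC ▸ hs t ht
  have hCc : pPrimeCore 2 C = ⊥ := by subst hC; exact hc t ht
  have hTN : T ≤ N := hN ▸ le_normalizer
  have hTC : T ≤ C := by
    intro x hx
    rw [hC, mem_centralizer_singleton_iff]
    exact htc x hx
  have hCTC : centralizer (T : Set G) ≤ C := by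
    rw [hC]; exact centralizer_le (by simpa using htT)
  have hCTN : centralizer (T : Set G) ≤ N := hN ▸ centralizer_le_normalizer _
  obtain ⟨U, hU⟩ : ∃ U, U = (pCore 2 C).map C.subtype := ⟨_, rfl⟩
  have hUC : U ≤ C := by rw [hU]; exact map_subtype_le _
  have hUp : IsPGroup 2 U := by rw [hU]; exact (Cfsg.Agent.Lib.Cores.isPGroup_pCore 2 C).map _
  have hCU : C ≤ normalizer (U : Set G) := by
    rw [hU]
    have := Cfsg.Agent.Lib.Cores.pCore_characteristic 2 C
    have : (pCore 2 C).Normal := inferInstance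
    exact Cfsg.Agent.Lib.Cores.le_normalizer_map_subtype _
  have hcU : ∀ x ∈ C, x ∈ centralizer (U : Set G) → x ∈ U := by
    intro x hx hxU
    rw [hU]
    refine ⟨⟨x, hx⟩, ?_, rfl⟩
    apply Cfsg.Agent.Lib.Cores.centralizer_pCore_le (p := 2) hCc
    rw [mem_centralizer_iff]
    intro y hy
    apply Subtype.ext
    exact (mem_centralizer_iff.1 hxU) y (by rw [hU]; exact ⟨y, hy, rfl⟩)
  -- step 2
  have step2 : ∀ K : Subgroup G, K ≤ N → N ≤ normalizer (K : Set G) → (Nat.card K).Coprime 2 → K = ⊥ := by
    intro K hKN hNK hK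
    have hK' : ¬ 2 ∣ Nat.card K := fun h => by
      have := Nat.dvd_gcd h (dvd_refl 2)
      rw [hK] at this
      omega
    have hTK : T ⊓ K = ⊥ := Cfsg.Agent.Lib.PCoreTools.inf_eq_bot_of_isPGroup hT hK'
    have hKT : K ≤ centralizer (T : Set G) := by
      intro k hk
      rw [mem_centralizer_iff]
      intro x hx
      exact commute_of_inf_eq_bot hTK hx hk (hNK (hTN hx)) (hN ▸ hKN hk)
    have hKC : K ≤ C := hKT.trans hCTC
    have hUK : U ⊓ K = ⊥ := Cfsg.Agent.Lib.PCoreTools.inf_eq_bot_of_isPGroup hUp hK'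
    have h1 := Cfsg.Agent.Lib.CoprimeAction2.thompson_PxQ (P := T) (Q := K) hT hK (by
        rw [le_centralizer_iff]; exact hKT) _ U rfl hUp (hTC.trans hCU) (hKC.trans hCU) (by
        intro u hu
        rw [mem_centralizer_iff]
        intro k hk
        exact (commute_of_inf_eq_bot hUK hu.1 hk (hNK (hCTN hu.2)) (hCU (hKC hk))).symm)
    have h2 : K ≤ U := fun k hk => hcU k (hKC hk) (h1 hk)
    rw [← hUK, right_eq_inf]
    exact h2
  -- step 3
  have main : centralizer (pCore 2 N : Set N) ≤ pCore 2 N := by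
    obtain ⟨D, hD⟩ : ∃ D : Subgroup N, D = centralizer (pCore 2 N : Set N) := ⟨_, rfl⟩
    have hTp : T.subgroupOf N ≤ pCore 2 N := by
      apply Cfsg.Agent.Lib.Cores.le_pCore
      · subst hN; infer_instance
      · exact hT.comap_subtype
    have hDT : D.map N.subtype ≤ centralizer (T : Set G) := by
      rintro _ ⟨d, hd, rfl⟩
      rw [mem_centralizer_iff]
      intro x hx
      have hd' : d ∈ centralizer (pCore 2 N : Set N) := hD ▸ hd
      have := (mem_centralizer_iff.1 hd') ⟨x, hTN hx⟩ (hTp (by simpa [mem_subgroupOf] using hx))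
      exact congrArg Subtype.val this
    have hDn : D.Normal := by
      rw [hD]
      have := Cfsg.Agent.Lib.Cores.pCore_characteristic 2 N
      infer_instance
    have hDs : Group.IsSolvable D := by
      have h1 : Group.IsSolvable ((D.map N.subtype : Subgroup G)) := by
        have hle : D.map N.subtype ≤ C := hDT.trans hCTC
        exact Group.isSolvable_of_isSolvable_injective (Subgroup.inclusion_injective hle)
      have e := D.equivMapOfInjective N.subtype N.subtype_injective
      exact Group.isSolvable_of_isSolvable_injective (f := e.toMonoidHom) e.injective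
    have hDc : pPrimeCore 2 D = ⊥ := by
      have h1 := Cfsg.Agent.Lib.Cores.pPrimeCore_characteristic 2 D
      have h2 : ((pPrimeCore 2 D).map D.subtype).Normal :=
        Cfsg.Agent.Lib.Cores.normal_map_subtype_of_characteristic _
      have h3 := step2 (((pPrimeCore 2 D).map D.subtype).map N.subtype) (map_subtype_le _)
        (Cfsg.Agent.Lib.Cores.le_normalizer_map_subtype _) (by
          rw [Cfsg.Agent.Lib.Cores.card_map_subtype, Cfsg.Agent.Lib.Cores.card_map_subtype]
          exact Cfsg.Agent.Lib.Cores.coprime_card_pPrimeCore 2 D)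
      rw [map_eq_bot_iff_of_injective _ N.subtype_injective, map_eq_bot_iff_of_injective _ D.subtype_injective] at h3
      exact h3
    have h1 : centralizer (pCore 2 D : Set D) ≤ pCore 2 D := Cfsg.Agent.Lib.Cores.centralizer_pCore_le (p := 2) hDc
    have h2 : (pCore 2 D).map D.subtype ≤ pCore 2 N := Cfsg.Agent.Lib.Cores.map_pCore_subtype_le 2 D
    have h3 : pCore 2 D = ⊤ := by
      rw [eq_top_iff]
      refine le_trans ?_ h1
      intro d _
      rw [mem_centralizer_iff]
      intro x hx
      have hd' : (d : N) ∈ centralizer (pCore 2 N : Set N) := hD ▸ d.2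
      have := (mem_centralizer_iff.1 hd') x (h2 ⟨x, hx, rfl⟩)
      exact Subtype.ext this
    rw [h3] at h2
    rw [← hD]
    intro d hd
    exact h2 ⟨⟨d, hd⟩, trivial, rfl⟩
  subst hN
  exact main

end Cfsg.Agent.S0505
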