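import Cfsg.Statements.S0520
import Cfsg.Agent.Lib.FourConn

set_option autoImplicit false
open Cfsg

namespace Cfsg.Agent.S0520

/-- Let G be a finite group of 2-rank at least 2 and S a Sylow 2-subgroup whose commuting graph of Klein four-subgroups is
connected. Then the commuting graph of Klein four-subgroups of G is disconnected if and only if the 2-generated core — the
subgroup generated by the normalizers N_G(Q) of the subgroups Q of S that contain a Klein four-group — is a proper
subgroup of G. -/
theorem result {G : Type*} [Group G] [Finite G] (h2 : ¬ Cfsg.PRankLE 2 1 G)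
    (S : Sylow 2 G) (hS : Cfsg.IsFourConnected (S : Subgroup G)) :
    ¬ Cfsg.IsFourConnected G ↔
      (⨆ Q : {Q : Subgroup G // Q ≤ (S : Subgroup G) ∧ ¬ Cfsg.PRankLE 2 1 Q},
          Subgroup.normalizer ((Q : Subgroup G) : Set G)) ≠ ⊤ := by
  exact Cfsg.Agent.Lib.FourConn.not_isFourConnected_iff h2 S hS

end Cfsg.Agent.S0520
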