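import Cfsg.Statements.S0521
import Cfsg.Agent.Lib.OddCycComm

set_option autoImplicit false
open Cfsg

namespace Cfsg.Agent.S0521

open Subgroup Cfsg.Agent.Lib


/-- Let X be a finite solvable group of odd order, p a prime and S a Sylow p-subgroup of X whose commutator subgroup is
cyclic. Then the product of the largest normal subgroup of X of order prime to p with S is a normal subgroup of X. -/
theorem result {X : Type*} [Group X] [Finite X] [Group.IsSolvable X]
    (hX : Odd (Nat.card X)) (p : ℕ) [Fact p.Prime] (S : Sylow p X) (hS : IsCyclic (commutator (S : Subgroup X))) :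
    (Cfsg.pPrimeCore p X ⊔ (S : Subgroup X)).Normal := by
  set N := Cfsg.pPrimeCore p X with hN
  by_cases hp2 : p = 2
  · subst hp2
    have h1 : (S : Subgroup X) = ⊥ := by
      obtain ⟨n, hn⟩ := IsPGroup.iff_card.1 S.isPGroup'
      have h3 := Subgroup.card_subgroup_dvd_card (S : Subgroup X)
      rw [hn] at h3
      rcases n with _ | n
      · exact Subgroup.card_eq_one.1 hn
      · exfalso
        have h4 : 2 ∣ Nat.card X := (dvd_pow_self 2 (Nat.succ_ne_zero n)).trans h3
        rw [Nat.odd_iff] at hX
        omega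
    rw [h1, sup_bot_eq]
    infer_instance
  · have hodd' : Odd (Nat.card (X ⧸ N)) := Odd.of_dvd_nat hX (Subgroup.card_quotient_dvd_card N)
    have hsurj := QuotientGroup.mk'_surjective N
    set S' : Sylow p (X ⧸ N) := S.mapSurjective hsurj with hS'
    have hcoe : (S' : Subgroup (X ⧸ N)) = (S : Subgroup X).map (QuotientGroup.mk' N) := Sylow.coe_mapSurjective _ _
    have hcyc : IsCyclic (commutator ↥(S' : Subgroup (X ⧸ N))) := by
      let f : ↥(S : Subgroup X) →* ↥(S' : Subgroup (X ⧸ N)) :=
        ((QuotientGroup.mk' N).comp (S : Subgroup X).subtype).codRestrict (S' : Subgroup (X ⧸ N)) (fun x => by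
          rw [hcoe]; exact mem_map_of_mem _ x.2)
      have hf : Function.Surjective f := by
        rintro ⟨y, hy⟩
        have hy' : y ∈ (S : Subgroup X).map (QuotientGroup.mk' N) := hcoe ▸ hy
        obtain ⟨x, hx, rfl⟩ := hy'
        exact ⟨⟨x, hx⟩, rfl⟩
      have h1 : (commutator ↥(S : Subgroup X)).map f = commutator ↥(S' : Subgroup (X ⧸ N)) := by
        rw [_root_.commutator_def, Subgroup.map_commutator, Subgroup.map_top_of_surjective f hf]; rfl
      rw [← h1]
      exact isCyclic_of_surjective _ (f.subgroupMap_surjective (commutator ↥(S : Subgroup X)))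
    have h2 := OddCycComm.sylow_le (Y := X ⧸ N) hodd' hp2 (Cores.pPrimeCore_quotient_pPrimeCore p X) S' hcyc
    have h3 : (S' : Subgroup (X ⧸ N)) = Cfsg.pCore p (X ⧸ N) := le_antisymm h2 (Cores.pCore_le_sylow S')
    have h4 : N ⊔ (S : Subgroup X) = (Cfsg.pCore p (X ⧸ N)).comap (QuotientGroup.mk' N) := by
      rw [← h3, hcoe, Subgroup.comap_map_eq, QuotientGroup.ker_mk', sup_comm]
    rw [h4]
    infer_instance


end Cfsg.Agent.S0521
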