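import Cfsg.Statements.S1480
import Cfsg.Agent.Lib.TransConstr
import Cfsg.Agent.Lib.BG07

set_option autoImplicit false
open Cfsg

namespace Cfsg.Agent.S1480

open Subgroup Cfsg.Agent.Lib Cfsg.Agent.Lib.SigCon Cfsg.Agent.Lib.TransConstr

theorem result {G : Type*} [Group G] [Finite G] (p : ℕ) [Fact p.Prime]
    (hloc : ∀ T : Subgroup G, IsPGroup p T → T ≠ ⊥ → Cfsg.IsPConstrained p ↥(Subgroup.normalizer (T : Set G)))
    (h2 : p = 2 → ∀ S : Sylow p G, Group.IsNilpotent (S : Subgroup G) ∧ Group.nilpotencyClass (S : Subgroup G) ≤ 2)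
    (E : Subgroup G) (hEp : IsPGroup p E) (hEc : IsMulCommutative E) (hE3 : ¬ Cfsg.PRankLE p 2 E)
    (hEfull : ∀ x ∈ Subgroup.centralizer (E : Set G), IsPGroup p (Subgroup.zpowers x) → x ∈ E)
    (q : ℕ) [Fact q.Prime] (hqp : q ≠ p) :
    ∀ Q₁ ∈ Cfsg.maxInvSubgroups ⊤ E {q}, ∀ Q₂ ∈ Cfsg.maxInvSubgroups ⊤ E {q},
        ∃ k ∈ Cfsg.piCoreOf (Cfsg.primesNotDvd p) (Subgroup.centralizer (E : Set G)), Q₂ = Q₁.map (MulAut.conj k).toMonoidHom := by
  classical
  have hp : Fact p.Prime := inferInstance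
  have hq : Fact q.Prime := inferInstance
  have hEc' : E ≤ centralizer (E : Set G) := by
    intro x hx
    rw [mem_centralizer_iff]
    intro y hy
    exact congrArg Subtype.val (hEc.is_comm.comm (⟨y, hy⟩ : E) ⟨x, hx⟩)
  have hs : SelfCent p E := by
    rintro x hx ⟨k, hk⟩
    apply hEfull x hx
    exact IsPGroup.of_card (n := (orderOf x).factorization p) (by
      rw [Nat.card_zpowers]
      have h1 := orderOf_dvd_of_pow_eq_one hk
      obtain ⟨j, -, hj⟩ := (Nat.dvd_prime_pow hp.out).mp h1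
      rw [hj, Nat.Prime.factorization_pow hp.out, Finsupp.single_eq_same])
  obtain ⟨B, hBE, hBc, hBe, hBr⟩ := BG07.exists_elementary_of_not_pRankLE hE3
  have hB : IsElementaryAbelian p B := by
    refine ⟨⟨⟨fun a b => Subtype.ext (hBc a a.2 b b.2)⟩⟩, hBe⟩
  have hcopq : ∀ Q : Subgroup G, IsPGroup q Q → (Nat.card Q).Coprime p := by
    intro Q hQ
    obtain ⟨k, hk⟩ := hQ.exists_card_eq
    rw [hk]
    exact Nat.Coprime.pow_left k ((Nat.coprime_primes hq.out hp.out).2 hqp)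
  have hinv : ∀ e ∈ E, e ≠ 1 → ∀ Q : Subgroup G, IsPGroup q Q → Q ≤ normalizer (zpowers e : Set G) →
      E ≤ normalizer (Q : Set G) → Q ≤ oOf p (normalizer (zpowers e : Set G)) := by
    intro e he he1 Q hQ hQN hEQ
    have hez : IsPGroup p (zpowers e) := hEp.to_le (zpowers_le.mpr he)
    have hcon := hloc (zpowers e) hez (by rwa [Ne, zpowers_eq_bot])
    have hEN : E ≤ normalizer (zpowers e : Set G) := by
      intro x hx
      refine Subgroup.centralizer_le_normalizer _ ?_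
      rw [mem_centralizer_iff]
      intro y hy
      exact mem_centralizer_iff.mp (hEc' hx) y (zpowers_le.mpr he hy)
    by_cases hp2 : p = 2
    · refine le_oOf_class_two ?_ hcon hEN hQN hEp hs (hcopq Q hQ) hEQ
      intro T hT
      obtain ⟨S, hS⟩ := hT.exists_le_sylow
      obtain ⟨hnil, hcl⟩ := h2 hp2 S
      have h3 : ⁅⁅(S : Subgroup G), (S : Subgroup G)⁆, (S : Subgroup G)⁆ = ⊥ :=
        Subgroup.lowerCentralSeries_eq_bot_of_nilpotencyClass_le hcl
      rw [eq_bot_iff, ← h3]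
      exact commutator_mono (commutator_mono hS hS) hS
    · exact le_oOf_odd hp2 hcon hEN hQN hEp hs (hcopq Q hQ) hEQ
  have hmax : ∀ Q ∈ maxInvSubgroups ⊤ E {q}, SigTrans.IsMax q E Q := by
    intro Q hQ
    refine ⟨(PiCoreOf.isPi_singleton_iff hq.out).mp hQ.1.2.1, hQ.1.2.2, ?_⟩
    intro Q' hQ' hEQ' hle
    exact (hQ.2 Q' ⟨le_top, (PiCoreOf.isPi_singleton_iff hq.out).mpr hQ', hEQ'⟩ hle).le
  intro Q₁ h₁ Q₂ h₂
  obtain ⟨c, hc, hcQ⟩ := transitive hq.out hqp hEp hEc' hs hBE hB hBr hinv _ Q₁ Q₂ (hmax Q₁ h₁) (hmax Q₂ h₂) rfl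
  refine ⟨c, ?_, hcQ.symm⟩
  refine PiCoreOf.le_piCoreOf (oOf_le _) (le_normalizer_oOf _) ?_ hc
  intro r hr hrd
  refine ⟨hr, ?_⟩
  intro hrp
  have h1 := coprime_card_oOf (p := p) (centralizer (E : Set G))
  rw [(Nat.prime_dvd_prime_iff_eq hr hp.out).mp hrp] at hrd
  exact (Nat.Prime.coprime_iff_not_dvd hp.out).mp h1.symm hrd

end Cfsg.Agent.S1480
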