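import Cfsg.Statements.S0522
import Mathlib
import Cfsg.Agent.S1480
import Cfsg.Agent.Lib.SigP

set_option autoImplicit false
open Cfsg

namespace Cfsg.Agent.S0522

/-- Transitivity Theorem (odd-order setting). Let X be a finite group of odd order in which the normalizer of every
nontrivial p-subgroup is solvable, P a Sylow p-subgroup, and B an abelian subgroup of P, normalized by P, with
C_P(B) = B and containing an elementary abelian subgroup of order p^3. Then for every prime q ≠ p, any two q-subgroups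
that are maximal among the q-subgroups normalized by B are conjugate by an element of the centralizer of B. -/
theorem result {X : Type*} [Group X] [Finite X] (hX : Odd (Nat.card X)) (p : ℕ)
    [Fact p.Prime] (hloc : ∀ T : Subgroup X, IsPGroup p T → T ≠ ⊥ → Group.IsSolvable (Subgroup.normalizer (T : Set X)))
    (P : Sylow p X) (B : Subgroup X) (hBP : B ≤ (P : Subgroup X))
    (hBn : ∀ x ∈ (P : Subgroup X), ∀ b ∈ B, x * b * x⁻¹ ∈ B) (hBa : IsMulCommutative B)
    (hBc : (P : Subgroup X) ⊓ Subgroup.centralizer (B : Set X) = B)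
    (hB3 : ∃ E : Subgroup X, E ≤ B ∧ (∀ e ∈ E, e ^ p = 1) ∧ p ^ 3 ≤ Nat.card E)
    (q : ℕ) [Fact q.Prime] (hqp : q ≠ p) (Q₁ Q₂ : Subgroup X)
    (h₁ : IsPGroup q Q₁ ∧ B ≤ Subgroup.normalizer (Q₁ : Set X) ∧
      ∀ R : Subgroup X, IsPGroup q R → B ≤ Subgroup.normalizer (R : Set X) → Q₁ ≤ R → R = Q₁)
    (h₂ : IsPGroup q Q₂ ∧ B ≤ Subgroup.normalizer (Q₂ : Set X) ∧
      ∀ R : Subgroup X, IsPGroup q R → B ≤ Subgroup.normalizer (R : Set X) → Q₂ ≤ R → R = Q₂) :
    ∃ c ∈ Subgroup.centralizer (B : Set X), Q₂ = Q₁.map (MulAut.conj c).toMonoidHom := by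
  classical
  have hp : p.Prime := Fact.out
  have hq : q.Prime := Fact.out
  have hBp : IsPGroup p B := P.isPGroup'.to_le hBP
  have hBN : (P : Subgroup X) ≤ Subgroup.normalizer (B : Set X) := by
    intro x hx
    rw [Subgroup.mem_normalizer_iff]
    intro b
    refine ⟨fun hb => hBn x hx b hb, fun hb => ?_⟩
    have h1 := hBn x⁻¹ (inv_mem hx) _ hb
    have h2 : x⁻¹ * (x * b * x⁻¹) * x⁻¹⁻¹ = b := by group
    rwa [h2] at h1
  have hfull : ∀ x ∈ Subgroup.centralizer (B : Set X), IsPGroup p (Subgroup.zpowers x) → x ∈ B := by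
    intro x hx hxp
    set N := Subgroup.normalizer (B : Set X) with hN
    have hxN : Subgroup.zpowers x ≤ N := by
      rw [Subgroup.zpowers_le]
      exact Subgroup.centralizer_le_normalizer _ hx
    let P' : Sylow p N := P.subtype hBN
    have hR : IsPGroup p ((Subgroup.zpowers x).subgroupOf N) := hxp.comap_subtype
    obtain ⟨Q', hQ'⟩ := hR.exists_le_sylow
    obtain ⟨n, hn⟩ := MulAction.exists_smul_eq N Q' P'
    have hxQ : (⟨x, hxN (Subgroup.mem_zpowers x)⟩ : N) ∈ (Q' : Subgroup N) := hQ' (Subgroup.mem_zpowers x)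
    have h1 : n * ⟨x, hxN (Subgroup.mem_zpowers x)⟩ * n⁻¹ ∈ (P' : Subgroup N) := by
      have : n * ⟨x, hxN (Subgroup.mem_zpowers x)⟩ * n⁻¹ ∈ (n • Q' : Sylow p N) := by
        rw [Sylow.smul_def]; exact ⟨_, hxQ, rfl⟩
      rwa [hn] at this
    have h2 : (n : X) * x * (n : X)⁻¹ ∈ (P : Subgroup X) := h1
    have h3 : (n : X) * x * (n : X)⁻¹ ∈ Subgroup.centralizer (B : Set X) := by
      rw [Subgroup.mem_centralizer_iff] at hx ⊢
      intro b hb
      have hb' : (n : X)⁻¹ * b * (n : X) ∈ B := by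
        have := (Subgroup.mem_normalizer_iff.1 (inv_mem n.2) b).1 hb
        rwa [inv_inv] at this
      have h4 := hx _ hb'
      calc b * ((n : X) * x * (n : X)⁻¹) = n * (((n : X)⁻¹ * b * n) * x) * (n : X)⁻¹ := by group
        _ = n * (x * ((n : X)⁻¹ * b * n)) * (n : X)⁻¹ := by rw [h4]
        _ = (n : X) * x * (n : X)⁻¹ * b := by group
    have h4 : (n : X) * x * (n : X)⁻¹ ∈ B := by
      rw [← hBc]; exact ⟨h2, h3⟩
    exact (Subgroup.mem_normalizer_iff.1 n.2 x).2 h4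
  obtain ⟨E, hEB, hEe, hE3⟩ := hB3
  have hEp : IsPGroup p E := hBp.to_le hEB
  have h2 : p = 2 → False := by
    rintro rfl
    have hE : Nat.card E ∣ Nat.card X := Subgroup.card_subgroup_dvd_card E
    obtain ⟨k, hk⟩ := hEp.exists_card_eq
    have hk0 : k ≠ 0 := by
      rintro rfl
      rw [hk] at hE3; norm_num at hE3
    have h3 : 2 ∣ Nat.card X := (dvd_pow_self 2 hk0).trans (hk ▸ hE)
    exact (Nat.not_even_iff_odd.2 hX) (even_iff_two_dvd.2 h3)
  have hrank : ¬ Cfsg.PRankLE p 2 B := by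
    intro h
    have h3 := h (E.subgroupOf B) ⟨⟨fun a b => Subtype.ext (hBa.is_comm.comm _ _)⟩⟩ (by
      intro a ha
      have := hEe a ha
      exact Subtype.ext this)
    have h4 : Nat.card (E.subgroupOf B) = Nat.card E := Nat.card_congr (Subgroup.subgroupOfEquivOfLe hEB).toEquiv
    rw [h4] at h3
    have h5 : p ^ 2 < p ^ 3 := Nat.pow_lt_pow_right hp.one_lt (by norm_num)
    omega
  have hmem : ∀ Q : Subgroup X, (IsPGroup q Q ∧ B ≤ Subgroup.normalizer (Q : Set X) ∧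
      ∀ R : Subgroup X, IsPGroup q R → B ≤ Subgroup.normalizer (R : Set X) → Q ≤ R → R = Q) →
      Q ∈ Cfsg.maxInvSubgroups ⊤ B {q} := by
    rintro Q ⟨h3, h4, h5⟩
    have hpi : ∀ R : Subgroup X, (∀ r : ℕ, r.Prime → r ∣ Nat.card R → r ∈ ({q} : Set ℕ)) ↔ IsPGroup q R := fun R =>
      (Cfsg.Agent.Lib.PiCoreOf.isPi_singleton_iff hq)
    refine ⟨⟨le_top, (hpi Q).2 h3, h4⟩, ?_⟩
    rintro R ⟨-, h6, h7⟩ h8
    exact h5 R ((hpi R).1 h6) h7 h8
  obtain ⟨k, hk, hk2⟩ := Cfsg.Agent.S1480.result p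
    (fun T hT hT1 => Cfsg.Agent.Lib.SigP.isPConstrained_of_isSolvable (hloc T hT hT1)) (fun h => (h2 h).elim) B hBp hBa
    hrank hfull q hqp Q₁ (hmem Q₁ h₁) Q₂ (hmem Q₂ h₂)
  refine ⟨k, ?_, hk2⟩
  obtain ⟨c, -, rfl⟩ := hk
  exact c.2

end Cfsg.Agent.S0522
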