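import Cfsg.Statements.S0530
import Cfsg.Agent.Lib.Supersolvable2

set_option autoImplicit false
open Cfsg

namespace Cfsg.Agent.S0530

universe u

open Subgroup in
theorem aux (p : ℕ) [hp : Fact p.Prime] (hp2 : p ≠ 2) (n : ℕ) : ∀ (G : Type u) [Group G] [Finite G],
    Nat.card G = 2 * p ^ n → Cfsg.IsSupersolvable G := by
  induction n using Nat.strong_induction_on with
  | _ n ih =>
    intro G _ _ hG
    rcases Nat.eq_zero_or_pos n with h0 | hn0
    · subst h0
      rw [pow_zero, mul_one] at hG
      have : Fact (Nat.Prime 2) := ⟨Nat.prime_two⟩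
      have : IsCyclic G := isCyclic_of_prime_card hG
      exact Cfsg.Agent.Lib.Supersolvable.isSupersolvable_of_isCyclic
    obtain ⟨P⟩ : Nonempty (Sylow p G) := inferInstance
    have hfac : (Nat.card G).factorization p = n := by
      rw [hG, Nat.factorization_mul (by norm_num) (pow_ne_zero _ hp.out.ne_zero)]
      simp only [Finsupp.add_apply]
      rw [hp.out.factorization_pow, Nat.prime_two.factorization]
      simp [Ne.symm hp2]
    have hPcard : Nat.card P = p ^ n := by
      rw [P.card_eq_multiplicity, hfac]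
    have hPidx : (P : Subgroup G).index = 2 := by
      have h1 := (P : Subgroup G).card_mul_index
      rw [hPcard, hG, mul_comm 2] at h1
      exact Nat.eq_of_mul_eq_mul_left (pow_pos hp.out.pos n) h1
    have hPn : (P : Subgroup G).Normal := Subgroup.normal_of_index_eq_two hPidx
    have hPne : (P : Subgroup G) ≠ ⊥ := by
      apply P.ne_bot_of_dvd_card
      rw [hG]
      exact Dvd.dvd.mul_left (dvd_pow_self p hn0.ne') 2
    have hC := Cfsg.Agent.Lib.Supersolvable.inf_centralizer_ne_bot P.2 le_rfl Subgroup.le_normalizer hPne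
    set C : Subgroup G := (P : Subgroup G) ⊓ centralizer ((P : Subgroup G) : Set G) with hCdef
    have hcn : (centralizer ((P : Subgroup G) : Set G)).Normal := inferInstance
    have hCn : C.Normal := inferInstance
    have hCcomm : ∀ x ∈ C, ∀ y ∈ (P : Subgroup G), y * x = x * y := fun x hx y hy =>
      Subgroup.mem_centralizer_iff.mp hx.2 y hy
    obtain ⟨z, hz, hz1⟩ := (Subgroup.bot_or_exists_ne_one C).resolve_left hC
    obtain ⟨t, ht⟩ : ∃ t : G, t ∉ (P : Subgroup G) := by
      by_contra hcon
      push Not at hcon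
      have : (P : Subgroup G) = ⊤ := (Subgroup.eq_top_iff' _).mpr hcon
      rw [this, Subgroup.index_top] at hPidx
      omega
    have htt : t * t ∈ (P : Subgroup G) := by
      have := (Subgroup.mul_mem_iff_of_index_two hPidx (a := t) (b := t)).mpr
      exact this Iff.rfl
    -- find w ≠ 1 in C with zpowers w normalized by t
    obtain ⟨w, hw, hw1, hwt⟩ : ∃ w ∈ C, w ≠ 1 ∧ t ∈ normalizer ((zpowers w : Subgroup G) : Set G) := by
      have hz' : t * z * t⁻¹ ∈ C := hCn.conj_mem z hz t
      have htz : t * (t * z * t⁻¹) * t⁻¹ = z := by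
        have h1 := hCcomm z hz (t * t) htt
        calc t * (t * z * t⁻¹) * t⁻¹ = (t * t * z) * (t * t)⁻¹ := by group
          _ = (z * (t * t)) * (t * t)⁻¹ := by rw [h1]
          _ = z := by group
      by_cases hy : z * (t * z * t⁻¹) = 1
      · refine ⟨z, hz, hz1, ?_⟩
        have h1 : t * z * t⁻¹ = z⁻¹ := (inv_eq_of_mul_eq_one_right hy).symm
        rw [mem_normalizer_iff_map_conj_eq]
        have h2 : (zpowers z).map (MulAut.conj t).toMonoidHom = zpowers (t * z * t⁻¹) := by
          rw [MonoidHom.map_zpowers]; rfl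
        refine h2.trans ?_
        rw [h1, Subgroup.zpowers_inv]
      · refine ⟨z * (t * z * t⁻¹), C.mul_mem hz hz', hy, ?_⟩
        have h1 : t * (z * (t * z * t⁻¹)) * t⁻¹ = z * (t * z * t⁻¹) := by
          calc t * (z * (t * z * t⁻¹)) * t⁻¹ = (t * z * t⁻¹) * (t * (t * z * t⁻¹) * t⁻¹) := by group
            _ = (t * z * t⁻¹) * z := by rw [htz]
            _ = z * (t * z * t⁻¹) := hCcomm z hz _ hz'.1
        rw [mem_normalizer_iff_map_conj_eq]
        have h2 : (zpowers (z * (t * z * t⁻¹))).map (MulAut.conj t).toMonoidHom =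
            zpowers (t * (z * (t * z * t⁻¹)) * t⁻¹) := by
          rw [MonoidHom.map_zpowers]; rfl
        refine h2.trans ?_
        rw [h1]
    have hPnw : (P : Subgroup G) ≤ normalizer ((zpowers w : Subgroup G) : Set G) := by
      rw [Subgroup.le_normalizer_iff]
      intro x hx y hy
      have hyC : y ∈ C := (Subgroup.zpowers_le.mpr hw) hy
      rw [hCcomm y hyC x hx]
      simpa using hy
    have hwn : (zpowers w).Normal := by
      rw [← Subgroup.normalizer_eq_top_iff]
      have hle : (P : Subgroup G) < normalizer ((zpowers w : Subgroup G) : Set G) :=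
        lt_of_le_of_ne hPnw (fun h => ht (h ▸ hwt))
      have h1 := Subgroup.relIndex_mul_index hle.le
      rw [hPidx] at h1
      rcases (Nat.dvd_prime Nat.prime_two).mp ⟨_, h1.symm⟩ with h3 | h3
      · exact absurd (Subgroup.relIndex_eq_one.mp h3) (not_le_of_gt hle)
      · rw [h3] at h1
        have : (normalizer ((zpowers w : Subgroup G) : Set G)).index = 1 := by omega
        exact Subgroup.index_eq_one.mp this
    have hwP : zpowers w ≤ (P : Subgroup G) := Subgroup.zpowers_le.mpr hw.1
    obtain ⟨k, hk⟩ := (IsPGroup.iff_card.mp (P.2.to_le hwP))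
    have hk0 : k ≠ 0 := by
      rintro rfl
      rw [pow_zero, Subgroup.card_eq_one, Subgroup.zpowers_eq_bot] at hk
      exact hw1 hk
    have hkn : k ≤ n := by
      have h1 := Subgroup.card_dvd_of_le hwP
      rw [hk, hPcard] at h1
      exact (Nat.pow_dvd_pow_iff_le_right hp.out.one_lt).mp h1
    have hcardG : Nat.card (G ⧸ zpowers w) * Nat.card (zpowers w) = Nat.card G :=
      (Subgroup.card_eq_card_quotient_mul_card_subgroup _).symm
    have hq : Nat.card (G ⧸ zpowers w) = 2 * p ^ (n - k) := by
      rw [hk, hG] at hcardG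
      have h1 : 2 * p ^ n = 2 * p ^ (n - k) * p ^ k := by
        rw [mul_assoc, ← pow_add, Nat.sub_add_cancel hkn]
      rw [h1] at hcardG
      exact Nat.eq_of_mul_eq_mul_right (pow_pos hp.out.pos k) hcardG
    exact Cfsg.Agent.Lib.Supersolvable.isSupersolvable_of_cyclic_normal (zpowers w)
      (ih (n - k) (by omega) (G ⧸ zpowers w) hq)

/-- A finite group whose order is twice a prime power is supersolvable. -/
theorem result {G : Type*} [Group G] [Finite G] (p n : ℕ) (hp : p.Prime) (hG : Nat.card G = 2 * p ^ n) : Cfsg.IsSupersolvable G := by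
  have hpf : Fact p.Prime := ⟨hp⟩
  rcases eq_or_ne p 2 with rfl | hp2
  · have hPG : IsPGroup 2 G := IsPGroup.of_card (n := n + 1) (by rw [hG, pow_succ, mul_comm])
    have := hPG.isNilpotent
    exact Cfsg.Agent.Lib.Supersolvable.isSupersolvable_of_isNilpotent
  · exact aux p hp2 n G hG

end Cfsg.Agent.S0530
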