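import Cfsg.Statements.S0534
import Cfsg.Agent.Lib.Supersolvable2
import Cfsg.Agent.Lib.HallPi

set_option autoImplicit false
open Cfsg

namespace Cfsg.Agent.S0534

/-- Let G be a finite solvable group and A a finite abelian group such that every prime dividing the order of A divides the order of G and, for each prime p dividing the order of G, the exponent of p in the order of A is one less than its exponent in the order of G. Then G × A has a subgroup of every order dividing its order. -/
theorem result {G A : Type*} [Group G] [CommGroup A] [Finite G] [Finite A] [Group.IsSolvable G] (hA : ∀ p : ℕ, p.Prime → p ∣ Nat.card A → p ∣ Nat.card G) (hexp : ∀ p : ℕ, p.Prime → p ∣ Nat.card G → (Nat.card A).factorization p + 1 = (Nat.card G).factorization p) : Cfsg.HasSubgroupOfEveryOrder (G × A) := by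
  intro d hd
  rw [Nat.card_prod] at hd
  set g := Nat.card G with hg
  set a := Nat.card A with ha
  have hg0 : g ≠ 0 := Nat.card_pos.ne'
  have ha0 : a ≠ 0 := Nat.card_pos.ne'
  have hd0 : d ≠ 0 := by
    rintro rfl
    exact (Nat.mul_ne_zero hg0 ha0) (Nat.eq_zero_of_zero_dvd hd)
  obtain ⟨H, hH⟩ := Cfsg.Agent.Lib.HallPi.exists_isPiHall (G := G) {p : ℕ | g.factorization p ≤ d.factorization p}
  have hH0 : Nat.card H ≠ 0 := Nat.card_pos.ne'
  have hI0 : H.index ≠ 0 := Subgroup.FiniteIndex.index_ne_zero
  have hmul : Nat.card H * H.index = g := H.card_mul_index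
  have hv : ∀ p : ℕ, g.factorization p = (Nat.card H).factorization p + H.index.factorization p := by
    intro p
    rw [← hmul, Nat.factorization_mul hH0 hI0, Finsupp.add_apply]
  have hvd : ∀ p : ℕ, d.factorization p ≤ g.factorization p + a.factorization p := by
    intro p
    have := (Nat.factorization_le_iff_dvd hd0 (Nat.mul_ne_zero hg0 ha0)).mpr hd p
    rwa [Nat.factorization_mul hg0 ha0, Finsupp.add_apply] at this
  -- the two cases
  have hcase : ∀ p : ℕ, p.Prime → (g.factorization p ≤ d.factorization p ∧ (Nat.card H).factorization p = g.factorization p) ∨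
      (d.factorization p < g.factorization p ∧ (Nat.card H).factorization p = 0) := by
    intro p hp
    rcases Nat.lt_or_ge (d.factorization p) (g.factorization p) with h | h
    · right
      refine ⟨h, Nat.factorization_eq_zero_of_not_dvd fun hdv => ?_⟩
      have h1 : g.factorization p ≤ d.factorization p := hH.1 p hp hdv
      omega
    · left
      refine ⟨h, ?_⟩
      have h1 : H.index.factorization p = 0 := Nat.factorization_eq_zero_of_not_dvd (hH.2 p hp h)
      rw [hv p, h1, add_zero]
  have hHd : Nat.card H ∣ d := by
    rw [← Nat.factorization_le_iff_dvd hH0 hd0]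
    intro p
    by_cases hp : p.Prime
    · rcases hcase p hp with ⟨h1, h2⟩ | ⟨h1, h2⟩
      · rw [h2]; exact h1
      · rw [h2]; exact Nat.zero_le _
    · rw [Nat.factorization_eq_zero_of_not_prime _ hp]
      exact Nat.zero_le _
  obtain ⟨e, he⟩ := hHd
  have he0 : e ≠ 0 := by
    rintro rfl
    exact hd0 (by rw [he, mul_zero])
  have hea : e ∣ a := by
    rw [← Nat.factorization_le_iff_dvd he0 ha0]
    intro p
    by_cases hp : p.Prime
    · have h0 : d.factorization p = (Nat.card H).factorization p + e.factorization p := by
        rw [he, Nat.factorization_mul hH0 he0, Finsupp.add_apply]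
      have h3 := hvd p
      rcases hcase p hp with ⟨h1, h2⟩ | ⟨h1, h2⟩
      · omega
      · have hpg : p ∣ g := by
          by_contra hcon
          rw [Nat.factorization_eq_zero_of_not_dvd hcon] at h1
          omega
        have h4 := hexp p hp hpg
        omega
    · rw [Nat.factorization_eq_zero_of_not_prime _ hp]
      exact Nat.zero_le _
  have hAss : Cfsg.IsSupersolvable A := Cfsg.Agent.Lib.Supersolvable.isSupersolvable_of_isNilpotent
  obtain ⟨B, hB⟩ := Cfsg.Agent.Lib.Supersolvable.hasSubgroupOfEveryOrder hAss e hea
  refine ⟨H.prod B, ?_⟩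
  rw [Nat.card_congr (Subgroup.prodEquiv H B).toEquiv, Nat.card_prod, hB, ← he]

end Cfsg.Agent.S0534
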