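import Cfsg.Statements.S0535
import Cfsg.Agent.Lib.SubgroupTools
import Cfsg.Agent.Lib.Burnside
import Cfsg.Agent.Lib.SystemNorm

set_option autoImplicit false
open Cfsg

namespace Cfsg.Agent.S0535

open Subgroup Cfsg.Agent.Lib.SubgroupTools
open scoped Pointwise

universe u

/-- A Sylow-type containment: a `p`-subgroup is conjugate into a subgroup of index prime to `p`. -/
theorem exists_conj_le_of_not_dvd_index {G : Type u} [Group G] [Finite G] {p : ℕ} [hp : Fact p.Prime]
    {T H : Subgroup G} (hT : IsPGroup p T) (hH : ¬ p ∣ H.index) : ∃ g : G, MulAut.conj g • T ≤ H := by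
  obtain ⟨Q⟩ : Nonempty (Sylow p H) := inferInstance
  have hQp : IsPGroup p ((Q : Subgroup H).map H.subtype) := Q.2.map _
  obtain ⟨S, hTS⟩ := hT.exists_le_sylow
  have hQidx : ¬ p ∣ ((Q : Subgroup H).map H.subtype).index := by
    rw [Subgroup.index_map_of_injective _ H.subtype_injective, Subgroup.range_subtype]
    intro h
    rcases (Nat.Prime.dvd_mul hp.out).mp h with h1 | h1
    · exact Q.not_dvd_index h1
    · exact hH h1
  obtain ⟨g, hg⟩ := MulAction.exists_smul_eq G S (hQp.toSylow hQidx)
  refine ⟨g, ?_⟩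
  have h1 : MulAut.conj g • (S : Subgroup G) = (Q : Subgroup H).map H.subtype := by
    have := congrArg (fun (P : Sylow p G) => (P : Subgroup G)) hg
    exact this
  calc MulAut.conj g • T ≤ MulAut.conj g • (S : Subgroup G) := conj_smul_mono g hTS
    _ = (Q : Subgroup H).map H.subtype := h1
    _ ≤ H := map_subtype_le _

/-- Wielandt: a finite group with three solvable subgroups, `G = H₁H₂ = H₁H₃` and coprime indices of `H₂`, `H₃`. -/
theorem three_solvable (n : ℕ) : ∀ (G : Type u) [Group G] [Finite G], Nat.card G = n → ∀ (H₁ H₂ H₃ : Subgroup G),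
    Group.IsSolvable H₁ → Group.IsSolvable H₂ → Group.IsSolvable H₃ →
    (∀ g : G, ∃ x ∈ H₁, ∃ y ∈ H₂, g = x * y) → (∀ g : G, ∃ x ∈ H₁, ∃ y ∈ H₃, g = x * y) →
    H₂.index.Coprime H₃.index → Group.IsSolvable G := by
  induction n using Nat.strong_induction_on with
  | _ n ih =>
    intro G _ _ hn H₁ H₂ H₃ h₁ h₂ h₃ h12 h13 hcop
    rcases subsingleton_or_nontrivial H₁ with hs | hs
    · -- H₂ = ⊤
      have htop : H₂ = ⊤ := by
        rw [Subgroup.eq_top_iff']
        intro g
        obtain ⟨x, hx, y, hy, rfl⟩ := h12 g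
        have : x = 1 := congrArg Subtype.val (Subsingleton.elim (⟨x, hx⟩ : H₁) 1)
        rw [this, one_mul]; exact hy
      rw [htop] at h₂
      exact Group.isSolvable_of_surjective (f := (Subgroup.topEquiv (G := G)).toMonoidHom)
        (Subgroup.topEquiv (G := G)).surjective
    obtain ⟨p, E, hp, hE, hEc, hEab, hEp⟩ := exists_characteristic_elementary H₁
    have hpf : Fact p.Prime := ⟨hp⟩
    set T : Subgroup G := E.map H₁.subtype with hT
    have hTp : IsPGroup p T := by
      rintro ⟨_, ⟨x, hx, rfl⟩⟩
      refine ⟨1, Subtype.ext ?_⟩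
      rw [pow_one]
      have h1 : ((x ^ p : H₁) : G) = 1 := congrArg Subtype.val (hEp x hx)
      exact h1
    have hT1 : T ≠ ⊥ := by
      rw [hT, Ne, Subgroup.map_eq_bot_iff_of_injective _ H₁.subtype_injective]
      exact hE
    have hTn : ∀ x ∈ H₁, MulAut.conj x • T = T := by
      intro x hx
      apply conj_smul_of_mem_normalizer
      have : (E.map H₁.subtype).subgroupOf H₁ = E := Subgroup.comap_map_eq_self_of_injective H₁.subtype_injective E
      have hnor : ((E.map H₁.subtype).subgroupOf H₁).Normal := by rw [this]; infer_instance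
      exact (Subgroup.normal_subgroupOf_iff_le_normalizer (Subgroup.map_subtype_le E)).mp hnor hx
    -- the key step, for a subgroup H with G = H₁ H and index prime to p
    have key : ∀ H : Subgroup G, Group.IsSolvable H → (∀ g : G, ∃ x ∈ H₁, ∃ y ∈ H, g = x * y) → ¬ p ∣ H.index →
        ∃ N : Subgroup G, N.Normal ∧ N ≠ ⊥ ∧ Group.IsSolvable N := by
      intro H hHs h1H hpH
      obtain ⟨g, hg⟩ := exists_conj_le_of_not_dvd_index hTp hpH
      -- T ≤ H
      have hTH : ∀ k : G, MulAut.conj k • T ≤ H := by
        have h0 : T ≤ H := by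
          obtain ⟨x, hx, y, hy, hxy⟩ := h1H g⁻¹
          -- g = y⁻¹ x⁻¹
          have hgi : g = y⁻¹ * x⁻¹ := by rw [← mul_inv_rev, ← hxy, inv_inv]
          rw [hgi, conj_smul_mul, hTn _ (H₁.inv_mem hx), conj_smul_le_iff, inv_inv,
            conj_smul_self_of_mem hy] at hg
          exact hg
        intro k
        obtain ⟨x, hx, y, hy, hxy⟩ := h1H k⁻¹
        have hki : k = y⁻¹ * x⁻¹ := by rw [← mul_inv_rev, ← hxy, inv_inv]
        rw [hki, conj_smul_mul, hTn _ (H₁.inv_mem hx), conj_smul_le_iff, inv_inv, conj_smul_self_of_mem hy]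
        exact h0
      refine ⟨normalClosure (T : Set G), Subgroup.normalClosure_normal, ?_, ?_⟩
      · intro h
        apply hT1
        rw [eq_bot_iff]
        exact (Subgroup.subset_normalClosure (s := (T : Set G))).trans (by rw [h])
      · have hle : normalClosure (T : Set G) ≤ H := by
          rw [Subgroup.normalClosure, Subgroup.closure_le]
          intro y hy
          rw [Group.mem_conjugatesOfSet_iff] at hy
          obtain ⟨t, ht, hty⟩ := hy
          obtain ⟨k, rfl⟩ := isConj_iff.mp hty
          exact hTH k ⟨t, ht, rfl⟩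
        exact Group.isSolvable_of_isSolvable_injective (f := Subgroup.inclusion hle) (Subgroup.inclusion_injective hle)
    obtain ⟨N, hN, hN1, hNs⟩ : ∃ N : Subgroup G, N.Normal ∧ N ≠ ⊥ ∧ Group.IsSolvable N := by
      by_cases hp2 : p ∣ H₂.index
      · have hp3 : ¬ p ∣ H₃.index := fun h => hp.one_lt.ne' (Nat.eq_one_of_dvd_coprimes hcop hp2 h)
        exact key H₃ h₃ h13 hp3
      · exact key H₂ h₂ h12 hp2
    have hcardG : Nat.card (G ⧸ N) * Nat.card N = Nat.card G :=
      (Subgroup.card_eq_card_quotient_mul_card_subgroup _).symm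
    have hlt : Nat.card (G ⧸ N) < n := by
      have h1 : 1 < Nat.card N := (Subgroup.one_lt_card_iff_ne_bot _).mpr hN1
      have h2 : 0 < Nat.card (G ⧸ N) := Nat.card_pos
      nlinarith
    have hfac : ∀ A B : Subgroup G, (∀ g : G, ∃ x ∈ A, ∃ y ∈ B, g = x * y) →
        ∀ g : G ⧸ N, ∃ x ∈ A.map (QuotientGroup.mk' N), ∃ y ∈ B.map (QuotientGroup.mk' N), g = x * y := by
      intro A B hAB g
      obtain ⟨g, rfl⟩ := QuotientGroup.mk'_surjective N g
      obtain ⟨x, hx, y, hy, rfl⟩ := hAB g
      exact ⟨_, ⟨x, hx, rfl⟩, _, ⟨y, hy, rfl⟩, map_mul _ _ _⟩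
    have hsol : ∀ A : Subgroup G, Group.IsSolvable A → Group.IsSolvable (A.map (QuotientGroup.mk' N)) := by
      intro A hA
      exact Group.isSolvable_of_surjective (f := (QuotientGroup.mk' N).subgroupMap A)
        ((QuotientGroup.mk' N).subgroupMap_surjective A)
    have hQ := ih _ hlt (G ⧸ N) rfl (H₁.map (QuotientGroup.mk' N)) (H₂.map (QuotientGroup.mk' N))
      (H₃.map (QuotientGroup.mk' N)) (hsol _ h₁) (hsol _ h₂) (hsol _ h₃) (hfac _ _ h12) (hfac _ _ h13)
      (Nat.Coprime.coprime_dvd_left (Subgroup.index_map_dvd _ (QuotientGroup.mk'_surjective N))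
        (Nat.Coprime.coprime_dvd_right (Subgroup.index_map_dvd _ (QuotientGroup.mk'_surjective N)) hcop))
    exact (Group.isSolvable_iff_subgroup_quotient N).mpr ⟨hNs, hQ⟩

/-- Suppose that for every nontrivial subgroup H of a finite group and every prime p dividing the order of H there is a proper subgroup of H whose index in H is a power of p. Then the group is solvable. -/
theorem result {G : Type*} [Group G] [Finite G] (h : ∀ H : Subgroup G, H ≠ ⊥ → ∀ p : ℕ, p.Prime → p ∣ Nat.card H → ∃ K : Subgroup H, K ≠ ⊤ ∧ ∃ k : ℕ, K.index = p ^ k) : Group.IsSolvable G := by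
  -- induction over subgroups
  have key : ∀ n : ℕ, ∀ H : Subgroup G, Nat.card H = n → Group.IsSolvable H := by
    intro n
    induction n using Nat.strong_induction_on with
    | _ n ih =>
      intro H hn
      rcases eq_or_ne H ⊥ with rfl | hH
      · infer_instance
      have hcard1 : Nat.card H ≠ 1 := fun h1 => hH ((Subgroup.card_eq_one).mp h1)
      have hcard0 : Nat.card H ≠ 0 := Nat.card_pos.ne'
      -- proper subgroups of H are solvable
      have hprop : ∀ K : Subgroup H, K ≠ ⊤ → Group.IsSolvable K := by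
        intro K hK
        have h1 : Nat.card (K.map H.subtype) < n := by
          rw [Subgroup.card_map_of_injective H.subtype_injective, ← hn]
          exact lt_of_le_of_ne (Subgroup.card_le_card_group K) (fun h => hK (Subgroup.eq_top_of_card_eq K h))
        have h2 := ih _ h1 (K.map H.subtype) rfl
        exact Group.isSolvable_of_isSolvable_injective
          (f := (K.equivMapOfInjective H.subtype H.subtype_injective).toMonoidHom)
          (K.equivMapOfInjective H.subtype H.subtype_injective).injective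
      by_cases h2 : (Nat.card H).primeFactors.card ≤ 2
      · -- Burnside
        have hex : ∃ p q a b : ℕ, p.Prime ∧ q.Prime ∧ Nat.card H = p ^ a * q ^ b := by
          have hprod := Nat.prod_factorization_pow_eq_self hcard0
          rw [Finsupp.prod, Nat.support_factorization] at hprod
          rcases Nat.lt_or_ge (Nat.card H).primeFactors.card 2 with h3 | h3
          · rcases Nat.lt_or_ge (Nat.card H).primeFactors.card 1 with h4 | h4
            · have h5 : (Nat.card H).primeFactors = ∅ := Finset.card_eq_zero.mp (by omega)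
              rw [h5, Finset.prod_empty] at hprod
              exact absurd hprod.symm hcard1
            · obtain ⟨p, hp⟩ := Finset.card_eq_one.mp (show (Nat.card H).primeFactors.card = 1 by omega)
              rw [hp, Finset.prod_singleton] at hprod
              have hpp : p.Prime := Nat.prime_of_mem_primeFactors (n := Nat.card H) (by rw [hp]; simp)
              exact ⟨p, p, (Nat.card H).factorization p, 0, hpp, hpp, by rw [pow_zero, mul_one]; exact hprod.symm⟩
          · obtain ⟨p, q, hpq, hp⟩ := Finset.card_eq_two.mp (show (Nat.card H).primeFactors.card = 2 by omega)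
            rw [hp, Finset.prod_pair hpq] at hprod
            exact ⟨p, q, _, _, Nat.prime_of_mem_primeFactors (n := Nat.card H) (by rw [hp]; simp),
              Nat.prime_of_mem_primeFactors (n := Nat.card H) (by rw [hp]; simp), hprod.symm⟩
        obtain ⟨p, q, a, b, hp, hq, hc⟩ := hex
        exact Cfsg.Agent.Lib.Burnside.isSolvable_of_card_eq _ p q a b hp hq hc rfl
      · -- three primes
        push Not at h2
        obtain ⟨s, hs, hs3⟩ := Finset.exists_subset_card_eq (s := (Nat.card H).primeFactors) (n := 3) h2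
        obtain ⟨p, q, r, hpq, hpr, hqr, rfl⟩ := Finset.card_eq_three.mp hs3
        have hpm := Nat.mem_primeFactors.mp (hs (show p ∈ ({p, q, r} : Finset ℕ) by simp))
        have hqm := Nat.mem_primeFactors.mp (hs (show q ∈ ({p, q, r} : Finset ℕ) by simp))
        have hrm := Nat.mem_primeFactors.mp (hs (show r ∈ ({p, q, r} : Finset ℕ) by simp))
        obtain ⟨K₁, hK₁, a, ha⟩ := h H hH p hpm.1 hpm.2.1
        obtain ⟨K₂, hK₂, b, hb⟩ := h H hH q hqm.1 hqm.2.1
        obtain ⟨K₃, hK₃, c, hc⟩ := h H hH r hrm.1 hrm.2.1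
        have hfac : ∀ (A B : Subgroup H), A.index.Coprime B.index → ∀ g : H, ∃ x ∈ A, ∃ y ∈ B, g = x * y := by
          intro A B hAB g
          obtain ⟨x, hx, y, hy, hxy⟩ := Cfsg.Agent.Lib.SystemNorm.exists_mul_eq_of_coprime_relIndex
            (le_top : A ≤ ⊤) (le_top : B ≤ ⊤) (by rwa [Subgroup.relIndex_top_right, Subgroup.relIndex_top_right])
            (Subgroup.mem_top g)
          exact ⟨x, hx, y, hy, hxy.symm⟩
        refine three_solvable _ H rfl K₁ K₂ K₃ (hprop _ hK₁) (hprop _ hK₂) (hprop _ hK₃) (hfac _ _ ?_) (hfac _ _ ?_) ?_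
        · rw [ha, hb]; exact Nat.Coprime.pow _ _ ((Nat.coprime_primes hpm.1 hqm.1).mpr hpq)
        · rw [ha, hc]; exact Nat.Coprime.pow _ _ ((Nat.coprime_primes hpm.1 hrm.1).mpr hpr)
        · rw [hb, hc]; exact Nat.Coprime.pow _ _ ((Nat.coprime_primes hqm.1 hrm.1).mpr hqr)
  have := key _ (⊤ : Subgroup G) rfl
  exact Group.isSolvable_of_surjective (f := (Subgroup.topEquiv (G := G)).toMonoidHom)
    (Subgroup.topEquiv (G := G)).surjective

end Cfsg.Agent.S0535
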