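import Cfsg.Statements.S0540
import Cfsg.Agent.Lib.Subnormal

set_option autoImplicit false
open Pointwise
open Cfsg

namespace Cfsg.Agent.S0540

open Subgroup in
theorem conj_subgroupOf {G : Type*} [Group G] (V B : Subgroup G) (v : G) (hv : v ∈ V) :
    (MulAut.conj v • B).subgroupOf V = MulAut.conj (⟨v, hv⟩ : V) • (B.subgroupOf V) := by
  ext x
  constructor
  · rintro ⟨b, hb, hbx⟩
    have hbx' : v * b * v⁻¹ = (x : G) := hbx
    have hbV : b ∈ V := by
      have h1 : b = v⁻¹ * x * v := by rw [← hbx']; group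
      rw [h1]
      exact V.mul_mem (V.mul_mem (V.inv_mem hv) x.2) hv
    exact ⟨⟨b, hbV⟩, hb, Subtype.ext hbx'⟩
  · rintro ⟨b, hb, rfl⟩
    exact ⟨b, hb, rfl⟩

/-- A uniqueness lemma of zipper type. Let A be a subgroup of a finite group G and U a nonempty family of subgroups. For V in U write S(V) for the set of conjugates of A that lie in V and are subnormal in V. Assume: A belongs to S(V) for every V in U; a member of some S(W) that lies in V belongs to S(V); and for all V, W in U the normalizer of the join of S(V) ∩ S(W) lies in some member of U. Then U has a greatest element. -/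
theorem result {G : Type*} [Group G] [Finite G] (A : Subgroup G) (U : Set (Subgroup G)) (hU : U.Nonempty) (S : Subgroup G → Set (Subgroup G)) (hS : ∀ V B : Subgroup G, B ∈ S V ↔ (∃ g : G, B = MulAut.conj g • A) ∧ B ≤ V ∧ (B.subgroupOf V).IsSubnormal) (h1 : ∀ V ∈ U, A ∈ S V) (h2 : ∀ V ∈ U, ∀ W ∈ U, ∀ B ∈ S W, B ≤ V → B ∈ S V) (h3 : ∀ V ∈ U, ∀ W ∈ U, ∃ X ∈ U, Subgroup.normalizer ((sSup (S V ∩ S W) : Subgroup G) : Set G) ≤ X) : ∃ M ∈ U, ∀ V ∈ U, V ≤ M := by
  classical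
  have hSle : ∀ V, ∀ B ∈ S V, B ≤ V := fun V B hB => ((hS V B).mp hB).2.1
  have hSsub : ∀ V, ∀ B ∈ S V, (B.subgroupOf V).IsSubnormal := fun V B hB => ((hS V B).mp hB).2.2
  have hSconj : ∀ V, ∀ B ∈ S V, ∀ g ∈ V, MulAut.conj g • B ∈ S V := by
    intro V B hB g hg
    obtain ⟨⟨a, rfl⟩, hle, hsn⟩ := (hS V B).mp hB
    refine (hS V _).mpr ⟨⟨g * a, by rw [map_mul, mul_smul]⟩, ?_, ?_⟩
    · exact Cfsg.Agent.Lib.Subnormal.conj_smul_le_of_le_of_mem_normalizer hle (Subgroup.le_normalizer hg)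
    · rw [conj_subgroupOf V _ g hg]
      exact hsn.smul _
  have hmax : ∀ V ∈ U, ∃ M, V ≤ M ∧ Maximal (· ∈ U) M := fun V hV =>
    (Set.toFinite U).exists_le_maximal hV
  by_contra hno
  push Not at hno
  obtain ⟨V0, hV0⟩ := hU
  obtain ⟨M, hV0M, hM⟩ := hmax V0 hV0
  obtain ⟨V1, hV1, hV1M⟩ := hno M hM.prop
  obtain ⟨N, hV1N, hN⟩ := hmax V1 hV1
  have hMN : M ≠ N := fun h => hV1M (h ▸ hV1N)
  let T : Set (Subgroup G × Subgroup G) := {x | Maximal (· ∈ U) x.1 ∧ Maximal (· ∈ U) x.2 ∧ x.1 ≠ x.2}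
  have hTne : T.Nonempty := ⟨(M, N), hM, hN, hMN⟩
  obtain ⟨⟨V, W⟩, ⟨hV, hW, hVW⟩, hbest⟩ :=
    Set.exists_max_image T (fun x => (S x.1 ∩ S x.2).ncard) (Set.toFinite T) hTne
  simp only at hV hW hVW
  have hbest' : ∀ V' W', Maximal (· ∈ U) V' → Maximal (· ∈ U) W' → V' ≠ W' →
      (S V' ∩ S W').ncard ≤ (S V ∩ S W).ncard := fun V' W' h1 h2 h3 => hbest (V', W') ⟨h1, h2, h3⟩
  obtain ⟨X0, hX0, hX0le⟩ := h3 V hV.prop W hW.prop
  obtain ⟨X, hX0X, hX⟩ := hmax X0 hX0
  have hNX : Subgroup.normalizer ((sSup (S V ∩ S W) : Subgroup G) : Set G) ≤ X := hX0le.trans hX0X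
  have hsubX : S V ∩ S W ⊆ S X := by
    intro B hB
    refine h2 X hX.prop V hV.prop B hB.1 ?_
    exact (le_sSup hB).trans (Subgroup.le_normalizer.trans hNX)
  have claim : ∀ V' : Subgroup G, Maximal (· ∈ U) V' → S V ∩ S W ⊆ S V' → V' = X := by
    intro V' hV' hsub
    by_contra hne
    by_cases hss : S V ∩ S W ⊂ S V'
    · obtain ⟨Y, hY, hY0, hYle⟩ := Cfsg.Agent.Lib.Subnormal.exists_normalizing_member_subgroup V' (S V')
        (S V ∩ S W) (hSle V') (hSsub V') (hSconj V') hss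
      have hYX : Y ∈ S X := h2 X hX.prop V' hV'.prop Y hY (hYle.trans hNX)
      have hlt : S V ∩ S W ⊂ S V' ∩ S X := by
        refine ⟨Set.subset_inter hsub hsubX, fun h => hY0 (h ⟨hY, hYX⟩)⟩
      have h1 := Set.ncard_lt_ncard hlt (Set.toFinite _)
      have h2 := hbest' V' X hV' hX hne
      omega
    · have heq : S V' = S V ∩ S W := by
        by_contra hcon
        exact hss ⟨hsub, fun h => hcon (Set.Subset.antisymm h hsub)⟩
      apply hne
      refine hV'.eq_of_le hX.prop (le_trans ?_ hNX)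
      rw [Subgroup.le_normalizer_iff]
      intro x hx
      suffices hsuff : sSup (S V ∩ S W) ≤ (sSup (S V ∩ S W)).comap (MulAut.conj x).toMonoidHom from
        fun k hk => hsuff hk
      refine sSup_le fun B hB => ?_
      rw [← heq] at hB ⊢
      intro b hb
      exact le_sSup (hSconj V' B hB x hx) ⟨b, hb, rfl⟩
  exact hVW ((claim V hV Set.inter_subset_left).trans (claim W hW Set.inter_subset_right).symm)

end Cfsg.Agent.S0540
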