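import Cfsg.Statements.S0541
import Cfsg.Agent.Lib.Subnormal

set_option autoImplicit false
open Pointwise
open Cfsg

namespace Cfsg.Agent.S0541

/-- Let Z and Y be subgroups of a finite group G and p a prime. Suppose that for every g in G the subgroup generated by the conjugates of g Z g⁻¹ under Y is a p-group. Then there is a Sylow p-subgroup P of G such that Y normalizes the subgroup generated by all conjugates of Z contained in P. -/
theorem result {G : Type*} [Group G] [Finite G] (p : ℕ) [Fact p.Prime] (Z Y : Subgroup G) (h : ∀ g : G, IsPGroup p ↥(⨆ y ∈ Y, MulAut.conj (y * g) • Z)) : ∃ P : Sylow p G, Y ≤ Subgroup.normalizer ((⨆ g ∈ {g : G | MulAut.conj g • Z ≤ (P : Subgroup G)}, MulAut.conj g • Z : Subgroup G) : Set G) := by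
  classical
  let Sig : Subgroup G → Set (Subgroup G) := fun Q => {B | (∃ g : G, B = MulAut.conj g • Z) ∧ B ≤ Q}
  have hwc : ∀ Q : Subgroup G, (⨆ g ∈ {g : G | MulAut.conj g • Z ≤ Q}, MulAut.conj g • Z : Subgroup G) =
      sSup (Sig Q) := by
    intro Q
    apply le_antisymm
    · refine iSup₂_le fun g hg => ?_
      exact le_sSup ⟨⟨g, rfl⟩, hg⟩
    · refine sSup_le ?_
      rintro B ⟨⟨g, rfl⟩, hg⟩
      exact le_iSup₂_of_le (f := fun (g : G) (_ : g ∈ {g : G | MulAut.conj g • Z ≤ Q}) => MulAut.conj g • Z)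
        g hg le_rfl
  let T : Set (Subgroup G) := {U | IsPGroup p U ∧ Y ≤ Subgroup.normalizer (U : Set G) ∧ U = sSup (Sig U)}
  have hT0 : (⊥ : Subgroup G) ∈ T := by
    refine ⟨IsPGroup.of_bot, Subgroup.le_normalizer_of_normal, ?_⟩
    exact (le_bot_iff.mp (sSup_le fun B hB => hB.2)).symm
  obtain ⟨U, hU⟩ := Set.Finite.exists_maximal (Set.toFinite T) ⟨_, hT0⟩
  obtain ⟨hUp, hYU, hUsup⟩ := hU.prop
  obtain ⟨P, hUP⟩ := hUp.exists_le_sylow
  refine ⟨P, ?_⟩
  rw [hwc]
  suffices hfin : sSup (Sig P) = U by rw [hfin]; exact hYU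
  by_contra hne
  have hss : Sig U ⊂ Sig P := by
    refine ⟨fun B hB => ⟨hB.1, hB.2.trans hUP⟩, fun h' => hne ?_⟩
    have : Sig U = Sig P := Set.Subset.antisymm (fun B hB => ⟨hB.1, hB.2.trans hUP⟩) h'
    rw [← this, ← hUsup]
  obtain ⟨X, hX, hX0, hXle⟩ := Cfsg.Agent.Lib.Subnormal.exists_normalizing_member_subgroup (P : Subgroup G)
    (Sig P) (Sig U) (fun B hB => hB.2)
    (fun B _ => Cfsg.Agent.Lib.Subnormal.isSubnormal_of_isPGroup P.2 _)
    (by
      rintro B ⟨⟨a, rfl⟩, hle⟩ g hg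
      exact ⟨⟨g * a, by rw [map_mul, mul_smul]⟩,
        Cfsg.Agent.Lib.Subnormal.conj_smul_le_of_le_of_mem_normalizer hle (Subgroup.le_normalizer hg)⟩) hss
  rw [← hUsup] at hXle
  obtain ⟨⟨g, rfl⟩, hXP⟩ := hX
  set R : Subgroup G := ⨆ y ∈ Y, MulAut.conj (y * g) • Z with hR
  have hRp : IsPGroup p R := h g
  have hmem : ∀ y ∈ Y, MulAut.conj (y * g) • Z ≤ R := fun y hy =>
    le_iSup₂_of_le (f := fun (y : G) (_ : y ∈ Y) => MulAut.conj (y * g) • Z) y hy le_rfl
  have hRU : R ≤ Subgroup.normalizer (U : Set G) := by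
    refine iSup₂_le fun y hy => ?_
    rw [map_mul, mul_smul]
    apply Cfsg.Agent.Lib.Subnormal.conj_smul_le_of_le_of_mem_normalizer hXle
    exact Subgroup.le_normalizer (hYU hy)
  have hYR : Y ≤ Subgroup.normalizer (R : Set G) := by
    rw [Subgroup.le_normalizer_iff]
    intro x hx
    suffices hsuff : R ≤ R.comap (MulAut.conj x).toMonoidHom from fun k hk => hsuff hk
    refine iSup₂_le fun y hy => ?_
    intro b hb
    apply hmem (x * y) (Y.mul_mem hx hy)
    rw [mul_assoc, map_mul, mul_smul]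
    exact ⟨b, hb, rfl⟩
  have hRUT : R ⊔ U ∈ T := by
    refine ⟨hRp.to_sup_of_normal_right' hUp hRU, ?_, ?_⟩
    · exact (le_inf hYR hYU).trans (Cfsg.Agent.Lib.Subnormal.normalizer_inf_le_normalizer_sup R U)
    · apply le_antisymm
      · refine sup_le ?_ ?_
        · refine iSup₂_le fun y hy => ?_
          exact le_sSup ⟨⟨y * g, rfl⟩, (hmem y hy).trans le_sup_left⟩
        · conv_lhs => rw [hUsup]
          exact sSup_le_sSup fun B hB => ⟨hB.1, hB.2.trans le_sup_right⟩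
      · exact sSup_le fun B hB => hB.2
  have hle := hU.le_of_ge hRUT le_sup_right
  apply hX0
  refine ⟨⟨g, rfl⟩, ?_⟩
  have h1 := hmem 1 Y.one_mem
  rw [one_mul] at h1
  exact h1.trans (le_sup_left.trans hle)

end Cfsg.Agent.S0541
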