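import Cfsg.Statements.S0547
import Mathlib
import Cfsg.Agent.Lib.MinNormSolv

set_option autoImplicit false
open Cfsg

namespace Cfsg.Agent.S0547

/-- Let a finite solvable group G act faithfully and primitively on a set, and let M be a minimal normal subgroup of G. Then M is transitive with trivial point stabilizers, and the number of points equals the order of M, which is a prime power p ^ d with d ≥ 1. -/
theorem result {G : Type*} [Group G] [Finite G] [Group.IsSolvable G] {Ω : Type*} [Nonempty Ω] [MulAction G Ω] [FaithfulSMul G Ω] (hprim : MulAction.IsPreprimitive G Ω) (M : Subgroup G) [M.Normal] (hM : M ≠ ⊥) (hmin : ∀ K : Subgroup G, K.Normal → K ≤ M → K = ⊥ ∨ K = M) : MulAction.IsPretransitive M Ω ∧ (∀ ω : Ω, MulAction.stabilizer M ω = ⊥) ∧ ∃ p d : ℕ, p.Prime ∧ 0 < d ∧ Nat.card Ω = p ^ d ∧ Nat.card M = p ^ d := by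
  obtain ⟨p, hp, -, hel⟩ := Lib.MinNormSolv.elementary_of_minimal hM hmin
  obtain ⟨d, hd, hcard⟩ := Lib.MinNormSolv.card_eq_prime_pow hM hp hel
  have hstab : ∀ ω : Ω, MulAction.stabilizer M ω = ⊥ := by
    intro ω
    obtain ⟨-, -, -, hinf, -⟩ := Lib.MinNormSolv.primitive_solvable hprim M hM hmin ω
    rw [eq_bot_iff]
    intro m hm
    have : (m : G) ∈ M ⊓ MulAction.stabilizer G ω := Subgroup.mem_inf.mpr ⟨m.2, hm⟩
    rw [hinf, Subgroup.mem_bot] at this
    exact Subgroup.mem_bot.mpr (Subtype.ext this)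
  have htrans : MulAction.IsPretransitive M Ω := by
    constructor
    intro x y
    obtain ⟨hU, hcore, -, -, -⟩ := Lib.MinNormSolv.primitive_solvable hprim M hM hmin x
    obtain ⟨g, rfl⟩ := MulAction.exists_smul_eq G x y
    obtain ⟨m, hm, u, hu, rfl⟩ := Lib.CoreFree.exists_mul_of_sup_eq_top
      (Lib.CoreFree.sup_eq_top (N := M) hU hcore hM) g
    refine ⟨⟨m, hm⟩, ?_⟩
    rw [mul_smul, MulAction.mem_stabilizer_iff.mp hu]
    rfl
  refine ⟨htrans, hstab, p, d, hp, hd, ?_, hcard⟩
  obtain ⟨ω⟩ := (inferInstance : Nonempty Ω)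
  rw [← hcard]
  have h1 := MulAction.orbitEquivQuotientStabilizer M ω
  have h2 : Nat.card (MulAction.orbit M ω) = Nat.card M := by
    rw [Nat.card_congr h1, hstab ω]
    exact Nat.card_congr QuotientGroup.quotientBot.toEquiv
  rw [← h2, MulAction.orbit_eq_univ]
  exact (Nat.card_univ).symm

end Cfsg.Agent.S0547
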