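import Cfsg.Statements.S0548
import Mathlib
import Cfsg.Agent.Lib.MinNormSolv

set_option autoImplicit false
open Cfsg

namespace Cfsg.Agent.S0548

/-- Let a finite solvable group G act faithfully and primitively on a set, let M be a minimal normal subgroup and H the stabilizer of a point. Then H is a complement to M, no non-identity element of H centralizes M, and the only subgroups of M normalized by H are the trivial subgroup and M. -/
theorem result {G : Type*} [Group G] [Finite G] [Group.IsSolvable G] {Ω : Type*} [MulAction G Ω] [FaithfulSMul G Ω] (hprim : MulAction.IsPreprimitive G Ω) (M : Subgroup G) [M.Normal] (hM : M ≠ ⊥) (hmin : ∀ K : Subgroup G, K.Normal → K ≤ M → K = ⊥ ∨ K = M) (ω : Ω) : Subgroup.IsComplement' M (MulAction.stabilizer G ω) ∧ MulAction.stabilizer G ω ⊓ Subgroup.centralizer (M : Set G) = ⊥ ∧ ∀ K : Subgroup G, K ≤ M → MulAction.stabilizer G ω ≤ Subgroup.normalizer (K : Set G) → K = ⊥ ∨ K = M := by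
  obtain ⟨hU, hcore, hC, hinf, hab⟩ := Lib.MinNormSolv.primitive_solvable hprim M hM hmin ω
  refine ⟨Lib.CoreFree.isComplement'_of hU hcore hM hinf, ?_, ?_⟩
  · rw [hC, inf_comm]; exact hinf
  · intro K hK hN
    apply hmin K _ hK
    apply Lib.CoreFree.normal_of_sup_eq_top (Lib.CoreFree.sup_eq_top (N := M) hU hcore hM) _ hN
    rw [Subgroup.le_normalizer_iff_commutator_le_left]
    calc ⁅K, M⁆ ≤ ⁅M, M⁆ := Subgroup.commutator_mono hK le_rfl
      _ = ⊥ := Subgroup.commutator_self_eq_bot_iff.mpr hab
      _ ≤ _ := bot_le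

end Cfsg.Agent.S0548
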