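import Cfsg.Statements.S0550
import Cfsg.Agent.Lib.CoreFree

set_option autoImplicit false
open Cfsg

namespace Cfsg.Agent.S0550

/-- Let U be a maximal subgroup with trivial normal core in a finite group G, and A ≠ B two minimal normal subgroups. Then A is the centralizer of B and B that of A, U complements each of them, A and B are non-abelian, and A, B and (A ⊔ B) ∩ U are pairwise isomorphic. -/
theorem result {G : Type*} [Group G] [Finite G] (U : Subgroup G) (hU : IsCoatom U) (hcore : U.normalCore = ⊥) (A B : Subgroup G) [A.Normal] [B.Normal] (hA : A ≠ ⊥) (hB : B ≠ ⊥) (hAmin : ∀ K : Subgroup G, K.Normal → K ≤ A → K = ⊥ ∨ K = A) (hBmin : ∀ K : Subgroup G, K.Normal → K ≤ B → K = ⊥ ∨ K = B) (hAB : A ≠ B) : Subgroup.centralizer (B : Set G) = A ∧ Subgroup.centralizer (A : Set G) = B ∧ Subgroup.IsComplement' A U ∧ Subgroup.IsComplement' B U ∧ ¬ IsMulCommutative A ∧ Nonempty (A ≃* B) ∧ Nonempty (A ≃* ↥((A ⊔ B) ⊓ U)) := by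
  have hinf : A ⊓ B = ⊥ := by
    rcases hAmin (A ⊓ B) inferInstance inf_le_left with h | h
    · exact h
    · exfalso
      have hle : A ≤ B := by rw [← h]; exact inf_le_right
      rcases hBmin A inferInstance hle with h2 | h2
      · exact hA h2
      · exact hAB h2
  have hcomm : ∀ a ∈ A, ∀ b ∈ B, a * b = b * a := by
    intro a ha b hb
    have h1 : a * b * a⁻¹ * b⁻¹ ∈ B :=
      B.mul_mem ((inferInstance : B.Normal).conj_mem b hb a) (B.inv_mem hb)
    have h2 : a * b * a⁻¹ * b⁻¹ ∈ A := by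
      have := A.mul_mem ha ((inferInstance : A.Normal).conj_mem a⁻¹ (A.inv_mem ha) b)
      simpa [mul_assoc] using this
    have h3 : a * b * a⁻¹ * b⁻¹ ∈ A ⊓ B := ⟨h2, h1⟩
    rw [hinf, Subgroup.mem_bot] at h3
    have h4 : a * b * a⁻¹ = b := by
      have := mul_eq_one_iff_eq_inv.mp h3
      rwa [inv_inv] at this
    have h5 := mul_inv_eq_iff_eq_mul.mp h4
    exact h5
  have hAc : A ≤ Subgroup.centralizer (B : Set G) := by
    intro a ha
    rw [Subgroup.mem_centralizer_iff]
    intro b hb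
    exact (hcomm a ha b hb).symm
  have hBc : B ≤ Subgroup.centralizer (A : Set G) := by
    intro b hb
    rw [Subgroup.mem_centralizer_iff]
    intro a ha
    exact hcomm a ha b hb
  have e1 : Subgroup.centralizer (B : Set G) = A := by
    rcases Lib.CoreFree.centralizer_minimal hU hcore hB A hAc with h | h
    · exact absurd h hA
    · exact h.symm
  have e2 : Subgroup.centralizer (A : Set G) = B := by
    rcases Lib.CoreFree.centralizer_minimal hU hcore hA B hBc with h | h
    · exact absurd h hB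
    · exact h.symm
  have hAU : A ⊓ U = ⊥ := by
    have := Lib.CoreFree.centralizer_inf_eq_bot (N := B) hU hcore hB
    rwa [e1] at this
  have hBU : B ⊓ U = ⊥ := by
    have := Lib.CoreFree.centralizer_inf_eq_bot (N := A) hU hcore hA
    rwa [e2] at this
  have hsup : A ⊔ B = A ⊔ ((A ⊔ B) ⊓ U) := by
    apply le_antisymm
    · intro x hx
      obtain ⟨a, ha, u, hu, rfl⟩ :=
        Lib.CoreFree.exists_mul_of_sup_eq_top
          (Lib.CoreFree.sup_eq_top (N := A) hU hcore hA) x
      have hu2 : u ∈ A ⊔ B := by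
        have := (A ⊔ B).mul_mem ((A ⊔ B).inv_mem (Subgroup.mem_sup_left ha)) hx
        rwa [inv_mul_cancel_left] at this
      exact Subgroup.mul_mem _ (Subgroup.mem_sup_left ha)
        (Subgroup.mem_sup_right (Subgroup.mem_inf.mpr ⟨hu2, hu⟩))
    · exact sup_le le_sup_left inf_le_left
  have hsup2 : B ⊔ A = B ⊔ ((A ⊔ B) ⊓ U) := by
    apply le_antisymm
    · intro x hx
      obtain ⟨a, ha, u, hu, rfl⟩ :=
        Lib.CoreFree.exists_mul_of_sup_eq_top
          (Lib.CoreFree.sup_eq_top (N := B) hU hcore hB) x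
      rw [sup_comm] at hx
      have hu2 : u ∈ A ⊔ B := by
        have := (A ⊔ B).mul_mem ((A ⊔ B).inv_mem (Subgroup.mem_sup_right ha)) hx
        rwa [inv_mul_cancel_left] at this
      exact Subgroup.mul_mem _ (Subgroup.mem_sup_left ha)
        (Subgroup.mem_sup_right (Subgroup.mem_inf.mpr ⟨hu2, hu⟩))
    · exact sup_le le_sup_left (inf_le_left.trans (by rw [sup_comm]))
  have hD1 : A ⊓ ((A ⊔ B) ⊓ U) = ⊥ := by
    rw [eq_bot_iff, ← hAU]
    exact le_inf inf_le_left (inf_le_right.trans inf_le_right)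
  have hD2 : B ⊓ ((A ⊔ B) ⊓ U) = ⊥ := by
    rw [eq_bot_iff, ← hBU]
    exact le_inf inf_le_left (inf_le_right.trans inf_le_right)
  obtain ⟨f1⟩ := Lib.CoreFree.complement_mulEquiv hinf hD1 hsup
  obtain ⟨f2⟩ := Lib.CoreFree.complement_mulEquiv (by rwa [inf_comm]) hD2 hsup2
  refine ⟨e1, e2, Lib.CoreFree.isComplement'_of hU hcore hA hAU,
    Lib.CoreFree.isComplement'_of hU hcore hB hBU, ?_, ⟨f2.trans f1.symm⟩, ⟨f2⟩⟩
  intro hc
  have hle : A ≤ B := by
    rw [← e2]
    intro a ha
    rw [Subgroup.mem_centralizer_iff]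
    intro a' ha'
    have := hc.is_comm.comm (⟨a', ha'⟩ : A) ⟨a, ha⟩
    exact congrArg Subtype.val this
  rcases hBmin A inferInstance hle with h2 | h2
  · exact hA h2
  · exact hAB h2

end Cfsg.Agent.S0550
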