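import Cfsg.Statements.S0551
import Mathlib
import Cfsg.Agent.Lib.MinNormSolv
import Cfsg.Agent.Lib.FratFit
import Cfsg.Agent.Lib.Subnormal

set_option autoImplicit false
open Pointwise
open Cfsg

namespace Cfsg.Agent.S0551

/-- In a finite solvable group all core-free maximal subgroups are conjugate. -/
theorem result {G : Type*} [Group G] [Finite G] [Group.IsSolvable G] (U V : Subgroup G) (hU : IsCoatom U) (hV : IsCoatom V) (hUc : U.normalCore = ⊥) (hVc : V.normalCore = ⊥) : ∃ g : G, MulAut.conj g • U = V := by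
  classical
  have hGn : Nontrivial G := by
    by_contra hn
    rw [not_nontrivial_iff_subsingleton] at hn
    exact hU.1 (Subsingleton.elim _ _)
  obtain ⟨A, hAn, hA, hAmin'⟩ := Lib.Subnormal.exists_isMinNormal (G := G)
  have hAmin : ∀ K : Subgroup G, K.Normal → K ≤ A → K = ⊥ ∨ K = A := by
    intro K hK hKA
    by_cases h : K = ⊥
    · exact Or.inl h
    · exact Or.inr (hAmin' K hK hKA h)
  obtain ⟨p, hp, hAab, hAel⟩ := Lib.MinNormSolv.elementary_of_minimal hA hAmin
  have hpF : Fact p.Prime := ⟨hp⟩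
  obtain ⟨a, ha, hAcard⟩ := Lib.MinNormSolv.card_eq_prime_pow hA hp hAel
  have hAC : A ≤ Subgroup.centralizer (A : Set G) := Subgroup.le_centralizer_iff_isMulCommutative.mpr hAab
  have hC : Subgroup.centralizer (A : Set G) = A := by
    rcases Lib.CoreFree.centralizer_minimal hU hUc hA A hAC with h | h
    · exact absurd h hA
    · exact h.symm
  have hinf : ∀ W : Subgroup G, IsCoatom W → W.normalCore = ⊥ → A ⊓ W = ⊥ := by
    intro W hW hWc
    have := Lib.CoreFree.centralizer_inf_eq_bot (N := A) hW hWc hA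
    rwa [hC] at this
  have hcardW : ∀ W : Subgroup G, IsCoatom W → W.normalCore = ⊥ →
      Nat.card A * Nat.card W = Nat.card G := by
    intro W hW hWc
    have := Lib.CoreFree.isComplement'_of hW hWc hA (hinf W hW hWc)
    exact this.card_mul
  by_cases hUb : U = ⊥
  · have h1 := hcardW U hU hUc
    have h2 := hcardW V hV hVc
    have h3 : Nat.card V = 1 := by
      rw [hUb, Subgroup.card_bot, mul_one] at h1
      rw [← h1] at h2
      have hpos : 0 < Nat.card A := Nat.card_pos
      exact Nat.eq_of_mul_eq_mul_left hpos (by rw [h2, mul_one])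
    have h4 : V = ⊥ := Subgroup.card_eq_one.mp h3
    exact ⟨1, by rw [hUb, h4, map_one, one_smul]⟩
  -- a minimal normal subgroup of `G / A`
  have hAtop : A ≠ ⊤ := by
    intro h
    have := hinf U hU hUc
    rw [h, top_inf_eq] at this
    exact hUb this
  have hQn : Nontrivial (G ⧸ A) := QuotientGroup.nontrivial_iff.mpr hAtop
  obtain ⟨K', hK'n, hK', hK'min'⟩ := Lib.Subnormal.exists_isMinNormal (G := G ⧸ A)
  have hK'min : ∀ K : Subgroup (G ⧸ A), K.Normal → K ≤ K' → K = ⊥ ∨ K = K' := by
    intro K hK hKA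
    by_cases h : K = ⊥
    · exact Or.inl h
    · exact Or.inr (hK'min' K hK hKA h)
  obtain ⟨q, hq, hK'ab, hK'el⟩ := Lib.MinNormSolv.elementary_of_minimal hK' hK'min
  have hqF : Fact q.Prime := ⟨hq⟩
  obtain ⟨b, hb, hK'card⟩ := Lib.MinNormSolv.card_eq_prime_pow hK' hq hK'el
  set K : Subgroup G := K'.comap (QuotientGroup.mk' A) with hK
  have hKn : K.Normal := hK'n.comap _
  have hAK : A ≤ K := by
    intro x hx
    rw [hK, Subgroup.mem_comap]
    have : (QuotientGroup.mk' A) x = 1 := (QuotientGroup.eq_one_iff x).mpr hx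
    rw [this]; exact K'.one_mem
  have hKcard : Nat.card K = Nat.card A * Nat.card K' := by
    have h1 := Lib.SubgroupTools.card_map_mul_card_inf_ker (QuotientGroup.mk' A) K
    rw [QuotientGroup.ker_mk', inf_eq_right.mpr hAK, hK,
      Subgroup.map_comap_eq_self_of_surjective (QuotientGroup.mk'_surjective A)] at h1
    rw [hK, ← h1, mul_comm]
  have hKA : K ≠ A := by
    intro h
    have h1 : Nat.card K' = 1 := by
      rw [h] at hKcard
      have hpos : 0 < Nat.card A := Nat.card_pos
      exact (Nat.eq_of_mul_eq_mul_left hpos (by rw [mul_one]; exact hKcard)).symm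
    exact hK' (Subgroup.card_eq_one.mp h1)
  have hpq : q ≠ p := by
    rintro rfl
    have hKp : IsPGroup q K := IsPGroup.of_card (n := a + b) (by
      rw [hKcard, hAcard, hK'card, pow_add])
    have hKnil : Group.IsNilpotent K := hKp.isNilpotent
    have hle : K ≤ Subgroup.centralizer (A : Set G) :=
      Lib.FratFit.nilpotent_le_centralizer_minimal hKnil hAmin
    rw [hC] at hle
    exact hKA (le_antisymm hle hAK)
  -- structure for each core-free maximal subgroup
  have key : ∀ W : Subgroup G, IsCoatom W → W.normalCore = ⊥ →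
      IsPGroup q ↥(K ⊓ W) ∧ ¬ q ∣ (K ⊓ W).relIndex K ∧
        W = Subgroup.normalizer ((K ⊓ W : Subgroup G) : Set G) := by
    intro W hW hWc
    have htop : A ⊔ W = ⊤ := Lib.CoreFree.sup_eq_top (N := A) hW hWc hA
    have hsup : A ⊔ (K ⊓ W) = K := by
      apply le_antisymm (sup_le hAK inf_le_left)
      intro x hx
      obtain ⟨y, hy, w, hw, rfl⟩ := Lib.CoreFree.exists_mul_of_sup_eq_top htop x
      have hwK : w ∈ K := by
        have := K.mul_mem (K.inv_mem (hAK hy)) hx
        rwa [inv_mul_cancel_left] at this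
      exact Subgroup.mul_mem _ (Subgroup.mem_sup_left hy)
        (Subgroup.mem_sup_right (Subgroup.mem_inf.mpr ⟨hwK, hw⟩))
    have hdis : A ⊓ (K ⊓ W) = ⊥ := by
      rw [eq_bot_iff, ← hinf W hW hWc]
      exact le_inf inf_le_left (inf_le_right.trans inf_le_right)
    have hc := Lib.SubgroupTools.card_sup_of_disjoint (N := A) (H := K ⊓ W)
      (by rw [Subgroup.normalizer_eq_top_iff.mpr hAn]; exact le_top) (disjoint_iff.mpr hdis)
    rw [hsup] at hc
    have hQcard : Nat.card ↥(K ⊓ W) = Nat.card K' := by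
      have hpos : 0 < Nat.card A := Nat.card_pos
      exact Nat.eq_of_mul_eq_mul_left hpos (by rw [← hc, hKcard])
    have hrel : (K ⊓ W).relIndex K = Nat.card A := by
      have h1 := Lib.SubgroupTools.card_mul_relIndex_of_le (inf_le_left : K ⊓ W ≤ K)
      have hpos : 0 < Nat.card ↥(K ⊓ W) := Nat.card_pos
      exact Nat.eq_of_mul_eq_mul_left hpos (by rw [h1, hc, mul_comm])
    have hQp : IsPGroup q ↥(K ⊓ W) := IsPGroup.of_card (n := b) (by rw [hQcard, hK'card])
    refine ⟨hQp, ?_, ?_⟩
    · rw [hrel, hAcard]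
      intro hd
      exact hpq ((Nat.prime_dvd_prime_iff_eq hq hp).mp (hq.dvd_of_dvd_pow hd))
    · have hWN : W ≤ Subgroup.normalizer ((K ⊓ W : Subgroup G) : Set G) := by
        exact Lib.LocBase.le_normalizer_inf
          (by rw [Subgroup.normalizer_eq_top_iff.mpr hKn]; exact le_top) Subgroup.le_normalizer
      rcases eq_or_lt_of_le hWN with h | h
      · exact h
      · exfalso
        have h1 := hW.2 _ h
        have h2 : (K ⊓ W).Normal := Subgroup.normalizer_eq_top_iff.mp h1
        have h3 : K ⊓ W = ⊥ := by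
          by_contra hne
          exact Lib.CoreFree.not_le_of_core (U := W) hWc hne inf_le_right
        rw [h3, Subgroup.card_bot, hK'card] at hQcard
        have := Nat.one_lt_pow hb.ne' hq.one_lt
        omega
  obtain ⟨hU1, hU2, hU3⟩ := key U hU hUc
  obtain ⟨hV1, hV2, hV3⟩ := key V hV hVc
  obtain ⟨m, -, hm⟩ := Lib.SubgroupTools.sylow_conj_rel (inf_le_left : K ⊓ U ≤ K)
    (inf_le_left : K ⊓ V ≤ K) hU1 hV1 hU2 hV2
  refine ⟨m, ?_⟩
  rw [hU3, hV3, ← hm]
  exact Lib.LocBase.map_conj_normalizer (K ⊓ U) m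

end Cfsg.Agent.S0551
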