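import Cfsg.Statements.S0552
import Mathlib
import Cfsg.Agent.Lib.FratFit

set_option autoImplicit false
open Cfsg

namespace Cfsg.Agent.S0552

/-- Let σ be an automorphism of a finite solvable group G fixing every element of the Fitting subgroup. If σ is not the identity then the order of σ and the order of G have a common prime factor. -/
theorem result {G : Type*} [Group G] [Finite G] [Group.IsSolvable G] (σ : G ≃* G) (hσ : ∀ x ∈ Cfsg.fittingSubgroup G, σ x = x) (hne : σ ≠ MulEquiv.refl G) : ¬ (orderOf σ).Coprime (Nat.card G) := by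
  have hC : Subgroup.centralizer (Cfsg.fittingSubgroup G : Set G) ≤ Cfsg.fittingSubgroup G :=
    Lib.FratFit.centralizer_fitting_le
  have hFn : (Cfsg.fittingSubgroup G).Normal := Lib.Layer.fittingSubgroup_normal G
  intro hcop
  apply hne
  have hf : ∀ g : G, g⁻¹ * σ g ∈ Cfsg.fittingSubgroup G := by
    intro g
    apply hC
    rw [Subgroup.mem_centralizer_iff]
    intro x hx
    have h1 : σ (g * x * g⁻¹) = g * x * g⁻¹ := hσ _ (hFn.conj_mem x hx g)
    rw [map_mul, map_mul, map_inv, hσ x hx] at h1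
    -- σ g * x * (σ g)⁻¹ = g * x * g⁻¹
    calc x * (g⁻¹ * σ g) = g⁻¹ * (g * x * g⁻¹) * σ g := by group
      _ = g⁻¹ * (σ g * x * (σ g)⁻¹) * σ g := by rw [h1]
      _ = g⁻¹ * σ g * x := by group
  have hpow : ∀ (n : ℕ) (g : G), (σ ^ n : MulAut G) g = g * (g⁻¹ * σ g) ^ n := by
    intro n g
    induction n with
    | zero => simp
    | succ n ih =>
      rw [pow_succ', MulAut.mul_apply, ih, map_mul, map_pow, hσ _ (hf g), pow_succ', ← mul_assoc g]
      rw [mul_inv_cancel_left]
  ext g
  have h1 : (g⁻¹ * σ g) ^ orderOf σ = 1 := by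
    have h := hpow (orderOf σ) g
    have h2 : (σ ^ orderOf σ : MulAut G) = 1 := pow_orderOf_eq_one σ
    rw [h2, MulAut.one_apply] at h
    have h3 : g * 1 = g * (g⁻¹ * σ g) ^ orderOf σ := by rw [mul_one]; exact h
    exact (mul_left_cancel h3).symm
  have h2 : (g⁻¹ * σ g) ^ Nat.card G = 1 := pow_card_eq_one'
  have h3 : g⁻¹ * σ g = 1 := by
    rw [← orderOf_eq_one_iff, ← Nat.dvd_one]
    have := Nat.dvd_gcd (orderOf_dvd_of_pow_eq_one h1) (orderOf_dvd_of_pow_eq_one h2)
    rwa [hcop] at this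
  exact (inv_mul_eq_one.mp h3).symm

end Cfsg.Agent.S0552
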