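import Cfsg.Statements.S0553
import Mathlib
import Cfsg.Agent.Lib.LocBase
import Cfsg.Agent.Lib.SubgroupTools
import Cfsg.Agent.Lib.MinNormSolv
import Cfsg.Agent.Lib.Subnormal
import Cfsg.Agent.Lib.FratFit

set_option autoImplicit false
open Cfsg

namespace Cfsg.Agent.S0553

open Subgroup Lib.LocBase Lib.SubgroupTools

universe u

theorem main (n : ℕ) : ∀ (G : Type u) [Group G] [Finite G] [Group.IsSolvable G] [Nontrivial G],
    Nat.card G = n → (∀ M : Subgroup G, IsCoatom M → (Nat.card M).Coprime M.index) →
    ∃ p : ℕ, p.Prime ∧ p ∣ Nat.card G ∧ ∀ P : Sylow p G, (P : Subgroup G).Normal := by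
  induction n using Nat.strong_induction_on with
  | _ n ih =>
    intro G _ _ _ _ hn h
    obtain ⟨N, hNn, hN, hNmin'⟩ := Lib.Subnormal.exists_isMinNormal (G := G)
    have hNmin : ∀ K : Subgroup G, K.Normal → K ≤ N → K = ⊥ ∨ K = N := by
      intro K hK hKN
      by_cases h : K = ⊥
      · exact Or.inl h
      · exact Or.inr (hNmin' K hK hKN h)
    obtain ⟨p, hp, hNab, hNel⟩ := Lib.MinNormSolv.elementary_of_minimal hN hNmin
    have : Fact p.Prime := ⟨hp⟩
    have hNpg : IsPGroup p N := isPGroup_of_forall_pow_eq_one hNel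
    obtain ⟨d, hd, hNcard⟩ := Lib.MinNormSolv.card_eq_prime_pow hN hp hNel
    have hpN : p ∣ Nat.card N := by rw [hNcard]; exact dvd_pow_self p hd.ne'
    have hpG : p ∣ Nat.card G := hpN.trans (card_subgroup_dvd_card N)
    -- if `N` is a Sylow subgroup we are done
    have hdone : ¬ p ∣ N.index → ∃ p : ℕ, p.Prime ∧ p ∣ Nat.card G ∧
        ∀ P : Sylow p G, (P : Subgroup G).Normal := by
      intro hi
      refine ⟨p, hp, hpG, fun P => ?_⟩
      have h1 : (hNpg.toSylow hi : Subgroup G).Normal := hNn
      have := Sylow.unique_of_normal (hNpg.toSylow hi) h1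
      rw [Subsingleton.elim P (hNpg.toSylow hi)]
      exact h1
    by_cases hNtop : N = ⊤
    · apply hdone
      rw [hNtop, index_top, Nat.dvd_one]
      exact hp.one_lt.ne'
    have hnt : Nontrivial (G ⧸ N) := by
      rw [← Finite.one_lt_card_iff_nontrivial]
      have h1 : Nat.card (G ⧸ N) = N.index := rfl
      rw [h1]
      have h2 : N.index ≠ 1 := by rwa [ne_eq, index_eq_one]
      have h3 : N.index ≠ 0 := index_ne_zero_of_finite
      omega
    have hlt : Nat.card (G ⧸ N) < n := by
      have h1 := Subgroup.card_mul_index N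
      have h2 : 1 < Nat.card N := (Subgroup.one_lt_card_iff_ne_bot N).mpr hN
      have h3 : Nat.card (G ⧸ N) = N.index := rfl
      have h4 : 0 < N.index := Nat.pos_of_ne_zero Subgroup.index_ne_zero_of_finite
      rw [h3, ← hn]
      nlinarith
    have hsurj := QuotientGroup.mk'_surjective N
    obtain ⟨q, hq, hqd, hqn⟩ := ih _ hlt (G ⧸ N) rfl (by
      intro M hM
      have h1 := h _ (isCoatom_comap_of_surjective hsurj hM)
      rw [index_comap_of_surjective _ hsurj] at h1
      refine h1.coprime_dvd_left ?_
      have h2 := card_map_dvd (M.comap (QuotientGroup.mk' N)) (QuotientGroup.mk' N)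
      rwa [map_comap_eq_self_of_surjective hsurj] at h2)
    have : Fact q.Prime := ⟨hq⟩
    obtain ⟨Q⟩ : Nonempty (Sylow q G) := inferInstance
    have h1 : ((Q : Subgroup G) ⊔ N).Normal := by
      have h3 := (hqn (Q.mapSurjective hsurj)).comap (QuotientGroup.mk' N)
      rw [Sylow.coe_mapSurjective, Subgroup.comap_map_eq, QuotientGroup.ker_mk'] at h3
      exact h3
    have hqG : q ∣ Nat.card G := by
      refine hqd.trans ?_
      have : Nat.card (G ⧸ N) = N.index := rfl
      rw [this]; exact index_dvd_card N
    by_cases hQn : (Q : Subgroup G).Normal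
    · refine ⟨q, hq, hqG, fun P => ?_⟩
      have := Sylow.unique_of_normal Q hQn
      rw [Subsingleton.elim P Q]
      exact hQn
    -- Frattini argument
    have hsyl : IsSyl q (Q : Subgroup G) ((Q : Subgroup G) ⊔ N) :=
      (isSyl_top Q).of_le le_sup_left le_top
    have hfr := hsyl.frattini_sup (H := ⊤) le_top (by rw [normalizer_eq_top_iff.mpr h1])
    rw [top_inf_eq] at hfr
    have hne : normalizer ((Q : Subgroup G) : Set G) ≠ ⊤ := fun h => hQn (normalizer_eq_top_iff.mp h)
    obtain ⟨M, hM, hle⟩ :=
      (eq_top_or_exists_le_coatom (normalizer ((Q : Subgroup G) : Set G))).resolve_left hne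
    have hsup : N ⊔ M = ⊤ := by
      rw [eq_top_iff, ← hfr]
      exact sup_le (sup_le ((le_normalizer.trans hle).trans le_sup_right) le_sup_left)
        (hle.trans le_sup_right)
    have hNM : ¬ N ≤ M := by
      intro h
      rw [sup_eq_right.mpr h] at hsup
      exact hM.1 hsup
    have hn' : (N ⊓ M).Normal := by
      rw [← normalizer_eq_top_iff, eq_top_iff, ← hsup]
      refine sup_le ?_ ?_
      · refine le_trans ?_ (centralizer_le_normalizer _)
        intro a ha
        rw [mem_centralizer_iff]
        intro b hb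
        exact congrArg Subtype.val (hNab.is_comm.comm ⟨b, (mem_inf.mp hb).1⟩ ⟨a, ha⟩)
      · exact Lib.LocBase.le_normalizer_inf le_normalizer_of_normal le_normalizer
    have hbot : N ⊓ M = ⊥ := by
      rcases hNmin _ hn' inf_le_left with h1 | h1
      · exact h1
      · exact absurd (inf_eq_left.mp h1) hNM
    have h2 := card_sup_of_disjoint (N := N) (H := M) le_normalizer_of_normal
      (disjoint_iff.mpr hbot)
    rw [hsup, card_top] at h2
    have h3 := Subgroup.card_mul_index M
    rw [h2, mul_comm] at h3
    have h4 : M.index = Nat.card N := Nat.eq_of_mul_eq_mul_right Nat.card_pos h3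
    have h5 : N.index = Nat.card M := by
      have h6 := Subgroup.card_mul_index N
      rw [h2] at h6
      exact Nat.eq_of_mul_eq_mul_left Nat.card_pos h6
    apply hdone
    rw [h5]
    intro hd'
    have h7 := h M hM
    rw [h4] at h7
    exact hp.one_lt.ne' (Nat.dvd_one.mp (h7 ▸ Nat.dvd_gcd hd' hpN))

/-- Let G be a nontrivial finite solvable group in which every maximal subgroup has order coprime to its index. Then for some prime p dividing the order of G the Sylow p-subgroups of G are normal. -/
theorem result {G : Type*} [Group G] [Finite G] [Group.IsSolvable G] [Nontrivial G] (h : ∀ M : Subgroup G, IsCoatom M → (Nat.card M).Coprime M.index) : ∃ p : ℕ, p.Prime ∧ p ∣ Nat.card G ∧ ∀ P : Sylow p G, (P : Subgroup G).Normal := by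
  exact main _ G rfl h

end Cfsg.Agent.S0553
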