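import Cfsg.Statements.S0554
import Mathlib
import Cfsg.Agent.Lib.MinNormSolv
import Cfsg.Agent.Lib.Subnormal
import Cfsg.Agent.Lib.LocBase

set_option autoImplicit false
open Cfsg

namespace Cfsg.Agent.S0554

theorem absorb {G : Type*} [Group G] (A : Subgroup G) (hAn : A.Normal) : ∀ (m : ℕ) (s : Fin m → G)
    (j : Fin m) (a : G), a ∈ A →
    ∃ a' ∈ A, (List.ofFn s).prod * a = (List.ofFn (Function.update s j (s j * a'))).prod := by
  intro m
  induction m with
  | zero => intro s j; exact j.elim0
  | succ m ihm =>
    intro s j a ha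
    refine Fin.cases ?_ ?_ j
    · refine ⟨(List.ofFn fun i => s (Fin.succ i)).prod * a *
        ((List.ofFn fun i => s (Fin.succ i)).prod)⁻¹, hAn.conj_mem a ha _, ?_⟩
      have e : (fun i : Fin m => Function.update s 0 (s 0 *
          ((List.ofFn fun i => s (Fin.succ i)).prod * a *
        ((List.ofFn fun i => s (Fin.succ i)).prod)⁻¹)) (Fin.succ i)) = fun i => s (Fin.succ i) := by
        funext i
        rw [Function.update_of_ne (Fin.succ_ne_zero i)]
      rw [List.ofFn_succ, List.prod_cons, List.ofFn_succ (f := Function.update s 0 _),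
        List.prod_cons, e, Function.update_self]
      group
    · intro k
      obtain ⟨a', ha', e⟩ := ihm (fun i => s (Fin.succ i)) k a ha
      refine ⟨a', ha', ?_⟩
      have e2 : (fun i : Fin m => Function.update s (Fin.succ k) (s (Fin.succ k) * a')
          (Fin.succ i)) =
          Function.update (fun i => s (Fin.succ i)) k (s (Fin.succ k) * a') := by
        funext i
        by_cases hik : i = k
        · subst hik; rw [Function.update_self, Function.update_self]
        · rw [Function.update_of_ne hik, Function.update_of_ne]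
          intro h; exact hik (Fin.succ_injective _ h)
      rw [List.ofFn_succ, List.prod_cons, List.ofFn_succ (f := Function.update s (Fin.succ k) _),
        List.prod_cons, e2, Function.update_of_ne (Fin.succ_ne_zero k).symm, mul_assoc, e]

universe u

theorem main (n : ℕ) : ∀ (G : Type u) [Group G] [Finite G] [Group.IsSolvable G], Nat.card G = n →
    ∀ (t : ℕ) (p : Fin t → ℕ) (_ : ∀ i, (p i).Prime)
    (_ : ∀ q : ℕ, q.Prime → q ∣ Nat.card G → ∃ i, p i = q)
    (S : (i : Fin t) → Sylow (p i) G), ∀ g : G, ∃ s : (i : Fin t) → G,
      (∀ i, s i ∈ (S i : Subgroup G)) ∧ g = (List.ofFn s).prod := by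
  classical
  induction n using Nat.strong_induction_on with
  | _ n ih =>
    intro G _ _ _ hn t p hp hall S g
    rcases subsingleton_or_nontrivial G with hG | hG
    · exact ⟨fun _ => 1, fun i => one_mem _, Subsingleton.elim _ _⟩
    · obtain ⟨A, hAn, hA, hAmin'⟩ := Lib.Subnormal.exists_isMinNormal (G := G)
      have hAmin : ∀ K : Subgroup G, K.Normal → K ≤ A → K = ⊥ ∨ K = A := by
        intro K hK hKA
        by_cases h : K = ⊥
        · exact Or.inl h
        · exact Or.inr (hAmin' K hK hKA h)
      obtain ⟨q, hq, hAab, hAel⟩ := Lib.MinNormSolv.elementary_of_minimal hA hAmin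
      obtain ⟨a, ha, hAcard⟩ := Lib.MinNormSolv.card_eq_prime_pow hA hq hAel
      obtain ⟨j, hj⟩ := hall q hq ((dvd_pow_self q ha.ne').trans
        (hAcard ▸ Subgroup.card_subgroup_dvd_card A))
      have hprime : ∀ i, Fact (p i).Prime := fun i => ⟨hp i⟩
      have hAS : A ≤ (S j : Subgroup G) := by
        have hAp : IsPGroup (p j) A := by
          rw [hj]; exact Lib.SubgroupTools.isPGroup_of_forall_pow_eq_one hAel
        have h1 : A ≤ Cfsg.pCore (p j) G := le_sSup ⟨hAn, hAp⟩
        have h2 := (Lib.LocBase.isSyl_top (S j)).pCoreOf_le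
        rw [Lib.LocBase.pCoreOf_top] at h2
        exact h1.trans h2
      have hcardlt : Nat.card (G ⧸ A) < n := by
        rw [← hn, ← Subgroup.card_mul_index A, ← Subgroup.index_eq_card]
        have h1 : 1 < Nat.card A := (Subgroup.one_lt_card_iff_ne_bot A).mpr hA
        have h2 : 0 < A.index := Nat.pos_of_ne_zero Subgroup.index_ne_zero_of_finite
        nlinarith
      have hdvd : Nat.card (G ⧸ A) ∣ Nat.card G := by
        rw [← Subgroup.index_eq_card]; exact Subgroup.index_dvd_card A
      obtain ⟨s', hs', hg⟩ := ih _ hcardlt (G ⧸ A) rfl t p hp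
        (fun r hr hrd => hall r hr (hrd.trans hdvd))
        (fun i => (S i).mapSurjective (QuotientGroup.mk'_surjective A)) (QuotientGroup.mk g)
      -- lift
      have hlift : ∀ i, ∃ x ∈ (S i : Subgroup G), (QuotientGroup.mk' A) x = s' i := by
        intro i
        obtain ⟨x, hx, e⟩ := hs' i
        exact ⟨x, hx, e⟩
      choose s hs hse using hlift
      have hgs : (QuotientGroup.mk' A) ((List.ofFn s).prod) = QuotientGroup.mk g := by
        rw [hg, map_list_prod, List.map_ofFn]
        congr 2
        funext i
        exact hse i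
      have haA : ((List.ofFn s).prod)⁻¹ * g ∈ A := by
        rw [← QuotientGroup.eq]; exact hgs
      obtain ⟨a', ha', e⟩ := absorb A hAn t s j _ haA
      refine ⟨Function.update s j (s j * a'), ?_, ?_⟩
      · intro i
        by_cases hij : i = j
        · subst hij
          rw [Function.update_self]
          exact Subgroup.mul_mem _ (hs i) (hAS ha')
        · rw [Function.update_of_ne hij]
          exact hs i
      · rw [← e]; group

/-- Let G be a finite solvable group and let S assign to each of t distinct primes, including every prime divisor of the order of G, a Sylow subgroup of G. Then every element of G is a product s_0 s_1 ⋯ s_(t-1) with s_i in S i, the factors taken in the given order. -/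
theorem result {G : Type*} [Group G] [Finite G] [Group.IsSolvable G] (t : ℕ) (p : Fin t → ℕ) (hp : ∀ i, (p i).Prime) (hinj : Function.Injective p) (hall : ∀ q : ℕ, q.Prime → q ∣ Nat.card G → ∃ i, p i = q) (S : (i : Fin t) → Sylow (p i) G) : ∀ g : G, ∃ s : (i : Fin t) → G, (∀ i, s i ∈ (S i : Subgroup G)) ∧ g = (List.ofFn s).prod := by
  exact main _ G rfl t p hp hall S

end Cfsg.Agent.S0554
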