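import Cfsg.Statements.S0555
import Mathlib

set_option autoImplicit false
open Cfsg

namespace Cfsg.Agent.S0555

open scoped commutatorElement

/-- Let i ≥ 1. If in the derived series of a group the quotient of the i-th term by the (i+1)-st and the quotient of the (i+1)-st by the (i+2)-nd are both cyclic, then the (i+1)-st and (i+2)-nd terms coincide. -/
theorem result {G : Type*} [Group G] (i : ℕ) (hi : 1 ≤ i) (h₁ : IsCyclic (↥(derivedSeries G i) ⧸ (derivedSeries G (i + 1)).subgroupOf (derivedSeries G i))) (h₂ : IsCyclic (↥(derivedSeries G (i + 1)) ⧸ (derivedSeries G (i + 2)).subgroupOf (derivedSeries G (i + 1)))) : derivedSeries G (i + 1) = derivedSeries G (i + 2) := by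
  classical
  set A : Subgroup G := derivedSeries G i with hA
  set B : Subgroup G := derivedSeries G (i + 1) with hB
  set C : Subgroup G := derivedSeries G (i + 2) with hC
  have hAn : A.Normal := by rw [hA]; infer_instance
  have hBn : B.Normal := by rw [hB]; infer_instance
  have hCn : C.Normal := by rw [hC]; infer_instance
  have hBA : B ≤ A := derivedSeries_antitone G (Nat.le_succ i)
  have hCB : C ≤ B := derivedSeries_antitone G (Nat.le_succ (i + 1))
  have hAcomm : A ≤ commutator G := by
    rw [hA]
    have : commutator G = derivedSeries G 1 := (derivedSeries_one G).symm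
    rw [this]
    exact derivedSeries_antitone G hi
  -- the quotient `G / C`
  set π := QuotientGroup.mk' C with hπ
  set B' : Subgroup (G ⧸ C) := B.map π with hB'
  have hB'n : B'.Normal := hBn.map _ (QuotientGroup.mk'_surjective C)
  have hB'c : IsCyclic B' := by
    let f : ↥B →* B' := π.subgroupMap B
    have hf : Function.Surjective f := π.subgroupMap_surjective B
    have hker : C.subgroupOf B ≤ f.ker := by
      intro x hx
      rw [MonoidHom.mem_ker]
      apply Subtype.ext
      exact (QuotientGroup.eq_one_iff (x : G)).mpr (Subgroup.mem_subgroupOf.mp hx)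
    have hs : Function.Surjective (QuotientGroup.lift (C.subgroupOf B) f hker) := by
      intro y
      obtain ⟨x, rfl⟩ := hf y
      exact ⟨QuotientGroup.mk x, rfl⟩
    exact isCyclic_of_surjective _ hs
  -- commutators centralize `B'`
  have hcent : ∀ x ∈ commutator (G ⧸ C), ∀ b ∈ B', x * b = b * x := by
    intro x hx b hb
    let φ : (G ⧸ C) →* (ZMod (Nat.card B'))ˣ :=
      (IsCyclic.mulAutMulEquiv B').toMonoidHom.comp MulAut.conjNormal
    have h1 : x ∈ φ.ker := Abelianization.commutator_subset_ker φ hx
    have h2 : (MulAut.conjNormal x : MulAut B') = 1 := by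
      rw [MonoidHom.mem_ker] at h1
      exact (IsCyclic.mulAutMulEquiv B').injective (by rw [map_one]; exact h1)
    have h3 : x * b * x⁻¹ = b := by
      have := congrArg (fun σ : MulAut B' => ((σ ⟨b, hb⟩ : B') : G ⧸ C)) h2
      simpa using this
    exact mul_inv_eq_iff_eq_mul.mp h3
  -- a generator of `A` modulo `B`
  obtain ⟨x0, hx0⟩ := h₁.exists_generator
  obtain ⟨x, rfl⟩ := QuotientGroup.mk_surjective x0
  have hgen : ∀ a ∈ A, ∃ (k : ℤ) (b : G), b ∈ B ∧ a = (x : G) ^ k * b := by
    intro a ha
    obtain ⟨k, hk⟩ := hx0 (QuotientGroup.mk ⟨a, ha⟩)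
    have hk' : (QuotientGroup.mk (x ^ k) : ↥A ⧸ B.subgroupOf A) = QuotientGroup.mk ⟨a, ha⟩ := hk
    rw [QuotientGroup.eq, Subgroup.mem_subgroupOf] at hk'
    refine ⟨k, _, hk', ?_⟩
    simp
  -- `A / C` is abelian
  have hle : B ≤ C := by
    have e : B = ⁅A, A⁆ := rfl
    rw [e, Subgroup.commutator_le]
    intro a ha a2 ha2
    obtain ⟨k, b, hb, rfl⟩ := hgen a ha
    obtain ⟨l, b2, hb2, rfl⟩ := hgen a2 ha2
    have hmem : ∀ y ∈ A, π y ∈ commutator (G ⧸ C) := by
      intro y hy
      have h1 : π y ∈ (commutator G).map π := Subgroup.mem_map_of_mem π (hAcomm hy)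
      have h2 : (commutator G).map π ≤ commutator (G ⧸ C) := by
        rw [commutator_def, Subgroup.map_commutator]
        exact Subgroup.commutator_mono le_top le_top
      exact h2 h1
    have hx : (x : G) ∈ A := x.2
    have c1 : ∀ y ∈ A, Commute (π y) (π b) := fun y hy =>
      hcent _ (hmem y hy) _ (Subgroup.mem_map_of_mem π hb)
    have c2 : ∀ y ∈ A, Commute (π y) (π b2) := fun y hy =>
      hcent _ (hmem y hy) _ (Subgroup.mem_map_of_mem π hb2)
    have hcomm : Commute (π ((x : G) ^ k * b)) (π ((x : G) ^ l * b2)) := by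
      rw [map_mul, map_mul]
      have e1 : Commute (π ((x : G) ^ k)) (π ((x : G) ^ l)) := by
        rw [map_zpow, map_zpow]
        exact (Commute.refl (π (x : G))).zpow_zpow k l
      have e2 : Commute (π ((x : G) ^ k)) (π b2) := c2 _ (A.zpow_mem hx k)
      have e3 : Commute (π b) (π ((x : G) ^ l)) := (c1 _ (A.zpow_mem hx l)).symm
      have e4 : Commute (π b) (π b2) := c2 b (hBA hb)
      exact (e1.mul_right e2).mul_left (e3.mul_right e4)
    rw [← QuotientGroup.eq_one_iff]
    have : (QuotientGroup.mk ⁅(x : G) ^ k * b, (x : G) ^ l * b2⁆ : G ⧸ C) =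
        ⁅π ((x : G) ^ k * b), π ((x : G) ^ l * b2)⁆ := map_commutatorElement π _ _
    rw [this, commutatorElement_eq_one_iff_commute]
    exact hcomm
  exact le_antisymm hle hCB

end Cfsg.Agent.S0555
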