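import Cfsg.Statements.S0556
import Mathlib
import Cfsg.Agent.Lib.FrobThm
import Cfsg.Agent.Lib.CoprimeAction
import Cfsg.Agent.Lib.AbelProd

set_option autoImplicit false
open Cfsg

namespace Cfsg.Agent.S0556

open scoped Pointwise commutatorElement
open Subgroup

universe u

theorem commutator_le_of_sup {G : Type u} [Group G] {A N : Subgroup G} [N.Normal]
    (hAc : ∀ x ∈ A, ∀ y ∈ A, x * y = y * x) (hAN : A ⊔ N = ⊤) : commutator G ≤ N := by
  rw [← Subgroup.Normal.quotient_commutative_iff_commutator_le]
  refine ⟨⟨fun x y => ?_⟩⟩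
  obtain ⟨x, rfl⟩ := QuotientGroup.mk_surjective x
  obtain ⟨y, rfl⟩ := QuotientGroup.mk_surjective y
  obtain ⟨a, ha, n, hn, rfl⟩ := mem_sup_of_normal_right.mp (hAN ▸ mem_top x : x ∈ A ⊔ N)
  obtain ⟨b, hb, m, hm, rfl⟩ := mem_sup_of_normal_right.mp (hAN ▸ mem_top y : y ∈ A ⊔ N)
  have h1 : (QuotientGroup.mk (a * n) : G ⧸ N) = QuotientGroup.mk a := by
    rw [QuotientGroup.mk_mul_of_mem _ hn]
  have h2 : (QuotientGroup.mk (b * m) : G ⧸ N) = QuotientGroup.mk b := by
    rw [QuotientGroup.mk_mul_of_mem _ hm]
  rw [h1, h2, ← QuotientGroup.mk_mul, ← QuotientGroup.mk_mul, hAc a ha b hb]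

theorem frob {G : Type u} [Group G] [Finite G] {A : Subgroup G} (hA : IsCoatom A)
    (hAc : ∀ x ∈ A, ∀ y ∈ A, x * y = y * x) (hF : Cfsg.IsFrobeniusComplement A) :
    derivedSeries G 2 = ⊥ := by
  obtain ⟨N, -, hNn, hc⟩ := Lib.FrobThm.exists_kernel hF
  have hcop : (Nat.card A).Coprime (Nat.card N) := by
    have h := Lib.FrobGroup.coprime_card_index hF
    rwa [hc.index_eq_card] at h
  have hNA : N ⊓ A = ⊥ := hc.disjoint.eq_bot
  have hN : N ≠ ⊥ := by
    rintro rfl
    have h := hc.sup_eq_top
    rw [bot_sup_eq] at h
    exact hA.1 h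
  -- normal subgroups inside `N`
  have key : ∀ Q : Subgroup G, Q ≤ N → Q ≠ ⊥ → A ≤ normalizer (Q : Set G) → A ⊔ Q = ⊤ ∧ Q = N := by
    intro Q hQN hQ hQA
    have h1 : A ⊔ Q = ⊤ := by
      apply hA.2
      refine lt_of_le_of_ne le_sup_left ?_
      intro h
      apply hQ
      rw [eq_bot_iff, ← hNA]
      refine le_inf hQN ?_
      rw [h]
      exact le_sup_right
    refine ⟨h1, le_antisymm hQN ?_⟩
    have hQn : Q.Normal := by
      rw [← normalizer_eq_top_iff, eq_top_iff, ← h1]
      exact sup_le hQA le_normalizer
    intro x hx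
    obtain ⟨a, ha, q, hq, e⟩ := mem_sup_of_normal_right.mp (h1 ▸ mem_top x : x ∈ A ⊔ Q)
    have h2 : a ∈ N ⊓ A := by
      refine ⟨?_, ha⟩
      have : a = x * q⁻¹ := by rw [← e]; group
      rw [this]
      exact N.mul_mem hx (N.inv_mem (hQN hq))
    rw [hNA, mem_bot] at h2
    rw [← e, h2, one_mul]
    exact hq
  obtain ⟨q, hq, hqN⟩ := Nat.exists_prime_and_dvd (n := Nat.card N)
    (fun h => hN (Subgroup.card_eq_one.mp h))
  have : Fact q.Prime := ⟨hq⟩
  have hAs : Group.IsSolvable A := by
    have := Lib.AbelProd.isMulCommutative_of hAc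
    let _ : CommGroup A := { (inferInstance : Group A) with mul_comm := this.is_comm.comm }
    infer_instance
  obtain ⟨P, hPN, hPp, hPi, hAP⟩ := Lib.CoprimeAction.exists_invariant_sylow (A := A) (K := N)
    (by rw [normalizer_eq_top]; exact le_top) hcop (Or.inl hAs) q
  have hPne : P ≠ ⊥ := by
    rintro rfl
    rw [relIndex_bot_left] at hPi
    exact hPi hqN
  obtain ⟨-, hPN'⟩ := key P hPN hPne hAP
  subst hPN'
  have hab : ⁅P, P⁆ = ⊥ := by
    by_contra hne
    obtain ⟨-, h1⟩ := key ⁅P, P⁆ (commutator_le_left P P) hne (by rw [normalizer_eq_top]; exact le_top)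
    have hnil : Group.IsNilpotent P := hPp.isNilpotent
    have : Nontrivial P := (Subgroup.nontrivial_iff_ne_bot P).mpr hPne
    have h2 := Group.IsSolvable.commutator_lt_top_of_nontrivial P
    have h3 : (commutator P).map P.subtype = P := by
      rw [commutator_def, map_commutator, ← MonoidHom.range_eq_map, range_subtype]
      exact h1
    apply h2.ne
    rw [eq_top_iff]
    intro x _
    have h4 : (x : G) ∈ (commutator P).map P.subtype := by rw [h3]; exact x.2
    obtain ⟨y, hy, e⟩ := h4
    have : y = x := Subtype.ext e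
    exact this ▸ hy
  rw [eq_bot_iff, ← hab, derivedSeries_succ, derivedSeries_one]
  have h5 : commutator G ≤ P := commutator_le_of_sup hAc (by rw [sup_comm]; exact hc.sup_eq_top)
  exact commutator_mono h5 h5

theorem main {G : Type u} [Group G] [Finite G] {A : Subgroup G} (hA : IsCoatom A)
    (hAc : ∀ x ∈ A, ∀ y ∈ A, x * y = y * x) : derivedSeries G 3 = ⊥ := by
  by_cases hn : A.Normal
  · have h1 : commutator G ≤ A := by
      obtain ⟨g, hg⟩ : ∃ g, g ∉ A := by
        by_contra h
        push Not at h
        exact hA.1 (eq_top_iff.mpr fun x _ => h x)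
      apply commutator_le_of_sup (A := zpowers g)
      · rintro _ ⟨m, rfl⟩ _ ⟨n, rfl⟩
        exact (Commute.zpow_zpow_self g m n).eq
      · rw [sup_comm]
        apply hA.2
        refine lt_of_le_of_ne le_sup_left ?_
        intro h
        apply hg
        rw [h]
        exact (le_sup_right : zpowers g ≤ _) (mem_zpowers g)
    have h2 : derivedSeries G 2 = ⊥ := by
      rw [eq_bot_iff, derivedSeries_succ, derivedSeries_one]
      refine (commutator_mono h1 h1).trans ?_
      rw [← eq_bot_iff, commutator_eq_bot_iff_le_centralizer]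
      intro x hx
      rw [mem_centralizer_iff]
      intro y hy
      exact hAc y hy x hx
    rw [eq_bot_iff, ← h2]
    exact derivedSeries_antitone G (by omega)
  · have hN : normalizer (A : Set G) = A := by
      by_contra h
      apply hn
      rw [← normalizer_eq_top_iff]
      exact hA.2 _ (lt_of_le_of_ne le_normalizer (Ne.symm h))
    have hZA : center G ≤ A := by
      have h := Subgroup.center_le_normalizer (A : Set G)
      rwa [hN] at h
    set Z := center G with hZ
    have hsurj := QuotientGroup.mk'_surjective Z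
    set π := QuotientGroup.mk' Z with hπ
    have hker : π.ker = Z := QuotientGroup.ker_mk' Z
    have hmem : ∀ x, π x ∈ A.map π ↔ x ∈ A := by
      intro x
      constructor
      · rintro ⟨y, hy, e⟩
        have h1 : y⁻¹ * x ∈ π.ker := by rw [MonoidHom.mem_ker, map_mul, map_inv, e, inv_mul_cancel]
        rw [hker] at h1
        have := A.mul_mem hy (hZA h1)
        rwa [mul_inv_cancel_left] at this
      · exact fun h => mem_map_of_mem π h
    have hco : IsCoatom (A.map π) := by
      constructor
      · intro h
        apply hA.1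
        rw [eq_top_iff]
        intro x _
        rw [← hmem, h]
        exact mem_top _
      · intro M hM
        have h1 : A < M.comap π := by
          refine lt_of_le_of_ne (map_le_iff_le_comap.mp hM.le) ?_
          intro h
          apply hM.ne
          rw [h, map_comap_eq_self_of_surjective hsurj]
        have h2 := hA.2 _ h1
        rw [← map_comap_eq_self_of_surjective hsurj M, h2, map_top_of_surjective _ hsurj]
    have hF : Cfsg.IsFrobeniusComplement (A.map π) := by
      refine ⟨?_, hco.1, ?_⟩
      · intro h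
        rw [Subgroup.map_eq_bot_iff, hker] at h
        have h3 : A = Z := le_antisymm h hZA
        apply hn
        rw [h3]
        infer_instance
      · intro g hg
        obtain ⟨g, rfl⟩ := hsurj g
        rw [hmem] at hg
        rw [eq_bot_iff]
        rintro y ⟨hy1, hy2⟩
        obtain ⟨x, hx, rfl⟩ := hy1
        have hy2' := Lib.FrobGroup.mem_conj_smul.mp hy2
        rw [← map_inv, ← map_mul, ← map_mul, hmem] at hy2'
        rw [mem_bot]
        by_contra hx1
        have hxZ : x ∉ Z := fun h => hx1 (MonoidHom.mem_ker.mp (hker.symm ▸ h))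
        have hC : centralizer {x} = A := by
          by_contra hne
          have h4 : A ≤ centralizer {x} := fun a ha => mem_centralizer_singleton_iff.mpr (hAc a ha x hx)
          have h5 := hA.2 _ (lt_of_le_of_ne h4 (Ne.symm hne))
          apply hxZ
          rw [hZ, mem_center_iff]
          intro z
          exact mem_centralizer_singleton_iff.mp (h5 ▸ mem_top z)
        apply hg
        rw [← hN]
        have h6 : ∀ a ∈ A, g * a * g⁻¹ ∈ A := by
          intro a ha
          rw [← hC, mem_centralizer_singleton_iff]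
          have h7 := hAc a ha _ hy2'
          calc g * a * g⁻¹ * x = g * (a * (g⁻¹ * x * g)) * g⁻¹ := by group
            _ = g * ((g⁻¹ * x * g) * a) * g⁻¹ := by rw [h7]
            _ = _ := by group
        exact mem_normalizer_fintype h6
    have h8 := frob hco (by
      rintro _ ⟨x, hx, rfl⟩ _ ⟨y, hy, rfl⟩
      rw [← map_mul, hAc x hx y hy, map_mul]) hF
    have h9 := map_derivedSeries_eq (f := π) hsurj 2
    rw [h8, Subgroup.map_eq_bot_iff, hker] at h9
    rw [eq_bot_iff, derivedSeries_succ]
    refine (commutator_mono h9 h9).trans ?_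
    rw [← eq_bot_iff, commutator_eq_bot_iff_le_centralizer]
    intro x hx
    rw [mem_centralizer_iff]
    intro y _
    exact mem_center_iff.mp hx y

/-- If a finite group has a maximal subgroup that is abelian, then the third term of its derived series is trivial (so the group is solvable of derived length at most three). -/
theorem result {G : Type*} [Group G] [Finite G] (A : Subgroup G) (hA : IsCoatom A) [IsMulCommutative A] : derivedSeries G 3 = ⊥ := by
  exact main hA (Lib.AbelProd.comm_of inferInstance)

end Cfsg.Agent.S0556
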