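import Cfsg.Statements.S0557
import Mathlib
import Cfsg.Agent.Lib.SmallSimple

set_option autoImplicit false
open Cfsg

namespace Cfsg.Agent.S0557

open Subgroup

theorem focal_mono {G : Type*} [Group G] {A B : Subgroup G} (h : A ≤ B) :
    A.focalSubgroup ≤ B.focalSubgroup := by
  rw [focalSubgroup_def, focalSubgroup_def]
  apply Subgroup.closure_mono
  rintro g ⟨hg, x, hx, u, rfl⟩
  exact ⟨h hg, x, h hx, u, rfl⟩

theorem focal_iter_mono {G : Type*} [Group G] (n : ℕ) {A B : Subgroup G} (h : A ≤ B) :
    (fun K : Subgroup G => focalSubgroup K)^[n] A ≤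
      (fun K : Subgroup G => focalSubgroup K)^[n] B := by
  induction n generalizing A B with
  | zero => exact h
  | succ n ih =>
    rw [Function.iterate_succ_apply, Function.iterate_succ_apply]
    exact ih (focal_mono h)

theorem focal_subgroupOf {G : Type*} [Group G] (G1 : Subgroup G) (K : Subgroup G1) :
    (focalSubgroup K).map G1.subtype ≤ focalSubgroup (K.map G1.subtype) := by
  rw [focalSubgroup_def, MonoidHom.map_closure, closure_le]
  rintro _ ⟨g, ⟨hg, x, hx, u, rfl⟩, rfl⟩
  rw [focalSubgroup_def]
  apply Subgroup.subset_closure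
  exact ⟨⟨_, hg, rfl⟩, _, ⟨x, hx, rfl⟩, u, by simp [commutatorElement_def]⟩

theorem focal_iter_subgroupOf {G : Type*} [Group G] (G1 : Subgroup G) (n : ℕ) (K : Subgroup G1) :
    ((fun K : Subgroup G1 => focalSubgroup K)^[n] K).map G1.subtype ≤
      (fun K : Subgroup G => focalSubgroup K)^[n] (K.map G1.subtype) := by
  induction n generalizing K with
  | zero => exact le_rfl
  | succ n ih =>
    rw [Function.iterate_succ_apply, Function.iterate_succ_apply]
    exact (ih _).trans (focal_iter_mono n (focal_subgroupOf G1 K))

theorem main (n : ℕ) : ∀ (G : Type*) [Group G] [Finite G] (H : Subgroup G)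
    (_ : (Nat.card H).Coprime H.index)
    (_ : (fun K : Subgroup G => Subgroup.focalSubgroup K)^[n] H = ⊥),
    ∃ N : Subgroup G, N.Normal ∧ Subgroup.IsComplement' N H := by
  induction n with
  | zero =>
    intro G _ _ H hHall hfoc
    have : H = ⊥ := hfoc
    subst this
    exact ⟨⊤, inferInstance, isComplement'_top_bot⟩
  | succ n ih =>
    intro G _ _ H hHall hfoc
    rw [Function.iterate_succ_apply] at hfoc
    set V := transferFocal H with hV
    set G1 := V.ker with hG1
    have hcop : (Nat.card (H ⧸ H.focalSubgroupOf)).Coprime H.index := by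
      refine hHall.coprime_dvd_left ?_
      rw [← Subgroup.index_eq_card]
      exact Subgroup.index_dvd_card _
    have hbij : Function.Bijective (fun x : H ⧸ H.focalSubgroupOf => x ^ H.index) :=
      (powCoprime hcop).bijective
    have hsurj : Function.Surjective V := by
      intro x
      obtain ⟨y, hy⟩ := hbij.2 x
      obtain ⟨z, rfl⟩ := QuotientGroup.mk'_surjective _ y
      exact ⟨z, (H.transferFocal_eq_pow z).trans hy⟩
    have hinf : ∀ x : G, x ∈ H → (x ∈ G1 ↔ x ∈ H.focalSubgroup) := by
      intro x hx
      rw [hG1, MonoidHom.mem_ker]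
      have h1 := H.transferFocal_eq_pow ⟨x, hx⟩
      constructor
      · intro h
        have h2 : (((⟨x, hx⟩ : H) : H ⧸ H.focalSubgroupOf)) ^ H.index = 1 := by
          rw [← h1]; exact h
        have h3 : ((⟨x, hx⟩ : H) : H ⧸ H.focalSubgroupOf) = 1 := by
          apply hbij.1
          simpa using h2
        exact (QuotientGroup.eq_one_iff (N := H.focalSubgroupOf) (⟨x, hx⟩ : H)).mp h3
      · intro h
        have h3 : ((⟨x, hx⟩ : H) : H ⧸ H.focalSubgroupOf) = 1 :=
          (QuotientGroup.eq_one_iff (N := H.focalSubgroupOf) (⟨x, hx⟩ : H)).mpr h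
        rw [h3, one_pow] at h1
        exact h1
    have hle : H.focalSubgroup ≤ G1 := fun x hx => (hinf x (H.focalSubgroup_le hx)).mpr hx
    -- orders
    have hidx : G1.index = Nat.card (H ⧸ H.focalSubgroupOf) := by
      rw [hG1, Subgroup.index_ker, MonoidHom.range_eq_top.mpr hsurj, Nat.card_congr
        (Subgroup.topEquiv (G := H ⧸ H.focalSubgroupOf)).toEquiv]
    have hc1 : Nat.card H = Nat.card H.focalSubgroup * Nat.card (H ⧸ H.focalSubgroupOf) := by
      rw [Subgroup.card_eq_card_quotient_mul_card_subgroup H.focalSubgroupOf, mul_comm]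
      congr 1
      exact Nat.card_congr (subgroupOfEquivOfLe H.focalSubgroup_le).toEquiv
    have hc2 : Nat.card G1 = H.index * Nat.card H.focalSubgroup := by
      have h1 := Subgroup.card_mul_index G1
      have h2 := Subgroup.card_mul_index H
      rw [← h2, hidx, hc1] at h1
      have h3 : 0 < Nat.card (H ⧸ H.focalSubgroupOf) := Nat.card_pos
      apply Nat.eq_of_mul_eq_mul_right h3
      rw [h1]; ring
    set H1 : Subgroup G1 := H.focalSubgroup.subgroupOf G1 with hH1
    have hH1c : Nat.card H1 = Nat.card H.focalSubgroup :=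
      Nat.card_congr (subgroupOfEquivOfLe hle).toEquiv
    have hH1i : H1.index = H.index := by
      have h1 := Subgroup.card_mul_index H1
      rw [hH1c, hc2, mul_comm] at h1
      exact Nat.eq_of_mul_eq_mul_right Nat.card_pos h1
    have hHall1 : (Nat.card H1).Coprime H1.index := by
      rw [hH1c, hH1i]
      exact hHall.coprime_dvd_left (Subgroup.card_dvd_of_le H.focalSubgroup_le)
    have hfoc1 : (fun K : Subgroup G1 => focalSubgroup K)^[n] H1 = ⊥ := by
      have h1 := focal_iter_subgroupOf G1 n H1
      rw [hH1, map_subgroupOf_eq_of_le hle, hfoc, le_bot_iff,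
        (map_eq_bot_iff_of_injective _ G1.subtype_injective)] at h1
      exact h1
    obtain ⟨N1, hN1, hN1c⟩ := ih G1 H1 hHall1 hfoc1
    have hN1card : Nat.card N1 * Nat.card H1 = Nat.card G1 := hN1c.card_mul_card
    have hN1i : N1.index = Nat.card H1 := hN1c.symm.index_eq_card
    have hN1c' : Nat.card N1 = H.index := by
      rw [hH1c, hc2] at hN1card
      exact Nat.eq_of_mul_eq_mul_right Nat.card_pos hN1card
    have hN1char : N1.Characteristic := by
      apply Lib.SmallSimple.characteristic_of_coprime
      rw [hN1i, hN1c', ← hH1i]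
      exact hHall1.symm
    refine ⟨N1.map G1.subtype, inferInstance, ?_⟩
    have hcard : Nat.card (N1.map G1.subtype) = H.index := by
      rw [← hN1c']
      exact (Nat.card_congr (N1.equivMapOfInjective _ G1.subtype_injective).toEquiv).symm
    apply isComplement'_of_coprime
    · rw [hcard, mul_comm, Subgroup.card_mul_index]
    · rw [hcard]; exact hHall.symm

/-- Let H be a subgroup of a finite group G with order coprime to its index. If iterating the focal-subgroup construction starting from H reaches the trivial subgroup after finitely many steps, then H has a normal complement in G. -/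
theorem result {G : Type*} [Group G] [Finite G] (H : Subgroup G) (hHall : (Nat.card H).Coprime H.index) (n : ℕ) (hfoc : (fun K : Subgroup G => Subgroup.focalSubgroup K)^[n] H = ⊥) : ∃ N : Subgroup G, N.Normal ∧ Subgroup.IsComplement' N H := by
  exact main n G H hHall hfoc

end Cfsg.Agent.S0557
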