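import Cfsg.Statements.S0565
import Mathlib
import Cfsg.Agent.Lib.KegelWielandt
import Cfsg.Agent.Lib.Subnormal

set_option autoImplicit false
open Cfsg

namespace Cfsg.Agent.S0565

open scoped Pointwise
open Subgroup Lib.NilPieces Lib.HallPi Lib.HallFactor Lib.NilpotentHall Lib.Products
open Lib.LocBase (IsSyl)

universe u

theorem no_min {G : Type u} [Group G] [Finite G] [hsol : Group.IsSolvable G] {A B N : Subgroup G}
    (hA : Group.IsNilpotent A) (hB : Group.IsNilpotent B)
    (hfac : ∀ g : G, ∃ a ∈ A, ∃ b ∈ B, g = a * b) [hNn : N.Normal] (hN : N ≠ ⊥)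
    (hNmin : ∀ K : Subgroup G, K.Normal → K ≤ N → K = ⊥ ∨ K = N)
    (hAN : A ⊔ N = ⊤) (hBN : B ⊔ N = ⊤) (hGN : Group.IsNilpotent (G ⧸ N)) :
    Group.IsNilpotent G := by
  obtain ⟨p, hp, hNab, hNel⟩ := Lib.MinNormSolv.elementary_of_minimal hN hNmin
  have : Fact p.Prime := ⟨hp⟩
  have hNpg : IsPGroup p N := Lib.SubgroupTools.isPGroup_of_forall_pow_eq_one hNel
  obtain ⟨d, hd, hNcard⟩ := Lib.MinNormSolv.card_eq_prime_pow hN hp hNel
  have hNC : N ≤ centralizer (N : Set G) := by
    intro a ha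
    rw [mem_centralizer_iff]
    intro b hb
    exact congrArg Subtype.val (hNab.is_comm.comm ⟨b, hb⟩ ⟨a, ha⟩)
  -- Hall `p'`-subgroups
  have hprod : ∀ {A : Subgroup G}, A ⊔ N = ⊤ → ∀ g : G, ∃ a ∈ A, ∃ b ∈ N, g = a * b := by
    intro A hAN g
    have hg : g ∈ A ⊔ N := by rw [hAN]; trivial
    obtain ⟨a, ha, b, hb, h⟩ := mem_sup_of_normal_right.mp hg
    exact ⟨a, ha, b, hb, h.symm⟩
  have hHall : ∀ {A : Subgroup G}, Group.IsNilpotent A → A ⊔ N = ⊤ →
      Cfsg.IsPiHall {p}ᶜ (hc p A) := by
    intro A hA hAN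
    have h1 := isPiHallOf_iff.mp (hc_hall (r := p) hA)
    rw [isPiHall_iff]
    refine ⟨h1.2.1, ?_⟩
    have hbot : Cfsg.IsPiHallOf {p}ᶜ (⊥ : Subgroup G) N := by
      rw [isPiHallOf_iff, compl_compl, card_bot, relIndex_bot_left, hNcard]
      exact ⟨bot_le, piNum_one, piNum_prime_pow hp rfl⟩
    exact index_factor (hprod hAN) (hc_hall (r := p) hA) (hc_norm p A) hbot
      le_normalizer_of_normal le_rfl bot_le
  obtain ⟨x, hx⟩ := exists_conj_eq (G := G) (hHall hA hAN) (hHall hB hBN)
  obtain ⟨b, hb, a, ha, rfl⟩ := Lib.Products.symm hfac x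
  have hT12 : hc p B = hc p A := by
    rw [map_mul, mul_smul,
      Lib.SubgroupTools.mem_normalizer_iff_conj_smul.mp (hc_norm p A ha)] at hx
    have h1 := Lib.SubgroupTools.mem_normalizer_iff_conj_smul.mp (hc_norm p B (B.inv_mem hb))
    rw [← hx, ← mul_smul, ← map_mul, inv_mul_cancel, map_one, one_smul] at h1
    rw [← hx]; exact h1.symm
  have hQn : (hc p A).Normal := by
    rw [← normalizer_eq_top_iff, eq_top_iff]
    intro g _
    obtain ⟨a, ha, b, hb, rfl⟩ := hfac g
    exact mul_mem (hc_norm p A ha) (hT12 ▸ hc_norm p B hb)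
  have hQN : N ⊓ hc p A = ⊥ := by
    apply Lib.SubgroupTools.inf_eq_bot_of_coprime'
    rw [hNcard]
    exact ((hc_coprime p A).symm).pow_left d
  have h1 : N ≤ centralizer (hc p A : Set G) :=
    le_centralizer_of_normalize le_normalizer_of_normal le_normalizer_of_normal hQN
  -- fixed points
  have h6 : N ⊓ centralizer ((N ⊔ sy p A : Subgroup G) : Set G) ≠ ⊥ := by
    apply Lib.Supersolvable.inf_centralizer_ne_bot (p := p)
    · exact Lib.LocBase.isPGroup_sup hNpg (sy_pgroup p A) le_normalizer_of_normal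
    · exact le_sup_left
    · exact le_normalizer_of_normal
    · exact hN
  have h7 : N ⊓ centralizer ((N ⊔ sy p A : Subgroup G) : Set G) ≤ center G := by
    intro y hy
    obtain ⟨hyN, hyC⟩ := mem_inf.mp hy
    have h8 : (⊤ : Subgroup G) ≤ centralizer {y} := by
      rw [← hAN, ← sy_sup_hc (r := p) hA]
      refine sup_le (sup_le ?_ ?_) ?_
      · intro s hs
        rw [mem_centralizer_singleton_iff]
        exact mem_centralizer_iff.mp hyC s (mem_sup_right hs)
      · intro s hs
        rw [mem_centralizer_singleton_iff]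
        exact mem_centralizer_iff.mp (h1 hyN) s hs
      · intro s hs
        rw [mem_centralizer_singleton_iff]
        exact mem_centralizer_iff.mp hyC s (mem_sup_left hs)
    rw [mem_center_iff]
    intro g
    exact mem_centralizer_singleton_iff.mp (h8 (mem_top g))
  have h9 : N ≤ center G := by
    rcases hNmin (N ⊓ center G) inferInstance inf_le_left with h | h
    · exfalso
      apply h6
      rw [eq_bot_iff, ← h]
      exact le_inf inf_le_left h7
    · exact inf_eq_left.mp h
  have := hGN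
  exact Subgroup.isNilpotent_of_ker_le_center (QuotientGroup.mk' N)
    (by rw [QuotientGroup.ker_mk']; exact h9)

theorem main {G : Type u} [Group G] [Finite G] {A B : Subgroup G}
    (hA : Group.IsNilpotent A) (hB : Group.IsNilpotent B)
    (hAB : ∀ g : G, ∃ a ∈ A, ∃ b ∈ B, g = a * b) (hproper : A ≠ ⊤ ∨ B ≠ ⊤) :
    ∃ N : Subgroup G, N.Normal ∧ N ≠ ⊤ ∧ (A ≤ N ∨ B ≤ N) := by
  classical
  by_contra hno
  push Not at hno
  have hsol : Group.IsSolvable G := Lib.KegelWielandt.isSolvable hA hB hAB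
  -- supplements
  have hsup : ∀ (C N : Subgroup G) (hNn : N.Normal), Group.IsNilpotent (G ⧸ N) →
      (∀ M : Subgroup G, M.Normal → M ≠ ⊤ → ¬ C ≤ M) → C ⊔ N = ⊤ := by
    intro C N hNn hq hC
    by_contra hne
    have hsurj := QuotientGroup.mk'_surjective N
    have h1 : C.map (QuotientGroup.mk' N) ≠ ⊤ := by
      intro h
      apply hne
      have h2 := congrArg (fun X => X.comap (QuotientGroup.mk' N)) h
      simp only [comap_top] at h2
      rwa [comap_map_eq, QuotientGroup.ker_mk'] at h2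
    obtain ⟨M, hM, hle⟩ := (eq_top_or_exists_le_coatom (C.map (QuotientGroup.mk' N))).resolve_left h1
    have hMn : M.Normal := by
      have h5 := ((Group.isNilpotent_of_finite_tfae (G := G ⧸ N)).out 0 2).mp hq
      exact h5 M hM
    apply hC (M.comap (QuotientGroup.mk' N)) (hMn.comap _)
    · intro h
      apply hM.1
      rw [← map_comap_eq_self_of_surjective hsurj M, h, map_top_of_surjective _ hsurj]
    · exact map_le_iff_le_comap.mp hle
  have hnA : ∀ M : Subgroup G, M.Normal → M ≠ ⊤ → ¬ A ≤ M := fun M hM hMt => (hno M hM hMt).1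
  have hnB : ∀ M : Subgroup G, M.Normal → M ≠ ⊤ → ¬ B ≤ M := fun M hM hMt => (hno M hM hMt).2
  -- `G` is not nilpotent
  have hGn : ¬ Group.IsNilpotent G := by
    intro h
    have h1 : Group.IsNilpotent (G ⧸ (⊥ : Subgroup G)) := inferInstance
    have h2 := hsup A ⊥ inferInstance h1 hnA
    have h3 := hsup B ⊥ inferInstance h1 hnB
    rw [sup_bot_eq] at h2 h3
    rcases hproper with h | h
    · exact h h2
    · exact h h3
  -- minimal normal subgroup with nilpotent quotient
  have hne : ({N : Subgroup G | ∃ _ : N.Normal, Group.IsNilpotent (G ⧸ N)}).Nonempty := by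
    refine ⟨⊤, inferInstance, ?_⟩
    have : Subsingleton (G ⧸ (⊤ : Subgroup G)) := QuotientGroup.subsingleton_quotient_top
    infer_instance
  obtain ⟨N, hN⟩ := Set.Finite.exists_minimal (Set.toFinite _) hne
  obtain ⟨hNn, hNq⟩ := hN.prop
  have hNb : N ≠ ⊥ := by
    rintro rfl
    exact hGn (Group.nilpotent_of_mulEquiv (QuotientGroup.quotientBot (G := G)))
  have hne2 : ({K : Subgroup G | K.Normal ∧ K < N}).Nonempty :=
    ⟨⊥, inferInstance, bot_lt_iff_ne_bot.mpr hNb⟩
  obtain ⟨K, hK⟩ := Set.Finite.exists_maximal (Set.toFinite _) hne2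
  obtain ⟨hKn, hKN⟩ := hK.prop
  have hsurj := QuotientGroup.mk'_surjective K
  set π := QuotientGroup.mk' K with hπ
  have hNbn : (N.map π).Normal := hNn.map _ hsurj
  have hker : π.ker = K := QuotientGroup.ker_mk' K
  have hKmin : ∀ M : Subgroup (G ⧸ K), M.Normal → M ≤ N.map π → M = ⊥ ∨ M = N.map π := by
    intro M hM hMN
    have h1 : K ≤ M.comap π := by
      conv_lhs => rw [← hker]
      exact comap_mono bot_le |>.trans' (by rw [MonoidHom.comap_bot])
    have h2 : M.comap π ≤ N := by
      have := comap_mono (f := π) hMN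
      rwa [comap_map_eq, hker, sup_eq_left.mpr hKN.le] at this
    by_cases h3 : M.comap π = N
    · right
      rw [← map_comap_eq_self_of_surjective hsurj M, h3]
    · left
      have h4 : M.comap π ≤ K := hK.le_of_ge (y := M.comap π) ⟨hM.comap _, lt_of_le_of_ne h2 h3⟩ h1
      rw [← map_comap_eq_self_of_surjective hsurj M, Subgroup.map_eq_bot_iff, hker]
      exact h4
  have hNbne : N.map π ≠ ⊥ := by
    intro h
    rw [Subgroup.map_eq_bot_iff, hker] at h
    exact absurd hKN (not_lt_of_ge h)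
  have hQ2 : Group.IsNilpotent ((G ⧸ K) ⧸ N.map π) :=
    Group.nilpotent_of_mulEquiv (QuotientGroup.quotientQuotientEquivQuotient K N hKN.le).symm
  have hKnil : Group.IsNilpotent (G ⧸ K) := by
    apply no_min (A := A.map π) (B := B.map π) (N := N.map π) (isNilpotent_map _ hA)
      (isNilpotent_map _ hB) (map_factor hAB _ hsurj) hNbne hKmin _ _ hQ2
    · rw [← Subgroup.map_sup, hsup A N hNn hNq hnA, map_top_of_surjective _ hsurj]
    · rw [← Subgroup.map_sup, hsup B N hNn hNq hnB, map_top_of_surjective _ hsurj]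
  have h1 : N ≤ K := hN.le_of_le ⟨hKn, hKnil⟩ hKN.le
  exact absurd hKN (not_lt_of_ge h1)

/-- Let the finite group G be the product AB of nilpotent subgroups A and B, not both equal to G. Then there is a proper normal subgroup of G containing A or containing B. -/
theorem result {G : Type*} [Group G] [Finite G] (A B : Subgroup G) (hA : Group.IsNilpotent A) (hB : Group.IsNilpotent B) (hAB : ∀ g : G, ∃ a ∈ A, ∃ b ∈ B, g = a * b) (hproper : A ≠ ⊤ ∨ B ≠ ⊤) : ∃ N : Subgroup G, N.Normal ∧ N ≠ ⊤ ∧ (A ≤ N ∨ B ≤ N) := by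
  exact main hA hB hAB hproper

end Cfsg.Agent.S0565
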