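import Cfsg.Statements.S0567
import Mathlib

set_option autoImplicit false
open Cfsg

namespace Cfsg.Agent.S0567

/-- A subgroup H of a group G is subnormal exactly when, for some m, the subgroup obtained from G by taking the commutator with H m times in succession is contained in H. -/
theorem result {G : Type*} [Group G] (H : Subgroup G) : H.IsSubnormal ↔ ∃ m : ℕ, (fun K : Subgroup G => ⁅K, H⁆)^[m] ⊤ ≤ H := by
  constructor
  · intro h
    induction h with
    | top => exact ⟨0, le_top⟩
    | step H K h_le hSubn hN ih =>
      obtain ⟨m, hm⟩ := ih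
      refine ⟨m + 1, ?_⟩
      have hmono : ∀ n : ℕ, (fun L : Subgroup G => ⁅L, H⁆)^[n] ⊤ ≤
          (fun L : Subgroup G => ⁅L, K⁆)^[n] ⊤ := by
        intro n
        induction n with
        | zero => exact le_rfl
        | succ n ih =>
          rw [Function.iterate_succ_apply', Function.iterate_succ_apply']
          exact Subgroup.commutator_mono ih h_le
      rw [Function.iterate_succ_apply']
      have h1 : (fun L : Subgroup G => ⁅L, H⁆)^[m] ⊤ ≤ K := (hmono m).trans hm
      have h2 : K ≤ Subgroup.normalizer (H : Set G) :=
        (Subgroup.normal_subgroupOf_iff_le_normalizer h_le).mp hN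
      refine (Subgroup.commutator_mono h1 le_rfl).trans ?_
      rw [Subgroup.commutator_le]
      intro k hk x hx
      rw [commutatorElement_def]
      exact H.mul_mem ((Subgroup.mem_normalizer_iff.mp (h2 hk) x).mp hx) (H.inv_mem hx)
  · rintro ⟨m, hm⟩
    have key : ∀ n : ℕ, ((fun L : Subgroup G => ⁅L, H⁆)^[n] ⊤ ⊔ H).IsSubnormal := by
      intro n
      induction n with
      | zero =>
        have : ((fun L : Subgroup G => ⁅L, H⁆)^[0] ⊤ ⊔ H) = ⊤ := by simp
        rw [this]
        exact Subgroup.IsSubnormal.top
      | succ n ih =>
        set L : Subgroup G := (fun L : Subgroup G => ⁅L, H⁆)^[n] ⊤ with hL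
        have hsucc : (fun L : Subgroup G => ⁅L, H⁆)^[n + 1] ⊤ = ⁅L, H⁆ := by
          rw [Function.iterate_succ_apply']
        have hle : ⁅L, H⁆ ⊔ H ≤ L ⊔ H :=
          sup_le (Subgroup.commutator_le_sup L H) le_sup_right
        rw [hsucc]
        refine Subgroup.IsSubnormal.step _ (L ⊔ H) hle ih ?_
        rw [Subgroup.normal_subgroupOf_iff_le_normalizer hle]
        refine sup_le ?_ (le_sup_right.trans Subgroup.le_normalizer)
        have hn : L ⊔ H ≤ Subgroup.normalizer ((⁅L, H⁆ : Subgroup G) : Set G) :=
          sup_le (Subgroup.normalizer_commutator_ge_left L H)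
            (Subgroup.normalizer_commutator_ge_right L H)
        intro l hl
        have hcl : ∀ l ∈ L, ∀ x ∈ ⁅L, H⁆ ⊔ H, l * x * l⁻¹ ∈ ⁅L, H⁆ ⊔ H := by
          intro l hl x hx
          have hx' : x ∈ Subgroup.closure (((⁅L, H⁆ : Subgroup G) : Set G) ∪ (H : Set G)) := by
            rwa [← Subgroup.sup_eq_closure]
          induction hx' using Subgroup.closure_induction with
          | mem y hy =>
            rcases hy with hy | hy
            · exact Subgroup.mem_sup_left
                ((Subgroup.mem_normalizer_iff.mp (hn (Subgroup.mem_sup_left hl)) y).mp hy)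
            · have e1 : l * y * l⁻¹ = (l * y * l⁻¹ * y⁻¹) * y := by group
              have e2 : l * y * l⁻¹ * y⁻¹ ∈ ⁅L, H⁆ := Subgroup.commutator_mem_commutator hl hy
              rw [e1]
              exact Subgroup.mul_mem _ (Subgroup.mem_sup_left e2) (Subgroup.mem_sup_right hy)
          | one => simp
          | mul a b ha hb iha ihb =>
            have : l * (a * b) * l⁻¹ = (l * a * l⁻¹) * (l * b * l⁻¹) := by group
            rw [this]
            exact Subgroup.mul_mem _ (iha (by rwa [← Subgroup.sup_eq_closure] at ha))
              (ihb (by rwa [← Subgroup.sup_eq_closure] at hb))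
          | inv a ha iha =>
            have : l * a⁻¹ * l⁻¹ = (l * a * l⁻¹)⁻¹ := by group
            rw [this]
            exact Subgroup.inv_mem _ (iha (by rwa [← Subgroup.sup_eq_closure] at ha))
        rw [Subgroup.mem_normalizer_iff]
        intro x
        constructor
        · exact hcl l hl x
        · intro hx
          have := hcl l⁻¹ (L.inv_mem hl) _ hx
          simpa [mul_assoc] using this
    have := key m
    rwa [sup_eq_right.mpr hm] at this

end Cfsg.Agent.S0567
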