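import Cfsg.Statements.S0568
import Mathlib
import Cfsg.Agent.Lib.SysNorm2

set_option autoImplicit false
open Cfsg

namespace Cfsg.Agent.S0568

/-- Let D be the system normalizer of a Hall complement system of a finite solvable group G, and let A < B be normal subgroups with no normal subgroup of G strictly between them (a chief factor). If G centralizes B modulo A then B ≤ A ⊔ D (D covers the factor); otherwise B ∩ D ≤ A (D avoids it). -/
theorem result {G : Type*} [Group G] [Finite G] [Group.IsSolvable G] (K : Nat.Primes → Subgroup G) (hK : Cfsg.IsComplementSystem K) (A B : Subgroup G) [A.Normal] [B.Normal] (hAB : A < B) (hchief : ∀ N : Subgroup G, N.Normal → A ≤ N → N ≤ B → N = A ∨ N = B) : (⁅B, (⊤ : Subgroup G)⁆ ≤ A → B ≤ A ⊔ Cfsg.systemNormalizer K) ∧ (¬ ⁅B, (⊤ : Subgroup G)⁆ ≤ A → B ⊓ Cfsg.systemNormalizer K ≤ A) := by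
  exact Lib.SysNorm2.cover_avoid hK hAB hchief

end Cfsg.Agent.S0568
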