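import Cfsg.Statements.S0570
import Mathlib
import Cfsg.Agent.Lib.SysNorm2

set_option autoImplicit false
open Cfsg

namespace Cfsg.Agent.S0570

open scoped Pointwise

/-- Let G be a finite group with a nilpotent normal subgroup F such that G modulo F is nilpotent (nilpotent length at most two). Then a subgroup of G is a Carter subgroup if and only if it is the system normalizer of some Hall complement system. -/
theorem result {G : Type*} [Group G] [Finite G] (F : Subgroup G) [F.Normal] (hF : Group.IsNilpotent F) (hGF : Group.IsNilpotent (G ⧸ F)) (C : Subgroup G) : Cfsg.IsCarterSubgroup C ↔ ∃ K : Nat.Primes → Subgroup G, Cfsg.IsComplementSystem K ∧ C = Cfsg.systemNormalizer K := by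
  have hFs : Group.IsSolvable F := inferInstance
  have hQs : Group.IsSolvable (G ⧸ F) := inferInstance
  have hsol : Group.IsSolvable G := Group.isSolvable_of_ker_le_range F.subtype
    (QuotientGroup.mk' F) (by rw [QuotientGroup.ker_mk', Subgroup.range_subtype])
  constructor
  · intro hC
    obtain ⟨K, hK, hr⟩ := Lib.SysNorm2.exists_reducing C
    exact ⟨K, hK, Lib.SysNorm2.carter_eq_systemNormalizer hF hGF hK hC hr⟩
  · rintro ⟨K, hK, rfl⟩
    obtain ⟨C, hC, hle⟩ := Lib.SysNorm2.exists_carter_ge hK
    obtain ⟨L, hL, hr⟩ := Lib.SysNorm2.exists_reducing C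
    have h1 := Lib.SysNorm2.carter_eq_systemNormalizer hF hGF hL hC hr
    obtain ⟨g, hg⟩ := Lib.SystemNorm.exists_conj hL hK
    have h2 : K = fun p => MulAut.conj g • L p := funext fun p => (hg p).symm
    have h3 : Nat.card (Cfsg.systemNormalizer K) = Nat.card C := by
      rw [h2, Lib.SysNorm2.systemNormalizer_conj, Lib.SubgroupTools.card_conj_smul, h1]
    have h4 : Cfsg.systemNormalizer K = C := Subgroup.eq_of_le_of_card_ge hle h3.ge
    rw [h4]
    exact hC

end Cfsg.Agent.S0570
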