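import Cfsg.Statements.S0571
import Mathlib
import Cfsg.Agent.Lib.AbelProd

set_option autoImplicit false
open Cfsg

namespace Cfsg.Agent.S0571

open Subgroup Lib.Supersolvable Lib.Products

universe u

theorem main (n : ℕ) : ∀ (G : Type u) [Group G] [Finite G], Nat.card G = n →
    ∀ A B : Subgroup G, IsCyclic A → IsCyclic B → (∀ g : G, ∃ a ∈ A, ∃ b ∈ B, g = a * b) →
    Cfsg.IsSupersolvable G := by
  induction n using Nat.strong_induction_on with
  | _ n ih =>
    intro G _ _ hn A B hA hB hAB
    rcases subsingleton_or_nontrivial G with hs | hs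
    · exact isSupersolvable_of_subsingleton
    obtain ⟨N, hNn, hN, hNle⟩ := Lib.AbelProd.exists_normal_aux _ G rfl A B
      (Lib.AbelProd.comm_of IsCyclic.isMulCommutative)
      (Lib.AbelProd.comm_of IsCyclic.isMulCommutative) hAB
    have hNc : IsCyclic N := by
      rcases hNle with h | h
      · exact isCyclic_of_injective (inclusion h) (inclusion_injective h)
      · exact isCyclic_of_injective (inclusion h) (inclusion_injective h)
    have hlt : Nat.card (G ⧸ N) < n := by
      have h1 := Subgroup.card_mul_index N
      have h2 : 1 < Nat.card N := (Subgroup.one_lt_card_iff_ne_bot N).mpr hN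
      have h3 : Nat.card (G ⧸ N) = N.index := rfl
      have h4 : 0 < N.index := Nat.pos_of_ne_zero Subgroup.index_ne_zero_of_finite
      rw [h3, ← hn]
      nlinarith
    apply isSupersolvable_of_cyclic_normal N
    apply ih _ hlt (G ⧸ N) rfl (A.map (QuotientGroup.mk' N)) (B.map (QuotientGroup.mk' N))
    · exact isCyclic_of_surjective _ ((QuotientGroup.mk' N).subgroupMap_surjective A)
    · exact isCyclic_of_surjective _ ((QuotientGroup.mk' N).subgroupMap_surjective B)
    · exact map_factor hAB _ (QuotientGroup.mk'_surjective N)

/-- If a finite group G is the product AB of two cyclic subgroups (every element is a product ab), then G is supersolvable. -/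
theorem result {G : Type*} [Group G] [Finite G] (A B : Subgroup G) [IsCyclic A] [IsCyclic B] (hAB : ∀ g : G, ∃ a ∈ A, ∃ b ∈ B, g = a * b) : Cfsg.IsSupersolvable G := by
  exact main _ G rfl A B inferInstance inferInstance hAB

end Cfsg.Agent.S0571
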