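import Cfsg.Statements.S0574
import Mathlib
import Cfsg.Agent.Lib.KegelWielandt
import Cfsg.Agent.Lib.AbelProd
import Cfsg.Agent.Lib.Cores3

set_option autoImplicit false
open Cfsg

namespace Cfsg.Agent.S0574

open scoped Pointwise commutatorElement
open Subgroup Lib.Products

universe u

theorem map_commutator_self {G : Type*} [Group G] (B : Subgroup G) :
    ⁅B, B⁆ = (commutator ↥B).map B.subtype := by
  rw [commutator_def, map_commutator, ← MonoidHom.range_eq_map, range_subtype]

theorem core (n : ℕ) : ∀ (G : Type u) [Group G] [Finite G] [Group.IsSolvable G],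
    Nat.card G = n → ∀ A B : Subgroup G, (∀ x ∈ A, ∀ y ∈ A, x * y = y * x) →
    ⁅⁅B, B⁆, B⁆ = ⊥ → A ⊔ ⁅B, B⁆ = ⊤ → ∀ x y : G, x * y = y * x := by
  induction n using Nat.strong_induction_on with
  | _ n ih =>
    intro G _ _ _ hn A B hA hB hgen
    by_contra hne
    have hG' : commutator G ≠ ⊥ := by
      intro h
      apply hne
      intro x y
      have h1 : x * y * x⁻¹ * y⁻¹ ∈ commutator G := commutator_mem_commutator (mem_top x) (mem_top y)
      rw [h, mem_bot] at h1
      exact commutatorElement_eq_one_iff_mul_comm.mp h1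
    obtain ⟨N, hNn, hN, hNle, hNmin⟩ := Lib.Cores.exists_minNormal_le inferInstance hG'
    have hNG : N = commutator G := by
      by_contra hNG
      apply hNG
      apply le_antisymm hNle
      rw [← Subgroup.Normal.quotient_commutative_iff_commutator_le]
      have hlt : Nat.card (G ⧸ N) < n := by
        rw [← hn, Subgroup.card_eq_card_quotient_mul_card_subgroup N]
        have : 1 < Nat.card N := (Subgroup.one_lt_card_iff_ne_bot N).mpr hN
        have h0 : 0 < Nat.card (G ⧸ N) := Nat.card_pos
        nlinarith
      have hc := ih _ hlt (G ⧸ N) rfl (A.map (QuotientGroup.mk' N)) (B.map (QuotientGroup.mk' N))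
        (by
          rintro _ ⟨x, hx, rfl⟩ _ ⟨y, hy, rfl⟩
          rw [← map_mul, hA x hx y hy, map_mul])
        (by rw [← map_commutator, ← map_commutator, hB, Subgroup.map_bot])
        (by rw [← map_commutator, ← Subgroup.map_sup, hgen,
          map_top_of_surjective _ (QuotientGroup.mk'_surjective N)])
      exact ⟨⟨hc⟩⟩
    obtain ⟨p, hp, hNab, -⟩ := Lib.MinNormSolv.elementary_of_minimal hN hNmin
    have hNc := Lib.AbelProd.comm_of hNab
    have hB'N : ⁅B, B⁆ ≤ N := by
      rw [hNG]
      exact commutator_mono le_top le_top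
    have hAN : A ⊔ N = ⊤ := by
      rw [eq_top_iff, ← hgen]
      exact sup_le_sup_left hB'N A
    have hB'ne : ⁅B, B⁆ ≠ ⊥ := by
      intro h
      rw [h, sup_bot_eq] at hgen
      apply hne
      intro x y
      exact hA x (hgen ▸ mem_top x) y (hgen ▸ mem_top y)
    obtain ⟨z, hz, hz1⟩ := (Subgroup.bot_or_exists_ne_one _).resolve_left hB'ne
    have hzN := hB'N hz
    have hzB : ∀ b ∈ B, b * z = z * b := by
      have h1 := (commutator_eq_bot_iff_le_centralizer.mp hB) hz
      intro b hb
      exact mem_centralizer_iff.mp h1 b hb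
    -- every element of `B` is central times an element of `N`
    have key : ∀ b ∈ B, ∃ a ∈ center G, ∃ q ∈ N, b = a * q := by
      intro b hb
      have hbt : b ∈ A ⊔ N := by rw [hAN]; exact mem_top b
      obtain ⟨a, ha, q, hq, e⟩ := mem_sup_of_normal_right.mp hbt
      refine ⟨a, ?_, q, hq, e.symm⟩
      have haz : a * z = z * a := by
        have h1 : a = b * q⁻¹ := by rw [← e]; group
        rw [h1, mul_assoc, hNc _ (N.inv_mem hq) z hzN, ← mul_assoc, hzB b hb, mul_assoc]
      have hC : N ⊓ centralizer {a} = N := by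
        have hn : (N ⊓ centralizer {a}).Normal := by
          refine ⟨fun x hx g => ?_⟩
          refine ⟨hNn.conj_mem x hx.1 g, ?_⟩
          have hgt : g ∈ A ⊔ N := by rw [hAN]; exact mem_top g
          obtain ⟨a', ha', q', hq', e'⟩ := mem_sup_of_normal_right.mp hgt
          have h2 : g * x * g⁻¹ = a' * x * a'⁻¹ := by
            rw [← e']
            have : q' * x = x * q' := hNc q' hq' x hx.1
            calc a' * q' * x * (a' * q')⁻¹ = a' * (q' * x) * q'⁻¹ * a'⁻¹ := by group
              _ = a' * (x * q') * q'⁻¹ * a'⁻¹ := by rw [this]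
              _ = _ := by group
          rw [h2]
          refine mem_centralizer_singleton_iff.mpr ?_
          have h3 : x * a = a * x := mem_centralizer_singleton_iff.mp hx.2
          have h4 : a' * a = a * a' := hA a' ha' a ha
          have h5 : a'⁻¹ * a = a * a'⁻¹ := hA _ (A.inv_mem ha') a ha
          calc a' * x * a'⁻¹ * a = a' * x * (a'⁻¹ * a) := by group
            _ = a' * x * (a * a'⁻¹) := by rw [h5]
            _ = a' * (x * a) * a'⁻¹ := by group
            _ = a' * (a * x) * a'⁻¹ := by rw [h3]
            _ = (a' * a) * x * a'⁻¹ := by group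
            _ = (a * a') * x * a'⁻¹ := by rw [h4]
            _ = _ := by group
        rcases hNmin _ hn inf_le_left with h | h
        · exfalso
          have : z ∈ N ⊓ centralizer {a} := ⟨hzN, mem_centralizer_singleton_iff.mpr haz.symm⟩
          rw [h, mem_bot] at this
          exact hz1 this
        · exact h
      rw [mem_center_iff]
      intro g
      have hle : A ⊔ N ≤ centralizer {a} := by
        apply sup_le
        · intro x hx
          exact mem_centralizer_singleton_iff.mpr (hA x hx a ha)
        · exact inf_eq_left.mp hC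
      rw [hAN] at hle
      exact mem_centralizer_singleton_iff.mp (hle (mem_top g))
    apply hB'ne
    rw [commutator_eq_bot_iff_le_centralizer]
    intro x hx
    rw [mem_centralizer_iff]
    intro y hy
    obtain ⟨a, ha, q, hq, rfl⟩ := key x hx
    obtain ⟨a', ha', q', hq', rfl⟩ := key y hy
    have h1 : q' * q = q * q' := hNc q' hq' q hq
    have h2 := mem_center_iff.mp ha
    have h3 := mem_center_iff.mp ha'
    calc a' * q' * (a * q) = a' * (q' * a) * q := by group
      _ = a' * (a * q') * q := by rw [h2 q']
      _ = (a' * a) * (q' * q) := by group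
      _ = (a * a') * (q * q') := by rw [h1, h2 a']
      _ = a * (a' * q) * q' := by group
      _ = a * (q * a') * q' := by rw [← h3 q]
      _ = _ := by group

theorem map_subtype_comm {G : Type*} [Group G] {X : Subgroup G} (n m : ℕ)
    (h : derivedSeries G n ≤ X) : derivedSeries G (n + m) ≤ (derivedSeries X m).map X.subtype := by
  induction m with
  | zero =>
    rw [add_zero, derivedSeries_zero, ← MonoidHom.range_eq_map, range_subtype]
    exact h
  | succ m ih =>
    rw [← add_assoc, derivedSeries_succ, derivedSeries_succ, map_commutator]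
    exact commutator_mono ih ih

theorem main (n : ℕ) : ∀ (G : Type u) [Group G] [Finite G],
    ∀ A B : Subgroup G, (∀ x ∈ A, ∀ y ∈ A, x * y = y * x) →
    ⁅⁅B, B⁆, B⁆ = ⊥ → (∀ g : G, ∃ a ∈ A, ∃ b ∈ B, g = a * b) →
    (Nat.card ↥⁅B, B⁆).primeFactorsList.length ≤ n → derivedSeries G (2 * (1 + n)) = ⊥ := by
  induction n with
  | zero =>
    intro G _ _ A B hA hB hAB hn
    have hcard : Nat.card ↥⁅B, B⁆ = 1 := by
      have h1 : (Nat.card ↥⁅B, B⁆).primeFactorsList = [] := List.eq_nil_of_length_eq_zero
        (Nat.le_zero.mp hn)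
      rcases (Nat.primeFactorsList_eq_nil _).mp h1 with h | h
      · exact absurd h Nat.card_pos.ne'
      · exact h
    have h2 := Subgroup.card_eq_one.mp hcard
    have hBc : ∀ x ∈ B, ∀ y ∈ B, x * y = y * x := by
      intro x hx y hy
      have h3 := (commutator_eq_bot_iff_le_centralizer.mp h2) hy
      exact mem_centralizer_iff.mp h3 x hx
    have := Lib.AbelProd.isMulCommutative_of hA
    have := Lib.AbelProd.isMulCommutative_of hBc
    exact Cfsg.Agent.S0572.result A B hAB
  | succ n ih =>
    intro G _ _ A B hA hB hAB hn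
    by_cases hbot : ⁅B, B⁆ = ⊥
    · have hBc : ∀ x ∈ B, ∀ y ∈ B, x * y = y * x := by
        intro x hx y hy
        have h3 := (commutator_eq_bot_iff_le_centralizer.mp hbot) hy
        exact mem_centralizer_iff.mp h3 x hx
      have := Lib.AbelProd.isMulCommutative_of hA
      have := Lib.AbelProd.isMulCommutative_of hBc
      have h1 := Cfsg.Agent.S0572.result A B hAB
      rw [eq_bot_iff, ← h1]
      exact derivedSeries_antitone G (by omega)
    -- solvability
    have hAnil : Group.IsNilpotent A := by
      have := Lib.AbelProd.isMulCommutative_of hA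
      let _ : CommGroup A := { (inferInstance : Group A) with mul_comm := this.is_comm.comm }
      exact CommGroup.isNilpotent
    have hBnil : Group.IsNilpotent B := Lib.Fitting.isNilpotent_of_class_two le_rfl hB
    have hsol : Group.IsSolvable G := Lib.KegelWielandt.isSolvable hAnil hBnil hAB
    set X : Subgroup G := A ⊔ ⁅B, B⁆ with hX
    have hAX : A ≤ X := le_sup_left
    have hB'X : ⁅B, B⁆ ≤ X := le_sup_right
    have hB'B : ⁅B, B⁆ ≤ B := commutator_le_self B
    have hXfac := subgroupOf_left hAB hAX
    -- the normal closure of `B'` lies in `X`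
    set N := normalClosure ((⁅B, B⁆ : Subgroup G) : Set G) with hN
    have hNX : N ≤ X := by
      rw [hN, normalClosure, closure_le]
      intro x hx
      obtain ⟨y, hy, hyx⟩ := Group.mem_conjugatesOfSet_iff.mp hx
      obtain ⟨g, rfl⟩ := isConj_iff.mp hyx
      obtain ⟨a, ha, b, hb, rfl⟩ := hAB g
      have h1 : b * y * b⁻¹ = y := by
        have h2 := (commutator_eq_bot_iff_le_centralizer.mp hB) hy
        have h3 := mem_centralizer_iff.mp h2 b hb
        rw [h3, mul_inv_cancel_right]
      have h4 : a * b * y * (a * b)⁻¹ = a * y * a⁻¹ := by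
        calc a * b * y * (a * b)⁻¹ = a * (b * y * b⁻¹) * a⁻¹ := by group
          _ = _ := by rw [h1]
      rw [h4]
      exact X.mul_mem (X.mul_mem (hAX ha) (hB'X hy)) (X.inv_mem (hAX ha))
    -- `G'' ≤ N`
    have hG2 : derivedSeries G 2 ≤ N := by
      have hsurj := QuotientGroup.mk'_surjective N
      have h1 := map_derivedSeries_eq (f := QuotientGroup.mk' N) hsurj 2
      have hA' : ∀ x ∈ A.map (QuotientGroup.mk' N), ∀ y ∈ A.map (QuotientGroup.mk' N), x * y = y * x := by
        rintro _ ⟨x, hx, rfl⟩ _ ⟨y, hy, rfl⟩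
        rw [← map_mul, hA x hx y hy, map_mul]
      have hB' : ∀ x ∈ B.map (QuotientGroup.mk' N), ∀ y ∈ B.map (QuotientGroup.mk' N), x * y = y * x := by
        rintro _ ⟨x, hx, rfl⟩ _ ⟨y, hy, rfl⟩
        rw [← commutatorElement_eq_one_iff_mul_comm, ← map_commutatorElement]
        rw [QuotientGroup.mk'_apply, QuotientGroup.eq_one_iff]
        exact subset_normalClosure (commutator_mem_commutator hx hy)
      have := Lib.AbelProd.isMulCommutative_of hA'
      have := Lib.AbelProd.isMulCommutative_of hB'
      have h2 := Cfsg.Agent.S0572.result _ _ (map_factor hAB (QuotientGroup.mk' N) hsurj)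
      rw [h2] at h1
      rw [Subgroup.map_eq_bot_iff, QuotientGroup.ker_mk'] at h1
      exact h1
    -- `B₁' < B'`
    set B₁ : Subgroup X := B.subgroupOf X with hB₁
    set A₁ : Subgroup X := A.subgroupOf X with hA₁
    have hmapB₁ : B₁.map X.subtype ≤ B := by
      rw [hB₁, subgroupOf_map_subtype]
      exact inf_le_left
    have hA₁c : ∀ x ∈ A₁, ∀ y ∈ A₁, x * y = y * x := fun x hx y hy =>
      Subtype.ext (hA x (mem_subgroupOf.mp hx) y (mem_subgroupOf.mp hy))
    have hB₁2 : ⁅⁅B₁, B₁⁆, B₁⁆ = ⊥ := by
      rw [← Subgroup.map_eq_bot_iff_of_injective _ X.subtype_injective, map_commutator, map_commutator,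
        eq_bot_iff, ← hB]
      exact commutator_mono (commutator_mono hmapB₁ hmapB₁) hmapB₁
    have hle : ⁅B₁, B₁⁆.map X.subtype ≤ ⁅B, B⁆ := by
      rw [map_commutator]
      exact commutator_mono hmapB₁ hmapB₁
    have hlt : ⁅B₁, B₁⁆.map X.subtype ≠ ⁅B, B⁆ := by
      intro heq
      have hsub : ⁅B₁, B₁⁆ = ⁅B, B⁆.subgroupOf X := by
        rw [← heq, ← comap_subtype, comap_map_eq_self_of_injective X.subtype_injective]
      have hgen : A₁ ⊔ ⁅B₁, B₁⁆ = ⊤ := by
        rw [hsub, hA₁, ← subgroupOf_sup hAX hB'X, ← hX, subgroupOf_self]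
      have hc := core _ X rfl A₁ B₁ hA₁c hB₁2 hgen
      apply hbot
      rw [← heq]
      rw [Subgroup.map_eq_bot_iff_of_injective _ X.subtype_injective,
        commutator_eq_bot_iff_le_centralizer]
      intro x hx
      rw [mem_centralizer_iff]
      intro y hy
      exact hc y x
    have hcard : (Nat.card ↥⁅B₁, B₁⁆).primeFactorsList.length ≤ n := by
      have e1 : Nat.card ↥⁅B₁, B₁⁆ = Nat.card ↥(⁅B₁, B₁⁆.map X.subtype) :=
        Nat.card_congr (equivMapOfInjective _ X.subtype X.subtype_injective).toEquiv
      rw [e1]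
      have h5 := Lib.SubgroupTools.card_mul_relIndex_of_le hle
      have h8 : (⁅B₁, B₁⁆.map X.subtype).relIndex ⁅B, B⁆ ≠ 1 := by
        intro h
        exact hlt (le_antisymm hle (relIndex_eq_one.mp h))
      have h9 : 1 < (⁅B₁, B₁⁆.map X.subtype).relIndex ⁅B, B⁆ := by
        have : (⁅B₁, B₁⁆.map X.subtype).relIndex ⁅B, B⁆ ≠ 0 := by
          intro h
          rw [h, mul_zero] at h5
          exact absurd h5 Nat.card_pos.ne
        omega
      rw [← ArithmeticFunction.cardFactors_apply] at hn ⊢
      rw [← h5, ArithmeticFunction.cardFactors_mul Nat.card_pos.ne' (by omega)] at hn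
      have h10 := ArithmeticFunction.cardFactors_pos_iff_one_lt.mpr h9
      omega
    have h6 := ih X A₁ B₁ hA₁c hB₁2 hXfac hcard
    have h7 := map_subtype_comm 2 (2 * (1 + n)) (hG2.trans hNX)
    rw [h6, Subgroup.map_bot] at h7
    rw [eq_bot_iff]
    refine le_trans ?_ h7
    exact derivedSeries_antitone G (by omega)

/-- Let the finite group G be the product AB of an abelian subgroup A and a subgroup B of nilpotency class at most two, and let Ω be the number of prime factors, with multiplicity, of the order of the commutator subgroup of B. Then the term of index 2(1 + Ω) of the derived series of G is trivial. -/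
theorem result {G : Type*} [Group G] [Finite G] (A B : Subgroup G) [IsMulCommutative A] (hB : commutator ↥B ≤ Subgroup.center ↥B) (hAB : ∀ g : G, ∃ a ∈ A, ∃ b ∈ B, g = a * b) : derivedSeries G (2 * (1 + (Nat.card ↥(commutator ↥B)).primeFactorsList.length)) = ⊥ := by
  have hA : ∀ x ∈ A, ∀ y ∈ A, x * y = y * x := Lib.AbelProd.comm_of inferInstance
  have hB' : ⁅⁅B, B⁆, B⁆ = ⊥ := by
    rw [commutator_eq_bot_iff_le_centralizer]
    rw [map_commutator_self B]
    rintro _ ⟨x, hx, rfl⟩
    rw [mem_centralizer_iff]
    intro b hb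
    have := mem_center_iff.mp (hB hx) ⟨b, hb⟩
    exact congrArg Subtype.val this
  have hcard : Nat.card ↥(commutator ↥B) = Nat.card ↥⁅B, B⁆ := by
    rw [map_commutator_self B]
    exact (Nat.card_congr ((commutator ↥B).equivMapOfInjective B.subtype B.subtype_injective).toEquiv)
  rw [hcard]
  exact main _ G A B hA hB' hAB le_rfl

end Cfsg.Agent.S0574
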