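import Cfsg.Statements.S0575
import Mathlib

set_option autoImplicit false
open Cfsg

namespace Cfsg.Agent.S0575

/-- If H is a normal subgroup of a finite group G, then the Frattini subgroup of H, viewed in G, lies in the Frattini subgroup of G. -/
theorem result {G : Type*} [Group G] [Finite G] (H : Subgroup G) [H.Normal] : (frattini ↥H).map H.subtype ≤ frattini G := by
  -- `N = Φ(H)` is normal in `G`; if it is not inside a maximal subgroup `M`, then `N M = G`,
  -- `H = N (M ∩ H)` and hence `H ≤ M`.
  set N : Subgroup G := (frattini ↥H).map H.subtype with hN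
  haveI hNn : N.Normal := inferInstance
  have hNH : N ≤ H := Subgroup.map_subtype_le _
  rw [frattini, Order.radical]
  refine le_iInf₂ fun M hM => ?_
  by_contra hnle
  have htop : N ⊔ M = ⊤ := by
    have hle : M ≤ N ⊔ M := le_sup_right
    rcases eq_or_lt_of_le hle with h | h
    · exact absurd (by rw [h]; exact le_sup_left) hnle
    · exact hM.2 _ h
  have hsub : (M.subgroupOf H) ⊔ frattini ↥H = ⊤ := by
    rw [eq_top_iff]
    intro x _
    have hx : (x : G) ∈ N ⊔ M := by rw [htop]; trivial
    obtain ⟨n, hn, m, hm, e⟩ := Subgroup.mem_sup_of_normal_left.mp hx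
    obtain ⟨n', hn', rfl⟩ := hn
    have hmH : m ∈ H := by
      have : m = (H.subtype n')⁻¹ * (x : G) := by rw [← e]; group
      rw [this]
      exact H.mul_mem (H.inv_mem n'.2) x.2
    have : x = n' * ⟨m, hmH⟩ := Subtype.ext e.symm
    rw [this]
    exact Subgroup.mul_mem _ (Subgroup.mem_sup_right hn')
      (Subgroup.mem_sup_left (Subgroup.mem_subgroupOf.mpr hm))
  have := frattini_nongenerating hsub
  rw [Subgroup.subgroupOf_eq_top] at this
  exact hnle (hNH.trans this)

end Cfsg.Agent.S0575
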