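import Cfsg.Statements.S0576
import Mathlib
import Cfsg.Agent.Lib.FratFit

set_option autoImplicit false
open Cfsg

namespace Cfsg.Agent.S0576

/-- Let H be a normal subgroup of a finite group G with H contained in the Frattini subgroup of G. Then the group of inner automorphisms of H is contained in the Frattini subgroup of the automorphism group of H. -/
theorem result {G : Type*} [Group G] [Finite G] (H : Subgroup G) [H.Normal] (hH : H ≤ frattini G) : (MulAut.conj : ↥H →* MulAut ↥H).range ≤ frattini (MulAut ↥H) := by
  -- otherwise some maximal subgroup `M` of `Aut H` supplements `Inn H`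
  by_contra hnle
  obtain ⟨M, hM, hIM, hsup⟩ := Lib.FratFit.exists_coatom_of_not_le_frattini hnle
  set I : Subgroup (MulAut H) := (MulAut.conj : ↥H →* MulAut ↥H).range with hI
  have hIn : I.Normal := by
    constructor
    rintro _ ⟨h, rfl⟩ σ
    refine ⟨σ h, ?_⟩
    ext x
    simp [MulAut.conj_apply]
  let φ : G →* MulAut H := MulAut.conjNormal
  have hφH : ∀ h : H, φ h = MulAut.conj h := by
    intro h
    ext x
    simp [φ]
  have htop : M.comap φ ⊔ frattini G = ⊤ := by
    rw [eq_top_iff]
    intro g _
    have hg : φ g ∈ I ⊔ M := by rw [hsup]; trivial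
    obtain ⟨i, ⟨h, rfl⟩, m, hm, e⟩ := Subgroup.mem_sup_of_normal_left.mp hg
    have h1 : (h : G)⁻¹ * g ∈ M.comap φ := by
      rw [Subgroup.mem_comap, map_mul, map_inv, hφH, ← e, inv_mul_cancel_left]
      exact hm
    have h2 : g = (h : G) * ((h : G)⁻¹ * g) := by group
    rw [h2]
    exact Subgroup.mul_mem _ (Subgroup.mem_sup_right (hH h.2)) (Subgroup.mem_sup_left h1)
  have hcomap := frattini_nongenerating htop
  apply hIM
  rintro _ ⟨h, rfl⟩
  rw [← hφH]
  have : (h : G) ∈ M.comap φ := by rw [hcomap]; trivial
  exact this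

end Cfsg.Agent.S0576
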