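import Cfsg.Statements.S0577
import Mathlib
import Cfsg.Agent.Lib.NilpotentHall
import Cfsg.Agent.Lib.MinNonNilp
import Cfsg.Agent.Lib.FratFit

set_option autoImplicit false
open Cfsg

namespace Cfsg.Agent.S0577

open Subgroup Pointwise Lib.LocBase Lib.NilpotentHall

theorem prime_eq_of_sup {G : Type*} [Group G] [Finite G] {p q r : ℕ} (hp : p.Prime) (hq : q.Prime)
    (hr : r.Prime) {A B : Subgroup G} (hA : IsPGroup p A) (hB : IsPGroup q B)
    (hn : A ≤ normalizer (B : Set G)) (h : r ∣ Nat.card (A ⊔ B : Subgroup G)) : r = p ∨ r = q := by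
  have : Fact p.Prime := ⟨hp⟩
  have : Fact q.Prime := ⟨hq⟩
  have h1 := Lib.SubgroupTools.card_sup_mul_card_inf hn
  obtain ⟨a, ha⟩ := IsPGroup.iff_card.mp hA
  obtain ⟨b, hb⟩ := IsPGroup.iff_card.mp hB
  have h2 : r ∣ q ^ b * p ^ a := by
    rw [← ha, ← hb, ← h1, sup_comm B A]
    exact h.mul_right _
  rcases hr.dvd_mul.mp h2 with h3 | h3
  · right
    exact (Nat.prime_dvd_prime_iff_eq hr hq).mp (hr.dvd_of_dvd_pow h3)
  · left
    exact (Nat.prime_dvd_prime_iff_eq hr hp).mp (hr.dvd_of_dvd_pow h3)

open scoped IsMulCommutative in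
theorem nil_of_comm (G : Type*) [Group G] [IsMulCommutative G] : Group.IsNilpotent G :=
  inferInstance

open scoped commutatorElement in
theorem main {G : Type*} [Group G] [Finite G] (hG : Cfsg.IsMinimalNonNilpotent G) (q : ℕ)
    [Fact q.Prime] (hq : q ∣ Nat.card G) (Q : Sylow q G) (hQ : (Q : Subgroup G).Normal)
    (D : Subgroup G) [D.Normal]
    (hD : D = (commutator ↥(Q : Subgroup G)).map (Q : Subgroup G).subtype) :
    ¬ IsMulCommutative (G ⧸ D) ∧ ∀ K : Subgroup (G ⧸ D), K ≠ ⊤ → IsMulCommutative K := by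
  have hqp : q.Prime := Fact.out
  obtain ⟨p, q', hp, hq', hpq, P, Q', hPc, hQ'n, hsup⟩ :=
    Lib.MinNonNilp.minimalNonNilpotent_structure hG
  obtain ⟨hnn, hprop⟩ := hG
  have : Fact p.Prime := ⟨hp⟩
  have : Fact q'.Prime := ⟨hq'⟩
  have hprimes : ∀ r : ℕ, r.Prime → r ∣ Nat.card G → r = p ∨ r = q' := by
    intro r hr hrd
    apply prime_eq_of_sup hp hq' hr P.isPGroup' Q'.isPGroup' le_normalizer_of_normal
    rw [hsup, card_top]; exact hrd
  -- `q = q'`
  have hqq : q = q' := by
    rcases hprimes q hqp hq with h | h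
    · exfalso
      subst h
      apply hnn
      refine (Group.isNilpotent_of_finite_tfae (G := G)).out 0 3 |>.mpr ?_
      intro r hr R
      by_cases hrd : r ∣ Nat.card G
      · rcases hprimes r hr.out hrd with h | h
        · subst h
          have := Q.unique_of_normal hQ
          rw [Subsingleton.elim R Q]; exact hQ
        · subst h
          have := Q'.unique_of_normal hQ'n
          rw [Subsingleton.elim R Q']; exact hQ'n
      · have : (R : Subgroup G) = ⊥ := by
          rw [← card_eq_one, R.card_eq_multiplicity, Nat.factorization_eq_zero_of_not_dvd hrd,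
            pow_zero]
        rw [this]; infer_instance
    · exact h
  subst hqq
  have hQQ : Q' = Q := by
    have := Q.unique_of_normal hQ
    exact Subsingleton.elim _ _
  subst hQQ
  have hQnil : Group.IsNilpotent (Q' : Subgroup G) := Q'.isPGroup'.isNilpotent
  have hDΦ : D ≤ frattini G := by
    rw [hD]
    exact (Subgroup.map_mono (Lib.FratFit.commutator_le_frattini hQnil)).trans
      (Lib.FratFit.frattini_map_le _)
  constructor
  · intro hc
    apply hnn
    have h1 : Group.IsNilpotent (⊤ : Subgroup G) := by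
      apply Lib.FratFit.isNilpotent_of_quotient_frattini ⊤ D le_top hDΦ
      have : Group.IsNilpotent (G ⧸ D) := nil_of_comm _
      infer_instance
    exact Group.nilpotent_of_mulEquiv Subgroup.topEquiv
  · intro K hK
    set K1 : Subgroup G := K.comap (QuotientGroup.mk' D) with hK1
    have hK1top : K1 ≠ ⊤ := by
      intro h
      apply hK
      rw [← map_comap_eq_self_of_surjective (QuotientGroup.mk'_surjective D) K, ← hK1, h,
        map_top_of_surjective _ (QuotientGroup.mk'_surjective D)]
    have hK1n := hprop K1 hK1top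
    obtain ⟨P1, hP1⟩ := exists_isSyl p K1
    obtain ⟨Q1, hQ1⟩ := exists_isSyl q K1
    have hPQ : P1 ≤ centralizer (Q1 : Set G) :=
      le_centralizer_of_nilpotent hpq hK1n hP1.le hQ1.le hP1.pgroup hQ1.pgroup
    have hQ1Q : Q1 ≤ Q' := by
      obtain ⟨R, hR⟩ := hQ1.pgroup.exists_le_sylow
      have := Q'.unique_of_normal hQ
      rwa [Subsingleton.elim R Q'] at hR
    have hP1c : ∀ x ∈ P1, ∀ y ∈ P1, x * y = y * x := by
      obtain ⟨R, hR⟩ := hP1.pgroup.exists_le_sylow
      have hRc : IsCyclic R := (Sylow.equiv P R).isCyclic.mp hPc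
      have hcm : IsMulCommutative R := IsCyclic.isMulCommutative
      intro x hx y hy
      have := hcm.is_comm.comm ⟨x, hR hx⟩ ⟨y, hR hy⟩
      exact congrArg Subtype.val this
    have hKPQ : K1 ≤ Q1 ⊔ P1 := by
      have h1 : (Q1 ⊔ P1).relIndex K1 = 1 := by
        by_contra h
        obtain ⟨r, hr, hrd⟩ := Nat.exists_prime_and_dvd h
        have h2 : r ∣ Nat.card G :=
          hrd.trans ((relIndex_dvd_card _ _).trans (card_subgroup_dvd_card K1))
        rcases hprimes r hr h2 with rfl | rfl
        · apply hP1.ndvd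
          rw [← relIndex_mul_relIndex P1 (Q1 ⊔ P1) K1 le_sup_right (sup_le hQ1.le hP1.le)]
          exact hrd.mul_left _
        · apply hQ1.ndvd
          rw [← relIndex_mul_relIndex Q1 (Q1 ⊔ P1) K1 le_sup_left (sup_le hQ1.le hP1.le)]
          exact hrd.mul_left _
      exact relIndex_eq_one.mp h1
    have hcomm : ∀ x ∈ K1, ∀ y ∈ K1, x * y * x⁻¹ * y⁻¹ ∈ D := by
      intro x hx y hy
      obtain ⟨a, ha, u, hu, rfl⟩ := (Lib.SubgroupTools.mem_sup_of_le_normalizer
        (hPQ.trans (centralizer_le_normalizer _))).mp (hKPQ hx)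
      obtain ⟨b, hb, v, hv, rfl⟩ := (Lib.SubgroupTools.mem_sup_of_le_normalizer
        (hPQ.trans (centralizer_le_normalizer _))).mp (hKPQ hy)
      have e1 : b * u = u * b := mem_centralizer_iff.mp (hPQ hu) b hb
      have e2 : a * v = v * a := mem_centralizer_iff.mp (hPQ hv) a ha
      have e3 : a * u = u * a := mem_centralizer_iff.mp (hPQ hu) a ha
      have e4 : b * v = v * b := mem_centralizer_iff.mp (hPQ hv) b hb
      have e5 : u * v = v * u := hP1c u hu v hv
      have e6 : a * u * (b * v) * (a * u)⁻¹ * (b * v)⁻¹ = a * b * a⁻¹ * b⁻¹ := by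
        have h1 : a * u * (b * v) = (a * b) * (u * v) := by
          calc a * u * (b * v) = a * (u * b) * v := by group
            _ = a * (b * u) * v := by rw [e1]
            _ = _ := by group
        have h2 : (b * v) * (a * u) = (b * a) * (u * v) := by
          calc b * v * (a * u) = b * (v * a) * u := by group
            _ = b * (a * v) * u := by rw [e2]
            _ = b * a * (v * u) := by group
            _ = _ := by rw [e5]
        have h3 : a * u * (b * v) * (a * u)⁻¹ * (b * v)⁻¹ =
            (a * u * (b * v)) * ((b * v) * (a * u))⁻¹ := by group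
        rw [h3, h1, h2]; group
      rw [e6, hD]
      have ha' : a ∈ (Q' : Subgroup G) := hQ1Q ha
      have hb' : b ∈ (Q' : Subgroup G) := hQ1Q hb
      exact ⟨⁅(⟨a, ha'⟩ : (Q' : Subgroup G)), ⟨b, hb'⟩⁆,
        commutator_mem_commutator (mem_top _) (mem_top _), rfl⟩
    refine ⟨⟨?_⟩⟩
    rintro ⟨x, hx⟩ ⟨y, hy⟩
    obtain ⟨x, rfl⟩ := QuotientGroup.mk'_surjective D x
    obtain ⟨y, rfl⟩ := QuotientGroup.mk'_surjective D y
    apply Subtype.ext
    show QuotientGroup.mk' D x * QuotientGroup.mk' D y = QuotientGroup.mk' D y * QuotientGroup.mk' D x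
    rw [← map_mul, ← map_mul]
    apply (QuotientGroup.eq (s := D)).mpr
    have := hcomm y⁻¹ (K1.inv_mem hy) x⁻¹ (K1.inv_mem hx)
    have e : (x * y)⁻¹ * (y * x) = y⁻¹ * x⁻¹ * y⁻¹⁻¹ * x⁻¹⁻¹ := by group
    rw [e]; exact this

/-- Let G be a finite minimal non-nilpotent group and Q a normal Sylow q-subgroup of G, and let D be the commutator subgroup of Q regarded in G (a normal subgroup). Then G modulo D is non-abelian and all its proper subgroups are abelian. -/
theorem result {G : Type*} [Group G] [Finite G] (hG : Cfsg.IsMinimalNonNilpotent G) (q : ℕ) [Fact q.Prime] (hq : q ∣ Nat.card G) (Q : Sylow q G) (hQ : (Q : Subgroup G).Normal) (D : Subgroup G) [D.Normal] (hD : D = (commutator ↥(Q : Subgroup G)).map (Q : Subgroup G).subtype) : ¬ IsMulCommutative (G ⧸ D) ∧ ∀ K : Subgroup (G ⧸ D), K ≠ ⊤ → IsMulCommutative K := by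
  exact main hG q hq Q hQ D hD

end Cfsg.Agent.S0577
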