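import Cfsg.Statements.S0578
import Mathlib

set_option autoImplicit false
open Cfsg

namespace Cfsg.Agent.S0578

/-- If in a finite group the normalizer of each abelian subgroup coincides with its centralizer, then the group is abelian. -/
theorem result {G : Type*} [Group G] [Finite G] (h : ∀ A : Subgroup G, IsMulCommutative A → Subgroup.normalizer (A : Set G) = Subgroup.centralizer (A : Set G)) : IsMulCommutative G := by
  classical
  -- each Sylow subgroup is abelian
  have hSab : ∀ (p : ℕ) [Fact p.Prime] (S : Sylow p G), IsMulCommutative (S : Subgroup G) := by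
    intro p hp S
    have hnil : Group.IsNilpotent (S : Subgroup G) := S.2.isNilpotent
    have hZ : Subgroup.upperCentralSeries (S : Subgroup G) 2 ≤ Subgroup.upperCentralSeries (S : Subgroup G) 1 := by
      intro x hx
      rw [Subgroup.upperCentralSeries_one]
      -- `A = ⟨x⟩ Z(S)` is normal abelian in `S`
      have hcomm : ∀ y : (S : Subgroup G), x * y * x⁻¹ * y⁻¹ ∈ Subgroup.center (S : Subgroup G) := by
        intro y
        have := Subgroup.mem_upperCentralSeries_succ_iff.mp hx y
        rwa [Subgroup.upperCentralSeries_one] at this
      set A : Subgroup (S : Subgroup G) := Subgroup.zpowers x ⊔ Subgroup.center (S : Subgroup G) with hA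
      have hAab : IsMulCommutative A := by
        rw [← Subgroup.le_centralizer_iff_isMulCommutative]
        have h1 : Subgroup.center (S : Subgroup G) ≤ Subgroup.centralizer (A : Set (S : Subgroup G)) :=
          Subgroup.center_le_centralizer _
        have h2 : Subgroup.zpowers x ≤ Subgroup.centralizer (A : Set (S : Subgroup G)) := by
          rw [Subgroup.le_centralizer_iff]
          refine sup_le ?_ ?_
          · exact Subgroup.le_centralizer_iff_isMulCommutative.mpr inferInstance
          · exact Subgroup.center_le_centralizer _
        exact sup_le h2 h1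
      have hAn : A.Normal := by
        rw [← Subgroup.normalizer_eq_top_iff, eq_top_iff]
        intro y _
        rw [Subgroup.mem_normalizer_iff_map_conj_eq]
        apply Subgroup.eq_of_le_of_card_ge
        · rw [hA, Subgroup.map_sup]
          refine sup_le ?_ ?_
          · rw [MonoidHom.map_zpowers, Subgroup.zpowers_le]
            have h1 : y * x * y⁻¹ = (x * y * x⁻¹ * y⁻¹)⁻¹ * x := by
              group
            show y * x * y⁻¹ ∈ _
            rw [h1]
            exact Subgroup.mul_mem _ (Subgroup.mem_sup_right (Subgroup.inv_mem _ (hcomm y)))
              (Subgroup.mem_sup_left (Subgroup.mem_zpowers x))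
          · refine le_trans ?_ le_sup_right
            exact (Subgroup.characteristic_iff_map_eq.mp inferInstance (MulAut.conj y)).le
        · exact (Nat.card_congr (A.equivMapOfInjective _ (MulAut.conj y).injective).toEquiv).le
      -- view in `G`
      have hA'ab : IsMulCommutative (A.map (S : Subgroup G).subtype) := by
        rw [← Subgroup.commutator_self_eq_bot_iff, ← Subgroup.map_commutator,
          Subgroup.commutator_self_eq_bot_iff.mpr hAab, Subgroup.map_bot]
      have hNC := h _ hA'ab
      have hSN : (S : Subgroup G) ≤ Subgroup.normalizer ((A.map (S : Subgroup G).subtype : Subgroup G) : Set G) := by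
        have h1 := Subgroup.le_normalizer_map (H := A) (S : Subgroup G).subtype
        rw [Subgroup.normalizer_eq_top_iff.mpr hAn, ← MonoidHom.range_eq_map,
          (S : Subgroup G).range_subtype] at h1
        exact h1
      rw [hNC] at hSN
      rw [Subgroup.mem_center_iff]
      intro y
      have h1 := Subgroup.mem_centralizer_iff.mp (hSN y.2) (x : G)
        ⟨x, Subgroup.mem_sup_left (Subgroup.mem_zpowers x), rfl⟩
      exact Subtype.ext h1.symm
    -- hence `Z(S) = S`
    have hall : ∀ n, Subgroup.upperCentralSeries (S : Subgroup G) (n + 1) = Subgroup.upperCentralSeries (S : Subgroup G) 1 := by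
      intro n
      induction n with
      | zero => rfl
      | succ n ih =>
        apply le_antisymm
        · intro x hx
          apply hZ
          rw [Subgroup.mem_upperCentralSeries_succ_iff]
          intro y
          have := Subgroup.mem_upperCentralSeries_succ_iff.mp hx y
          rwa [ih] at this
        · exact Subgroup.upperCentralSeries_mono _ (by omega)
    obtain ⟨n, hn⟩ := Group.IsNilpotent.nilpotent (S : Subgroup G)
    have htop : Subgroup.center (S : Subgroup G) = ⊤ := by
      rw [← Subgroup.upperCentralSeries_one, ← hall n, eq_top_iff, ← hn]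
      exact Subgroup.upperCentralSeries_mono _ (by omega)
    refine ⟨⟨fun a b => ?_⟩⟩
    have ha : b ∈ Subgroup.center (S : Subgroup G) := by rw [htop]; trivial
    exact Subgroup.mem_center_iff.mp ha a
  -- Burnside transfer: `G' ≤ ker` of the transfer, a normal `p`-complement
  have hndvd : ∀ p : ℕ, p.Prime → ¬ p ∣ Nat.card (commutator G) := by
    intro p hp hd
    have hpF : Fact p.Prime := ⟨hp⟩
    obtain ⟨S⟩ := (inferInstance : Nonempty (Sylow p G))
    have hab := hSab p S
    have hNC := h _ hab
    have hcompl := MonoidHom.ker_transferSylow_isComplement' S hNC.le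
    have hle : commutator G ≤ (MonoidHom.transferSylow S hNC.le).ker := by
      rw [commutator_def, Subgroup.commutator_le]
      intro x _ y _
      rw [MonoidHom.mem_ker, map_commutatorElement, commutatorElement_eq_one_iff_commute]
      exact hab.is_comm.comm _ _
    have h1 := MonoidHom.not_dvd_card_ker_transferSylow S hNC.le
    exact h1 (hd.trans (Subgroup.card_dvd_of_le hle))
  have hcard : Nat.card (commutator G) = 1 := by
    by_contra hne
    obtain ⟨p, hp, hpd⟩ := Nat.exists_prime_and_dvd hne
    exact hndvd p hp hpd
  have hbot : commutator G = ⊥ := Subgroup.card_eq_one.mp hcard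
  have hc := (commutator_eq_bot_iff_center_eq_top G).mp hbot
  refine ⟨⟨fun a b => ?_⟩⟩
  have ha : b ∈ Subgroup.center G := by rw [hc]; trivial
  exact Subgroup.mem_center_iff.mp ha a

end Cfsg.Agent.S0578
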