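import Cfsg.Statements.S0582
import Mathlib
import Cfsg.Agent.Lib.Supersolvable
import Cfsg.Agent.Lib.LocBase
import Cfsg.Agent.Lib.SubgroupTools

set_option autoImplicit false
open Pointwise
open Cfsg

namespace Cfsg.Agent.S0582

open Subgroup Lib.LocBase Lib.Supersolvable Lib.SubgroupTools

universe u

theorem isSupersolvable_map {G G' : Type*} [Group G] [Group G'] {H : Subgroup G} (f : G →* G')
    (h : Cfsg.IsSupersolvable H) : Cfsg.IsSupersolvable (H.map f) :=
  isSupersolvable_of_surjective (f.subgroupMap_surjective H) h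

theorem isSupersolvable_of_le {G : Type*} [Group G] {H K : Subgroup G} (hHK : H ≤ K)
    (h : Cfsg.IsSupersolvable K) : Cfsg.IsSupersolvable H :=
  isSupersolvable_of_mulEquiv (subgroupOfEquivOfLe hHK) (isSupersolvable_subgroup h _)

/-- the normal Sylow subgroup for the largest prime -/
theorem exists_sylow_tower {G : Type u} [Group G] [Finite G] {H : Subgroup G} {p : ℕ}
    [hp : Fact p.Prime] (hH : Cfsg.IsSupersolvable H)
    (hmax : ∀ q : ℕ, q.Prime → q ∣ Nat.card H → q ≤ p) {P : Subgroup G} (hP : IsSyl p P H) :
    H ≤ normalizer (P : Set G) := by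
  obtain ⟨P', hP'⟩ := hP.exists_sylow
  have h1 := sylow_normal_of_largest hH p hmax P'
  rw [hP'] at h1
  exact (normal_subgroupOf_iff_le_normalizer hP.le).mp h1

theorem main (n : ℕ) : ∀ (G : Type u) [Group G] [Finite G] (H K : Subgroup G),
    Nat.card H = n → Cfsg.IsSupersolvable H → Cfsg.IsSupersolvable K → Nat.card K = Nat.card H →
    (Nat.card H).Coprime H.index → ∃ x : G, MulAut.conj x • H = K := by
  induction n using Nat.strong_induction_on with
  | _ n ih =>
    intro G _ _ H K hn hH hK hcard hHall
    by_cases hn1 : n = 1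
    · refine ⟨1, ?_⟩
      rw [map_one, one_smul]
      rw [hn1] at hn
      rw [hn] at hcard
      rw [card_eq_one.mp hn, card_eq_one.mp hcard]
    have hH1 : 1 < Nat.card H := by
      have : 0 < Nat.card H := Nat.card_pos
      omega
    have hne : (Nat.card H).primeFactors.Nonempty := by
      rw [Nat.nonempty_primeFactors]; exact hH1
    set p := (Nat.card H).primeFactors.max' hne with hpdef
    have hpm := (Nat.card H).primeFactors.max'_mem hne
    have hpp : p.Prime := Nat.prime_of_mem_primeFactors hpm
    have hpd : p ∣ Nat.card H := Nat.dvd_of_mem_primeFactors hpm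
    have hmax : ∀ q : ℕ, q.Prime → q ∣ Nat.card H → q ≤ p := fun q hq hqd =>
      Finset.le_max' _ _ (Nat.mem_primeFactors.mpr ⟨hq, hqd, Nat.card_pos.ne'⟩)
    have : Fact p.Prime := ⟨hpp⟩
    obtain ⟨P, hP⟩ := exists_isSyl p H
    obtain ⟨Q, hQ⟩ := exists_isSyl p K
    have hPn := exists_sylow_tower hH hmax hP
    have hQn := exists_sylow_tower hK (by rw [hcard]; exact hmax) hQ
    have hKi : K.index = H.index := by
      have h1 := Subgroup.card_mul_index H
      have h2 := Subgroup.card_mul_index K
      rw [← h2, hcard] at h1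
      exact (Nat.eq_of_mul_eq_mul_left Nat.card_pos h1).symm
    have htop : ∀ {H P : Subgroup G}, IsSyl p P H → (Nat.card H).Coprime H.index →
        p ∣ Nat.card H → IsSyl p P ⊤ := by
      intro H P hP hHall hpd
      refine ⟨le_top, hP.pgroup, ?_⟩
      rw [relIndex_top_right, ← relIndex_mul_index hP.le]
      intro hd
      rcases hpp.dvd_mul.mp hd with h | h
      · exact hP.ndvd h
      · exact hpp.one_lt.ne' (Nat.dvd_one.mp (hHall ▸ Nat.dvd_gcd hpd h))
    have hPtop := htop hP hHall hpd
    have hQtop := htop hQ (by rw [hcard, hKi]; exact hHall) (by rw [hcard]; exact hpd)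
    obtain ⟨g, -, hg⟩ := hQtop.conj hPtop
    -- replace `H` by its conjugate
    set H1 : Subgroup G := MulAut.conj g • H with hH1'
    have hH1Q : H1 ≤ normalizer (Q : Set G) := by
      rw [← hg, hH1', conj_smul_eq_map, ← map_conj_normalizer]
      exact map_conj_mono g hPn
    have hH1s : Cfsg.IsSupersolvable H1 := by
      rw [hH1', conj_smul_eq_map]
      exact isSupersolvable_map _ hH
    have hH1c : Nat.card H1 = Nat.card H := card_conj_smul g H
    have hH1i : H1.index = H.index := by
      have h1 := Subgroup.card_mul_index H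
      have h2 := Subgroup.card_mul_index H1
      rw [← h2, hH1c] at h1
      exact (Nat.eq_of_mul_eq_mul_left Nat.card_pos h1).symm
    have hQH1 : Q ≤ H1 := by
      rw [← hg, hH1', conj_smul_eq_map]
      exact map_conj_mono g hP.le
    have hQne : 1 < Nat.card Q := by
      rw [one_lt_card_iff_ne_bot]
      rintro rfl
      apply hQ.ndvd
      rw [relIndex_bot_left, hcard]; exact hpd
    -- work in `L / Q`, `L = N(Q)`
    set L := normalizer (Q : Set G) with hL
    set Q0 : Subgroup L := Q.subgroupOf L with hQ0
    have hQ0n : Q0.Normal := normal_in_normalizer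
    set f : L →* L ⧸ Q0 := QuotientGroup.mk' Q0 with hf
    have hfs : Function.Surjective f := QuotientGroup.mk'_surjective Q0
    -- the images
    have hQ0c : Nat.card Q0 = Nat.card Q := card_subgroupOf_of_le le_normalizer
    have himg : ∀ A : Subgroup G, Q ≤ A → A ≤ L →
        Nat.card ((A.subgroupOf L).map f) * Nat.card Q = Nat.card A := by
      intro A hQA hAL
      have h1 := card_map_mul_card_inf_ker f (A.subgroupOf L)
      rw [hf, QuotientGroup.ker_mk', inf_eq_right.mpr (by
        intro x hx; exact hQA hx), hQ0c, card_subgroupOf_of_le hAL] at h1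
      exact h1
    have hc1 := himg H1 hQH1 hH1Q
    have hc2 := himg K hQ.le hQn
    have hlt : Nat.card ((H1.subgroupOf L).map f) < n := by
      have h0 : 0 < Nat.card ((H1.subgroupOf L).map f) := Nat.card_pos
      rw [← hn, ← hH1c, ← hc1]
      nlinarith
    have hsup : ∀ A : Subgroup G, A ≤ L → Cfsg.IsSupersolvable A →
        Cfsg.IsSupersolvable ((A.subgroupOf L).map f) := by
      intro A hAL hA
      apply isSupersolvable_map
      exact isSupersolvable_of_mulEquiv (subgroupOfEquivOfLe hAL).symm hA
    have hidx : ((H1.subgroupOf L).map f).index ∣ H1.index := by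
      have h1 : (H1.subgroupOf L).index ∣ H1.index := by
        change H1.relIndex L ∣ H1.index
        exact relIndex_dvd_index_of_le hH1Q
      exact (index_map_dvd _ hfs).trans h1
    obtain ⟨x, hx⟩ := ih _ hlt (L ⧸ Q0) ((H1.subgroupOf L).map f) ((K.subgroupOf L).map f) rfl
      (hsup H1 hH1Q hH1s) (hsup K hQn hK) (by
        have h0 : 0 < Nat.card Q := Nat.card_pos
        apply Nat.eq_of_mul_eq_mul_right h0
        rw [hc1, hc2, hcard, hH1c])
      (by
        have h1 : (Nat.card H1).Coprime H1.index := by rw [hH1c, hH1i]; exact hHall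
        exact (h1.coprime_dvd_left (Dvd.intro _ hc1)).coprime_dvd_right hidx)
    obtain ⟨y, rfl⟩ := hfs x
    refine ⟨(y : G) * g, ?_⟩
    rw [map_mul, mul_smul, ← hH1']
    -- pull back
    rw [← map_conj_smul] at hx
    have h1 := congrArg (fun A => A.comap f) hx
    simp only [comap_map_eq, hf, QuotientGroup.ker_mk'] at h1
    have h2 : Q0 ≤ MulAut.conj y • (H1.subgroupOf L) := by
      have : Q0 = MulAut.conj y • Q0 := (conj_smul_normal y Q0).symm
      rw [this]
      exact conj_smul_mono y (fun z hz => hQH1 hz)
    have h3 : Q0 ≤ K.subgroupOf L := fun z hz => hQ.le hz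
    rw [sup_eq_left.mpr h2, sup_eq_left.mpr h3] at h1
    have h4 := congrArg (fun A => A.map L.subtype) h1

    rw [conj_smul_map_subtype, map_subgroupOf_eq_of_le hH1Q, map_subgroupOf_eq_of_le hQn] at h4
    exact h4

/-- Let H and K be supersolvable subgroups of a finite group G of the same order, that order being coprime to their index. Then H and K are conjugate in G. -/
theorem result {G : Type*} [Group G] [Finite G] (H K : Subgroup G) (hH : Cfsg.IsSupersolvable H) (hK : Cfsg.IsSupersolvable K) (hcard : Nat.card H = Nat.card K) (hHall : (Nat.card H).Coprime H.index) : ∃ x : G, MulAut.conj x • H = K := by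
  exact main _ G H K rfl hH hK hcard.symm hHall

end Cfsg.Agent.S0582
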