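import Cfsg.Statements.S0584
import Cfsg.Agent.Lib.Cores2

set_option autoImplicit false
open Cfsg

namespace Cfsg.Agent.S0584

/-- Let B ≤ A be normal subgroups of a finite group G with B contained in the Frattini subgroup of G. If A modulo B is nilpotent then A is nilpotent. -/
theorem result {G : Type*} [Group G] [Finite G] (A B : Subgroup G) [A.Normal] [B.Normal] (hBA : B ≤ A) (hB : B ≤ frattini G) (h : Group.IsNilpotent (↥A ⧸ B.subgroupOf A)) : Group.IsNilpotent A := by
  exact Lib.Cores.isNilpotent_of_quotient_le_frattini A B hB h

end Cfsg.Agent.S0584
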