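import Cfsg.Statements.S0585
import Cfsg.Agent.Lib.Cores2

set_option autoImplicit false
open Cfsg

namespace Cfsg.Agent.S0585

/-- If the Frattini subgroup of a finite group G is trivial, then every abelian normal subgroup of G has a complement in G. -/
theorem result {G : Type*} [Group G] [Finite G] (hΦ : frattini G = ⊥) (A : Subgroup G) [A.Normal] [IsMulCommutative A] : ∃ H : Subgroup G, Subgroup.IsComplement' A H := by
  exact Lib.Cores.exists_complement_of_frattini_eq_bot hΦ A (fun a ha b hb => setLike_mul_comm ha hb)

end Cfsg.Agent.S0585
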