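import Cfsg.Statements.S0586
import Mathlib
import Cfsg.Agent.Lib.FratFit
import Cfsg.Agent.Lib.Subnormal

set_option autoImplicit false
open Cfsg

namespace Cfsg.Agent.S0586

/-- If the Frattini subgroup of a finite group G is trivial, then the Fitting subgroup of G equals the join of all abelian minimal normal subgroups of G. -/
theorem result {G : Type*} [Group G] [Finite G] (hΦ : frattini G = ⊥) : Cfsg.fittingSubgroup G = sSup {N : Subgroup G | N.Normal ∧ N ≠ ⊥ ∧ IsMulCommutative N ∧ ∀ K : Subgroup G, K.Normal → K ≤ N → K = ⊥ ∨ K = N} := by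
  set S : Subgroup G := sSup {N : Subgroup G | N.Normal ∧ N ≠ ⊥ ∧ IsMulCommutative N ∧
    ∀ K : Subgroup G, K.Normal → K ≤ N → K = ⊥ ∨ K = N} with hS
  have hFn : (Cfsg.fittingSubgroup G).Normal := Lib.Layer.fittingSubgroup_normal G
  have hFnil : Group.IsNilpotent (Cfsg.fittingSubgroup G) := Lib.Layer.isNilpotent_fittingSubgroup G
  have hFab : ⁅Cfsg.fittingSubgroup G, Cfsg.fittingSubgroup G⁆ = ⊥ :=
    Lib.FratFit.commutator_eq_bot_of_frattini_eq_bot hΦ hFnil
  have hSF : S ≤ Cfsg.fittingSubgroup G := by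
    refine sSup_le fun N hN => ?_
    exact le_sSup ⟨hN.1, Lib.Layer.isNilpotent_of_isMulCommutative hN.2.2.1⟩
  have hSn : S.Normal := Subgroup.sSup_normal _ (fun N hN => hN.1)
  have hSab : ⁅S, S⁆ = ⊥ := by
    rw [eq_bot_iff, ← hFab]
    exact Subgroup.commutator_mono hSF hSF
  apply le_antisymm _ hSF
  obtain ⟨H, h1, h2⟩ := Lib.FratFit.exists_complement_of_frattini_eq_bot hΦ S hSab
  have hKn : (Cfsg.fittingSubgroup G ⊓ H).Normal := by
    apply Lib.CoreFree.normal_of_sup_eq_top h1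
    · rw [Subgroup.le_normalizer_iff_commutator_le_left]
      calc ⁅Cfsg.fittingSubgroup G ⊓ H, S⁆ ≤ ⁅Cfsg.fittingSubgroup G, Cfsg.fittingSubgroup G⁆ :=
            Subgroup.commutator_mono inf_le_left hSF
        _ = ⊥ := hFab
        _ ≤ _ := bot_le
    · rw [Subgroup.le_normalizer_iff]
      intro h hh x hx
      obtain ⟨h1, h2⟩ := Subgroup.mem_inf.mp hx
      exact Subgroup.mem_inf.mpr ⟨hFn.conj_mem x h1 h, H.mul_mem (H.mul_mem hh h2) (H.inv_mem hh)⟩
  have hK : Cfsg.fittingSubgroup G ⊓ H = ⊥ := by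
    by_contra hne
    obtain ⟨M, hM, hMle⟩ := Lib.Subnormal.exists_isMinNormal_le _ hKn hne
    have hMab : IsMulCommutative M := by
      rw [← Subgroup.commutator_self_eq_bot_iff, eq_bot_iff, ← hFab]
      exact Subgroup.commutator_mono (hMle.trans inf_le_left) (hMle.trans inf_le_left)
    have hMS : M ≤ S := by
      refine le_sSup ⟨hM.1, hM.2.1, hMab, fun K hK hKM => ?_⟩
      by_cases hKb : K = ⊥
      · exact Or.inl hKb
      · exact Or.inr (hM.2.2 K hK hKM hKb)
    apply hM.2.1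
    rw [eq_bot_iff, ← h2]
    exact le_inf hMS (hMle.trans inf_le_right)
  intro x hx
  obtain ⟨s, hs, h, hh, rfl⟩ := Lib.CoreFree.exists_mul_of_sup_eq_top h1 x
  have hhF : h ∈ Cfsg.fittingSubgroup G ⊓ H := by
    refine Subgroup.mem_inf.mpr ⟨?_, hh⟩
    have := Subgroup.mul_mem _ (Subgroup.inv_mem _ (hSF hs)) hx
    rwa [inv_mul_cancel_left] at this
  rw [hK, Subgroup.mem_bot] at hhF
  rw [hhF, mul_one]
  exact hs

end Cfsg.Agent.S0586
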