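import Cfsg.Statements.S0587
import Mathlib
import Cfsg.Agent.Lib.FratFit
import Cfsg.Agent.Lib.LocBase

set_option autoImplicit false
open Cfsg

namespace Cfsg.Agent.S0587

/-- Let G be a finite group whose largest normal p-subgroup L is nontrivial, and M a maximal subgroup of G with trivial normal core. Then L is elementary abelian, M is a complement to L, L is a minimal normal subgroup of G, the centralizer of L is L, and for every prime q such that the largest normal q-subgroup of M is nontrivial, the order of L is congruent to 1 modulo q and q ≠ p. -/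
theorem result {G : Type*} [Group G] [Finite G] (p : ℕ) [Fact p.Prime] (hL : Cfsg.pCore p G ≠ ⊥) (M : Subgroup G) (hM : IsCoatom M) (hcore : M.normalCore = ⊥) : Cfsg.IsElementaryAbelian p (Cfsg.pCore p G) ∧ Subgroup.IsComplement' (Cfsg.pCore p G) M ∧ (∀ K : Subgroup G, K.Normal → K ≤ Cfsg.pCore p G → K = ⊥ ∨ K = Cfsg.pCore p G) ∧ Subgroup.centralizer ((Cfsg.pCore p G : Subgroup G) : Set G) = Cfsg.pCore p G ∧ ∀ (q : ℕ) [Fact q.Prime], Cfsg.pCore q ↥M ≠ ⊥ → Nat.card (Cfsg.pCore p G) % q = 1 % q ∧ q ≠ p := by
  set L : Subgroup G := Cfsg.pCore p G with hLdef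
  have hLn : L.Normal := by
    have := Lib.LocBase.pCore_characteristic p G
    infer_instance
  have hLp : IsPGroup p L := Lib.LocBase.isPGroup_pCore p G
  have hLnil : Group.IsNilpotent L := hLp.isNilpotent
  -- `A = C_G(L)` contains `Z(L) ≠ 1`
  have : Nontrivial L := (Subgroup.nontrivial_iff_ne_bot L).mpr hL
  have hZ : L ⊓ Subgroup.centralizer (L : Set G) ≠ ⊥ := by
    have := hLp.center_nontrivial
    obtain ⟨z, hz⟩ := exists_ne (1 : Subgroup.center L)
    intro hb
    apply hz
    have hz' : ((z : L) : G) ∈ L ⊓ Subgroup.centralizer (L : Set G) := by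
      refine Subgroup.mem_inf.mpr ⟨(z : L).2, ?_⟩
      rw [Subgroup.mem_centralizer_iff]
      intro x hx
      have := Subgroup.mem_center_iff.mp z.2 ⟨x, hx⟩
      exact congrArg Subtype.val this
    rw [hb, Subgroup.mem_bot] at hz'
    exact Subtype.ext (Subtype.ext hz')
  have hZn : (L ⊓ Subgroup.centralizer (L : Set G)).Normal := inferInstance
  have hA : L ⊓ Subgroup.centralizer (L : Set G) = Subgroup.centralizer (L : Set G) := by
    rcases Lib.CoreFree.centralizer_minimal hM hcore hL
      (L ⊓ Subgroup.centralizer (L : Set G)) inf_le_right with h | h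
    · exact absurd h hZ
    · exact h
  set A : Subgroup G := Subgroup.centralizer (L : Set G) with hAdef
  have hAn : A.Normal := inferInstance
  have hAL : A ≤ L := inf_eq_right.mp hA
  have hAne : A ≠ ⊥ := by rw [← hA]; exact hZ
  have hAmin : ∀ K : Subgroup G, K.Normal → K ≤ A → K = ⊥ ∨ K = A := by
    intro K hK hKA
    have := hK
    exact Lib.CoreFree.centralizer_minimal hM hcore hL K hKA
  have hLA : L ≤ Subgroup.centralizer (A : Set G) :=
    Lib.FratFit.nilpotent_le_centralizer_minimal hLnil hAmin
  have hLeq : L = A := by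
    apply le_antisymm _ hAL
    rcases Lib.CoreFree.centralizer_minimal hM hcore hAne L hLA with h | h
    · exact absurd h hL
    · -- `C(A)` is minimal normal containing `A`
      rcases Lib.CoreFree.centralizer_minimal hM hcore hAne A (hAL.trans hLA) with h' | h'
      · exact absurd h' hAne
      · rw [h, ← h']
  have hcent : Subgroup.centralizer (L : Set G) = L := hLeq.symm
  have hinf : L ⊓ M = ⊥ := by
    have := Lib.CoreFree.centralizer_inf_eq_bot (N := L) hM hcore hL
    rwa [hcent] at this
  have hLmin : ∀ K : Subgroup G, K.Normal → K ≤ L → K = ⊥ ∨ K = L := by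
    intro K hK hKL
    rw [hLeq] at hKL ⊢
    exact hAmin K hK hKL
  have hLab : IsMulCommutative L := by
    rw [← Subgroup.le_centralizer_iff_isMulCommutative, hcent]
  have hcomm : ∀ x ∈ L, ∀ y ∈ L, x * y = y * x := by
    intro x hx y hy
    have := hLab.is_comm.comm (⟨x, hx⟩ : L) ⟨y, hy⟩
    exact congrArg Subtype.val this
  -- elementary abelian
  have hel : ∀ x ∈ L, x ^ p = 1 := by
    let K : Subgroup G :=
      { carrier := {x | x ∈ L ∧ x ^ p = 1}
        one_mem' := ⟨L.one_mem, one_pow p⟩
        mul_mem' := by
          rintro x y ⟨hx, hx'⟩ ⟨hy, hy'⟩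
          refine ⟨L.mul_mem hx hy, ?_⟩
          rw [(show Commute x y from hcomm x hx y hy).mul_pow, hx', hy', one_mul]
        inv_mem' := by
          rintro x ⟨hx, hx'⟩
          exact ⟨L.inv_mem hx, by rw [inv_pow, hx', inv_one]⟩ }
    have hKn : K.Normal := by
      constructor
      rintro x ⟨hx, hx'⟩ g
      refine ⟨hLn.conj_mem x hx g, ?_⟩
      rw [conj_pow, hx']
      simp
    rcases hLmin K hKn (fun x hx => hx.1) with h | h
    · exfalso
      obtain ⟨x, hx⟩ := exists_prime_orderOf_dvd_card' (G := L) p (by
        obtain ⟨n, hn⟩ := IsPGroup.iff_card.mp hLp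
        have hn0 : n ≠ 0 := by
          rintro rfl
          rw [pow_zero] at hn
          have := Finite.one_lt_card (α := L)
          omega
        rw [hn]
        exact dvd_pow_self p hn0)
      have hxK : (x : G) ∈ K := ⟨x.2, by
        have := pow_orderOf_eq_one x
        rw [hx] at this
        exact congrArg Subtype.val this⟩
      rw [h, Subgroup.mem_bot] at hxK
      have : x = 1 := Subtype.ext hxK
      rw [this, orderOf_one] at hx
      exact (Fact.out : p.Prime).one_lt.ne hx
    · intro x hx
      rw [← h] at hx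
      exact hx.2
  refine ⟨⟨hLab, hel⟩, Lib.CoreFree.isComplement'_of hM hcore hL hinf, hLmin, hcent, ?_⟩
  intro q hq hqM
  set R : Subgroup G := (Cfsg.pCore q ↥M).map M.subtype with hR
  have hRq : IsPGroup q R := (Lib.LocBase.isPGroup_pCore q ↥M).map _
  have hRM : R ≤ M := Subgroup.map_subtype_le _
  have hRne : R ≠ ⊥ := by
    intro h
    apply hqM
    rwa [hR, Subgroup.map_eq_bot_iff_of_injective _ M.subtype_injective] at h
  have hMR : M ≤ Subgroup.normalizer (R : Set G) := Lib.LocBase.le_normalizer_pCoreOf q M
  have htop : L ⊔ M = ⊤ := Lib.CoreFree.sup_eq_top hM hcore hL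
  have hRC : ¬ R ≤ Subgroup.centralizer (L : Set G) := by
    intro h
    rw [hcent] at h
    apply hRne
    rw [eq_bot_iff, ← hinf]
    exact le_inf h hRM
  -- fixed points of `R` on `L`
  set F : Subgroup G := L ⊓ Subgroup.centralizer (R : Set G) with hF
  have hFn : F.Normal := by
    apply Lib.CoreFree.normal_of_sup_eq_top htop
    · rw [Subgroup.le_normalizer_iff_commutator_le_left]
      calc ⁅F, L⁆ ≤ ⁅L, L⁆ := Subgroup.commutator_mono inf_le_left le_rfl
        _ = ⊥ := Subgroup.commutator_self_eq_bot_iff.mpr hLab
        _ ≤ _ := bot_le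
    · exact Lib.LocBase.le_normalizer_inf (by rw [Subgroup.normalizer_eq_top_iff.mpr hLn]; exact le_top)
        (Lib.LocBase.le_normalizer_centralizer hMR)
  have hFb : F = ⊥ := by
    rcases hLmin F hFn inf_le_left with h | h
    · exact h
    · exfalso
      apply hRC
      rw [Subgroup.le_centralizer_iff]
      exact inf_eq_left.mp h
  refine ⟨?_, ?_⟩
  · let _ : MulAction R L :=
      MulAction.compHom L ((MulAut.conjNormal (H := L)).comp R.subtype)
    have hfix := hRq.card_modEq_card_fixedPoints (α := L)
    have hone : Nat.card (MulAction.fixedPoints R L) = 1 := by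
      rw [Nat.card_eq_one_iff_unique]
      constructor
      · constructor
        have key : ∀ x : MulAction.fixedPoints R L, ((x : L) : G) = 1 := by
          intro x
          have hxF : ((x : L) : G) ∈ F := by
            refine Subgroup.mem_inf.mpr ⟨(x : L).2, ?_⟩
            rw [Subgroup.mem_centralizer_iff]
            intro r hr
            have h1 := x.2 ⟨r, hr⟩
            have h2 : r * ((x : L) : G) * r⁻¹ = ((x : L) : G) := congrArg Subtype.val h1
            exact mul_inv_eq_iff_eq_mul.mp h2
          rw [hFb, Subgroup.mem_bot] at hxF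
          exact hxF
        intro x y
        exact Subtype.ext (Subtype.ext ((key x).trans (key y).symm))
      · refine ⟨⟨1, ?_⟩⟩
        intro r
        apply Subtype.ext
        show (r : G) * 1 * (r : G)⁻¹ = 1
        group
    rw [hone] at hfix
    exact hfix
  · rintro rfl
    -- `L R` is a normal `p`-subgroup
    have hLR : IsPGroup q ↥(L ⊔ R) :=
      Lib.LocBase.isPGroup_sup hLp hRq (by rw [Subgroup.normalizer_eq_top_iff.mpr hLn]; exact le_top)
    have hLRn : (L ⊔ R).Normal := by
      apply Lib.CoreFree.normal_of_sup_eq_top htop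
      · exact le_sup_left.trans Subgroup.le_normalizer
      · exact Lib.LocBase.le_normalizer_sup (by rw [Subgroup.normalizer_eq_top_iff.mpr hLn]; exact le_top) hMR
    have hle : L ⊔ R ≤ L := Lib.LocBase.le_pCore hLRn hLR
    apply hRne
    rw [eq_bot_iff, ← hinf]
    exact le_inf (le_sup_right.trans hle) hRM

end Cfsg.Agent.S0587
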