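import Cfsg.Statements.S0589
import Cfsg.Agent.Lib.FrobConj
import Cfsg.Agent.Lib.FrobThm
-- import your own Cfsg.Agent.* helpers here

set_option autoImplicit false
open Pointwise
open Cfsg

namespace Cfsg.Agent.S0589

/-- Let H be a Frobenius complement in a finite group G and L a subgroup of G whose order divides the order of H. Then L is contained in some conjugate of H. -/
theorem result {G : Type*} [Group G] [Finite G] (H : Subgroup G) (hH : Cfsg.IsFrobeniusComplement H) (L : Subgroup G) (hL : Nat.card L ∣ Nat.card H) : ∃ x : G, L ≤ MulAut.conj x • H := by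
  classical
  by_cases hL1 : L = ⊥
  · exact ⟨1, by rw [hL1]; exact bot_le⟩
  obtain ⟨K, hK, hKn, hc⟩ := Cfsg.Agent.Lib.FrobThm.exists_kernel hH
  have hK1 : K ≠ ⊥ := by
    intro h
    obtain ⟨x, hx, hx1⟩ := Cfsg.Agent.Lib.FrobGroup.exists_kernel_ne_one hH
    rw [← hK, h] at hx
    exact hx1 (Subgroup.mem_bot.1 hx)
  have hfpf := (Cfsg.Agent.Lib.FrobGroup.isFrobeniusComplement_iff hc hK1 hH.1).1 hH
  have hcop := Cfsg.Agent.Lib.FrobGroup.coprime_card_index hH
  rw [hc.index_eq_card] at hcop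
  have hcopL : (Nat.card L).Coprime (Nat.card K) := hcop.coprime_dvd_left hL
  let M : Subgroup G := K ⊔ L
  have hKM : K ≤ M := le_sup_left
  have hLM : L ≤ M := le_sup_right
  have hdisjL : ∀ x, x ∈ K → x ∈ L → x = 1 := by
    intro x hxK hxL
    have h1 : orderOf x ∣ Nat.card K := by
      have := orderOf_dvd_natCard (⟨x, hxK⟩ : K)
      rwa [Subgroup.orderOf_mk] at this
    have h2 : orderOf x ∣ Nat.card L := by
      have := orderOf_dvd_natCard (⟨x, hxL⟩ : L)
      rwa [Subgroup.orderOf_mk] at this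
    have h3 := Nat.dvd_gcd h2 h1
    rw [hcopL.gcd_eq_one] at h3
    exact orderOf_eq_one_iff.1 (Nat.dvd_one.1 h3)
  have hcL : Subgroup.IsComplement' (K.subgroupOf M) (L.subgroupOf M) := by
    apply Subgroup.isComplement'_of_disjoint_and_mul_eq_univ
    · rw [Subgroup.disjoint_def]
      intro x hx1 hx2
      exact Subtype.ext (hdisjL x hx1 hx2)
    · rw [Set.eq_univ_iff_forall]
      rintro ⟨m, hm⟩
      have : m ∈ ((K ⊔ L : Subgroup G) : Set G) := hm
      rw [Subgroup.normal_mul] at this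
      obtain ⟨k, hk, l, hl, rfl⟩ := this
      exact ⟨⟨k, hKM hk⟩, hk, ⟨l, hLM hl⟩, hl, rfl⟩
  have hcH : Subgroup.IsComplement' (K.subgroupOf M) (H.subgroupOf M) := by
    apply Subgroup.isComplement'_of_disjoint_and_mul_eq_univ
    · rw [Subgroup.disjoint_def]
      intro x hx1 hx2
      exact Subtype.ext (Subgroup.disjoint_def.1 hc.disjoint hx1 hx2)
    · rw [Set.eq_univ_iff_forall]
      rintro ⟨m, hm⟩
      have : m ∈ ((K : Set G) * (H : Set G)) := by rw [hc.mul_eq]; trivial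
      obtain ⟨k, hk, h, hh, rfl⟩ := this
      have hhM : h ∈ M := by
        have := M.mul_mem (M.inv_mem (hKM hk)) hm
        simpa using this
      exact ⟨⟨k, hKM hk⟩, hk, ⟨h, hhM⟩, hh, rfl⟩
  have hcard : Nat.card (L.subgroupOf M) = Nat.card (H.subgroupOf M) := by
    rw [← hcL.symm.index_eq_card, hcH.symm.index_eq_card]
  have hKM1 : K.subgroupOf M ≠ ⊥ := by
    intro h
    rw [Subgroup.subgroupOf_eq_bot] at h
    exact hK1 (h.eq_bot_of_le hKM)
  have hLM1 : L.subgroupOf M ≠ ⊥ := by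
    intro h
    rw [Subgroup.subgroupOf_eq_bot] at h
    exact hL1 (h.eq_bot_of_le hLM)
  have hHM1 : H.subgroupOf M ≠ ⊥ := by
    intro h
    apply hLM1
    rw [← Subgroup.card_eq_one, hcard, h, Subgroup.card_bot]
  have hFL : Cfsg.IsFrobeniusComplement (L.subgroupOf M) := by
    rw [Cfsg.Agent.Lib.FrobGroup.isFrobeniusComplement_iff hcL hKM1 hLM1]
    intro l hl hl1
    rw [eq_bot_iff]
    rintro x ⟨hx1, hx2⟩
    have hx3 : x * l = l * x := Subgroup.mem_centralizer_singleton_iff.1 hx2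
    have hlK : (l : G) ∉ K := fun h => hl1 (Subtype.ext (hdisjL l h hl))
    have hlK' : (l : G) ∉ Cfsg.frobeniusKernel H := by rw [← hK]; exact hlK
    rw [Cfsg.Agent.Lib.FrobGroup.mem_kernel_iff] at hlK'
    push Not at hlK'
    obtain ⟨hl1', g, hg⟩ := hlK'
    have h1 : g⁻¹ * (x : G) * g ∈ K ⊓ Subgroup.centralizer {g⁻¹ * (l : G) * g} := by
      refine ⟨?_, Subgroup.mem_centralizer_singleton_iff.2 ?_⟩
      · have := hKn.conj_mem (x : G) hx1 g⁻¹
        simpa using this
      · calc g⁻¹ * (x : G) * g * (g⁻¹ * (l : G) * g) = g⁻¹ * ((x * l : M) : G) * g := by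
              push_cast; group
          _ = g⁻¹ * ((l * x : M) : G) * g := by rw [hx3]
          _ = g⁻¹ * (l : G) * g * (g⁻¹ * (x : G) * g) := by push_cast; group
    rw [hfpf _ hg (fun h => hl1' (by
      have : (l : G) = g * (g⁻¹ * l * g) * g⁻¹ := by group
      rw [this, h]; simp)), Subgroup.mem_bot] at h1
    rw [Subgroup.mem_bot]
    apply Subtype.ext
    have : (x : G) = g * (g⁻¹ * x * g) * g⁻¹ := by group
    rw [this, h1]; simp
  have hFH : Cfsg.IsFrobeniusComplement (H.subgroupOf M) := by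
    rw [Cfsg.Agent.Lib.FrobGroup.isFrobeniusComplement_iff hcH hKM1 hHM1]
    intro l hl hl1
    rw [eq_bot_iff]
    rintro x ⟨hx1, hx2⟩
    have hx3 : x * l = l * x := Subgroup.mem_centralizer_singleton_iff.1 hx2
    have h1 : (x : G) ∈ K ⊓ Subgroup.centralizer {(l : G)} :=
      ⟨hx1, Subgroup.mem_centralizer_singleton_iff.2 (congrArg Subtype.val hx3)⟩
    rw [hfpf (l : G) hl (fun h => hl1 (Subtype.ext h)), Subgroup.mem_bot] at h1
    exact Subtype.ext h1
  obtain ⟨g, hg⟩ := Cfsg.Agent.Lib.FrobConj.exists_conj_le hFH hFL hcard.le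
  refine ⟨(g : G)⁻¹, ?_⟩
  intro l hl
  rw [Cfsg.Agent.Lib.FrobGroup.mem_conj_smul]
  have h1 : g * ⟨l, hLM hl⟩ * g⁻¹ ∈ H.subgroupOf M :=
    hg (Subgroup.smul_mem_pointwise_smul (⟨l, hLM hl⟩ : M) _ _ hl)
  have h2 : (g : G) * l * (g : G)⁻¹ ∈ H := h1
  simpa using h2

end Cfsg.Agent.S0589
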