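import Cfsg.Statements.S0590
import Mathlib

set_option autoImplicit false
open Cfsg

namespace Cfsg.Agent.S0590

/-- Quadratic action on an elementary abelian p-group forces the acting group modulo the kernel of the action to be elementary abelian. -/
theorem result {G : Type*} [Group G] [Finite G] {p : ℕ} [Fact p.Prime] (V H : Subgroup G) (hV : Cfsg.IsElementaryAbelian p V) (hHV : H ≤ Subgroup.normalizer (V : Set G)) (hq : ⁅⁅V, H⁆, H⁆ = ⊥) : ⁅H, H⁆ ≤ Subgroup.centralizer (V : Set G) ∧ ∀ a ∈ H, a ^ p ∈ Subgroup.centralizer (V : Set G) := by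
  constructor
  · have h1 : ⁅⁅H, V⁆, H⁆ = ⊥ := by rw [Subgroup.commutator_comm H V]; exact hq
    have h2 : ⁅⁅H, H⁆, V⁆ = ⊥ :=
      Subgroup.commutator_commutator_eq_bot_of_rotate h1 hq
    exact Subgroup.commutator_eq_bot_iff_le_centralizer.mp h2
  · intro a ha
    rw [Subgroup.mem_centralizer_iff]
    intro v hv
    -- `c = v⁻¹ a v a⁻¹ ∈ [V, H]`
    set c : G := v⁻¹ * (a * v * a⁻¹) with hc
    have hav : a * v * a⁻¹ ∈ V := (Subgroup.mem_normalizer_iff.mp (hHV ha) v).mp hv
    have hcV : c ∈ V := V.mul_mem (V.inv_mem hv) hav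
    have hcc : c ∈ ⁅V, H⁆ := by
      have h1 : v⁻¹ * a * (v⁻¹)⁻¹ * a⁻¹ ∈ ⁅V, H⁆ :=
        Subgroup.commutator_mem_commutator (V.inv_mem hv) ha
      have : v⁻¹ * a * (v⁻¹)⁻¹ * a⁻¹ = c := by rw [hc]; group
      rwa [this] at h1
    have hac : a * c = c * a := by
      have h1 := Subgroup.commutator_eq_bot_iff_le_centralizer.mp hq hcc
      exact (Subgroup.mem_centralizer_iff.mp h1 a ha)
    have hcp : c ^ p = 1 := hV.2 c hcV
    have key : ∀ n : ℕ, a ^ n * v = v * c ^ n * a ^ n := by
      intro n
      induction n with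
      | zero => simp
      | succ n ih =>
        have e1 : a * v = v * c * a := by rw [hc]; group
        have e2 : ∀ m : ℕ, a * c ^ m = c ^ m * a := by
          intro m
          exact (Commute.pow_right (show Commute a c from hac) m).eq
        calc a ^ (n + 1) * v = a * (a ^ n * v) := by rw [pow_succ']; group
          _ = a * (v * c ^ n * a ^ n) := by rw [ih]
          _ = (a * v) * c ^ n * a ^ n := by group
          _ = (v * c * a) * c ^ n * a ^ n := by rw [e1]
          _ = v * c * (a * c ^ n) * a ^ n := by group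
          _ = v * c * (c ^ n * a) * a ^ n := by rw [e2]
          _ = v * c ^ (n + 1) * a ^ (n + 1) := by rw [pow_succ' c, pow_succ' a]; group
    have := key p
    rw [hcp, mul_one] at this
    exact this.symm

end Cfsg.Agent.S0590
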