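import Cfsg.Statements.S0591
import Mathlib

set_option autoImplicit false
open Cfsg

namespace Cfsg.Agent.S0591

/-- For a quadratically acting element a on an elementary abelian p-group V, the fixed points C_V(a) have order at least the square root of the order of V. -/
theorem result {G : Type*} [Group G] [Finite G] {p : ℕ} [Fact p.Prime] (V : Subgroup G) (hV : Cfsg.IsElementaryAbelian p V) (a : G) (ha : a ∈ Subgroup.normalizer (V : Set G)) (hq : ⁅⁅V, Subgroup.zpowers a⁆, Subgroup.zpowers a⁆ = ⊥) : Nat.card V ≤ Nat.card ↥(V ⊓ Subgroup.centralizer (Subgroup.zpowers a : Set G)) ^ 2 := by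
  have hcomm : ∀ v ∈ V, ∀ w ∈ V, v * w = w * v := by
    intro v hv w hw
    have := hV.1.is_comm.comm (⟨v, hv⟩ : V) ⟨w, hw⟩
    exact congrArg Subtype.val this
  have haN : ∀ v ∈ V, a * v * a⁻¹ ∈ V := fun v hv => (Subgroup.mem_normalizer_iff.mp ha v).mp hv
  -- the homomorphism `v ↦ v⁻¹ (a v a⁻¹)`
  let f : V →* V :=
    { toFun := fun v => ⟨(v : G)⁻¹ * (a * v * a⁻¹), V.mul_mem (V.inv_mem v.2) (haN v v.2)⟩
      map_one' := by
        apply Subtype.ext
        simp
      map_mul' := by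
        intro v w
        apply Subtype.ext
        simp only [Subgroup.coe_mul, mul_inv_rev]
        have h1 := hcomm _ (V.inv_mem w.2) _ (V.mul_mem (V.inv_mem v.2) (haN v v.2))
        calc (w : G)⁻¹ * (v : G)⁻¹ * (a * (v * w) * a⁻¹)
            = (w : G)⁻¹ * ((v : G)⁻¹ * (a * v * a⁻¹)) * (a * w * a⁻¹) := by group
          _ = ((v : G)⁻¹ * (a * v * a⁻¹)) * (w : G)⁻¹ * (a * w * a⁻¹) := by rw [h1]
          _ = _ := by group }
  have hmem : ∀ v ∈ V, a * v = v * a → v ∈ V ⊓ Subgroup.centralizer (Subgroup.zpowers a : Set G) := by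
    intro v hv hav
    refine Subgroup.mem_inf.mpr ⟨hv, ?_⟩
    rw [Subgroup.mem_centralizer_iff]
    rintro b ⟨k, rfl⟩
    exact (Commute.zpow_left (show Commute a v from hav) k).eq
  have hker : ∀ v : f.ker, ((v : V) : G) ∈ V ⊓ Subgroup.centralizer (Subgroup.zpowers a : Set G) := by
    intro v
    apply hmem _ (v : V).2
    have h1 : f v = 1 := v.2
    have h2 : ((v : V) : G)⁻¹ * (a * ((v : V) : G) * a⁻¹) = 1 := congrArg Subtype.val h1
    have h3 := mul_eq_one_iff_inv_eq.mp h2
    rw [inv_inv] at h3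
    exact (eq_mul_inv_iff_mul_eq.mp h3).symm
  have hran : ∀ v : f.range, ((v : V) : G) ∈ V ⊓ Subgroup.centralizer (Subgroup.zpowers a : Set G) := by
    rintro ⟨_, v, rfl⟩
    have hc : ((v : G))⁻¹ * (a * v * a⁻¹) ∈ ⁅V, Subgroup.zpowers a⁆ := by
      have h1 : (v : G)⁻¹ * a * ((v : G)⁻¹)⁻¹ * a⁻¹ ∈ ⁅V, Subgroup.zpowers a⁆ :=
        Subgroup.commutator_mem_commutator (V.inv_mem v.2) (Subgroup.mem_zpowers a)
      have : (v : G)⁻¹ * a * ((v : G)⁻¹)⁻¹ * a⁻¹ = (v : G)⁻¹ * (a * v * a⁻¹) := by group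
      rwa [this] at h1
    have h2 := Subgroup.commutator_eq_bot_iff_le_centralizer.mp hq hc
    exact ⟨(f v).2, h2⟩
  have h1 : Nat.card f.ker ≤ Nat.card ↥(V ⊓ Subgroup.centralizer (Subgroup.zpowers a : Set G)) :=
    Nat.card_le_card_of_injective (fun v => ⟨((v : V) : G), hker v⟩) (by
      intro v w h
      have := congrArg Subtype.val h
      exact Subtype.ext (Subtype.ext this))
  have h2 : Nat.card f.range ≤ Nat.card ↥(V ⊓ Subgroup.centralizer (Subgroup.zpowers a : Set G)) :=
    Nat.card_le_card_of_injective (fun v => ⟨((v : V) : G), hran v⟩) (by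
      intro v w h
      have := congrArg Subtype.val h
      exact Subtype.ext (Subtype.ext this))
  have h3 : Nat.card V = Nat.card f.ker * Nat.card f.range := by
    rw [← Subgroup.index_ker f]
    exact (Subgroup.card_mul_index f.ker).symm
  rw [h3, pow_two]
  exact Nat.mul_le_mul h1 h2

end Cfsg.Agent.S0591
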