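import Cfsg.Statements.S0592
import Cfsg.Agent.Lib.QuadScalar

set_option autoImplicit false
open Cfsg

namespace Cfsg.Agent.S0592

/-- Two quadratically acting generators of a linear group that is not a p-group, with the p'-part of the order of their product dividing q - 1, give a homomorphism onto a subgroup of SL(2, q) that is not a p-group. -/
theorem result {K : Type*} [Field K] [Fintype K] {p : ℕ} [Fact p.Prime] [CharP K p] {W : Type*} [AddCommGroup W] [Module K W] [FiniteDimensional K W] [Finite W] [Nontrivial W] (H : Subgroup (W ≃ₗ[K] W)) (a b : W ≃ₗ[K] W) (hH : H = Subgroup.closure {a, b}) (ha : ∀ w : W, a (a w - w) = a w - w) (hb : ∀ w : W, b (b w - w) = b w - w) (hnp : ¬ IsPGroup p H) (hk : ∃ e k : ℕ, orderOf (a * b) = p ^ e * k ∧ k ∣ Fintype.card K - 1) : ∃ φ : H →* Matrix.SpecialLinearGroup (Fin 2) K, ¬ IsPGroup p φ.range := by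
  classical
  obtain ⟨e, k, hk, hk1⟩ := hk
  have haH : a ∈ H := by rw [hH]; exact Subgroup.subset_closure (by simp)
  have hbH : b ∈ H := by rw [hH]; exact Subgroup.subset_closure (by simp)
  let ρ : H →* Module.End K W :=
    { toFun := fun h => ((h : W ≃ₗ[K] W) : W →ₗ[K] W)
      map_one' := rfl
      map_mul' := fun _ _ => rfl }
  have hρ : ∀ (h : H) (w : W), ρ h w = (h : W ≃ₗ[K] W) w := fun _ _ => rfl
  have hgen : Subgroup.closure {(⟨a, haH⟩ : H), ⟨b, hbH⟩} = ⊤ := by
    apply Subgroup.map_injective H.subtype_injective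
    rw [MonoidHom.map_closure, ← MonoidHom.range_eq_map, Subgroup.range_subtype, Set.image_pair]
    exact hH.symm
  obtain ⟨φ, hφ⟩ := Lib.QuadScalar.main_aux (K := K) (p := p) (⟨a, haH⟩ : H) ⟨b, hbH⟩ hgen e (Module.finrank K W) W ρ
    le_rfl (by
      apply LinearMap.ext
      intro w
      have := ha w
      rw [Module.End.mul_apply, LinearMap.sub_apply, LinearMap.sub_apply, Module.End.one_apply,
        Module.End.one_apply, hρ, hρ]
      show a (a w - w) - (a w - w) = 0
      rw [this, sub_self]) (by
      apply LinearMap.ext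
      intro w
      have := hb w
      rw [Module.End.mul_apply, LinearMap.sub_apply, LinearMap.sub_apply, Module.End.one_apply,
        Module.End.one_apply, hρ, hρ]
      show b (b w - w) - (b w - w) = 0
      rw [this, sub_self]) (by
      obtain ⟨m, hm⟩ := hk1
      have h1 : (a * b) ^ (p ^ e * (Fintype.card K - 1)) = 1 := by
        rw [hm, ← mul_assoc, ← hk, pow_mul, pow_orderOf_eq_one, one_pow]
      rw [← map_pow]
      have h2 : ((⟨a, haH⟩ : H) * ⟨b, hbH⟩) ^ (p ^ e * (Fintype.card K - 1)) = 1 := Subtype.ext h1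
      rw [h2, map_one]) (by
      intro hcon
      apply hnp
      intro h
      obtain ⟨j, hj⟩ := hcon h
      refine ⟨j, ?_⟩
      rw [← map_pow] at hj
      apply Subtype.ext
      apply LinearEquiv.ext
      intro w
      rw [← hρ, hj]; rfl)
  refine ⟨φ, fun hcon => hφ fun h => ?_⟩
  obtain ⟨j, hj⟩ := hcon ⟨φ h, h, rfl⟩
  exact ⟨j, congrArg Subtype.val hj⟩

end Cfsg.Agent.S0592
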