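import Cfsg.Statements.S0598
import Cfsg.Agent.Lib.OffenderBasic

set_option autoImplicit false
open Cfsg

namespace Cfsg.Agent.S0598

/-- Thompson's replacement dichotomy: for A acting with abelian image on an elementary abelian p-group V and U ≤ V, either some subgroup of A increases the product of its order with the order of its fixed points, or C_A([U,A]) preserves that product and has fixed points exactly [U,A]C_V(A). -/
theorem result {G : Type*} [Group G] [Finite G] {p : ℕ} [Fact p.Prime] (V A : Subgroup G) (hV : Cfsg.IsElementaryAbelian p V) (hAV : A ≤ Subgroup.normalizer (V : Set G)) (hab : ⁅A, A⁆ ≤ Subgroup.centralizer (V : Set G)) (U : Subgroup G) (hU : U ≤ V) : ∃ B : Subgroup G, B ≤ A ∧ ((Nat.card A * Nat.card ↥(V ⊓ Subgroup.centralizer (A : Set G)) < Nat.card B * Nat.card ↥(V ⊓ Subgroup.centralizer (B : Set G))) ∨ (B = A ⊓ Subgroup.centralizer ((⁅U, A⁆ : Subgroup G) : Set G) ∧ (V ⊓ Subgroup.centralizer (B : Set G)) = ⁅U, A⁆ ⊔ (V ⊓ Subgroup.centralizer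 (A : Set G)) ∧ Nat.card A * Nat.card ↥(V ⊓ Subgroup.centralizer (A : Set G)) = Nat.card B * Nat.card ↥(V ⊓ Subgroup.centralizer (B : Set G)))) := by
  have hVc : V ≤ Subgroup.centralizer (V : Set G) := (Cfsg.Agent.Lib.ThompsonJ.elemAb_iff.mp hV).1
  by_cases hmax : ∀ B : Subgroup G, B ≤ A → Nat.card B * Nat.card ↥(V ⊓ Subgroup.centralizer (B : Set G)) ≤
      Nat.card A * Nat.card ↥(V ⊓ Subgroup.centralizer (A : Set G))
  · obtain ⟨h1, h2⟩ := Cfsg.Agent.Lib.OffenderBasic.card_general_eq hVc hAV hab hmax hU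
    exact ⟨_, Cfsg.Agent.Lib.OffenderBasic.star_le A U, Or.inr ⟨rfl, h1, h2⟩⟩
  · push Not at hmax
    obtain ⟨B, hB, hlt⟩ := hmax
    exact ⟨B, hB, Or.inl hlt⟩

end Cfsg.Agent.S0598
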