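import Cfsg.Statements.S0601
import Cfsg.Agent.Lib.OffenderGen

set_option autoImplicit false
open Cfsg

namespace Cfsg.Agent.S0601

/-- When O_p(G) contains its centralizer, the normal closure of Ω₁(Z(S)) is elementary abelian and G has no nontrivial normal p-subgroup modulo its centralizer. -/
theorem result {G : Type*} [Group G] [Finite G] {p : ℕ} [Fact p.Prime] (hc : Subgroup.centralizer (Cfsg.pCore p G : Set G) ≤ Cfsg.pCore p G) : (⨆ S : Sylow p G, Cfsg.omegaOne p (((S : Subgroup G)) ⊓ Subgroup.centralizer ((S : Subgroup G) : Set G))).Normal ∧ Cfsg.IsElementaryAbelian p (⨆ S : Sylow p G, Cfsg.omegaOne p (((S : Subgroup G)) ⊓ Subgroup.centralizer ((S : Subgroup G) : Set G))) ∧ ∀ D : Subgroup G, D.Normal → Subgroup.centralizer ((⨆ S : Sylow p G, Cfsg.omegaOne p (((S : Subgroup G)) ⊓ Subgroup.centralizer ((S : Subgroup G) : Set G)) : Subgroup G) : Set G) ≤ D → (∃ k : ℕ, (Subgroup.centralizer ((⨆ S : Sylow p G, Cfsg.omegaOne p (((S : Subgroup G)) ⊓ Subgroup.centralizer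 ((S : Subgroup G) : Set G)) : Subgroup G) : Set G)).relIndex D = p ^ k) → D = Subgroup.centralizer ((⨆ S : Sylow p G, Cfsg.omegaOne p (((S : Subgroup G)) ⊓ Subgroup.centralizer ((S : Subgroup G) : Set G)) : Subgroup G) : Set G) := by
  haveI hn : (Cfsg.Agent.Lib.OffenderGen.omegaV p G).Normal := Cfsg.Agent.Lib.OffenderGen.omegaV_normal
  refine ⟨hn, Cfsg.Agent.Lib.OffenderGen.omegaV_elemAb hc, ?_⟩
  intro D hD hle hk
  apply le_antisymm _ hle
  haveI := hD
  apply Cfsg.Agent.Lib.OffenderGen.le_centralizer_of_gen (p := p) _ Cfsg.Agent.Lib.OffenderGen.omegaV_gen D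
  exact Cfsg.Agent.Lib.OffenderGen.isPGroup_map_mk hk

end Cfsg.Agent.S0601
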