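import Cfsg.Statements.S0602
import Cfsg.Agent.Lib.ThompsonJ

set_option autoImplicit false
open Cfsg

namespace Cfsg.Agent.S0602

/-- The Thompson subgroup is characteristic, and nontrivial as soon as p divides the group order. -/
theorem result {G : Type*} [Group G] [Finite G] {p : ℕ} [Fact p.Prime] : (Cfsg.thompsonSubgroup p G).Characteristic ∧ (p ∣ Nat.card G → Cfsg.thompsonSubgroup p G ≠ ⊥) := by
  rw [Cfsg.Agent.Lib.ThompsonJ.thompsonSubgroup_eq]
  constructor
  · rw [Subgroup.characteristic_iff_map_eq]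
    intro φ
    rw [Cfsg.Agent.Lib.ThompsonJ.map_J_elem (f := φ.toMonoidHom) φ.injective]
    congr 1
    exact Subgroup.map_top_of_surjective _ φ.surjective
  · intro hdvd hbot
    obtain ⟨x, hx⟩ := exists_prime_orderOf_dvd_card' p hdvd
    obtain ⟨A, hA⟩ := Cfsg.Agent.Lib.ThompsonJ.maxElem_nonempty p (⊤ : Subgroup G)
    have h1 : A ≤ ⊥ := hbot ▸ Cfsg.Agent.Lib.ThompsonJ.le_J hA
    have h2 := hA.2.2 (Subgroup.zpowers x) le_top
      (Cfsg.Agent.Lib.ThompsonJ.elemAb_zpowers (by rw [← hx, pow_orderOf_eq_one]))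
    rw [le_bot_iff] at h1
    rw [h1, Nat.card_zpowers, hx, Subgroup.card_bot] at h2
    have := (Fact.out : p.Prime).one_lt
    omega

end Cfsg.Agent.S0602
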