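import Cfsg.Statements.S0604
import Cfsg.Agent.Lib.ThompsonJ

set_option autoImplicit false
open Cfsg

namespace Cfsg.Agent.S0604

/-- The Thompson subgroup of G is the join of the Thompson subgroups of its Sylow p-subgroups. -/
theorem result {G : Type*} [Group G] [Finite G] {p : ℕ} [Fact p.Prime] : Cfsg.thompsonSubgroup p G = ⨆ S : Sylow p G, Cfsg.thompsonSubgroupOf p (S : Subgroup G) := by
  rw [Cfsg.Agent.Lib.ThompsonJ.thompsonSubgroup_eq]
  simp only [Cfsg.Agent.Lib.ThompsonJ.thompsonSubgroupOf_eq]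
  -- some maximal one
  obtain ⟨A, hA⟩ := Cfsg.Agent.Lib.ThompsonJ.maxElem_nonempty p (⊤ : Subgroup G)
  -- every Sylow subgroup contains a conjugate of A
  have key : ∀ S : Sylow p G, ∃ B ∈ Cfsg.Agent.Lib.ThompsonJ.maxIn (Cfsg.IsElementaryAbelian p) (⊤ : Subgroup G),
      B ≤ (S : Subgroup G) := by
    intro S
    obtain ⟨T, hT⟩ := (Cfsg.Agent.Lib.ThompsonJ.elemAb_isPGroup hA.2.1).exists_le_sylow
    obtain ⟨g, hg⟩ := MulAction.exists_smul_eq G T S
    refine ⟨A.map (MulAut.conj g).toMonoidHom, ⟨le_top, Cfsg.Agent.Lib.ThompsonJ.elemAb_map _ hA.2.1, ?_⟩, ?_⟩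
    · intro C hC hCe
      rw [Subgroup.card_map_of_injective (MulAut.conj g).injective]
      exact hA.2.2 C hC hCe
    · rw [← hg]
      exact Subgroup.map_mono hT
  apply le_antisymm
  · apply sSup_le
    intro B hB
    obtain ⟨T, hT⟩ := (Cfsg.Agent.Lib.ThompsonJ.elemAb_isPGroup hB.2.1).exists_le_sylow
    refine le_trans ?_ (le_iSup _ T)
    apply Cfsg.Agent.Lib.ThompsonJ.le_J
    exact ⟨hT, hB.2.1, fun C _ hCe => hB.2.2 C le_top hCe⟩
  · apply iSup_le
    intro S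
    apply sSup_le
    intro B hB
    apply Cfsg.Agent.Lib.ThompsonJ.le_J
    obtain ⟨C, hC, hCS⟩ := key S
    rw [Cfsg.Agent.Lib.ThompsonJ.maxIn_eq_of_exists le_top ⟨C, hC, hCS⟩] at hB
    exact hB.1

end Cfsg.Agent.S0604
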