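import Cfsg.Statements.S0609
import Cfsg.Agent.Lib.FactorizeQuot

set_option autoImplicit false
open Cfsg

namespace Cfsg.Agent.S0609

open Subgroup Cfsg.Agent.Lib.ThompsonJ Cfsg.Agent.Lib.RelSylow Cfsg.Agent.Lib.Factorize
  Cfsg.Agent.Lib.FactorizeQuot

/-- Thompson factorizability passes to and from the quotient by the largest normal subgroup of order prime to p. -/
theorem result {G : Type*} [Group G] [Finite G] {p : ℕ} [Fact p.Prime] : Cfsg.IsThompsonFactorizable p G ↔ Cfsg.IsThompsonFactorizable p (G ⧸ Cfsg.pPrimeCore p G) := by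
  set N := Cfsg.pPrimeCore p G with hNdef
  have hN : ¬ p ∣ Nat.card N := not_dvd_card_pPrimeCore
  set π := QuotientGroup.mk' N with hπ
  have hπs : Function.Surjective π := QuotientGroup.mk'_surjective N
  have hinj : ∀ S : Subgroup G, IsPGroup p S → ∀ x ∈ S, π x = 1 → x = 1 := by
    intro S hS x hx h1
    exact eq_one_of_mem hN hS ((QuotientGroup.eq_one_iff x).1 h1) hx
  have hcore : Cfsg.pPrimeCore p (G ⧸ N) = ⊥ := pPrimeCore_quotient_eq_bot
  constructor
  · intro h S' g'
    obtain ⟨S, rfl⟩ := Sylow.mapSurjective_surjective hπs p S'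
    obtain ⟨g, rfl⟩ := hπs g'
    obtain ⟨x, hx, c, hc, n, hn, hg⟩ := h S g
    rw [thompsonSubgroupOf_eq] at hn
    rw [thompsonSubgroupOf_eq, Sylow.coe_mapSurjective, ← map_J_elem_of_injOn π _ (hinj _ S.2)]
    refine ⟨1, one_mem _, π c, ?_, π n, ?_, ?_⟩
    · show π c ∈ centralizer (Z0 p ((S : Subgroup G).map π) : Set (G ⧸ N))
      rw [← map_Z0_of_injOn π _ (hinj _ S.2)]
      rw [mem_centralizer_iff]
      rintro _ ⟨z, hz, rfl⟩
      rw [← map_mul, ← map_mul, mem_centralizer_iff.1 hc z hz]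
    · exact Subgroup.le_normalizer_map π ⟨n, hn, rfl⟩
    · have hx1 : π x = 1 := (QuotientGroup.eq_one_iff x).2 hx
      rw [one_mul, ← map_mul, hg, mul_assoc, map_mul π x, hx1, one_mul]
  · intro h S g
    rw [thompsonSubgroupOf_eq]
    obtain ⟨x', hx', c', hc', n', hn', hg'⟩ := h (S.mapSurjective hπs) (π g)
    rw [thompsonSubgroupOf_eq, Sylow.coe_mapSurjective, ← map_J_elem_of_injOn π _ (hinj _ S.2)] at hn'
    rw [hcore, mem_bot] at hx'
    have hc'' : c' ∈ centralizer (Z0 p ((S : Subgroup G).map π) : Set (G ⧸ N)) := hc'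
    rw [← map_Z0_of_injOn π _ (hinj _ S.2)] at hc''
    obtain ⟨c, rfl⟩ := hπs c'
    obtain ⟨n, rfl⟩ := hπs n'
    have hZp : IsPGroup p (Z0 p (S : Subgroup G)) := S.2.to_le (Z0_le _)
    obtain ⟨m, hm, c1, hc1, rfl⟩ := exists_centralizer_of_mod (N := N) (P := Z0 p (S : Subgroup G))
      hN hZp (g := c) (by
        intro y hy
        have h1 := mem_centralizer_iff.1 hc'' (π y) ⟨y, hy, rfl⟩
        rw [← QuotientGroup.eq_one_iff]
        show π (c * y * c⁻¹ * y⁻¹) = 1
        simp only [map_mul, map_inv]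
        rw [← h1]; group)
    have hJp : IsPGroup p (J (Cfsg.IsElementaryAbelian p) (S : Subgroup G)) := S.2.to_le J_le
    obtain ⟨m', hm', n1, hn1, rfl⟩ := exists_normalizer_of_sup (N := N)
      (P := J (Cfsg.IsElementaryAbelian p) (S : Subgroup G)) hN hJp
      (by rw [Subgroup.normalizer_eq_top]; exact le_top) (g := n) (by
        have h1 : (J (Cfsg.IsElementaryAbelian p) (S : Subgroup G)).map π = (N ⊔ J (Cfsg.IsElementaryAbelian p) (S : Subgroup G)).map π := by
          rw [Subgroup.map_sup]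
          have : N.map π = ⊥ := by
            rw [Subgroup.map_eq_bot_iff, hπ, QuotientGroup.ker_mk']
          rw [this, bot_sup_eq]
        rw [h1] at hn'
        have h2 : (N ⊔ J (Cfsg.IsElementaryAbelian p) (S : Subgroup G)) =
            ((N ⊔ J (Cfsg.IsElementaryAbelian p) (S : Subgroup G)).map π).comap π := by
          rw [Subgroup.comap_map_eq, hπ, QuotientGroup.ker_mk']
          exact (sup_eq_left.2 le_sup_left).symm
        rw [mem_normalizer_iff] at hn' ⊢
        intro y
        rw [h2, mem_comap, mem_comap, hn' (π y), map_mul, map_mul, map_inv])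
    have hg : g * (m * c1 * (m' * n1))⁻¹ ∈ N := by
      rw [← QuotientGroup.eq_one_iff]
      show π (g * (m * c1 * (m' * n1))⁻¹) = 1
      rw [hx', one_mul, ← map_mul] at hg'
      rw [map_mul, hg', map_inv, mul_inv_cancel]
    refine ⟨g * (m * c1 * (m' * n1))⁻¹ * m * (c1 * m' * c1⁻¹), ?_, c1, hc1, n1, hn1, by group⟩
    refine N.mul_mem (N.mul_mem hg hm) ?_
    exact Normal.conj_mem inferInstance m' hm' c1

end Cfsg.Agent.S0609
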