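import Cfsg.Statements.S0618
import Cfsg.Agent.Lib.KS9Fac3

set_option autoImplicit false
open Cfsg

namespace Cfsg.Agent.S0618

/-- A p-separable group with trivial p'-core in which the Thompson factorization fails has p = 2 or 3, and J(G) induces on the normal closure of Ω₁(Z(S)) a group containing a normal SL(2, p). -/
theorem result {G : Type*} [Group G] [Finite G] {p : ℕ} [Fact p.Prime] (hsep : Cfsg.IsPSolvable p G) (hO : Cfsg.pPrimeCore p G = ⊥) (hnf : ¬ Cfsg.IsThompsonFactorizable p G) : (p = 2 ∨ p = 3) ∧ ∃ E : Subgroup G, Subgroup.centralizer ((⨆ S : Sylow p G, Cfsg.omegaOne p ((S : Subgroup G) ⊓ Subgroup.centralizer ((S : Subgroup G) : Set G))) : Set G) ≤ E ∧ E ≤ Cfsg.thompsonSubgroup p G ⊔ Subgroup.centralizer ((⨆ S : Sylow p G, Cfsg.omegaOne p ((S : Subgroup G) ⊓ Subgroup.centralizer ((S : Subgroup G) : Set G))) : Set G) ∧ Cfsg.thompsonSubgroup p G ⊔ Subgroup.centralizer ((⨆ S : Sylow p G, Cfsg.omegaOne p ((S : Subgroup G) ⊓ Subgroup.centralizer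 ((S : Subgroup G) : Set G))) : Set G) ≤ Subgroup.normalizer (E : Set G) ∧ ∃ hn : ((Subgroup.centralizer ((⨆ S : Sylow p G, Cfsg.omegaOne p ((S : Subgroup G) ⊓ Subgroup.centralizer ((S : Subgroup G) : Set G))) : Set G)).subgroupOf E).Normal, Nonempty ((↥E ⧸ (Subgroup.centralizer ((⨆ S : Sylow p G, Cfsg.omegaOne p ((S : Subgroup G) ⊓ Subgroup.centralizer ((S : Subgroup G) : Set G))) : Set G)).subgroupOf E) ≃* Matrix.SpecialLinearGroup (Fin 2) (ZMod p)) := by
  have key : ∀ A : Sylow p G → Subgroup G, Subgroup.centralizer (⨆ S, (A S : Set G)) =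
      Subgroup.centralizer ((⨆ S, A S : Subgroup G) : Set G) := by
    intro A
    rw [Subgroup.iSup_eq_closure, Subgroup.centralizer_closure]
    rfl
  have h := Cfsg.Agent.Lib.KS9Fac.s0618 hsep hO hnf rfl
  rw [← key] at h
  exact h

end Cfsg.Agent.S0618
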