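import Cfsg.Statements.S0622
import Cfsg.Agent.Lib.StableClosure

set_option autoImplicit false
open Cfsg
universe u

namespace Cfsg.Agent.S0622

open Cfsg.Agent.Lib.ThompsonJ Cfsg.Agent.Lib.StableClosure

/-- Basic properties of the stable normal closure W(S) of Ω₁(Z(S)) in a finite p-group: characteristic, squeezed between Ω₁(Z(S)) and Ω₁(Z(J(S))), nontrivial for S ≠ 1, and transported by group isomorphisms. -/
theorem result {S : Type u} [Group S] [Finite S] {p : ℕ} [Fact p.Prime] (hS : IsPGroup p S) : (Cfsg.stableNormalClosure p S).Characteristic ∧ Cfsg.omegaOne p (Subgroup.center S) ≤ Cfsg.stableNormalClosure p S ∧ Cfsg.stableNormalClosure p S ≤ Cfsg.omegaCenterThompson p S ∧ (Nontrivial S → Cfsg.stableNormalClosure p S ≠ ⊥) ∧ ∀ (S' : Type u) [Group S'] (η : S ≃* S'), (Cfsg.stableNormalClosure p S).map η.toMonoidHom = Cfsg.stableNormalClosure p S' := by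
  refine ⟨snc_characteristic, omega_center_le, snc_le_oct, ?_, fun S' _ η => snc_map η⟩
  intro hnt h
  have hc : Nontrivial (Subgroup.center S) := hS.center_nontrivial
  have hcp : IsPGroup p (Subgroup.center S) := hS.to_subgroup _
  obtain ⟨n, hn, hn'⟩ := (IsPGroup.nontrivial_iff_card hcp).1 hc
  have hdvd : p ∣ Nat.card (Subgroup.center S) := by
    rw [hn']; exact dvd_pow_self p hn.ne'
  obtain ⟨x, hx⟩ := exists_prime_orderOf_dvd_card' p hdvd
  have hxp : (x : S) ^ p = 1 := by
    have : x ^ p = 1 := by rw [← hx]; exact pow_orderOf_eq_one x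
    have := congrArg Subtype.val this
    simpa using this
  have hmem : (x : S) ∈ Cfsg.stableNormalClosure p S :=
    omega_center_le (mem_omegaOne x.2 hxp)
  rw [h, Subgroup.mem_bot] at hmem
  have hx1 : x = 1 := Subtype.ext hmem
  rw [hx1, orderOf_one] at hx
  exact (Fact.out : p.Prime).one_lt.ne hx

end Cfsg.Agent.S0622
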