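import Cfsg.Statements.S0633
import Cfsg.Agent.Lib.HallHigman

set_option autoImplicit false
open Cfsg

namespace Cfsg.Agent.S0633

open Module Polynomial Cfsg.Agent.Lib.HallHigman

/-- Theorem B of Hall and Higman on the minimal polynomial of a p-element of order p^n in a p-solvable linear group on a nonzero vector space in characteristic p with no nontrivial normal p-subgroup: its degree is p^n, except when some p^n₀ - 1 (n₀ ≤ n) is a power of a prime q for which the Sylow q-subgroups are non-abelian, in which case the degree is at least p^(n-n₀)(p^n₀ - 1). -/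
theorem result {F : Type*} [Field F] {p : ℕ} [Fact p.Prime] [CharP F p] {V : Type*} [AddCommGroup V] [Module F V] [FiniteDimensional F V] [Nontrivial V] (H : Subgroup (V ≃ₗ[F] V)) [Finite H] (hsol : Cfsg.IsPSolvable p H) (hOp : Cfsg.pCore p H = ⊥) (x : V ≃ₗ[F] V) (hx : x ∈ H) (n : ℕ) (hn : orderOf x = p ^ n) (r : ℕ) (hr : minpoly F (x : Module.End F V) = (Polynomial.X - 1) ^ r) : r = p ^ n ∨ ∃ n₀ q m : ℕ, 1 ≤ n₀ ∧ n₀ ≤ n ∧ q.Prime ∧ 1 ≤ m ∧ p ^ n₀ - 1 = q ^ m ∧ (∀ Q : Sylow q H, ¬ IsMulCommutative Q) ∧ p ^ (n - n₀) * (p ^ n₀ - 1) ≤ r := by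
  have hp : p.Prime := Fact.out
  let ρ : H →* Module.End F V :=
    { toFun := fun h => ((h : V ≃ₗ[F] V) : V →ₗ[F] V)
      map_one' := rfl
      map_mul' := fun _ _ => rfl }
  have hρ : Function.Injective ρ := by
    intro a b h
    apply Subtype.ext
    apply LinearEquiv.ext
    intro v
    exact LinearMap.congr_fun h v
  have hρx : ρ ⟨x, hx⟩ = (x : Module.End F V) := rfl
  set X : Module.End F V := (x : Module.End F V) with hX
  have hrX : (X - 1) ^ r = 0 := by
    have h1 := minpoly.aeval F X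
    rw [hr] at h1
    simpa using h1
  have hle : ∀ k, (X - 1) ^ k ≠ 0 → k + 1 ≤ r := by
    intro k hk
    by_contra hcon
    apply hk
    have h1 : k = r + (k - r) := by omega
    rw [h1, pow_add, hrX, zero_mul]
  have hge : ∀ k, (X - 1) ^ k = 0 → r ≤ k := by
    intro k hk
    have h1 : minpoly F X ∣ (Polynomial.X - 1) ^ k := by
      apply minpoly.dvd
      simpa using hk
    rw [hr] at h1
    have hne : (Polynomial.X - 1 : F[X]) ≠ 0 := by
      rw [← Polynomial.C_1]; exact Polynomial.X_sub_C_ne_zero 1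
    have h2 := Polynomial.natDegree_le_of_dvd h1 (pow_ne_zero _ hne)
    rw [Polynomial.natDegree_pow, Polynomial.natDegree_pow, ← Polynomial.C_1, Polynomial.natDegree_X_sub_C,
      mul_one, mul_one] at h2
    exact h2
  have hord : orderOf (⟨x, hx⟩ : H) = p ^ n := by rw [Subgroup.orderOf_mk]; exact hn
  have hXp : X ^ (p ^ n) = 1 := by
    rw [← hρx, ← map_pow, ← hord, pow_orderOf_eq_one, map_one]
  have hrle : r ≤ p ^ n := by
    apply hge
    rw [Cfsg.Agent.Lib.HHLin.sub_one_pow (K := F) (p := p), hXp, sub_self]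
  rcases Nat.eq_zero_or_pos n with hn0 | hn0
  · left
    rw [hn0, pow_zero] at hXp hrle ⊢
    have h1 := hle 0 (by rw [pow_zero]; exact one_ne_zero)
    omega
  · rcases theoremB hsol hOp ρ hρ ⟨x, hx⟩ n hn0 hord with h | ⟨n₀, q, m, h1, h2, hq, hqp, h3, h4, ⟨Q, hQ, h5⟩, h6⟩
    · left
      have h1 := hle _ h
      have h2 : 0 < p ^ n := pow_pos hp.pos n
      omega
    · right
      have : Fact q.Prime := ⟨hq⟩
      refine ⟨n₀, q, m, h1, h2, hq, h3, h4, fun S => sylow_not_comm hQ h5 S, ?_⟩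
      have h7 := hle _ h6
      have h8 : 0 < p ^ (n - n₀) * (p ^ n₀ - 1) := by
        rw [h4]
        exact Nat.mul_pos (pow_pos hp.pos _) (pow_pos hq.pos _)
      omega

end Cfsg.Agent.S0633
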