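import Cfsg.Statements.S0634
import Cfsg.Agent.Lib.PLength

set_option autoImplicit false
open Cfsg

namespace Cfsg.Agent.S0634

open Cfsg.Agent.Lib Subgroup

/-- In a p-soluble group each p-factor of the upper p-series contains its own centralizer in the corresponding quotient. -/
theorem result {G : Type*} [Group G] [Finite G] {p : ℕ} [Fact p.Prime] (hsol : Cfsg.IsPSolvable p G) (k : ℕ) : Subgroup.centralizer ((((Cfsg.upperPSeries p G (2 * k + 2)).1.map (QuotientGroup.mk' (Cfsg.upperPSeries p G (2 * k + 1)).1)) : Subgroup (G ⧸ (Cfsg.upperPSeries p G (2 * k + 1)).1)) : Set (G ⧸ (Cfsg.upperPSeries p G (2 * k + 1)).1)) ≤ (Cfsg.upperPSeries p G (2 * k + 2)).1.map (QuotientGroup.mk' (Cfsg.upperPSeries p G (2 * k + 1)).1) := by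
  have hodd : ¬ Even (2 * k + 1) := by simp
  have heven : Even (2 * k) := by simp
  have h1 : (Cfsg.upperPSeries p G (2 * k + 2)).1.map (QuotientGroup.mk' (Cfsg.upperPSeries p G (2 * k + 1)).1) =
      pCore p (G ⧸ (Cfsg.upperPSeries p G (2 * k + 1)).1) := by
    rw [show 2 * k + 2 = (2 * k + 1) + 1 from rfl, PLength.upper_succ_odd hodd,
      Subgroup.map_comap_eq_self_of_surjective (QuotientGroup.mk'_surjective _)]
  rw [h1]
  apply H32PSolv.centralizer_pCore_le (H32PSolv.isPSolvable_quotient hsol _)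
  -- the p'-core is trivial
  set U := (Cfsg.upperPSeries p G (2 * k + 1)).1 with hU
  have h2 : (pPrimeCore p (G ⧸ U)).comap (QuotientGroup.mk' U) ≤ U := by
    refine le_trans (PLength.le_upper_even heven (H := (Cfsg.upperPSeries p G (2 * k)).1) le_rfl inferInstance ?_) hU.ge
    have h3 : U ≤ (pPrimeCore p (G ⧸ U)).comap (QuotientGroup.mk' U) := by
      intro x hx
      rw [mem_comap, (QuotientGroup.eq_one_iff x).mpr hx |> (fun h => (h : QuotientGroup.mk' _ x = 1))]
      exact one_mem _
    rw [← Subgroup.relIndex_mul_relIndex _ U _ (PLength.upper_le_succ (2 * k)) h3]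
    apply Nat.Coprime.mul_left
    · exact PLength.upper_alt.even (p := p) (G := G) (H := fun n => (upperPSeries p G n).1) (2 * k) heven
    · rw [PLength.relIndex_comap_mk]
      exact H32Cores.pPrimeCore_coprime p
  rw [eq_bot_iff]
  intro x hx
  obtain ⟨g, rfl⟩ := QuotientGroup.mk'_surjective U x
  have h3 : g ∈ U := h2 hx
  rw [mem_bot]
  exact (QuotientGroup.eq_one_iff g).mpr h3

end Cfsg.Agent.S0634
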