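import Cfsg.Statements.S0635
import Cfsg.Agent.Lib.PLength

set_option autoImplicit false
open Cfsg

namespace Cfsg.Agent.S0635

open Cfsg.Agent.Lib Subgroup

universe u

theorem main (p : ℕ) [hp : Fact p.Prime] (N : ℕ) : ∀ (G : Type u) [Group G] [Finite G], Nat.card G ≤ N →
    IsPSolvable p G → ∀ (S : Sylow p G) (c : ℕ), Group.nilpotencyClass (S : Subgroup G) ≤ c →
      PLengthLE p c G := by
  induction N with
  | zero =>
    intro G _ _ hN
    have : 0 < Nat.card G := Nat.card_pos
    omega
  | succ N ih =>
    intro G _ _ hN hsol S c hc
    have hcard : ∀ (M : Subgroup G) [M.Normal], M ≠ ⊥ → Nat.card (G ⧸ M) ≤ N := by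
      intro M _ hM
      have h1 := M.card_mul_index
      rw [Subgroup.index_eq_card] at h1
      have h2 : 1 < Nat.card M := (Subgroup.one_lt_card_iff_ne_bot M).mpr hM
      have h3 : 0 < Nat.card (G ⧸ M) := Nat.card_pos
      nlinarith
    haveI : Group.IsNilpotent (S : Subgroup G) := S.isPGroup'.isNilpotent
    -- the map onto the Sylow subgroup of a quotient
    have hmap : ∀ (M : Subgroup G) [M.Normal], ((S.mapSurjective (QuotientGroup.mk'_surjective M) : Sylow p (G ⧸ M)) :
        Subgroup (G ⧸ M)) = (S : Subgroup G).map (QuotientGroup.mk' M) := fun M _ => rfl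
    by_cases hM : pPrimeCore p G = ⊥
    · by_cases hS : (S : Subgroup G) = ⊥
      · -- G is a p'-group
        apply PLength.pLengthLE_mono (Nat.zero_le c)
        rw [PLength.pLengthLE_zero_iff]
        have h1 : ¬ p ∣ Nat.card G := by
          have h2 := S.not_dvd_index
          rw [hS, Subgroup.index_bot] at h2
          exact h2
        exact ((Nat.Prime.coprime_iff_not_dvd hp.out).mpr h1).symm
      · haveI : Nontrivial (S : Subgroup G) := (Subgroup.nontrivial_iff_ne_bot _).mpr hS
        have h1 := Group.nilpotencyClass_eq_quotient_center_plus_one (G := (S : Subgroup G))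
        obtain ⟨c', rfl⟩ : ∃ c', c = c' + 1 := ⟨c - 1, by omega⟩
        set P := pCore p G with hP
        have hC := H32PSolv.centralizer_pCore_le hsol hM
        rw [← hP] at hC
        have hPS : P ≤ (S : Subgroup G) := Fitting.pCore_le_sylow p S
        have hP1 : P ≠ ⊥ := by
          intro h
          rw [h] at hC
          have h2 : (⊤ : Subgroup G) ≤ ⊥ := by
            refine le_trans ?_ hC
            intro x _
            rw [mem_centralizer_iff]
            intro y hy
            rw [SetLike.mem_coe, mem_bot] at hy
            rw [hy, one_mul, mul_one]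
          apply hS
          rw [eq_bot_iff]
          exact le_top.trans h2
        apply PLength.pLengthLE_succ_of_isPGroup P (H32Cores.pCore_isPGroup p)
        apply ih (G ⧸ P) (hcard P hP1) (H32PSolv.isPSolvable_quotient hsol P)
          (S.mapSurjective (QuotientGroup.mk'_surjective P)) c'
        rw [hmap P]
        let f : (S : Subgroup G) →* ((S : Subgroup G).map (QuotientGroup.mk' P)) :=
          (QuotientGroup.mk' P).subgroupMap (S : Subgroup G)
        have hf : Function.Surjective f := MonoidHom.subgroupMap_surjective _ _
        have hker : center (S : Subgroup G) ≤ f.ker := by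
          intro z hz
          rw [MonoidHom.mem_ker]
          apply Subtype.ext
          change ((z : G) : G ⧸ P) = 1
          rw [QuotientGroup.eq_one_iff]
          apply hC
          rw [mem_centralizer_iff]
          intro y hy
          exact congrArg Subtype.val (mem_center_iff.mp hz ⟨y, hPS hy⟩)
        have h2 := Group.nilpotencyClass_le_of_surjective (QuotientGroup.lift (center (S : Subgroup G)) f hker) (by
          intro y
          obtain ⟨x, hx⟩ := hf y
          exact ⟨(x : (S : Subgroup G) ⧸ center (S : Subgroup G)), hx⟩)
        omega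
    · apply PLength.pLengthLE_of_coprime (pPrimeCore p G) (H32Cores.pPrimeCore_coprime p)
      apply ih (G ⧸ pPrimeCore p G) (hcard _ hM) (H32PSolv.isPSolvable_quotient hsol _)
        (S.mapSurjective (QuotientGroup.mk'_surjective _)) c
      rw [hmap]
      exact (Group.nilpotencyClass_le_of_surjective ((QuotientGroup.mk' (pPrimeCore p G)).subgroupMap (S : Subgroup G))
        (MonoidHom.subgroupMap_surjective _ _)).trans hc

/-- The p-length of a p-soluble group is at most the nilpotency class of its Sylow p-subgroups. -/
theorem result {G : Type*} [Group G] [Finite G] {p : ℕ} [Fact p.Prime] (hsol : Cfsg.IsPSolvable p G) (S : Sylow p G) : Cfsg.PLengthLE p (Group.nilpotencyClass ↥(S : Subgroup G)) G :=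
  main p (Nat.card G) G le_rfl hsol S _ le_rfl

end Cfsg.Agent.S0635
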