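import Cfsg.Statements.S0640
import Cfsg.Agent.Lib.Critical2

set_option autoImplicit false
open Cfsg

namespace Cfsg.Agent.S0640

/-- For odd p, a prime q ≠ p dividing the order of the automorphism group of a p-group of rank at most 2 divides p² - 1 and is less than p. -/
theorem result {R : Type*} [Group R] [Finite R] {p : ℕ} [Fact p.Prime] (hp : p ≠ 2) (hR : IsPGroup p R) (hrk : Cfsg.PRankLE p 2 R) (q : ℕ) (hq : q.Prime) (hqp : q ≠ p) (hdvd : q ∣ Nat.card (MulAut R)) : q ∣ p ^ 2 - 1 ∧ q < p := by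
  exact Cfsg.Agent.Lib.Critical2.prime_dvd_aut hp hR hrk q hq hqp hdvd

end Cfsg.Agent.S0640
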