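import Cfsg.Statements.S0641

set_option autoImplicit false
open Cfsg

namespace Cfsg.Agent.S0641

theorem powerClosure_map {G K : Type*} [Group G] [Group K] (p n : ℕ) (H : Subgroup G) (f : G →* K) :
    (Cfsg.powerClosure p n H).map f = Cfsg.powerClosure p n (H.map f) := by
  unfold Cfsg.powerClosure
  rw [MonoidHom.map_closure]
  congr 1
  ext y
  constructor
  · rintro ⟨_, ⟨x, hx, rfl⟩, rfl⟩
    exact ⟨f x, ⟨x, hx, rfl⟩, by simp⟩
  · rintro ⟨_, ⟨x, hx, rfl⟩, rfl⟩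
    exact ⟨x ^ p ^ n, ⟨x, hx, rfl⟩, by simp⟩

/-- Regularity of a p-group passes to quotient groups. -/
theorem result {G : Type*} [Group G] {p : ℕ} [Fact p.Prime] (hG : Cfsg.IsRegularPGroup p G) (N : Subgroup G) [N.Normal] : Cfsg.IsRegularPGroup p (G ⧸ N) := by
  obtain ⟨hp, h⟩ := hG
  refine ⟨hp.to_quotient N, ?_⟩
  intro a' b' n
  obtain ⟨a, rfl⟩ := QuotientGroup.mk'_surjective N a'
  obtain ⟨b, rfl⟩ := QuotientGroup.mk'_surjective N b'
  obtain ⟨c, hc, hab⟩ := h a b n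
  refine ⟨QuotientGroup.mk' N c, ?_, ?_⟩
  · have : QuotientGroup.mk' N c ∈ (Cfsg.powerClosure p n ⁅Subgroup.closure ({a, b} : Set G), Subgroup.closure ({a, b} : Set G)⁆).map (QuotientGroup.mk' N) := ⟨c, hc, rfl⟩
    rw [powerClosure_map, Subgroup.map_commutator, MonoidHom.map_closure] at this
    rwa [Set.image_pair] at this
  · rw [← map_mul, ← map_pow, hab]; simp

end Cfsg.Agent.S0641
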