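import Mathlib
import Cfsg.Statements.S0642
import Cfsg.Agent.Lib.H70Regular

set_option autoImplicit false
open Cfsg
open scoped commutatorElement

namespace Cfsg.Agent.S0642

/-- Among finite 2-groups the regular ones are exactly the abelian ones. -/
theorem result {G : Type*} [Group G] [Finite G] (hG : IsPGroup 2 G) : Cfsg.IsRegularPGroup 2 G ↔ ∀ a b : G, a * b = b * a := by
  have : Fact (Nat.Prime 2) := ⟨Nat.prime_two⟩
  constructor
  · intro h a b
    by_contra hab
    obtain ⟨c, hc, h1⟩ := h.2 a b 1
    set K := Subgroup.closure ({a, b} : Set G) with hK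
    set D := ⁅K, K⁆ with hD
    have ha : a ∈ K := Subgroup.subset_closure (by simp)
    have hb : b ∈ K := Subgroup.subset_closure (by simp)
    have hnorm : ∀ k ∈ K, ∀ x ∈ Cfsg.powerClosure 2 1 D, k * x * k⁻¹ ∈ Cfsg.powerClosure 2 1 D := by
      intro k hk x hx
      apply Cfsg.Agent.Lib.H70Regular.conj_mem_powerClosure _ hx
      intro y hy
      have h3 : k * y * k⁻¹ = (k * y * k⁻¹ * y⁻¹) * y := by group
      rw [h3]
      exact mul_mem (Subgroup.commutator_mem_commutator hk (Subgroup.commutator_le_self K hy)) hy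
    have h2 : D ≤ Cfsg.powerClosure 2 1 D := by
      apply Cfsg.Agent.Lib.H70Regular.commutator_closure_pair_le a b _ hnorm
      rw [pow_one, pow_two, pow_two, pow_two] at h1
      have h3 : b * a * b = a * b * b * c := by
        have h4 : a * (b * a * b) = a * (a * b * b * c) := by
          calc a * (b * a * b) = a * b * (a * b) := by group
            _ = a * a * (b * b) * c := h1
            _ = _ := by group
        exact mul_left_cancel h4
      have hk : b * c * b⁻¹ ∈ Cfsg.powerClosure 2 1 D := hnorm b hb c hc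
      have h6 : b * a = a * b * (b * c * b⁻¹) := by
        calc b * a = (b * a * b) * b⁻¹ := by group
          _ = (a * b * b * c) * b⁻¹ := by rw [h3]
          _ = _ := by group
      have h7 : a * b = b * a * (b * c * b⁻¹)⁻¹ := by rw [h6]; group
      have h5 : ⁅a, b⁆ = (b * a) * (b * c * b⁻¹)⁻¹ * (b * a)⁻¹ := by
        rw [commutatorElement_def, h7]; group
      rw [h5]
      exact hnorm _ (mul_mem hb ha) _ (inv_mem hk)
    have h3 : (Cfsg.powerClosure 2 1 D) ≤ (frattini D).map D.subtype := by
      rw [Cfsg.powerClosure, Subgroup.closure_le]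
      rintro _ ⟨x, hx, rfl⟩
      exact ⟨⟨x, hx⟩ ^ 2, Cfsg.Agent.Lib.H70Frattini.pow_mem_frattini (hG.to_subgroup D) _, by simp⟩
    have h4 : (⊥ : Subgroup D) ⊔ frattini D = ⊤ := by
      rw [bot_sup_eq]
      apply Subgroup.map_injective D.subtype_injective
      rw [← MonoidHom.range_eq_map, Subgroup.range_subtype]
      exact le_antisymm (Subgroup.map_subtype_le _) (h2.trans h3)
    have h5 := frattini_nongenerating h4
    have h6 : ⁅a, b⁆ ∈ D := Subgroup.commutator_mem_commutator ha hb
    have h7 : (⟨⁅a, b⁆, h6⟩ : D) ∈ (⊥ : Subgroup D) := by rw [h5]; trivial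
    rw [Subgroup.mem_bot] at h7
    exact hab (commutatorElement_eq_one_iff_mul_comm.1 (congrArg Subtype.val h7))
  · intro h
    refine ⟨hG, fun a b n => ⟨1, one_mem _, ?_⟩⟩
    rw [mul_one]
    exact (show Commute a b from h a b).mul_pow _

end Cfsg.Agent.S0642
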