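import Mathlib
import Cfsg.Statements.S0643
import Cfsg.Agent.Lib.H70Regular

set_option autoImplicit false
open Cfsg

namespace Cfsg.Agent.S0643

/-- Kemhadze's criterion: a finite p-group is regular exactly when (ab)^p = a^p b^p c^p always holds for some c in the derived subgroup of the subgroup generated by a and b. -/
theorem result {G : Type*} [Group G] [Finite G] {p : ℕ} [Fact p.Prime] (hG : IsPGroup p G) : Cfsg.IsRegularPGroup p G ↔ ∀ a b : G, ∃ c ∈ ⁅Subgroup.closure ({a, b} : Set G), Subgroup.closure ({a, b} : Set G)⁆, (a * b) ^ p = a ^ p * b ^ p * c ^ p := by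
  constructor
  · intro h a b
    obtain ⟨c, hc, hab⟩ := h.2 a b 1
    obtain ⟨d, hd, hcd⟩ := Cfsg.Agent.Lib.H70Regular.exists_pow_eq hG (fun a b => h.2 a b 1) _ _ rfl c hc
    rw [pow_one] at hab hcd
    exact ⟨d, hd, by rw [hab, hcd]⟩
  · intro h
    refine ⟨hG, fun a b n => Cfsg.Agent.Lib.H70Regular.regAt_of_one hG ?_ n a b⟩
    intro a b
    obtain ⟨c, hc, hab⟩ := h a b
    refine ⟨c ^ p, ?_, by rw [pow_one]; exact hab⟩
    have h1 := Cfsg.Agent.Lib.H70Regular.pow_mem_powerClosure (p := p) (n := 1) hc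
    rwa [pow_one] at h1

end Cfsg.Agent.S0643
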