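import Mathlib
import Cfsg.Statements.S0644
import Cfsg.Agent.Lib.H70Regular

set_option autoImplicit false
open Cfsg

namespace Cfsg.Agent.S0644

/-- In a regular p-group the p^n-th powers of the elements of any subgroup H form a subgroup, whose derived subgroup is contained in the subgroup generated by the p^n-th powers of elements of the derived subgroup of H. -/
theorem result {G : Type*} [Group G] [Finite G] {p : ℕ} [Fact p.Prime] (hG : Cfsg.IsRegularPGroup p G) (H : Subgroup G) (n : ℕ) : {y : G | ∃ x ∈ H, y = x ^ (p ^ n)} = (Cfsg.powerClosure p n H : Set G) ∧ ⁅Cfsg.powerClosure p n H, Cfsg.powerClosure p n H⁆ ≤ Cfsg.powerClosure p n ⁅H, H⁆ := by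
  have hr : Cfsg.Agent.Lib.H70Regular.RegAt p n G := fun a b => hG.2 a b n
  refine ⟨?_, Cfsg.Agent.Lib.H70Regular.commutator_powerClosure_le hG.1 hr H⟩
  ext y
  constructor
  · rintro ⟨x, hx, rfl⟩
    exact Cfsg.Agent.Lib.H70Regular.pow_mem_powerClosure hx
  · intro hy
    exact Cfsg.Agent.Lib.H70Regular.exists_pow_eq hG.1 hr _ H rfl y hy

end Cfsg.Agent.S0644
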