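import Cfsg.Statements.S0645
import Cfsg.Agent.Lib.CyclicMaximal

set_option autoImplicit false
open Cfsg

namespace Cfsg.Agent.S0645

/-- Classification of p-groups with a cyclic maximal subgroup, odd p: a non-abelian one of order p^n has generators a of order p^(n-1) and b of order p, b outside the cyclic subgroup generated by a, with b a b⁻¹ = a^(1 + p^(n-2)). -/
theorem result {G : Type*} [Group G] [Finite G] {p : ℕ} [Fact p.Prime] (hp : p ≠ 2) (n : ℕ) (hn : 3 ≤ n) (hG : Nat.card G = p ^ n) (C : Subgroup G) (hC : IsCyclic C) (hCi : C.index = p) (hna : ∃ x y : G, x * y ≠ y * x) : ∃ a b : G, orderOf a = p ^ (n - 1) ∧ orderOf b = p ∧ b ∉ Subgroup.zpowers a ∧ b * a * b⁻¹ = a ^ (1 + p ^ (n - 2)) := by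
  exact Cfsg.Agent.Lib.CyclicMaximal.odd_case hp hn hG C hC hCi hna

end Cfsg.Agent.S0645
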