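import Cfsg.Statements.S0656
import Cfsg.Agent.Lib.PStabInvolve
set_option autoImplicit false
open Cfsg

namespace Cfsg.Agent.S0656

/-- For odd p, a faithful group on an elementary abelian p-group with no nontrivial normal p-subgroup in which some nontrivial p-element acts quadratically has a section isomorphic to SL(2, p). -/
theorem result {G : Type*} [Group G] [Finite G] {p : ℕ} [Fact p.Prime] (hp : p ≠ 2) (V H : Subgroup G) (hV : Cfsg.IsElementaryAbelian p V) (hHV : H ≤ Subgroup.normalizer (V : Set G)) (hf : H ⊓ Subgroup.centralizer (V : Set G) = ⊥) (hO : Cfsg.pCore p ↥H = ⊥) (x : G) (hxH : x ∈ H) (hx1 : x ≠ 1) (hxp : ∃ k : ℕ, orderOf x = p ^ k) (hq : ⁅⁅V, Subgroup.zpowers x⁆, Subgroup.zpowers x⁆ = ⊥) : ∃ (K L : Subgroup G) (hL : (L.subgroupOf K).Normal), K ≤ H ∧ Nonempty ((K ⧸ L.subgroupOf K) ≃* Matrix.SpecialLinearGroup (Fin 2) (ZMod p)) := by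
  classical
  have hVp : IsPGroup p V := by
    intro v
    exact ⟨1, Subtype.ext (by rw [pow_one]; exact hV.2 v v.2)⟩
  obtain ⟨K, L, hL, hK, he⟩ := Lib.QdSection.sl2_of_natSec
    (Lib.PStabPair.natSec_of_not_stable hp hVp hHV hxH (Lib.QuadSection.quad_of_commutator hq) (by
      intro D hDH hHD hD hxD
      apply hx1
      have hDn : (D.subgroupOf H).Normal := Subgroup.normal_subgroupOf_of_le_normalizer hHD
      have hDp : IsPGroup p (D.subgroupOf H) := by
        rintro ⟨y, hy⟩
        rw [Subgroup.mem_subgroupOf] at hy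
        obtain ⟨k, hk⟩ := hD y hy
        refine ⟨k, ?_⟩
        have h1 : (y : G) ^ p ^ k ∈ H ⊓ Subgroup.centralizer (V : Set G) := ⟨pow_mem y.2 _, hk⟩
        rw [hf, Subgroup.mem_bot] at h1
        apply Subtype.ext
        apply Subtype.ext
        exact h1
      have h2 := Lib.FactorizeQuot.le_pCore hDn hDp
      rw [hO, le_bot_iff] at h2
      have h3 : (⟨x, hxH⟩ : H) ∈ D.subgroupOf H := hxD
      rw [h2, Subgroup.mem_bot] at h3
      exact congrArg Subtype.val h3))
  exact ⟨K, L, hL, hK, he⟩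

end Cfsg.Agent.S0656
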