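import Cfsg.Statements.S0661
import Cfsg.Agent.Lib.PConstraint
import Cfsg.Agent.Lib.FactorizeQuot

set_option autoImplicit false
open Cfsg

namespace Cfsg.Agent.S0661

/-- If, modulo the largest normal subgroup of order prime to p, the largest normal p-subgroup contains its centralizer, then for every p-subgroup P the p'-core of N_G(P) is just O_p'(G) ∩ N_G(P). -/
theorem result {G : Type*} [Group G] [Finite G] {p : ℕ} [Fact p.Prime] (hc : Subgroup.centralizer (Cfsg.pCore p (G ⧸ Cfsg.pPrimeCore p G) : Set (G ⧸ Cfsg.pPrimeCore p G)) ≤ Cfsg.pCore p (G ⧸ Cfsg.pPrimeCore p G)) (P : Subgroup G) (hP : IsPGroup p P) : (Cfsg.pPrimeCore p ↥(Subgroup.normalizer (P : Set G))).map (Subgroup.normalizer (P : Set G)).subtype = Cfsg.pPrimeCore p G ⊓ Subgroup.normalizer (P : Set G) := by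
  classical
  set N := Cfsg.pPrimeCore p G with hN
  have hNp : ¬ p ∣ Nat.card N := Lib.FactorizeQuot.not_dvd_card_pPrimeCore
  have hP' : IsPGroup p (P.map (QuotientGroup.mk' N)) := hP.map _
  have hbot : Cfsg.pPrimeCore p ↥((Subgroup.normalizer (P : Set G)).map (QuotientGroup.mk' N)) = ⊥ := by
    rw [Lib.PConstraint.map_normalizer_eq hNp hP]
    exact (Lib.PConstraint.local_of_le hc hP' (X := Subgroup.normalizer ((P.map (QuotientGroup.mk' N) :
      Subgroup (G ⧸ N)) : Set (G ⧸ N))) le_rfl (Subgroup.centralizer_le_normalizer _)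
      (Or.inl Subgroup.le_normalizer)).1
  apply le_antisymm
  · apply le_inf _ (Subgroup.map_subtype_le _)
    have h1 : (Cfsg.pPrimeCore p ↥(Subgroup.normalizer (P : Set G))).map
        ((QuotientGroup.mk' N).subgroupMap (Subgroup.normalizer (P : Set G))) ≤ ⊥ := by
      rw [← hbot]
      apply Lib.FactorizeQuot.le_pPrimeCore
      · exact Subgroup.Normal.map inferInstance _ ((QuotientGroup.mk' N).subgroupMap_surjective _)
      · exact Nat.Coprime.coprime_dvd_left (Subgroup.card_map_dvd _ _) Lib.FactorizeQuot.card_pPrimeCore_coprime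
    rintro _ ⟨x, hx, rfl⟩
    have h2 := h1 (Subgroup.mem_map_of_mem _ hx)
    rw [Subgroup.mem_bot] at h2
    have h3 : QuotientGroup.mk' N (x : G) = 1 := congrArg Subtype.val h2
    exact (QuotientGroup.eq_one_iff _).1 h3
  · rintro x ⟨hx1, hx2⟩
    refine ⟨⟨x, hx2⟩, ?_, rfl⟩
    have h1 : N.subgroupOf (Subgroup.normalizer (P : Set G)) ≤
        Cfsg.pPrimeCore p ↥(Subgroup.normalizer (P : Set G)) := by
      apply Lib.FactorizeQuot.le_pPrimeCore inferInstance
      refine Nat.Coprime.coprime_dvd_left ?_ (Lib.FactorizeQuot.card_pPrimeCore_coprime (p := p) (G := G))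
      have h2 := Subgroup.card_comap_dvd_of_injective N (Subgroup.normalizer (P : Set G)).subtype
        (Subgroup.subtype_injective _)
      exact h2
    exact h1 hx1

end Cfsg.Agent.S0661
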