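import Cfsg.Statements.S0666
import Cfsg.Agent.Lib.FrobAction2
import Cfsg.Agent.Lib.FrobThm
-- import your own Cfsg.Agent.* helpers here

set_option autoImplicit false
open Cfsg

namespace Cfsg.Agent.S0666

/-- A Frobenius group acting on a nontrivial abelian group of order prime to that of its kernel, with the kernel acting without nontrivial fixed points, has a complement with a nontrivial fixed point. -/
theorem result {G : Type*} [Group G] [Finite G] (V F : Subgroup G) (hVab : IsMulCommutative V) (hV1 : V ≠ ⊥) (hFV : F ≤ Subgroup.normalizer (V : Set G)) (H : Subgroup ↥F) (hH : Cfsg.IsFrobeniusComplement H) (hcop : (Nat.card V).Coprime (Nat.card (Cfsg.frobeniusKernel H))) (hCK : V ⊓ Subgroup.centralizer (Subtype.val '' Cfsg.frobeniusKernel H : Set G) = ⊥) : V ⊓ Subgroup.centralizer ((H.map F.subtype : Subgroup G) : Set G) ≠ ⊥ := by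
  classical
  obtain ⟨N, hN, hNn, hc⟩ := Cfsg.Agent.Lib.FrobThm.exists_kernel hH
  have hN1 : N ≠ ⊥ := by
    intro h
    obtain ⟨x, hx, hx1⟩ := Cfsg.Agent.Lib.FrobGroup.exists_kernel_ne_one hH
    rw [← hN, h] at hx
    exact hx1 (Subgroup.mem_bot.1 hx)
  have hfpf := (Cfsg.Agent.Lib.FrobGroup.isFrobeniusComplement_iff hc hN1 hH.1).1 hH
  let _ : CommGroup V := { (inferInstance : Group V) with
    mul_comm := fun a b => mul_comm' a b }
  have : Nontrivial V := (Subgroup.nontrivial_iff_ne_bot V).2 hV1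
  intro hcon
  let act : F →* MulAut V := Cfsg.Agent.Lib.FrobAction2.conjAct hFV
  have hact : ∀ (a : F) (v : V), act a v = v ↔ (a : G) * v = v * a :=
    fun a v => Cfsg.Agent.Lib.FrobAction2.conjAct_fixed hFV a v
  have key := Cfsg.Agent.Lib.FrobAction.pow_card_kernel_eq_one act N H
    (by
      intro h hh hh1 k hk hcomm
      have h1 : k ∈ N ⊓ Subgroup.centralizer {h} :=
        ⟨hk, Subgroup.mem_centralizer_singleton_iff.2 hcomm.symm⟩
      rw [hfpf h hh hh1] at h1
      exact Subgroup.mem_bot.1 h1)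
    (by
      intro v hv
      have h1 : (v : G) ∈ V ⊓ Subgroup.centralizer (Subtype.val '' Cfsg.frobeniusKernel H : Set G) := by
        refine ⟨v.2, Subgroup.mem_centralizer_iff.2 ?_⟩
        rintro _ ⟨k, hk, rfl⟩
        rw [← hN] at hk
        exact (hact k v).1 (hv k hk)
      rw [hCK, Subgroup.mem_bot] at h1
      exact Subtype.ext h1)
    (by
      intro v hv
      have h1 : (v : G) ∈ V ⊓ Subgroup.centralizer ((H.map F.subtype : Subgroup G) : Set G) := by
        refine ⟨v.2, Subgroup.mem_centralizer_iff.2 ?_⟩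
        rintro _ ⟨k, hk, rfl⟩
        exact (hact k v).1 (hv k hk)
      rw [hcon, Subgroup.mem_bot] at h1
      exact Subtype.ext h1)
  obtain ⟨v, hv⟩ := exists_ne (1 : V)
  apply hv
  have h2 : orderOf v ∣ Nat.card N := orderOf_dvd_of_pow_eq_one (key v)
  have h3 : orderOf v ∣ Nat.card V := orderOf_dvd_natCard v
  have h4 : Nat.card N = Nat.card (Cfsg.frobeniusKernel H) := by rw [← hN]; rfl
  rw [h4] at h2
  have h5 := Nat.dvd_gcd h3 h2
  rw [hcop.gcd_eq_one] at h5
  exact orderOf_eq_one_iff.1 (Nat.dvd_one.1 h5)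

end Cfsg.Agent.S0666
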