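import Cfsg.Statements.S0668
import Cfsg.Agent.Lib.PermRepBasic

set_option autoImplicit false
open Cfsg

namespace Cfsg.Agent.S0668



/-- The equivariant linear maps between the permutation modules of two finite `G`-sets form a space whose dimension is the number of `G`-orbits on the product of the two sets. -/
theorem result {G : Type*} [Group G] {K : Type*} [Field K] {Ω₁ Ω₂ : Type*} [Fintype Ω₁] [Fintype Ω₂] [MulAction G Ω₁] [MulAction G Ω₂] : Module.finrank K ((Cfsg.permRep K G Ω₁).linHom (Cfsg.permRep K G Ω₂)).invariants = Nat.card (MulAction.orbitRel.Quotient G (Ω₁ × Ω₂)) := by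
  classical
  exact Cfsg.Agent.Lib.PermRepBasic.finrank_inv

end Cfsg.Agent.S0668
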