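import Cfsg.Statements.S0669
-- import your own Cfsg.Agent.* helpers here

set_option autoImplicit false
open Cfsg

namespace Cfsg.Agent.S0669

/-- The rank of a transitive action: orbits on ordered pairs correspond to orbits of a point stabiliser. -/
theorem result {G : Type*} [Group G] {Ω : Type*} [Finite Ω] [MulAction G Ω] [MulAction.IsPretransitive G Ω] (a : Ω) : Nat.card (MulAction.orbitRel.Quotient G (Ω × Ω)) = Nat.card (MulAction.orbitRel.Quotient (MulAction.stabilizer G a) Ω) := by
  classical
  symm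
  have h1 : ∀ b c : Ω, (MulAction.orbitRel (MulAction.stabilizer G a) Ω) b c →
      (MulAction.orbitRel G (Ω × Ω)) (a, b) (a, c) := by
    intro b c h
    rw [MulAction.orbitRel_apply] at h ⊢
    obtain ⟨⟨g, hg⟩, hgc⟩ := h
    refine ⟨g, ?_⟩
    have h1 : g • a = a := hg
    have h2 : g • c = b := hgc
    simp only [Prod.smul_mk, h1, h2]
  refine Nat.card_congr (Equiv.ofBijective
    (Quotient.map' (s₁ := MulAction.orbitRel (MulAction.stabilizer G a) Ω)
      (s₂ := MulAction.orbitRel G (Ω × Ω)) (fun b => (a, b)) h1) ⟨?_, ?_⟩)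
  · intro x y
    refine Quotient.inductionOn₂' x y ?_
    intro b c h
    have h2 : (MulAction.orbitRel G (Ω × Ω)) (a, b) (a, c) := Quotient.exact' h
    rw [MulAction.orbitRel_apply] at h2
    obtain ⟨g, hg⟩ := h2
    have hg' : (g • a, g • c) = (a, b) := hg
    apply Quotient.sound'
    rw [MulAction.orbitRel_apply]
    exact ⟨⟨g, (Prod.mk.inj hg').1⟩, (Prod.mk.inj hg').2⟩
  · intro x
    refine Quotient.inductionOn' x ?_
    rintro ⟨b, c⟩
    obtain ⟨g, hg⟩ := MulAction.exists_smul_eq G b a
    refine ⟨Quotient.mk'' (g • c), ?_⟩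
    apply Quotient.sound'
    rw [MulAction.orbitRel_apply]
    refine ⟨g, ?_⟩
    simp only [Prod.smul_mk, hg]

end Cfsg.Agent.S0669
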