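import Cfsg.Statements.S0672
import Cfsg.Agent.Lib.PermRepPairs

set_option autoImplicit false
open Cfsg

namespace Cfsg.Agent.S0672



/-- Let a finite group act faithfully and doubly transitively with point stabilisers of even order, and let `K` have characteristic `p` dividing the degree. If the heart of the permutation module admits no non-zero equivariant map to the permutation module on unordered pairs (phrased: every intertwining map from the sum-zero functions vanishing on the constants is zero), the action is triply transitive. -/
theorem result {G : Type*} [Group G] [Finite G] {K : Type*} [Field K] {p : ℕ} [Fact p.Prime] [CharP K p] {Ω : Type*} [Fintype Ω] [DecidableEq Ω] [MulAction G Ω] [FaithfulSMul G Ω] (h2 : MulAction.IsMultiplyPretransitive G Ω 2) (hp : p ∣ Fintype.card Ω) (heven : ∀ a : Ω, Even (Nat.card (MulAction.stabilizer G a))) (h : ∀ f : Representation.IntertwiningMap (Cfsg.permSumZero K G Ω).toRepresentation (Cfsg.permRep K G (Set.powersetCard Ω 2)), (∀ v : (Cfsg.permSumZero K G Ω).toSubmodule, (v : Ω → K) ∈ (Cfsg.permConstants K G Ω).toSubmodule → f v = 0) → f = 0) : MulAction.IsMultiplyPretransitive G Ω 3 := by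
  exact Cfsg.Agent.Lib.PermRepPairs.three_transitive h2 hp heven h

end Cfsg.Agent.S0672
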