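import Cfsg.Statements.S0677
import Cfsg.Agent.Lib.PrimeDegreeIndex

set_option autoImplicit false
open Cfsg

namespace Cfsg.Agent.S0677



/-- In a transitive permutation group of prime degree `p` whose Sylow `p`-normaliser has even order, the point stabilisers are the only subgroups of index `p`. -/
theorem result {α : Type*} [Fintype α] [DecidableEq α] {p : ℕ} [Fact p.Prime] (hα : Fintype.card α = p) (G : Subgroup (Equiv.Perm α)) [MulAction.IsPretransitive G α] (P : Sylow p G) (heven : Even (Nat.card (Subgroup.normalizer ((P : Subgroup G) : Set G)))) (H : Subgroup G) (hH : H.index = p) : ∃ a : α, H = MulAction.stabilizer G a := by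
  exact Cfsg.Agent.Lib.PrimeDegreeIndex.eq_stabilizer
    (by rw [Nat.card_eq_fintype_card]; exact hα) P heven H hH

end Cfsg.Agent.S0677
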