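import Cfsg.Statements.S0680
import Cfsg.Agent.Lib.Sharply2

set_option autoImplicit false
open Cfsg

namespace Cfsg.Agent.S0680



/-- A finite sharply doubly transitive permutation group has degree a prime power `p ^ j`; a Sylow `p`-subgroup is normal, elementary abelian and regular, and consists of the identity together with the elements without fixed points. (Frobenius' Theorem is not needed.) -/
theorem result {α : Type*} [Fintype α] [DecidableEq α] (G : Subgroup (Equiv.Perm α)) [MulAction.IsMultiplyPretransitive G α 2] (hsharp : ∀ x : Fin 2 ↪ α, MulAction.stabilizer G x = ⊥) (h2 : 2 ≤ Fintype.card α) : ∃ p j : ℕ, p.Prime ∧ 1 ≤ j ∧ Fintype.card α = p ^ j ∧ ∀ (hp : Fact p.Prime) (P : Sylow p G), (P : Subgroup G).Normal ∧ IsMulCommutative (P : Subgroup G) ∧ (∀ x ∈ (P : Subgroup G), x ^ p = 1) ∧ MulAction.IsPretransitive (P : Subgroup G) α ∧ (∀ a : α, MulAction.stabilizer (P : Subgroup G) a = ⊥) ∧ ∀ g : G, g ∈ (P : Subgroup G) ↔ g = 1 ∨ ∀ a : α, g • a ≠ a := by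
  classical
  have hn : 2 ≤ Nat.card α := by rwa [Nat.card_eq_fintype_card]
  have hs := Cfsg.Agent.Lib.Sharply2.sharp_of_stabilizer hsharp
  have hG2 : MulAction.IsMultiplyPretransitive G α 2 := inferInstance
  obtain ⟨hfin, hcG⟩ := Cfsg.Agent.Lib.Sharply2.card_group hG2 hs hn
  obtain ⟨p, hp, N, hN, hmem, hcard, hpow, hcomm⟩ := Cfsg.Agent.Lib.Sharply2.main hG2 hs hn
  have hpF : Fact p.Prime := ⟨hp⟩
  have hpg : IsPGroup p N := by
    intro g
    refine ⟨1, ?_⟩
    rw [pow_one]
    exact Subtype.ext (hpow g.1 g.2)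
  obtain ⟨j, hj⟩ := IsPGroup.iff_card.mp hpg
  rw [hcard, Nat.card_eq_fintype_card] at hj
  have hj1 : 1 ≤ j := by
    rcases Nat.eq_zero_or_pos j with h | h
    · rw [h, pow_zero] at hj; omega
    · exact h
  refine ⟨p, j, hp, hj1, hj, ?_⟩
  intro hp' P
  have hidx : ¬ p ∣ N.index := by
    have h1 : Nat.card N * N.index = Nat.card G := Subgroup.card_mul_index N
    rw [hcard, hcG] at h1
    have h2 : N.index = Nat.card α - 1 := Nat.eq_of_mul_eq_mul_left (by omega) h1
    rw [h2]
    intro h3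
    have h4 : p ∣ Nat.card α := by
      rw [Nat.card_eq_fintype_card, hj]
      exact dvd_pow_self p (by omega)
    have h5 : p ∣ 1 := by
      have := (Nat.dvd_sub h4 h3)
      have h6 : Nat.card α - (Nat.card α - 1) = 1 := by omega
      rwa [h6] at this
    exact hp.one_lt.ne' (Nat.dvd_one.mp h5)
  have hPN : (P : Subgroup G) = N := by
    have hQ : ((hpg.toSylow hidx : Sylow p G) : Subgroup G) = N := rfl
    have hQn : ((hpg.toSylow hidx : Sylow p G) : Subgroup G).Normal := hN
    have : Unique (Sylow p G) := Sylow.unique_of_normal _ hQn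
    rw [← hQ]
    exact congrArg _ (Subsingleton.elim P (hpg.toSylow hidx))
  have hsemi : ∀ g ∈ N, ∀ a : α, g • a = a → g = 1 := by
    intro g hg a ha
    rcases (hmem g).mp hg with h | h
    · exact h
    · exact absurd ha (h a)
  rw [hPN]
  refine ⟨hN, ⟨⟨fun x y => Subtype.ext (hcomm x.1 x.2 y.1 y.2)⟩⟩, hpow, ?_, ?_, hmem⟩
  · obtain ⟨a0⟩ : Nonempty α := by
      rw [← Finite.card_pos_iff]; omega
    have hinj : Function.Injective (fun g : N => g • a0) := by
      intro g h hgh
      have hgh' : g.1 • a0 = h.1 • a0 := hgh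
      have := hsemi (h.1⁻¹ * g.1) (N.mul_mem (N.inv_mem h.2) g.2) a0
        (by rw [mul_smul, hgh', inv_smul_smul])
      exact Subtype.ext (inv_mul_eq_one.mp this).symm
    have hbij : Function.Bijective (fun g : N => g • a0) :=
      (Nat.bijective_iff_injective_and_card _).mpr ⟨hinj, hcard⟩
    constructor
    intro a b
    obtain ⟨g, hg⟩ := hbij.2 a
    obtain ⟨h, hh⟩ := hbij.2 b
    refine ⟨h * g⁻¹, ?_⟩
    have hg' : g • a0 = a := hg
    have hh' : h • a0 = b := hh
    rw [mul_smul, ← hg', inv_smul_smul, hh']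
  · intro a
    rw [eq_bot_iff]
    intro g hg
    rw [Subgroup.mem_bot]
    exact Subtype.ext (hsemi g.1 g.2 a hg)

end Cfsg.Agent.S0680
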