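import Cfsg.Statements.S0681
import Mathlib.GroupTheory.GroupAction.MultipleTransitivity
import Mathlib.Tactic

set_option autoImplicit false
open Cfsg

namespace Cfsg.Agent.S0681



/-- The affine maps `x ↦ x * a + b`, `a ≠ 0`, of a near-field form a sharply doubly transitive permutation group. -/
theorem result {F : Type*} [Cfsg.NearField F] : ∃ H : Subgroup (Equiv.Perm F), (∀ σ : Equiv.Perm F, σ ∈ H ↔ ∃ a b : F, a ≠ 0 ∧ ∀ x : F, σ x = x * a + b) ∧ MulAction.IsMultiplyPretransitive H F 2 ∧ ∀ x : Fin 2 ↪ F, MulAction.stabilizer H x = ⊥ := by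
  have zero_mul' : ∀ a : F, (0 : F) * a = 0 := by
    intro a
    have h := NearField.right_distrib (0 : F) 0 a
    rw [add_zero] at h
    have h2 : (0 : F) * a + 0 = 0 * a + 0 * a := by rw [add_zero]; exact h
    exact (add_left_cancel h2).symm
  have neg_mul' : ∀ a b : F, (-a) * b = -(a * b) := by
    intro a b
    have h := NearField.right_distrib a (-a) b
    rw [add_neg_cancel, zero_mul'] at h
    exact (neg_eq_of_add_eq_zero_right h.symm).symm
  have mul_ne : ∀ a b : F, a ≠ 0 → b ≠ 0 → a * b ≠ 0 := by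
    intro a b ha hb h
    obtain ⟨c, hc1, hc2⟩ := NearField.exists_inv b hb
    apply ha
    have : a * b * c = 0 := by rw [h, zero_mul']
    rwa [mul_assoc, hc1, mul_one] at this
  let H : Subgroup (Equiv.Perm F) :=
    { carrier := {σ | ∃ a b : F, a ≠ 0 ∧ ∀ x : F, σ x = x * a + b}
      one_mem' := ⟨1, 0, fun h => NearField.zero_ne_one h.symm, fun x => by simp⟩
      mul_mem' := by
        rintro σ τ ⟨a, b, ha, hσ⟩ ⟨c, d, hc, hτ⟩
        refine ⟨c * a, d * a + b, mul_ne _ _ hc ha, fun x => ?_⟩
        rw [Equiv.Perm.mul_apply, hσ, hτ, NearField.right_distrib, mul_assoc, add_assoc]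
      inv_mem' := by
        rintro σ ⟨a, b, ha, hσ⟩
        obtain ⟨c, hc1, hc2⟩ := NearField.exists_inv a ha
        have hc0 : c ≠ 0 := by
          intro h
          rw [h, NearField.mul_zero] at hc1
          exact NearField.zero_ne_one hc1
        refine ⟨c, (-b) * c, hc0, fun x => ?_⟩
        apply σ.injective
        rw [Equiv.Perm.inv_def, Equiv.apply_symm_apply, hσ, ← NearField.right_distrib, mul_assoc,
          hc2, mul_one, neg_add_cancel_right] }
  have hH : ∀ σ : Equiv.Perm F, σ ∈ H ↔ ∃ a b : F, a ≠ 0 ∧ ∀ x : F, σ x = x * a + b :=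
    fun σ => Iff.rfl
  refine ⟨H, hH, ?_, ?_⟩
  · rw [MulAction.is_two_pretransitive_iff]
    intro x y z w hxy hzw
    have hxy' : x - y ≠ 0 := sub_ne_zero.mpr hxy
    have hzw' : z - w ≠ 0 := sub_ne_zero.mpr hzw
    obtain ⟨c, hc1, hc2⟩ := NearField.exists_inv (x - y) hxy'
    have hc0 : c ≠ 0 := by
      intro h
      rw [h, NearField.mul_zero] at hc1
      exact NearField.zero_ne_one hc1
    set a := c * (z - w) with ha
    have ha0 : a ≠ 0 := mul_ne _ _ hc0 hzw'
    set b := -(x * a) + z with hb
    obtain ⟨a', ha1, ha2⟩ := NearField.exists_inv a ha0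
    let σ : Equiv.Perm F :=
      { toFun := fun t => t * a + b
        invFun := fun t => (t - b) * a'
        left_inv := fun t => by
          show (t * a + b - b) * a' = t
          rw [add_sub_cancel_right, mul_assoc, ha1, mul_one]
        right_inv := fun t => by
          show (t - b) * a' * a + b = t
          rw [mul_assoc, ha2, mul_one, sub_add_cancel] }
    have hσ : ∀ t, σ t = t * a + b := fun t => rfl
    refine ⟨⟨σ, a, b, ha0, hσ⟩, ?_, ?_⟩
    · show σ x = z
      rw [hσ, hb, add_neg_cancel_left]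
    · show σ y = w
      have h1 : (x - y) * a = z - w := by
        rw [ha, ← mul_assoc, hc1, one_mul]
      rw [sub_eq_add_neg, NearField.right_distrib, neg_mul', ← sub_eq_add_neg] at h1
      -- h1 : x*a - y*a = z - w
      rw [hσ, hb, ← add_assoc]
      have h2 : y * a + -(x * a) = -(z - w) := by
        rw [← h1, neg_sub, sub_eq_add_neg]
      rw [h2, neg_sub, sub_add_cancel]
  · intro x
    rw [eq_bot_iff]
    rintro ⟨σ, a, b, ha, hσ⟩ hx
    rw [Subgroup.mem_bot]
    rw [MulAction.mem_stabilizer_iff] at hx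
    have h0 : σ (x 0) = x 0 := DFunLike.congr_fun hx 0
    have h1 : σ (x 1) = x 1 := DFunLike.congr_fun hx 1
    have hne : x 0 ≠ x 1 := fun h => absurd (x.injective h) (by decide)
    have hd : (x 0 - x 1) * a = x 0 - x 1 := by
      have e1 : (x 0 - x 1) * a = x 0 * a - x 1 * a := by
        rw [sub_eq_add_neg, NearField.right_distrib, neg_mul', ← sub_eq_add_neg]
      rw [e1]
      have : σ (x 0) - σ (x 1) = x 0 - x 1 := by rw [h0, h1]
      rw [hσ, hσ, add_sub_add_right_eq_sub] at this
      exact this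
    have hne' : x 0 - x 1 ≠ 0 := sub_ne_zero.mpr hne
    obtain ⟨c, hc1, hc2⟩ := NearField.exists_inv _ hne'
    have ha1 : a = 1 := by
      have : c * ((x 0 - x 1) * a) = c * (x 0 - x 1) := by rw [hd]
      rwa [← mul_assoc, hc2, one_mul] at this
    have hb0 : b = 0 := by
      rw [hσ, ha1, mul_one] at h0
      simpa using h0
    apply Subtype.ext
    ext t
    show σ t = t
    rw [hσ, ha1, hb0, mul_one, add_zero]

end Cfsg.Agent.S0681
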