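import Cfsg.Statements.S0682
import Cfsg.Agent.Lib.Sharply2
import Cfsg.Agent.S0681

set_option autoImplicit false
open Cfsg

namespace Cfsg.Agent.S0682



/-- A finite near-field has prime-power order; its additive group is commutative of prime exponent. -/
theorem result {F : Type*} [Cfsg.NearField F] [Finite F] : ∃ p j : ℕ, p.Prime ∧ 1 ≤ j ∧ Nat.card F = p ^ j ∧ (∀ x y : F, x + y = y + x) ∧ ∀ x : F, p • x = 0 := by
  classical
  obtain ⟨H, hH, h2, hsharp⟩ := Cfsg.Agent.S0681.result (F := F)
  have hs := Cfsg.Agent.Lib.Sharply2.sharp_of_stabilizer hsharp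
  have hn : 2 ≤ Nat.card F := by
    have : Nontrivial F := ⟨⟨0, 1, NearField.zero_ne_one⟩⟩
    exact Finite.one_lt_card
  obtain ⟨p, hp, N, hN, hmem, hcard, hpow, hcomm⟩ := Cfsg.Agent.Lib.Sharply2.main h2 hs hn
  have hpF : Fact p.Prime := ⟨hp⟩
  have hpg : IsPGroup p N := by
    intro g
    refine ⟨1, ?_⟩
    rw [pow_one]
    exact Subtype.ext (hpow g.1 g.2)
  obtain ⟨hfin, hcG⟩ := Cfsg.Agent.Lib.Sharply2.card_group h2 hs hn
  obtain ⟨j, hj⟩ := IsPGroup.iff_card.mp hpg
  rw [hcard] at hj
  have hj1 : 1 ≤ j := by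
    rcases Nat.eq_zero_or_pos j with h | h
    · rw [h, pow_zero] at hj; omega
    · exact h
  -- translations
  have htr : ∀ b : F, ∃ t : H, t ∈ N ∧ ∀ x : F, t • x = x + b := by
    intro b
    have hb : Equiv.addRight b ∈ H := by
      rw [hH]
      exact ⟨1, b, fun h => NearField.zero_ne_one h.symm, fun x => by simp⟩
    refine ⟨⟨_, hb⟩, ?_, fun x => rfl⟩
    rw [hmem]
    by_cases h0 : b = 0
    · left
      apply Subtype.ext
      ext x
      show x + b = x
      rw [h0, add_zero]
    · right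
      intro a ha
      have : a + b = a := ha
      exact h0 (by simpa using this)
  refine ⟨p, j, hp, hj1, hj, ?_, ?_⟩
  · intro x y
    obtain ⟨t, ht, ht'⟩ := htr x
    obtain ⟨u, hu, hu'⟩ := htr y
    have h1 := congrArg (fun g : H => g • (0 : F)) (hcomm t ht u hu)
    simp only [mul_smul, ht', hu', zero_add] at h1
    exact h1.symm
  · intro x
    obtain ⟨t, ht, ht'⟩ := htr x
    have h1 : ∀ k : ℕ, (t ^ k) • (0 : F) = k • x := by
      intro k
      induction k with
      | zero => simp
      | succ k ih => rw [pow_succ', mul_smul, ih, ht', succ_nsmul]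
    rw [← h1 p, hpow t ht, one_smul]

end Cfsg.Agent.S0682
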