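import Cfsg.Statements.S0683
import Cfsg.Agent.Lib.Sharply2

set_option autoImplicit false
open Cfsg

namespace Cfsg.Agent.S0683



/-- A finite sharply doubly transitive permutation group is the affine group of a near-field: the permuted set carries a near-field structure for which the group consists exactly of the maps `x ↦ x * a + b` with `a ≠ 0`. -/
theorem result {α : Type*} [Fintype α] [DecidableEq α] (H : Subgroup (Equiv.Perm α)) [MulAction.IsMultiplyPretransitive H α 2] (hsharp : ∀ x : Fin 2 ↪ α, MulAction.stabilizer H x = ⊥) (h2 : 2 ≤ Fintype.card α) : ∃ _ : Cfsg.NearField α, ∀ σ : Equiv.Perm α, σ ∈ H ↔ ∃ a b : α, a ≠ 0 ∧ ∀ x : α, σ x = x * a + b := by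
  classical
  have hn : 2 ≤ Nat.card α := by rwa [Nat.card_eq_fintype_card]
  have hs := Cfsg.Agent.Lib.Sharply2.sharp_of_stabilizer hsharp
  have hG2 : MulAction.IsMultiplyPretransitive H α 2 := inferInstance
  obtain ⟨hfin, hcG⟩ := Cfsg.Agent.Lib.Sharply2.card_group hG2 hs hn
  obtain ⟨p, hp, N, hN, hmem, hcard, hpow, hcomm⟩ := Cfsg.Agent.Lib.Sharply2.main hG2 hs hn
  have hsemi : ∀ g ∈ N, ∀ a : α, g • a = a → g = 1 := by
    intro g hg a ha
    rcases (hmem g).mp hg with h | h
    · exact h
    · exact absurd ha (h a)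
  obtain ⟨o, e, hoe⟩ : ∃ a b : α, a ≠ b := Fintype.exists_pair_of_one_lt_card (by omega)
  have hinj : Function.Injective (fun g : N => g.1 • o) := by
    intro g h hgh
    have hgh' : g.1 • o = h.1 • o := hgh
    have := hsemi (h.1⁻¹ * g.1) (N.mul_mem (N.inv_mem h.2) g.2) o
      (by rw [mul_smul, hgh', inv_smul_smul])
    exact Subtype.ext (inv_mul_eq_one.mp this).symm
  have hbij : Function.Bijective (fun g : N => g.1 • o) :=
    (Nat.bijective_iff_injective_and_card _).mpr ⟨hinj, hcard⟩
  have hτex : ∀ a : α, ∃ t : H, t ∈ N ∧ t • o = a := by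
    intro a
    obtain ⟨g, hg⟩ := hbij.2 a
    exact ⟨g.1, g.2, hg⟩
  choose τ hτN hτo using hτex
  have hτu : ∀ t ∈ N, ∀ a, t • o = a → t = τ a := by
    intro t ht a hta
    have := hsemi ((τ a)⁻¹ * t) (N.mul_mem (N.inv_mem (hτN a)) ht) o
      (by rw [mul_smul, hta, inv_smul_eq_iff, hτo])
    exact (inv_mul_eq_one.mp this).symm
  have hμex : ∀ a : α, ∃ m : H, a ≠ o → (m • o = o ∧ m • e = a) := by
    intro a
    by_cases ha : a = o
    · exact ⟨1, fun h => absurd ha h⟩
    · obtain ⟨g, hg1, hg2⟩ := (MulAction.is_two_pretransitive_iff.mp hG2) hoe (Ne.symm ha)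
      exact ⟨g, fun _ => ⟨hg1, hg2⟩⟩
  choose μ hμ using hμex
  have hμu : ∀ m : H, m • o = o → ∀ a, a ≠ o → m • e = a → m = μ a := by
    intro m hm a ha hma
    have := hs ((μ a)⁻¹ * m) o e hoe
      (by rw [mul_smul, hm, inv_smul_eq_iff, (hμ a ha).1])
      (by rw [mul_smul, hma, inv_smul_eq_iff, (hμ a ha).2])
    exact (inv_mul_eq_one.mp this).symm
  let add' : α → α → α := fun x b => τ b • x
  let mul' : α → α → α := fun x a => if a = o then o else μ a • x
  have hadd : ∀ x b, add' x b = τ b • x := fun _ _ => rfl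
  have hτ0 : τ o = 1 := (hτu 1 N.one_mem o (one_smul _ _)).symm
  have hτadd : ∀ a b, τ (τ b • a) = τ b * τ a := by
    intro a b
    exact (hτu _ (N.mul_mem (hτN b) (hτN a)) _ (by rw [mul_smul, hτo])).symm
  have hmul0 : ∀ x, mul' x o = o := fun x => if_pos rfl
  have hmuln : ∀ x a, a ≠ o → mul' x a = μ a • x := fun x a ha => if_neg ha
  have hoe' : e ≠ o := Ne.symm hoe
  have hμ1 : μ e = 1 := (hμu 1 (one_smul _ _) e hoe' (one_smul _ _)).symm
  have hμne : ∀ a b, a ≠ o → b ≠ o → μ b • a ≠ o := by
    intro a b ha hb h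
    apply ha
    have h1 : μ b • a = μ b • o := by rw [h, (hμ b hb).1]
    exact MulAction.injective _ h1
  have hμmul : ∀ a b, a ≠ o → b ≠ o → μ (μ b • a) = μ b * μ a := by
    intro a b ha hb
    refine (hμu _ ?_ _ (hμne a b ha hb) ?_).symm
    · rw [mul_smul, (hμ a ha).1, (hμ b hb).1]
    · rw [mul_smul, (hμ a ha).2]
  have hmulo : ∀ a, mul' o a = o := by
    intro a
    by_cases ha : a = o
    · rw [ha]; exact hmul0 o
    · rw [hmuln _ _ ha, (hμ a ha).1]
  let nf : NearField α :=
    { add := add'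
      zero := o
      neg := fun a => (τ a)⁻¹ • o
      mul := mul'
      one := e
      add_assoc := by
        intro a b c
        show τ c • (τ b • a) = τ (τ c • b) • a
        rw [hτadd, mul_smul]
      zero_add := by
        intro a
        show τ a • o = a
        exact hτo a
      add_zero := by
        intro a
        show τ o • a = a
        rw [hτ0, one_smul]
      neg_add_cancel := by
        intro a
        show τ a • ((τ a)⁻¹ • o) = o
        rw [smul_inv_smul]
      nsmul := @nsmulRec α ⟨o⟩ ⟨add'⟩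
      zsmul := @zsmulRec α ⟨o⟩ ⟨add'⟩ ⟨fun a => (τ a)⁻¹ • o⟩ (@nsmulRec α ⟨o⟩ ⟨add'⟩)
      mul_assoc := by
        intro a b c
        show mul' (mul' a b) c = mul' a (mul' b c)
        by_cases hc : c = o
        · rw [hc, hmul0, hmul0, hmul0]
        by_cases hb : b = o
        · rw [hb, hmul0, hmulo, hmul0]
        rw [hmuln _ b hb, hmuln _ c hc, hmuln b c hc, hmuln _ _ (hμne b c hb hc), hμmul b c hb hc,
          mul_smul]
      one_mul := by
        intro a
        show mul' e a = a
        by_cases ha : a = o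
        · rw [ha]; exact hmul0 e
        · rw [hmuln _ _ ha, (hμ a ha).2]
      mul_one := by
        intro a
        show mul' a e = a
        rw [hmuln _ _ hoe', hμ1, one_smul]
      right_distrib := by
        intro a b c
        show mul' (τ b • a) c = τ (mul' b c) • (mul' a c)
        by_cases hc : c = o
        · rw [hc, hmul0, hmul0, hmul0, hτ0, one_smul]
        rw [hmuln _ c hc, hmuln _ c hc, hmuln _ c hc]
        have h1 : μ c * τ b * (μ c)⁻¹ = τ (μ c • b) := by
          apply hτu
          · exact hN.conj_mem _ (hτN b) (μ c)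
          · have h2 : (μ c)⁻¹ • o = o := by
              rw [inv_smul_eq_iff, (hμ c hc).1]
            rw [mul_smul, h2, mul_smul, hτo]
        rw [← h1, mul_smul, inv_smul_smul, mul_smul]
      mul_zero := hmul0
      zero_ne_one := hoe
      exists_inv := by
        intro a ha
        have ha' : a ≠ o := ha
        have h1 : (μ a)⁻¹ • o = o := by
          rw [inv_smul_eq_iff, (hμ a ha').1]
        have h2 : (μ a)⁻¹ • e ≠ o := by
          intro h
          rw [inv_smul_eq_iff, (hμ a ha').1] at h
          exact hoe h.symm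
        have h3 : μ ((μ a)⁻¹ • e) = (μ a)⁻¹ := (hμu _ h1 _ h2 rfl).symm
        refine ⟨(μ a)⁻¹ • e, ?_, ?_⟩
        · show mul' a ((μ a)⁻¹ • e) = e
          rw [hmuln _ _ h2, h3, inv_smul_eq_iff, (hμ a ha').2]
        · show mul' ((μ a)⁻¹ • e) a = e
          rw [hmuln _ _ ha', smul_inv_smul] }
  refine ⟨nf, ?_⟩
  intro σ
  have hmulne : ∀ (a : α), a ≠ o → ∀ x b, add' (mul' x a) b = τ b • (μ a • x) := by
    intro a ha x b
    rw [hadd, hmuln _ _ ha]
  constructor
  · intro hσ
    let s : H := ⟨σ, hσ⟩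
    set b := s • o with hb
    have h1 : ((τ b)⁻¹ * s) • o = o := by
      rw [mul_smul, ← hb, inv_smul_eq_iff, hτo]
    set m := (τ b)⁻¹ * s with hm
    have h2 : m • e ≠ o := by
      intro h
      have : m • e = m • o := by rw [h, h1]
      exact hoe' (MulAction.injective _ this)
    have h3 : m = μ (m • e) := hμu m h1 _ h2 rfl
    refine ⟨m • e, b, h2, ?_⟩
    intro x
    show σ x = add' (mul' x (m • e)) b
    rw [hmulne _ h2, ← h3, hm, ← mul_smul, mul_inv_cancel_left]
    rfl
  · rintro ⟨a, b, ha, hσ⟩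
    have ha' : a ≠ o := ha
    have h1 : σ = ((τ b * μ a : H) : Equiv.Perm α) := by
      ext x
      rw [hσ x]
      show add' (mul' x a) b = _
      rw [hmulne a ha']
      rfl
    rw [h1]
    exact (τ b * μ a).2

end Cfsg.Agent.S0683
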