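import Cfsg.Statements.S0684
import Cfsg.Agent.Lib.RegLin

set_option autoImplicit false
open Cfsg

namespace Cfsg.Agent.S0684

open Cfsg.Agent.Lib.RegLin


/-- Point stabiliser of a sharply doubly transitive group not of semilinear type: a maximal normal abelian subgroup `A` of a linear group `H` that is regular on non-zero vectors and has no irreducible cyclic normal subgroup is cyclic and reducible, and the order of `A` divides `p ^ k - 1` for `k` the dimension of a minimal `A`-invariant subspace. -/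
theorem result {p : ℕ} [Fact p.Prime] {V : Type*} [AddCommGroup V] [Module (ZMod p) V] [Finite V] (H : Subgroup (V ≃ₗ[ZMod p] V)) (hreg : ∀ v w : V, v ≠ 0 → w ≠ 0 → ∃! h : H, (h : V ≃ₗ[ZMod p] V) v = w) (hI : ∀ A : Subgroup H, A.Normal → IsCyclic A → ∃ W : Submodule (ZMod p) V, W ≠ ⊥ ∧ W ≠ ⊤ ∧ ∀ a ∈ A, ∀ v ∈ W, ((a : H) : V ≃ₗ[ZMod p] V) v ∈ W) (A : Subgroup H) (hAn : A.Normal) (hAc : IsMulCommutative A) (hAmax : ∀ B : Subgroup H, B.Normal → IsMulCommutative B → A ≤ B → B = A) : IsCyclic A ∧ ∃ W : Submodule (ZMod p) V, W ≠ ⊥ ∧ W ≠ ⊤ ∧ (∀ a ∈ A, ∀ v ∈ W, ((a : H) : V ≃ₗ[ZMod p] V) v ∈ W) ∧ (∀ W' : Submodule (ZMod p) V, W' ≤ W → (∀ a ∈ A, ∀ v ∈ W', ((a : H) : V ≃ₗ[ZMod p] V) v ∈ W') → W' = ⊥ ∨ W' = W) ∧ Nat.card A ∣ p ^ Module.finrank (ZMod p) W - 1 := by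
  classical
  have hA : ∀ x ∈ A, ∀ y ∈ A, x * y = y * x := fun x hx y hy =>
    congrArg Subtype.val (hAc.is_comm.comm (⟨x, hx⟩ : A) ⟨y, hy⟩)
  have htr : ∀ v w : V, v ≠ 0 → w ≠ 0 → ∃ h : H, (h : V ≃ₗ[ZMod p] V) v = w :=
    fun v w hv hw => (hreg v w hv hw).exists
  have hV : ∃ v : V, v ≠ 0 := by
    obtain ⟨W, hW, _⟩ := hI ⊥ inferInstance inferInstance
    obtain ⟨v, _, hv⟩ := Submodule.exists_mem_ne_zero_of_ne_bot hW
    exact ⟨v, hv⟩
  have hcyc := cyclic hV hAn hA htr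
  refine ⟨hcyc, ?_⟩
  obtain ⟨W, hWb, hWt, hWinv⟩ := hI A hAn hcyc
  obtain ⟨v, hv, hv0⟩ := Submodule.exists_mem_ne_zero_of_ne_bot hWb
  obtain ⟨L, hvL, hLb, hLinv, hLle, hLmin, hLcard⟩ := line_irreducible hAn hA htr hv0
  refine ⟨L, hLb, ?_, hLinv, hLmin, ?_⟩
  · rintro rfl
    exact hWt (top_le_iff.mp (hLle W hv hWinv))
  · have h1 := card_dvd hV hAn hA htr
    rwa [← hLcard, Module.natCard_eq_pow_finrank (K := ZMod p) (V := L), Nat.card_zmod] at h1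

end Cfsg.Agent.S0684
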