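import Cfsg.Statements.S0685
import Cfsg.Agent.Lib.RegLin

set_option autoImplicit false
open Cfsg

namespace Cfsg.Agent.S0685

open Cfsg.Agent.Lib.RegLin


/-- In a linear group over the prime field that is regular on non-zero vectors and has no irreducible cyclic normal subgroup, a maximal normal abelian subgroup is properly contained in its centraliser, which is non-abelian. -/
theorem result {p : ℕ} [Fact p.Prime] {V : Type*} [AddCommGroup V] [Module (ZMod p) V] [Finite V] (H : Subgroup (V ≃ₗ[ZMod p] V)) (hreg : ∀ v w : V, v ≠ 0 → w ≠ 0 → ∃! h : H, (h : V ≃ₗ[ZMod p] V) v = w) (hI : ∀ A : Subgroup H, A.Normal → IsCyclic A → ∃ W : Submodule (ZMod p) V, W ≠ ⊥ ∧ W ≠ ⊤ ∧ ∀ a ∈ A, ∀ v ∈ W, ((a : H) : V ≃ₗ[ZMod p] V) v ∈ W) (A : Subgroup H) (hAn : A.Normal) (hAc : IsMulCommutative A) (hAmax : ∀ B : Subgroup H, B.Normal → IsMulCommutative B → A ≤ B → B = A) : A < Subgroup.centralizer (A : Set H) ∧ ¬ IsMulCommutative (Subgroup.centralizer (A : Set H)) := by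
  classical
  have hA : ∀ x ∈ A, ∀ y ∈ A, x * y = y * x := fun x hx y hy =>
    congrArg Subtype.val (hAc.is_comm.comm (⟨x, hx⟩ : A) ⟨y, hy⟩)
  have htr : ∀ v w : V, v ≠ 0 → w ≠ 0 → ∃ h : H, (h : V ≃ₗ[ZMod p] V) v = w :=
    fun v w hv hw => (hreg v w hv hw).exists
  have hV : ∃ v : V, v ≠ 0 := by
    obtain ⟨W, hW, _⟩ := hI ⊥ inferInstance inferInstance
    obtain ⟨v, _, hv⟩ := Submodule.exists_mem_ne_zero_of_ne_bot hW
    exact ⟨v, hv⟩
  have hcyc := cyclic hV hAn hA htr
  obtain ⟨W, hWb, hWt, hWinv⟩ := hI A hAn hcyc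
  have hle : A ≤ Subgroup.centralizer (A : Set H) := by
    intro x hx
    rw [Subgroup.mem_centralizer_iff]
    exact fun y hy => hA y hy x hx
  have hHcard : Nat.card H = Nat.card V - 1 := by
    obtain ⟨v0, hv0⟩ := hV
    have hbij : Function.Bijective (fun h : H =>
        (⟨(h : V ≃ₗ[ZMod p] V) v0, fun hh => hv0 (by
          rw [← map_zero (h : V ≃ₗ[ZMod p] V)] at hh
          exact (h : V ≃ₗ[ZMod p] V).injective hh)⟩ : {v : V // v ≠ 0})) := by
      constructor
      · intro h h' hh
        have h1 : (h : V ≃ₗ[ZMod p] V) v0 = (h' : V ≃ₗ[ZMod p] V) v0 := congrArg Subtype.val hh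
        have hne : (h' : V ≃ₗ[ZMod p] V) v0 ≠ 0 := by
          intro hz
          rw [← map_zero (h' : V ≃ₗ[ZMod p] V)] at hz
          exact hv0 ((h' : V ≃ₗ[ZMod p] V).injective hz)
        exact (hreg v0 _ hv0 hne).unique h1 rfl
      · rintro ⟨w, hw⟩
        obtain ⟨h, hh⟩ := htr v0 w hv0 hw
        exact ⟨h, Subtype.ext hh⟩
    rw [Nat.card_congr (Equiv.ofBijective _ hbij)]
    have : Fintype V := Fintype.ofFinite V
    rw [Nat.card_eq_fintype_card, Nat.card_eq_fintype_card, Fintype.card_subtype_compl,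
      Fintype.card_subtype_eq]
  have hne : A ≠ Subgroup.centralizer (A : Set H) := by
    intro heq
    have h1 := index_le hV hAn hA htr
    have h2 := sq_le hV hAn hA htr W hWb hWt hWinv
    have h3 := card_dvd hV hAn hA htr
    have h4 := card_E (H := H) (A := A)
    set k := Module.finrank (ZMod p) (EA H A) with hk
    have hp2 : 2 ≤ p := (Fact.out : p.Prime).two_le
    have hkE : k < Nat.card (EA H A) := by rw [h4]; exact Nat.lt_pow_self (by omega)
    have hE2 : 2 ≤ Nat.card (EA H A) := by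
      by_contra hcon
      have : k = 0 := by omega
      have hfinE := finite_E (H := H) (A := A)
      have hsub : Nat.card (EA H A) = 1 := by rw [h4, this, pow_zero]
      have := (Nat.card_eq_one_iff_unique.mp hsub).1
      exact exists_ne hV (congrArg Subtype.val (Subsingleton.elim (1 : EA H A) 0))
    have hAle : Nat.card A ≤ Nat.card (EA H A) - 1 := Nat.le_of_dvd (by omega) h3
    have h5 := Subgroup.card_mul_index (Subgroup.centralizer (A : Set H))
    rw [← heq, hHcard] at h5
    rw [← heq] at h1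
    have h6 : Nat.card A * A.index ≤ (Nat.card (EA H A) - 1) * k := Nat.mul_le_mul hAle h1
    set E := Nat.card (EA H A) with hE
    obtain ⟨e, he⟩ : ∃ e, E = e + 1 := ⟨E - 1, by omega⟩
    rw [he] at h2 h6 hkE
    have h7 : (e + 1 - 1) * k ≤ e * (e + 1) := Nat.mul_le_mul (by omega) (by omega)
    have h8 : (e + 1) ^ 2 = e * (e + 1) + e + 1 := by ring
    omega
  have hlt : A < Subgroup.centralizer (A : Set H) := lt_of_le_of_ne hle hne
  refine ⟨hlt, fun hcomm => hne ?_⟩
  have hn : (Subgroup.centralizer (A : Set H)).Normal := inferInstance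
  exact (hAmax _ hn hcomm hle).symm

end Cfsg.Agent.S0685
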