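import Cfsg.Statements.S0687
import Cfsg.Agent.Lib.NFZas

set_option autoImplicit false
open Cfsg

namespace Cfsg.Agent.S0687



/-- In a linear group over the prime field that is regular on non-zero vectors and has no irreducible cyclic normal subgroup, a normal subgroup `N` minimal among the non-abelian normal subgroups centralising a maximal normal abelian subgroup `A` is irreducible on `V`, and its centraliser is `A`. -/
theorem result {p : ℕ} [Fact p.Prime] {V : Type*} [AddCommGroup V] [Module (ZMod p) V] [Finite V] (H : Subgroup (V ≃ₗ[ZMod p] V)) (hreg : ∀ v w : V, v ≠ 0 → w ≠ 0 → ∃! h : H, (h : V ≃ₗ[ZMod p] V) v = w) (hI : ∀ A : Subgroup H, A.Normal → IsCyclic A → ∃ W : Submodule (ZMod p) V, W ≠ ⊥ ∧ W ≠ ⊤ ∧ ∀ a ∈ A, ∀ v ∈ W, ((a : H) : V ≃ₗ[ZMod p] V) v ∈ W) (A : Subgroup H) (hAn : A.Normal) (hAc : IsMulCommutative A) (hAmax : ∀ B : Subgroup H, B.Normal → IsMulCommutative B → A ≤ B → B =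 A) (N : Subgroup H) (hNn : N.Normal) (hNle : N ≤ Subgroup.centralizer (A : Set H)) (hNna : ¬ IsMulCommutative N) (hNmin : ∀ M : Subgroup H, M.Normal → M ≤ N → ¬ IsMulCommutative M → M = N) : (∀ W : Submodule (ZMod p) V, (∀ n ∈ N, ∀ v ∈ W, ((n : H) : V ≃ₗ[ZMod p] V) v ∈ W) → W = ⊥ ∨ W = ⊤) ∧ Subgroup.centralizer (N : Set H) = A := by
  have hVn := Cfsg.Agent.Lib.NFCount.exists_ne_of_hI hI
  obtain ⟨m, d, hm, hE, hV, hidx, hA, hH, -⟩ := Cfsg.Agent.Lib.NFCount.data hreg hVn hAn hAc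
  have hAcyc : IsCyclic A := Cfsg.Agent.Lib.RegLin.cyclic hVn hAn
    (Cfsg.Agent.Lib.NFStruct.comm_iff.mp hAc) (Cfsg.Agent.Lib.NFLin.trans_of hreg)
  obtain ⟨W, hWb, hWt, hW⟩ := hI A hAn hAcyc
  have hd := Cfsg.Agent.Lib.NFCount.two_le_d hreg hVn hAn hAc hm hE hV hWb hWt hW
  obtain ⟨hV2, -, -, hNA, -⟩ := Cfsg.Agent.Lib.NFZas.main hreg hVn hAn hAc hAmax hNn hNle hNna hNmin
    hm hd hV hA hH hidx
  exact ⟨Cfsg.Agent.Lib.NFZas.irreducible hreg hNna hV2, hNA⟩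

end Cfsg.Agent.S0687
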