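import Cfsg.Statements.S0688
import Cfsg.Agent.Lib.NFSolv

set_option autoImplicit false
open Cfsg

namespace Cfsg.Agent.S0688



/-- Degrees of the soluble exceptional sharply doubly transitive groups: if a solvable linear group over the prime field is regular on the non-zero vectors of `V` and has no irreducible cyclic normal subgroup, then `V` has 25, 49, 121 or 529 elements. -/
theorem result {p : ℕ} [Fact p.Prime] {V : Type*} [AddCommGroup V] [Module (ZMod p) V] [Finite V] (H : Subgroup (V ≃ₗ[ZMod p] V)) (hreg : ∀ v w : V, v ≠ 0 → w ≠ 0 → ∃! h : H, (h : V ≃ₗ[ZMod p] V) v = w) (hI : ∀ A : Subgroup H, A.Normal → IsCyclic A → ∃ W : Submodule (ZMod p) V, W ≠ ⊥ ∧ W ≠ ⊤ ∧ ∀ a ∈ A, ∀ v ∈ W, ((a : H) : V ≃ₗ[ZMod p] V) v ∈ W) (hsolv : Group.IsSolvable H) : Nat.card V = 25 ∨ Nat.card V = 49 ∨ Nat.card V = 121 ∨ Nat.card V = 529 := by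
  exact Cfsg.Agent.Lib.NFSolv.degrees hreg hI hsolv

end Cfsg.Agent.S0688
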