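import Cfsg.Statements.S0690
import Cfsg.Agent.Lib.FrobFinal
-- import your own Cfsg.Agent.* helpers here

set_option autoImplicit false
open Cfsg

namespace Cfsg.Agent.S0690

/-- Zassenhaus: a perfect non-trivial group of fixed-point-free automorphisms of a finite group is isomorphic to `SL(2,5)`. -/
theorem result {K : Type*} [Group K] [Finite K] (G : Subgroup (MulAut K)) (hfpf : ∀ φ ∈ G, φ ≠ 1 → ∀ k : K, φ k = k → k = 1) (hperf : commutator G = ⊤) (hne : G ≠ ⊥) : Nonempty (G ≃* Matrix.SpecialLinearGroup (Fin 2) (ZMod 5)) := by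
  have hGnt : Nontrivial G := (Subgroup.nontrivial_iff_ne_bot G).2 hne
  have hKnt : Nontrivial K := by
    by_contra hcon
    rw [not_nontrivial_iff_subsingleton] at hcon
    apply hne
    rw [Subgroup.eq_bot_iff_forall]
    intro φ _
    ext k
    exact Subsingleton.elim _ _
  have hfin : Finite (MulAut K) := inferInstance
  apply Cfsg.Agent.Lib.FrobFinal.perfect _ hperf
  apply Cfsg.Agent.Lib.FrobExist.of_action (V := K) G.subtype
  intro a ha v hv
  exact hfpf a a.2 (fun h => ha (Subtype.ext h)) v hv

end Cfsg.Agent.S0690
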