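import Cfsg.Statements.S0691
import Cfsg.Agent.Lib.RegMat

set_option autoImplicit false
open Cfsg

namespace Cfsg.Agent.S0691


open Cfsg.Agent.Lib.RegMat

def T : List (ℕ × ℕ × ℕ × ℕ) :=
  [(1, 0, 0, 1), (2, 0, 0, 3), (0, 4, 1, 0), (1, 2, 1, 3), (4, 0, 0, 4), (0, 2, 2, 0),
   (2, 1, 2, 4), (0, 3, 3, 0), (2, 4, 3, 4), (4, 2, 1, 2), (3, 3, 4, 1), (3, 0, 0, 2),
   (0, 1, 4, 0), (4, 3, 4, 2), (3, 1, 2, 1), (1, 4, 3, 3), (1, 3, 4, 3), (3, 2, 1, 1),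
   (3, 4, 3, 1), (1, 1, 2, 3), (2, 2, 1, 4), (2, 3, 4, 4), (4, 4, 3, 2), (4, 1, 2, 2)]

def W : List (List (Fin 3)) :=
  [[1], [1, 0], [0, 1], [1, 0, 0],
   [], [2], [2, 1, 2], [2, 2, 0],
   [2, 0, 1], [0], [2, 2, 0, 0], [2, 0],
   [2, 1], [2, 1, 2, 0], [0, 0, 0], [2, 2, 1],
   [1, 2, 0], [0, 1, 2], [2, 2], [0, 0],
   [1, 2], [2, 0, 1, 2], [2, 2, 0, 1], [2, 0, 0]]

def gN : Fin 3 → ℕ × ℕ × ℕ × ℕ := ![(2, 0, 0, 3), (0, 4, 1, 0), (1, 2, 1, 3)]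

theorem T_closed : ∀ i : Fin 3, ∀ t ∈ T, mulN 5 (gN i) t ∈ T := by decide

theorem T_length : T.length = 24 := by decide

theorem W_reach : ∀ a < 5, ∀ b < 5, (a, b) ≠ (0, 0) →
    ∃ w ∈ W, w.foldr (fun i u => actN 5 (gN i) u) (1, 0) = (a, b) := by decide


/-- An exceptional sharply doubly transitive group of degree 5^2: the listed matrices generate a subgroup of GL(2,5) of order 24 acting regularly on the non-zero vectors. -/
theorem result (A : Matrix.GeneralLinearGroup (Fin 2) (ZMod 5)) (B : Matrix.GeneralLinearGroup (Fin 2) (ZMod 5)) (C : Matrix.GeneralLinearGroup (Fin 2) (ZMod 5)) (hA : (A : Matrix (Fin 2) (Fin 2) (ZMod 5)) = !![2, 0; 0, -2]) (hB : (B : Matrix (Fin 2) (Fin 2) (ZMod 5)) = !![0, -1; 1, 0]) (hC : (C : Matrix (Fin 2) (Fin 2) (ZMod 5)) = !![1, 2; 1, -2]) : Nat.card (Subgroup.closure ({A, B, C} : Set (Matrix.GeneralLinearGroup (Fin 2) (ZMod 5)))) = 24 ∧ ∀ v w : Fin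 2 → ZMod 5, v ≠ 0 → w ≠ 0 → ∃! h : Subgroup.closure ({A, B, C} : Set (Matrix.GeneralLinearGroup (Fin 2) (ZMod 5))), Matrix.mulVec ((h : Matrix.GeneralLinearGroup (Fin 2) (ZMod 5)) : Matrix (Fin 2) (Fin 2) (ZMod 5)) v = w := by
  have : Fact (Nat.Prime 5) := ⟨by decide⟩
  let gen : Fin 3 → Matrix.GeneralLinearGroup (Fin 2) (ZMod 5) := ![A, B, C]
  have hgen : ∀ i, (gen i : Matrix (Fin 2) (Fin 2) (ZMod 5)) = toM 5 (gN i) := by
    intro i
    fin_cases i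
    · show (A : Matrix (Fin 2) (Fin 2) (ZMod 5)) = _
      rw [hA]; decide
    · show (B : Matrix (Fin 2) (Fin 2) (ZMod 5)) = _
      rw [hB]; decide
    · show (C : Matrix (Fin 2) (Fin 2) (ZMod 5)) = _
      rw [hC]; decide
  have hS : ∀ g ∈ ({A, B, C} : Set (Matrix.GeneralLinearGroup (Fin 2) (ZMod 5))),
      ∃ i, gen i = g := by
    intro g hg
    rcases hg with rfl | rfl | rfl
    · exact ⟨0, rfl⟩
    · exact ⟨1, rfl⟩
    · exact ⟨2, rfl⟩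
  have hS' : ∀ i, gen i ∈ ({A, B, C} : Set (Matrix.GeneralLinearGroup (Fin 2) (ZMod 5))) := by
    intro i
    fin_cases i
    · exact Or.inl rfl
    · exact Or.inr (Or.inl rfl)
    · exact Or.inr (Or.inr rfl)
  apply regular (q := 5) _ _ (toV 5 (1, 0)) e1_ne
  · intro v hv
    obtain ⟨a, ha, b, hb, rfl⟩ := exists_toV v
    have hab : (a, b) ≠ (0, 0) := by
      intro h
      apply hv
      rw [h]; exact toV_zero
    obtain ⟨w, _, hw⟩ := W_reach a ha b hb hab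
    obtain ⟨h, hh, hhv⟩ := word_mem (q := 5) _ gen hS' gN hgen w (1, 0)
    exact ⟨h, hh, by rw [hhv, hw]⟩
  · refine (card_closure_le _ ((T.map (toM 5)).toFinset) ?_ ?_).trans ?_
    · rw [List.mem_toFinset, List.mem_map]
      exact ⟨(1, 0, 0, 1), by decide, toM_one⟩
    · intro g hg m hm
      obtain ⟨i, rfl⟩ := hS g hg
      rw [List.mem_toFinset, List.mem_map] at hm ⊢
      obtain ⟨t, ht, rfl⟩ := hm
      exact ⟨mulN 5 (gN i) t, T_closed i t ht, by rw [toM_mul, hgen]⟩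
    · refine (List.toFinset_card_le _).trans ?_
      rw [List.length_map, T_length]
      norm_num

end Cfsg.Agent.S0691
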