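import Cfsg.Statements.S0693
import Cfsg.Agent.Lib.RegMat

set_option autoImplicit false
open Cfsg

namespace Cfsg.Agent.S0693


open Cfsg.Agent.Lib.RegMat

def T : List (ℕ × ℕ × ℕ × ℕ) :=
  [(1, 0, 0, 1), (0, 58, 1, 0), (9, 15, 49, 49), (58, 0, 0, 58), (15, 50, 49, 10), (10, 10, 9, 15),
   (49, 44, 10, 9), (0, 1, 58, 0), (50, 44, 10, 10), (10, 49, 15, 50), (44, 10, 9, 49), (48, 20, 46, 45),
   (49, 50, 49, 44), (44, 9, 10, 49), (49, 49, 50, 44), (10, 15, 49, 50), (20, 11, 45, 13), (50, 10, 44, 10),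
   (13, 14, 48, 20), (1, 29, 4, 58), (55, 48, 23, 4), (49, 10, 44, 9), (15, 49, 50, 10), (11, 39, 13, 14),
   (10, 9, 10, 15), (14, 46, 20, 11), (29, 58, 58, 55), (48, 4, 4, 36), (11, 13, 39, 14), (55, 1, 1, 29),
   (36, 55, 55, 48), (14, 20, 46, 11), (39, 48, 14, 46), (9, 49, 15, 49), (46, 45, 11, 39), (58, 30, 55, 1),
   (4, 11, 36, 55), (13, 48, 14, 20), (1, 4, 29, 58), (55, 23, 48, 4), (20, 45, 11, 13), (35, 32, 31, 25),
   (38, 31, 30, 54), (28, 35, 34, 32), (45, 13, 39, 48), (30, 1, 1, 4), (11, 55, 55, 23), (48, 46, 20, 45),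
   (4, 58, 58, 30), (23, 4, 4, 11), (45, 39, 13, 48), (32, 24, 25, 28), (31, 21, 54, 29), (35, 31, 32, 25),
   (28, 34, 35, 32), (29, 5, 38, 31), (25, 27, 28, 35), (54, 28, 29, 38), (46, 11, 45, 39), (58, 55, 30, 1),
   (4, 36, 11, 55), (39, 14, 48, 46), (24, 27, 28, 34), (21, 28, 29, 5), (31, 24, 25, 27), (34, 31, 32, 24),
   (5, 30, 31, 21), (27, 34, 35, 31), (28, 5, 38, 30), (10, 19, 19, 48), (5, 38, 38, 53), (30, 21, 54, 28),
   (27, 35, 34, 31), (28, 38, 5, 30), (24, 28, 27, 34), (31, 25, 24, 27), (30, 54, 21, 28), (34, 32, 31, 24),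
   (5, 31, 30, 21), (19, 49, 48, 40), (38, 54, 53, 21), (21, 29, 28, 5), (40, 11, 10, 19), (21, 6, 5, 38),
   (25, 16, 42, 34), (18, 19, 45, 41), (25, 28, 27, 35), (54, 29, 28, 38), (32, 25, 24, 28), (31, 54, 21, 29),
   (49, 40, 40, 11), (54, 21, 21, 6), (29, 38, 5, 31), (11, 19, 19, 49), (6, 38, 38, 54), (16, 34, 34, 17),
   (19, 41, 41, 14), (38, 30, 31, 54), (17, 25, 25, 16), (14, 18, 18, 19), (40, 10, 11, 19), (21, 5, 6, 38),
   (19, 48, 49, 40), (38, 53, 54, 21), (34, 43, 17, 25), (41, 40, 14, 18), (25, 42, 16, 34), (18, 45, 19, 41),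
   (40, 18, 18, 45), (56, 52, 52, 3), (42, 34, 34, 43), (48, 40, 40, 10), (53, 21, 21, 5), (43, 25, 25, 42),
   (45, 41, 41, 40), (52, 3, 3, 7), (34, 17, 43, 25), (41, 14, 40, 18), (7, 56, 56, 52), (3, 7, 7, 56)]

def W : List (List (Fin 2)) :=
  [[], [0, 1, 1], [1, 1, 0, 1, 0], [0, 1, 1, 0, 1, 0, 1, 1, 0, 1, 0],
   [1, 1, 0, 1], [1, 0, 1, 1, 0], [1, 1, 0, 1, 0, 1, 1], [1, 0, 1, 1, 0, 1],
   [1, 0, 1, 1, 0, 1, 0, 1, 1, 0, 1, 0], [1, 0, 1, 1], [1, 1, 0, 1, 0, 1, 0], [1, 1, 0, 1, 0, 1],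
   [1], [0, 1, 0, 1, 1], [1, 1, 0, 1, 0, 1, 1, 0], [0, 1, 0, 1, 1, 0, 1, 0, 1],
   [0, 1, 1, 0, 1, 0, 1], [1, 0, 1, 0], [0, 1, 0, 1, 1, 0, 1, 0], [1, 0],
   [1, 1, 0, 1, 1, 0, 1], [0, 1, 1, 0, 1, 0, 1, 1, 0], [1, 0, 1, 1, 0, 1, 0, 1, 1, 0, 1], [1, 1, 0],
   [0, 1, 0, 1, 1, 0, 1, 0, 1, 1, 0], [1, 0, 1, 0, 1], [1, 1, 0, 1, 1, 0, 1, 0, 1, 0], [1, 0, 1, 1, 0, 1, 0, 1, 1, 0],
   [1, 0, 1], [0, 1, 1, 0, 1, 0], [1, 1, 0, 1, 0, 1, 1, 0, 1], [0, 1, 0],
   [1, 0, 1, 1, 0, 1, 0, 1, 1], [1, 1, 0, 1, 1, 0], [1, 0, 1, 0, 1, 1, 0, 1, 0], [0, 1, 0, 1, 1, 0, 1, 0, 1, 1],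
   [1, 0, 1, 1, 0, 1, 0], [1, 1, 0, 1, 1], [1, 0, 1, 0, 1, 1, 0], [1, 1, 0, 1, 0, 1, 1, 0, 1, 0],
   [0, 1, 0, 1], [0, 1, 1, 0], [0, 1, 0, 1, 1, 0, 1], [1, 0, 1, 0, 1, 1, 0, 1],
   [0, 1, 1, 0, 1], [1, 1, 0, 1, 1, 0, 1, 0], [1, 0, 1, 1, 0, 1, 0, 1, 0], [0, 1, 0, 1, 1, 0],
   [1, 1, 0, 1, 1, 0, 1, 0, 1], [0, 1, 1, 0, 1, 0, 1, 1], [0, 1, 0, 1, 1, 0, 1, 0, 1, 0], [1, 0, 1, 0, 1, 0],
   [0, 1, 0, 1, 0], [0, 1, 1, 0, 1, 0, 1, 0], [0, 1], [1, 0, 1, 1, 0, 1, 0, 1],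
   [1, 0, 1, 0, 1, 1], [0, 1, 1, 0, 1, 0, 1, 1, 0, 1], [1, 1], [0]]

def gN : Fin 2 → ℕ × ℕ × ℕ × ℕ := ![(0, 58, 1, 0), (9, 15, 49, 49)]

theorem T_closed : ∀ i : Fin 2, ∀ t ∈ T, mulN 59 (gN i) t ∈ T := by decide +kernel

theorem T_length : T.length = 120 := by decide +kernel

theorem W_reach : ∀ y < 59, ∃ w ∈ W,
    (w.foldr (fun i u => actN 59 (gN i) u) (1, 0)).1 % 59 ≠ 0 ∧
    (w.foldr (fun i u => actN 59 (gN i) u) (1, 0)).2 =
      (w.foldr (fun i u => actN 59 (gN i) u) (1, 0)).1 * y % 59 := by decide +kernel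

theorem W_reach_inf : ∃ w ∈ W,
    (w.foldr (fun i u => actN 59 (gN i) u) (1, 0)).1 = 0 ∧
    (w.foldr (fun i u => actN 59 (gN i) u) (1, 0)).2 % 59 ≠ 0 := by decide +kernel

theorem scal : ∀ c < 59, c ≠ 0 → ∃ i < 29, c = 4 ^ i % 59 ∨ c = (58 * 4 ^ i) % 59 := by
  decide +kernel

theorem h29' : (4 : ZMod 59) ^ 29 = 1 := by decide +kernel

theorem h58' : (58 : ZMod 59) = -1 := by decide +kernel


/-- An exceptional sharply doubly transitive group of degree 59^2: the listed matrices generate a subgroup of GL(2,59) of order 3480 acting regularly on the non-zero vectors. -/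
theorem result (A : Matrix.GeneralLinearGroup (Fin 2) (ZMod 59)) (B : Matrix.GeneralLinearGroup (Fin 2) (ZMod 59)) (C : Matrix.GeneralLinearGroup (Fin 2) (ZMod 59)) (hA : (A : Matrix (Fin 2) (Fin 2) (ZMod 59)) = !![0, -1; 1, 0]) (hB : (B : Matrix (Fin 2) (Fin 2) (ZMod 59)) = !![9, 15; -10, -10]) (hC : (C : Matrix (Fin 2) (Fin 2) (ZMod 59)) = !![4, 0; 0, 4]) : Nat.card (Subgroup.closure ({A, B, C} : Set (Matrix.GeneralLinearGroup (Fin 2) (ZMod 59)))) = 3480 ∧ ∀ v w : Fin 2 → ZMod 59, v ≠ 0 → w ≠ 0 → ∃! h : Subgroup.closure ({A, B, C} : Set (Matrix.GeneralLinearGroup (Fin 2) (ZMod 59))), Matrix.mulVec ((h : Matrix.GeneralLinearGroup (Fin 2) (ZMod 59)) : Matrix (Fin 2) (Fin 2) (ZMod 59)) v = w := by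
  classical
  have : Fact (Nat.Prime 59) := ⟨by norm_num⟩
  let gen : Fin 2 → Matrix.GeneralLinearGroup (Fin 2) (ZMod 59) := ![A, B]
  have hgen : ∀ i, (gen i : Matrix (Fin 2) (Fin 2) (ZMod 59)) = toM 59 (gN i) := by
    intro i
    fin_cases i
    · show (A : Matrix (Fin 2) (Fin 2) (ZMod 59)) = _
      rw [hA]; decide +kernel
    · show (B : Matrix (Fin 2) (Fin 2) (ZMod 59)) = _
      rw [hB]; decide +kernel
  have hCs : (C : Matrix (Fin 2) (Fin 2) (ZMod 59)) = (4 : ZMod 59) • (1 : Matrix (Fin 2) (Fin 2) (ZMod 59)) := by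
    rw [hC]
    ext i j
    fin_cases i <;> fin_cases j <;> simp
  have hAA : (A * A : Matrix.GeneralLinearGroup (Fin 2) (ZMod 59)).val = (-1 : Matrix (Fin 2) (Fin 2) (ZMod 59)) := by
    rw [Units.val_mul, hA]
    ext i j
    fin_cases i <;> fin_cases j <;> simp [Matrix.mul_apply, Fin.sum_univ_two]
  have h29 : (4 : ZMod 59) ^ 29 = 1 := h29'
  set S : Set (Matrix.GeneralLinearGroup (Fin 2) (ZMod 59)) := {A, B, C} with hSdef
  have hAS : A ∈ S := Or.inl rfl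
  have hBS : B ∈ S := Or.inr (Or.inl rfl)
  have hCS : C ∈ S := Or.inr (Or.inr rfl)
  have hS' : ∀ i, gen i ∈ S := by
    intro i
    fin_cases i
    · exact hAS
    · exact hBS
  have hCpow : ∀ (i : ℕ) (v : Fin 2 → ZMod 59),
      ((C ^ i : Matrix.GeneralLinearGroup (Fin 2) (ZMod 59)) : Matrix (Fin 2) (Fin 2) (ZMod 59)).mulVec v
        = (4 : ZMod 59) ^ i • v := by
    intro i v
    rw [Units.val_pow_eq_pow_val, hCs, smul_pow, one_pow, Matrix.smul_mulVec, Matrix.one_mulVec]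
  have hAAv : ∀ v : Fin 2 → ZMod 59,
      ((A * A : Matrix.GeneralLinearGroup (Fin 2) (ZMod 59)) : Matrix (Fin 2) (Fin 2) (ZMod 59)).mulVec v = -v := by
    intro v
    rw [hAA, Matrix.neg_mulVec, Matrix.one_mulVec]
  -- scalar multiples are reachable
  have hscal : ∀ (v : Fin 2 → ZMod 59) (c : ZMod 59), c ≠ 0 → (∃ h ∈ Subgroup.closure S,
      (h : Matrix (Fin 2) (Fin 2) (ZMod 59)).mulVec (toV 59 (1, 0)) = v) →
      ∃ h ∈ Subgroup.closure S, (h : Matrix (Fin 2) (Fin 2) (ZMod 59)).mulVec (toV 59 (1, 0)) = c • v := by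
    rintro v c hc ⟨h, hh, hhv⟩
    obtain ⟨i, _, hi⟩ := scal c.val (ZMod.val_lt c) (fun h0 => hc ((ZMod.val_eq_zero c).mp h0))
    have hCi : C ^ i ∈ Subgroup.closure S := pow_mem (Subgroup.subset_closure hCS) i
    rcases hi with hi | hi
    · refine ⟨C ^ i * h, mul_mem hCi hh, ?_⟩
      rw [Units.val_mul, ← Matrix.mulVec_mulVec, hhv, hCpow]
      congr 1
      rw [← ZMod.natCast_zmod_val c, hi, ZMod.natCast_mod]
      push_cast; rfl
    · refine ⟨C ^ i * (A * A * h), mul_mem hCi (mul_mem (mul_mem (Subgroup.subset_closure hAS)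
        (Subgroup.subset_closure hAS)) hh), ?_⟩
      rw [Units.val_mul, ← Matrix.mulVec_mulVec, Units.val_mul (A * A) h, ← Matrix.mulVec_mulVec, hhv,
        hAAv, hCpow, smul_neg, ← neg_smul]
      congr 1
      rw [← ZMod.natCast_zmod_val c, hi, ZMod.natCast_mod]
      push_cast
      have : (58 : ZMod 59) = -1 := h58'
      rw [this]; ring
  have hmain := regular (q := 59) S ?_ (toV 59 (1, 0)) e1_ne ?_
  · exact hmain
  · let F : Finset (Matrix (Fin 2) (Fin 2) (ZMod 59)) :=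
      (Finset.range 29 ×ˢ (T.map (toM 59)).toFinset).image (fun x => (4 : ZMod 59) ^ x.1 • x.2)
    refine (card_closure_le S F ?_ ?_).trans ?_
    · rw [Finset.mem_image]
      refine ⟨(0, 1), ?_, by simp⟩
      rw [Finset.mem_product]
      refine ⟨by simp, ?_⟩
      rw [List.mem_toFinset, List.mem_map]
      exact ⟨(1, 0, 0, 1), by decide +kernel, toM_one⟩
    · intro g hg m hm
      rw [Finset.mem_image] at hm ⊢
      obtain ⟨⟨i, m'⟩, him, rfl⟩ := hm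
      rw [Finset.mem_product, Finset.mem_range, List.mem_toFinset, List.mem_map] at him
      obtain ⟨hi, t, ht, htm⟩ := him
      have hi' : i < 29 := hi
      have htm' : toM 59 t = m' := htm
      have hg' : (∃ j, gen j = g) ∨ g = C := by
        rcases hg with rfl | rfl | rfl
        · exact Or.inl ⟨0, rfl⟩
        · exact Or.inl ⟨1, rfl⟩
        · exact Or.inr rfl
      rcases hg' with ⟨j, rfl⟩ | rfl
      · refine ⟨(i, toM 59 (mulN 59 (gN j) t)), ?_, ?_⟩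
        · rw [Finset.mem_product, Finset.mem_range, List.mem_toFinset, List.mem_map]
          exact ⟨hi', mulN 59 (gN j) t, T_closed j t ht, rfl⟩
        · show (4 : ZMod 59) ^ i • toM 59 (mulN 59 (gN j) t) = _
          rw [toM_mul, ← hgen, ← htm', Matrix.mul_smul]
      · by_cases hi2 : i + 1 < 29
        · refine ⟨(i + 1, m'), ?_, ?_⟩
          · rw [Finset.mem_product, Finset.mem_range, List.mem_toFinset, List.mem_map]
            exact ⟨hi2, t, ht, htm⟩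
          · show (4 : ZMod 59) ^ (i + 1) • m' = _
            rw [hCs, Matrix.smul_mul, Matrix.one_mul, smul_smul, pow_succ']
        · have hi3 : i = 28 := by omega
          subst hi3
          refine ⟨(0, m'), ?_, ?_⟩
          · rw [Finset.mem_product, Finset.mem_range, List.mem_toFinset, List.mem_map]
            exact ⟨by norm_num, t, ht, htm⟩
          · show (4 : ZMod 59) ^ 0 • m' = _
            rw [hCs, Matrix.smul_mul, Matrix.one_mul, smul_smul, ← pow_succ', h29, pow_zero]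
    · refine Finset.card_image_le.trans ?_
      rw [Finset.card_product, Finset.card_range]
      have h1 := List.toFinset_card_le (T.map (toM 59))
      rw [List.length_map, T_length] at h1
      calc 29 * ((T.map (toM 59)).toFinset).card ≤ 29 * 120 := Nat.mul_le_mul_left _ h1
        _ ≤ 59 ^ 2 - 1 := by norm_num
  · intro v hv
    have hword := fun w => word_mem (q := 59) S gen hS' gN hgen w (1, 0)
    by_cases h0 : v 0 = 0
    · obtain ⟨w, _, hw1, hw2⟩ := W_reach_inf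
      obtain ⟨h, hh, hhv⟩ := hword w
      set u := w.foldr (fun i u => actN 59 (gN i) u) (1, 0) with hu
      have hu2 : (u.2 : ZMod 59) ≠ 0 := by
        intro hc
        apply hw2
        rw [ZMod.natCast_eq_zero_iff] at hc
        exact Nat.eq_zero_of_dvd_of_lt ((Nat.dvd_mod_iff (dvd_refl 59)).mpr hc) (Nat.mod_lt _ (by norm_num))
      have hv1 : v 1 ≠ 0 := by
        intro hc
        apply hv
        ext i
        fin_cases i
        · exact h0
        · exact hc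
      have hvu : v = (v 1 / (u.2 : ZMod 59)) • toV 59 u := by
        ext i
        fin_cases i
        · show v 0 = _
          rw [h0]
          simp [toV, hw1]
        · show v 1 = _
          simp only [toV, Pi.smul_apply, smul_eq_mul]
          show v 1 = v 1 / (u.2 : ZMod 59) * (u.2 : ZMod 59)
          rw [div_mul_cancel₀ _ hu2]
      rw [hvu]
      exact hscal _ _ (div_ne_zero hv1 hu2) ⟨h, hh, hhv⟩
    · obtain ⟨w, _, hw1, hw2⟩ := W_reach (v 1 / v 0).val (ZMod.val_lt _)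
      obtain ⟨h, hh, hhv⟩ := hword w
      set u := w.foldr (fun i u => actN 59 (gN i) u) (1, 0) with hu
      have hu1 : (u.1 : ZMod 59) ≠ 0 := by
        intro hc
        apply hw1
        rw [ZMod.natCast_eq_zero_iff] at hc
        exact Nat.eq_zero_of_dvd_of_lt ((Nat.dvd_mod_iff (dvd_refl 59)).mpr hc) (Nat.mod_lt _ (by norm_num))
      have hu2 : (u.2 : ZMod 59) = (u.1 : ZMod 59) * (v 1 / v 0) := by
        rw [hw2, ZMod.natCast_mod, Nat.cast_mul, ZMod.natCast_zmod_val]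
      have hvu : v = (v 0 / (u.1 : ZMod 59)) • toV 59 u := by
        ext i
        fin_cases i
        · show v 0 = v 0 / (u.1 : ZMod 59) * (u.1 : ZMod 59)
          rw [div_mul_cancel₀ _ hu1]
        · show v 1 = v 0 / (u.1 : ZMod 59) * (u.2 : ZMod 59)
          rw [hu2]
          field_simp
      rw [hvu]
      exact hscal _ _ (div_ne_zero h0 hu1) ⟨h, hh, hhv⟩

end Cfsg.Agent.S0693
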