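import Cfsg.Statements.S0694
import Mathlib.NumberTheory.Multiplicity
import Mathlib.NumberTheory.Padics.PadicVal.Basic
import Mathlib.FieldTheory.Finite.Basic
import Mathlib.Algebra.BigOperators.Ring.Nat
import Mathlib.Tactic

set_option autoImplicit false
open Cfsg

namespace Cfsg.Agent.S0694


theorem dvd_iff {a b : ℕ} (ha : a ≠ 0) (hb : b ≠ 0) :
    a ∣ b ↔ ∀ r : ℕ, r.Prime → padicValNat r a ≤ padicValNat r b := by
  rw [← Nat.factorization_prime_le_iff_dvd ha hb]
  constructor
  · intro h r hr
    have := h r hr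
    rwa [Nat.factorization_def _ hr, Nat.factorization_def _ hr] at this
  · intro h r hr
    rw [Nat.factorization_def _ hr, Nat.factorization_def _ hr]
    exact h r hr

theorem val_mul {r : ℕ} (hr : r.Prime) {a b : ℕ} (ha : a ≠ 0) (hb : b ≠ 0) :
    padicValNat r (a * b) = padicValNat r a + padicValNat r b := by
  have := Fact.mk hr
  exact padicValNat.mul ha hb

theorem pow_sub_ne {q i : ℕ} (hq : 2 ≤ q) (hi : i ≠ 0) : q ^ i - 1 ≠ 0 := by
  have : 1 < q ^ i := Nat.one_lt_pow hi hq
  omega

theorem not_dvd_of {q r : ℕ} (hq : 2 ≤ q) (hr : r.Prime) (h : r ∣ q - 1) : ¬ r ∣ q := by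
  intro h2
  have h3 : r ∣ 1 := by
    have := (Nat.dvd_sub h2 h)
    rwa [show q - (q - 1) = 1 by omega] at this
  exact hr.one_lt.ne' (Nat.dvd_one.mp h3)

/-- lifting the exponent, inequality. -/
theorem lte_ge {q i r : ℕ} (hq : 2 ≤ q) (hi : i ≠ 0) (hr : r.Prime) (hrq : r ∣ q - 1) :
    padicValNat r (q - 1) + padicValNat r i ≤ padicValNat r (q ^ i - 1) := by
  have := Fact.mk hr
  have hq1 : q - 1 ≠ 0 := by omega
  rcases hr.eq_two_or_odd' with rfl | hodd
  · by_cases he : Even i
    · have h1 := padicValNat.pow_two_sub_one (by omega : 1 < q) (not_dvd_of hq hr hrq) hi he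
      have h2 : 1 ≤ padicValNat 2 (q + 1) := by
        apply one_le_padicValNat_of_dvd (by omega)
        omega
      omega
    · have h3 : padicValNat 2 i = 0 := by
        apply padicValNat.eq_zero_of_not_dvd
        intro h; exact he (even_iff_two_dvd.mpr h)
      rw [h3, add_zero]
      apply (dvd_iff hq1 (pow_sub_ne hq hi)).mp _ 2 hr
      have := Nat.sub_dvd_pow_sub_pow q 1 i
      rwa [one_pow] at this
  · have h1 := padicValNat.pow_sub_pow hodd (by omega : 1 < q) hrq (not_dvd_of hq hr hrq) hi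
    rw [one_pow] at h1
    omega

/-- lifting the exponent, equality. -/
theorem lte_eq {q i r : ℕ} (hq : 2 ≤ q) (hi : i ≠ 0) (hr : r.Prime) (hrq : r ∣ q - 1)
    (h : r ≠ 2 ∨ 4 ∣ q - 1 ∨ ¬ 2 ∣ i) :
    padicValNat r (q ^ i - 1) = padicValNat r (q - 1) + padicValNat r i := by
  have := Fact.mk hr
  have hq1 : q - 1 ≠ 0 := by omega
  rcases hr.eq_two_or_odd' with rfl | hodd
  · by_cases he : Even i
    · have h1 := padicValNat.pow_two_sub_one (by omega : 1 < q) (not_dvd_of hq hr hrq) hi he
      have h4 : 4 ∣ q - 1 := by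
        rcases h with h | h | h
        · exact absurd rfl h
        · exact h
        · exact absurd (even_iff_two_dvd.mp he) h
      have h2 : padicValNat 2 (q + 1) = 1 := by
        have e1 : q + 1 = 2 * ((q + 1) / 2) := by omega
        rw [e1, val_mul hr (by norm_num) (by omega)]
        have e2 : padicValNat 2 ((q + 1) / 2) = 0 := by
          apply padicValNat.eq_zero_of_not_dvd
          omega
        rw [e2, padicValNat_self]
      omega
    · have h3 : padicValNat 2 i = 0 := by
        apply padicValNat.eq_zero_of_not_dvd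
        intro h; exact he (even_iff_two_dvd.mpr h)
      rw [h3, add_zero]
      -- q^i - 1 = (q-1) * odd
      rw [Nat.not_even_iff_odd] at he
      obtain ⟨c, hc⟩ : (q - 1) ∣ q ^ i - 1 := by
        have := Nat.sub_dvd_pow_sub_pow q 1 i
        rwa [one_pow] at this
      have hqodd : Odd q := by
        rw [Nat.odd_iff]; omega
      have hc1 : c = ∑ j ∈ Finset.range i, q ^ j := by
        have h5 := Nat.geomSum_eq hq i
        rw [h5, hc, Nat.mul_div_cancel_left _ (by omega)]
      have hcodd : Odd c := by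
        rw [hc1]
        rw [Finset.odd_sum_iff_odd_card_odd]
        have : (Finset.range i).filter (fun j => Odd (q ^ j)) = Finset.range i := by
          apply Finset.filter_true_of_mem
          intro j _
          exact hqodd.pow
        rw [this, Finset.card_range]
        exact he
      have hc0 : c ≠ 0 := by rintro rfl; exact (by simpa using hcodd : False)
      rw [hc, val_mul hr hq1 hc0]
      have : padicValNat 2 c = 0 := by
        apply padicValNat.eq_zero_of_not_dvd
        intro h; exact (Nat.not_even_iff_odd.mpr hcodd) (even_iff_two_dvd.mpr h)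
      omega
  · have h1 := padicValNat.pow_sub_pow hodd (by omega : 1 < q) hrq (not_dvd_of hq hr hrq) hi
    rw [one_pow] at h1
    exact h1

theorem modEq_iff {q i m : ℕ} (hq : 2 ≤ q) : q ^ i ≡ 1 [MOD m] ↔ m ∣ q ^ i - 1 := by
  rw [Nat.ModEq.comm]
  exact Nat.modEq_iff_dvd' (Nat.one_le_pow _ _ (by omega))


/-- The Dickson pair condition: for a prime power `q` and `n > 1`, (every prime factor of `n` divides `q - 1`, and `4 ∣ n → 4 ∣ q - 1`) holds exactly when `q ^ n ≡ 1` modulo `n * (q - 1)` but `q ^ i` is not, for `0 < i < n`. -/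
theorem result (q n : ℕ) (hq : IsPrimePow q) (hn : 1 < n) : ((∀ r : ℕ, r.Prime → r ∣ n → r ∣ q - 1) ∧ (4 ∣ n → 4 ∣ q - 1)) ↔ (q ^ n ≡ 1 [MOD n * (q - 1)] ∧ ∀ i : ℕ, 0 < i → i < n → ¬ q ^ i ≡ 1 [MOD n * (q - 1)]) := by
  have hq2 : 2 ≤ q := hq.two_le
  have hq1 : q - 1 ≠ 0 := by omega
  have hn0 : n ≠ 0 := by omega
  have hdvdpow : ∀ i : ℕ, q - 1 ∣ q ^ i - 1 := by
    intro i
    have := Nat.sub_dvd_pow_sub_pow q 1 i
    rwa [one_pow] at this
  constructor
  · rintro ⟨h1, h2⟩
    rw [modEq_iff hq2]
    constructor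
    · rw [dvd_iff (mul_ne_zero hn0 hq1) (pow_sub_ne hq2 hn0)]
      intro r hr
      rw [val_mul hr hn0 hq1]
      by_cases hrn : r ∣ n
      · have := lte_ge hq2 hn0 hr (h1 r hr hrn)
        omega
      · rw [padicValNat.eq_zero_of_not_dvd hrn, zero_add]
        exact (dvd_iff hq1 (pow_sub_ne hq2 hn0)).mp (hdvdpow n) r hr
    · intro i hi hin hmod
      rw [modEq_iff hq2, dvd_iff (mul_ne_zero hn0 hq1) (pow_sub_ne hq2 hi.ne')] at hmod
      have hdvd : n ∣ i := by
        rw [dvd_iff hn0 hi.ne']
        intro r hr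
        by_cases hrn : r ∣ n
        · have h3 := hmod r hr
          rw [val_mul hr hn0 hq1] at h3
          have hrq := h1 r hr hrn
          by_cases hc : r ≠ 2 ∨ 4 ∣ q - 1 ∨ ¬ 2 ∣ i
          · rw [lte_eq hq2 hi.ne' hr hrq hc] at h3
            omega
          · push Not at hc
            obtain ⟨rfl, hc2, hc3⟩ := hc
            have h4 : ¬ 4 ∣ n := fun h => hc2 (h2 h)
            have := Fact.mk hr
            have h5 : padicValNat 2 n ≤ 1 := by
              by_contra hcon
              apply h4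
              have : 2 ^ 2 ∣ n := (padicValNat_dvd_iff_le hn0).mpr (by omega)
              exact this
            have h6 : 1 ≤ padicValNat 2 i := one_le_padicValNat_of_dvd hi.ne' hc3
            omega
        · rw [padicValNat.eq_zero_of_not_dvd hrn]
          exact Nat.zero_le _
      exact absurd (Nat.le_of_dvd hi hdvd) (by omega)
  · rintro ⟨h1, h2⟩
    rw [modEq_iff hq2] at h1
    have hcop : Nat.Coprime q n := by
      rw [Nat.coprime_iff_gcd_eq_one]
      by_contra hne
      obtain ⟨r, hr, hrd⟩ := Nat.exists_prime_and_dvd hne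
      have hrq : r ∣ q := hrd.trans (Nat.gcd_dvd_left _ _)
      have hrn : r ∣ n := hrd.trans (Nat.gcd_dvd_right _ _)
      have h3 : r ∣ q ^ n - 1 := (hrn.mul_right _).trans h1
      have h4 : r ∣ q ^ n := hrq.trans (dvd_pow_self q hn0)
      have h5 : r ∣ 1 := by
        have := Nat.dvd_sub h4 h3
        have h6 : 1 ≤ q ^ n := Nat.one_le_pow _ _ (by omega)
        rwa [show q ^ n - (q ^ n - 1) = 1 by omega] at this
      exact hr.one_lt.ne' (Nat.dvd_one.mp h5)
    -- the part of n coprime to q-1
    set n1 := Nat.gcd n ((q - 1) ^ n) with hn1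
    obtain ⟨n2, hn2⟩ : n1 ∣ n := Nat.gcd_dvd_left _ _
    have hn10 : n1 ≠ 0 := by
      intro h; rw [h, zero_mul] at hn2; exact hn0 hn2
    have hn20 : n2 ≠ 0 := by
      intro h; rw [h, mul_zero] at hn2; exact hn0 hn2
    have hp1 : ∀ r : ℕ, r.Prime → r ∣ n1 → r ∣ q - 1 := fun r hr hrn =>
      hr.dvd_of_dvd_pow (hrn.trans (Nat.gcd_dvd_right _ _))
    have hp2 : Nat.Coprime n2 (q - 1) := by
      rw [Nat.coprime_iff_gcd_eq_one]
      by_contra hne
      obtain ⟨r, hr, hrd⟩ := Nat.exists_prime_and_dvd hne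
      have hrq : r ∣ q - 1 := hrd.trans (Nat.gcd_dvd_right _ _)
      have hrn : r ∣ n2 := hrd.trans (Nat.gcd_dvd_left _ _)
      have := Fact.mk hr
      have h3 : r ^ padicValNat r n ∣ n1 := by
        rw [hn1]
        apply Nat.dvd_gcd pow_padicValNat_dvd
        have h4 : padicValNat r n ≤ n := by
          have h5 : r ^ padicValNat r n ≤ n := Nat.le_of_dvd (by omega) pow_padicValNat_dvd
          exact (Nat.lt_pow_self hr.one_lt).le.trans h5
        exact (pow_dvd_pow r h4).trans (pow_dvd_pow_of_dvd hrq n)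
      have h6 : padicValNat r n ≤ padicValNat r n1 := (padicValNat_dvd_iff_le hn10).mp h3
      have h7 : 1 ≤ padicValNat r n2 := one_le_padicValNat_of_dvd hn20 hrn
      have h8 := val_mul hr hn10 hn20
      rw [← hn2] at h8
      omega
    have hn21 : n2 = 1 := by
      by_contra hne
      have h2' : 1 < n2 := by omega
      have hD : n1 * Nat.totient n2 < n := by
        conv_rhs => rw [hn2]
        exact Nat.mul_lt_mul_of_pos_left (Nat.totient_lt n2 h2') (Nat.pos_of_ne_zero hn10)
      have hD0 : 0 < n1 * Nat.totient n2 :=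
        Nat.mul_pos (Nat.pos_of_ne_zero hn10) (Nat.totient_pos.mpr (by omega))
      apply h2 _ hD0 hD
      have e1 : q ^ (n1 * Nat.totient n2) ≡ 1 [MOD n1 * (q - 1)] := by
        have : q ^ n1 ≡ 1 [MOD n1 * (q - 1)] := by
          rw [modEq_iff hq2, dvd_iff (mul_ne_zero hn10 hq1) (pow_sub_ne hq2 hn10)]
          intro r hr
          rw [val_mul hr hn10 hq1]
          by_cases hrn : r ∣ n1
          · have := lte_ge hq2 hn10 hr (hp1 r hr hrn)
            omega
          · rw [padicValNat.eq_zero_of_not_dvd hrn, zero_add]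
            exact (dvd_iff hq1 (pow_sub_ne hq2 hn10)).mp (hdvdpow n1) r hr
        rw [pow_mul]
        have h9 := this.pow (Nat.totient n2)
        rwa [one_pow] at h9
      have e2 : q ^ (n1 * Nat.totient n2) ≡ 1 [MOD n2] := by
        have : q ^ Nat.totient n2 ≡ 1 [MOD n2] := by
          apply Nat.ModEq.pow_totient
          exact Nat.Coprime.coprime_dvd_right ⟨n1, by rw [hn2]; ring⟩ hcop
        rw [mul_comm, pow_mul]
        have h9 := this.pow n1
        rwa [one_pow] at h9
      have hcop2 : Nat.Coprime (n1 * (q - 1)) n2 := by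
        apply Nat.Coprime.mul_left
        · apply Nat.Coprime.coprime_dvd_left (Nat.gcd_dvd_right n ((q - 1) ^ n))
          exact Nat.Coprime.pow_left n hp2.symm
        · exact hp2.symm
      have e3 := (Nat.modEq_and_modEq_iff_modEq_mul hcop2).mp ⟨e1, e2⟩
      have e4 : n1 * (q - 1) * n2 = n * (q - 1) := by
        conv_rhs => rw [hn2]
        ring
      rwa [e4] at e3
    have hnn1 : n = n1 := by rw [hn21, mul_one] at hn2; exact hn2
    have hfirst : ∀ r : ℕ, r.Prime → r ∣ n → r ∣ q - 1 := by
      intro r hr hrn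
      exact hp1 r hr (hnn1 ▸ hrn)
    refine ⟨hfirst, ?_⟩
    intro h4n
    by_contra h4q
    have h2q : 2 ∣ q - 1 := hfirst 2 Nat.prime_two (by omega)
    obtain ⟨m, hm⟩ : 4 ∣ n := h4n
    apply h2 (2 * m) (by omega) (by omega)
    have hi0 : 2 * m ≠ 0 := by omega
    rw [modEq_iff hq2, dvd_iff (mul_ne_zero hn0 hq1) (pow_sub_ne hq2 hi0)]
    intro r hr
    have := Fact.mk hr
    rw [val_mul hr hn0 hq1]
    by_cases hrn : r ∣ n
    · have hrq := hfirst r hr hrn
      have hnm : n = 2 * (2 * m) := by omega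
      by_cases hr2 : r = 2
      · subst hr2
        have h5 := padicValNat.pow_two_sub_one (by omega : 1 < q) (not_dvd_of hq2 hr hrq) hi0
          ⟨m, by ring⟩
        have h6 : 2 ≤ padicValNat 2 (q + 1) := by
          apply (padicValNat_dvd_iff_le (by omega)).mp
          show 2 ^ 2 ∣ q + 1
          omega
        have h7 : padicValNat 2 n = 1 + padicValNat 2 (2 * m) := by
          rw [hnm, val_mul hr (by norm_num) hi0, padicValNat_self]
        omega
      · have h5 := lte_ge hq2 hi0 hr hrq
        have h7 : padicValNat r n = padicValNat r (2 * m) := by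
          rw [hnm, val_mul hr (by norm_num) hi0, padicValNat.eq_zero_of_not_dvd, zero_add]
          intro h
          exact hr2 ((Nat.prime_dvd_prime_iff_eq hr Nat.prime_two).mp h)
        omega
    · rw [padicValNat.eq_zero_of_not_dvd hrn, zero_add]
      exact (dvd_iff hq1 (pow_sub_ne hq2 hi0)).mp (hdvdpow _) r hr

end Cfsg.Agent.S0694
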