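import Cfsg.Statements.S0695
import Cfsg.Agent.Lib.RegNormalMT

set_option autoImplicit false
open Cfsg

namespace Cfsg.Agent.S0695



/-- A regular normal subgroup of a doubly primitive group of finite degree at least 2 is an elementary abelian 2-group (and the degree is a power of 2), unless the degree is 3. -/
theorem result {G : Type*} [Group G] {X : Type*} [Fintype X] [MulAction G X] (hX : 2 ≤ Fintype.card X) (h2 : MulAction.IsMultiplyPreprimitive G X 2) (N : Subgroup G) [N.Normal] (htrans : MulAction.IsPretransitive N X) (hreg : ∀ x : X, MulAction.stabilizer N x = ⊥) : Fintype.card X = 3 ∨ (IsMulCommutative N ∧ (∀ n ∈ N, n ^ 2 = 1) ∧ ∃ m : ℕ, Fintype.card X = 2 ^ m) := by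
  classical
  have hne : Nonempty X := by
    rw [← Fintype.card_pos_iff]; omega
  have htr : MulAction.IsPretransitive G X := by
    constructor
    intro x y
    obtain ⟨⟨n, hn⟩, h⟩ := htrans.exists_smul_eq x y
    exact ⟨n, h⟩
  rcases Cfsg.Agent.Lib.RegNormalMT.sq_eq_one_or_card_three h2 N hreg with h | hsq
  · left; rw [← Nat.card_eq_fintype_card]; exact h
  · right
    obtain ⟨a⟩ := hne
    have hcomm := Cfsg.Agent.Lib.RegNormalMT.comm_of_sq hsq
    refine ⟨⟨⟨fun x y => Subtype.ext (hcomm x.1 x.2 y.1 y.2)⟩⟩, ?_, ?_⟩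
    · intro n hn
      rw [sq, hsq n hn]
    · have hp : IsPGroup 2 N := by
        intro g
        refine ⟨1, ?_⟩
        rw [pow_one, sq]
        exact Subtype.ext (hsq g.1 g.2)
      have hcard := Cfsg.Agent.Lib.RegNormalMT.reg_card htrans hreg a
      have : Finite N := by
        apply Nat.finite_of_card_ne_zero
        rw [hcard, Nat.card_eq_fintype_card]; omega
      have h2p : Fact (Nat.Prime 2) := ⟨Nat.prime_two⟩
      obtain ⟨m, hm⟩ := IsPGroup.iff_card.mp hp
      exact ⟨m, by rw [← Nat.card_eq_fintype_card, ← hcard, hm]⟩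

end Cfsg.Agent.S0695
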