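import Cfsg.Statements.S0699
import Cfsg.Agent.Lib.Wagner
import Cfsg.Agent.S0698

set_option autoImplicit false
open Cfsg

namespace Cfsg.Agent.S0699



/-- Wagner's Theorem: a non-trivial normal subgroup of a triply transitive permutation group of odd degree at least 5 is triply transitive. -/
theorem result {α : Type*} [Fintype α] [DecidableEq α] (G : Subgroup (Equiv.Perm α)) (hodd : Odd (Fintype.card α)) (h5 : 5 ≤ Fintype.card α) (hG : MulAction.IsMultiplyPretransitive G α 3) (N : Subgroup G) [N.Normal] (hN : N ≠ ⊥) : MulAction.IsMultiplyPretransitive N α 3 := by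
  classical
  have hcard : Nat.card α = Fintype.card α := Nat.card_eq_fintype_card
  rcases Cfsg.Agent.S0698.result G (k := 3) (by omega) (by omega) hG N hN with h | ⟨_, hcomm, hsq⟩
  · exact Cfsg.Agent.Lib.Wagner.main G hodd h5 hG N h
  · exfalso
    have hENat : ((2 + 1 : ℕ) : ℕ∞) ≤ ENat.card α := by
      rw [ENat.card_eq_coe_natCard, hcard]
      exact_mod_cast (by omega : 2 + 1 ≤ Fintype.card α)
    have hprim2 : MulAction.IsMultiplyPreprimitive G α 2 :=
      MulAction.isMultiplyPreprimitive_of_isMultiplyPretransitive_succ G α hENat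
    have hENatj : ((2 : ℕ) : ℕ∞) ≤ ENat.card α := by
      rw [ENat.card_eq_coe_natCard, hcard]
      exact_mod_cast (by omega : 2 ≤ Fintype.card α)
    have hprim : MulAction.IsPreprimitive G α := by
      rw [← MulAction.is_one_preprimitive_iff]
      exact MulAction.isMultiplyPreprimitive_of_le G α hprim2 (by omega) hENatj
    have hNt := Cfsg.Agent.Lib.NormalMT.normal_transitive hprim N hN
    have hp : IsPGroup 2 N := by
      intro g
      refine ⟨1, ?_⟩
      rw [pow_one]
      exact Subtype.ext (hsq g g.2)
    have h1 : ¬ 2 ∣ Nat.card α := by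
      rw [hcard]
      intro h
      exact (Nat.not_even_iff_odd.mpr hodd) (even_iff_two_dvd.mpr h)
    obtain ⟨c, hc⟩ := hp.nonempty_fixed_point_of_prime_not_dvd_card α h1
    obtain ⟨d, hd⟩ := Fintype.exists_ne_of_one_lt_card (by omega : 1 < Fintype.card α) c
    obtain ⟨g, hg⟩ := hNt.exists_smul_eq c d
    exact hd (hg.symm.trans (hc g))

end Cfsg.Agent.S0699
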