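import Cfsg.Statements.S0700
import Cfsg.Agent.Lib.BurnsideTwo

set_option autoImplicit false
open Cfsg

namespace Cfsg.Agent.S0700



/-- Burnside's Theorem on doubly transitive groups: a minimal normal subgroup of a finite doubly transitive permutation group is elementary abelian and regular, or simple and primitive. -/
theorem result {α : Type*} [Fintype α] [DecidableEq α] (G : Subgroup (Equiv.Perm α)) (hG : MulAction.IsMultiplyPretransitive G α 2) (N : Subgroup G) [N.Normal] (hN : N ≠ ⊥) (hmin : ∀ M : Subgroup G, M.Normal → M ≤ N → M = ⊥ ∨ M = N) : (IsMulCommutative N ∧ (∃ p : ℕ, p.Prime ∧ ∀ n ∈ N, n ^ p = 1) ∧ ∀ a : α, MulAction.stabilizer N a = ⊥) ∨ (IsSimpleGroup N ∧ MulAction.IsPreprimitive N α) := by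
  classical
  have hα : 2 ≤ Nat.card α := by
    by_contra hcon
    apply hN
    have hs : Subsingleton α := by
      rw [← Finite.card_le_one_iff_subsingleton]; omega
    rw [eq_bot_iff]
    intro n _
    rw [Subgroup.mem_bot]
    apply Subtype.ext
    ext x
    exact Subsingleton.elim _ _
  have h2 : ∀ {a b c d : α}, a ≠ b → c ≠ d → ∃ g : G, g • a = c ∧ g • b = d :=
    fun h h' => MulAction.is_two_pretransitive_iff.mp hG h h'
  have hprim : MulAction.IsPreprimitive G α := MulAction.isPreprimitive_of_is_two_pretransitive hG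
  have htr := Cfsg.Agent.Lib.NormalMT.normal_transitive hprim N hN
  by_cases hreg : ∀ a : α, MulAction.stabilizer N a = ⊥
  · left
    obtain ⟨hc, hp⟩ := Cfsg.Agent.Lib.BurnsideTwo.elementary hα h2 N hN hmin hreg
    exact ⟨⟨⟨fun x y => Subtype.ext (hc x x.2 y y.2)⟩⟩, hp, hreg⟩
  · right
    have hNp := Cfsg.Agent.Lib.BurnsideTwo.primitive hα h2 N htr hmin hreg
    exact ⟨Cfsg.Agent.Lib.BurnsideTwo.simple hα hG N hN hNp hmin hreg, hNp⟩

end Cfsg.Agent.S0700
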