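import Cfsg.Statements.S0701
-- import your own Cfsg.Agent.* helpers here

set_option autoImplicit false
open Cfsg

namespace Cfsg.Agent.S0701

/-- The centraliser in the full symmetric group of a transitive permutation group `G` is semiregular, and it is transitive if and only if `G` is regular. -/
theorem result {α : Type*} (G : Subgroup (Equiv.Perm α)) [MulAction.IsPretransitive G α] : (∀ c ∈ Subgroup.centralizer (G : Set (Equiv.Perm α)), ∀ a : α, c a = a → c = 1) ∧ (MulAction.IsPretransitive (Subgroup.centralizer (G : Set (Equiv.Perm α))) α ↔ ∀ a : α, MulAction.stabilizer G a = ⊥) := by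
  classical
  have key : ∀ c ∈ Subgroup.centralizer (G : Set (Equiv.Perm α)), ∀ a : α, c a = a → c = 1 := by
    intro c hc a ha
    ext b
    obtain ⟨⟨g, hg⟩, hgb⟩ := MulAction.exists_smul_eq G a b
    have h1 : g a = b := hgb
    have h2 : g * c = c * g := Subgroup.mem_centralizer_iff.mp hc g hg
    have h3 := congrArg (fun τ : Equiv.Perm α => τ a) h2
    simp only [Equiv.Perm.mul_apply, ha, h1] at h3
    simpa using h3.symm
  refine ⟨key, ?_⟩
  constructor
  · intro hT a
    rw [eq_bot_iff]
    rintro ⟨g, hg⟩ hga
    have hga' : g a = a := hga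
    rw [Subgroup.mem_bot]
    apply Subtype.ext
    ext b
    obtain ⟨⟨c, hc⟩, hcb⟩ := MulAction.exists_smul_eq
      (Subgroup.centralizer (G : Set (Equiv.Perm α))) a b
    have h1 : c a = b := hcb
    have h2 : g * c = c * g := Subgroup.mem_centralizer_iff.mp hc g hg
    have h3 := congrArg (fun τ : Equiv.Perm α => τ a) h2
    simp only [Equiv.Perm.mul_apply, hga', h1] at h3
    simpa using h3
  · intro hreg
    constructor
    intro a b
    -- G acts regularly; define c (g • a) = g • b
    have hinj : ∀ g h : G, g • a = h • a → g = h := by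
      intro g h hgh
      have : h⁻¹ * g ∈ MulAction.stabilizer G a := by
        rw [MulAction.mem_stabilizer_iff, mul_smul, hgh, inv_smul_smul]
      rw [hreg a, Subgroup.mem_bot] at this
      exact (inv_mul_eq_one.mp this).symm
    have hinj' : ∀ g h : G, g • b = h • b → g = h := by
      intro g h hgh
      have : h⁻¹ * g ∈ MulAction.stabilizer G b := by
        rw [MulAction.mem_stabilizer_iff, mul_smul, hgh, inv_smul_smul]
      rw [hreg b, Subgroup.mem_bot] at this
      exact (inv_mul_eq_one.mp this).symm
    have e1 : Function.Bijective (fun g : G => g • a) :=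
      ⟨fun g h => hinj g h, fun x => MulAction.exists_smul_eq G a x⟩
    have e2 : Function.Bijective (fun g : G => g • b) :=
      ⟨fun g h => hinj' g h, fun x => MulAction.exists_smul_eq G b x⟩
    let E1 := Equiv.ofBijective _ e1
    let E2 := Equiv.ofBijective _ e2
    let c : Equiv.Perm α := E1.symm.trans E2
    have hc : ∀ g : G, c (g • a) = g • b := by
      intro g
      have : E1.symm (g • a) = g := E1.symm_apply_apply g
      simp only [c, Equiv.trans_apply, this]
      rfl
    refine ⟨⟨c, ?_⟩, ?_⟩
    · rw [Subgroup.mem_centralizer_iff]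
      intro g hg
      ext x
      obtain ⟨h, hx⟩ := MulAction.exists_smul_eq G a x
      rw [Equiv.Perm.mul_apply, Equiv.Perm.mul_apply, ← hx]
      have h1 : g (h • a) = ((⟨g, hg⟩ : G) * h) • a := by
        rw [mul_smul]; rfl
      rw [h1, hc, hc, mul_smul]
      rfl
    · have := hc 1
      rw [one_smul, one_smul] at this
      exact this

end Cfsg.Agent.S0701
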