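import Cfsg.Statements.S0702
import Mathlib.GroupTheory.GroupAction.Quotient
import Mathlib.GroupTheory.QuotientGroup.Basic
import Mathlib.Tactic

set_option autoImplicit false
open Cfsg

namespace Cfsg.Agent.S0702


open MulAction in
/-- `x ∈ N_G(G_a)` iff conjugation by `x` preserves membership in the stabiliser. -/
theorem mem_norm_iff {α : Type*} {G : Type*} [Group G] [MulAction G α] (a : α) (n : G) :
    n ∈ Subgroup.normalizer ((stabilizer G a : Subgroup G) : Set G) ↔
      ∀ h : G, h • a = a ↔ (n * h * n⁻¹) • a = a := by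
  rw [Subgroup.mem_normalizer_iff]
  rfl


/-- For a transitive permutation group `G` on a finite set, the centraliser of `G` in the symmetric group is isomorphic to `N_G(G_ω)/G_ω`, and its orbit of `ω` is the set of fixed points of `G_ω`. -/
theorem result {α : Type*} [Finite α] (G : Subgroup (Equiv.Perm α)) [MulAction.IsPretransitive G α] (a : α) : Nonempty (Subgroup.centralizer (G : Set (Equiv.Perm α)) ≃* Subgroup.normalizer ((MulAction.stabilizer G a : Subgroup G) : Set G) ⧸ (MulAction.stabilizer G a).subgroupOf (Subgroup.normalizer ((MulAction.stabilizer G a : Subgroup G) : Set G))) ∧ MulAction.orbit (Subgroup.centralizer (G : Set (Equiv.Perm α))) a = MulAction.fixedPoints (MulAction.stabilizer G a) α := by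
  classical
  set N := Subgroup.normalizer ((MulAction.stabilizer G a : Subgroup G) : Set G) with hN
  have hγex : ∀ x : α, ∃ g : G, g • a = x := fun x => MulAction.exists_smul_eq G a x
  choose γ hγ using hγex
  let c : N → α → α := fun n x => (γ x * n.1⁻¹) • a
  have hc : ∀ (n : N) (g : G), c n (g • a) = (g * n.1⁻¹) • a := by
    intro n g
    show (γ (g • a) * n.1⁻¹) • a = (g * n.1⁻¹) • a
    have h1 : (g⁻¹ * γ (g • a)) • a = a := by
      rw [mul_smul, hγ, inv_smul_smul]
    have h2 := ((mem_norm_iff a n.1).mp n.2 _).mp h1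
    have h3 : (γ (g • a) * n.1⁻¹) = (g * n.1⁻¹) * (n.1 * (g⁻¹ * γ (g • a)) * n.1⁻¹) := by group
    rw [h3, mul_smul _ _ a, h2]
  have hcc : ∀ (m n : N) (x : α), c m (c n x) = c (m * n) x := by
    intro m n x
    obtain ⟨g, rfl⟩ : ∃ g : G, g • a = x := ⟨γ x, hγ x⟩
    rw [hc n, hc m, hc (m * n)]
    congr 1
  have hc1 : ∀ x, c 1 x = x := by
    intro x
    obtain ⟨g, rfl⟩ : ∃ g : G, g • a = x := ⟨γ x, hγ x⟩
    rw [hc]
    simp
  let cp : N → Equiv.Perm α := fun n =>
    { toFun := c n
      invFun := c n⁻¹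
      left_inv := fun x => by rw [hcc, inv_mul_cancel, hc1]
      right_inv := fun x => by rw [hcc, mul_inv_cancel, hc1] }
  have hcpmem : ∀ n, cp n ∈ Subgroup.centralizer (G : Set (Equiv.Perm α)) := by
    intro n
    rw [Subgroup.mem_centralizer_iff]
    intro g hg
    ext x
    obtain ⟨k, rfl⟩ : ∃ g : G, g • a = x := ⟨γ x, hγ x⟩
    show g (c n (k • a)) = c n (g (k • a))
    have h1 : g (k • a) = ((⟨g, hg⟩ : G) * k) • a := by rw [mul_smul]; rfl
    rw [h1, hc, hc, mul_assoc, mul_smul (⟨g, hg⟩ : G)]
    rfl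
  let φ : N →* Subgroup.centralizer (G : Set (Equiv.Perm α)) :=
    { toFun := fun n => ⟨cp n, hcpmem n⟩
      map_one' := by
        apply Subtype.ext
        ext x
        exact hc1 x
      map_mul' := by
        intro m n
        apply Subtype.ext
        ext x
        exact (hcc m n x).symm }
  have hφ : ∀ n (g : G), ((φ n : Equiv.Perm α)) (g • a) = (g * n.1⁻¹) • a := hc
  have hφa : ∀ n, ((φ n : Equiv.Perm α)) a = (n.1⁻¹) • a := by
    intro n
    have := hφ n 1
    rwa [one_smul, one_mul] at this
  have hker : φ.ker = (MulAction.stabilizer G a).subgroupOf N := by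
    ext n
    rw [MonoidHom.mem_ker, Subgroup.mem_subgroupOf, MulAction.mem_stabilizer_iff]
    constructor
    · intro h
      have h1 := hφa n
      rw [h] at h1
      have h2 : a = n.1⁻¹ • a := h1
      rw [eq_inv_smul_iff] at h2
      exact h2
    · intro h
      apply Subtype.ext
      ext x
      obtain ⟨g, rfl⟩ : ∃ g : G, g • a = x := ⟨γ x, hγ x⟩
      rw [hφ]
      have h2 : n.1⁻¹ • a = a := by rw [inv_smul_eq_iff, h]
      rw [mul_smul, h2]
      rfl
  have hcomm : ∀ c ∈ Subgroup.centralizer (G : Set (Equiv.Perm α)), ∀ (g : G) (x : α),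
      c (g • x) = g • c x := by
    intro c hc g x
    have := Subgroup.mem_centralizer_iff.mp hc g.1 g.2
    exact (congrArg (fun t : Equiv.Perm α => t x) this).symm
  have hsurj : Function.Surjective φ := by
    rintro ⟨d, hd⟩
    obtain ⟨g, hg⟩ : ∃ g : G, g • a = d a := ⟨γ _, hγ _⟩
    have hgN : g⁻¹ ∈ N := by
      rw [hN, mem_norm_iff]
      intro h
      constructor
      · intro hh
        have h1 : h • d a = d a := by rw [← hcomm d hd, hh]
        rw [inv_inv, mul_smul, mul_smul, hg, h1, ← hg, inv_smul_smul]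
      · intro hh
        rw [inv_inv, mul_smul, mul_smul, inv_smul_eq_iff, hg, ← hcomm d hd] at hh
        exact d.injective hh
    refine ⟨⟨g⁻¹, hgN⟩, ?_⟩
    apply Subtype.ext
    ext x
    obtain ⟨k, rfl⟩ : ∃ g : G, g • a = x := ⟨γ x, hγ x⟩
    rw [hφ]
    show (k * (g⁻¹)⁻¹) • a = d (k • a)
    rw [inv_inv, mul_smul, hg, hcomm d hd]
  refine ⟨⟨?_⟩, ?_⟩
  · have e1 := QuotientGroup.quotientKerEquivOfSurjective φ hsurj
    exact e1.symm.trans (QuotientGroup.quotientMulEquivOfEq hker)
  · ext x
    constructor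
    · rintro ⟨⟨d, hd⟩, rfl⟩ ⟨g, hg⟩
      have hg' : g • a = a := hg
      show g • (d a) = d a
      rw [← hcomm d hd, hg']
    · intro hx
      obtain ⟨g, hg⟩ : ∃ g : G, g • a = x := ⟨γ x, hγ x⟩
      have h1 : ∀ h : G, h • a = a → (g⁻¹ * h * g) • a = a := by
        intro h hh
        have h2 : h • x = x := hx ⟨h, hh⟩
        rw [mul_smul, mul_smul, hg, h2, ← hg, inv_smul_smul]
      have hfin : Finite G := inferInstance
      have hgN : g⁻¹ ∈ N := by
        rw [hN, mem_norm_iff]
        -- conjugation by g⁻¹ maps stabilizer injectively to itself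
        let f : MulAction.stabilizer G a → MulAction.stabilizer G a := fun h =>
          ⟨g⁻¹ * h.1 * g, h1 h.1 h.2⟩
        have hf : Function.Injective f := by
          intro h k hk
          have : g⁻¹ * h.1 * g = g⁻¹ * k.1 * g := congrArg Subtype.val hk
          apply Subtype.ext
          simpa using this
        have hfs : Function.Surjective f := Finite.surjective_of_injective hf
        intro h
        rw [inv_inv]
        constructor
        · exact h1 h
        · intro hh
          obtain ⟨⟨k, hk⟩, hk2⟩ := hfs ⟨_, hh⟩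
          have : g⁻¹ * k * g = g⁻¹ * h * g := congrArg Subtype.val hk2
          have h3 : k = h := by simpa using this
          rw [← h3]
          exact hk
      refine ⟨φ ⟨g⁻¹, hgN⟩, ?_⟩
      show ((φ ⟨g⁻¹, hgN⟩ : Equiv.Perm α)) a = x
      rw [hφa]
      show (g⁻¹)⁻¹ • a = x
      rw [inv_inv, hg]

end Cfsg.Agent.S0702
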