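import Cfsg.Statements.S0703
import Cfsg.Agent.Lib.RegNormal
import Mathlib.GroupTheory.Perm.Cycle.Type

set_option autoImplicit false
open Cfsg

namespace Cfsg.Agent.S0703



/-- An abelian transitive minimal normal subgroup `M` of a permutation group on a finite set is self-centralising in the symmetric group, regular, elementary abelian, and is the unique minimal normal subgroup. -/
theorem result {α : Type*} [Finite α] (G : Subgroup (Equiv.Perm α)) (M : Subgroup G) [M.Normal] (hM : M ≠ ⊥) (hmin : ∀ L : Subgroup G, L.Normal → L ≤ M → L = ⊥ ∨ L = M) (hab : IsMulCommutative M) (htrans : MulAction.IsPretransitive M α) : Subgroup.centralizer ((M.map G.subtype : Subgroup (Equiv.Perm α)) : Set (Equiv.Perm α)) = M.map G.subtype ∧ (∀ a : α, MulAction.stabilizer M a = ⊥) ∧ (∃ p : ℕ, p.Prime ∧ ∀ m ∈ M, m ^ p = 1) ∧ ∀ L : Subgroup G, L.Normal → L ≠ ⊥ → (∀ L' : Subgroup G, L'.Normal → L' ≤ L → L' = ⊥ ∨ L' = L) → L = M := by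
  classical
  have hMn : M.Normal := inferInstance
  have hne : Nonempty α := Cfsg.Agent.Lib.RegNormal.nonempty_of_ne_bot hM
  have hcomm : ∀ x ∈ M, ∀ y ∈ M, x * y = y * x := by
    intro x hx y hy
    exact congrArg Subtype.val (hab.is_comm.comm (⟨x, hx⟩ : M) ⟨y, hy⟩)
  have ht' := Cfsg.Agent.Lib.RegNormal.map_pretransitive htrans
  have hCM := Cfsg.Agent.Lib.RegNormal.centralizer_eq_of_transitive ht' ht'
    (Cfsg.Agent.Lib.RegNormal.map_le_centralizer hcomm)
  refine ⟨hCM, Cfsg.Agent.Lib.RegNormal.stabilizer_eq_bot hcomm htrans, ?_, ?_⟩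
  · have hfin : Finite M := inferInstance
    have hnt : Nontrivial M := (Subgroup.nontrivial_iff_ne_bot M).mpr hM
    obtain ⟨p, hp, hpd⟩ := Nat.exists_prime_and_dvd (n := Nat.card M)
      (Finite.one_lt_card).ne'
    have hpF : Fact p.Prime := ⟨hp⟩
    obtain ⟨x, hx⟩ := exists_prime_orderOf_dvd_card' (G := M) p hpd
    refine ⟨p, hp, ?_⟩
    let L : Subgroup G :=
      { carrier := {m | m ∈ M ∧ m ^ p = 1}
        one_mem' := ⟨M.one_mem, one_pow _⟩
        mul_mem' := by
          rintro a b ⟨ha, ha'⟩ ⟨hb, hb'⟩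
          refine ⟨M.mul_mem ha hb, ?_⟩
          have : Commute a b := hcomm a ha b hb
          rw [this.mul_pow, ha', hb', one_mul]
        inv_mem' := by
          rintro a ⟨ha, ha'⟩
          exact ⟨M.inv_mem ha, by rw [inv_pow, ha', inv_one]⟩ }
    have hLn : L.Normal := by
      constructor
      rintro a ⟨ha, ha'⟩ g
      exact ⟨hMn.conj_mem a ha g, by rw [conj_pow, ha']; group⟩
    rcases hmin L hLn (fun a ha => ha.1) with h | h
    · exfalso
      have h1 : x.1 ∈ L := by
        refine ⟨x.2, ?_⟩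
        have : x ^ p = 1 := by rw [← hx]; exact pow_orderOf_eq_one x
        exact congrArg Subtype.val this
      rw [h, Subgroup.mem_bot] at h1
      have h2 : x = 1 := Subtype.ext h1
      rw [h2, orderOf_one] at hx
      exact hp.one_lt.ne hx
    · intro m hm
      rw [← h] at hm
      exact hm.2
  · intro L hLn hL hLmin
    by_contra hcon
    have h1 := Cfsg.Agent.Lib.RegNormal.inf_eq_bot_of_minimal hLn hMn hLmin hmin hcon
    have c1 := Cfsg.Agent.Lib.RegNormal.map_le_centralizer
      (Cfsg.Agent.Lib.RegNormal.commute_of_inf_eq_bot hLn hMn h1)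
    rw [hCM] at c1
    apply hL
    rw [eq_bot_iff, ← h1]
    refine le_inf le_rfl ?_
    intro x hx
    obtain ⟨n, hn, hnx⟩ := c1 ⟨x, hx, rfl⟩
    have : n = x := Subtype.ext hnx
    rwa [← this]

end Cfsg.Agent.S0703
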