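import Cfsg.Statements.S0704
import Cfsg.Agent.Lib.RegNormal

set_option autoImplicit false
open Cfsg

namespace Cfsg.Agent.S0704



/-- Two distinct transitive minimal normal subgroups `M`, `N` of a permutation group are regular, non-abelian, isomorphic, each other's centraliser in the symmetric group, and the only minimal normal subgroups. -/
theorem result {α : Type*} (G : Subgroup (Equiv.Perm α)) (M N : Subgroup G) [M.Normal] [N.Normal] (hM : M ≠ ⊥) (hN : N ≠ ⊥) (hMmin : ∀ L : Subgroup G, L.Normal → L ≤ M → L = ⊥ ∨ L = M) (hNmin : ∀ L : Subgroup G, L.Normal → L ≤ N → L = ⊥ ∨ L = N) (hMN : M ≠ N) (hMt : MulAction.IsPretransitive M α) (hNt : MulAction.IsPretransitive N α) : (∀ a : α, MulAction.stabilizer M a = ⊥) ∧ (∀ a : α, MulAction.stabilizer N a = ⊥) ∧ ¬ IsMulCommutative M ∧ Nonempty (M ≃* N) ∧ Subgroup.centralizer ((M.map G.subtype : Subgroup (Equiv.Perm α)) : Set (Equiv.Perm α)) = N.map G.subtype ∧ Subgroup.centralizer ((N.map G.subtype : Subgroup (Equiv.Perm α)) : Set (Equiv.Perm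 α)) = M.map G.subtype ∧ ∀ L : Subgroup G, L.Normal → L ≠ ⊥ → (∀ L' : Subgroup G, L'.Normal → L' ≤ L → L' = ⊥ ∨ L' = L) → L = M ∨ L = N := by
  classical
  have hMn : M.Normal := inferInstance
  have hNn : N.Normal := inferInstance
  have hne : Nonempty α := Cfsg.Agent.Lib.RegNormal.nonempty_of_ne_bot hM
  have hinf := Cfsg.Agent.Lib.RegNormal.inf_eq_bot_of_minimal hMn hNn hMmin hNmin hMN
  have hcomm := Cfsg.Agent.Lib.RegNormal.commute_of_inf_eq_bot hMn hNn hinf
  have hcomm' : ∀ x ∈ N, ∀ y ∈ M, x * y = y * x := fun x hx y hy => (hcomm y hy x hx).symm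
  have hMt' := Cfsg.Agent.Lib.RegNormal.map_pretransitive hMt
  have hNt' := Cfsg.Agent.Lib.RegNormal.map_pretransitive hNt
  have hCM := Cfsg.Agent.Lib.RegNormal.centralizer_eq_of_transitive hNt' hMt'
    (Cfsg.Agent.Lib.RegNormal.map_le_centralizer hcomm')
  have hCN := Cfsg.Agent.Lib.RegNormal.centralizer_eq_of_transitive hMt' hNt'
    (Cfsg.Agent.Lib.RegNormal.map_le_centralizer hcomm)
  have hMreg := Cfsg.Agent.Lib.RegNormal.stabilizer_eq_bot hcomm hNt
  have hNreg := Cfsg.Agent.Lib.RegNormal.stabilizer_eq_bot hcomm' hMt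
  have hMN' : ¬ M ≤ N := by
    intro h
    rcases hNmin M hMn h with h1 | h1
    · exact hM h1
    · exact hMN h1
  refine ⟨hMreg, hNreg, ?_, ?_, hCM, hCN, ?_⟩
  · intro hab
    apply hMN'
    intro m hm
    have h1 : m.1 ∈ Subgroup.centralizer
        ((M.map G.subtype : Subgroup (Equiv.Perm α)) : Set (Equiv.Perm α)) := by
      rw [Subgroup.mem_centralizer_iff]
      rintro _ ⟨y, hy, rfl⟩
      have := hab.is_comm.comm (⟨m, hm⟩ : M) ⟨y, hy⟩
      have h2 : m * y = y * m := congrArg Subtype.val this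
      exact (congrArg Subtype.val h2).symm
    rw [hCM] at h1
    obtain ⟨n, hn, hnm⟩ := h1
    have : n = m := Subtype.ext hnm
    rwa [← this]
  · obtain ⟨a⟩ := hne
    have hex : ∀ m : M, ∃ n : N, n • a = m⁻¹ • a := fun m => hNt.exists_smul_eq a (m⁻¹ • a)
    choose f hf using hex
    have hinjN : ∀ n n' : N, n • a = n' • a → n = n' := by
      intro n n' h
      have : n'⁻¹ * n ∈ MulAction.stabilizer N a := by
        rw [MulAction.mem_stabilizer_iff, mul_smul, h, inv_smul_smul]
      rw [hNreg a, Subgroup.mem_bot] at this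
      exact (inv_mul_eq_one.mp this).symm
    have hinjM : ∀ n n' : M, n • a = n' • a → n = n' := by
      intro n n' h
      have : n'⁻¹ * n ∈ MulAction.stabilizer M a := by
        rw [MulAction.mem_stabilizer_iff, mul_smul, h, inv_smul_smul]
      rw [hMreg a, Subgroup.mem_bot] at this
      exact (inv_mul_eq_one.mp this).symm
    have hcommp : ∀ (m : M) (n : N) (x : α), m • n • x = n • m • x := by
      intro m n x
      have := hcomm m.1 m.2 n.1 n.2
      have h2 : (m.1 * n.1) • x = (n.1 * m.1) • x := by rw [this]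
      rw [mul_smul, mul_smul] at h2
      exact h2
    have hmul : ∀ m m' : M, f (m * m') = f m * f m' := by
      intro m m'
      apply hinjN
      rw [hf, mul_smul, hf m', ← hcommp, hf m, mul_inv_rev, mul_smul]
    have hbij : Function.Bijective f := by
      constructor
      · intro m m' h
        have h1 : m⁻¹ • a = m'⁻¹ • a := by rw [← hf m, ← hf m', h]
        have h2 := hinjM _ _ h1
        exact inv_injective h2
      · intro n
        obtain ⟨m, hm⟩ := hMt.exists_smul_eq a (n • a)
        refine ⟨m⁻¹, ?_⟩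
        apply hinjN
        rw [hf, inv_inv, hm]
    exact ⟨MulEquiv.ofBijective (MonoidHom.mk' f hmul) hbij⟩
  · intro L hLn hL hLmin
    by_contra hcon
    push Not at hcon
    have h1 := Cfsg.Agent.Lib.RegNormal.inf_eq_bot_of_minimal hLn hMn hLmin hMmin hcon.1
    have h2 := Cfsg.Agent.Lib.RegNormal.inf_eq_bot_of_minimal hLn hNn hLmin hNmin hcon.2
    have c1 := Cfsg.Agent.Lib.RegNormal.map_le_centralizer
      (Cfsg.Agent.Lib.RegNormal.commute_of_inf_eq_bot hLn hMn h1)
    rw [hCM] at c1
    apply hL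
    rw [eq_bot_iff, ← h2]
    refine le_inf le_rfl ?_
    intro x hx
    obtain ⟨n, hn, hnx⟩ := c1 ⟨x, hx, rfl⟩
    have : n = x := Subtype.ext hnx
    rwa [← this]

end Cfsg.Agent.S0704
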