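import Cfsg.Statements.S0707
import Cfsg.Agent.Lib.RegNormalMT
import Mathlib.GroupTheory.SpecificGroups.Cyclic

set_option autoImplicit false
open Cfsg

namespace Cfsg.Agent.S0707


/-- A nontrivial group all of whose nontrivial cyclic subgroups are everything has prime order. -/
theorem prime_of_zpowers {G : Type*} [Group G] [Nontrivial G]
    (h : ∀ g : G, g ≠ 1 → Subgroup.zpowers g = ⊤) : (Nat.card G).Prime := by
  obtain ⟨g, hg⟩ := exists_ne (1 : G)
  have hcard : Nat.card G = orderOf g := by
    rw [← Nat.card_zpowers, h g hg]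
    exact (Nat.card_congr (Subgroup.topEquiv.toEquiv)).symm
  rw [hcard]
  have hfin : orderOf g ≠ 0 := by
    intro h0
    have h2 : g ^ 2 ≠ 1 := by
      intro h2
      have := orderOf_dvd_of_pow_eq_one h2
      rw [h0] at this
      have := Nat.eq_zero_of_zero_dvd this
      omega
    have h3 : g ∈ Subgroup.zpowers (g ^ 2) := by rw [h _ h2]; trivial
    obtain ⟨k, hk⟩ := Subgroup.mem_zpowers_iff.mp h3
    have h4 : g ^ (2 * k - 1) = 1 := by
      rw [zpow_sub, zpow_mul, zpow_one]
      have : g ^ (2 : ℤ) = g ^ 2 := by norm_cast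
      rw [this, hk, mul_inv_cancel]
    have hinj : ¬ IsOfFinOrder g := by rwa [← orderOf_eq_zero_iff]
    have h5 : 2 * k - 1 = 0 := by
      by_contra hne
      exact hinj (isOfFinOrder_iff_zpow_eq_one.mpr ⟨_, hne, h4⟩)
    omega
  have h1 : orderOf g ≠ 1 := by rwa [ne_eq, orderOf_eq_one_iff]
  obtain ⟨p, hp, hpd⟩ := Nat.exists_prime_and_dvd h1
  by_cases hgp : g ^ p = 1
  · have := orderOf_dvd_of_pow_eq_one hgp
    rcases (Nat.dvd_prime hp).mp this with h6 | h6
    · exact absurd h6 h1
    · rw [h6]; exact hp
  · exfalso
    have h6 : orderOf (g ^ p) = orderOf g := by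
      rw [← Nat.card_zpowers, h _ hgp, ← hcard]
      exact Nat.card_congr (Subgroup.topEquiv.toEquiv)
    have h7 := orderOf_pow' g hp.ne_zero
    rw [h6, Nat.gcd_eq_right hpd] at h7
    have h8 : orderOf g / p < orderOf g := Nat.div_lt_self (Nat.pos_of_ne_zero hfin) hp.one_lt
    omega


/-- In a primitive permutation group, distinct points have distinct stabilisers unless the group is regular of prime degree. -/
theorem result {α : Type*} (G : Subgroup (Equiv.Perm α)) [MulAction.IsPreprimitive G α] (h : ¬ (Nat.card α).Prime ∨ ∃ a : α, MulAction.stabilizer G a ≠ ⊥) {a b : α} (hab : a ≠ b) : MulAction.stabilizer G a ≠ MulAction.stabilizer G b := by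
  classical
  intro heq
  have hconj : ∀ (g : G) (x : α) (k : G), k ∈ MulAction.stabilizer G (g • x) ↔
      g⁻¹ * k * g ∈ MulAction.stabilizer G x := by
    intro g x k
    rw [MulAction.mem_stabilizer_iff, MulAction.mem_stabilizer_iff, mul_smul, mul_smul,
      inv_smul_eq_iff]
  have hall := Cfsg.Agent.Lib.RegNormalMT.primitive_two (L := G) (Y := α) inferInstance
    {x | MulAction.stabilizer G x = MulAction.stabilizer G a} ⟨a, rfl, b, heq.symm, hab⟩ (by
      intro g x hx hgx y hy
      have hx' : MulAction.stabilizer G x = MulAction.stabilizer G a := hx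
      have hgx' : MulAction.stabilizer G (g • x) = MulAction.stabilizer G a := hgx
      have hy' : MulAction.stabilizer G y = MulAction.stabilizer G a := hy
      show MulAction.stabilizer G (g • y) = MulAction.stabilizer G a
      rw [← hgx']
      ext k
      rw [hconj, hconj, hx', hy'])
  have hall' : ∀ x, MulAction.stabilizer G x = MulAction.stabilizer G a := hall
  have hbot : MulAction.stabilizer G a = ⊥ := by
    rw [eq_bot_iff]
    intro g hg
    rw [Subgroup.mem_bot]
    apply Subtype.ext
    ext x
    have : g ∈ MulAction.stabilizer G x := by rw [hall']; exact hg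
    exact this
  have hbot' : ∀ x, MulAction.stabilizer G x = ⊥ := fun x => (hall' x).trans hbot
  rcases h with h | ⟨c, hc⟩
  · apply h
    have hG : Nontrivial G := by
      obtain ⟨g, hg⟩ := MulAction.exists_smul_eq G a b
      refine ⟨⟨g, 1, ?_⟩⟩
      rintro rfl
      rw [one_smul] at hg
      exact hab hg
    have hcard : Nat.card α = Nat.card G := by
      symm
      refine Nat.card_congr (Equiv.ofBijective (fun g : G => g • a) ⟨?_, ?_⟩)
      · intro g k hgk
        have h1 : k⁻¹ * g ∈ MulAction.stabilizer G a := by
          rw [MulAction.mem_stabilizer_iff, mul_smul]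
          have : g • a = k • a := hgk
          rw [this, inv_smul_smul]
        rw [hbot, Subgroup.mem_bot] at h1
        exact (inv_mul_eq_one.mp h1).symm
      · intro x
        exact MulAction.exists_smul_eq G a x
    rw [hcard]
    apply prime_of_zpowers
    intro g hg
    have hnt : Nontrivial α := ⟨⟨a, b, hab⟩⟩
    have hco : IsCoatom (MulAction.stabilizer G a) :=
      MulAction.IsPreprimitive.isCoatom_stabilizer_of_isPreprimitive G a
    rw [hbot] at hco
    apply hco.2
    rw [bot_lt_iff_ne_bot, ne_eq, Subgroup.zpowers_eq_bot]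
    exact hg
  · exact hc (hbot' c)

end Cfsg.Agent.S0707
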