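import Cfsg.Statements.S0708
import Mathlib.GroupTheory.GroupAction.MultipleTransitivity
import Mathlib.GroupTheory.PGroup
import Mathlib.Data.Fintype.CardEmbedding
import Mathlib.Tactic

set_option autoImplicit false
open Cfsg

namespace Cfsg.Agent.S0708


open MulAction

variable {G : Type*} [Group G] {Ω : Type*} [MulAction G Ω]

theorem inj4 {p q r s : Ω} (hpq : p ≠ q) (hpr : p ≠ r) (hps : p ≠ s) (hqr : q ≠ r) (hqs : q ≠ s)
    (hrs : r ≠ s) : Function.Injective ![p, q, r, s] := by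
  intro i j hij
  fin_cases i <;> fin_cases j <;> simp_all

theorem fix4 (hsharp : ∀ x : Fin 4 ↪ Ω, stabilizer G x = ⊥) {p q r s : Ω} (hpq : p ≠ q)
    (hpr : p ≠ r) (hps : p ≠ s) (hqr : q ≠ r) (hqs : q ≠ s) (hrs : r ≠ s) {g : G}
    (hp : g • p = p) (hq : g • q = q) (hr : g • r = r) (hs : g • s = s) : g = 1 := by
  have h := hsharp ⟨![p, q, r, s], inj4 hpq hpr hps hqr hqs hrs⟩
  have h1 : g ∈ stabilizer G (⟨![p, q, r, s], inj4 hpq hpr hps hqr hqs hrs⟩ : Fin 4 ↪ Ω) := by
    rw [mem_stabilizer_iff]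
    ext i
    fin_cases i
    · exact hp
    · exact hq
    · exact hr
    · exact hs
  rw [h, Subgroup.mem_bot] at h1
  exact h1

theorem ex4 (h4 : IsMultiplyPretransitive G Ω 4) {p q r s p' q' r' s' : Ω} (hpq : p ≠ q)
    (hpr : p ≠ r) (hps : p ≠ s) (hqr : q ≠ r) (hqs : q ≠ s) (hrs : r ≠ s) (hpq' : p' ≠ q')
    (hpr' : p' ≠ r') (hps' : p' ≠ s') (hqr' : q' ≠ r') (hqs' : q' ≠ s') (hrs' : r' ≠ s') :
    ∃ g : G, g • p = p' ∧ g • q = q' ∧ g • r = r' ∧ g • s = s' := by
  obtain ⟨g, hg⟩ := h4.exists_smul_eq ⟨![p, q, r, s], inj4 hpq hpr hps hqr hqs hrs⟩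
    ⟨![p', q', r', s'], inj4 hpq' hpr' hps' hqr' hqs' hrs'⟩
  have h : ∀ i, g • (![p, q, r, s] i) = ![p', q', r', s'] i := fun i =>
    congrFun (congrArg DFunLike.coe hg) i
  exact ⟨g, h 0, h 1, h 2, h 3⟩

theorem bound_aux {f n y : ℕ} (hf : f = 2 ∨ f = 3) (hy : y ≤ f.factorial) (hn : n ≤ f + 2 + y) :
    n ≤ 11 ∧ (f = 2 → n ≤ 6) := by
  rcases hf with rfl | rfl
  · have : Nat.factorial 2 = 2 := rfl
    omega
  · have : Nat.factorial 3 = 6 := rfl
    omega


/-- Tits' argument: a sharply 4-transitive group (no finiteness assumed) has finite degree at most 11, and at most 6 when the degree is even. -/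
theorem result {G : Type*} [Group G] {Ω : Type*} [MulAction G Ω] (h4 : MulAction.IsMultiplyPretransitive G Ω 4) (hsharp : ∀ x : Fin 4 ↪ Ω, MulAction.stabilizer G x = ⊥) (hne : Nonempty (Fin 4 ↪ Ω)) : Finite Ω ∧ Nat.card Ω ≤ 11 ∧ (Even (Nat.card Ω) → Nat.card Ω ≤ 6) := by
  classical
  obtain ⟨x0⟩ := hne
  set p := x0 0 with hp
  set q := x0 1 with hq
  set r := x0 2 with hr
  set s := x0 3 with hs
  have hx : ∀ {i j : Fin 4}, i ≠ j → x0 i ≠ x0 j := fun h h' => h (x0.injective h')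
  have hpq : p ≠ q := hx (by decide)
  have hpr : p ≠ r := hx (by decide)
  have hps : p ≠ s := hx (by decide)
  have hqr : q ≠ r := hx (by decide)
  have hqs : q ≠ s := hx (by decide)
  have hrs : r ≠ s := hx (by decide)
  obtain ⟨a, hap, haq, har, has⟩ := ex4 h4 hpq hpr hps hqr hqs hrs hpq hps hpr hqs hqr hrs.symm
  have haa : a * a = 1 := by
    apply fix4 hsharp hpq hpr hps hqr hqs hrs
    · rw [mul_smul, hap, hap]
    · rw [mul_smul, haq, haq]
    · rw [mul_smul, har, has]
    · rw [mul_smul, has, har]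
  have haa' : ∀ x : Ω, a • a • x = x := fun x => by rw [← mul_smul, haa, one_smul]
  have ha1 : a ≠ 1 := by
    rintro rfl
    rw [one_smul] at har
    exact hrs har
  let F : Set Ω := {x | a • x = x}
  have hpF : p ∈ F := hap
  have hqF : q ∈ F := haq
  have hrF : r ∉ F := fun h => hrs (h.symm.trans har)
  have hsF : s ∉ F := fun h => hrs (has.symm.trans h)
  have hF4 : ∀ T : Finset Ω, (T : Set Ω) ⊆ F → T.card ≠ 4 := by
    intro T hT hT4
    apply ha1
    let e : Fin 4 ↪ Ω := (T.equivFinOfCardEq hT4).symm.toEmbedding.trans (Function.Embedding.subtype _)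
    have he : ∀ i, e i ∈ T := fun i => ((T.equivFinOfCardEq hT4).symm i).2
    have h1 : a ∈ MulAction.stabilizer G e := by
      rw [MulAction.mem_stabilizer_iff]
      ext i
      exact hT (he i)
    rw [hsharp e, Subgroup.mem_bot] at h1
    exact h1
  have hFfin : F.Finite := by
    by_contra hinf
    obtain ⟨T, hT, hT4⟩ := Set.Infinite.exists_subset_card_eq hinf 4
    exact hF4 T hT hT4
  have hFle : F.ncard ≤ 3 := by
    by_contra hcon
    push Not at hcon
    rw [Set.ncard_eq_toFinset_card F hFfin] at hcon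
    obtain ⟨T, hT, hT4⟩ := Finset.exists_subset_card_eq (s := hFfin.toFinset) (n := 4) (by omega)
    exact hF4 T (fun x hx => hFfin.mem_toFinset.mp (hT hx)) hT4
  have hFge : 2 ≤ F.ncard := by
    have : ({p, q} : Set Ω) ⊆ F := by
      rintro x (rfl | rfl)
      · exact hpF
      · exact hqF
    have h1 := Set.ncard_le_ncard this hFfin
    rwa [Set.ncard_pair hpq] at h1
  let Y : Set Ω := {y | y ∉ F ∧ y ≠ r ∧ y ≠ s}
  have hYa : ∀ y ∈ Y, a • y ≠ y ∧ a • y ≠ r ∧ a • y ≠ s := by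
    rintro y ⟨hy1, hy2, hy3⟩
    refine ⟨hy1, fun h => hy3 ?_, fun h => hy2 ?_⟩
    · rw [← haa' y, h, har]
    · rw [← haa' y, h, has]
  have hYcard : Y.Finite ∧ Y.ncard ≤ F.ncard.factorial := by
    rcases Set.eq_empty_or_nonempty Y with hY | ⟨y0, hy0⟩
    · rw [hY]; exact ⟨Set.finite_empty, by rw [Set.ncard_empty]; exact Nat.zero_le _⟩
    have hex : ∀ y : Y, ∃ g : G, g • r = r ∧ g • s = s ∧ g • y0 = (y : Ω) ∧
        g • (a • y0) = a • (y : Ω) := by
      rintro ⟨y, hy⟩
      obtain ⟨h1, h2, h3⟩ := hYa y0 hy0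
      obtain ⟨h1', h2', h3'⟩ := hYa y hy
      exact ex4 h4 hrs hy0.2.1.symm h2.symm hy0.2.2.symm h3.symm h1.symm
        hrs hy.2.1.symm h2'.symm hy.2.2.symm h3'.symm h1'.symm
    choose g hgr hgs hgy hgay using hex
    have hcomm : ∀ y : Y, g y * a * (g y)⁻¹ = a := by
      intro y
      have hinv : ∀ {u v : Ω}, g y • u = v → (g y)⁻¹ • v = u := fun h => by
        rw [← h, inv_smul_smul]
      have h5 : a⁻¹ * (g y * a * (g y)⁻¹) = 1 := by
        obtain ⟨h1', h2', h3'⟩ := hYa y y.2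
        apply fix4 hsharp hrs y.2.2.1.symm h2'.symm y.2.2.2.symm h3'.symm h1'.symm
        · rw [mul_smul, mul_smul, mul_smul, hinv (hgr y), har, hgs, ← har, inv_smul_smul]
        · rw [mul_smul, mul_smul, mul_smul, hinv (hgs y), has, hgr, ← has, inv_smul_smul]
        · rw [mul_smul, mul_smul, mul_smul, hinv (hgy y), hgay, inv_smul_smul]
        · rw [mul_smul, mul_smul, mul_smul, hinv (hgay y), haa', hgy, inv_smul_eq_iff, haa']
      rw [inv_mul_eq_one] at h5
      exact h5.symm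
    have hgF : ∀ (y : Y), ∀ z ∈ F, g y • z ∈ F := by
      intro y z hz
      show a • (g y • z) = g y • z
      have h6 : a * g y = g y * a := by
        have := hcomm y
        calc a * g y = (g y * a * (g y)⁻¹) * g y := by rw [this]
          _ = g y * a := by group
      rw [← mul_smul, h6, mul_smul, show a • z = z from hz]
    have hFfin' : Finite F := hFfin
    let φ : Y → (F ↪ F) := fun y =>
      ⟨fun z => ⟨g y • (z : Ω), hgF y z z.2⟩, fun u v huv => by
        have : g y • (u : Ω) = g y • (v : Ω) := congrArg Subtype.val huv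
        exact Subtype.ext ((MulAction.injective (g y)) this)⟩
    have hφ : Function.Injective φ := by
      intro y y' hyy
      have h7 : ∀ z ∈ F, g y • z = g y' • z := fun z hz =>
        congrArg Subtype.val (DFunLike.congr_fun hyy (⟨z, hz⟩ : F))
      have h8 : (g y')⁻¹ * g y = 1 := by
        apply fix4 hsharp hpq hpr hps hqr hqs hrs
        · rw [mul_smul, h7 p hpF, inv_smul_smul]
        · rw [mul_smul, h7 q hqF, inv_smul_smul]
        · rw [mul_smul, hgr, inv_smul_eq_iff, hgr]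
        · rw [mul_smul, hgs, inv_smul_eq_iff, hgs]
      rw [inv_mul_eq_one] at h8
      apply Subtype.ext
      rw [← hgy y, ← hgy y', h8]
    have hYfin : Finite Y := Finite.of_injective φ hφ
    refine ⟨Set.toFinite Y, ?_⟩
    have h9 := Nat.card_le_card_of_injective φ hφ
    rw [Nat.card_coe_set_eq] at h9
    have : Fintype F := Fintype.ofFinite F
    rw [Nat.card_eq_fintype_card, Fintype.card_embedding_eq, Nat.descFactorial_self,
      ← Nat.card_eq_fintype_card, Nat.card_coe_set_eq] at h9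
    exact h9
  have huniv : (Set.univ : Set Ω) ⊆ F ∪ {r, s} ∪ Y := by
    intro x _
    by_cases h1 : x ∈ F
    · exact Or.inl (Or.inl h1)
    by_cases h2 : x = r
    · exact Or.inl (Or.inr (Or.inl h2))
    by_cases h3 : x = s
    · exact Or.inl (Or.inr (Or.inr h3))
    exact Or.inr ⟨h1, h2, h3⟩
  have hfinset : (F ∪ {r, s} ∪ Y).Finite := (hFfin.union (Set.toFinite _)).union hYcard.1
  have hfin : Finite Ω := Set.finite_univ_iff.mp (hfinset.subset huniv)
  have hcardle : Nat.card Ω ≤ F.ncard + 2 + Y.ncard := by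
    rw [← Set.ncard_univ]
    calc Set.ncard (Set.univ : Set Ω) ≤ (F ∪ {r, s} ∪ Y).ncard := Set.ncard_le_ncard huniv hfinset
      _ ≤ (F ∪ {r, s}).ncard + Y.ncard := Set.ncard_union_le _ _
      _ ≤ F.ncard + ({r, s} : Set Ω).ncard + Y.ncard := by
          have := Set.ncard_union_le F {r, s}
          omega
      _ = F.ncard + 2 + Y.ncard := by rw [Set.ncard_pair hrs]
  obtain ⟨h11, h6⟩ := bound_aux (by omega) hYcard.2 hcardle
  refine ⟨hfin, h11, fun heven => h6 ?_⟩
  -- parity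
  have hpg : IsPGroup 2 (Subgroup.zpowers a) := by
    rintro ⟨g, hg⟩
    obtain ⟨i, rfl⟩ := Subgroup.mem_zpowers_iff.mp hg
    refine ⟨1, Subtype.ext ?_⟩
    show (a ^ i) ^ (2 ^ 1) = 1
    rw [pow_one, ← zpow_natCast, ← zpow_mul, mul_comm, zpow_mul]
    have : a ^ ((2 : ℕ) : ℤ) = 1 := by rw [zpow_natCast, sq, haa]
    rw [this, one_zpow]
  have hmod := hpg.card_modEq_card_fixedPoints Ω
  have hfp : MulAction.fixedPoints (Subgroup.zpowers a) Ω = F := by
    ext x
    constructor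
    · intro h
      exact h ⟨a, Subgroup.mem_zpowers a⟩
    · intro h
      rintro ⟨g, hg⟩
      obtain ⟨i, rfl⟩ := Subgroup.mem_zpowers_iff.mp hg
      have h10 : a ∈ MulAction.stabilizer G x := h
      exact (MulAction.stabilizer G x).zpow_mem h10 i
  rw [hfp, Nat.card_coe_set_eq] at hmod
  have h12 : Nat.card Ω % 2 = F.ncard % 2 := hmod
  obtain ⟨c, hc⟩ := heven
  omega

end Cfsg.Agent.S0708
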