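import Cfsg.Statements.S0709
import Cfsg.Agent.Lib.WittExt

set_option autoImplicit false
open Cfsg

namespace Cfsg.Agent.S0709



/-- Witt's Lemma for constructing transitive extensions. Points `q 1, …, q t` (`t ≥ 2`) of a finite set are given; `G` fixes `q i` for `i ≥ 3` and is doubly transitive on the remaining points; `s 1 ∈ G` swaps `q 1, q 2`; for `2 ≤ i ≤ t-1`, `s i` swaps `q i, q (i+1)` and fixes the other `q j`; with `H` the stabiliser of `q 1, q 2` in `G`: `s i ^ 2 ∈ H`, `(s i * s (i+1)) ^ 3 ∈ H`, `(s i * s j) ^ 2 ∈ H` for `j ≥ i + 2`, and `s i` (`i ≥ 2`) normalises the stabiliser of `q 2` in `G`. Then `G` and the `s i` generate a `t`-transitive group whose pointwise stabiliser of the `q`'s is `H`. -/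
theorem result {α : Type*} [Fintype α] [DecidableEq α] (t : ℕ) (ht : 2 ≤ t) (q : ℕ → α) (hq : ∀ i j : ℕ, 1 ≤ i → i ≤ t → 1 ≤ j → j ≤ t → q i = q j → i = j) (G : Subgroup (Equiv.Perm α)) (hfix : ∀ g ∈ G, ∀ i : ℕ, 3 ≤ i → i ≤ t → g (q i) = q i) (h2 : ∀ a b c d : α, (∀ i, 3 ≤ i → i ≤ t → a ≠ q i ∧ b ≠ q i ∧ c ≠ q i ∧ d ≠ q i) → a ≠ b → c ≠ d → ∃ g ∈ G, g a = c ∧ g b = d) (s : ℕ → Equiv.Perm α) (hs1 : s 1 ∈ G) (hs1q : s 1 (q 1) = q 2 ∧ s 1 (q 2) = q 1) (hsq : ∀ i : ℕ, 2 ≤ i → i + 1 ≤ t → s i (q i) = q (i + 1) ∧ s i (q (i + 1)) = q i ∧ ∀ j : ℕ, 1 ≤ j → j ≤ t → j ≠ i → j ≠ i + 1 → s i (q j) = q j) (H : Subgroup (Equiv.Perm α)) (hH : H = G ⊓ MulAction.stabilizer (Equiv.Perm α) (q 1) ⊓ MulAction.stabilizer (Equiv.Perm α) (q 2)) (hsq2 : ∀ i : ℕ, 1 ≤ i → i + 1 ≤ t → s i ^ 2 ∈ H) (hbraid : ∀ i : ℕ, 1 ≤ i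 → i + 2 ≤ t → (s i * s (i + 1)) ^ 3 ∈ H) (hcomm : ∀ i j : ℕ, 1 ≤ i → i + 2 ≤ j → j + 1 ≤ t → (s i * s j) ^ 2 ∈ H ∧ (s j * s i) ^ 2 ∈ H) (hnorm : ∀ i : ℕ, 2 ≤ i → i + 1 ≤ t → ∀ g ∈ G ⊓ MulAction.stabilizer (Equiv.Perm α) (q 2), s i * g * (s i)⁻¹ ∈ G ⊓ MulAction.stabilizer (Equiv.Perm α) (q 2)) : MulAction.IsMultiplyPretransitive ↥(Subgroup.closure ((G : Set (Equiv.Perm α)) ∪ {x | ∃ i : ℕ, 2 ≤ i ∧ i + 1 ≤ t ∧ x = s i})) α t ∧ Subgroup.closure ((G : Set (Equiv.Perm α)) ∪ {x | ∃ i : ℕ, 2 ≤ i ∧ i + 1 ≤ t ∧ x = s i}) ⊓ fixingSubgroup (Equiv.Perm α) {x | ∃ i : ℕ, 1 ≤ i ∧ i ≤ t ∧ x = q i} = H := by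
  exact Cfsg.Agent.Lib.WittExt.witt t ht q hq G hfix h2 s hs1 hs1q hsq H hH hsq2 hbraid hcomm hnorm

end Cfsg.Agent.S0709
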