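import Cfsg.Statements.S0711
import Cfsg.Agent.Lib.MinDegree

set_option autoImplicit false
open Cfsg

namespace Cfsg.Agent.S0711



/-- A `k`-transitive permutation group (`k ≥ 3`) with a non-identity element of support smaller than `2k - 2` contains a non-identity element of support at most 3, and therefore contains the alternating group. -/
theorem result {α : Type*} [Fintype α] [DecidableEq α] (G : Subgroup (Equiv.Perm α)) {k : ℕ} (hk : 3 ≤ k) (hkn : k ≤ Fintype.card α) (hG : MulAction.IsMultiplyPretransitive G α k) (g : Equiv.Perm α) (hg : g ∈ G) (hg1 : g ≠ 1) (hsupp : g.support.card < 2 * k - 2) : (∃ h : Equiv.Perm α, h ∈ G ∧ h ≠ 1 ∧ h.support.card ≤ 3) ∧ alternatingGroup α ≤ G := by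
  classical
  have hcard : Nat.card α = Fintype.card α := Nat.card_eq_fintype_card
  obtain ⟨h, hh, hh1, hh3⟩ := Cfsg.Agent.Lib.MinDegree.exists_small hk hkn hG hg hg1 hsupp
  refine ⟨⟨h, hh, hh1, hh3⟩, ?_⟩
  have h2 : MulAction.IsMultiplyPretransitive G α 2 := by
    apply MulAction.isMultiplyPretransitive_of_le' (n := k) (by omega)
    rw [ENat.card_eq_coe_natCard, hcard]
    exact_mod_cast hkn
  have hprim : MulAction.IsPreprimitive G α := MulAction.isPreprimitive_of_is_two_pretransitive h2
  have hge : 2 ≤ h.support.card := Equiv.Perm.two_le_card_support_of_ne_one hh1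
  rcases Nat.lt_or_ge h.support.card 3 with h3 | h3
  · have := Equiv.Perm.card_support_eq_two.mp (by omega : h.support.card = 2)
    rw [Equiv.Perm.subgroup_eq_top_of_isPreprimitive_of_isSwap_mem hprim h this hh]
    exact le_top
  · have := card_support_eq_three_iff.mp (by omega : h.support.card = 3)
    exact Equiv.Perm.alternatingGroup_le_of_isPreprimitive_of_isThreeCycle_mem hprim this hh

end Cfsg.Agent.S0711
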