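import Cfsg.Statements.S0714
import Mathlib.GroupTheory.GroupAction.MultipleTransitivity
import Mathlib.Tactic

set_option autoImplicit false
open Cfsg

namespace Cfsg.Agent.S0714


theorem permRep_apply' {K G Ω : Type*} [Field K] [Group G] [MulAction G Ω] (g : G) (f : Ω → K)
    (x : Ω) : Cfsg.permRep K G Ω g f x = f (g⁻¹ • x) := rfl

/-- the three-cycle `x → y → z → x` -/
def tc {α : Type*} [DecidableEq α] (x y z : α) : Equiv.Perm α := Equiv.swap x y * Equiv.swap y z

theorem tc_mem {α : Type*} [Fintype α] [DecidableEq α] {x y z : α} (hxy : x ≠ y) (hyz : y ≠ z) :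
    tc x y z ∈ alternatingGroup α := by
  rw [Equiv.Perm.mem_alternatingGroup, tc, Equiv.Perm.sign_mul, Equiv.Perm.sign_swap hxy,
    Equiv.Perm.sign_swap hyz]
  rfl

theorem tc_inv {α : Type*} [DecidableEq α] (x y z : α) :
    (tc x y z)⁻¹ = Equiv.swap y z * Equiv.swap x y := by
  rw [tc, mul_inv_rev, Equiv.swap_inv, Equiv.swap_inv]

theorem tc_inv_x {α : Type*} [DecidableEq α] {x y z : α} :
    (tc x y z)⁻¹ x = z := by
  rw [tc_inv, Equiv.Perm.mul_apply, Equiv.swap_apply_left, Equiv.swap_apply_left]

theorem tc_inv_y {α : Type*} [DecidableEq α] {x y z : α} (hxy : x ≠ y) (hxz : x ≠ z) :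
    (tc x y z)⁻¹ y = x := by
  rw [tc_inv, Equiv.Perm.mul_apply, Equiv.swap_apply_right, Equiv.swap_apply_of_ne_of_ne hxy hxz]

theorem tc_inv_z {α : Type*} [DecidableEq α] {x y z : α} (hyz : y ≠ z) (hxz : x ≠ z) :
    (tc x y z)⁻¹ z = y := by
  rw [tc_inv, Equiv.Perm.mul_apply, Equiv.swap_apply_of_ne_of_ne hxz.symm hyz.symm,
    Equiv.swap_apply_right]

theorem tc_inv_o {α : Type*} [DecidableEq α] {x y z u : α} (hx : u ≠ x) (hy : u ≠ y) (hz : u ≠ z) :
    (tc x y z)⁻¹ u = u := by
  rw [tc_inv, Equiv.Perm.mul_apply, Equiv.swap_apply_of_ne_of_ne hx hy,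
    Equiv.swap_apply_of_ne_of_ne hy hz]


/-- Over any field, the permutation module of the alternating group of degree at least 5 has exactly four invariant subspaces: zero, the constant functions, the functions with coordinate sum zero, and everything. -/
theorem result {α : Type*} [Fintype α] [DecidableEq α] (hα : 5 ≤ Fintype.card α) {K : Type*} [Field K] (W : Subrepresentation (Cfsg.permRep K (alternatingGroup α) α)) : W.toSubmodule = ⊥ ∨ W = Cfsg.permConstants K (alternatingGroup α) α ∨ W = Cfsg.permSumZero K (alternatingGroup α) α ∨ W.toSubmodule = ⊤ := by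
  classical
  by_cases hconst : ∀ v ∈ W.toSubmodule, ∀ a b : α, v a = v b
  · -- W ≤ constants
    by_cases hbot : W.toSubmodule = ⊥
    · left; exact hbot
    · right; left
      obtain ⟨v, hv, hv0⟩ := (Submodule.ne_bot_iff _).mp hbot
      obtain ⟨a, ha⟩ : ∃ a, v a ≠ 0 := by
        by_contra hcon
        push Not at hcon
        exact hv0 (funext hcon)
      have h1 : (fun _ => 1 : α → K) ∈ W.toSubmodule := by
        have h2 : (fun _ => 1 : α → K) = (v a)⁻¹ • v := by
          ext x
          rw [Pi.smul_apply, smul_eq_mul, hconst v hv x a, inv_mul_cancel₀ ha]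
        rw [h2]
        exact W.toSubmodule.smul_mem _ hv
      apply Subrepresentation.toSubmodule_injective
      apply le_antisymm
      · intro w hw
        show w ∈ Submodule.span K {fun _ => 1}
        rw [Submodule.mem_span_singleton]
        refine ⟨w a, ?_⟩
        ext x
        simp only [Pi.smul_apply, smul_eq_mul, mul_one]
        exact hconst w hw a x
      · show Submodule.span K {fun _ => 1} ≤ _
        rw [Submodule.span_singleton_le_iff_mem]
        exact h1
  · right; right
    push Not at hconst
    obtain ⟨v, hv, a, b, hab⟩ := hconst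
    have hne : a ≠ b := fun h => hab (by rw [h])
    -- choose c d e
    obtain ⟨c, hc⟩ : ∃ c : α, c ∉ ({a, b} : Finset α) := by
      by_contra hcon
      push Not at hcon
      have h3 := Finset.card_le_card (fun x _ => hcon x : (Finset.univ : Finset α) ⊆ {a, b})
      rw [Finset.card_univ] at h3
      have h4 := Finset.card_le_two (a := a) (b := b)
      omega
    obtain ⟨d, hd⟩ : ∃ d : α, d ∉ ({a, b, c} : Finset α) := by
      by_contra hcon
      push Not at hcon
      have h3 := Finset.card_le_card (fun x _ => hcon x : (Finset.univ : Finset α) ⊆ {a, b, c})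
      rw [Finset.card_univ] at h3
      have h4 := Finset.card_le_three (a := a) (b := b) (c := c)
      omega
    obtain ⟨e, he⟩ : ∃ e : α, e ∉ ({a, b, c, d} : Finset α) := by
      by_contra hcon
      push Not at hcon
      have h3 := Finset.card_le_card (fun x _ => hcon x : (Finset.univ : Finset α) ⊆ {a, b, c, d})
      rw [Finset.card_univ] at h3
      have h4 := Finset.card_le_four (a := a) (b := b) (c := c) (d := d)
      omega
    simp only [Finset.mem_insert, Finset.mem_singleton, not_or] at hc hd he
    obtain ⟨hca, hcb⟩ := hc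
    obtain ⟨hda, hdb, hdc⟩ := hd
    obtain ⟨hea, heb, hec, hed⟩ := he
    let g : alternatingGroup α := ⟨tc a b c, tc_mem hne (Ne.symm hcb)⟩
    let h : alternatingGroup α := ⟨tc b d e, tc_mem (Ne.symm hdb) (Ne.symm hed)⟩
    set w : α → K := Cfsg.permRep K (alternatingGroup α) α g v - v with hw
    have hwW : w ∈ W.toSubmodule :=
      W.toSubmodule.sub_mem (W.apply_mem_toSubmodule g hv) hv
    have hwv : ∀ u, w u = v ((tc a b c)⁻¹ u) - v u := fun u => rfl
    set z : α → K := w - Cfsg.permRep K (alternatingGroup α) α h w with hz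
    have hzW : z ∈ W.toSubmodule :=
      W.toSubmodule.sub_mem hwW (W.apply_mem_toSubmodule h hwW)
    have hzv : ∀ u, z u = w u - w ((tc b d e)⁻¹ u) := fun u => rfl
    have hw0 : ∀ u, u ≠ a → u ≠ b → u ≠ c → w u = 0 := by
      intro u h1 h2 h3
      rw [hwv, tc_inv_o h1 h2 h3, sub_self]
    have hwb : w b = v a - v b := by
      rw [hwv, tc_inv_y hne (Ne.symm hca)]
    have hbe : (v a - v b)⁻¹ • z = Pi.single b 1 - Pi.single d 1 := by
      have hvab : v a - v b ≠ 0 := sub_ne_zero.mpr hab
      ext u
      rw [Pi.smul_apply, Pi.sub_apply, smul_eq_mul, hzv]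
      by_cases hub : u = b
      · subst hub
        rw [tc_inv_x, hw0 e hea heb hec, hwb, sub_zero, inv_mul_cancel₀ hvab, Pi.single_eq_same,
          Pi.single_eq_of_ne (Ne.symm hdb), sub_zero]
      by_cases hud : u = d
      · subst hud
        rw [tc_inv_y (Ne.symm hdb) (Ne.symm heb), hw0 u hda hdb hdc, hwb, zero_sub, mul_neg,
          inv_mul_cancel₀ hvab, Pi.single_eq_same, Pi.single_eq_of_ne hdb, zero_sub]
      by_cases hue : u = e
      · subst hue
        rw [tc_inv_z (Ne.symm hed) (Ne.symm heb), hw0 u hea heb hec, hw0 d hda hdb hdc,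
          Pi.single_eq_of_ne heb, Pi.single_eq_of_ne hed]
        simp
      · rw [tc_inv_o hub hud hue, sub_self, mul_zero, Pi.single_eq_of_ne hub,
          Pi.single_eq_of_ne hud, sub_zero]
    have hbd : (Pi.single b 1 - Pi.single d 1 : α → K) ∈ W.toSubmodule := by
      rw [← hbe]; exact W.toSubmodule.smul_mem _ hzW
    have h2t : MulAction.IsMultiplyPretransitive (alternatingGroup α) α 2 := by
      have := alternatingGroup.isMultiplyPretransitive α
      exact MulAction.isMultiplyPretransitive_of_le (n := Nat.card α - 2)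
        (by rw [Nat.card_eq_fintype_card]; omega) (by omega)
    have hsingle : ∀ (k : alternatingGroup α) (x : α),
        Cfsg.permRep K (alternatingGroup α) α k (Pi.single x 1) = Pi.single (k • x) 1 := by
      intro k x
      ext u
      rw [permRep_apply']
      by_cases hu : u = k • x
      · subst hu
        rw [inv_smul_smul, Pi.single_eq_same, Pi.single_eq_same]
      · rw [Pi.single_eq_of_ne hu, Pi.single_eq_of_ne]
        intro h'
        exact hu (by rw [← h', smul_inv_smul])
    have hxy : ∀ x y : α, (Pi.single x 1 - Pi.single y 1 : α → K) ∈ W.toSubmodule := by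
      intro x y
      by_cases hxy : x = y
      · rw [hxy, sub_self]; exact W.toSubmodule.zero_mem
      · obtain ⟨k, hk1, hk2⟩ := (MulAction.is_two_pretransitive_iff.mp h2t) (Ne.symm hdb) hxy
        have := W.apply_mem_toSubmodule k hbd
        rwa [map_sub, hsingle, hsingle, hk1, hk2] at this
    have hle : (Cfsg.permSumZero K (alternatingGroup α) α).toSubmodule ≤ W.toSubmodule := by
      intro f hf
      have hf0 : ∑ x, f x = 0 := hf
      have hfe : f = ∑ x, f x • (Pi.single x 1 - Pi.single a 1 : α → K) := by
        have e1 : ∑ x, f x • (Pi.single x 1 - Pi.single a 1 : α → K) =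
            (∑ x, f x • (Pi.single x 1 : α → K)) - (∑ x, f x) • (Pi.single a 1 : α → K) := by
          rw [Finset.sum_smul, ← Finset.sum_sub_distrib]
          exact Finset.sum_congr rfl fun x _ => smul_sub _ _ _
        rw [e1, hf0, zero_smul, sub_zero]
        ext u
        simp [Finset.sum_apply, Pi.single_apply]
      rw [hfe]
      exact Submodule.sum_mem _ fun x _ => W.toSubmodule.smul_mem _ (hxy x a)
    by_cases hall : ∀ f ∈ W.toSubmodule, ∑ x, f x = 0
    · left
      apply Subrepresentation.toSubmodule_injective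
      exact le_antisymm (fun f hf => hall f hf) hle
    · right
      push Not at hall
      obtain ⟨f, hf, hf0⟩ := hall
      rw [eq_top_iff]
      intro q _
      have h1 : q - ((∑ x, q x) / (∑ x, f x)) • f ∈
          (Cfsg.permSumZero K (alternatingGroup α) α).toSubmodule := by
        show ∑ x, (q - ((∑ x, q x) / (∑ x, f x)) • f) x = 0
        simp only [Pi.sub_apply, Pi.smul_apply, smul_eq_mul, Finset.sum_sub_distrib,
          ← Finset.mul_sum]
        rw [div_mul_cancel₀ _ hf0, sub_self]
      have h2 := W.toSubmodule.add_mem (hle h1)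
        (W.toSubmodule.smul_mem ((∑ x, q x) / (∑ x, f x)) hf)
      rwa [sub_add_cancel] at h2

end Cfsg.Agent.S0714
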