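import Cfsg.Statements.S0716
import Cfsg.Agent.Lib.PermChar4

set_option autoImplicit false
open Cfsg

namespace Cfsg.Agent.S0716



/-- (a) If all non-principal irreducible constituents of the permutation character of a transitive group have the same degree `f`, the character is multiplicity-free and all non-trivial subdegrees equal `f`. (b) A transitive group of rank at most 5 has multiplicity-free permutation character. -/
theorem result {G : Type*} [Group G] [Fintype G] {Ω : Type*} [Fintype Ω] [MulAction G Ω] [MulAction.IsPretransitive G Ω] (a : Ω) : ((f : ℕ) → (∀ χ : G → ℂ, Cfsg.IsIrrCharacter G χ → χ ≠ (fun _ => 1) → Cfsg.classInner (fun g : G => (Nat.card (MulAction.fixedBy Ω g) : ℂ)) χ ≠ 0 → χ 1 = f) → (∀ χ : G → ℂ, Cfsg.IsIrrCharacter G χ → Cfsg.classInner (fun g : G => (Nat.card (MulAction.fixedBy Ω g) : ℂ)) χ = 0 ∨ Cfsg.classInner (fun g : G => (Nat.card (MulAction.fixedBy Ω g) : ℂ)) χ = 1) ∧ ∀ b : Ω, b ≠ a → Nat.card (MulAction.orbit (MulAction.stabilizer G a) b) = f) ∧ (Nat.card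 (MulAction.orbitRel.Quotient (MulAction.stabilizer G a) Ω) ≤ 5 → ∀ χ : G → ℂ, Cfsg.IsIrrCharacter G χ → Cfsg.classInner (fun g : G => (Nat.card (MulAction.fixedBy Ω g) : ℂ)) χ = 0 ∨ Cfsg.classInner (fun g : G => (Nat.card (MulAction.fixedBy Ω g) : ℂ)) χ = 1) := by
  classical
  have hchar : (Cfsg.permRep ℂ G Ω).character = fun g : G => (Nat.card (MulAction.fixedBy Ω g) : ℂ) := by
    ext g; exact Cfsg.Agent.Lib.PermChar.permRep_character g
  rw [← hchar]
  exact ⟨fun f hf => Cfsg.Agent.Lib.PermChar4.equal_degrees a f hf,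
    fun hr => Cfsg.Agent.Lib.PermChar4.rank_le_five a hr⟩

end Cfsg.Agent.S0716
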