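import Cfsg.Statements.S0719
import Cfsg.Agent.Lib.Wielandt3

set_option autoImplicit false
open Cfsg

namespace Cfsg.Agent.S0719



/-- Groups of Wielandt type: if a primitive group of degree `2m` has rank 3 and permutation character `1 + χ₁ + χ₂` with irreducible `χ₁, χ₂` of degrees `m - 1` and `m`, then `m = 2a² + 2a + 1` for some positive integer `a` and the two non-trivial subdegrees are `a(2a+1)` and `(a+1)(2a+1)`. -/
theorem result {G : Type*} [Group G] [Fintype G] {Ω : Type*} [Fintype Ω] [MulAction G Ω] (hprim : MulAction.IsPreprimitive G Ω) {m : ℕ} (hm : Fintype.card Ω = 2 * m) (a₀ : Ω) (hrank : Nat.card (MulAction.orbitRel.Quotient (MulAction.stabilizer G a₀) Ω) = 3) (χ₁ χ₂ : G → ℂ) (h₁ : Cfsg.IsIrrCharacter G χ₁) (h₂ : Cfsg.IsIrrCharacter G χ₂) (hπ : (fun g : G => (Nat.card (MulAction.fixedBy Ω g) : ℂ)) = fun g => 1 + χ₁ g + χ₂ g) (hd₁ : χ₁ 1 = (m : ℂ) - 1) (hd₂ : χ₂ 1 = m) : ∃ a : ℕ, 0 < a ∧ m =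 2 * a ^ 2 + 2 * a + 1 ∧ ∀ b : Ω, b ≠ a₀ → Nat.card (MulAction.orbit (MulAction.stabilizer G a₀) b) = a * (2 * a + 1) ∨ Nat.card (MulAction.orbit (MulAction.stabilizer G a₀) b) = (a + 1) * (2 * a + 1) := by
  classical
  have hchar : (Cfsg.permRep ℂ G Ω).character = fun g : G => (Nat.card (MulAction.fixedBy Ω g) : ℂ) := by
    ext g; exact Cfsg.Agent.Lib.PermChar.permRep_character g
  exact Cfsg.Agent.Lib.Wielandt3.main hm a₀ hrank χ₁ χ₂ h₁ h₂ (hchar.trans hπ) hd₁ hd₂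

end Cfsg.Agent.S0719
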