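import Cfsg.Statements.S0722
import Mathlib.Tactic

set_option autoImplicit false
open Cfsg

namespace Cfsg.Agent.S0722



/-- In a primitive group `H`, with `N` a minimal normal subgroup and `K` a point stabiliser, `K ⊓ N` is maximal among proper `K`-invariant subgroups of `N`. -/
theorem result {α : Type*} [Finite α] (H : Subgroup (Equiv.Perm α)) [MulAction.IsPreprimitive H α] (N : Subgroup H) [N.Normal] (hN : N ≠ ⊥) (hmin : ∀ M : Subgroup H, M.Normal → M ≤ N → M = ⊥ ∨ M = N) (a : α) (X : Subgroup H) (hX : X ≤ N) (hKX : MulAction.stabilizer H a ⊓ N ≤ X) (hinv : MulAction.stabilizer H a ≤ Subgroup.normalizer (X : Set H)) : X = MulAction.stabilizer H a ⊓ N ∨ X = N := by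
  classical
  have hnt : Nontrivial α := by
    rw [← not_subsingleton_iff_nontrivial]
    intro hs
    apply hN
    rw [eq_bot_iff]
    intro n _
    rw [Subgroup.mem_bot]
    apply Subtype.ext
    ext x
    exact Subsingleton.elim _ _
  have hco : IsCoatom (MulAction.stabilizer H a) := by
    rw [MulAction.isCoatom_stabilizer_iff_preprimitive]
    infer_instance
  have hset := Subgroup.coe_mul_of_left_le_normalizer_right _ _ hinv
  rcases hco.le_iff.mp (le_sup_left : MulAction.stabilizer H a ≤ MulAction.stabilizer H a ⊔ X) with h | h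
  · right
    apply le_antisymm hX
    intro n hn
    have h1 : n ∈ ((MulAction.stabilizer H a ⊔ X : Subgroup H) : Set H) := by rw [h]; trivial
    rw [hset] at h1
    obtain ⟨k, hk, x, hx, hkx⟩ := h1
    have hkx' : k * x = n := hkx
    have h2 : k ∈ N := by
      have : k = n * x⁻¹ := by rw [← hkx']; group
      rw [this]
      exact N.mul_mem hn (N.inv_mem (hX hx))
    rw [← hkx']
    exact X.mul_mem (hKX ⟨hk, h2⟩) hx
  · left
    apply le_antisymm _ hKX
    have h1 : X ≤ MulAction.stabilizer H a := by
      rw [← h]; exact le_sup_right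
    exact le_inf h1 hX

end Cfsg.Agent.S0722
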