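import Cfsg.Statements.S0723
import Cfsg.Agent.Lib.ONCore
import Cfsg.Agent.Lib.CharSimple
import Cfsg.Agent.S0722

set_option autoImplicit false
open Cfsg

namespace Cfsg.Agent.S0723



/-- The core of the O'Nan–Scott Theorem. Let `H` be a primitive permutation group on a finite set whose unique minimal normal subgroup `N` is non-abelian, and `K` a point stabiliser. Then there are a non-abelian simple group `T` and an isomorphism `N ≃* T^m` (`m ≥ 1`) under which `K ⊓ N` becomes either a product `∏ K_i` of proper subgroups `K_i < T`, or the set of functions constant on each block of a partition of the index set into blocks of one common size `k ≥ 2`. -/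
theorem result {α : Type*} [Finite α] (H : Subgroup (Equiv.Perm α)) [MulAction.IsPreprimitive H α] (N : Subgroup H) [N.Normal] (hN : N ≠ ⊥) (hmin : ∀ M : Subgroup H, M.Normal → M ≤ N → M = ⊥ ∨ M = N) (huniq : ∀ L : Subgroup H, L.Normal → L ≠ ⊥ → (∀ M : Subgroup H, M.Normal → M ≤ L → M = ⊥ ∨ M = L) → L = N) (hnab : ¬ IsMulCommutative N) (a : α) : ∃ (T : Type) (_ : Group T) (m : ℕ) (e : N ≃* (Fin m → T)), IsSimpleGroup T ∧ ¬ IsMulCommutative T ∧ 0 < m ∧ ((∃ K : Fin m → Subgroup T, (∀ i, K i ≠ ⊤) ∧ ∀ n : N, (n : H) ∈ MulAction.stabilizer H a ↔ ∀ i, e n i ∈ K i) ∨ (∃ (k : ℕ) (c : Fin m → Fin m), 2 ≤ k ∧ (∀ j : Fin m, Nat.card {i : Fin m // c i = j} = k ∨ Nat.card {i : Fin m // c i = j} = 0) ∧ ∀ n : N, (n : H) ∈ MulAction.stabilizer H a ↔ ∀ i j : Fin m, c i = c j → e n i = e n j)) := by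
  classical
  have hfinH : Finite H := inferInstance
  have hNn : N.Normal := inferInstance
  obtain ⟨T, iT, m, hTs, hm, ⟨e₀⟩⟩ := Cfsg.Agent.Lib.CharSimple.minimal_normal N hNn hN hmin
  have hTfin : Finite T := by
    have hP : Finite (Fin m → T) := Finite.of_equiv N e₀.toEquiv
    exact Finite.of_injective (fun t : T => (Pi.mulSingle (⟨0, hm⟩ : Fin m) t : Fin m → T))
      (fun s t hst => by
        have h1 := congrFun hst ⟨0, hm⟩
        simpa using h1)
  have hTna : ¬ ∀ x y : T, x * y = y * x := by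
    intro h
    apply hnab
    refine ⟨⟨fun x y => ?_⟩⟩
    apply e₀.injective
    rw [map_mul, map_mul]
    funext i
    exact h _ _
  have hne : Nonempty (Fin m) := ⟨⟨0, hm⟩⟩
  have hnt : Nontrivial α := by
    rw [← not_subsingleton_iff_nontrivial]
    intro hs
    apply hN
    rw [eq_bot_iff]
    intro n _
    rw [Subgroup.mem_bot]
    apply Subtype.ext
    ext x
    exact Subsingleton.elim _ _
  have hNtr : MulAction.IsPretransitive N α := by
    apply MulAction.IsQuasiPreprimitive.isPretransitive_of_normal (G := H)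
    intro hfix
    apply hN
    rw [eq_bot_iff]
    intro n hn
    rw [Subgroup.mem_bot]
    apply Subtype.ext
    ext x
    have h1 : x ∈ MulAction.fixedPoints N α := by rw [hfix]; trivial
    exact congrArg id (h1 ⟨n, hn⟩)
  have hdec : ∀ g : H, ∃ n ∈ N, ∃ b ∈ MulAction.stabilizer H a, g = n * b := by
    intro g
    obtain ⟨n, hn⟩ := MulAction.exists_smul_eq N a (g • a)
    have hn' : (n : H) • a = g • a := hn
    refine ⟨n, n.2, (n : H)⁻¹ * g, ?_, by group⟩
    rw [MulAction.mem_stabilizer_iff, mul_smul, ← hn', inv_smul_smul]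
  let φ : H → MulAut (Fin m → T) := fun g => MulAut.congr e₀ (MulAut.conjNormal g)
  have hφ : ∀ (g : H) (x : Fin m → T), ((e₀.symm (φ g x) : N) : H) = g * (e₀.symm x : N) * g⁻¹ := by
    intro g x
    have h1 : e₀.symm (φ g x) = MulAut.conjNormal g (e₀.symm x) := by
      show e₀.symm (e₀ (MulAut.conjNormal g (e₀.symm x))) = _
      rw [e₀.symm_apply_apply]
    rw [h1, MulAut.conjNormal_apply]
  let S : Set (MulAut (Fin m → T)) := φ '' (MulAction.stabilizer H a : Set H)
  let M : Subgroup (Fin m → T) := ((MulAction.stabilizer H a).subgroupOf N).comap e₀.symm.toMonoidHom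
  have hM : ∀ x, x ∈ M ↔ ((e₀.symm x : N) : H) ∈ MulAction.stabilizer H a := fun x => Iff.rfl
  let I : Subgroup (Fin m → T) → Subgroup H := fun X => (X.comap e₀.toMonoidHom).map N.subtype
  have hI : ∀ X (h : H), h ∈ I X ↔ ∃ hn : h ∈ N, e₀ ⟨h, hn⟩ ∈ X := by
    intro X h
    constructor
    · rintro ⟨n, hn, rfl⟩
      exact ⟨n.2, hn⟩
    · rintro ⟨hn, hX⟩
      exact ⟨⟨h, hn⟩, hX, rfl⟩
  have hIle : ∀ X, I X ≤ N := fun X h hh => ((hI X h).mp hh).1
  have hIinj : ∀ X Y, I X = I Y → X = Y := by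
    intro X Y h
    ext x
    have h1 : ∀ Z, x ∈ Z ↔ ((e₀.symm x : N) : H) ∈ I Z := by
      intro Z
      rw [hI]
      constructor
      · intro hx
        refine ⟨(e₀.symm x).2, ?_⟩
        have : (⟨((e₀.symm x : N) : H), (e₀.symm x).2⟩ : N) = e₀.symm x := Subtype.ext rfl
        rw [this, e₀.apply_symm_apply]; exact hx
      · rintro ⟨hn, hx⟩
        have : (⟨((e₀.symm x : N) : H), hn⟩ : N) = e₀.symm x := Subtype.ext rfl
        rw [this, e₀.apply_symm_apply] at hx
        exact hx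
    rw [h1 X, h1 Y, h]
  have hIbot : I ⊥ = ⊥ := by
    rw [eq_bot_iff]
    intro h hh
    obtain ⟨hn, h1⟩ := (hI _ _).mp hh
    rw [Subgroup.mem_bot, map_eq_one_iff e₀ e₀.injective] at h1
    rw [Subgroup.mem_bot]
    exact congrArg Subtype.val h1
  have hItop : I ⊤ = N := by
    apply le_antisymm (hIle _)
    intro h hh
    exact (hI _ _).mpr ⟨hh, Subgroup.mem_top _⟩
  have hIB : ∀ X : Subgroup (Fin m → T), (∀ ψ ∈ S, ∀ x ∈ X, ψ x ∈ X) →
      ∀ b ∈ MulAction.stabilizer H a, ∀ h ∈ I X, b * h * b⁻¹ ∈ I X := by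
    intro X hX b hb h hh
    obtain ⟨hn, h1⟩ := (hI _ _).mp hh
    have h2 := hX (φ b) ⟨b, hb, rfl⟩ _ h1
    rw [hI]
    refine ⟨hNn.conj_mem h hn b, ?_⟩
    have h3 : φ b (e₀ ⟨h, hn⟩) = e₀ ⟨b * h * b⁻¹, hNn.conj_mem h hn b⟩ := by
      apply e₀.symm.injective
      apply Subtype.ext
      rw [hφ, e₀.symm_apply_apply, e₀.symm_apply_apply]
    rw [← h3]; exact h2
  have hcore := Cfsg.Agent.Lib.ONCore.core hTna S
    (by
      intro X hXn hX
      have hIn : (I X).Normal := by
        constructor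
        intro h hh g
        obtain ⟨n, hn, b, hb, rfl⟩ := hdec g
        have h1 := hIB X hX b hb h hh
        obtain ⟨hn1, h2⟩ := (hI _ _).mp h1
        have h3 : n * b * h * (n * b)⁻¹ = n * (b * h * b⁻¹) * n⁻¹ := by group
        rw [h3, hI]
        refine ⟨N.mul_mem (N.mul_mem hn hn1) (N.inv_mem hn), ?_⟩
        have h4 : (⟨n * (b * h * b⁻¹) * n⁻¹, N.mul_mem (N.mul_mem hn hn1) (N.inv_mem hn)⟩ : N) =
          (⟨n, hn⟩ : N) * ⟨b * h * b⁻¹, hn1⟩ * (⟨n, hn⟩ : N)⁻¹ := rfl
        rw [h4, map_mul, map_mul, map_inv]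
        exact hXn.conj_mem _ h2 _
      rcases hmin (I X) hIn (hIle X) with h | h
      · left; apply hIinj; rw [h, hIbot]
      · right; apply hIinj; rw [h, hItop])
    M
    (by
      intro htop
      obtain ⟨b, hb⟩ := exists_ne a
      obtain ⟨n, hn⟩ := MulAction.exists_smul_eq N a b
      have h1 : e₀ n ∈ M := htop ▸ Subgroup.mem_top _
      rw [hM, e₀.symm_apply_apply, MulAction.mem_stabilizer_iff] at h1
      exact hb (hn.symm.trans h1))
    (by
      rintro _ ⟨b, hb, rfl⟩ x hx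
      rw [hM] at hx ⊢
      rw [hφ]
      exact Subgroup.mul_mem _ (Subgroup.mul_mem _ hb hx) (Subgroup.inv_mem _ hb))
    (by
      intro X hMX hX
      have hIM : MulAction.stabilizer H a ⊓ N = I M := by
        ext h
        constructor
        · rintro ⟨h1, h2⟩
          refine (hI _ _).mpr ⟨h2, ?_⟩
          rw [hM, e₀.symm_apply_apply]; exact h1
        · intro hh
          obtain ⟨hn, h1⟩ := (hI _ _).mp hh
          rw [hM, e₀.symm_apply_apply] at h1
          exact ⟨h1, hn⟩
      have hle : I M ≤ I X := by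
        intro h hh
        obtain ⟨hn, h1⟩ := (hI _ _).mp hh
        exact (hI _ _).mpr ⟨hn, hMX h1⟩
      have hnorm : MulAction.stabilizer H a ≤ Subgroup.normalizer (I X : Set H) := by
        intro b hb
        rw [Subgroup.mem_normalizer_iff]
        intro h
        constructor
        · exact fun hh => hIB X hX b hb h hh
        · intro hh
          have := hIB X hX b⁻¹ (Subgroup.inv_mem _ hb) _ hh
          have e1 : b⁻¹ * (b * h * b⁻¹) * b⁻¹⁻¹ = h := by group
          rwa [e1] at this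
      rcases Cfsg.Agent.S0722.result H N hN hmin a (I X) (hIle X) (by rw [hIM]; exact hle) hnorm with h | h
      · left; apply hIinj; rw [h, hIM]
      · right; apply hIinj; rw [h, hItop])
  have hTnc : ¬ IsMulCommutative T := fun h => hTna (fun x y => h.is_comm.comm x y)
  rcases hcore with ⟨K, hK, hKM⟩ | ⟨β, k, c, hk, hc, hcM⟩
  · refine ⟨T, iT, m, e₀, hTs, hTnc, hm, Or.inl ⟨K, hK, fun n => ?_⟩⟩
    rw [← hKM, hM, e₀.symm_apply_apply]
  · refine ⟨T, iT, m, e₀.trans (MulEquiv.piCongrRight β), hTs, hTnc, hm, Or.inr ⟨k, c, hk, hc, fun n => ?_⟩⟩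
    have h1 : ∀ i, (e₀.trans (MulEquiv.piCongrRight β)) n i = β i (e₀ n i) := fun i => rfl
    simp only [h1]
    rw [← hcM, hM, e₀.symm_apply_apply]

end Cfsg.Agent.S0723
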