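import Cfsg.Statements.S0724
import Mathlib.GroupTheory.GroupAction.Quotient
import Mathlib.Algebra.Polynomial.Eval.Degree
import Mathlib.Tactic

set_option autoImplicit false
open Cfsg

namespace Cfsg.Agent.S0724


/-- The `k`-th power moments of the fixed point function are divisible by the group order. -/
theorem moment_dvd {G α : Type*} [Group G] [Finite G] [Finite α] [MulAction G α] [Fintype G] (k : ℕ) :
    (Nat.card G : ℤ) ∣ ∑ g : G, (Nat.card (MulAction.fixedBy α g) : ℤ) ^ k := by
  classical
  have e : ∀ g : G, Nat.card (MulAction.fixedBy (Fin k → α) g) =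
      (Nat.card (MulAction.fixedBy α g)) ^ k := by
    intro g
    have : Nat.card (MulAction.fixedBy (Fin k → α) g) =
        Nat.card (Fin k → MulAction.fixedBy α g) := by
      refine Nat.card_congr ⟨fun f i => ⟨f.1 i, ?_⟩, fun f => ⟨fun i => (f i).1, ?_⟩, ?_, ?_⟩
      · have := f.2
        rw [MulAction.mem_fixedBy] at this ⊢
        exact congrFun this i
      · rw [MulAction.mem_fixedBy]
        ext i
        exact (f i).2
      · intro f; rfl
      · intro f; rfl
    rw [this, Nat.card_fun, Nat.card_fin]
  haveI : Fintype α := Fintype.ofFinite α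
  have h := MulAction.sum_card_fixedBy_eq_card_orbits_mul_card_group G (Fin k → α)
  have h2 : ∑ g : G, (Nat.card (MulAction.fixedBy α g)) ^ k =
      Fintype.card (Quotient (MulAction.orbitRel G (Fin k → α))) * Fintype.card G := by
    rw [← h]
    refine Finset.sum_congr rfl fun g _ => ?_
    rw [← e g, Nat.card_eq_fintype_card]
  have h3 : (∑ g : G, (Nat.card (MulAction.fixedBy α g) : ℤ) ^ k) =
      (Fintype.card (Quotient (MulAction.orbitRel G (Fin k → α))) : ℤ) * (Fintype.card G : ℤ) := by
    exact_mod_cast h2
  rw [h3, Nat.card_eq_fintype_card]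
  exact Dvd.intro_left _ rfl

theorem poly_dvd {G α : Type*} [Group G] [Finite G] [Finite α] [MulAction G α] [Fintype G]
    (P : Polynomial ℤ) :
    (Nat.card G : ℤ) ∣ ∑ g : G, P.eval (Nat.card (MulAction.fixedBy α g) : ℤ) := by
  simp_rw [Polynomial.eval_eq_sum_range]
  rw [Finset.sum_comm]
  refine Finset.dvd_sum fun i _ => ?_
  rw [← Finset.mul_sum]
  exact Dvd.dvd.mul_left (moment_dvd i) _


/-- Blichfeldt's Theorem: if a finite set `L` of natural numbers contains the number of fixed points of every non-identity element of a permutation group `G` of degree `n`, then the order of `G` divides `∏ (n - l)` over `l ∈ L`. -/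
theorem result {α : Type*} [Fintype α] [DecidableEq α] (G : Subgroup (Equiv.Perm α)) (L : Finset ℕ) (hL : ∀ g ∈ G, g ≠ 1 → Nat.card (MulAction.fixedBy α g) ∈ L) : Nat.card G ∣ ∏ l ∈ L, (Fintype.card α - l) := by
  classical
  haveI : Fintype G := Fintype.ofFinite G
  by_cases hbig : ∃ l ∈ L, Fintype.card α ≤ l
  · obtain ⟨l, hl, hle⟩ := hbig
    rw [Finset.prod_eq_zero hl (Nat.sub_eq_zero_of_le hle)]
    exact dvd_zero _
  push Not at hbig
  have key := poly_dvd (G := G) (α := α) (∏ l ∈ L, (Polynomial.X - Polynomial.C (l : ℤ)))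
  have h1 : ∑ g : G, (∏ l ∈ L, (Polynomial.X - Polynomial.C (l : ℤ))).eval
      (Nat.card (MulAction.fixedBy α g) : ℤ) = ((∏ l ∈ L, (Fintype.card α - l) : ℕ) : ℤ) := by
    rw [Finset.sum_eq_single (1 : G)]
    · rw [Polynomial.eval_prod]
      push_cast
      refine Finset.prod_congr rfl fun l hl => ?_
      rw [Nat.cast_sub (hbig l hl).le]
      have : MulAction.fixedBy α (1 : G) = Set.univ := by
        ext x; simp
      rw [this]
      simp
    · intro g _ hg
      rw [Polynomial.eval_prod]
      have h2 : Nat.card (MulAction.fixedBy α g) ∈ L := by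
        have := hL g.1 g.2 (fun h => hg (Subtype.ext h))
        exact this
      refine Finset.prod_eq_zero h2 ?_
      simp
    · intro h; exact absurd (Finset.mem_univ _) h
  rw [h1] at key
  exact_mod_cast key

end Cfsg.Agent.S0724
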