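import Cfsg.Statements.S0726
-- import your own Cfsg.Agent.* helpers here

set_option autoImplicit false
open Cfsg

namespace Cfsg.Agent.S0726

/-- The left and right regular permutation representations of a group are each other's centralisers in the symmetric group: the centraliser of the left regular image is the right regular image, and a transitive subgroup centralising the left regular image is the whole right regular image. -/
theorem result {G : Type*} [Group G] : Subgroup.centralizer ((MulAction.toPermHom G G).range : Set (Equiv.Perm G)) = (MulAction.toPermHom Gᵐᵒᵖ G).range ∧ ∀ H : Subgroup (Equiv.Perm G), H ≤ Subgroup.centralizer ((MulAction.toPermHom G G).range : Set (Equiv.Perm G)) → MulAction.IsPretransitive H G → H = (MulAction.toPermHom Gᵐᵒᵖ G).range := by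
  classical
  have h1 : Subgroup.centralizer ((MulAction.toPermHom G G).range : Set (Equiv.Perm G)) =
      (MulAction.toPermHom Gᵐᵒᵖ G).range := by
    ext σ
    rw [Subgroup.mem_centralizer_iff, MonoidHom.mem_range]
    constructor
    · intro h
      refine ⟨MulOpposite.op (σ 1), ?_⟩
      ext x
      have h2 := h (MulAction.toPermHom G G x) ⟨x, rfl⟩
      have h3 := congrArg (fun τ : Equiv.Perm G => τ 1) h2
      simp [Equiv.Perm.mul_apply] at h3
      simpa using h3
    · rintro ⟨g, rfl⟩ τ ⟨x, rfl⟩
      ext y
      simp [mul_assoc]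
  refine ⟨h1, ?_⟩
  intro H hH hT
  refine le_antisymm (h1 ▸ hH) ?_
  rintro σ ⟨g, rfl⟩
  obtain ⟨⟨τ, hτ⟩, hτ1⟩ := MulAction.exists_smul_eq H (1 : G) (MulOpposite.unop g)
  have h2 : τ ∈ (MulAction.toPermHom Gᵐᵒᵖ G).range := h1 ▸ hH hτ
  obtain ⟨k, hk⟩ := h2
  have h3 : τ 1 = MulOpposite.unop g := hτ1
  have h4 : MulAction.toPermHom Gᵐᵒᵖ G k 1 = MulOpposite.unop g := by rw [hk]; exact h3
  have h5 : k = g := by
    simpa using h4
  rw [← h5, hk]
  exact hτ

end Cfsg.Agent.S0726
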