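import Cfsg.Statements.S0729
import Cfsg.Agent.Lib.Sharp3Main

set_option autoImplicit false
open Cfsg

namespace Cfsg.Agent.S0729

open Cfsg.Agent.Lib

/-- In a sharply triply transitive group of even degree at least 6, the two-point stabiliser `H = G_{a,b}` has a normal subgroup of index 2 that is normalised by the element `s` interchanging `a, b` and fixing a third point `c`. -/
theorem result {α : Type*} [Fintype α] [DecidableEq α] (heven : Even (Fintype.card α)) (h6 : 6 ≤ Fintype.card α) (G : Subgroup (Equiv.Perm α)) (h3 : MulAction.IsMultiplyPretransitive G α 3) (hsharp : ∀ x : Fin 3 ↪ α, MulAction.stabilizer G x = ⊥) {a b c : α} (hab : a ≠ b) (hac : a ≠ c) (hbc : b ≠ c) (s : G) (hsa : s • a = b) (hsb : s • b = a) (hsc : s • c = c) : ∃ N : Subgroup G, N ≤ MulAction.stabilizer G a ⊓ MulAction.stabilizer G b ∧ (N.subgroupOf (MulAction.stabilizer G a ⊓ MulAction.stabilizer G b)).Normal ∧ N.relIndex (MulAction.stabilizer G a ⊓ MulAction.stabilizer G b) = 2 ∧ ∀ n ∈ N, s * n * s⁻¹ ∈ N := by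
  have hfix : ZassBasic.Fix3 G α := Sharp3.fix3_of_stabilizer hsharp
  have hmv : Sharp3.Move3 G α := Sharp3.move3_of_pretransitive h3
  have h2 : MulAction.IsMultiplyPretransitive G α 2 := by
    have h4 : ((3 : ℕ) : ℕ∞) ≤ ENat.card α := by
      rw [ENat.card_eq_coe_fintype_card]
      exact_mod_cast (by omega : 3 ≤ Fintype.card α)
    exact MulAction.isMultiplyPretransitive_of_le' (n := 3) (by norm_num) h4
  have hcardH : Nat.card ↥(MulAction.stabilizer G a ⊓ MulAction.stabilizer G b) + 2 = Nat.card α := by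
    exact Sharp3.card_H_aux hmv hfix hab hac hbc
  rw [Nat.card_eq_fintype_card (α := α)] at hcardH
  have hev : Even (Nat.card ↥(MulAction.stabilizer G a ⊓ MulAction.stabilizer G b)) := by
    obtain ⟨k, hk⟩ := heven
    exact ⟨k - 1, by omega⟩
  obtain ⟨z, u, K, C⟩ := Sharp3.exists_config h2 hfix hmv hab hac hbc hsa hsb hsc hev
  obtain ⟨N, h1, h2, h3, h4, -⟩ := C.main
  exact ⟨N, h1, h2, h3, h4⟩

end Cfsg.Agent.S0729
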