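import Cfsg.Statements.S0733

set_option autoImplicit false
open Cfsg
open scoped Pointwise

namespace Cfsg.Agent.S0733

/-- A permutation group of affine type — generated by the translations of a finite vector space `V` over `ZMod p` together with a group `G₀` of linear automorphisms — is primitive on `V` if and only if `G₀` is irreducible on `V`. -/
theorem result {p : ℕ} [Fact p.Prime] {V : Type*} [AddCommGroup V] [Module (ZMod p) V] [Finite V] [Nontrivial V] (G₀ : Subgroup (V ≃ₗ[ZMod p] V)) (G : Subgroup (Equiv.Perm V)) (hG : ∀ σ : Equiv.Perm V, σ ∈ G ↔ ∃ g ∈ G₀, ∃ b : V, ∀ x : V, σ x = (g : V ≃ₗ[ZMod p] V) x + b) : MulAction.IsPreprimitive G V ↔ ∀ W : Submodule (ZMod p) V, (∀ g ∈ G₀, ∀ v ∈ W, (g : V ≃ₗ[ZMod p] V) v ∈ W) → W = ⊥ ∨ W = ⊤ := by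
  classical
  -- translations
  have htrans : ∀ b : V, (Equiv.addRight b : Equiv.Perm V) ∈ G := fun b =>
    (hG _).2 ⟨1, G₀.one_mem, b, fun x => rfl⟩
  have hpre : MulAction.IsPretransitive G V := ⟨fun x y => ⟨⟨Equiv.addRight (y - x), htrans _⟩, by
    change x + (y - x) = y
    abel⟩⟩
  constructor
  · intro hprim W hW
    have hB : MulAction.IsBlock G (W : Set V) := by
      rw [MulAction.isBlock_iff_smul_eq_of_nonempty]
      rintro ⟨σ, hσ⟩ ⟨y, ⟨x, hx, hxy⟩, hy⟩
      obtain ⟨g, hg, b, hb⟩ := (hG σ).1 hσ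
      have hxy' : σ x = y := hxy
      rw [hb] at hxy'
      have hbW : b ∈ W := by
        have h1 : b = y - g x := by rw [← hxy']; abel
        rw [h1]
        exact W.sub_mem hy (hW g hg x hx)
      apply Set.eq_of_subset_of_ncard_le
      · rintro z ⟨w, hw, rfl⟩
        change σ w ∈ W
        rw [hb]
        exact W.add_mem (hW g hg w hw) hbW
      · have : Set.ncard ((⟨σ, hσ⟩ : G) • (W : Set V)) = Set.ncard (W : Set V) := by
          exact Set.ncard_image_of_injective _ (MulAction.injective _)
        rw [this]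
      · exact Set.toFinite _
    rcases hprim.isTrivialBlock_of_isBlock hB with h | h
    · left
      rw [Submodule.eq_bot_iff]
      intro x hx
      exact h hx W.zero_mem
    · right
      exact SetLike.coe_injective (by rw [h]; rfl)
  · intro hirr
    refine ⟨fun {B} hB => ?_⟩
    rcases Set.eq_empty_or_nonempty B with hBe | ⟨b0, hb0⟩
    · left; rw [hBe]; exact Set.subsingleton_empty
    -- translate to contain 0
    have hB' : MulAction.IsBlock G ((⟨Equiv.addRight (-b0), htrans _⟩ : G) • B) := hB.translate _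
    set C : Set V := (⟨Equiv.addRight (-b0), htrans _⟩ : G) • B with hC
    have h0 : (0 : V) ∈ C := ⟨b0, hb0, by change b0 + (-b0) = 0; abel⟩
    have hblock : ∀ σ ∈ G, σ 0 ∈ C → ∀ x, x ∈ C → σ x ∈ C := by
      intro σ hσ h1 x hx
      have h2 : (⟨σ, hσ⟩ : G) • C = C := by
        apply hB'.smul_eq_of_nonempty
        exact ⟨σ 0, ⟨0, h0, rfl⟩, h1⟩
      rw [← h2]
      exact ⟨x, hx, rfl⟩
    have hadd : ∀ x y, x ∈ C → y ∈ C → x + y ∈ C := by
      intro x y hx hy
      have := hblock (Equiv.addRight y) (htrans y) (by change 0 + y ∈ C; rwa [zero_add]) x hx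
      exact this
    have hnsmul : ∀ (n : ℕ) x, x ∈ C → n • x ∈ C := by
      intro n x hx
      induction n with
      | zero => simpa using h0
      | succ n ih => rw [succ_nsmul]; exact hadd _ _ ih hx
    let W : Submodule (ZMod p) V :=
      { carrier := C
        add_mem' := fun {x y} hx hy => hadd x y hx hy
        zero_mem' := h0
        smul_mem' := by
          intro c x hx
          have : c • x = c.val • x := by
            rw [← Nat.cast_smul_eq_nsmul (ZMod p), ZMod.natCast_zmod_val]
          rw [this]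
          exact hnsmul _ x hx }
    have hWinv : ∀ g ∈ G₀, ∀ v ∈ W, (g : V ≃ₗ[ZMod p] V) v ∈ W := by
      intro g hg v hv
      have hσ : (g.toEquiv : Equiv.Perm V) ∈ G := (hG _).2 ⟨g, hg, 0, fun x => by
        rw [add_zero]; rfl⟩
      exact hblock g.toEquiv hσ (by change g 0 ∈ C; rw [map_zero]; exact h0) v hv
    have hcard : ∀ x y : V, x ∈ B → y ∈ B → y - x ∈ C → True := fun _ _ _ _ _ => trivial
    rcases hirr W hWinv with h | h
    · left
      intro x hx y hy
      have hx' : x - b0 ∈ C := ⟨x, hx, by change x + (-b0) = x - b0; abel⟩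
      have hy' : y - b0 ∈ C := ⟨y, hy, by change y + (-b0) = y - b0; abel⟩
      have hx2 : x - b0 ∈ W := hx'
      have hy2 : y - b0 ∈ W := hy'
      rw [h, Submodule.mem_bot] at hx2 hy2
      rw [sub_eq_zero.1 hx2, sub_eq_zero.1 hy2]
    · right
      rw [Set.eq_univ_iff_forall]
      intro x
      have hx : x - b0 ∈ W := by rw [h]; trivial
      obtain ⟨y, hy, hyx⟩ : x - b0 ∈ C := hx
      have hyx' : y + (-b0) = x - b0 := hyx
      have : y = x := by
        have : y - b0 = x - b0 := by rw [← hyx']; abel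
        exact sub_left_injective this
      rw [← this]; exact hy

end Cfsg.Agent.S0733
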