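import Cfsg.Statements.S0734

set_option autoImplicit false
open Cfsg
open scoped Pointwise

namespace Cfsg.Agent.S0734

/-- Higman's criterion for primitivity: a transitive action on a finite set is primitive if and only if every non-trivial orbital graph (edges = images of a fixed pair of distinct points) is connected. -/
theorem result {G : Type*} [Group G] {Ω : Type*} [Finite Ω] [MulAction G Ω] [MulAction.IsPretransitive G Ω] [Nontrivial Ω] : MulAction.IsPreprimitive G Ω ↔ ∀ a b : Ω, a ≠ b → (SimpleGraph.fromRel fun x y : Ω => ∃ g : G, g • a = x ∧ g • b = y).Connected := by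
  classical
  constructor
  · intro hprim a b hab
    set Γ := SimpleGraph.fromRel fun x y : Ω => ∃ g : G, g • a = x ∧ g • b = y with hΓ
    have hadj : ∀ (g : G) (x y : Ω), Γ.Adj x y → Γ.Adj (g • x) (g • y) := by
      intro g x y h
      rw [hΓ, SimpleGraph.fromRel_adj] at h ⊢
      refine ⟨fun h' => h.1 (MulAction.injective g h'), ?_⟩
      rcases h.2 with ⟨k, h1, h2⟩ | ⟨k, h1, h2⟩
      · left; exact ⟨g * k, by rw [mul_smul, h1], by rw [mul_smul, h2]⟩
      · right; exact ⟨g * k, by rw [mul_smul, h1], by rw [mul_smul, h2]⟩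
    have hreach : ∀ (g : G) (x y : Ω), Γ.Reachable x y → Γ.Reachable (g • x) (g • y) := by
      intro g x y h
      obtain ⟨w⟩ := h
      induction w with
      | nil => exact SimpleGraph.Reachable.refl _
      | cons h _ ih => exact (hadj g _ _ h).reachable.trans ih
    let B : Set Ω := {x | Γ.Reachable a x}
    have hB : MulAction.IsBlock G B := by
      rw [MulAction.isBlock_iff_smul_eq_of_nonempty]
      rintro g ⟨y, ⟨x, hx, hxy⟩, hy⟩
      have hxy' : g • x = y := hxy
      have hga : Γ.Reachable a (g • a) := by
        have h1 := hreach g a x hx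
        rw [hxy'] at h1
        exact SimpleGraph.Reachable.trans hy h1.symm
      ext z
      constructor
      · rintro ⟨w, hw, rfl⟩
        exact hga.trans (hreach g a w hw)
      · intro hz
        refine ⟨g⁻¹ • z, ?_, smul_inv_smul _ _⟩
        have h2 := hreach g⁻¹ (g • a) z (hga.symm.trans hz)
        rwa [inv_smul_smul] at h2
    have hadjab : Γ.Adj a b := by
      rw [hΓ, SimpleGraph.fromRel_adj]
      exact ⟨hab, Or.inl ⟨1, one_smul _ _, one_smul _ _⟩⟩
    rcases hprim.isTrivialBlock_of_isBlock hB with h | h
    · exact absurd (h (show a ∈ B from SimpleGraph.Reachable.refl _) (show b ∈ B from hadjab.reachable)) hab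
    · rw [SimpleGraph.connected_iff]
      refine ⟨fun x y => ?_, ⟨a⟩⟩
      have hx : x ∈ B := by rw [h]; trivial
      have hy : y ∈ B := by rw [h]; trivial
      exact SimpleGraph.Reachable.trans (SimpleGraph.Reachable.symm hx) hy
  · intro hconn
    refine ⟨fun {B} hB => ?_⟩
    by_cases hsub : B.Subsingleton
    · exact Or.inl hsub
    · right
      rw [Set.not_subsingleton_iff] at hsub
      obtain ⟨a, ha, b, hb, hab⟩ := hsub
      have hc := hconn a b hab
      set Γ := SimpleGraph.fromRel fun x y : Ω => ∃ g : G, g • a = x ∧ g • b = y with hΓ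
      have hstep : ∀ x y, Γ.Adj x y → x ∈ B → y ∈ B := by
        intro x y hxy hx
        rw [hΓ, SimpleGraph.fromRel_adj] at hxy
        rcases hxy.2 with ⟨k, h1, h2⟩ | ⟨k, h1, h2⟩
        · have : k • B = B := hB.smul_eq_of_nonempty ⟨x, ⟨a, ha, h1⟩, hx⟩
          rw [← this]
          exact ⟨b, hb, h2⟩
        · have : k • B = B := hB.smul_eq_of_nonempty ⟨x, ⟨b, hb, h2⟩, hx⟩
          rw [← this]
          exact ⟨a, ha, h1⟩
      rw [Set.eq_univ_iff_forall]
      intro z
      obtain ⟨w⟩ := hc.preconnected a z
      have : ∀ (u v : Ω) (w : Γ.Walk u v), u ∈ B → v ∈ B := by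
        intro u v w
        induction w with
        | nil => exact id
        | cons h _ ih => intro hu; exact ih (hstep _ _ h hu)
      exact this a z w ha

end Cfsg.Agent.S0734
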