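import Cfsg.Statements.S0735
import Cfsg.Agent.Lib.Homog

set_option autoImplicit false
open Cfsg
open scoped Pointwise

namespace Cfsg.Agent.S0735

open Cfsg.Agent.Lib.Homog

/-- A 2-homogeneous permutation group (transitive on 2-subsets) of even order is doubly transitive; a non-trivial 2-homogeneous group is primitive. -/
theorem result {α : Type*} [Fintype α] [DecidableEq α] (G : Subgroup (Equiv.Perm α)) (h2 : MulAction.IsPretransitive G (Set.powersetCard α 2)) (hα : 3 ≤ Fintype.card α) : (Even (Nat.card G) → MulAction.IsMultiplyPretransitive G α 2) ∧ (G ≠ ⊥ → MulAction.IsPreprimitive G α) := by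
  have hpair : ∀ a b c d : α, a ≠ b → c ≠ d → ∃ g : G, (g • a = c ∧ g • b = d) ∨ (g • a = d ∧ g • b = c) := by
    intro a b c d hab hcd
    obtain ⟨g, hg⟩ := exists_smul h2 (Finset.card_pair hab) (Finset.card_pair hcd)
    rw [smul_pair] at hg
    refine ⟨g, ?_⟩
    have h1 : g • a ∈ ({c, d} : Finset α) := by rw [← hg]; simp
    have h2 : g • b ∈ ({c, d} : Finset α) := by rw [← hg]; simp
    have hne : g • a ≠ g • b := fun h => hab (MulAction.injective g h)
    simp only [Finset.mem_insert, Finset.mem_singleton] at h1 h2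
    rcases h1 with h1 | h1 <;> rcases h2 with h2 | h2
    · exact absurd (h1.trans h2.symm) hne
    · exact Or.inl ⟨h1, h2⟩
    · exact Or.inr ⟨h1, h2⟩
    · exact absurd (h1.trans h2.symm) hne
  have htrans : MulAction.IsPretransitive G α := by
    refine ⟨fun x y => ?_⟩
    by_cases hxy : x = y
    · exact ⟨1, by rw [one_smul, hxy]⟩
    · obtain ⟨z, hz⟩ : ∃ z, z ∉ ({x, y} : Finset α) := by
        by_contra hcon
        push Not at hcon
        have : Finset.univ ⊆ ({x, y} : Finset α) := fun z _ => hcon z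
        have := Finset.card_le_card this
        rw [Finset.card_univ, Finset.card_pair hxy] at this
        omega
      simp only [Finset.mem_insert, Finset.mem_singleton, not_or] at hz
      obtain ⟨g, hg | hg⟩ := hpair x z y z (Ne.symm hz.1) (Ne.symm hz.2)
      · exact ⟨g, hg.1⟩
      · exact ⟨g * g, by rw [mul_smul, hg.1, hg.2]⟩
  constructor
  · intro heven
    have := Fact.mk Nat.prime_two
    obtain ⟨t, ht⟩ := exists_prime_orderOf_dvd_card' 2 heven.two_dvd
    have ht1 : t ≠ 1 := by rintro rfl; simp at ht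
    have htt : t * t = 1 := by rw [← sq, ← ht, pow_orderOf_eq_one]
    obtain ⟨x, hx⟩ : ∃ x : α, t • x ≠ x := by
      by_contra hcon
      push Not at hcon
      exact ht1 (FaithfulSMul.eq_of_smul_eq_smul (α := α) fun x => by rw [hcon x, one_smul])
    -- every pair is swapped by some element
    have hswap : ∀ a b : α, a ≠ b → ∃ g : G, g • a = b ∧ g • b = a := by
      intro a b hab
      obtain ⟨g, hg | hg⟩ := hpair x (t • x) a b (Ne.symm hx) hab
      · refine ⟨g * t * g⁻¹, ?_, ?_⟩
        · rw [mul_smul, mul_smul, ← hg.1, inv_smul_smul, hg.2]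
        · rw [mul_smul, mul_smul, ← hg.2, inv_smul_smul, smul_smul t t x, htt, one_smul, hg.1]
      · refine ⟨g * t * g⁻¹, ?_, ?_⟩
        · rw [mul_smul, mul_smul, ← hg.2, inv_smul_smul, smul_smul t t x, htt, one_smul, hg.1]
        · rw [mul_smul, mul_smul, ← hg.1, inv_smul_smul, hg.2]
    rw [MulAction.is_two_pretransitive_iff]
    intro a b c d hab hcd
    obtain ⟨g, hg | hg⟩ := hpair a b c d hab hcd
    · exact ⟨g, hg⟩
    · obtain ⟨k, hk1, hk2⟩ := hswap c d hcd
      exact ⟨k * g, by rw [mul_smul, hg.1, hk2], by rw [mul_smul, hg.2, hk1]⟩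
  · intro _
    refine ⟨fun {B} hB => ?_⟩
    by_cases hsub : B.Subsingleton
    · exact Or.inl hsub
    · right
      rw [Set.not_subsingleton_iff] at hsub
      obtain ⟨a, ha, b, hb, hab⟩ := hsub
      rw [Set.eq_univ_iff_forall]
      intro c
      by_cases hac : a = c
      · rw [← hac]; exact ha
      · obtain ⟨g, hg | hg⟩ := hpair a b a c hab hac
        · have : g • B = B := hB.smul_eq_of_nonempty ⟨a, ⟨a, ha, hg.1⟩, ha⟩
          rw [← this]
          exact ⟨b, hb, hg.2⟩
        · have : g • B = B := hB.smul_eq_of_nonempty ⟨a, ⟨b, hb, hg.2⟩, ha⟩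
          rw [← this]
          exact ⟨a, ha, hg.1⟩

end Cfsg.Agent.S0735
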