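import Cfsg.Statements.S0736
import Cfsg.Agent.Lib.Homog

set_option autoImplicit false
open Cfsg
open scoped Pointwise

namespace Cfsg.Agent.S0736

open Finset

lemma not_dvd_choose {p a k : ℕ} (hp : p.Prime) (hk : p ^ a ∣ k) :
    ¬ p ∣ (k + p ^ a - 1).choose k := by
  have hpa : 0 < p ^ a := pow_pos hp.pos a
  have e : k + p ^ a - 1 = (p ^ a - 1) + k := by omega
  rw [e]
  have hchoose : ((p ^ a - 1) + k).choose k ≠ 0 := (Nat.choose_pos (by omega)).ne'
  have h := Nat.factorization_choose' (p := p) (n := p ^ a - 1) (k := k) (b := Nat.log p ((p ^ a - 1) + k) + 1) hp (Nat.lt_succ_self _)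
  have h0 : (((p ^ a - 1) + k).choose k).factorization p = 0 := by
    rw [h, Finset.card_eq_zero, Finset.filter_eq_empty_iff]
    intro i hi
    rw [not_le]
    have hpi : 0 < p ^ i := pow_pos hp.pos i
    rcases le_or_gt i a with hia | hia
    · have h1 : k % p ^ i = 0 := Nat.mod_eq_zero_of_dvd ((pow_dvd_pow p hia).trans hk)
      rw [h1, zero_add]
      exact Nat.mod_lt _ hpi
    · have h2 : p ^ a < p ^ i := Nat.pow_lt_pow_right hp.one_lt hia
      have h3 : (p ^ a - 1) % p ^ i = p ^ a - 1 := Nat.mod_eq_of_lt (by omega)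
      rw [h3]
      -- k % p^i is a multiple of p^a less than p^i
      have h4 : p ^ a ∣ k % p ^ i := (Nat.dvd_mod_iff (pow_dvd_pow p hia.le)).2 hk
      obtain ⟨u, hu⟩ := h4
      have h5 : p ^ a ∣ p ^ i := pow_dvd_pow p hia.le
      obtain ⟨v, hv⟩ := h5
      have h6 : k % p ^ i < p ^ i := Nat.mod_lt _ hpi
      rw [hu, hv] at h6
      have h7 : u < v := lt_of_mul_lt_mul_left h6 (Nat.zero_le _)
      have h8 : p ^ a * (u + 1) ≤ p ^ a * v := Nat.mul_le_mul_left _ h7
      rw [mul_add, mul_one] at h8
      rw [hu]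
      omega
  intro hdvd
  have := hp.factorization_pos_of_dvd hchoose hdvd
  omega

lemma card_above {α : Type*} [DecidableEq α] (A T : Finset α) (k : ℕ) (hA : A ⊆ T) (hk : A.card + 1 = k) :
    ((T.powersetCard k).filter (fun K => A ⊆ K)).card = T.card - A.card := by
  have h1 : (T.powersetCard k).filter (fun K => A ⊆ K) = (T \ A).image (fun x => insert x A) := by
    ext K
    simp only [mem_filter, mem_powersetCard, mem_image, mem_sdiff]
    constructor
    · rintro ⟨⟨hKT, hK⟩, hAK⟩
      have h2 : (K \ A).card = 1 := by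
        rw [card_sdiff_of_subset hAK]; omega
      obtain ⟨x, hx⟩ := card_eq_one.1 h2
      have hxm : x ∈ K \ A := by rw [hx]; simp
      rw [mem_sdiff] at hxm
      refine ⟨x, ⟨hKT hxm.1, hxm.2⟩, ?_⟩
      have h3 : K = (K \ A) ∪ A := (sdiff_union_of_subset hAK).symm
      rw [h3, hx]
      rfl
    · rintro ⟨x, ⟨hxT, hxA⟩, rfl⟩
      refine ⟨⟨?_, ?_⟩, subset_insert _ _⟩
      · exact insert_subset hxT hA
      · rw [card_insert_of_notMem hxA, hk]
  rw [h1, card_image_of_injOn, card_sdiff_of_subset hA]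
  intro x hx y hy hxy
  have hx' : x ∉ A := (mem_sdiff.1 hx).2
  have hxy' : insert x A = insert y A := hxy
  have : x ∈ insert y A := by rw [← hxy']; exact mem_insert_self _ _
  rcases mem_insert.1 this with h | h
  · exact h
  · exact absurd h hx'

/-- A `k`-homogeneous permutation group of degree `n`, `k ≥ 2`, with `k + q - 1 ≤ n` for every prime power `q` dividing `k`, is `(k-1)`-homogeneous. -/
theorem result {α : Type*} [Fintype α] [DecidableEq α] (G : Subgroup (Equiv.Perm α)) {k : ℕ} (hk : 2 ≤ k) (hG : MulAction.IsPretransitive G (Set.powersetCard α k)) (hq : ∀ q : ℕ, IsPrimePow q → q ∣ k → k + q - 1 ≤ Fintype.card α) : MulAction.IsPretransitive G (Set.powersetCard α (k - 1)) := by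
  classical
  -- k < n
  obtain ⟨p0, hp0, hp0k⟩ := Nat.exists_prime_and_dvd (show k ≠ 1 by omega)
  have hkn : k < Fintype.card α := by
    have h1 := hq p0 hp0.isPrimePow hp0k
    have := hp0.two_le
    omega
  apply Cfsg.Agent.Lib.Homog.pretransitive_of
  intro A0 B0 hA0 hB0
  -- the orbit of A0
  let O : Finset α → Prop := fun A => ∃ g : G, g • A0 = A
  have hOg : ∀ (g : G) (A : Finset α), O A → O (g • A) := by
    rintro g A ⟨h, rfl⟩
    exact ⟨g * h, mul_smul _ _ _⟩
  let N : Finset α → ℕ := fun T => ((T.powersetCard (k - 1)).filter O).card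
  have hNg : ∀ (g : G) (T : Finset α), N (g • T) = N T := by
    intro g T
    symm
    apply card_bij (fun A _ => g • A)
    · intro A hA
      rw [mem_filter, mem_powersetCard] at hA ⊢
      refine ⟨⟨?_, ?_⟩, hOg g A hA.2⟩
      · exact smul_finset_subset_smul_finset hA.1.1
      · rw [card_smul_finset]; exact hA.1.2
    · intro A _ B _ h
      exact MulAction.injective g h
    · intro A hA
      rw [mem_filter, mem_powersetCard] at hA
      refine ⟨g⁻¹ • A, ?_, smul_inv_smul _ _⟩
      rw [mem_filter, mem_powersetCard]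
      refine ⟨⟨?_, ?_⟩, hOg _ _ hA.2⟩
      · have := smul_finset_subset_smul_finset (a := g⁻¹) hA.1.1
        rwa [inv_smul_smul] at this
      · rw [card_smul_finset]; exact hA.1.2
  obtain ⟨K0, hK0⟩ : ∃ K : Finset α, K.card = k := by
    obtain ⟨s, _, hs⟩ := Finset.exists_subset_card_eq (s := (Finset.univ : Finset α)) (n := k)
      (by rw [Finset.card_univ]; omega)
    exact ⟨s, hs⟩
  have hc : ∀ K : Finset α, K.card = k → N K = N K0 := by
    intro K hK
    obtain ⟨g, hg⟩ := Cfsg.Agent.Lib.Homog.exists_smul hG hK0 hK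
    rw [← hg, hNg]
  -- double counting
  have hcount : ∀ T : Finset α, T.card.choose k * N K0 = N T * (T.card - (k - 1)) := by
    intro T
    have h1 := sum_card_bipartiteAbove_eq_sum_card_bipartiteBelow
      (s := (T.powersetCard (k - 1)).filter O) (t := T.powersetCard k) (fun A K : Finset α => A ⊆ K)
    have h2 : ∀ A ∈ (T.powersetCard (k - 1)).filter O,
        (bipartiteAbove (fun A K : Finset α => A ⊆ K) (T.powersetCard k) A).card = T.card - (k - 1) := by
      intro A hA
      rw [mem_filter, mem_powersetCard] at hA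
      rw [bipartiteAbove, card_above A T k hA.1.1 (by omega), hA.1.2]
    have h3 : ∀ K ∈ T.powersetCard k,
        (bipartiteBelow (fun A K : Finset α => A ⊆ K) ((T.powersetCard (k - 1)).filter O) K).card = N K0 := by
      intro K hK
      rw [mem_powersetCard] at hK
      rw [← hc K hK.2]
      congr 1
      ext A
      rw [bipartiteBelow, mem_filter, mem_filter, mem_filter, mem_powersetCard, mem_powersetCard]
      constructor
      · rintro ⟨⟨⟨_, h5⟩, h6⟩, h7⟩
        exact ⟨⟨h7, h5⟩, h6⟩
      · rintro ⟨⟨h5, h6⟩, h7⟩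
        exact ⟨⟨⟨h5.trans hK.1, h6⟩, h7⟩, h5⟩
    rw [sum_congr rfl h2, sum_congr rfl h3, sum_const, sum_const, card_powersetCard, smul_eq_mul, smul_eq_mul] at h1
    exact h1.symm
  -- k divides N K0
  have hdvd : k ∣ N K0 := by
    rw [Nat.dvd_iff_prime_pow_dvd_dvd]
    intro p a hp hpa
    rcases Nat.eq_zero_or_pos a with ha | ha
    · subst ha; simp
    have hle := hq (p ^ a) (hp.isPrimePow.pow (by omega)) hpa
    obtain ⟨T, _, hT⟩ := Finset.exists_subset_card_eq (s := (Finset.univ : Finset α)) (n := k + p ^ a - 1)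
      (by rw [Finset.card_univ]; exact hle)
    have h1 := hcount T
    have hpos : 0 < p ^ a := pow_pos hp.pos a
    rw [hT, show k + p ^ a - 1 - (k - 1) = p ^ a by omega] at h1
    have h2 : p ^ a ∣ (k + p ^ a - 1).choose k * N K0 := by
      rw [h1]; exact Dvd.intro_left _ rfl
    have h3 : Nat.Coprime (p ^ a) ((k + p ^ a - 1).choose k) :=
      Nat.Coprime.pow_left a ((Nat.Prime.coprime_iff_not_dvd hp).2 (not_dvd_choose hp hpa))
    exact h3.dvd_of_dvd_mul_left h2
  have hNpos : 0 < N K0 := by
    -- A0 is contained in a k-subset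
    obtain ⟨x, hx⟩ : ∃ x, x ∉ A0 := by
      by_contra hcon
      push Not at hcon
      have h1 : Finset.univ ⊆ A0 := fun z _ => hcon z
      have h2 := Finset.card_le_card h1
      rw [Finset.card_univ, hA0] at h2
      omega
    have hK1 : (insert x A0).card = k := by rw [card_insert_of_notMem hx, hA0]; omega
    rw [← hc _ hK1]
    apply card_pos.2
    refine ⟨A0, ?_⟩
    rw [mem_filter, mem_powersetCard]
    exact ⟨⟨subset_insert _ _, hA0⟩, ⟨1, one_smul _ _⟩⟩
  -- N K0 = k
  have hall : ∀ K : Finset α, K.card = k → ∀ A ∈ K.powersetCard (k - 1), O A := by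
    intro K hK
    have h1 : N K = k := by
      rw [hc K hK]
      apply le_antisymm
      · rw [← hc K hK]
        calc N K ≤ (K.powersetCard (k - 1)).card := card_filter_le _ _
          _ = k.choose (k - 1) := by rw [card_powersetCard, hK]
          _ = k := by
            obtain ⟨j, rfl⟩ : ∃ j, k = j + 1 := ⟨k - 1, by omega⟩
            rw [Nat.add_sub_cancel, Nat.choose_succ_self_right]
      · exact Nat.le_of_dvd hNpos hdvd
    have h2 : (K.powersetCard (k - 1)).card = k := by
      rw [card_powersetCard, hK]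
      obtain ⟨j, rfl⟩ : ∃ j, k = j + 1 := ⟨k - 1, by omega⟩
      rw [Nat.add_sub_cancel, Nat.choose_succ_self_right]
    have h3 : (K.powersetCard (k - 1)).filter O = K.powersetCard (k - 1) := by
      apply eq_of_subset_of_card_le (filter_subset _ _)
      rw [h2]
      exact h1.ge
    intro A hA
    rw [← h3] at hA
    exact (mem_filter.1 hA).2
  -- conclude
  obtain ⟨x, hx⟩ : ∃ x, x ∉ B0 := by
    by_contra hcon
    push Not at hcon
    have h1 : Finset.univ ⊆ B0 := fun z _ => hcon z
    have h2 := Finset.card_le_card h1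
    rw [Finset.card_univ, hB0] at h2
    omega
  obtain ⟨g, hg⟩ := hall (insert x B0) (by rw [card_insert_of_notMem hx, hB0]; omega) B0
    (by rw [mem_powersetCard]; exact ⟨subset_insert _ _, hB0⟩)
  exact ⟨g, hg⟩

end Cfsg.Agent.S0736
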