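import Cfsg.Statements.S0745
import Cfsg.Agent.Lib.LW14

set_option autoImplicit false
open Cfsg

namespace Cfsg.Agent.S0745

open MulAction Equiv Cfsg.Agent.Lib.LW

theorem nums3 {n a b h : ℕ} (hn : 4 ≤ n) (h1 : (n - 2) * b = 3 * a) (h2 : 2 * h = (n - 1) * a)
    (ha : a ∣ 2) (ha2 : a ≠ 2) (hh : ¬ 2 ∣ h) : False := by
  have ha1 : a = 1 := ((Nat.dvd_prime Nat.prime_two).1 ha).resolve_right ha2
  subst ha1
  have hd : n - 2 ∣ 3 := ⟨b, by omega⟩
  have := Nat.le_of_dvd (by norm_num) hd
  have hn5 : n ≤ 5 := by omega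
  interval_cases n <;> omega

theorem nums4 {n a b h : ℕ} (hn : 5 ≤ n) (h1 : (n - 3) * b = 4 * a) (h2 : 6 * h = (n - 2) * a)
    (ha : a ∣ 6) (ha2 : a ≠ 6) (hh : ¬ 2 ∣ h) : (n = 5 ∧ h = 1) ∨ (n = 11 ∧ b = 1 ∧ h = 3) := by
  have hd : n - 3 ∣ 4 * a := ⟨b, h1.symm⟩
  have ha6 := Nat.le_of_dvd (by norm_num) ha
  have ha0 : 0 < a := Nat.pos_of_dvd_of_pos ha (by norm_num)
  have := Nat.le_of_dvd (by omega) hd
  have hn5 : n ≤ 27 := by omega
  interval_cases a <;> first | omega | (interval_cases n <;> omega)

theorem nums5 {n a b h : ℕ} (hn : 6 ≤ n) (h1 : (n - 4) * b = 5 * a) (h2 : 24 * h = (n - 3) * a)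
    (ha : a ∣ 24) (ha2 : a ≠ 24) (hh : ¬ 2 ∣ h) : (n = 6 ∧ h = 1) ∨ (n = 9 ∧ h = 1) ∨
      (n = 9 ∧ h = 3) ∨ (n = 7 ∧ h = 1) ∨ (n = 12 ∧ h = 3) ∨ (n = 24 ∧ h = 7) := by
  have hd : n - 4 ∣ 5 * a := ⟨b, h1.symm⟩
  have ha6 := Nat.le_of_dvd (by norm_num) ha
  have ha0 : 0 < a := Nat.pos_of_dvd_of_pos ha (by norm_num)
  have := Nat.le_of_dvd (by omega) hd
  have hn5 : n ≤ 5 * a + 4 := by omega
  have ha12 : a = 1 ∨ a = 2 ∨ a = 3 ∨ a = 4 ∨ a = 6 ∨ a = 8 ∨ a = 12 := by
    interval_cases a <;> omega
  rcases ha12 with rfl | rfl | rfl | rfl | rfl | rfl | rfl <;> norm_num at hn5 <;>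
    (interval_cases n <;> omega)

theorem hm30 : ∀ d, d ∣ 30 → d % 11 = 1 → d = 1 := by
  intro d hd h
  have h1 := Nat.le_of_dvd (by norm_num) hd
  interval_cases d <;> omega

theorem hm154 : ∀ d, d ∣ 154 → d % 23 = 1 → d = 1 := by
  intro d hd h
  have h1 := Nat.le_of_dvd (by norm_num) hd
  interval_cases d <;> omega

/-- Let `G` have degree `n` and `3 ≤ k ≤ n`; suppose `G` is `(k-2)`-transitive but not `(k-1)`-transitive, and is `(k-1)`-homogeneous and `k`-homogeneous. Then `k = n` and `G` is the alternating group, or `n = 5, k = 4, |G| = 20`, or `n = 6, k = 5, |G| = 120`, or `n = 9, k = 5, |G| ∈ {504, 1512}`. -/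
theorem result {α : Type*} [Fintype α] [DecidableEq α] (G : Subgroup (Equiv.Perm α)) {k : ℕ} (hk : 3 ≤ k) (hkn : k ≤ Fintype.card α) (ht : MulAction.IsMultiplyPretransitive G α (k - 2)) (hnt : ¬ MulAction.IsMultiplyPretransitive G α (k - 1)) (hh1 : MulAction.IsPretransitive G (Set.powersetCard α (k - 1))) (hh : MulAction.IsPretransitive G (Set.powersetCard α k)) : (k = Fintype.card α ∧ G = alternatingGroup α) ∨ (Fintype.card α = 5 ∧ k = 4 ∧ Nat.card G = 20) ∨ (Fintype.card α = 6 ∧ k = 5 ∧ Nat.card G = 120) ∨ (Fintype.card α = 9 ∧ k = 5 ∧ (Nat.card G = 504 ∨ Nat.card G = 1512)) := by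
  rcases Nat.eq_or_lt_of_le hkn with hkn' | hkn'
  · left
    refine ⟨hkn', ?_⟩
    have hA : alternatingGroup α ≤ G := IsMultiplyPretransitive.alternatingGroup_le α G
      (by rw [Nat.card_eq_fintype_card, ← hkn']; exact ht)
    by_contra hne
    have hnle : ¬ G ≤ alternatingGroup α := fun h => hne (le_antisymm h hA)
    obtain ⟨σ, hσ, hσA⟩ := SetLike.not_le_iff_exists.1 hnle
    have htop : ∀ τ : Perm α, τ ∈ G := by
      intro τ
      by_cases hτ : τ ∈ alternatingGroup α
      · exact hA hτ
      · have h1 : τ * σ⁻¹ ∈ alternatingGroup α := by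
          rw [Perm.mem_alternatingGroup] at hτ hσA ⊢
          rw [Perm.sign_mul, Perm.sign_inv, (Int.units_eq_one_or _).resolve_left hτ,
            (Int.units_eq_one_or _).resolve_left hσA]
          decide
        have h2 := G.mul_mem (hA h1) hσ
        rwa [inv_mul_cancel_right] at h2
    apply hnt
    rw [isMultiplyPretransitive_iff]
    intro x y
    obtain ⟨g, hg⟩ := isMultiplyPretransitive_iff.1 (Equiv.Perm.isMultiplyPretransitive α (k - 1)) x y
    exact ⟨⟨g, htop g⟩, hg⟩
  · right
    obtain ⟨t, rfl⟩ : ∃ t, k = t + 2 := ⟨k - 2, by omega⟩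
    have e1 : t + 2 - 1 = t + 1 := by omega
    have e2 : t + 2 - 2 = t := by omega
    rw [e1] at hnt hh1
    rw [e2] at ht
    have hT : Trans G t := trans_of ht (by rw [Nat.card_eq_fintype_card]; omega)
    have hH1 : Hom G (t + 1) := hom_of hh1
    by_cases h4 : 4 ≤ t
    · exfalso
      obtain ⟨Δ, hΔ, hI⟩ := exists_indAlt ht h4 (by omega)
      have hIall : ∀ Δ' : Finset α, Δ'.card = t + 1 → IndAlt G Δ' := fun Δ' hΔ' =>
        hH1.indAlt hΔ hI hΔ'
      have hno := noOdd_of hH1 hIall hnt
      by_cases h5 : 5 ≤ t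
      · exact big_false (k := t + 1) hT (by omega) (by omega) hno
      · have h6 : t = 4 := by omega
        subst h6
        exact e5_false hT hno hIall (by omega)
    · obtain ⟨htriv, a, b, h, ha, hb, hh', hadvd, hane, hodd, hpst, hind⟩ :=
        setup (by omega : 1 ≤ t) hkn' ht hnt hh1 hh
      have n1 := num1 (K := t + 1) (by omega) ha hb
      have n2 := num2 (K := t) (by omega) ha hh'
      have ht123 : t = 1 ∨ t = 2 ∨ t = 3 := by omega
      rcases ht123 with rfl | rfl | rfl
      · exfalso
        refine nums3 (n := Fintype.card α) (a := a) (b := b) (h := h) (by omega) ?_ ?_ ?_ ?_ hodd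
        · simpa using n1
        · simpa using n2
        · simpa using hadvd
        · simpa using hane
      · rcases nums4 (n := Fintype.card α) (a := a) (b := b) (h := h) (by omega) (by simpa using n1)
          (by simpa [Nat.factorial] using n2) (by simpa [Nat.factorial] using hadvd)
          (by simpa [Nat.factorial] using hane) hodd with ⟨hn, hh1'⟩ | ⟨hn, hb1, hh3⟩
        · left
          refine ⟨hn, rfl, ?_⟩
          rw [hh', hn, hh1']
          rfl
        · exfalso
          have h2 := Fact.mk Nat.prime_two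
          have hdvd : 2 ∣ Nat.card G := by
            rw [hh', hn, hh3]
            exact ⟨165, rfl⟩
          obtain ⟨w, hw⟩ := exists_prime_orderOf_dvd_card' 2 hdvd
          have hw1 : w ≠ 1 := by
            rintro rfl
            rw [orderOf_one] at hw
            omega
          have hww : w * w = 1 := by rw [← sq, ← hw, pow_orderOf_eq_one]
          have hf : (fx (w : Perm α)).card < 3 := by
            by_contra hcon
            push Not at hcon
            exact hw1 (Subtype.ext (htriv _ w.2 _ hcon (fun x hx => mem_fx.1 hx)))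
          obtain ⟨Δ, hΔ, h2Δ⟩ := even_ind w.2 (congrArg Subtype.val hww) (F := ∅)
            (fun x hx => absurd hx (Finset.notMem_empty x)) (by omega)
          rw [Finset.card_empty, zero_add] at hΔ
          rw [hind Δ hΔ, hb1] at h2Δ
          omega
      · have c1 : ∀ x, Nat.card G = (Fintype.card α).descFactorial 1 * Nat.card (pst G {x}) := by
          intro x
          have := card_G hT {x} (by rw [Finset.card_singleton]; omega)
          rwa [Finset.card_singleton] at this
        have c2 : ∀ x y, x ≠ y → Nat.card G = (Fintype.card α).descFactorial 2 *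
            Nat.card (pst G {x, y}) := by
          intro x y hxy
          have := card_G hT {x, y} (by rw [Finset.card_pair hxy]; omega)
          rwa [Finset.card_pair hxy] at this
        rcases nums5 (n := Fintype.card α) (a := a) (b := b) (h := h) (by omega) (by simpa using n1)
          (by simpa [Nat.factorial] using n2) (by simpa [Nat.factorial] using hadvd)
          (by simpa [Nat.factorial] using hane) hodd with ⟨hn, hh1'⟩ | ⟨hn, hh1'⟩ | ⟨hn, hh1'⟩ |
            ⟨hn, hh1'⟩ | ⟨hn, hh1'⟩ | ⟨hn, hh1'⟩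
        · right; left
          refine ⟨hn, rfl, ?_⟩
          rw [hh', hn, hh1']
          rfl
        · right; right
          refine ⟨hn, rfl, Or.inl ?_⟩
          rw [hh', hn, hh1']
          rfl
        · right; right
          refine ⟨hn, rfl, Or.inr ?_⟩
          rw [hh', hn, hh1']
          rfl
        · exfalso
          have hN : Nat.card G = 210 := by rw [hh', hn, hh1']; rfl
          refine seven_false hT ?_ hn ?_
          · intro g hg Γ hΓ hfix
            obtain ⟨Γ1, hΓ1, hΓ1c⟩ := Finset.exists_subset_card_eq (s := Γ) (n := 3) hΓ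
            exact pst_eq_bot (s := Γ1) (by rw [hpst Γ1 hΓ1c, hh1']) hg (fun x hx => hfix x (hΓ1 hx))
          · intro x
            have h1 := c1 x
            rw [hN, hn, show Nat.descFactorial 7 1 = 7 from rfl] at h1
            omega
        · exfalso
          have hN : Nat.card G = 3960 := by rw [hh', hn, hh1']; rfl
          obtain ⟨x1⟩ : Nonempty α := Fintype.card_pos_iff.1 (by omega)
          refine sylow_false (p := 11) (m := 30) (by norm_num) (by norm_num) hm30 (by norm_num) htriv
            (x1 := x1) ?_ ?_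
          · have h1 := c1 x1
            rw [hN, hn, show Nat.descFactorial 12 1 = 12 from rfl] at h1
            omega
          · intro x2 hx2
            have h1 := c2 x1 x2 (Ne.symm hx2)
            rw [hN, hn, show Nat.descFactorial 12 2 = 132 from rfl] at h1
            omega
        · exfalso
          have hN : Nat.card G = 85008 := by rw [hh', hn, hh1']; rfl
          obtain ⟨x1⟩ : Nonempty α := Fintype.card_pos_iff.1 (by omega)
          refine sylow_false (p := 23) (m := 154) (by norm_num) (by norm_num) hm154 (by norm_num) htriv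
            (x1 := x1) ?_ ?_
          · have h1 := c1 x1
            rw [hN, hn, show Nat.descFactorial 24 1 = 24 from rfl] at h1
            omega
          · intro x2 hx2
            have h1 := c2 x1 x2 (Ne.symm hx2)
            rw [hN, hn, show Nat.descFactorial 24 2 = 552 from rfl] at h1
            omega

end Cfsg.Agent.S0745
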