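import Cfsg.Statements.S0746
import Cfsg.Agent.S0736
import Cfsg.Agent.S0745

set_option autoImplicit false
open Cfsg

namespace Cfsg.Agent.S0746

open MulAction Equiv Cfsg.Agent.Lib.LW

/-- The Livingstone–Wagner Theorem, first form: a `k`-homogeneous group of degree `n` with `4 ≤ 2k ≤ n` is `(k-1)`-transitive. -/
theorem result {α : Type*} [Fintype α] [DecidableEq α] (G : Subgroup (Equiv.Perm α)) {k : ℕ} (hk : 2 ≤ k) (hkn : 2 * k ≤ Fintype.card α) (hh : MulAction.IsPretransitive G (Set.powersetCard α k)) : MulAction.IsMultiplyPretransitive G α (k - 1) := by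
  induction k with
  | zero => omega
  | succ k ih =>
    have h1 : IsPretransitive G (Set.powersetCard α (k + 1 - 1)) := S0736.result G hk hh (by
      intro q _ hqk
      have := Nat.le_of_dvd (by omega) hqk
      omega)
    rw [Nat.add_sub_cancel] at h1 ⊢
    by_cases hk2 : k = 1
    · subst hk2
      rw [is_one_pretransitive_iff]
      have hH := hom_of h1
      refine ⟨fun x y => ?_⟩
      obtain ⟨g, hg, hgx⟩ := hH {x} {y} (Finset.card_singleton _) (Finset.card_singleton _)
      refine ⟨⟨g, hg⟩, ?_⟩
      have := (hgx x).2 (Finset.mem_singleton_self x)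
      exact Finset.mem_singleton.1 this
    · have ih' := ih (by omega) (by omega) h1
      by_contra hnt
      have e : k + 1 - 1 = k := by omega
      have e' : k + 1 - 2 = k - 1 := by omega
      rcases S0745.result G (k := k + 1) (by omega) (by omega) (by rw [e']; exact ih')
        (by rw [e]; exact hnt) (by rw [e]; exact h1) hh with h | h | h | h <;> omega

end Cfsg.Agent.S0746
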