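import Cfsg.Statements.S0748
import Cfsg.Agent.S0746

set_option autoImplicit false
open Cfsg

namespace Cfsg.Agent.S0748

open MulAction Equiv Cfsg.Agent.Lib.LW

/-- The Livingstone–Wagner Theorem: a `k`-homogeneous permutation group of degree `n` with `10 ≤ 2k ≤ n` is `k`-transitive. -/
theorem result {α : Type*} [Fintype α] [DecidableEq α] (G : Subgroup (Equiv.Perm α)) {k : ℕ} (hk : 5 ≤ k) (hkn : 2 * k ≤ Fintype.card α) (hh : MulAction.IsPretransitive G (Set.powersetCard α k)) : MulAction.IsMultiplyPretransitive G α k := by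
  have h1 := S0746.result G (by omega : 2 ≤ k) hkn hh
  obtain ⟨t, rfl⟩ : ∃ t, k = t + 1 := ⟨k - 1, by omega⟩
  rw [Nat.add_sub_cancel] at h1
  have hT : Trans G t := trans_of h1 (by rw [Nat.card_eq_fintype_card]; omega)
  have hH : Hom G (t + 1) := hom_of hh
  obtain ⟨Δ, hΔ, hI⟩ := exists_indAlt h1 (by omega) (by omega)
  have hIall : ∀ Δ' : Finset α, Δ'.card = t + 1 → IndAlt G Δ' := fun Δ' hΔ' =>
    hH.indAlt hΔ hI hΔ'
  by_contra hnt
  have hno := noOdd_of hH hIall hnt
  by_cases h5 : 5 ≤ t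
  · exact big_false (k := t + 1) hT (by omega) (by omega) hno
  · have h6 : t = 4 := by omega
    subst h6
    exact e5_false hT hno hIall (by omega)

end Cfsg.Agent.S0748
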