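import Cfsg.Statements.S0751
import Cfsg.Agent.Lib.WittHerm

set_option autoImplicit false
open Cfsg

namespace Cfsg.Agent.S0751

/-- Witt's Lemma for Hermitian forms. Let σ be a non-identity involutive automorphism of a finite field F and B a non-degenerate σ-sesquilinear form on a finite-dimensional F-space V which is conjugate-symmetric (σ (B x y) = B y x). Then every linear equivalence between subspaces X, Y of V preserving B extends to a B-preserving linear automorphism of V. -/
theorem result {F V : Type*} [Field F] [Finite F] [AddCommGroup V] [Module F V] [FiniteDimensional F V] (σ : F →+* F) (hσ : σ ≠ RingHom.id F) (hσ2 : ∀ a : F, σ (σ a) = a) (B : V →ₛₗ[σ] V →ₗ[F] F) (hS : B.IsSymm) (hB : B.Nondegenerate) (X Y : Submodule F V) (φ : X ≃ₗ[F] Y) (hφ : ∀ x x' : X, B (φ x : V) (φ x' : V) = B (x : V) (x' : V)) : ∃ g : V ≃ₗ[F] V, (∀ u v : V, B (g u) (g v) = B u v) ∧ ∀ x : X, g (x : V) = (φ x : V) := by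
  obtain ⟨g, hg, h⟩ := Cfsg.Agent.Lib.WittHerm.witt hσ hσ2 hS hB X (Y.subtype.comp φ.toLinearMap)
    (by
      intro a b hab
      apply φ.injective
      exact Subtype.ext hab) hφ
  exact ⟨g, hg, h⟩

end Cfsg.Agent.S0751
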