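import Cfsg.Statements.S0752
import Cfsg.Agent.Lib.AltBasis

set_option autoImplicit false
open Cfsg

namespace Cfsg.Agent.S0752

/-- Classification of alternating forms: for an alternating bilinear form B on a finite-dimensional space over any field there is a basis indexed by (Fin m ⊕ Fin m) ⊕ Fin k such that B (e_i, f_j) = δ_ij, the e's are pairwise orthogonal, the f's are pairwise orthogonal, and the last k basis vectors are orthogonal to everything (they span the radical). -/
theorem result {F V : Type*} [Field F] [AddCommGroup V] [Module F V] [FiniteDimensional F V] (B : LinearMap.BilinForm F V) (hA : B.IsAlt) : ∃ (m k : ℕ) (b : Module.Basis ((Fin m ⊕ Fin m) ⊕ Fin k) F V), (∀ i j : Fin m, B (b (Sum.inl (Sum.inl i))) (b (Sum.inl (Sum.inr j))) = if i = j then 1 else 0) ∧ (∀ i j : Fin m, B (b (Sum.inl (Sum.inl i))) (b (Sum.inl (Sum.inl j))) = 0) ∧ (∀ i j : Fin m, B (b (Sum.inl (Sum.inr i))) (b (Sum.inl (Sum.inr j))) = 0) ∧ (∀ (j : Fin k) (v : V), B (b (Sum.inr j)) v = 0) :=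
  Cfsg.Agent.Lib.AltBasis.exists_basis B hA

end Cfsg.Agent.S0752
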