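import Cfsg.Statements.S0753

set_option autoImplicit false
open Cfsg

namespace Cfsg.Agent.S0753

/-- If σ is a ring endomorphism of the field F other than the identity and B is a σ-sesquilinear conjugate-symmetric form with B v v = 0 for every v, then B = 0. -/
theorem result {F V : Type*} [Field F] [AddCommGroup V] [Module F V] (σ : F →+* F) (hσ : σ ≠ RingHom.id F) (B : V →ₛₗ[σ] V →ₗ[F] F) (hS : B.IsSymm) (h0 : ∀ v : V, B v v = 0) : B = 0 := by
  have key : ∀ x y : V, B x y + B y x = 0 := by
    intro x y
    have h := h0 (x + y)
    simp only [map_add, LinearMap.add_apply, h0, zero_add, add_zero] at h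
    rw [add_comm]; exact h
  by_contra hne
  obtain ⟨x, y, hxy⟩ : ∃ x y, B x y ≠ 0 := by
    by_contra hall
    push Not at hall
    exact hne (LinearMap.ext fun x => LinearMap.ext fun y => hall x y)
  apply hσ
  ext a
  have h1 : σ (B x (a • y)) = B (a • y) x := hS.eq _ _
  have h2 : B (a • y) x = - B x (a • y) := by
    have := key x (a • y)
    rw [add_comm] at this
    exact eq_neg_of_add_eq_zero_left this
  have h3 : σ (B x y) = - B x y := by
    rw [hS.eq x y]
    have := key x y
    rw [add_comm] at this
    exact eq_neg_of_add_eq_zero_left this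
  rw [h2] at h1
  simp only [map_smul, smul_eq_mul, map_mul, h3] at h1
  have h4 : (σ a - a) * B x y = 0 := by linear_combination -h1
  rcases mul_eq_zero.mp h4 with h | h
  · simpa [sub_eq_zero] using h
  · exact absurd h hxy

end Cfsg.Agent.S0753
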