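import Cfsg.Statements.S0754

set_option autoImplicit false
open Cfsg

namespace Cfsg.Agent.S0754

/-- In a field F with q^2 elements, every non-zero μ with μ^q = μ (that is, μ in the subfield of order q) has exactly q + 1 solutions λ of λ^(q+1) = μ. -/
theorem result {F : Type*} [Field F] [Fintype F] {q : ℕ} (hF : Fintype.card F = q ^ 2) (μ : F) (hμ : μ ≠ 0) (hμq : μ ^ q = μ) : Nat.card {x : F // x ^ (q + 1) = μ} = q + 1 := by
  classical
  have hcard : Fintype.card Fˣ = (q - 1) * (q + 1) := by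
    rw [Fintype.card_units, hF]
    have := Nat.sq_sub_sq q 1
    simp at this
    rw [this, mul_comm]
  have hq : 2 ≤ q := by
    by_contra h
    have : q = 0 ∨ q = 1 := by omega
    have hc : 1 < Fintype.card F := Fintype.one_lt_card
    rcases this with h | h <;> subst h <;> simp at hF <;> omega
  have hker : Nat.card (powMonoidHom (q + 1) : Fˣ →* Fˣ).ker = q + 1 := by
    rw [IsCyclic.card_powMonoidHom_ker, Nat.card_eq_fintype_card, hcard]
    exact Nat.gcd_eq_right (Dvd.intro_left _ rfl)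
  have hrange : Nat.card (powMonoidHom (q + 1) : Fˣ →* Fˣ).range = q - 1 := by
    rw [IsCyclic.card_powMonoidHom_range, Nat.card_eq_fintype_card, hcard]
    rw [Nat.gcd_eq_right (Dvd.intro_left _ rfl)]
    exact Nat.mul_div_cancel _ (by omega)
  have hker' : Nat.card (powMonoidHom (q - 1) : Fˣ →* Fˣ).ker = q - 1 := by
    rw [IsCyclic.card_powMonoidHom_ker, Nat.card_eq_fintype_card, hcard]
    exact Nat.gcd_eq_right (Dvd.intro _ rfl)
  have hle : (powMonoidHom (q + 1) : Fˣ →* Fˣ).range ≤ (powMonoidHom (q - 1) : Fˣ →* Fˣ).ker := by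
    rintro _ ⟨x, rfl⟩
    rw [MonoidHom.mem_ker]
    simp only [powMonoidHom_apply]
    rw [← pow_mul, mul_comm, ← hcard, pow_card_eq_one]
  have heq : (powMonoidHom (q + 1) : Fˣ →* Fˣ).range = (powMonoidHom (q - 1) : Fˣ →* Fˣ).ker :=
    Subgroup.eq_of_le_of_card_ge hle (by rw [hrange, hker'])
  have hμ1 : μ ^ (q - 1) = 1 := by
    have h : μ ^ (q - 1) * μ = μ := by
      rw [← pow_succ, Nat.sub_add_cancel (by omega), hμq]
    exact mul_right_cancel₀ hμ (by rw [h, one_mul])
  have hmem : Units.mk0 μ hμ ∈ (powMonoidHom (q + 1) : Fˣ →* Fˣ).range := by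
    rw [heq, MonoidHom.mem_ker]
    ext
    simpa using hμ1
  obtain ⟨x0, hx0⟩ := hmem
  have hx0' : (x0 : F) ^ (q + 1) = μ := by
    have := congrArg Units.val hx0
    simpa using this
  refine Eq.trans ?_ hker
  refine Nat.card_congr ⟨fun x => ⟨Units.mk0 x.1 ?_ * x0⁻¹, ?_⟩, fun k => ⟨((k.1 * x0 : Fˣ) : F), ?_⟩, ?_, ?_⟩
  · rintro h
    apply hμ
    rw [← x.2, h, zero_pow (by omega)]
  · rw [MonoidHom.mem_ker]
    ext
    have hx2 := x.2
    simp only [powMonoidHom_apply, Units.val_pow_eq_pow_val, Units.val_mul, Units.val_mk0,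
      mul_pow, Units.val_one, Units.val_inv_eq_inv_val, inv_pow, hx0', hx2]
    exact mul_inv_cancel₀ hμ
  · have hk := k.2
    rw [MonoidHom.mem_ker] at hk
    have hk' : ((k.1 : Fˣ) : F) ^ (q + 1) = 1 := by
      have := congrArg Units.val hk
      simpa using this
    rw [Units.val_mul, mul_pow, hx0', hk', one_mul]
  · intro x
    ext
    simp
  · intro k
    ext
    simp

end Cfsg.Agent.S0754
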