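import Cfsg.Statements.S0757

set_option autoImplicit false
open Cfsg

namespace Cfsg.Agent.S0757

/-- The two diagonal forms Σ x_i^2 and Σ_(i<n) x_i^2 + α x_n^2 on F^(n+1), with α a non-square and 2 ≠ 0 in F, are inequivalent quadratic forms (so over a finite field of odd order there are exactly two classes of non-singular symmetric bilinear forms in each dimension). -/
theorem result {F : Type*} [Field F] (h2 : (2 : F) ≠ 0) (n : ℕ) (α : F) (hα : ¬ IsSquare α) : ¬ (QuadraticMap.weightedSumSquares F (fun _ : Fin (n + 1) => (1 : F))).Equivalent (QuadraticMap.weightedSumSquares F (fun i : Fin (n + 1) => if i = Fin.last n then α else (1 : F))) := by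
  rintro ⟨e⟩
  have : Invertible (2 : F) := invertibleOfNonzero h2
  apply hα
  have hcomp : (QuadraticMap.weightedSumSquares F (fun _ : Fin (n + 1) => (1 : F))) =
      (QuadraticMap.weightedSumSquares F (fun i : Fin (n + 1) => if i = Fin.last n then α else (1 : F))).comp
        (e.toLinearEquiv : (Fin (n+1) → F) →ₗ[F] (Fin (n+1) → F)) := by
    ext x
    simp
  have hd := congrArg QuadraticForm.discr' hcomp
  rw [QuadraticForm.discr'_comp] at hd
  have hdisc : ∀ w : Fin (n + 1) → F, QuadraticForm.discr' (QuadraticMap.weightedSumSquares F w : QuadraticForm F (Fin (n+1) → F)) = ∏ i, w i := by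
    intro w
    have hM : QuadraticForm.toMatrix' (QuadraticMap.weightedSumSquares F w : QuadraticForm F (Fin (n+1) → F)) = Matrix.diagonal w := by
      ext i j
      rw [QuadraticForm.toMatrix', LinearMap.toMatrix₂'_apply]
      simp only [QuadraticMap.associated_apply, QuadraticMap.weightedSumSquares_apply]
      by_cases hij : i = j
      · subst hij
        have hh1 : ∀ k, w k • ((Pi.single i (1:F) + Pi.single i 1 : Fin (n+1) → F) k * (Pi.single i (1:F) + Pi.single i 1 : Fin (n+1) → F) k) = if k = i then 4 * w i else 0 := by
          intro k
          by_cases hk : k = i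
          · subst hk; simp; ring
          · simp [hk]
        have hh2 : ∀ k, w k • ((Pi.single i (1:F) : Fin (n+1) → F) k * (Pi.single i (1:F) : Fin (n+1) → F) k) = if k = i then w i else 0 := by
          intro k
          by_cases hk : k = i
          · subst hk; simp
          · simp [hk]
        simp only [hh1, hh2, Finset.sum_ite_eq', Finset.mem_univ, if_true, Matrix.diagonal_apply_eq]
        rw [show (4 * w i - w i - w i) = 2 * w i by ring]
        simp [h2]
      · have h1 : ∀ k, w k • ((Pi.single i (1:F) + Pi.single j 1 : Fin (n+1) → F) k * (Pi.single i (1:F) + Pi.single j 1 : Fin (n+1) → F) k) = (if k = i then w i else 0) + (if k = j then w j else 0) := by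
          intro k
          by_cases hk : k = i
          · subst hk; simp [hij]
          · by_cases hk' : k = j
            · subst hk'; simp [hk]
            · simp [hk, hk']
        have h2 : ∀ (l k : Fin (n+1)), w k • ((Pi.single l (1:F) : Fin (n+1) → F) k * (Pi.single l (1:F) : Fin (n+1) → F) k) = if k = l then w l else 0 := by
          intro l k
          by_cases hk : k = l
          · subst hk; simp
          · simp [hk]
        simp only [h1, h2, Finset.sum_add_distrib, Finset.sum_ite_eq', Finset.mem_univ, if_true, Matrix.diagonal_apply_ne _ hij]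
        simp
    rw [QuadraticForm.discr', hM, Matrix.det_diagonal]
  rw [hdisc, hdisc] at hd
  simp only [Finset.prod_const_one, Finset.prod_ite_eq', Finset.mem_univ, if_true] at hd
  set d := (LinearMap.toMatrix' (e.toLinearEquiv : (Fin (n+1) → F) →ₗ[F] (Fin (n+1) → F))).det
  have hd0 : d ≠ 0 := by
    intro h0
    rw [h0] at hd
    simp at hd
  refine ⟨d⁻¹, ?_⟩
  field_simp
  linear_combination -hd

end Cfsg.Agent.S0757
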