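import Cfsg.Statements.S0758

set_option autoImplicit false
open Cfsg

namespace Cfsg.Agent.S0758

/-- For a finite field F of odd order q and a non-square α: the form x² + y² is isotropic iff q ≡ 1 mod 4, and the form x² + α y² is isotropic iff q ≡ 3 mod 4. -/
theorem result {F : Type*} [Field F] [Fintype F] (h2 : (2 : F) ≠ 0) (α : F) (hα : ¬ IsSquare α) : ((∃ x y : F, (x ≠ 0 ∨ y ≠ 0) ∧ x ^ 2 + y ^ 2 = 0) ↔ Fintype.card F % 4 = 1) ∧ ((∃ x y : F, (x ≠ 0 ∨ y ≠ 0) ∧ x ^ 2 + α * y ^ 2 = 0) ↔ Fintype.card F % 4 = 3) := by
  have hchar : ringChar F ≠ 2 := by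
    intro h
    apply h2
    have := ringChar.Nat.cast_ringChar (R := F)
    rw [h] at this
    exact_mod_cast this
  have hodd : Fintype.card F % 2 = 1 := FiniteField.odd_card_of_char_ne_two hchar
  have h4 : IsSquare (-1 : F) ↔ Fintype.card F % 4 = 1 := by
    rw [FiniteField.isSquare_neg_one_iff]
    omega
  constructor
  · rw [← h4]
    constructor
    · rintro ⟨x, y, hxy, h⟩
      have hy : y ≠ 0 := by
        rintro rfl
        have : x ≠ 0 := by simpa using hxy
        apply this
        simpa using h
      refine ⟨x / y, ?_⟩
      field_simp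
      linear_combination -h
    · rintro ⟨r, hr⟩
      exact ⟨r, 1, Or.inr one_ne_zero, by linear_combination -hr⟩
  · have h5 : IsSquare (-α) ↔ Fintype.card F % 4 = 3 := by
      have hα0 : α ≠ 0 := by
        rintro rfl
        exact hα ⟨0, by simp⟩
      constructor
      · intro hs
        by_contra h3
        have h1 : Fintype.card F % 4 = 1 := by omega
        rw [← h4] at h1
        apply hα
        have := h1.mul hs
        simpa using this
      · intro h3
        have hn : ¬ IsSquare (-1 : F) := by
          rw [h4]; omega
        classical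
        have e1 : quadraticChar F (-1) = -1 := quadraticChar_neg_one_iff_not_isSquare.mpr hn
        have e2 : quadraticChar F α = -1 := quadraticChar_neg_one_iff_not_isSquare.mpr hα
        have e3 : quadraticChar F (-α) = 1 := by
          rw [show -α = (-1) * α by ring, map_mul, e1, e2]; norm_num
        exact (quadraticChar_one_iff_isSquare (neg_ne_zero.mpr hα0)).mp e3
    rw [← h5]
    constructor
    · rintro ⟨x, y, hxy, h⟩
      have hy : y ≠ 0 := by
        rintro rfl
        have : x ≠ 0 := by simpa using hxy
        apply this
        simpa using h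
      refine ⟨x / y, ?_⟩
      field_simp
      linear_combination -h
    · rintro ⟨r, hr⟩
      exact ⟨r, 1, Or.inr one_ne_zero, by linear_combination -hr⟩

end Cfsg.Agent.S0758
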