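import Cfsg.Statements.S0759
import Cfsg.Agent.Lib.SymBasis

set_option autoImplicit false
open Cfsg

namespace Cfsg.Agent.S0759

open Matrix

variable {F : Type*} [Field F]

lemma neg_one_pow_isSquare (m : ℕ) (W : Submodule F (Fin m ⊕ Fin m → F)) (hW : Module.finrank F W = m)
    (h2 : (2 : F) ≠ 0) (hQ : ∀ w ∈ W, ∑ i, w i ^ 2 = 0) : IsSquare ((-1 : F) ^ m) := by
  classical
  -- the bilinear form vanishes on `W`
  have hB : ∀ u ∈ W, ∀ v ∈ W, ∑ i, u i * v i = 0 := by
    intro u hu v hv
    have h1 := hQ _ (W.add_mem hu hv)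
    have h3 : ∑ i, (u + v) i ^ 2 = ∑ i, u i ^ 2 + ∑ i, v i ^ 2 + 2 * ∑ i, u i * v i := by
      rw [Finset.mul_sum, ← Finset.sum_add_distrib, ← Finset.sum_add_distrib]
      refine Finset.sum_congr rfl fun i _ => ?_
      rw [Pi.add_apply]; ring
    rw [h3, hQ u hu, hQ v hv] at h1
    have h4 : (2 : F) * ∑ i, u i * v i = 0 := by linear_combination h1
    exact (mul_eq_zero.1 h4).resolve_left h2
  obtain ⟨W', hcompl⟩ := Submodule.exists_isCompl W
  have hW' : Module.finrank F W' = m := by
    have h1 := Submodule.finrank_add_eq_of_isCompl hcompl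
    rw [hW, Module.finrank_fintype_fun_eq_card, Fintype.card_sum, Fintype.card_fin] at h1
    omega
  let b1 := Module.finBasisOfFinrankEq F W hW
  let b2 := Module.finBasisOfFinrankEq F W' hW'
  let b : Module.Basis (Fin m ⊕ Fin m) F (Fin m ⊕ Fin m → F) :=
    (b1.prod b2).map (Submodule.prodEquivOfIsCompl W W' hcompl)
  have hb1 : ∀ i, b (Sum.inl i) ∈ W := by
    intro i
    have h2' : (b1.prod b2 (Sum.inl i)).2 = 0 := Module.Basis.prod_apply_inl_snd b1 b2 i
    have h1' : (b1.prod b2 (Sum.inl i)).1 = b1 i := Module.Basis.prod_apply_inl_fst b1 b2 i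
    simp only [b, Module.Basis.map_apply, Submodule.coe_prodEquivOfIsCompl', h2', h1',
      ZeroMemClass.coe_zero, add_zero]
    exact (b1 i).2
  let P : Matrix (Fin m ⊕ Fin m) (Fin m ⊕ Fin m) F := Matrix.of fun i j => b i j
  have hPdet : P.det ≠ 0 := by
    have h1 : LinearIndependent F P.row := b.linearIndependent
    exact ((Matrix.isUnit_iff_isUnit_det _).1 (Matrix.linearIndependent_rows_iff_isUnit.1 h1)).ne_zero
  have hgram : P * Pᵀ = fromBlocks 0 ((P * Pᵀ).toBlocks₁₂) ((P * Pᵀ).toBlocks₁₂)ᵀ ((P * Pᵀ).toBlocks₂₂) := by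
    have hsym : (P * Pᵀ)ᵀ = P * Pᵀ := by rw [transpose_mul, transpose_transpose]
    conv_lhs => rw [← fromBlocks_toBlocks (P * Pᵀ)]
    congr 1
    · ext i j
      simp only [toBlocks₁₁, of_apply, mul_apply, transpose_apply, Matrix.zero_apply]
      exact hB _ (hb1 i) _ (hb1 j)
    · ext i j
      simp only [toBlocks₂₁, toBlocks₁₂, of_apply, transpose_apply]
      have := congrFun (congrFun hsym (Sum.inr i)) (Sum.inl j)
      rw [transpose_apply] at this
      exact this.symm
  set C := (P * Pᵀ).toBlocks₁₂ with hC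
  set D := (P * Pᵀ).toBlocks₂₂ with hD
  have hJ : (J (Fin m) F).det = 1 := SymplecticGroup.det_eq_one (SymplecticGroup.J_mem (Fin m) F)
  have h5 : (P * Pᵀ).det = (-1) ^ m * C.det ^ 2 := by
    have h6 : (P * Pᵀ) * J (Fin m) F = fromBlocks C 0 D (-Cᵀ) := by
      rw [hgram, Matrix.J, fromBlocks_multiply]
      simp
    have h7 := congrArg Matrix.det h6
    rw [det_mul, hJ, mul_one, det_fromBlocks_zero₁₂, det_neg, det_transpose, Fintype.card_fin] at h7
    rw [h7]; ring
  rw [det_mul, det_transpose] at h5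
  have hC0 : C.det ≠ 0 := by
    intro h0
    rw [h0] at h5
    apply hPdet
    have : P.det * P.det = 0 := by rw [h5]; ring
    exact mul_self_eq_zero.1 this
  refine ⟨P.det / C.det, ?_⟩
  field_simp
  linear_combination -h5

/-- transport along a bijection of index sets -/
lemma transport {ι κ : Type} [Fintype ι] [Fintype κ] (e : ι ≃ κ) (m : ℕ)
    (h : ∃ W : Submodule F (ι → F), Module.finrank F W = m ∧ ∀ w ∈ W, ∑ i, w i ^ 2 = 0) :
    ∃ W : Submodule F (κ → F), Module.finrank F W = m ∧ ∀ w ∈ W, ∑ i, w i ^ 2 = 0 := by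
  obtain ⟨W, hW, hWQ⟩ := h
  refine ⟨W.map (LinearEquiv.funCongrLeft F F e.symm : (ι → F) ≃ₗ[F] (κ → F)).toLinearMap, ?_, ?_⟩
  · rw [← hW]
    exact LinearEquiv.finrank_map_eq _ W
  · rintro _ ⟨w, hw, rfl⟩
    rw [← hWQ w hw]
    exact Fintype.sum_equiv e.symm _ _ (fun i => rfl)

/-- graph of a linear map -/
lemma graph {ι : Type} [Fintype ι] (A : (ι → F) →ₗ[F] (ι → F))
    (hA : ∀ x, ∑ i, A x i ^ 2 = - ∑ i, x i ^ 2) :
    ∃ W : Submodule F (ι ⊕ ι → F), Module.finrank F W = Fintype.card ι ∧ ∀ w ∈ W, ∑ i, w i ^ 2 = 0 := by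
  let T : (ι → F) →ₗ[F] (ι ⊕ ι → F) :=
    { toFun := fun x => Sum.elim x (A x)
      map_add' := fun x y => by
        funext i
        rcases i with i | i <;> simp
      map_smul' := fun c x => by
        funext i
        rcases i with i | i <;> simp }
  refine ⟨LinearMap.range T, ?_, ?_⟩
  · rw [LinearMap.finrank_range_of_inj, Module.finrank_fintype_fun_eq_card]
    intro x y hxy
    funext i
    exact congrFun hxy (Sum.inl i)
  · rintro _ ⟨x, rfl⟩
    rw [Fintype.sum_sum_type]
    show ∑ i, x i ^ 2 + ∑ i, A x i ^ 2 = 0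
    rw [hA]; ring

/-- Type of the orthonormal form: over a finite field of odd order q and for m ≥ 1, the quadratic form Σ_(i<2m) x_i² on F^(2m) admits an m-dimensional subspace on which it vanishes identically if and only if it is not the case that q ≡ 3 (mod 4) and m is odd. -/
theorem result {F : Type*} [Field F] [Fintype F] (h2 : (2 : F) ≠ 0) (m : ℕ) (hm : 1 ≤ m) : (∃ W : Submodule F (Fin (2 * m) → F), Module.finrank F W = m ∧ ∀ w ∈ W, ∑ i, w i ^ 2 = 0) ↔ ¬ (Fintype.card F % 4 = 3 ∧ Odd m) := by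
  have hodd := Cfsg.Agent.Lib.SymBasis.odd_card h2
  let e : Fin (2 * m) ≃ Fin m ⊕ Fin m := (finCongr (by ring)).trans finSumFinEquiv.symm
  constructor
  · intro h
    rintro ⟨h3, hmo⟩
    obtain ⟨W, hW, hWQ⟩ := transport e m h
    have h4 := neg_one_pow_isSquare m W hW h2 hWQ
    rw [hmo.neg_one_pow, FiniteField.isSquare_neg_one_iff] at h4
    exact h4 h3
  · intro h
    apply transport e.symm m
    have hcard : Fintype.card (Fin m) = m := Fintype.card_fin m
    by_cases h3 : Fintype.card F % 4 = 3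
    · have hme : Even m := by
        rw [← Nat.not_odd_iff_even]
        exact fun ho => h ⟨h3, ho⟩
      obtain ⟨l, hl⟩ := hme
      obtain ⟨a, b, hab⟩ := Cfsg.Agent.Lib.SymBasis.universal h2 (one_ne_zero (α := F)) (one_ne_zero (α := F)) (-1)
      rw [one_mul, one_mul] at hab
      let A : (Fin l ⊕ Fin l → F) →ₗ[F] (Fin l ⊕ Fin l → F) :=
        { toFun := fun x => Sum.elim (fun i => a * x (Sum.inl i) + b * x (Sum.inr i)) (fun i => b * x (Sum.inl i) - a * x (Sum.inr i))
          map_add' := fun x y => by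
            funext i
            rcases i with i | i
            · simp; ring
            · simp; ring
          map_smul' := fun c x => by
            funext i
            rcases i with i | i
            · simp; ring
            · simp; ring }
      obtain ⟨W, hW, hWQ⟩ := graph A (by
        intro x
        rw [Fintype.sum_sum_type, Fintype.sum_sum_type, ← Finset.sum_add_distrib, ← Finset.sum_add_distrib,
          ← Finset.sum_neg_distrib]
        refine Finset.sum_congr rfl fun i _ => ?_
        show (a * x (Sum.inl i) + b * x (Sum.inr i)) ^ 2 + (b * x (Sum.inl i) - a * x (Sum.inr i)) ^ 2 = _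
        linear_combination (x (Sum.inl i) ^ 2 + x (Sum.inr i) ^ 2) * hab)
      have e2 : Fin m ≃ Fin l ⊕ Fin l := (finCongr hl).trans finSumFinEquiv.symm
      apply transport (Equiv.sumCongr e2.symm e2.symm) m
      refine ⟨W, ?_, hWQ⟩
      rw [hW, Fintype.card_sum, Fintype.card_fin, hl]
    · obtain ⟨i, hi⟩ := FiniteField.isSquare_neg_one_iff.2 h3
      obtain ⟨W, hW, hWQ⟩ := graph (i • (LinearMap.id : (Fin m → F) →ₗ[F] (Fin m → F))) (by
        intro x
        rw [← Finset.sum_neg_distrib]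
        refine Finset.sum_congr rfl fun j _ => ?_
        show (i * x j) ^ 2 = _
        linear_combination -(x j ^ 2) * hi)
      exact ⟨W, by rw [hW, hcard], hWQ⟩

end Cfsg.Agent.S0759
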