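import Cfsg.Statements.S0760
import Cfsg.Agent.Lib.QuadBasic

set_option autoImplicit false
open Cfsg

namespace Cfsg.Agent.S0760

open Cfsg.Agent.Lib.Quad QuadraticMap

lemma aux {F V : Type*} [Field F] [AddCommGroup V] [Module F V] [FiniteDimensional F V] (Q : QuadraticForm F V) (hQ : Nd Q) (W₁ W₂ : Submodule F V) (h₁ : ∀ w ∈ W₁, Q w = 0) (h₂ : ∀ w ∈ W₂, Q w = 0) (hmax₁ : ∀ W : Submodule F V, W₁ ≤ W → (∀ w ∈ W, Q w = 0) → W = W₁)
    (hle : Module.finrank F W₁ ≤ Module.finrank F W₂) : Module.finrank F W₁ = Module.finrank F W₂ := by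
  obtain ⟨f, hf⟩ : ∃ f : W₁ →ₗ[F] W₂, Function.Injective f :=
    finrank_le_iff_exists_linearMap.1 hle
  obtain ⟨g, hg, hgf⟩ := hQ.witt W₁ (W₂.subtype.comp f) (W₂.injective_subtype.comp hf)
    (fun u => by rw [h₁ u u.2]; exact h₂ _ (f u).2)
  have h3 : W₂.map (g⁻¹ : V ≃ₗ[F] V).toLinearMap = W₁ := by
    apply hmax₁
    · intro w hw
      refine ⟨g w, ?_, ?_⟩
      · have := hgf ⟨w, hw⟩
        rw [this]
        exact (f ⟨w, hw⟩).2
      · show (g⁻¹ : V ≃ₗ[F] V) (g w) = w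
        exact g.symm_apply_apply w
    · rintro _ ⟨w, hw, rfl⟩
      have h4 : g⁻¹ ∈ O Q := (O Q).inv_mem hg
      show Q ((g⁻¹ : V ≃ₗ[F] V) w) = 0
      rw [mem_O.1 h4, h₂ w hw]
  rw [← h3]
  exact LinearEquiv.finrank_map_eq (g⁻¹ : V ≃ₗ[F] V) W₂

/-- Witt index is well defined: if Q is a quadratic form on a finite-dimensional space V over a finite field with non-degenerate polar form, and W₁, W₂ are subspaces on which Q vanishes that are maximal with this property, then W₁ and W₂ have the same dimension, and twice this dimension is at most dim V. -/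
theorem result {F V : Type*} [Field F] [Finite F] [AddCommGroup V] [Module F V] [FiniteDimensional F V] (Q : QuadraticForm F V) (hQ : (QuadraticMap.polarBilin Q).Nondegenerate) (W₁ W₂ : Submodule F V) (h₁ : ∀ w ∈ W₁, Q w = 0) (h₂ : ∀ w ∈ W₂, Q w = 0) (hmax₁ : ∀ W : Submodule F V, W₁ ≤ W → (∀ w ∈ W, Q w = 0) → W = W₁) (hmax₂ : ∀ W : Submodule F V, W₂ ≤ W → (∀ w ∈ W, Q w = 0) → W = W₂) : Module.finrank F W₁ = Module.finrank F W₂ ∧ 2 * Module.finrank F W₁ ≤ Module.finrank F V := by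
  have hQ' : Nd Q := hQ
  constructor
  · rcases le_total (Module.finrank F W₁) (Module.finrank F W₂) with hle | hle
    · exact aux Q hQ' W₁ W₂ h₁ h₂ hmax₁ hle
    · exact (aux Q hQ' W₂ W₁ h₂ h₁ hmax₂ hle).symm
  · have h3 := hQ'.finrank_add_finrank_perp W₁
    have h4 : W₁ ≤ perp Q W₁ := by
      intro w hw
      rw [mem_perp]
      intro u hu
      rw [polar, h₁ _ (W₁.add_mem hu hw), h₁ u hu, h₁ w hw]
      ring
    have h5 := Submodule.finrank_mono h4
    omega

end Cfsg.Agent.S0760
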