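import Cfsg.Statements.S0761

set_option autoImplicit false
open Cfsg

namespace Cfsg.Agent.S0761

/-- Hyperbolic partners: let B be a non-degenerate bilinear form on a finite-dimensional space, either alternating, or symmetric with 2 ≠ 0. If Z is a subspace on which B vanishes, x ∉ Z is isotropic and orthogonal to Z, then there is an isotropic y with B x y = 1 which is orthogonal to Z. -/
theorem result {F V : Type*} [Field F] [AddCommGroup V] [Module F V] [FiniteDimensional F V] (B : LinearMap.BilinForm F V) (hB : B.Nondegenerate) (hform : B.IsAlt ∨ (B.IsSymm ∧ (2 : F) ≠ 0)) (x : V) (Z : Submodule F V) (hxZ : x ∉ Z) (hx : B x x = 0) (hxz : ∀ z ∈ Z, B x z = 0) (hZ : ∀ z ∈ Z, ∀ z' ∈ Z, B z z' = 0) : ∃ y : V, B y y = 0 ∧ B x y = 1 ∧ ∀ z ∈ Z, B z y = 0 := by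
  have hrefl : ∀ u v, B u v = 0 → B v u = 0 := by
    rcases hform with h | h
    · exact fun u v huv => h.isRefl u v huv
    · exact fun u v huv => h.1.isRefl u v huv
  obtain ⟨ψ, hψx, hψZ⟩ := Submodule.exists_le_ker_of_notMem hxZ
  have hinj : Function.Injective (LinearMap.flip B) := by
    rw [← LinearMap.ker_eq_bot, LinearMap.ker_eq_bot']
    intro v hv
    apply hB.2
    intro u
    have := LinearMap.congr_fun hv u
    simpa using this
  have hsurj : Function.Surjective (LinearMap.flip B) := by
    rw [← LinearMap.injective_iff_surjective_of_finrank_eq_finrank]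
    · exact hinj
    · exact (Subspace.dual_finrank_eq).symm
  obtain ⟨y0, hy0⟩ := hsurj ((ψ x)⁻¹ • ψ)
  have hBy0 : ∀ v, B v y0 = (ψ x)⁻¹ * ψ v := by
    intro v
    have := LinearMap.congr_fun hy0 v
    simpa using this
  have h1 : B x y0 = 1 := by
    rw [hBy0]
    exact inv_mul_cancel₀ hψx
  have h2 : ∀ z ∈ Z, B z y0 = 0 := by
    intro z hz
    rw [hBy0]
    have : ψ z = 0 := hψZ hz
    rw [this, mul_zero]
  rcases hform with halt | ⟨hsymm, h20⟩
  · exact ⟨y0, halt y0, h1, h2⟩
  · refine ⟨y0 - (B y0 y0 / 2) • x, ?_, ?_, ?_⟩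
    · have h3 : B y0 x = 1 := by rw [← hsymm.eq x y0, h1]
      simp only [map_sub, map_smul, LinearMap.sub_apply, LinearMap.smul_apply, smul_eq_mul, h1, h3, hx]
      field_simp
      ring
    · simp [h1, hx]
    · intro z hz
      simp only [map_sub, map_smul, smul_eq_mul, h2 z hz]
      rw [hrefl x z (hxz z hz)]
      simp

end Cfsg.Agent.S0761
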