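import Cfsg.Statements.S0762

set_option autoImplicit false
open Cfsg

namespace Cfsg.Agent.S0762

/-- In characteristic two over a finite field, a quadratic form on a space of dimension at least 3 vanishes on some non-zero vector. -/
theorem result {F V : Type*} [Field F] [Finite F] [CharP F 2] [AddCommGroup V] [Module F V] [FiniteDimensional F V] (Q : QuadraticForm F V) (h3 : 3 ≤ Module.finrank F V) : ∃ v : V, v ≠ 0 ∧ Q v = 0 := by
  classical
  have hsq : ∀ a : F, ∃ b : F, b * b = a := by
    intro a
    obtain ⟨b, hb⟩ := FiniteField.isSquare_of_char_two (ringChar.eq F 2 ▸ rfl) a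
    exact ⟨b, hb.symm⟩
  have : Nontrivial V := Module.nontrivial_of_finrank_pos (R := F) (by omega)
  obtain ⟨x, hx⟩ := exists_ne (0 : V)
  by_cases hQx : Q x = 0
  · exact ⟨x, hx, hQx⟩
  · have hker : 2 ≤ Module.finrank F (LinearMap.ker (QuadraticMap.polarBilin Q x)) := by
      have h1 := LinearMap.finrank_range_add_finrank_ker (QuadraticMap.polarBilin Q x)
      have h2 : Module.finrank F (LinearMap.range (QuadraticMap.polarBilin Q x)) ≤ 1 := by
        have := Submodule.finrank_le (LinearMap.range (QuadraticMap.polarBilin Q x))
        simpa using this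
      omega
    have hspan : Module.finrank F (Submodule.span F {x}) = 1 := finrank_span_singleton hx
    have hex : ∃ y ∈ LinearMap.ker (QuadraticMap.polarBilin Q x), y ∉ Submodule.span F {x} := by
      by_contra hcon
      push Not at hcon
      have hle : LinearMap.ker (QuadraticMap.polarBilin Q x) ≤ Submodule.span F {x} := hcon
      have := Submodule.finrank_mono hle
      omega
    obtain ⟨y, hy, hyx⟩ := hex
    obtain ⟨b, hb⟩ := hsq (Q y / Q x)
    refine ⟨y + b • x, ?_, ?_⟩
    · intro h
      apply hyx
      rw [Submodule.mem_span_singleton]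
      refine ⟨-b, ?_⟩
      rw [neg_smul]
      exact (eq_neg_of_add_eq_zero_left h).symm
    · have hp : QuadraticMap.polar Q x y = 0 := by
        have := LinearMap.mem_ker.mp hy
        simpa using this
      have h3 : Q (y + b • x) = Q y + Q (b • x) + QuadraticMap.polar Q y (b • x) := by
        rw [QuadraticMap.polar]; ring
      rw [h3, QuadraticMap.map_smul, QuadraticMap.polar_smul_right, QuadraticMap.polar_comm, hp, hb]
      have h20 : (2 : F) = 0 := CharTwo.two_eq_zero
      simp only [smul_eq_mul, mul_zero, add_zero]
      field_simp
      linear_combination (Q y) * h20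

end Cfsg.Agent.S0762
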