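import Cfsg.Statements.S0763

set_option autoImplicit false
open Cfsg

namespace Cfsg.Agent.S0763

/-- Binary quadratic forms in characteristic two over a finite field: if Q is a quadratic form on a 2-dimensional space whose polar form is non-degenerate, then either there are vectors v, w with Q v = Q w = 0 and polar value 1 (Q is xy in these coordinates), or there are v, w and μ with Q v = 1, Q w = μ, polar value 1 and x² + x + μ without roots in F (Q is x² + xy + μy²). -/
theorem result {F V : Type*} [Field F] [Finite F] [CharP F 2] [AddCommGroup V] [Module F V] (Q : QuadraticForm F V) (h2 : Module.finrank F V = 2) (hQ : (QuadraticMap.polarBilin Q).Nondegenerate) : (∃ v w : V, LinearIndependent F ![v, w] ∧ Q v = 0 ∧ Q w = 0 ∧ QuadraticMap.polar Q v w = 1) ∨ (∃ (v w : V) (μ : F), LinearIndependent F ![v, w] ∧ (∀ x : F, x ^ 2 + x + μ ≠ 0) ∧ Q v = 1 ∧ Q w = μ ∧ QuadraticMap.polar Q v w = 1) := by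
  classical
  have hsq : ∀ a : F, ∃ b : F, b * b = a := by
    intro a
    obtain ⟨b, hb⟩ := FiniteField.isSquare_of_char_two (ringChar.eq F 2 ▸ rfl) a
    exact ⟨b, hb.symm⟩
  have h20 : (2 : F) = 0 := CharTwo.two_eq_zero
  have : FiniteDimensional F V := FiniteDimensional.of_finrank_pos (by omega)
  have : Nontrivial V := Module.nontrivial_of_finrank_pos (R := F) (by omega)
  have hQadd : ∀ x y : V, Q (x + y) = Q x + Q y + QuadraticMap.polar Q x y := by
    intro x y; rw [QuadraticMap.polar]; ring
  have hself : ∀ x : V, QuadraticMap.polar Q x x = 0 := by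
    intro x; rw [QuadraticMap.polar_self, two_smul, ← two_mul, h20, zero_mul]
  have hpair : ∀ v : V, v ≠ 0 → ∃ w, QuadraticMap.polar Q v w = 1 := by
    intro v hv
    by_contra hcon
    push Not at hcon
    apply hv
    apply hQ.1
    intro y
    rw [QuadraticMap.polarBilin_apply_apply]
    by_contra hne
    apply hcon ((QuadraticMap.polar Q v y)⁻¹ • y)
    rw [QuadraticMap.polar_smul_right, smul_eq_mul, inv_mul_cancel₀ hne]
  have hli : ∀ v w : V, QuadraticMap.polar Q v w = 1 → LinearIndependent F ![v, w] := by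
    intro v w hvw
    rw [LinearIndependent.pair_iff]
    intro s t hst
    have h1 : QuadraticMap.polar Q v (s • v + t • w) = 0 := by rw [hst, QuadraticMap.polar_zero_right]
    have h2 : QuadraticMap.polar Q (s • v + t • w) w = 0 := by rw [hst, QuadraticMap.polar_zero_left]
    rw [QuadraticMap.polar_add_right, QuadraticMap.polar_smul_right, QuadraticMap.polar_smul_right, hself, hvw] at h1
    rw [QuadraticMap.polar_add_left, QuadraticMap.polar_smul_left, QuadraticMap.polar_smul_left, hself, hvw] at h2
    simp at h1 h2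
    exact ⟨h2, h1⟩
  by_cases hiso : ∃ v : V, v ≠ 0 ∧ Q v = 0
  · left
    obtain ⟨v, hv, hQv⟩ := hiso
    obtain ⟨w, hw⟩ := hpair v hv
    have hpol : QuadraticMap.polar Q v (w + (Q w) • v) = 1 := by
      rw [QuadraticMap.polar_add_right, QuadraticMap.polar_smul_right, hself, hw]; simp
    refine ⟨v, w + (Q w) • v, hli _ _ hpol, hQv, ?_, hpol⟩
    rw [hQadd, QuadraticMap.map_smul, QuadraticMap.polar_smul_right, QuadraticMap.polar_comm, hw, hQv]
    simp only [smul_eq_mul, mul_zero, mul_one, add_zero]
    linear_combination (Q w) * h20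
  · right
    push Not at hiso
    obtain ⟨v0, hv0⟩ := exists_ne (0 : V)
    obtain ⟨c, hc⟩ := hsq (Q v0)⁻¹
    have hQ0 : Q v0 ≠ 0 := hiso v0 hv0
    have hc0 : c ≠ 0 := by
      rintro rfl
      rw [mul_zero] at hc
      exact hQ0 (inv_eq_zero.mp hc.symm)
    have hv1 : c • v0 ≠ 0 := smul_ne_zero hc0 hv0
    obtain ⟨w, hw⟩ := hpair _ hv1
    have hQ1 : Q (c • v0) = 1 := by
      rw [QuadraticMap.map_smul, hc, smul_eq_mul, inv_mul_cancel₀ hQ0]
    refine ⟨c • v0, w, Q w, hli _ _ hw, ?_, hQ1, rfl, hw⟩
    intro x hx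
    have hne : x • (c • v0) + w ≠ 0 := by
      intro h0
      have := hli _ _ hw
      rw [LinearIndependent.pair_iff] at this
      have h := this x 1 (by rw [one_smul]; exact h0)
      exact one_ne_zero h.2
    apply hiso _ hne
    rw [hQadd, QuadraticMap.map_smul, QuadraticMap.polar_smul_left, hw, hQ1]
    simp only [smul_eq_mul, mul_one]
    linear_combination hx

end Cfsg.Agent.S0763
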