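import Cfsg.Statements.S0766
import Cfsg.Agent.Lib.SympGen

set_option autoImplicit false
open Cfsg

namespace Cfsg.Agent.S0766

open Cfsg.Agent.Lib.SympMat

/-- The subgroup generated by the symplectic transvections acts transitively on ordered pairs (u, v) with f(u, v) = 1. -/
theorem result {F : Type*} [Field F] (m : ℕ) (u v u' v' : Fin m ⊕ Fin m → F) (h : Cfsg.sympForm m F u v = 1) (h' : Cfsg.sympForm m F u' v' = 1) : ∃ A ∈ Subgroup.closure {A : Matrix.symplecticGroup (Fin m) F | ∃ (w : Fin m ⊕ Fin m → F) (c : F), (A : Matrix (Fin m ⊕ Fin m) (Fin m ⊕ Fin m) F) = Cfsg.sympTransvection m w c}, (A : Matrix (Fin m ⊕ Fin m) (Fin m ⊕ Fin m) F).mulVec u = u' ∧ (A : Matrix (Fin m ⊕ Fin m) (Fin m ⊕ Fin m) F).mulVec v = v' := by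
  rw [Cfsg.Agent.Lib.SympGen.closure_transvections]
  have hli : ∀ u v : Fin m ⊕ Fin m → F, Cfsg.sympForm m F u v = 1 → LinearIndependent F ![u, v] := by
    intro u v h
    rw [LinearIndependent.pair_iff]
    intro s t hst
    have h1 : Cfsg.sympForm m F (s • u + t • v) v = 0 := by rw [hst]; simp [sympForm_def]
    have h2 : Cfsg.sympForm m F u (s • u + t • v) = 0 := by rw [hst]; simp [sympForm_def]
    rw [sympForm_add_left, sympForm_smul_left, sympForm_smul_left, sympForm_self, h] at h1
    rw [sympForm_add_right, sympForm_smul_right, sympForm_smul_right, sympForm_self, h] at h2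
    simp at h1 h2
    exact ⟨h1, h2⟩
  obtain ⟨A, hA⟩ := Cfsg.Agent.Lib.SympGen.witt_family ![u, v] ![u', v'] (hli u v h) (hli u' v' h')
    (by
      intro i j
      fin_cases i <;> fin_cases j
      · show Cfsg.sympForm m F u u = Cfsg.sympForm m F u' u'
        rw [sympForm_self, sympForm_self]
      · show Cfsg.sympForm m F u v = Cfsg.sympForm m F u' v'
        rw [h, h']
      · show Cfsg.sympForm m F v u = Cfsg.sympForm m F v' u'
        rw [sympForm_swap, h, sympForm_swap v' u', h']
      · show Cfsg.sympForm m F v v = Cfsg.sympForm m F v' v'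
        rw [sympForm_self, sympForm_self])
  exact ⟨A, trivial, hA 0, hA 1⟩

end Cfsg.Agent.S0766
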