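import Cfsg.Statements.S0768
import Cfsg.Agent.Lib.SympGen

set_option autoImplicit false
open scoped LinearAlgebra.Projectivization
open Cfsg

namespace Cfsg.Agent.S0768

open Cfsg.Agent.Lib.SympMat
open scoped Pointwise

variable {F : Type*} [Field F] {m : ℕ}

/-- an element of `spGL` from a symplectic matrix -/
lemma exists_gl (A : Matrix.symplecticGroup (Fin m) F) :
    ∃ g : ↥(Cfsg.spGL m F), ∀ v : Fin m ⊕ Fin m → F, g • v = (A : Matrix (Fin m ⊕ Fin m) (Fin m ⊕ Fin m) F).mulVec v := by
  have hdet : IsUnit (A : Matrix (Fin m ⊕ Fin m) (Fin m ⊕ Fin m) F).det := SymplecticGroup.symplectic_det A.2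
  refine ⟨⟨Matrix.GeneralLinearGroup.mk'' _ hdet, ?_⟩, fun v => rfl⟩
  intro u v
  exact mem_iff.1 A.2 u v

lemma move2 {u v u' v' : Fin m ⊕ Fin m → F} (h : LinearIndependent F ![u, v]) (h' : LinearIndependent F ![u', v'])
    (hf : sympForm m F u v = sympForm m F u' v') : ∃ g : ↥(Cfsg.spGL m F), g • u = u' ∧ g • v = v' := by
  obtain ⟨A, hA⟩ := Cfsg.Agent.Lib.SympGen.witt_family ![u, v] ![u', v'] h h'
    (by
      intro i j
      fin_cases i <;> fin_cases j
      · show Cfsg.sympForm m F u u = Cfsg.sympForm m F u' u'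
        rw [sympForm_self, sympForm_self]
      · exact hf
      · show Cfsg.sympForm m F v u = Cfsg.sympForm m F v' u'
        rw [sympForm_swap, hf, sympForm_swap v' u']
      · show Cfsg.sympForm m F v v = Cfsg.sympForm m F v' v'
        rw [sympForm_self, sympForm_self])
  obtain ⟨g, hg⟩ := exists_gl A
  exact ⟨g, by rw [hg]; exact hA 0, by rw [hg]; exact hA 1⟩

lemma move1 {u u' : Fin m ⊕ Fin m → F} (h : u ≠ 0) (h' : u' ≠ 0) : ∃ g : ↥(Cfsg.spGL m F), g • u = u' := by
  obtain ⟨A, hA⟩ := Cfsg.Agent.Lib.SympGen.witt_family (fun _ : Fin 1 => u) (fun _ : Fin 1 => u')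
    (LinearIndependent.of_subsingleton 0 h) (LinearIndependent.of_subsingleton 0 h')
    (by intro i j; rw [sympForm_self, sympForm_self])
  obtain ⟨g, hg⟩ := exists_gl A
  exact ⟨g, by rw [hg]; exact hA 0⟩

lemma exists_two {u v : Fin m ⊕ Fin m → F} (hu : u ≠ 0) (hv : v ≠ 0) :
    ∃ w, sympForm m F u w ≠ 0 ∧ sympForm m F v w ≠ 0 := by
  obtain ⟨w, _, h1, h2⟩ := Cfsg.Agent.Lib.WittAlt.exists_both (B_nondegenerate (m := m) (F := F)) ⊥
    (x := u) (y := v) (by simpa using hu) (by simpa using hv)
  exact ⟨w, h1, h2⟩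

/-- Primitivity: for m ≥ 1 and F finite, the symplectic group of the form sympForm (as a subgroup of the general linear group) acts primitively on the projective space of F^(2m). -/
theorem result {F : Type*} [Field F] [Finite F] (m : ℕ) (hm : 1 ≤ m) : MulAction.IsPreprimitive ↥(Cfsg.spGL m F) (ℙ F (Fin m ⊕ Fin m → F)) := by
  have htrans : MulAction.IsPretransitive ↥(Cfsg.spGL m F) (ℙ F (Fin m ⊕ Fin m → F)) := by
    refine ⟨fun x y => ?_⟩
    induction x using Projectivization.ind with
    | h u hu =>
      induction y using Projectivization.ind with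
      | h v hv =>
        obtain ⟨g, hg⟩ := move1 hu hv
        refine ⟨g, ?_⟩
        have h1 : g • Projectivization.mk F u hu = Projectivization.mk F (g • u) ((smul_ne_zero_iff_ne g).mpr hu) := rfl
        rw [h1]
        congr 1
  refine ⟨fun {B} hB => ?_⟩
  by_cases hsub : B.Subsingleton
  · exact Or.inl hsub
  right
  rw [Set.not_subsingleton_iff] at hsub
  obtain ⟨x, hx, y, hy, hxy⟩ := hsub
  -- translate block membership to vectors
  let M : (Fin m ⊕ Fin m → F) → Prop := fun u => ∃ hu : u ≠ 0, Projectivization.mk F u hu ∈ B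
  have hne : ∀ u, M u → u ≠ 0 := fun u hu => hu.1
  have hscale : ∀ (u : Fin m ⊕ Fin m → F) (c : F), c ≠ 0 → M (c • u) → M u := by
    rintro u c hc ⟨hu, hB'⟩
    have hu' : u ≠ 0 := by rintro rfl; simp at hu
    refine ⟨hu', ?_⟩
    have : Projectivization.mk F (c • u) hu = Projectivization.mk F u hu' := by
      rw [Projectivization.mk_eq_mk_iff']
      exact ⟨c, rfl⟩
    rwa [this] at hB'
  -- block property
  have hblock : ∀ (g : ↥(Cfsg.spGL m F)) (u v : Fin m ⊕ Fin m → F), M u → M (g • u) → M v → M (g • v) := by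
    rintro g u v ⟨hu, hu'⟩ ⟨hgu, hgu'⟩ ⟨hv, hv'⟩
    have hgB : g • B = B := by
      apply hB.smul_eq_of_nonempty
      refine ⟨Projectivization.mk F (g • u) hgu, ⟨Projectivization.mk F u hu, hu', ?_⟩, hgu'⟩
      exact Projectivization.smul_mk g hu
    refine ⟨(smul_ne_zero_iff_ne g).mpr hv, ?_⟩
    have h1 : g • Projectivization.mk F v hv = Projectivization.mk F (g • v) ((smul_ne_zero_iff_ne g).mpr hv) := rfl
    rw [← h1, ← hgB]
    exact Set.smul_mem_smul_set hv'
  obtain ⟨p, hp0, rfl⟩ : ∃ (u : Fin m ⊕ Fin m → F) (hu : u ≠ 0), x = Projectivization.mk F u hu := by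
    induction x using Projectivization.ind with
    | h u hu => exact ⟨u, hu, rfl⟩
  obtain ⟨q, hq0, rfl⟩ : ∃ (u : Fin m ⊕ Fin m → F) (hu : u ≠ 0), y = Projectivization.mk F u hu := by
    induction y using Projectivization.ind with
    | h u hu => exact ⟨u, hu, rfl⟩
  have hMp : M p := ⟨hp0, hx⟩
  have hMq : M q := ⟨hq0, hy⟩
  have hli : ∀ u v : Fin m ⊕ Fin m → F, u ≠ 0 → v ≠ 0 → (¬ ∃ c : F, c ≠ 0 ∧ c • v = u) → LinearIndependent F ![u, v] := by
    intro u v hu hv h
    rw [LinearIndependent.pair_iff]
    intro s t hst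
    by_cases hs : s = 0
    · subst hs
      rw [zero_smul, zero_add] at hst
      exact ⟨rfl, (smul_eq_zero.1 hst).resolve_right hv⟩
    · exfalso
      apply h
      have ht : t ≠ 0 := by
        rintro rfl
        rw [zero_smul, add_zero] at hst
        exact hu ((smul_eq_zero.1 hst).resolve_left hs)
      refine ⟨-(t / s), neg_ne_zero.2 (div_ne_zero ht hs), ?_⟩
      have h1 : s • u = -(t • v) := eq_neg_of_add_eq_zero_left hst
      have h2 : u = s⁻¹ • (-(t • v)) := by rw [← h1, smul_smul, inv_mul_cancel₀ hs, one_smul]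
      rw [h2, smul_neg, smul_smul, neg_smul, div_eq_inv_mul]
  have hpq : LinearIndependent F ![p, q] := by
    apply hli p q hp0 hq0
    rintro ⟨c, hc, hcv⟩
    apply hxy
    rw [Projectivization.mk_eq_mk_iff']
    exact ⟨c, hcv⟩
  -- it suffices to show that all nonzero vectors are in M
  suffices hall : ∀ r : Fin m ⊕ Fin m → F, r ≠ 0 → M r by
    rw [Set.eq_univ_iff_forall]
    intro z
    induction z using Projectivization.ind with
    | h u hu => exact (hall u hu).2
  intro r hr
  by_cases hf : sympForm m F p q = 0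
  · -- perpendicular pair in the block
    have hstep : ∀ b r : Fin m ⊕ Fin m → F, M b → r ≠ 0 → sympForm m F b r = 0 → M r := by
      intro b r hb hr hbr
      by_cases hprop : ∃ c : F, c ≠ 0 ∧ c • r = b
      · obtain ⟨c, hc, hcr⟩ := hprop
        exact hscale r c hc (by rw [hcr]; exact hb)
      · obtain ⟨g, hg1, hg2⟩ := move2 hpq (hli b r (hne b hb) hr hprop) (by rw [hf, hbr])
        have := hblock g p q hMp (by rw [hg1]; exact hb) hMq
        rwa [hg2] at this
    -- common perpendicular vector
    have hcommon : ∃ b : Fin m ⊕ Fin m → F, b ≠ 0 ∧ sympForm m F p b = 0 ∧ sympForm m F b r = 0 := by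
      by_cases hpr : sympForm m F p r = 0
      · exact ⟨r, hr, hpr, sympForm_self r⟩
      · -- use q adjusted
        refine ⟨q - (sympForm m F q r / sympForm m F p r) • p, ?_, ?_, ?_⟩
        · intro h0
          rw [LinearIndependent.pair_iff] at hpq
          have := hpq (-(sympForm m F q r / sympForm m F p r)) 1 (by
            rw [one_smul, neg_smul, add_comm, ← sub_eq_add_neg]; exact h0)
          exact one_ne_zero this.2
        · rw [sub_eq_add_neg, ← neg_smul, sympForm_add_right, sympForm_smul_right, hf, sympForm_self]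
          simp
        · rw [sub_eq_add_neg, ← neg_smul, sympForm_add_left, sympForm_smul_left]
          field_simp
          ring
    obtain ⟨b, hb0, hb1, hb2⟩ := hcommon
    exact hstep b r (hstep p b hMp hb0 hb1) hr hb2
  · have hstep : ∀ b r : Fin m ⊕ Fin m → F, M b → sympForm m F b r ≠ 0 → M r := by
      intro b r hb hbr
      set c := sympForm m F p q / sympForm m F b r with hc
      have hc0 : c ≠ 0 := div_ne_zero hf hbr
      have hr : r ≠ 0 := by
        rintro rfl
        apply hbr
        simp [sympForm_def]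
      have hbcr : sympForm m F b (c • r) = sympForm m F p q := by
        rw [sympForm_smul_right, hc, div_mul_cancel₀ _ hbr]
      have hli' : LinearIndependent F ![b, c • r] := by
        apply hli b (c • r) (hne b hb) (smul_ne_zero hc0 hr)
        rintro ⟨e, he, heq⟩
        apply hf
        rw [← hbcr]
        nth_rewrite 1 [← heq]
        rw [sympForm_smul_left, sympForm_self, mul_zero]
      obtain ⟨g, hg1, hg2⟩ := move2 hpq hli' hbcr.symm
      have := hblock g p q hMp (by rw [hg1]; exact hb) hMq
      rw [hg2] at this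
      exact hscale r c hc0 this
    obtain ⟨w, hw1, hw2⟩ := exists_two hp0 hr
    apply hstep w r (hstep p w hMp hw1)
    rw [sympForm_swap]
    exact neg_ne_zero.2 hw2

end Cfsg.Agent.S0768
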