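import Cfsg.Statements.S0769

set_option autoImplicit false
open Cfsg

namespace Cfsg.Agent.S0769

open Matrix

variable {F : Type*} [Field F]

lemma card_pairs (n : ℕ) : Fintype.card {p : Fin n × Fin n // p.2 < p.1} = n * (n - 1) / 2 := by
  classical
  have e : {p : Fin n × Fin n // p.2 < p.1} ≃ (Σ i : Fin n, Fin (i : ℕ)) :=
    { toFun := fun p => ⟨p.1.1, ⟨(p.1.2 : ℕ), p.2⟩⟩
      invFun := fun s => ⟨(s.1, ⟨(s.2 : ℕ), s.2.2.trans s.1.2⟩), s.2.2⟩
      left_inv := fun p => rfl
      right_inv := fun s => rfl }
  rw [Fintype.card_congr e, Fintype.card_sigma]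
  simp only [Fintype.card_fin]
  rw [Fin.sum_univ_eq_sum_range (fun i => i) n, Finset.sum_range_id]

/-- matrix with given lower-triangular data -/
def mk (n : ℕ) (d : Fin n → Fˣ) (l : {p : Fin n × Fin n // p.2 < p.1} → F) : Matrix (Fin n) (Fin n) F :=
  Matrix.of fun i j => if h : j < i then l ⟨(i, j), h⟩ else if i = j then (d i : F) else 0

lemma mk_det (n : ℕ) (d : Fin n → Fˣ) (l : {p : Fin n × Fin n // p.2 < p.1} → F) :
    (mk n d l).det = ∏ i, (d i : F) := by
  rw [Matrix.det_of_lowerTriangular]
  · refine Finset.prod_congr rfl fun i _ => ?_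
    simp [mk]
  · intro i j hij
    have h1 : i < j := hij
    simp only [mk, of_apply]
    rw [dif_neg (not_lt.2 h1.le), if_neg h1.ne]

/-- Order of the Borel subgroup of GL_n(q): the invertible lower-triangular n × n matrices over a field with q elements number q^(n(n-1)/2) (q-1)^n (unitriangular part times the diagonal torus). -/
theorem result {F : Type*} [Field F] [Fintype F] {q : ℕ} (hF : Fintype.card F = q) (n : ℕ) : Nat.card {g : Matrix.GeneralLinearGroup (Fin n) F // ∀ i j : Fin n, i < j → (g : Matrix (Fin n) (Fin n) F) i j = 0} = q ^ (n * (n - 1) / 2) * (q - 1) ^ n := by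
  classical
  have hdet : ∀ (g : {g : Matrix.GeneralLinearGroup (Fin n) F // ∀ i j : Fin n, i < j → (g : Matrix (Fin n) (Fin n) F) i j = 0}) (i : Fin n), (g.1 : Matrix (Fin n) (Fin n) F) i i ≠ 0 := by
    intro g i h0
    have h1 : (g.1 : Matrix (Fin n) (Fin n) F).det = ∏ i, (g.1 : Matrix (Fin n) (Fin n) F) i i := by
      apply Matrix.det_of_lowerTriangular
      intro i j hij
      exact g.2 i j hij
    have h2 : IsUnit (g.1 : Matrix (Fin n) (Fin n) F).det := (Matrix.isUnit_iff_isUnit_det _).1 g.1.isUnit
    rw [h1] at h2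
    exact h2.ne_zero (Finset.prod_eq_zero (Finset.mem_univ i) h0)
  have e : {g : Matrix.GeneralLinearGroup (Fin n) F // ∀ i j : Fin n, i < j → (g : Matrix (Fin n) (Fin n) F) i j = 0} ≃
      (Fin n → Fˣ) × ({p : Fin n × Fin n // p.2 < p.1} → F) :=
    { toFun := fun g => (fun i => Units.mk0 _ (hdet g i), fun p => (g.1 : Matrix (Fin n) (Fin n) F) p.1.1 p.1.2)
      invFun := fun dl => ⟨Matrix.GeneralLinearGroup.mkOfDetNeZero (mk n dl.1 dl.2) (by
          rw [mk_det]
          exact Finset.prod_ne_zero_iff.2 fun i _ => (dl.1 i).ne_zero), by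
          intro i j hij
          show mk n dl.1 dl.2 i j = 0
          simp only [mk, of_apply]
          rw [dif_neg (not_lt.2 hij.le), if_neg hij.ne]⟩
      left_inv := by
        intro g
        apply Subtype.ext
        apply Units.ext
        show mk n _ _ = (g.1 : Matrix (Fin n) (Fin n) F)
        ext i j
        simp only [mk, of_apply]
        by_cases h : j < i
        · rw [dif_pos h]
        · rw [dif_neg h]
          by_cases h2 : i = j
          · rw [if_pos h2]
            subst h2
            rfl
          · rw [if_neg h2]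
            exact (g.2 i j (lt_of_le_of_ne (not_lt.1 h) h2)).symm
      right_inv := by
        intro dl
        apply Prod.ext
        · funext i
          apply Units.ext
          show mk n dl.1 dl.2 i i = _
          simp [mk]
        · funext p
          show mk n dl.1 dl.2 p.1.1 p.1.2 = _
          simp only [mk, of_apply]
          rw [dif_pos p.2] }
  rw [Nat.card_congr e, Nat.card_prod, Nat.card_fun, Nat.card_fun, Nat.card_eq_fintype_card (α := Fˣ),
    Nat.card_eq_fintype_card (α := F), Nat.card_eq_fintype_card (α := Fin n), Fintype.card_units,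
    Nat.card_eq_fintype_card, card_pairs, Fintype.card_fin, hF, mul_comm]

end Cfsg.Agent.S0769
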