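import Cfsg.Statements.S0770

set_option autoImplicit false
open Cfsg

namespace Cfsg.Agent.S0770

open Matrix

variable {F : Type*} [Field F]

/-- diagonal element of GL -/
abbrev dg {n : ℕ} (d : (Fin n → F)ˣ) : Matrix.GeneralLinearGroup (Fin n) F :=
  Units.map (Matrix.diagonalRingHom (Fin n) F).toMonoidHom d

lemma coe_dg {n : ℕ} (d : (Fin n → F)ˣ) :
    ((dg d : Matrix.GeneralLinearGroup (Fin n) F) : Matrix (Fin n) (Fin n) F) = diagonal (d : Fin n → F) := rfl

lemma ne_zero {n : ℕ} (d : (Fin n → F)ˣ) (i : Fin n) : (d : Fin n → F) i ≠ 0 := by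
  have := congrFun (d.mul_inv) i
  intro h
  rw [Pi.mul_apply, h, zero_mul] at this
  exact zero_ne_one this

/-- For a field with at least 3 elements, an invertible matrix normalises the subgroup of invertible diagonal matrices of GL_n if and only if it is monomial (exactly one non-zero entry in each row). -/
theorem result {F : Type*} [Field F] (hF : ∃ a : F, a ≠ 0 ∧ a ≠ 1) (n : ℕ) (g : Matrix.GeneralLinearGroup (Fin n) F) : g ∈ Subgroup.normalizer ((Units.map (Matrix.diagonalRingHom (Fin n) F).toMonoidHom).range : Subgroup (Matrix.GeneralLinearGroup (Fin n) F)) ↔ ∀ i : Fin n, ∃! j : Fin n, (g : Matrix (Fin n) (Fin n) F) i j ≠ 0 := by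
  classical
  constructor
  · intro hg i
    have hex : ∃ j, (g : Matrix (Fin n) (Fin n) F) i j ≠ 0 := by
      by_contra h
      push Not at h
      have h1 : (g : Matrix (Fin n) (Fin n) F).det = 0 := det_eq_zero_of_row_eq_zero i h
      exact ((Matrix.isUnit_iff_isUnit_det _).1 g.isUnit).ne_zero h1
    obtain ⟨j, hj⟩ := hex
    refine ⟨j, hj, fun j' hj' => ?_⟩
    by_contra hne
    obtain ⟨a, ha0, ha1⟩ := hF
    let d : (Fin n → F)ˣ := MulEquiv.piUnits.symm (fun k => if k = j then Units.mk0 a ha0 else 1)
    have hd : ∀ k, (d : Fin n → F) k = if k = j then a else 1 := by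
      intro k
      show ((if k = j then Units.mk0 a ha0 else 1 : Fˣ) : F) = _
      split_ifs <;> rfl
    have h1 : g * dg d * g⁻¹ ∈ ((Units.map (Matrix.diagonalRingHom (Fin n) F).toMonoidHom).range : Subgroup (Matrix.GeneralLinearGroup (Fin n) F)) :=
      (Subgroup.mem_normalizer_iff.1 hg (dg d)).1 ⟨d, rfl⟩
    obtain ⟨d', hd'⟩ := h1
    have h2 : dg d' * g = g * dg d := by
      rw [show dg d' = g * dg d * g⁻¹ from hd']; group
    have h3 : ∀ k, (d' : Fin n → F) i * (g : Matrix (Fin n) (Fin n) F) i k
        = (g : Matrix (Fin n) (Fin n) F) i k * (d : Fin n → F) k := by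
      intro k
      have h4 := congrArg (fun x : Matrix.GeneralLinearGroup (Fin n) F => (x : Matrix (Fin n) (Fin n) F) i k) h2
      simp only [Units.val_mul, coe_dg, diagonal_mul, mul_diagonal] at h4
      exact h4
    have h5 := h3 j
    have h6 := h3 j'
    rw [hd, if_pos rfl, mul_comm] at h5
    rw [hd, if_neg hne, mul_comm] at h6
    exact ha1 ((mul_left_cancel₀ hj h5).symm.trans (mul_left_cancel₀ hj' h6))
  · intro h
    choose σ hσ hσu using h
    have hz : ∀ i j, j ≠ σ i → (g : Matrix (Fin n) (Fin n) F) i j = 0 := by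
      intro i j hj
      by_contra h0
      exact hj (hσu i j h0)
    have hinj : Function.Injective σ := by
      intro i i' hii
      by_contra hne
      have h1 : LinearIndependent F (g : Matrix (Fin n) (Fin n) F).row :=
        Matrix.linearIndependent_rows_iff_isUnit.2 g.isUnit
      have h2 := (linearIndependent_iff'.1 h1) {i, i'}
        (fun k => if k = i then (g : Matrix (Fin n) (Fin n) F) i' (σ i') else
          - (g : Matrix (Fin n) (Fin n) F) i (σ i)) ?_ i (by simp)
      · simp only [if_true] at h2
        exact hσ i' h2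
      · rw [Finset.sum_pair hne, if_pos rfl, if_neg (Ne.symm hne)]
        funext k
        simp only [Pi.add_apply, Pi.smul_apply, smul_eq_mul, Pi.zero_apply, Matrix.row_apply]
        by_cases hk : k = σ i
        · subst hk
          rw [← hii]; ring
        · rw [hz i k hk, hz i' k (by rwa [← hii])]; ring
    have hbij : Function.Bijective σ := Finite.injective_iff_bijective.1 hinj
    let τ := Equiv.ofBijective σ hbij
    have hτ : ∀ i, τ i = σ i := fun i => rfl
    have key : ∀ d d' : (Fin n → F)ˣ, (∀ i, (d' : Fin n → F) i = (d : Fin n → F) (σ i)) →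
        dg d' * g = g * dg d := by
      intro d d' hdd
      apply Units.ext
      ext i j
      simp only [Units.val_mul, coe_dg, diagonal_mul, mul_diagonal]
      by_cases hj : j = σ i
      · subst hj
        rw [hdd, mul_comm]
      · rw [hz i j hj, mul_zero, zero_mul]
    rw [Subgroup.mem_normalizer_iff]
    intro x
    constructor
    · rintro ⟨d, rfl⟩
      refine ⟨MulEquiv.piUnits.symm (fun i => Units.mk0 _ (ne_zero d (σ i))), ?_⟩
      have := key d (MulEquiv.piUnits.symm (fun i => Units.mk0 _ (ne_zero d (σ i)))) (fun i => rfl)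
      rw [eq_mul_inv_iff_mul_eq]
      exact this
    · rintro ⟨d', hd'⟩
      refine ⟨MulEquiv.piUnits.symm (fun i => Units.mk0 _ (ne_zero d' (τ.symm i))), ?_⟩
      have := key (MulEquiv.piUnits.symm (fun i => Units.mk0 _ (ne_zero d' (τ.symm i)))) d' (fun i => by
        show _ = (d' : Fin n → F) (τ.symm (σ i))
        rw [← hτ, τ.symm_apply_apply])
      have h3 : dg d' = g * x * g⁻¹ := hd'
      rw [h3, inv_mul_cancel_right] at this
      exact (mul_left_cancel this).symm

end Cfsg.Agent.S0770
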