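import Cfsg.Statements.S0771

set_option autoImplicit false
open Cfsg

namespace Cfsg.Agent.S0771

open Matrix

variable {F : Type*} [Field F]

lemma mem_iff {n k : ℕ} (g : Matrix.GeneralLinearGroup (Fin n) F) :
    g ∈ Cfsg.stabilizing (Cfsg.glToMat (Fin n) F) {v : Fin n → F | ∀ i : Fin n, k ≤ (i : ℕ) → v i = 0} ↔
      ∀ v : Fin n → F, (∀ i : Fin n, k ≤ (i : ℕ) → v i = 0) ↔
        (∀ i : Fin n, k ≤ (i : ℕ) → ((g : Matrix (Fin n) (Fin n) F) *ᵥ v) i = 0) := Iff.rfl

/-- the subspace of vectors supported on the first summand -/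
def W (a b : ℕ) : Submodule F (Fin a ⊕ Fin b → F) where
  carrier := {v | ∀ i, v (Sum.inr i) = 0}
  add_mem' := fun {u v} hu hv i => by
    have h1 : u (Sum.inr i) = 0 := hu i
    have h2 : v (Sum.inr i) = 0 := hv i
    rw [Pi.add_apply, h1, h2, add_zero]
  zero_mem' := fun i => rfl
  smul_mem' := fun c v hv i => by
    have h1 : v (Sum.inr i) = 0 := hv i
    rw [Pi.smul_apply, h1, smul_zero]

/-- block description -/
noncomputable def blockEquiv (a b : ℕ) :
    {A : Matrix (Fin a ⊕ Fin b) (Fin a ⊕ Fin b) F // IsUnit A ∧ A.toBlocks₂₁ = 0} ≃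
      (Matrix.GeneralLinearGroup (Fin a) F × Matrix.GeneralLinearGroup (Fin b) F) × Matrix (Fin a) (Fin b) F where
  toFun A := ((Matrix.GeneralLinearGroup.mkOfDetNeZero A.1.toBlocks₁₁ (by
      intro h0
      have h1 : A.1 = fromBlocks A.1.toBlocks₁₁ A.1.toBlocks₁₂ 0 A.1.toBlocks₂₂ := by
        conv_lhs => rw [← fromBlocks_toBlocks A.1, A.2.2]
      have h2 := ((Matrix.isUnit_iff_isUnit_det _).1 A.2.1).ne_zero
      rw [h1, det_fromBlocks_zero₂₁, h0, zero_mul] at h2
      exact h2 rfl),
    Matrix.GeneralLinearGroup.mkOfDetNeZero A.1.toBlocks₂₂ (by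
      intro h0
      have h1 : A.1 = fromBlocks A.1.toBlocks₁₁ A.1.toBlocks₁₂ 0 A.1.toBlocks₂₂ := by
        conv_lhs => rw [← fromBlocks_toBlocks A.1, A.2.2]
      have h2 := ((Matrix.isUnit_iff_isUnit_det _).1 A.2.1).ne_zero
      rw [h1, det_fromBlocks_zero₂₁, h0, mul_zero] at h2
      exact h2 rfl)), A.1.toBlocks₁₂)
  invFun x := ⟨fromBlocks (x.1.1 : Matrix (Fin a) (Fin a) F) x.2 0 (x.1.2 : Matrix (Fin b) (Fin b) F), by
    constructor
    · rw [Matrix.isUnit_iff_isUnit_det, det_fromBlocks_zero₂₁]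
      exact ((Matrix.isUnit_iff_isUnit_det _).1 x.1.1.isUnit).mul ((Matrix.isUnit_iff_isUnit_det _).1 x.1.2.isUnit)
    · exact toBlocks_fromBlocks₂₁ _ _ _ _⟩
  left_inv A := by
    apply Subtype.ext
    show fromBlocks A.1.toBlocks₁₁ A.1.toBlocks₁₂ 0 A.1.toBlocks₂₂ = A.1
    conv_rhs => rw [← fromBlocks_toBlocks A.1, A.2.2]
  right_inv x := by
    apply Prod.ext
    · apply Prod.ext
      · apply Units.ext
        exact toBlocks_fromBlocks₁₁ _ _ _ _
      · apply Units.ext
        exact toBlocks_fromBlocks₂₂ _ _ _ _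
    · exact toBlocks_fromBlocks₁₂ _ _ _ _

/-- Maximal parabolic of GL_n(q): the stabiliser of the coordinate subspace spanned by the first k basis vectors has order q^(k(n-k)) · |GL_k(q)| · |GL_(n-k)(q)| (unipotent radical of order q^(k(n-k)) and Levi complement GL_k × GL_(n-k)). -/
theorem result {F : Type*} [Field F] [Fintype F] {q : ℕ} (hF : Fintype.card F = q) (n k : ℕ) (hk : k ≤ n) : Nat.card ↥(Cfsg.stabilizing (Cfsg.glToMat (Fin n) F) {v : Fin n → F | ∀ i : Fin n, k ≤ (i : ℕ) → v i = 0}) = q ^ (k * (n - k)) * (∏ i : Fin k, (q ^ k - q ^ (i : ℕ))) * ∏ i : Fin (n - k), (q ^ (n - k) - q ^ (i : ℕ)) := by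
  classical
  obtain ⟨l, rfl⟩ := Nat.exists_eq_add_of_le hk
  rw [Nat.add_sub_cancel_left]
  let f : Fin k ⊕ Fin l ≃ Fin (k + l) := finSumFinEquiv
  have hfl : ∀ i : Fin k, ((f (Sum.inl i) : Fin (k + l)) : ℕ) = i := fun i => rfl
  have hfr : ∀ i : Fin l, ((f (Sum.inr i) : Fin (k + l)) : ℕ) = k + i := fun i => rfl
  -- membership
  have hmem : ∀ g : Matrix.GeneralLinearGroup (Fin (k + l)) F,
      g ∈ Cfsg.stabilizing (Cfsg.glToMat (Fin (k + l)) F) {v : Fin (k + l) → F | ∀ i : Fin (k + l), k ≤ (i : ℕ) → v i = 0} ↔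
      ((g : Matrix (Fin (k + l)) (Fin (k + l)) F).submatrix f f).toBlocks₂₁ = 0 := by
    intro g
    constructor
    · intro hg
      ext i j
      rw [Matrix.zero_apply]
      show (g : Matrix (Fin (k + l)) (Fin (k + l)) F) (f (Sum.inr i)) (f (Sum.inl j)) = 0
      have h1 := ((mem_iff g).1 hg (Pi.single (f (Sum.inl j)) 1)).1 ?_ (f (Sum.inr i)) (by rw [hfr]; omega)
      · rw [Matrix.mulVec_single_one] at h1
        exact h1
      · intro i' hi'
        rw [Pi.single_apply, if_neg]
        rintro rfl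
        rw [hfl] at hi'
        exact absurd j.2 (by omega)
    · intro h0
      -- the subspace is mapped into itself
      let W : Submodule F (Fin (k + l) → F) :=
        { carrier := {v | ∀ i : Fin (k + l), k ≤ (i : ℕ) → v i = 0}
          add_mem' := fun {u v} hu hv i hi => by
            have h1 : u i = 0 := hu i hi
            have h2 : v i = 0 := hv i hi
            rw [Pi.add_apply, h1, h2, add_zero]
          zero_mem' := fun i _ => rfl
          smul_mem' := fun c v hv i hi => by
            have h1 : v i = 0 := hv i hi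
            rw [Pi.smul_apply, h1, smul_zero] }
      let e : (Fin (k + l) → F) ≃ₗ[F] (Fin (k + l) → F) :=
        { Matrix.mulVecLin (g : Matrix (Fin (k + l)) (Fin (k + l)) F) with
          invFun := fun v => ((g⁻¹ : Matrix.GeneralLinearGroup (Fin (k + l)) F) : Matrix (Fin (k + l)) (Fin (k + l)) F) *ᵥ v
          left_inv := fun v => by
            show ((g⁻¹ : Matrix.GeneralLinearGroup (Fin (k + l)) F) : Matrix (Fin (k + l)) (Fin (k + l)) F) *ᵥ ((g : Matrix (Fin (k + l)) (Fin (k + l)) F) *ᵥ v) = v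
            rw [Matrix.mulVec_mulVec, ← Units.val_mul, inv_mul_cancel, Units.val_one, Matrix.one_mulVec]
          right_inv := fun v => by
            show (g : Matrix (Fin (k + l)) (Fin (k + l)) F) *ᵥ (((g⁻¹ : Matrix.GeneralLinearGroup (Fin (k + l)) F) : Matrix (Fin (k + l)) (Fin (k + l)) F) *ᵥ v) = v
            rw [Matrix.mulVec_mulVec, ← Units.val_mul, mul_inv_cancel, Units.val_one, Matrix.one_mulVec] }
      have he : ∀ v, e v = (g : Matrix (Fin (k + l)) (Fin (k + l)) F) *ᵥ v := fun v => rfl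
      have h1 : W.map e.toLinearMap ≤ W := by
        rintro _ ⟨v, hv, rfl⟩ i hi
        show ((g : Matrix (Fin (k + l)) (Fin (k + l)) F) *ᵥ v) i = 0
        rw [Matrix.mulVec, dotProduct]
        refine Finset.sum_eq_zero fun j _ => ?_
        by_cases hj : k ≤ (j : ℕ)
        · rw [show v j = 0 from hv j hj, mul_zero]
        · have h3 : (g : Matrix (Fin (k + l)) (Fin (k + l)) F) i j = 0 := by
            obtain ⟨i', rfl⟩ := f.surjective i
            obtain ⟨j', rfl⟩ := f.surjective j
            rcases i' with i' | i'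
            · rw [hfl] at hi
              exact absurd i'.2 (by omega)
            · rcases j' with j' | j'
              · exact congrFun (congrFun h0 i') j'
              · rw [hfr] at hj
                exact absurd hj (by omega)
          rw [h3, zero_mul]
      have h2 : W.map e.toLinearMap = W :=
        Submodule.eq_of_le_of_finrank_eq h1 (LinearEquiv.finrank_map_eq e W)
      rw [mem_iff]
      intro v
      constructor
      · intro hv
        exact h1 ⟨v, hv, rfl⟩
      · intro hv
        have h3 : e v ∈ W.map e.toLinearMap := by rw [h2]; exact hv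
        obtain ⟨w, hw, hwv⟩ := h3
        have : w = v := e.injective hwv
        rw [← this]
        exact hw
  have e1 : ↥(Cfsg.stabilizing (Cfsg.glToMat (Fin (k + l)) F) {v : Fin (k + l) → F | ∀ i : Fin (k + l), k ≤ (i : ℕ) → v i = 0}) ≃
      {A : Matrix (Fin k ⊕ Fin l) (Fin k ⊕ Fin l) F // IsUnit A ∧ A.toBlocks₂₁ = 0} :=
    { toFun := fun g => ⟨(g.1 : Matrix (Fin (k + l)) (Fin (k + l)) F).submatrix f f, by
          rw [Matrix.isUnit_submatrix_equiv]
          exact g.1.isUnit, (hmem g.1).1 g.2⟩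
      invFun := fun A => ⟨((Matrix.isUnit_submatrix_equiv (A := A.1) f.symm f.symm).2 A.2.1).unit, by
          rw [hmem, IsUnit.unit_spec, Matrix.submatrix_submatrix, Equiv.symm_comp_self, Matrix.submatrix_id_id]
          exact A.2.2⟩
      left_inv := fun g => by
        apply Subtype.ext
        apply Units.ext
        show ((g.1 : Matrix (Fin (k + l)) (Fin (k + l)) F).submatrix f f).submatrix f.symm f.symm = (g.1 : Matrix (Fin (k + l)) (Fin (k + l)) F)
        rw [Matrix.submatrix_submatrix, Equiv.self_comp_symm, Matrix.submatrix_id_id]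
      right_inv := fun A => by
        apply Subtype.ext
        show (A.1.submatrix f.symm f.symm).submatrix f f = A.1
        rw [Matrix.submatrix_submatrix, Equiv.symm_comp_self, Matrix.submatrix_id_id] }
  rw [Nat.card_congr (e1.trans (blockEquiv k l)), Nat.card_prod, Nat.card_prod, Matrix.card_GL_field,
    Matrix.card_GL_field, hF, Nat.card_eq_fintype_card (α := Matrix (Fin k) (Fin l) F)]
  have : Fintype.card (Matrix (Fin k) (Fin l) F) = q ^ (k * l) := by
    rw [show Fintype.card (Matrix (Fin k) (Fin l) F) = Fintype.card (Fin k → Fin l → F) from rfl,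
      Fintype.card_fun, Fintype.card_fun, Fintype.card_fin, Fintype.card_fin, hF, ← pow_mul, mul_comm]
  rw [this]
  ring

end Cfsg.Agent.S0771
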