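import Cfsg.Statements.S0772

set_option autoImplicit false
open Cfsg

namespace Cfsg.Agent.S0772

open Matrix

variable {F : Type*} [Field F] {n : ℕ}

/-- the group element `1 + u φᵀ` -/
noncomputable def tr (u φ : Fin n → F) (h : 1 + φ ⬝ᵥ u ≠ 0) : Matrix.GeneralLinearGroup (Fin n) F :=
  Matrix.GeneralLinearGroup.mkOfDetNeZero (1 + vecMulVec u φ) (by
    rw [vecMulVec_eq Unit, det_one_add_replicateCol_mul_replicateRow]; exact h)

lemma coe_tr (u φ : Fin n → F) (h : 1 + φ ⬝ᵥ u ≠ 0) : ((tr u φ h : Matrix.GeneralLinearGroup (Fin n) F) :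
    Matrix (Fin n) (Fin n) F) = 1 + vecMulVec u φ := rfl

lemma tr_mulVec (u φ : Fin n → F) (h : 1 + φ ⬝ᵥ u ≠ 0) (x : Fin n → F) :
    ((tr u φ h : Matrix.GeneralLinearGroup (Fin n) F) : Matrix (Fin n) (Fin n) F) *ᵥ x = x + (φ ⬝ᵥ x) • u := by
  rw [coe_tr, add_mulVec, one_mulVec, vecMulVec_mulVec, op_smul_eq_smul]

lemma conj_tr (g : Matrix.GeneralLinearGroup (Fin n) F) (u φ : Fin n → F) (h : 1 + φ ⬝ᵥ u ≠ 0)
    (u' φ' : Fin n → F) (h' : 1 + φ' ⬝ᵥ u' ≠ 0) (hu : u' = (g : Matrix (Fin n) (Fin n) F) *ᵥ u)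
    (hφ : φ = φ' ᵥ* (g : Matrix (Fin n) (Fin n) F)) : g * tr u φ h * g⁻¹ = tr u' φ' h' := by
  rw [mul_inv_eq_iff_eq_mul]
  apply Units.ext
  rw [Units.val_mul, Units.val_mul, coe_tr, coe_tr, mul_add, add_mul, mul_one, one_mul, hu, hφ]
  congr 1
  rw [mul_vecMulVec, vecMulVec_mul]

abbrev P (k : ℕ) : Subgroup (Matrix.GeneralLinearGroup (Fin n) F) :=
  Cfsg.stabilizing (Cfsg.glToMat (Fin n) F) {v : Fin n → F | ∀ i : Fin n, k ≤ (i : ℕ) → v i = 0}

lemma mem_iff {k : ℕ} (g : Matrix.GeneralLinearGroup (Fin n) F) :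
    g ∈ P k ↔
      ∀ v : Fin n → F, (∀ i : Fin n, k ≤ (i : ℕ) → v i = 0) ↔
        (∀ i : Fin n, k ≤ (i : ℕ) → ((g : Matrix (Fin n) (Fin n) F) *ᵥ v) i = 0) := Iff.rfl

/-- a transvection with `φ` vanishing on W -/
lemma tr_mem_of_phi {k : ℕ} (u φ : Fin n → F) (h : 1 + φ ⬝ᵥ u ≠ 0)
    (hφ : ∀ i : Fin n, (i : ℕ) < k → φ i = 0) : tr u φ h ∈ P (n := n) (F := F) k := by
  have hz : ∀ x : Fin n → F, (∀ i : Fin n, k ≤ (i : ℕ) → x i = 0) → φ ⬝ᵥ x = 0 := by
    intro x hx
    rw [dotProduct]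
    refine Finset.sum_eq_zero fun i _ => ?_
    by_cases hi : k ≤ (i : ℕ)
    · rw [hx i hi, mul_zero]
    · rw [hφ i (not_le.1 hi), zero_mul]
  rw [mem_iff]
  intro v
  rw [tr_mulVec]
  constructor
  · intro hv
    rw [hz v hv, zero_smul, add_zero]
    exact hv
  · intro hv
    have h1 := hz _ hv
    rw [dotProduct_add, dotProduct_smul, smul_eq_mul] at h1
    have h2 : φ ⬝ᵥ v * (1 + φ ⬝ᵥ u) = 0 := by linear_combination h1
    have h3 := (mul_eq_zero.1 h2).resolve_right h
    rw [h3, zero_smul, add_zero] at hv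
    exact hv

lemma tr_mem_of_u {k : ℕ} (u φ : Fin n → F) (h : 1 + φ ⬝ᵥ u ≠ 0)
    (hu : ∀ i : Fin n, k ≤ (i : ℕ) → u i = 0) : tr u φ h ∈ P (n := n) (F := F) k := by
  rw [mem_iff]
  intro v
  rw [tr_mulVec]
  refine forall_congr' fun i => forall_congr' fun hi => ?_
  rw [Pi.add_apply, Pi.smul_apply, hu i hi, smul_zero, add_zero]

/-- transitivity of `P` outside `W` -/
lemma transitive {k : ℕ} (u u' : Fin n → F) (hu : ∃ i : Fin n, k ≤ (i : ℕ) ∧ u i ≠ 0)
    (hu' : ∃ i : Fin n, k ≤ (i : ℕ) ∧ u' i ≠ 0) :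
    ∃ g ∈ P (n := n) (F := F) k, (g : Matrix (Fin n) (Fin n) F) *ᵥ u = u' := by
  classical
  obtain ⟨φ, hφ, h1, h2⟩ : ∃ φ : Fin n → F, (∀ i : Fin n, (i : ℕ) < k → φ i = 0) ∧ φ ⬝ᵥ u ≠ 0 ∧ φ ⬝ᵥ u' ≠ 0 := by
    obtain ⟨i, hi, hui⟩ := hu
    obtain ⟨j, hj, huj⟩ := hu'
    by_cases h3 : u' i = 0
    · by_cases h4 : u j = 0
      · refine ⟨Pi.single i 1 + Pi.single j 1, ?_, ?_, ?_⟩
        · intro l hl
          rw [Pi.add_apply, Pi.single_apply, Pi.single_apply, if_neg, if_neg, add_zero]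
          · rintro rfl; omega
          · rintro rfl; omega
        · rw [add_dotProduct, single_one_dotProduct, single_one_dotProduct, h4, add_zero]
          exact hui
        · rw [add_dotProduct, single_one_dotProduct, single_one_dotProduct, h3, zero_add]
          exact huj
      · refine ⟨Pi.single j 1, ?_, ?_, ?_⟩
        · intro l hl
          rw [Pi.single_apply, if_neg]
          rintro rfl; omega
        · rw [single_one_dotProduct]; exact h4
        · rw [single_one_dotProduct]; exact huj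
    · refine ⟨Pi.single i 1, ?_, ?_, ?_⟩
      · intro l hl
        rw [Pi.single_apply, if_neg]
        rintro rfl; omega
      · rw [single_one_dotProduct]; exact hui
      · rw [single_one_dotProduct]; exact h3
  have h3 : 1 + ((φ ⬝ᵥ u)⁻¹ • φ) ⬝ᵥ (u' - u) ≠ 0 := by
    rw [smul_dotProduct, smul_eq_mul, dotProduct_sub, mul_sub, inv_mul_cancel₀ h1]
    have : (1 : F) + ((φ ⬝ᵥ u)⁻¹ * φ ⬝ᵥ u' - 1) = (φ ⬝ᵥ u)⁻¹ * φ ⬝ᵥ u' := by ring
    rw [this]
    exact mul_ne_zero (inv_ne_zero h1) h2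
  refine ⟨tr (u' - u) ((φ ⬝ᵥ u)⁻¹ • φ) h3, tr_mem_of_phi _ _ _ ?_, ?_⟩
  · intro i hi
    rw [Pi.smul_apply, hφ i hi, smul_zero]
  · rw [tr_mulVec, smul_dotProduct, smul_eq_mul, inv_mul_cancel₀ h1, one_smul, add_sub_cancel]

lemma inv_mulVec (g : Matrix.GeneralLinearGroup (Fin n) F) (v : Fin n → F) :
    ((g⁻¹ : Matrix.GeneralLinearGroup (Fin n) F) : Matrix (Fin n) (Fin n) F) *ᵥ ((g : Matrix (Fin n) (Fin n) F) *ᵥ v) = v := by
  rw [Matrix.mulVec_mulVec, ← Units.val_mul, inv_mul_cancel, Units.val_one, Matrix.one_mulVec]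

lemma mulVec_inv (g : Matrix.GeneralLinearGroup (Fin n) F) (v : Fin n → F) :
    (g : Matrix (Fin n) (Fin n) F) *ᵥ (((g⁻¹ : Matrix.GeneralLinearGroup (Fin n) F) : Matrix (Fin n) (Fin n) F) *ᵥ v) = v := by
  rw [Matrix.mulVec_mulVec, ← Units.val_mul, mul_inv_cancel, Units.val_one, Matrix.one_mulVec]

/-- some vector of W leaves W -/
lemma exists_out {k : ℕ} (g : Matrix.GeneralLinearGroup (Fin n) F) (hg : g ∉ P k) :
    ∃ w : Fin n → F, (∀ i : Fin n, k ≤ (i : ℕ) → w i = 0) ∧
      ∃ i : Fin n, k ≤ (i : ℕ) ∧ ((g : Matrix (Fin n) (Fin n) F) *ᵥ w) i ≠ 0 := by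
  by_contra hcon
  push Not at hcon
  apply hg
  let W : Submodule F (Fin n → F) :=
    { carrier := {v | ∀ i : Fin n, k ≤ (i : ℕ) → v i = 0}
      add_mem' := fun {u v} hu hv i hi => by
        have h1 : u i = 0 := hu i hi
        have h2 : v i = 0 := hv i hi
        rw [Pi.add_apply, h1, h2, add_zero]
      zero_mem' := fun i _ => rfl
      smul_mem' := fun c v hv i hi => by
        have h1 : v i = 0 := hv i hi
        rw [Pi.smul_apply, h1, smul_zero] }
  let e : (Fin n → F) ≃ₗ[F] (Fin n → F) :=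
    { Matrix.mulVecLin (g : Matrix (Fin n) (Fin n) F) with
      invFun := fun v => ((g⁻¹ : Matrix.GeneralLinearGroup (Fin n) F) : Matrix (Fin n) (Fin n) F) *ᵥ v
      left_inv := fun v => inv_mulVec g v
      right_inv := fun v => mulVec_inv g v }
  have h1 : W.map e.toLinearMap ≤ W := by
    rintro _ ⟨v, hv, rfl⟩
    exact hcon v hv
  have h2 : W.map e.toLinearMap = W :=
    Submodule.eq_of_le_of_finrank_eq h1 (LinearEquiv.finrank_map_eq e W)
  rw [mem_iff]
  intro v
  constructor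
  · intro hv
    exact h1 ⟨v, hv, rfl⟩
  · intro hv
    have h3 : e v ∈ W.map e.toLinearMap := by rw [h2]; exact hv
    obtain ⟨w, hw, hwv⟩ := h3
    have : w = v := e.injective hwv
    rw [← this]
    exact hw

/-- Maximal parabolics are maximal: over a finite field, for 0 < k < n the stabiliser in GL_n of the span of the first k coordinate vectors is a maximal proper subgroup. -/
theorem result {F : Type*} [Field F] [Finite F] (n k : ℕ) (hk0 : 0 < k) (hkn : k < n) : IsCoatom (Cfsg.stabilizing (Cfsg.glToMat (Fin n) F) {v : Fin n → F | ∀ i : Fin n, k ≤ (i : ℕ) → v i = 0}) := by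
  classical
  constructor
  · intro htop
    -- an element not in the stabiliser
    have h1 : (1 : F) + (Pi.single (⟨0, by omega⟩ : Fin n) 1 : Fin n → F) ⬝ᵥ (Pi.single (⟨k, hkn⟩ : Fin n) 1) ≠ 0 := by
      rw [single_one_dotProduct, Pi.single_apply, if_neg, add_zero]
      · exact one_ne_zero
      · intro h
        have := congrArg Fin.val h
        simp at this
        omega
    have h2 : tr _ _ h1 ∈ P (n := n) (F := F) k := by
      show _ ∈ Cfsg.stabilizing (Cfsg.glToMat (Fin n) F) {v : Fin n → F | ∀ i : Fin n, k ≤ (i : ℕ) → v i = 0}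
      rw [htop]
      exact Subgroup.mem_top _
    have h3 := ((mem_iff _).1 h2 (Pi.single (⟨0, by omega⟩ : Fin n) 1)).1 ?_ ⟨k, hkn⟩ le_rfl
    · rw [tr_mulVec, single_one_dotProduct, Pi.single_eq_same, one_smul, Pi.add_apply, Pi.single_eq_same,
        Pi.single_apply, if_neg, zero_add] at h3
      · exact one_ne_zero h3
      · intro h
        have := congrArg Fin.val h
        simp at this
        omega
    · intro i hi
      rw [Pi.single_apply, if_neg]
      rintro rfl
      simp at hi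
      omega
  · intro H hH
    obtain ⟨g, hgH, hgP⟩ := SetLike.exists_of_lt hH
    have hPH : P (n := n) (F := F) k ≤ H := hH.le
    obtain ⟨w, hw, hout⟩ := exists_out g hgP
    -- every transvection lies in H
    have htrans : ∀ (u φ : Fin n → F) (h : φ ⬝ᵥ u = 0), tr u φ (by rw [h, add_zero]; exact one_ne_zero) ∈ H := by
      intro u φ h
      by_cases hu : ∀ i : Fin n, k ≤ (i : ℕ) → u i = 0
      · exact hPH (tr_mem_of_u u φ _ hu)
      · push Not at hu
        obtain ⟨p, hp, hpu⟩ := transitive (k := k) _ u hout hu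
        have h1 : ((p * g : Matrix.GeneralLinearGroup (Fin n) F) : Matrix (Fin n) (Fin n) F) *ᵥ w = u := by
          rw [Units.val_mul, ← Matrix.mulVec_mulVec, hpu]
        have h2 : (φ ᵥ* ((p * g : Matrix.GeneralLinearGroup (Fin n) F) : Matrix (Fin n) (Fin n) F)) ⬝ᵥ w = 0 := by
          rw [← dotProduct_mulVec, h1, h]
        have h3 := conj_tr (p * g) w (φ ᵥ* ((p * g : Matrix.GeneralLinearGroup (Fin n) F) : Matrix (Fin n) (Fin n) F))
          (by rw [h2, add_zero]; exact one_ne_zero) u φ (by rw [h, add_zero]; exact one_ne_zero) h1.symm rfl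
        rw [← h3]
        exact H.mul_mem (H.mul_mem (H.mul_mem (hPH hp) hgH) (hPH (tr_mem_of_u w _ _ hw)))
          (H.inv_mem (H.mul_mem (hPH hp) hgH))
    have htv : ∀ t : Matrix.TransvectionStruct (Fin n) F, ∃ x ∈ H, (x : Matrix (Fin n) (Fin n) F) = t.toMatrix := by
      intro t
      have h0 : (t.c • (Pi.single t.j 1 : Fin n → F)) ⬝ᵥ (Pi.single t.i 1) = 0 := by
        rw [smul_dotProduct, single_one_dotProduct, Pi.single_apply, if_neg t.hij.symm, smul_zero]
      refine ⟨_, htrans (Pi.single t.i 1) (t.c • Pi.single t.j 1) h0, ?_⟩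
      rw [coe_tr, Matrix.TransvectionStruct.toMatrix, Matrix.transvection]
      congr 1
      ext a b
      rw [vecMulVec_apply, Pi.smul_apply, smul_eq_mul, Matrix.single_apply]
      have e1 : (Pi.single t.i (1 : F) : Fin n → F) a = if t.i = a then 1 else 0 := by
        rw [Pi.single_apply]; exact if_congr eq_comm rfl rfl
      have e2 : (Pi.single t.j (1 : F) : Fin n → F) b = if t.j = b then 1 else 0 := by
        rw [Pi.single_apply]; exact if_congr eq_comm rfl rfl
      rw [e1, e2]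
      by_cases ha : t.i = a
      · by_cases hb : t.j = b
        · simp [ha, hb]
        · simp [ha, hb]
      · simp [ha]
    have hlist : ∀ L : List (Matrix.TransvectionStruct (Fin n) F), ∃ x ∈ H,
        (x : Matrix (Fin n) (Fin n) F) = (L.map Matrix.TransvectionStruct.toMatrix).prod := by
      intro L
      induction L with
      | nil => exact ⟨1, H.one_mem, rfl⟩
      | cons t L ih =>
        obtain ⟨x, hx, hxL⟩ := ih
        obtain ⟨y, hy, hyt⟩ := htv t
        refine ⟨y * x, H.mul_mem hy hx, ?_⟩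
        rw [Units.val_mul, List.map_cons, List.prod_cons, hyt, hxL]
    rw [eq_top_iff]
    intro x _
    obtain ⟨L, L', D, hD⟩ := Matrix.Pivot.exists_list_transvec_mul_diagonal_mul_list_transvec (x : Matrix (Fin n) (Fin n) F)
    obtain ⟨a, ha, haL⟩ := hlist L
    obtain ⟨b, hb, hbL⟩ := hlist L'
    have hdg : (a⁻¹ * x * b⁻¹ : Matrix.GeneralLinearGroup (Fin n) F) = (a⁻¹ * x * b⁻¹) := rfl
    have h4 : ((a⁻¹ * x * b⁻¹ : Matrix.GeneralLinearGroup (Fin n) F) : Matrix (Fin n) (Fin n) F) = diagonal D := by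
      rw [Units.val_mul, Units.val_mul, hD, ← haL, ← hbL]
      rw [show ((a⁻¹ : Matrix.GeneralLinearGroup (Fin n) F) : Matrix (Fin n) (Fin n) F) *
        ((a : Matrix (Fin n) (Fin n) F) * diagonal D * (b : Matrix (Fin n) (Fin n) F)) *
        ((b⁻¹ : Matrix.GeneralLinearGroup (Fin n) F) : Matrix (Fin n) (Fin n) F) =
        (((a⁻¹ : Matrix.GeneralLinearGroup (Fin n) F) : Matrix (Fin n) (Fin n) F) * (a : Matrix (Fin n) (Fin n) F)) * diagonal D *
        ((b : Matrix (Fin n) (Fin n) F) * ((b⁻¹ : Matrix.GeneralLinearGroup (Fin n) F) : Matrix (Fin n) (Fin n) F)) by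
          simp only [Matrix.mul_assoc],
        ← Units.val_mul, ← Units.val_mul, inv_mul_cancel, mul_inv_cancel, Units.val_one, Matrix.one_mul, Matrix.mul_one]
    have h5 : a⁻¹ * x * b⁻¹ ∈ H := by
      apply hPH
      have h6 : IsUnit (diagonal D : Matrix (Fin n) (Fin n) F) := by rw [← h4]; exact Units.isUnit _
      have h7 : ∀ i, D i ≠ 0 := by
        intro i
        have := ((Matrix.isUnit_iff_isUnit_det _).1 h6).ne_zero
        rw [det_diagonal] at this
        exact Finset.prod_ne_zero_iff.1 this i (Finset.mem_univ i)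
      rw [mem_iff]
      intro v
      rw [h4]
      refine forall_congr' fun i => forall_congr' fun hi => ?_
      rw [mulVec_diagonal]
      constructor
      · intro h; rw [h, mul_zero]
      · intro h; exact (mul_eq_zero.1 h).resolve_left (h7 i)
    have h6 : x = a * (a⁻¹ * x * b⁻¹) * b := by group
    rw [h6]
    exact H.mul_mem (H.mul_mem ha h5) hb

end Cfsg.Agent.S0772
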