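import Cfsg.Statements.S0773
import Cfsg.Agent.S0772

set_option autoImplicit false
open Cfsg

namespace Cfsg.Agent.S0773

open Matrix Cfsg.Agent.S0772

variable {F : Type*} [Field F] {n : ℕ}

lemma mem_iff_entry {k : ℕ} (g : Matrix.GeneralLinearGroup (Fin n) F) :
    g ∈ P k ↔ ∀ i j : Fin n, k ≤ (i : ℕ) → (j : ℕ) < k → (g : Matrix (Fin n) (Fin n) F) i j = 0 := by
  classical
  constructor
  · intro hg i j hi hj
    have h1 := ((mem_iff g).1 hg (Pi.single j 1)).1 ?_ i hi
    · rw [Matrix.mulVec_single_one] at h1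
      exact h1
    · intro i' hi'
      rw [Pi.single_apply, if_neg]
      rintro rfl
      omega
  · intro h
    by_contra hg
    obtain ⟨w, hw, i, hi, hne⟩ := exists_out g hg
    apply hne
    rw [Matrix.mulVec, dotProduct]
    refine Finset.sum_eq_zero fun j _ => ?_
    by_cases hj : k ≤ (j : ℕ)
    · rw [hw j hj, mul_zero]
    · rw [h i j hi (not_le.1 hj), zero_mul]

/-- inverse transpose followed by reversal -/
noncomputable def α : Matrix.GeneralLinearGroup (Fin n) F ≃* Matrix.GeneralLinearGroup (Fin n) F where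
  toFun g := ⟨(((g⁻¹ : Matrix.GeneralLinearGroup (Fin n) F) : Matrix (Fin n) (Fin n) F)ᵀ).submatrix Fin.rev Fin.rev,
    ((g : Matrix (Fin n) (Fin n) F)ᵀ).submatrix Fin.rev Fin.rev, by
      have := Matrix.submatrix_mul_equiv (((g⁻¹ : Matrix.GeneralLinearGroup (Fin n) F) : Matrix (Fin n) (Fin n) F)ᵀ)
        ((g : Matrix (Fin n) (Fin n) F)ᵀ) Fin.rev Fin.revPerm Fin.rev
      refine this.trans ?_
      rw [← transpose_mul, ← Units.val_mul, mul_inv_cancel, Units.val_one, transpose_one]
      exact Matrix.submatrix_one_equiv Fin.revPerm, by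
      have := Matrix.submatrix_mul_equiv ((g : Matrix (Fin n) (Fin n) F)ᵀ)
        (((g⁻¹ : Matrix.GeneralLinearGroup (Fin n) F) : Matrix (Fin n) (Fin n) F)ᵀ) Fin.rev Fin.revPerm Fin.rev
      refine this.trans ?_
      rw [← transpose_mul, ← Units.val_mul, inv_mul_cancel, Units.val_one, transpose_one]
      exact Matrix.submatrix_one_equiv Fin.revPerm⟩
  invFun g := ⟨(((g⁻¹ : Matrix.GeneralLinearGroup (Fin n) F) : Matrix (Fin n) (Fin n) F)ᵀ).submatrix Fin.rev Fin.rev,
    ((g : Matrix (Fin n) (Fin n) F)ᵀ).submatrix Fin.rev Fin.rev, by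
      have := Matrix.submatrix_mul_equiv (((g⁻¹ : Matrix.GeneralLinearGroup (Fin n) F) : Matrix (Fin n) (Fin n) F)ᵀ)
        ((g : Matrix (Fin n) (Fin n) F)ᵀ) Fin.rev Fin.revPerm Fin.rev
      refine this.trans ?_
      rw [← transpose_mul, ← Units.val_mul, mul_inv_cancel, Units.val_one, transpose_one]
      exact Matrix.submatrix_one_equiv Fin.revPerm, by
      have := Matrix.submatrix_mul_equiv ((g : Matrix (Fin n) (Fin n) F)ᵀ)
        (((g⁻¹ : Matrix.GeneralLinearGroup (Fin n) F) : Matrix (Fin n) (Fin n) F)ᵀ) Fin.rev Fin.revPerm Fin.rev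
      refine this.trans ?_
      rw [← transpose_mul, ← Units.val_mul, inv_mul_cancel, Units.val_one, transpose_one]
      exact Matrix.submatrix_one_equiv Fin.revPerm⟩
  left_inv g := by
    apply Units.ext
    ext i j
    show (g : Matrix (Fin n) (Fin n) F) (Fin.rev (Fin.rev i)) (Fin.rev (Fin.rev j)) = _
    rw [Fin.rev_rev, Fin.rev_rev]
  right_inv g := by
    apply Units.ext
    ext i j
    show (g : Matrix (Fin n) (Fin n) F) (Fin.rev (Fin.rev i)) (Fin.rev (Fin.rev j)) = _
    rw [Fin.rev_rev, Fin.rev_rev]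
  map_mul' g h := by
    apply Units.ext
    show ((((g * h)⁻¹ : Matrix.GeneralLinearGroup (Fin n) F) : Matrix (Fin n) (Fin n) F)ᵀ).submatrix Fin.rev Fin.rev
      = (((g⁻¹ : Matrix.GeneralLinearGroup (Fin n) F) : Matrix (Fin n) (Fin n) F)ᵀ).submatrix Fin.rev Fin.rev *
        (((h⁻¹ : Matrix.GeneralLinearGroup (Fin n) F) : Matrix (Fin n) (Fin n) F)ᵀ).submatrix Fin.rev Fin.rev
    have := Matrix.submatrix_mul_equiv (((g⁻¹ : Matrix.GeneralLinearGroup (Fin n) F) : Matrix (Fin n) (Fin n) F)ᵀ)
      (((h⁻¹ : Matrix.GeneralLinearGroup (Fin n) F) : Matrix (Fin n) (Fin n) F)ᵀ) Fin.rev Fin.revPerm Fin.rev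
    refine Eq.trans ?_ this.symm
    rw [_root_.mul_inv_rev, Units.val_mul, transpose_mul]

lemma α_apply (g : Matrix.GeneralLinearGroup (Fin n) F) (i j : Fin n) :
    ((α g : Matrix.GeneralLinearGroup (Fin n) F) : Matrix (Fin n) (Fin n) F) i j =
      ((g⁻¹ : Matrix.GeneralLinearGroup (Fin n) F) : Matrix (Fin n) (Fin n) F) (Fin.rev j) (Fin.rev i) := rfl

lemma α_mem {k : ℕ} (hk : k ≤ n) (g : Matrix.GeneralLinearGroup (Fin n) F) : α g ∈ P (n - k) ↔ g ∈ P k := by
  rw [← Subgroup.inv_mem_iff (P k), mem_iff_entry, mem_iff_entry]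
  constructor
  · intro h i j hi hj
    have := h (Fin.rev j) (Fin.rev i) (by rw [Fin.val_rev]; omega) (by rw [Fin.val_rev]; omega)
    rwa [α_apply, Fin.rev_rev, Fin.rev_rev] at this
  · intro h i j hi hj
    rw [α_apply]
    exact h _ _ (by rw [Fin.val_rev]; omega) (by rw [Fin.val_rev]; omega)

def W (k : ℕ) : Submodule F (Fin n → F) where
  carrier := {v | ∀ i : Fin n, k ≤ (i : ℕ) → v i = 0}
  add_mem' := fun {u v} hu hv i hi => by
    have h1 : u i = 0 := hu i hi
    have h2 : v i = 0 := hv i hi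
    rw [Pi.add_apply, h1, h2, add_zero]
  zero_mem' := fun i _ => rfl
  smul_mem' := fun c v hv i hi => by
    have h1 : v i = 0 := hv i hi
    rw [Pi.smul_apply, h1, smul_zero]

lemma mem_W {k : ℕ} {v : Fin n → F} : v ∈ W k ↔ ∀ i : Fin n, k ≤ (i : ℕ) → v i = 0 := Iff.rfl

/-- invariant subspaces of the parabolic -/
lemma invariant {l : ℕ} (hl0 : 0 < l) (hln : l < n) (U : Submodule F (Fin n → F))
    (hU : ∀ g ∈ P (n := n) (F := F) l, ∀ v ∈ U, (g : Matrix (Fin n) (Fin n) F) *ᵥ v ∈ U) :
    U = ⊥ ∨ U = W l ∨ U = ⊤ := by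
  classical
  by_cases h0 : U = ⊥
  · exact Or.inl h0
  right
  -- basic move
  have hmove : ∀ v ∈ U, ∀ i j : Fin n, i ≠ j → v j ≠ 0 → ((i : ℕ) < l ∨ l ≤ (j : ℕ)) → (Pi.single i 1 : Fin n → F) ∈ U := by
    intro v hv i j hij hvj hor
    have h1 : (1 : F) + (Pi.single j 1 : Fin n → F) ⬝ᵥ (Pi.single i 1) ≠ 0 := by
      rw [single_one_dotProduct, Pi.single_apply, if_neg hij.symm, add_zero]
      exact one_ne_zero
    have h2 : tr _ _ h1 ∈ P (n := n) (F := F) l := by
      rcases hor with h | h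
      · apply tr_mem_of_u
        intro a ha
        rw [Pi.single_apply, if_neg]
        rintro rfl; omega
      · apply tr_mem_of_phi
        intro a ha
        rw [Pi.single_apply, if_neg]
        rintro rfl; omega
    have h3 := hU _ h2 v hv
    rw [tr_mulVec, single_one_dotProduct] at h3
    have h4 := U.sub_mem h3 hv
    rw [add_sub_cancel_left] at h4
    have h5 := U.smul_mem (v j)⁻¹ h4
    rwa [smul_smul, inv_mul_cancel₀ hvj, one_smul] at h5
  have hsum : ∀ v : Fin n → F, (∀ i, v i ≠ 0 → (Pi.single i 1 : Fin n → F) ∈ U) → v ∈ U := by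
    intro v h
    have : v = ∑ i, v i • (Pi.single i 1 : Fin n → F) := by
      conv_lhs => rw [pi_eq_sum_univ' v]
    rw [this]
    refine U.sum_mem fun i _ => ?_
    by_cases hi : v i = 0
    · rw [hi, zero_smul]; exact U.zero_mem
    · exact U.smul_mem _ (h i hi)
  by_cases hle : U ≤ W l
  · left
    apply le_antisymm hle
    obtain ⟨v, hvU, hv0⟩ := (Submodule.ne_bot_iff U).1 h0
    obtain ⟨j, hj⟩ := Function.ne_iff.1 hv0
    have hj' : v j ≠ 0 := hj
    have hjl : (j : ℕ) < l := by
      by_contra h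
      exact hj' ((mem_W.1 (hle hvU)) j (not_lt.1 h))
    have hall : ∀ i : Fin n, i ≠ j → (i : ℕ) < l → (Pi.single i 1 : Fin n → F) ∈ U :=
      fun i hij hi => hmove v hvU i j hij hj' (Or.inl hi)
    have hjj : (Pi.single j 1 : Fin n → F) ∈ U := by
      have h1 : v - v j • (Pi.single j 1 : Fin n → F) ∈ U := by
        apply hsum
        intro i hi
        have hij : i ≠ j := by
          rintro rfl
          apply hi
          rw [Pi.sub_apply, Pi.smul_apply, Pi.single_eq_same, smul_eq_mul, mul_one, sub_self]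
        have hi' : v i ≠ 0 := by
          intro h
          apply hi
          rw [Pi.sub_apply, Pi.smul_apply, Pi.single_apply, if_neg hij, smul_zero, h, sub_zero]
        refine hall i hij ?_
        by_contra h
        exact hi' ((mem_W.1 (hle hvU)) i (not_lt.1 h))
      have h2 := U.sub_mem hvU h1
      rw [sub_sub_cancel] at h2
      have h3 := U.smul_mem (v j)⁻¹ h2
      rwa [smul_smul, inv_mul_cancel₀ hj', one_smul] at h3
    intro w hw
    apply hsum
    intro i hi
    have hil : (i : ℕ) < l := by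
      by_contra h
      exact hi ((mem_W.1 hw) i (not_lt.1 h))
    by_cases hij : i = j
    · rw [hij]; exact hjj
    · exact hall i hij hil
  · right
    obtain ⟨v, hvU, hvW⟩ := SetLike.not_le_iff_exists.1 hle
    rw [mem_W] at hvW
    push Not at hvW
    obtain ⟨j, hjl, hj'⟩ := hvW
    have hall : ∀ i : Fin n, i ≠ j → (Pi.single i 1 : Fin n → F) ∈ U :=
      fun i hij => hmove v hvU i j hij hj' (Or.inr hjl)
    have hjj : (Pi.single j 1 : Fin n → F) ∈ U := by
      have h1 : v - v j • (Pi.single j 1 : Fin n → F) ∈ U := by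
        apply hsum
        intro i hi
        apply hall
        rintro rfl
        apply hi
        rw [Pi.sub_apply, Pi.smul_apply, Pi.single_eq_same, smul_eq_mul, mul_one, sub_self]
      have h2 := U.sub_mem hvU h1
      rw [sub_sub_cancel] at h2
      have h3 := U.smul_mem (v j)⁻¹ h2
      rwa [smul_smul, inv_mul_cancel₀ hj', one_smul] at h3
    rw [eq_top_iff]
    intro w _
    apply hsum
    intro i _
    by_cases hij : i = j
    · rw [hij]; exact hjj
    · exact hall i hij

lemma finrank_W {k : ℕ} (hk : k ≤ n) : Module.finrank F (W (F := F) (n := n) k) = k := by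
  classical
  have e : (W (F := F) (n := n) k) ≃ₗ[F] (Fin k → F) :=
    { toFun := fun v i => v.1 (Fin.castLE hk i)
      invFun := fun w => ⟨fun i => if h : (i : ℕ) < k then w ⟨i, h⟩ else 0, by
        rw [mem_W]
        intro i hi
        rw [dif_neg (not_lt.2 hi)]⟩
      left_inv := fun v => by
        apply Subtype.ext
        funext i
        by_cases h : (i : ℕ) < k
        · simp only [h, dif_pos]; rfl
        · simp only [h, dif_neg, not_false_eq_true]
          exact ((mem_W.1 v.2) i (not_lt.1 h)).symm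
      right_inv := fun w => by
        funext i
        simp
      map_add' := fun u v => rfl
      map_smul' := fun c v => rfl }
  rw [LinearEquiv.finrank_eq e, Module.finrank_fin_fun]

/-- The stabilisers in GL_n(F), F finite, of the coordinate subspaces of dimensions k and n − k are isomorphic groups, but when 2k ≠ n (and 0 < k < n) no element of GL_n conjugates one onto the other. -/
theorem result {F : Type*} [Field F] [Finite F] (n k : ℕ) (hk0 : 0 < k) (hkn : k < n) (h2 : 2 * k ≠ n) : Nonempty (↥(Cfsg.stabilizing (Cfsg.glToMat (Fin n) F) {v : Fin n → F | ∀ i : Fin n, k ≤ (i : ℕ) → v i = 0}) ≃* ↥(Cfsg.stabilizing (Cfsg.glToMat (Fin n) F) {v : Fin n → F | ∀ i : Fin n, n - k ≤ (i : ℕ) → v i = 0})) ∧ ∀ g : Matrix.GeneralLinearGroup (Fin n) F, (Cfsg.stabilizing (Cfsg.glToMat (Fin n) F) {v : Fin n → F | ∀ i : Fin n, k ≤ (i : ℕ) → v i = 0}).map (MulAut.conj g).toMonoidHom ≠ Cfsg.stabilizing (Cfsg.glToMat (Fin n) F) {v : Fin n → F | ∀ i : Fin n, n - k ≤ (i : ℕ) → v i = 0} := by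
  constructor
  · have h3 : (P (n := n) (F := F) k).map (α (F := F) (n := n)).toMonoidHom = P (n - k) := by
      ext x
      constructor
      · rintro ⟨y, hy, rfl⟩
        exact (α_mem hkn.le y).2 hy
      · intro hx
        obtain ⟨y, rfl⟩ := (α (F := F) (n := n)).surjective x
        exact ⟨y, (α_mem hkn.le y).1 hx, rfl⟩
    exact ⟨((α (F := F) (n := n)).subgroupMap (P k)).trans (MulEquiv.subgroupCongr h3)⟩
  · intro g hg
    let e : (Fin n → F) ≃ₗ[F] (Fin n → F) :=
      { Matrix.mulVecLin (g : Matrix (Fin n) (Fin n) F) with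
        invFun := fun v => ((g⁻¹ : Matrix.GeneralLinearGroup (Fin n) F) : Matrix (Fin n) (Fin n) F) *ᵥ v
        left_inv := fun v => inv_mulVec g v
        right_inv := fun v => mulVec_inv g v }
    have hdim : Module.finrank F ((W (F := F) (n := n) k).map e.toLinearMap) = k := by
      exact (LinearEquiv.finrank_map_eq e _).trans (finrank_W (F := F) hkn.le)
    have hinv := invariant (F := F) (n := n) (l := n - k) (by omega) (by omega) ((W (F := F) (n := n) k).map e.toLinearMap) ?_
    · rcases hinv with h | h | h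
      · rw [h, finrank_bot] at hdim
        omega
      · rw [h, finrank_W (by omega)] at hdim
        omega
      · rw [h, finrank_top, Module.finrank_fin_fun] at hdim
        omega
    · intro x hx v hv
      have h3 : x ∈ (P (n := n) (F := F) k).map (MulAut.conj g).toMonoidHom := by
        show x ∈ (Cfsg.stabilizing (Cfsg.glToMat (Fin n) F) {v : Fin n → F | ∀ i : Fin n, k ≤ (i : ℕ) → v i = 0}).map (MulAut.conj g).toMonoidHom
        rw [hg]; exact hx
      obtain ⟨y, hy, rfl⟩ := h3
      obtain ⟨w, hw, rfl⟩ := hv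
      refine ⟨(y : Matrix (Fin n) (Fin n) F) *ᵥ w, ((mem_iff y).1 hy w).1 hw, ?_⟩
      show (g : Matrix (Fin n) (Fin n) F) *ᵥ ((y : Matrix (Fin n) (Fin n) F) *ᵥ w) =
        ((g * y * g⁻¹ : Matrix.GeneralLinearGroup (Fin n) F) : Matrix (Fin n) (Fin n) F) *ᵥ ((g : Matrix (Fin n) (Fin n) F) *ᵥ w)
      rw [Matrix.mulVec_mulVec, Matrix.mulVec_mulVec, ← Units.val_mul, ← Units.val_mul, inv_mul_cancel_right]

end Cfsg.Agent.S0773
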