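import Cfsg.Statements.S0774
import Cfsg.Agent.Lib.StabMat
import Cfsg.Agent.Lib.SympMat
import Cfsg.Agent.S0769

set_option autoImplicit false
open Cfsg

namespace Cfsg.Agent.S0774

open Matrix Cfsg.Agent.Lib.StabMat

variable {F : Type*} [Field F]

lemma card_symm [Fintype F] (m : ℕ) :
    Nat.card {S : Matrix (Fin m) (Fin m) F // Sᵀ = S} = Fintype.card F ^ (m * (m + 1) / 2) := by
  classical
  have e : {S : Matrix (Fin m) (Fin m) F // Sᵀ = S} ≃ (Sym2 (Fin m) → F) :=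
    { toFun := fun S => Sym2.lift ⟨fun i j => S.1 i j, fun i j => by
        conv_lhs => rw [← S.2]
        rfl⟩
      invFun := fun f => ⟨Matrix.of fun i j => f s(i, j), by
        ext i j
        show f s(j, i) = f s(i, j)
        rw [Sym2.eq_swap]⟩
      left_inv := fun S => by
        apply Subtype.ext
        ext i j
        rfl
      right_inv := fun f => by
        funext p
        induction p using Sym2.ind with
        | _ i j => rfl }
  rw [Nat.card_congr e, Nat.card_fun, Nat.card_eq_fintype_card, Nat.card_eq_fintype_card, Sym2.card,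
    Fintype.card_fin, Nat.choose_two_right, Nat.add_sub_cancel, mul_comm m]

lemma mem_sp_iff {m : ℕ} (X Y W : Matrix (Fin m) (Fin m) F) :
    fromBlocks X Y 0 W ∈ Matrix.symplecticGroup (Fin m) F ↔ X * Wᵀ = 1 ∧ Y * Xᵀ = X * Yᵀ := by
  rw [SymplecticGroup.mem_iff, Matrix.J, fromBlocks_transpose, fromBlocks_multiply, fromBlocks_multiply, fromBlocks_inj]
  simp only [Matrix.mul_zero, Matrix.zero_mul, add_zero, zero_add, Matrix.mul_one, Matrix.mul_neg, Matrix.neg_mul,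
    transpose_zero, neg_inj, neg_zero]
  constructor
  · rintro ⟨h1, h2, _, _⟩
    exact ⟨h2, by rwa [← sub_eq_add_neg, sub_eq_zero] at h1⟩
  · rintro ⟨h1, h2⟩
    refine ⟨by rw [h2, ← sub_eq_add_neg, sub_self], h1, ?_, trivial⟩
    have h3 : (X * Wᵀ)ᵀ = 1 := by rw [h1, transpose_one]
    rwa [transpose_mul, transpose_transpose] at h3

/-- Borel subgroup of the symplectic group: the elements of Sp_2m(q) stabilising each of the totally isotropic coordinate subspaces ⟨e_0, ..., e_k⟩ (k < m) form a subgroup of order q^(m²) (q − 1)^m. -/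
theorem result {F : Type*} [Field F] [Fintype F] {q : ℕ} (hF : Fintype.card F = q) (m : ℕ) : Nat.card ↥(⨅ k : Fin m, Cfsg.stabilizing (Cfsg.spToMat m F) {v : Fin m ⊕ Fin m → F | (∀ i : Fin m, (k : ℕ) < (i : ℕ) → v (Sum.inl i) = 0) ∧ ∀ i : Fin m, v (Sum.inr i) = 0}) = q ^ (m ^ 2) * (q - 1) ^ m := by
  classical
  let Wk : Fin m → Submodule F (Fin m ⊕ Fin m → F) := fun k =>
    { carrier := {v : Fin m ⊕ Fin m → F | (∀ i : Fin m, (k : ℕ) < (i : ℕ) → v (Sum.inl i) = 0) ∧ ∀ i : Fin m, v (Sum.inr i) = 0}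
      add_mem' := fun {u v} hu hv => by
        refine ⟨fun i hi => ?_, fun i => ?_⟩
        · rw [Pi.add_apply, hu.1 i hi, hv.1 i hi, add_zero]
        · rw [Pi.add_apply, hu.2 i, hv.2 i, add_zero]
      zero_mem' := ⟨fun i _ => rfl, fun i => rfl⟩
      smul_mem' := fun c v hv => by
        refine ⟨fun i hi => ?_, fun i => ?_⟩
        · rw [Pi.smul_apply, hv.1 i hi, smul_zero]
        · rw [Pi.smul_apply, hv.2 i, smul_zero] }
  have hmem : ∀ A : Matrix.symplecticGroup (Fin m) F, A ∈ (⨅ k : Fin m, Cfsg.stabilizing (Cfsg.spToMat m F) {v : Fin m ⊕ Fin m → F | (∀ i : Fin m, (k : ℕ) < (i : ℕ) → v (Sum.inl i) = 0) ∧ ∀ i : Fin m, v (Sum.inr i) = 0}) ↔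
      (A : Matrix (Fin m ⊕ Fin m) (Fin m ⊕ Fin m) F).toBlocks₂₁ = 0 ∧
        ∀ i j : Fin m, j < i → (A : Matrix (Fin m ⊕ Fin m) (Fin m ⊕ Fin m) F).toBlocks₁₁ i j = 0 := by
    intro A
    rw [Subgroup.mem_iInf]
    have h0 : ∀ k : Fin m, A ∈ Cfsg.stabilizing (Cfsg.spToMat m F) {v : Fin m ⊕ Fin m → F | (∀ i : Fin m, (k : ℕ) < (i : ℕ) → v (Sum.inl i) = 0) ∧ ∀ i : Fin m, v (Sum.inr i) = 0}
        ↔ ∀ v ∈ Wk k, (A : Matrix (Fin m ⊕ Fin m) (Fin m ⊕ Fin m) F) *ᵥ v ∈ Wk k := fun k => mem_stabilizing_iff (Cfsg.spToMat m F) (Wk k) A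
    constructor
    · intro h
      have h1 : ∀ j : Fin m, (A : Matrix (Fin m ⊕ Fin m) (Fin m ⊕ Fin m) F) *ᵥ (Pi.single (Sum.inl j) 1) ∈ Wk j := by
        intro j
        apply (h0 j).1 (h j)
        refine ⟨fun i hi => ?_, fun i => ?_⟩
        · rw [Pi.single_apply, if_neg]
          intro he
          rw [Sum.inl.inj he] at hi
          exact lt_irrefl _ hi
        · rw [Pi.single_apply, if_neg (by simp)]
      constructor
      · ext i j
        have h2 := (h1 j).2 i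
        rw [Matrix.mulVec_single_one] at h2
        exact h2
      · intro i j hij
        have h2 := (h1 j).1 i hij
        rw [Matrix.mulVec_single_one] at h2
        exact h2
    · rintro ⟨h1, h2⟩ k
      rw [h0]
      intro v hv
      have h3 : ∀ i, ((A : Matrix (Fin m ⊕ Fin m) (Fin m ⊕ Fin m) F) *ᵥ v) i = ∑ j : Fin m, (A : Matrix (Fin m ⊕ Fin m) (Fin m ⊕ Fin m) F) i (Sum.inl j) * v (Sum.inl j) := by
        intro i
        rw [Matrix.mulVec, dotProduct, Fintype.sum_sum_type]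
        have : ∑ j : Fin m, (A : Matrix (Fin m ⊕ Fin m) (Fin m ⊕ Fin m) F) i (Sum.inr j) * v (Sum.inr j) = 0 :=
          Finset.sum_eq_zero fun j _ => by rw [hv.2 j, mul_zero]
        rw [this, add_zero]
      refine ⟨fun i hi => ?_, fun i => ?_⟩
      · rw [h3]
        refine Finset.sum_eq_zero fun j _ => ?_
        by_cases hj : (k : ℕ) < (j : ℕ)
        · rw [hv.1 j hj, mul_zero]
        · have : (A : Matrix (Fin m ⊕ Fin m) (Fin m ⊕ Fin m) F) (Sum.inl i) (Sum.inl j) = 0 := h2 i j (by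
            show (j : ℕ) < (i : ℕ)
            omega)
          rw [this, zero_mul]
      · rw [h3]
        refine Finset.sum_eq_zero fun j _ => ?_
        have : (A : Matrix (Fin m ⊕ Fin m) (Fin m ⊕ Fin m) F) (Sum.inr i) (Sum.inl j) = 0 := congrFun (congrFun h1 i) j
        rw [this, zero_mul]
  have hdec : ∀ A : ↥(⨅ k : Fin m, Cfsg.stabilizing (Cfsg.spToMat m F) {v : Fin m ⊕ Fin m → F | (∀ i : Fin m, (k : ℕ) < (i : ℕ) → v (Sum.inl i) = 0) ∧ ∀ i : Fin m, v (Sum.inr i) = 0}),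
      (A.1 : Matrix (Fin m ⊕ Fin m) (Fin m ⊕ Fin m) F) = fromBlocks (A.1 : Matrix (Fin m ⊕ Fin m) (Fin m ⊕ Fin m) F).toBlocks₁₁
        (A.1 : Matrix (Fin m ⊕ Fin m) (Fin m ⊕ Fin m) F).toBlocks₁₂ 0 (A.1 : Matrix (Fin m ⊕ Fin m) (Fin m ⊕ Fin m) F).toBlocks₂₂ := by
    intro A
    conv_lhs => rw [← fromBlocks_toBlocks (A.1 : Matrix (Fin m ⊕ Fin m) (Fin m ⊕ Fin m) F), ((hmem A.1).1 A.2).1]
  have hsp : ∀ A : ↥(⨅ k : Fin m, Cfsg.stabilizing (Cfsg.spToMat m F) {v : Fin m ⊕ Fin m → F | (∀ i : Fin m, (k : ℕ) < (i : ℕ) → v (Sum.inl i) = 0) ∧ ∀ i : Fin m, v (Sum.inr i) = 0}),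
      (A.1 : Matrix (Fin m ⊕ Fin m) (Fin m ⊕ Fin m) F).toBlocks₁₁ * ((A.1 : Matrix (Fin m ⊕ Fin m) (Fin m ⊕ Fin m) F).toBlocks₂₂)ᵀ = 1 ∧
      (A.1 : Matrix (Fin m ⊕ Fin m) (Fin m ⊕ Fin m) F).toBlocks₁₂ * ((A.1 : Matrix (Fin m ⊕ Fin m) (Fin m ⊕ Fin m) F).toBlocks₁₁)ᵀ =
      (A.1 : Matrix (Fin m ⊕ Fin m) (Fin m ⊕ Fin m) F).toBlocks₁₁ * ((A.1 : Matrix (Fin m ⊕ Fin m) (Fin m ⊕ Fin m) F).toBlocks₁₂)ᵀ := by
    intro A
    have h := A.1.2
    rw [hdec A] at h
    exact (mem_sp_iff _ _ _).1 h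
  have e : ↥(⨅ k : Fin m, Cfsg.stabilizing (Cfsg.spToMat m F) {v : Fin m ⊕ Fin m → F | (∀ i : Fin m, (k : ℕ) < (i : ℕ) → v (Sum.inl i) = 0) ∧ ∀ i : Fin m, v (Sum.inr i) = 0}) ≃
      {g : Matrix.GeneralLinearGroup (Fin m) F // ∀ i j : Fin m, i < j → (g : Matrix (Fin m) (Fin m) F) i j = 0} ×
        {S : Matrix (Fin m) (Fin m) F // Sᵀ = S} :=
    { toFun := fun A => (⟨⟨((A.1 : Matrix (Fin m ⊕ Fin m) (Fin m ⊕ Fin m) F).toBlocks₁₁)ᵀ,
          (A.1 : Matrix (Fin m ⊕ Fin m) (Fin m ⊕ Fin m) F).toBlocks₂₂, by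
            have := congrArg transpose (mul_eq_one_comm.1 (hsp A).1)
            rwa [transpose_mul, transpose_transpose, transpose_one] at this, by
            have := congrArg transpose (hsp A).1
            rwa [transpose_mul, transpose_transpose, transpose_one] at this⟩, fun i j hij => ((hmem A.1).1 A.2).2 j i hij⟩,
          ⟨(A.1 : Matrix (Fin m ⊕ Fin m) (Fin m ⊕ Fin m) F).toBlocks₁₂ * ((A.1 : Matrix (Fin m ⊕ Fin m) (Fin m ⊕ Fin m) F).toBlocks₁₁)ᵀ, by
            rw [transpose_mul, transpose_transpose, (hsp A).2]⟩)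
      invFun := fun x => ⟨⟨fromBlocks (x.1.1 : Matrix (Fin m) (Fin m) F)ᵀ
          (x.2.1 * ((x.1.1⁻¹ : Matrix.GeneralLinearGroup (Fin m) F) : Matrix (Fin m) (Fin m) F)) 0
          ((x.1.1⁻¹ : Matrix.GeneralLinearGroup (Fin m) F) : Matrix (Fin m) (Fin m) F), by
            rw [mem_sp_iff]
            have h1 : ((x.1.1⁻¹ : Matrix.GeneralLinearGroup (Fin m) F) : Matrix (Fin m) (Fin m) F) * (x.1.1 : Matrix (Fin m) (Fin m) F) = 1 := by
              rw [← Units.val_mul, inv_mul_cancel, Units.val_one]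
            have h2 : (x.1.1 : Matrix (Fin m) (Fin m) F)ᵀ * ((x.1.1⁻¹ : Matrix.GeneralLinearGroup (Fin m) F) : Matrix (Fin m) (Fin m) F)ᵀ = 1 := by
              rw [← transpose_mul, h1, transpose_one]
            refine ⟨h2, ?_⟩
            rw [transpose_transpose, Matrix.mul_assoc, h1, Matrix.mul_one, transpose_mul, ← Matrix.mul_assoc, h2, Matrix.one_mul, x.2.2]⟩, by
            rw [hmem]
            refine ⟨toBlocks_fromBlocks₂₁ _ _ _ _, fun i j hij => ?_⟩
            show (fromBlocks _ _ _ _ : Matrix (Fin m ⊕ Fin m) (Fin m ⊕ Fin m) F).toBlocks₁₁ i j = 0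
            rw [toBlocks_fromBlocks₁₁, transpose_apply]
            exact x.1.2 j i hij⟩
      left_inv := fun A => by
        apply Subtype.ext
        apply Subtype.ext
        show fromBlocks _ _ _ _ = (A.1 : Matrix (Fin m ⊕ Fin m) (Fin m ⊕ Fin m) F)
        conv_rhs => rw [hdec A]
        congr 1
        show ((A.1 : Matrix (Fin m ⊕ Fin m) (Fin m ⊕ Fin m) F).toBlocks₁₂ * ((A.1 : Matrix (Fin m ⊕ Fin m) (Fin m ⊕ Fin m) F).toBlocks₁₁)ᵀ) *
          (A.1 : Matrix (Fin m ⊕ Fin m) (Fin m ⊕ Fin m) F).toBlocks₂₂ = _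
        have := congrArg transpose (mul_eq_one_comm.1 (hsp A).1)
        rw [transpose_mul, transpose_transpose, transpose_one] at this
        rw [Matrix.mul_assoc, this, Matrix.mul_one]
      right_inv := fun x => by
        apply Prod.ext
        · apply Subtype.ext
          apply Units.ext
          show ((fromBlocks _ _ _ _ : Matrix (Fin m ⊕ Fin m) (Fin m ⊕ Fin m) F).toBlocks₁₁)ᵀ = _
          rw [toBlocks_fromBlocks₁₁, transpose_transpose]
        · apply Subtype.ext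
          show (fromBlocks _ _ _ _ : Matrix (Fin m ⊕ Fin m) (Fin m ⊕ Fin m) F).toBlocks₁₂ *
            ((fromBlocks _ _ _ _ : Matrix (Fin m ⊕ Fin m) (Fin m ⊕ Fin m) F).toBlocks₁₁)ᵀ = _
          rw [toBlocks_fromBlocks₁₂, toBlocks_fromBlocks₁₁, transpose_transpose, Matrix.mul_assoc,
            ← Units.val_mul, inv_mul_cancel, Units.val_one, Matrix.mul_one] }
  rw [Nat.card_congr e, Nat.card_prod, Cfsg.Agent.S0769.result hF m, card_symm, hF, mul_right_comm, ← pow_add]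
  congr 2
  have h1 : m * (m - 1) / 2 + m * (m + 1) / 2 = m ^ 2 := by
    rcases m with _ | m
    · rfl
    · rw [Nat.add_sub_cancel]
      have e1 : Even ((m + 1) * m) := by rw [mul_comm]; exact Nat.even_mul_succ_self m
      have e2 : Even ((m + 1) * (m + 1 + 1)) := Nat.even_mul_succ_self (m + 1)
      obtain ⟨a, ha⟩ := e1
      obtain ⟨b, hb⟩ := e2
      have ha' : (m + 1) * m = 2 * a := by omega
      have hb' : (m + 1) * (m + 1 + 1) = 2 * b := by omega
      rw [ha', hb', Nat.mul_div_cancel_left _ (by norm_num), Nat.mul_div_cancel_left _ (by norm_num)]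
      nlinarith
  exact h1

end Cfsg.Agent.S0774
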