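import Cfsg.Statements.S0775
import Cfsg.Agent.Lib.StabMat
import Cfsg.Agent.Lib.SympGen
import Cfsg.Agent.Lib.ClSympOrd

set_option autoImplicit false
open Cfsg

namespace Cfsg.Agent.S0775

open Matrix Cfsg.Agent.Lib.SympMat Cfsg.Agent.Lib.SympGen Cfsg.Agent.Lib.StabMat Module

variable {F : Type*} [Field F]

abbrev V (m : ℕ) (F : Type*) := Fin m ⊕ Fin m → F

/-- isotropic frames -/
abbrev Fr (m k : ℕ) (F : Type*) [Field F] :=
  {e : Fin k → V m F // LinearIndependent F e ∧ ∀ i j, sympForm m F (e i) (e j) = 0}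

lemma card_fiber [Fintype F] {m k : ℕ} (e : Fr m k F) :
    Nat.card {v : V m F // v ∉ Submodule.span F (Set.range e.1) ∧ ∀ i, sympForm m F (e.1 i) v = 0} =
      Fintype.card F ^ (2 * m - k) - Fintype.card F ^ k := by
  classical
  set U := Submodule.span F (Set.range e.1) with hUdef
  have hfU : finrank F U = k := by
    rw [hUdef, finrank_span_eq_card e.2.1, Fintype.card_fin]
  have hfP : finrank F (LinearMap.BilinForm.orthogonal (B m F) U) = 2 * m - k := by
    rw [LinearMap.BilinForm.finrank_orthogonal (B := B m F) B_nondegenerate U, hfU, finrank_fintype_fun_eq_card,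
      Fintype.card_sum, Fintype.card_fin, two_mul]
  have hP : ∀ v, v ∈ LinearMap.BilinForm.orthogonal (B m F) U ↔ ∀ i, sympForm m F (e.1 i) v = 0 := by
    intro v
    constructor
    · intro h i
      exact h _ (Submodule.subset_span ⟨i, rfl⟩)
    · intro h u hu
      show B m F u v = 0
      induction hu using Submodule.span_induction with
      | mem x hx =>
        obtain ⟨i, rfl⟩ := hx
        exact h i
      | zero => rw [map_zero, LinearMap.zero_apply]
      | add x y _ _ hx hy => rw [map_add, LinearMap.add_apply, hx, hy, add_zero]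
      | smul c x _ hx => rw [map_smul, LinearMap.smul_apply, hx, smul_zero]
  have hUP : U ≤ LinearMap.BilinForm.orthogonal (B m F) U := by
    rw [hUdef, Submodule.span_le]
    rintro _ ⟨j, rfl⟩
    show e.1 j ∈ LinearMap.BilinForm.orthogonal (B m F) U
    rw [hP]
    exact fun i => e.2.2 i j
  have h1 : Nat.card {v : V m F // v ∉ U ∧ ∀ i, sympForm m F (e.1 i) v = 0} =
      ((LinearMap.BilinForm.orthogonal (B m F) U : Set (V m F)) \ (U : Set (V m F))).ncard := by
    rw [← Nat.card_coe_set_eq]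
    apply Nat.card_congr
    refine Equiv.subtypeEquivRight fun v => ?_
    rw [← hP, Set.mem_sdiff]
    exact and_comm
  rw [h1, Set.ncard_sdiff hUP (Set.toFinite _)]
  have h2 : ∀ W : Submodule F (V m F), (W : Set (V m F)).ncard = Fintype.card F ^ finrank F W := by
    intro W
    rw [← Nat.card_coe_set_eq, ← Nat.card_eq_fintype_card]
    exact Module.natCard_eq_pow_finrank
  rw [h2, h2, hfU, hfP]

/-- adding one vector to a frame -/
noncomputable def succEquiv (m k : ℕ) (F : Type*) [Field F] : Fr m (k + 1) F ≃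
    Σ e : Fr m k F, {v : V m F // v ∉ Submodule.span F (Set.range e.1) ∧ ∀ i, sympForm m F (e.1 i) v = 0} where
  toFun e := ⟨⟨Fin.tail e.1, by
      have h := e.2.1
      rw [← Fin.cons_self_tail e.1, linearIndependent_finCons] at h
      exact h.1, fun i j => e.2.2 _ _⟩, ⟨e.1 0, by
      have h := e.2.1
      rw [← Fin.cons_self_tail e.1, linearIndependent_finCons] at h
      exact h.2, fun i => e.2.2 _ _⟩⟩
  invFun x := ⟨Fin.cons x.2.1 x.1.1, by
      rw [linearIndependent_finCons]
      exact ⟨x.1.2.1, x.2.2.1⟩, by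
      intro i j
      refine Fin.cases ?_ (fun i => ?_) i <;> refine Fin.cases ?_ (fun j => ?_) j
      · simp only [Fin.cons_zero]; exact sympForm_self _
      · simp only [Fin.cons_zero, Fin.cons_succ]
        rw [sympForm_swap, x.2.2.2, neg_zero]
      · simp only [Fin.cons_zero, Fin.cons_succ]
        exact x.2.2.2 i
      · simp only [Fin.cons_succ]
        exact x.1.2.2 i j⟩
  left_inv e := by
    apply Subtype.ext
    exact Fin.cons_self_tail e.1
  right_inv x := by
    obtain ⟨⟨e, he⟩, ⟨v, hv⟩⟩ := x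
    rfl

lemma card_Fr [Fintype F] (m : ℕ) : ∀ k : ℕ, Nat.card (Fr m k F) =
    ∏ i ∈ Finset.range k, (Fintype.card F ^ (2 * m - i) - Fintype.card F ^ i) := by
  classical
  intro k
  induction k with
  | zero =>
    rw [Finset.range_zero, Finset.prod_empty, Nat.card_eq_one_iff_unique]
    refine ⟨⟨fun a b => Subtype.ext (Subsingleton.elim _ _)⟩, ⟨⟨Fin.elim0, linearIndependent_empty_type, fun i => i.elim0⟩⟩⟩
  | succ k ih =>
    haveI : Fintype (Fr m k F) := Fintype.ofFinite _
    rw [Nat.card_congr (succEquiv m k F), Nat.card_sigma, Finset.sum_congr rfl (fun e _ => card_fiber e),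
      Finset.sum_const, Finset.card_univ, ← Nat.card_eq_fintype_card (α := Fr m k F), ih, Finset.prod_range_succ, smul_eq_mul]

lemma arith (q : ℕ) (hq : 1 ≤ q) (k l : ℕ) :
    q ^ ((k + l) ^ 2) * ∏ i ∈ Finset.range (k + l), (q ^ (2 * (i + 1)) - 1) =
      (∏ i ∈ Finset.range k, (q ^ (2 * (k + l) - i) - q ^ i)) *
      (q ^ (k * (k + 1) / 2 + 2 * k * l) * (q ^ (l ^ 2) * ∏ i ∈ Finset.range l, (q ^ (2 * (i + 1)) - 1))) := by
  have h1 : ∏ i ∈ Finset.range k, (q ^ (2 * (k + l) - i) - q ^ i) =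
      q ^ (k * (k - 1) / 2) * ∏ j ∈ Finset.range k, (q ^ (2 * (l + j + 1)) - 1) := by
    rw [← Finset.sum_range_id, ← Finset.prod_pow_eq_pow_sum, ← Finset.prod_range_reflect (fun j => q ^ (2 * (l + j + 1)) - 1),
      ← Finset.prod_mul_distrib]
    refine Finset.prod_congr rfl fun i hi => ?_
    have hi' := Finset.mem_range.1 hi
    rw [Nat.mul_sub, mul_one, ← pow_add]
    congr 2
    omega
  have h2 : ∏ i ∈ Finset.range (k + l), (q ^ (2 * (i + 1)) - 1) =
      (∏ i ∈ Finset.range l, (q ^ (2 * (i + 1)) - 1)) * ∏ j ∈ Finset.range k, (q ^ (2 * (l + j + 1)) - 1) := by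
    rw [add_comm k l, Finset.prod_range_add]
  have h3 : k * (k - 1) / 2 + (k * (k + 1) / 2 + 2 * k * l) + l ^ 2 = (k + l) ^ 2 := by
    have h1 : k * (k - 1) / 2 + k * (k + 1) / 2 = k ^ 2 := by
      rcases k with _ | m
      · rfl
      · rw [Nat.add_sub_cancel]
        have e1 : Even ((m + 1) * m) := by rw [mul_comm]; exact Nat.even_mul_succ_self m
        have e2 : Even ((m + 1) * (m + 1 + 1)) := Nat.even_mul_succ_self (m + 1)
        obtain ⟨a, ha⟩ := e1
        obtain ⟨b, hb⟩ := e2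
        have ha' : (m + 1) * m = 2 * a := by omega
        have hb' : (m + 1) * (m + 1 + 1) = 2 * b := by omega
        rw [ha', hb', Nat.mul_div_cancel_left _ (by norm_num), Nat.mul_div_cancel_left _ (by norm_num)]
        nlinarith
    have : (k + l) ^ 2 = k ^ 2 + 2 * k * l + l ^ 2 := by ring
    omega
  rw [h1, h2, ← h3, pow_add, pow_add]
  ring

/-- Maximal parabolics of the symplectic group: if W is a k-dimensional subspace of F^(2m) on which the symplectic form vanishes identically, its stabiliser in Sp_2m(q) has order q^(k(k+1)/2 + 2k(m−k)) · |Sp_(2m−2k)(q)| · |GL_k(q)|. -/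
theorem result {F : Type*} [Field F] [Fintype F] {q : ℕ} (hF : Fintype.card F = q) (m k : ℕ) (hk : k ≤ m) (W : Submodule F (Fin m ⊕ Fin m → F)) (hWk : Module.finrank F W = k) (hW : ∀ u ∈ W, ∀ v ∈ W, Cfsg.sympForm m F u v = 0) : Nat.card ↥(Cfsg.stabilizing (Cfsg.spToMat m F) (W : Set (Fin m ⊕ Fin m → F))) = q ^ (k * (k + 1) / 2 + 2 * k * (m - k)) * (q ^ ((m - k) ^ 2) * ∏ i ∈ Finset.range (m - k), (q ^ (2 * (i + 1)) - 1)) * ∏ i : Fin k, (q ^ k - q ^ (i : ℕ)) := by
  classical
  have hq : 1 ≤ q := by rw [← hF]; exact Fintype.card_pos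
  let b := Module.finBasisOfFinrankEq F W hWk
  let e : Fr m k F := ⟨fun i => (b i : V m F), b.linearIndependent.map' W.subtype W.ker_subtype,
    fun i j => hW _ (b i).2 _ (b j).2⟩
  have hspan : ∀ (s : Fin k → W), LinearIndependent F s → Submodule.span F (Set.range (fun i => (s i : V m F))) = W := by
    intro s hs
    have h1 : (Submodule.span F (Set.range s)).map W.subtype = Submodule.span F (Set.range (fun i => (s i : V m F))) := by
      rw [Submodule.map_span, ← Set.range_comp]; rfl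
    rw [← h1]
    have h2 : Submodule.span F (Set.range s) = ⊤ := hs.span_eq_top_of_card_eq_finrank' (by rw [Fintype.card_fin, hWk])
    rw [h2, Submodule.map_top, Submodule.range_subtype]
  -- pointwise stabiliser
  let K : Subgroup (symplecticGroup (Fin m) F) :=
    { carrier := {A | ∀ i, (A : Matrix (Fin m ⊕ Fin m) (Fin m ⊕ Fin m) F) *ᵥ (e.1 i) = e.1 i}
      mul_mem' := fun {A C} hA hC i => by
        show ((A : Matrix (Fin m ⊕ Fin m) (Fin m ⊕ Fin m) F) * (C : Matrix (Fin m ⊕ Fin m) (Fin m ⊕ Fin m) F)) *ᵥ (e.1 i) = e.1 i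
        rw [← Matrix.mulVec_mulVec, hC i, hA i]
      one_mem' := fun i => Matrix.one_mulVec _
      inv_mem' := fun {A} hA i => by
        have h1 := inv_mulVec_mulVec (Cfsg.spToMat m F) A (e.1 i)
        have h2 : (Cfsg.spToMat m F) A *ᵥ (e.1 i) = e.1 i := hA i
        rw [h2] at h1
        exact h1 }
  have hK : ∀ A : symplecticGroup (Fin m) F, A ∈ K ↔ ∀ i, (A : Matrix (Fin m ⊕ Fin m) (Fin m ⊕ Fin m) F) *ᵥ (e.1 i) = e.1 i := fun A => Iff.rfl
  have hKW : K ≤ Cfsg.stabilizing (Cfsg.spToMat m F) (W : Set (Fin m ⊕ Fin m → F)) := by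
    intro A hA
    rw [mem_stabilizing_iff]
    intro v hv
    rw [← hspan b b.linearIndependent] at hv
    have : (Cfsg.spToMat m F) A *ᵥ v = v := by
      show (A : Matrix (Fin m ⊕ Fin m) (Fin m ⊕ Fin m) F) *ᵥ v = v
      induction hv using Submodule.span_induction with
      | mem x hx =>
        obtain ⟨i, rfl⟩ := hx
        exact (hK A).1 hA i
      | zero => rw [Matrix.mulVec_zero]
      | add x y _ _ hx hy => rw [Matrix.mulVec_add, hx, hy]
      | smul c x _ hx => rw [Matrix.mulVec_smul, hx]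
    rw [this, ← hspan b b.linearIndependent]
    exact hv
  have hinvK : ∀ A C : symplecticGroup (Fin m) F, (∀ i, (A : Matrix (Fin m ⊕ Fin m) (Fin m ⊕ Fin m) F) *ᵥ (e.1 i) =
      (C : Matrix (Fin m ⊕ Fin m) (Fin m ⊕ Fin m) F) *ᵥ (e.1 i)) ↔ A⁻¹ * C ∈ K := by
    intro A C
    rw [hK]
    refine forall_congr' fun i => ?_
    have h1 := inv_mulVec_mulVec (Cfsg.spToMat m F) A (e.1 i)
    have h2 := mulVec_inv_mulVec (Cfsg.spToMat m F) A ((Cfsg.spToMat m F) C *ᵥ (e.1 i))
    have h3 : ((A⁻¹ * C : symplecticGroup (Fin m) F) : Matrix (Fin m ⊕ Fin m) (Fin m ⊕ Fin m) F) *ᵥ (e.1 i) =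
      (Cfsg.spToMat m F) A⁻¹ *ᵥ ((Cfsg.spToMat m F) C *ᵥ (e.1 i)) := by
      rw [Matrix.mulVec_mulVec]; rfl
    rw [h3]
    constructor
    · intro h
      have h' : (Cfsg.spToMat m F) A *ᵥ (e.1 i) = (Cfsg.spToMat m F) C *ᵥ (e.1 i) := h
      rw [← h']
      exact h1
    · intro h
      rw [h] at h2
      exact h2
  have hact : ∀ (A : symplecticGroup (Fin m) F), LinearIndependent F (fun i => (A : Matrix (Fin m ⊕ Fin m) (Fin m ⊕ Fin m) F) *ᵥ (e.1 i)) := by
    intro A
    exact e.2.1.map' (toLin (Cfsg.spToMat m F) A).toLinearMap (toLin (Cfsg.spToMat m F) A).ker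
  have c1 : Nat.card (symplecticGroup (Fin m) F) = Nat.card (Fr m k F) * Nat.card K := by
    refine card_eq_mul K (fun A => ⟨fun i => (A : Matrix (Fin m ⊕ Fin m) (Fin m ⊕ Fin m) F) *ᵥ (e.1 i), hact A,
      fun i j => by rw [mem_iff.1 A.2]; exact e.2.2 i j⟩) ?_ ?_
    · intro s
      obtain ⟨A, hA⟩ := witt_family e.1 s.1 e.2.1 s.2.1 (fun i j => by rw [e.2.2, s.2.2])
      exact ⟨A, Subtype.ext (funext hA)⟩
    · intro A C
      rw [← hinvK, Subtype.mk.injEq, funext_iff]
  have c2 : Nat.card ↥(Cfsg.stabilizing (Cfsg.spToMat m F) (W : Set (Fin m ⊕ Fin m → F))) =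
      Nat.card {s : Fin k → W // LinearIndependent F s} * Nat.card (K.subgroupOf (Cfsg.stabilizing (Cfsg.spToMat m F) (W : Set (Fin m ⊕ Fin m → F)))) := by
    refine card_eq_mul (K.subgroupOf _) (fun A => ⟨fun i => ⟨(A.1 : Matrix (Fin m ⊕ Fin m) (Fin m ⊕ Fin m) F) *ᵥ (e.1 i),
      (A.2 (e.1 i)).1 (b i).2⟩, LinearIndependent.of_comp W.subtype (hact A.1)⟩) ?_ ?_
    · intro s
      obtain ⟨A, hA⟩ := witt_family e.1 (fun i => (s.1 i : V m F)) e.2.1 (s.2.map' W.subtype W.ker_subtype)
        (fun i j => by rw [e.2.2, hW _ (s.1 i).2 _ (s.1 j).2])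
      refine ⟨⟨A, ?_⟩, ?_⟩
      · rw [mem_stabilizing_iff]
        intro v hv
        rw [← hspan b b.linearIndependent] at hv
        show (A : Matrix (Fin m ⊕ Fin m) (Fin m ⊕ Fin m) F) *ᵥ v ∈ W
        induction hv using Submodule.span_induction with
        | mem x hx =>
          obtain ⟨i, rfl⟩ := hx
          have := hA i
          rw [show e.1 i = (b i : V m F) from rfl] at this
          rw [this]
          exact (s.1 i).2
        | zero => rw [Matrix.mulVec_zero]; exact W.zero_mem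
        | add x y _ _ hx hy => rw [Matrix.mulVec_add]; exact W.add_mem hx hy
        | smul c x _ hx => rw [Matrix.mulVec_smul]; exact W.smul_mem _ hx
      · apply Subtype.ext
        funext i
        apply Subtype.ext
        exact hA i
    · intro A C
      rw [Subgroup.mem_subgroupOf, Subgroup.coe_mul, Subgroup.coe_inv, ← hinvK, Subtype.mk.injEq, funext_iff]
      exact forall_congr' fun i => Subtype.ext_iff
  have c3 : Nat.card (K.subgroupOf (Cfsg.stabilizing (Cfsg.spToMat m F) (W : Set (Fin m ⊕ Fin m → F)))) = Nat.card K :=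
    Nat.card_congr (Subgroup.subgroupOfEquivOfLe hKW).toEquiv
  have c4 : Nat.card {s : Fin k → W // LinearIndependent F s} = ∏ i : Fin k, (q ^ k - q ^ (i : ℕ)) := by
    have h := card_linearIndependent (K := F) (V := W) (k := k) hWk.ge
    rw [hWk, hF] at h
    exact h
  obtain ⟨l, rfl⟩ := Nat.exists_eq_add_of_le hk
  rw [Nat.add_sub_cancel_left]
  rw [Cfsg.Agent.Lib.ClSympOrd.card_symplectic, hF, arith q hq k l, card_Fr, hF] at c1
  have hpos : 0 < ∏ i ∈ Finset.range k, (q ^ (2 * (k + l) - i) - q ^ i) := by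
    rw [← hF, ← card_Fr]
    haveI : Nonempty (Fr (k + l) k F) := ⟨e⟩
    exact Nat.card_pos
  have c5 := Nat.eq_of_mul_eq_mul_left hpos c1
  rw [c2, c3, c4, ← c5]
  ring

end Cfsg.Agent.S0775
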