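import Cfsg.Statements.S0776
import Cfsg.Agent.Lib.SympGen
import Cfsg.Agent.Lib.AltBasis

set_option autoImplicit false
open Cfsg

namespace Cfsg.Agent.S0776

open Matrix Cfsg.Agent.Lib.SympMat Cfsg.Agent.Lib.SympGen Module

variable {F : Type*} [Field F]

abbrev E (m : ℕ) (F : Type*) := Fin m ⊕ Fin m → F

/-- a nondegenerate subspace is the image of a standard symplectic space -/
lemma exists_embedding {m k : ℕ} (W : Submodule F (E m F)) (hWk : finrank F W = 2 * k)
    (hW : ∀ u ∈ W, (∀ v ∈ W, sympForm m F u v = 0) → u = 0) :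
    ∃ ι : E k F →ₗ[F] E m F, (∀ a b, sympForm m F (ι a) (ι b) = sympForm k F a b) ∧ LinearMap.range ι = W := by
  classical
  obtain ⟨m', k', e, f, g, hmk, he, hf, hg, hef, hee, hff, hgw, hspan⟩ :=
    Cfsg.Agent.Lib.AltBasis.exists_family (B m F) B_isAlt (2 * k) W hWk
  have hg0 : ∀ j, g j = 0 := fun j => hW _ (hg j) (fun v hv => hgw j v hv)
  let ι : E m' F →ₗ[F] E m F :=
    { toFun := fun a => ∑ i, a (Sum.inr i) • e i + ∑ i, a (Sum.inl i) • f i
      map_add' := fun a b => by
        simp only [Pi.add_apply, add_smul, Finset.sum_add_distrib]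
        abel
      map_smul' := fun c a => by
        simp only [Pi.smul_apply, smul_eq_mul, RingHom.id_apply, smul_add, Finset.smul_sum, smul_smul] }
  have hι : ∀ a b, sympForm m F (ι a) (ι b) = sympForm m' F a b := by
    intro a b
    rw [← B_apply]
    show B m F (∑ i, a (Sum.inr i) • e i + ∑ i, a (Sum.inl i) • f i) (∑ i, b (Sum.inr i) • e i + ∑ i, b (Sum.inl i) • f i) = _
    have hfe : ∀ i j, B m F (f i) (e j) = if i = j then -1 else 0 := by
      intro i j
      rw [B_apply, sympForm_swap, ← B_apply, hef]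
      by_cases h : j = i
      · rw [if_pos h, if_pos h.symm]
      · rw [if_neg h, if_neg (fun h' => h h'.symm), neg_zero]
    rw [sympForm_apply]
    simp only [map_add, map_sum, map_smul, LinearMap.add_apply, LinearMap.sum_apply, LinearMap.smul_apply,
      hee, hff, hef, hfe, smul_eq_mul, mul_zero, Finset.sum_const_zero, add_zero, zero_add, mul_ite, mul_one,
      Finset.sum_ite_eq, Finset.sum_ite_eq', Finset.mem_univ, if_true, mul_neg]
    rw [← Finset.sum_add_distrib]
    refine Finset.sum_congr rfl fun i _ => ?_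
    ring
  have hinj : Function.Injective ι := by
    rw [injective_iff_map_eq_zero]
    intro a ha
    apply eq_zero_of_sympForm
    intro v
    rw [← hι, ha, ← B_apply, map_zero, LinearMap.zero_apply]
  have hfr : finrank F (LinearMap.range ι) = 2 * m' := by
    rw [LinearMap.finrank_range_of_inj hinj, finrank_fintype_fun_eq_card, Fintype.card_sum, Fintype.card_fin]
    ring
  have hrangeW : LinearMap.range ι ≤ W := by
    rintro _ ⟨a, rfl⟩
    exact W.add_mem (W.sum_mem fun i _ => W.smul_mem _ (he i)) (W.sum_mem fun i _ => W.smul_mem _ (hf i))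
  have hWrange : W ≤ LinearMap.range ι := by
    refine hspan.trans ?_
    rw [Submodule.span_le]
    rintro _ ((⟨i, rfl⟩ | ⟨i, rfl⟩) | ⟨i, rfl⟩)
    · refine ⟨Pi.single (Sum.inr i) 1, ?_⟩
      show ∑ j, (Pi.single (Sum.inr i) 1 : E m' F) (Sum.inr j) • e j + ∑ j, (Pi.single (Sum.inr i) 1 : E m' F) (Sum.inl j) • f j = e i
      simp [Pi.single_apply]
    · refine ⟨Pi.single (Sum.inl i) 1, ?_⟩
      show ∑ j, (Pi.single (Sum.inl i) 1 : E m' F) (Sum.inr j) • e j + ∑ j, (Pi.single (Sum.inl i) 1 : E m' F) (Sum.inl j) • f j = f i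
      simp [Pi.single_apply]
    · rw [hg0 i]
      exact Submodule.zero_mem _
  have heq : LinearMap.range ι = W := le_antisymm hrangeW hWrange
  have hk : m' = k := by
    rw [heq, hWk] at hfr
    omega
  subst hk
  exact ⟨ι, hι, heq⟩

/-- If W ≤ F^(2m) is a 2k-dimensional subspace on which the symplectic form is non-degenerate, then the stabiliser of W in Sp_2m(F) is isomorphic to Sp_2k(F) × Sp_(2m−2k)(F). -/
theorem result {F : Type*} [Field F] (m k : ℕ) (hk : k ≤ m) (W : Submodule F (Fin m ⊕ Fin m → F)) (hWk : Module.finrank F W = 2 * k) (hW : ∀ u ∈ W, (∀ v ∈ W, Cfsg.sympForm m F u v = 0) → u = 0) : Nonempty (↥(Cfsg.stabilizing (Cfsg.spToMat m F) (W : Set (Fin m ⊕ Fin m → F))) ≃* Matrix.symplecticGroup (Fin k) F × Matrix.symplecticGroup (Fin (m - k)) F) := by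
  classical
  -- the orthogonal complement
  let U : Submodule F (E m F) := LinearMap.BilinForm.orthogonal (B m F) W
  have hU : ∀ x, x ∈ U ↔ ∀ w ∈ W, sympForm m F w x = 0 := fun x => Iff.rfl
  have hfrU : finrank F U = 2 * (m - k) := by
    have h1 := LinearMap.BilinForm.finrank_orthogonal (B := B m F) B_nondegenerate W
    rw [h1, hWk, finrank_fintype_fun_eq_card, Fintype.card_sum, Fintype.card_fin]
    omega
  have hdis : ∀ x, x ∈ W → x ∈ U → x = 0 := by
    intro x hx hxU
    apply hW x hx
    intro v hv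
    rw [sympForm_swap, (hU x).1 hxU v hv, neg_zero]
  have hcompl : ∀ x, ∃ w ∈ W, ∃ u ∈ U, x = w + u := by
    have hd : Disjoint W U := by
      rw [Submodule.disjoint_def]
      exact hdis
    have h1 : W ⊔ U = ⊤ := by
      apply Submodule.eq_top_of_finrank_eq
      have h2 := Submodule.finrank_sup_add_finrank_inf_eq W U
      rw [hd.eq_bot, finrank_bot, hWk, hfrU] at h2
      rw [finrank_fintype_fun_eq_card, Fintype.card_sum, Fintype.card_fin]
      omega
    intro x
    have h2 : x ∈ W ⊔ U := by rw [h1]; trivial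
    obtain ⟨w, hw, u, hu, h3⟩ := Submodule.mem_sup.1 h2
    exact ⟨w, hw, u, hu, h3.symm⟩
  have hUnd : ∀ u ∈ U, (∀ v ∈ U, sympForm m F u v = 0) → u = 0 := by
    intro u hu h
    apply eq_zero_of_sympForm
    intro v
    obtain ⟨w, hw, u', hu', rfl⟩ := hcompl v
    rw [sympForm_add_right, h u' hu', sympForm_swap, (hU u).1 hu w hw, neg_zero, add_zero]
  obtain ⟨ι₁, hι₁, hr₁⟩ := exists_embedding W hWk hW
  obtain ⟨ι₂, hι₂, hr₂⟩ := exists_embedding U hfrU hUnd
  have hι₁W : ∀ a, ι₁ a ∈ W := fun a => hr₁ ▸ ⟨a, rfl⟩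
  have hι₂U : ∀ a, ι₂ a ∈ U := fun a => hr₂ ▸ ⟨a, rfl⟩
  have hcross : ∀ a b, sympForm m F (ι₁ a) (ι₂ b) = 0 := fun a b => (hU _).1 (hι₂U b) _ (hι₁W a)
  have hcross' : ∀ a b, sympForm m F (ι₂ b) (ι₁ a) = 0 := fun a b => by rw [sympForm_swap, hcross, neg_zero]
  -- the isometry
  let τ₀ : E k F × E (m - k) F →ₗ[F] E m F := ι₁.coprod ι₂
  have hτ₀ : ∀ x y, sympForm m F (τ₀ x) (τ₀ y) = sympForm k F x.1 y.1 + sympForm (m - k) F x.2 y.2 := by
    intro x y
    show sympForm m F (ι₁.coprod ι₂ x) (ι₁.coprod ι₂ y) = _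
    rw [LinearMap.coprod_apply, LinearMap.coprod_apply, sympForm_add_left, sympForm_add_right, sympForm_add_right,
      hcross, hcross', hι₁, hι₂, add_zero, zero_add]
  have hinj : Function.Injective τ₀ := by
    rw [injective_iff_map_eq_zero]
    intro x hx
    have h1 : x.1 = 0 := by
      apply eq_zero_of_sympForm
      intro v
      have := hτ₀ x (v, 0)
      rw [hx, ← B_apply, map_zero, LinearMap.zero_apply, ← B_apply, ← B_apply, map_zero, add_zero] at this
      rw [← B_apply]; exact this.symm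
    have h2 : x.2 = 0 := by
      apply eq_zero_of_sympForm
      intro v
      have := hτ₀ x (0, v)
      rw [hx, ← B_apply, map_zero, LinearMap.zero_apply, ← B_apply, ← B_apply, map_zero, zero_add] at this
      rw [← B_apply]; exact this.symm
    exact Prod.ext h1 h2
  have hfr : finrank F (E k F × E (m - k) F) = finrank F (E m F) := by
    rw [finrank_prod, finrank_fintype_fun_eq_card, finrank_fintype_fun_eq_card, finrank_fintype_fun_eq_card,
      Fintype.card_sum, Fintype.card_sum, Fintype.card_sum, Fintype.card_fin, Fintype.card_fin, Fintype.card_fin]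
    omega
  let τ : (E k F × E (m - k) F) ≃ₗ[F] E m F := LinearEquiv.ofInjectiveOfFinrankEq τ₀ hinj hfr
  have hτa : ∀ x, τ x = τ₀ x := fun x => rfl
  have hτ : ∀ x y, sympForm m F (τ x) (τ y) = sympForm k F x.1 y.1 + sympForm (m - k) F x.2 y.2 := hτ₀
  have hτW : ∀ x, τ x ∈ W ↔ x.2 = 0 := by
    intro x
    have h1 : τ x = ι₁ x.1 + ι₂ x.2 := rfl
    rw [h1]
    constructor
    · intro h
      have h2 : ι₂ x.2 ∈ W := by
        have := W.sub_mem h (hι₁W x.1)
        rwa [add_sub_cancel_left] at this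
      have h3 := hdis _ h2 (hι₂U _)
      have h4 : τ₀ (0, x.2) = τ₀ 0 := by
        show ι₁ 0 + ι₂ x.2 = τ₀ 0
        rw [h3, map_zero, map_zero, add_zero]
      exact congrArg Prod.snd (hinj h4)
    · intro h
      rw [h, map_zero, add_zero]
      exact hι₁W _
  -- the product map
  let θ : (symplecticGroup (Fin k) F × symplecticGroup (Fin (m - k)) F) →* (E m F ≃ₗ[F] E m F) :=
    { toFun := fun AD => τ.symm.trans ((LinearEquiv.prodCongr (Φ k F AD.1) (Φ (m - k) F AD.2)).trans τ)
      map_one' := by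
        ext1 x
        show τ ((Φ k F 1) (τ.symm x).1, (Φ (m - k) F 1) (τ.symm x).2) = x
        rw [map_one, map_one]
        exact τ.apply_symm_apply x
      map_mul' := fun A D => by
        ext1 x
        show τ ((Φ k F (A.1 * D.1)) (τ.symm x).1, (Φ (m - k) F (A.2 * D.2)) (τ.symm x).2) =
          τ ((Φ k F A.1) (τ.symm (τ ((Φ k F D.1) (τ.symm x).1, (Φ (m - k) F D.2) (τ.symm x).2))).1,
            (Φ (m - k) F A.2) (τ.symm (τ ((Φ k F D.1) (τ.symm x).1, (Φ (m - k) F D.2) (τ.symm x).2))).2)
        rw [τ.symm_apply_apply, map_mul, map_mul]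
        rfl }
  have hθ : ∀ AD x, θ AD (τ x) = τ ((Φ k F AD.1) x.1, (Φ (m - k) F AD.2) x.2) := by
    intro AD x
    show τ ((Φ k F AD.1) (τ.symm (τ x)).1, (Φ (m - k) F AD.2) (τ.symm (τ x)).2) = _
    rw [τ.symm_apply_apply]
  have hθinj : Function.Injective θ := by
    intro A D h
    apply Prod.ext
    · apply Φ_injective
      ext1 a
      have := hθ A (a, 0)
      rw [h, hθ D] at this
      exact (congrArg Prod.fst (τ.injective this)).symm
    · apply Φ_injective
      ext1 a
      have := hθ A (0, a)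
      rw [h, hθ D] at this
      exact (congrArg Prod.snd (τ.injective this)).symm
  have hmemsp : ∀ {l : ℕ} (A : symplecticGroup (Fin l) F) (u v : E l F),
      sympForm l F (Φ l F A u) (Φ l F A v) = sympForm l F u v := by
    intro l A u v
    rw [Φ_apply, Φ_apply]
    exact mem_iff.1 A.2 u v
  have hrange : θ.range = (Cfsg.stabilizing (Cfsg.spToMat m F) (W : Set (Fin m ⊕ Fin m → F))).map (Φ m F) := by
    apply le_antisymm
    · rintro _ ⟨AD, rfl⟩
      obtain ⟨X, hX⟩ := exists_of_isometry (m := m) (F := F) (g := θ AD) (by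
        intro u v
        obtain ⟨x, rfl⟩ := τ.surjective u
        obtain ⟨y, rfl⟩ := τ.surjective v
        rw [hθ, hθ, hτ, hτ, hmemsp, hmemsp])
      refine ⟨X, ?_, hX⟩
      intro v
      show v ∈ W ↔ (X : Matrix (Fin m ⊕ Fin m) (Fin m ⊕ Fin m) F) *ᵥ v ∈ W
      rw [← Φ_apply, hX]
      obtain ⟨x, rfl⟩ := τ.surjective v
      rw [hθ, hτW, hτW]
      exact ((Φ (m - k) F AD.2).map_eq_zero_iff).symm
    · rintro _ ⟨X, hX, rfl⟩
      have hXW : ∀ v, v ∈ W ↔ Φ m F X v ∈ W := hX
      let h : (E k F × E (m - k) F) →ₗ[F] (E k F × E (m - k) F) :=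
        τ.symm.toLinearMap.comp ((Φ m F X).toLinearMap.comp τ.toLinearMap)
      have hh : ∀ x, τ (h x) = Φ m F X (τ x) := fun x => τ.apply_symm_apply _
      have hiso : ∀ x y, sympForm k F (h x).1 (h y).1 + sympForm (m - k) F (h x).2 (h y).2 =
          sympForm k F x.1 y.1 + sympForm (m - k) F x.2 y.2 := by
        intro x y
        rw [← hτ, ← hτ, hh, hh, hmemsp]
      have h1 : ∀ a, (h (a, 0)).2 = 0 := by
        intro a
        rw [← hτW, hh, ← hXW, hτW]
      have hsurj : ∀ c : E k F, ∃ a : E k F, h (a, 0) = (c, 0) := by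
        intro c
        obtain ⟨v, hv⟩ := (Φ m F X).surjective (τ (c, 0))
        obtain ⟨x, rfl⟩ := τ.surjective v
        have h2 : x.2 = 0 := by
          rw [← hτW, hXW, hv, hτW]
        refine ⟨x.1, ?_⟩
        apply τ.injective
        rw [hh, ← hv]
        congr 2
        exact Prod.ext rfl h2.symm
      have h2 : ∀ b, (h (0, b)).1 = 0 := by
        intro b
        apply eq_zero_of_sympForm
        intro c
        obtain ⟨a, ha⟩ := hsurj c
        have := hiso (0, b) (a, 0)
        rw [ha] at this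
        simp only at this
        rw [← B_apply, ← B_apply, ← B_apply, ← B_apply, map_zero, map_zero, map_zero, LinearMap.zero_apply, add_zero, add_zero] at this
        rw [← B_apply]
        exact this
      let h₁ : E k F →ₗ[F] E k F := (LinearMap.fst F _ _).comp (h.comp (LinearMap.inl F _ _))
      let h₂ : E (m - k) F →ₗ[F] E (m - k) F := (LinearMap.snd F _ _).comp (h.comp (LinearMap.inr F _ _))
      have e₁ : ∀ a, h (a, 0) = (h₁ a, 0) := fun a => Prod.ext rfl (h1 a)
      have e₂ : ∀ b, h (0, b) = (0, h₂ b) := fun b => Prod.ext (h2 b) rfl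
      have i₁ : ∀ a b, sympForm k F (h₁ a) (h₁ b) = sympForm k F a b := by
        intro a b
        have := hiso (a, 0) (b, 0)
        rw [e₁, e₁] at this
        simp only [← B_apply, map_zero, add_zero] at this
        exact this
      have i₂ : ∀ a b, sympForm (m - k) F (h₂ a) (h₂ b) = sympForm (m - k) F a b := by
        intro a b
        have := hiso (0, a) (0, b)
        rw [e₂, e₂] at this
        simp only [← B_apply, map_zero, zero_add] at this
        exact this
      have mk : ∀ {l : ℕ} (h : E l F →ₗ[F] E l F), (∀ a b, sympForm l F (h a) (h b) = sympForm l F a b) →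
          ∃ A : symplecticGroup (Fin l) F, ∀ a, Φ l F A a = h a := by
        intro l h hi
        refine ⟨⟨LinearMap.toMatrix' h, ?_⟩, fun a => by
          rw [Φ_apply]
          exact LinearMap.toMatrix'_mulVec _ _⟩
        rw [mem_iff]
        intro u v
        rw [LinearMap.toMatrix'_mulVec, LinearMap.toMatrix'_mulVec]
        exact hi u v
      obtain ⟨A, hA⟩ := mk h₁ i₁
      obtain ⟨D, hD⟩ := mk h₂ i₂
      refine ⟨(A, D), ?_⟩
      ext1 v
      obtain ⟨x, rfl⟩ := τ.surjective v
      rw [hθ, hA, hD, ← hh]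
      congr 1
      have : x = (x.1, 0) + (0, x.2) := by simp
      rw [this, map_add, e₁, e₂]
      simp
  exact ⟨((Subgroup.equivMapOfInjective _ _ Φ_injective).trans (MulEquiv.subgroupCongr hrange.symm)).trans
    (MonoidHom.ofInjective hθinj).symm⟩

end Cfsg.Agent.S0776
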