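import Cfsg.Statements.S0777
import Cfsg.Agent.Lib.StabMat
import Cfsg.Agent.Lib.SympMat

set_option autoImplicit false
open Cfsg

namespace Cfsg.Agent.S0777

open Matrix Cfsg.Agent.Lib.StabMat Cfsg.Agent.Lib.SympMat

variable {F : Type*} [Field F] {m : ℕ}

/-- index on one of the two sides -/
def sd (m : ℕ) (b : Bool) (i : Fin m) : Fin m ⊕ Fin m := if b then Sum.inr i else Sum.inl i

/-- the partner of an index -/
def sw (x : Fin m ⊕ Fin m) : Fin m ⊕ Fin m := x.swap

lemma sd_inj {b b' : Bool} {i i' : Fin m} : sd m b i = sd m b' i' ↔ b = b' ∧ i = i' := by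
  cases b <;> cases b' <;> simp [sd]

lemma exists_sd (x : Fin m ⊕ Fin m) : ∃ b i, x = sd m b i := by
  rcases x with i | i
  · exact ⟨false, i, rfl⟩
  · exact ⟨true, i, rfl⟩

lemma sw_sd (b : Bool) (i : Fin m) : sw (sd m b i) = sd m (!b) i := by
  cases b <;> rfl

lemma sw_sw (x : Fin m ⊕ Fin m) : sw (sw x) = x := Sum.swap_swap x

/-- the form on basis vectors -/
lemma form_single (x y : Fin m ⊕ Fin m) : sympForm m F (Pi.single x 1) (Pi.single y 1) =
    if y = sw x then (if x.isRight then 1 else -1) else 0 := by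
  rcases y with j | j
  · rw [sympForm_single_inl]
    rcases x with i | i
    · simp [sw]
    · by_cases h : j = i
      · subst h; simp [sw]
      · simp [sw, h, Ne.symm h]
  · rw [sympForm_single_inr]
    rcases x with i | i
    · by_cases h : j = i
      · subst h; simp [sw]
      · simp [sw, h, Ne.symm h]
    · simp [sw]

lemma mem_of_basis {A : Matrix (Fin m ⊕ Fin m) (Fin m ⊕ Fin m) F}
    (h : ∀ x y, sympForm m F (A *ᵥ (Pi.single x 1)) (A *ᵥ (Pi.single y 1)) = sympForm m F (Pi.single x 1) (Pi.single y 1)) :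
    A ∈ symplecticGroup (Fin m) F := by
  rw [mem_iff]
  have h1 : (B m F).compl₁₂ A.mulVecLin A.mulVecLin = B m F := by
    apply LinearMap.ext_basis (Pi.basisFun F (Fin m ⊕ Fin m)) (Pi.basisFun F (Fin m ⊕ Fin m))
    intro x y
    rw [LinearMap.compl₁₂_apply, Pi.basisFun_apply, Pi.basisFun_apply]
    exact h x y
  intro u v
  have := congrArg (fun f => f u v) h1
  exact this

/-- the data -/
abbrev D (m : ℕ) (F : Type*) [Field F] := (Equiv.Perm (Fin m) × (Fin m → Bool)) × (Fin m → Fˣ)

/-- column data: image index and coefficient -/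
def tgt (d : D m F) : Fin m ⊕ Fin m → Fin m ⊕ Fin m
  | Sum.inl i => sd m (d.1.2 i) (d.1.1 i)
  | Sum.inr i => sd m (! d.1.2 i) (d.1.1 i)

def cf (d : D m F) : Fin m ⊕ Fin m → F
  | Sum.inl i => (d.2 i : F)
  | Sum.inr i => if d.1.2 i then - ((d.2 i : F)⁻¹) else (d.2 i : F)⁻¹

lemma cf_ne (d : D m F) (x : Fin m ⊕ Fin m) : cf d x ≠ 0 := by
  rcases x with i | i
  · exact (d.2 i).ne_zero
  · simp only [cf]
    split_ifs
    · exact neg_ne_zero.2 (inv_ne_zero (d.2 i).ne_zero)
    · exact inv_ne_zero (d.2 i).ne_zero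

lemma tgt_sw (d : D m F) (x : Fin m ⊕ Fin m) : tgt d (sw x) = sw (tgt d x) := by
  rcases x with i | i
  · show sd m (! d.1.2 i) (d.1.1 i) = sw (sd m (d.1.2 i) (d.1.1 i))
    rw [sw_sd]
  · show sd m (d.1.2 i) (d.1.1 i) = sw (sd m (! d.1.2 i) (d.1.1 i))
    rw [sw_sd, Bool.not_not]

lemma tgt_inj (d : D m F) : Function.Injective (tgt d) := by
  intro x y h
  rcases x with i | i <;> rcases y with j | j <;> simp only [tgt, sd_inj] at h
  · rw [d.1.1.injective h.2]
  · have := d.1.1.injective h.2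
    subst this
    exact absurd h.1 (by simp)
  · have := d.1.1.injective h.2
    subst this
    exact absurd h.1 (by simp)
  · rw [d.1.1.injective h.2]

/-- the matrix -/
def M (d : D m F) : Matrix (Fin m ⊕ Fin m) (Fin m ⊕ Fin m) F :=
  Matrix.of fun x y => if x = tgt d y then cf d y else 0

lemma M_single (d : D m F) (y : Fin m ⊕ Fin m) : M d *ᵥ (Pi.single y 1) = cf d y • Pi.single (tgt d y) 1 := by
  rw [Matrix.mulVec_single_one]
  funext x
  rw [Pi.smul_apply, Pi.single_apply, smul_eq_mul]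
  show (if x = tgt d y then cf d y else 0) = _
  split_ifs <;> simp

lemma M_mem (d : D m F) : M d ∈ symplecticGroup (Fin m) F := by
  apply mem_of_basis
  intro x y
  rw [M_single, M_single, sympForm_smul_left, sympForm_smul_right, form_single, form_single]
  by_cases h : y = sw x
  · subst h
    rw [if_pos (tgt_sw d x), if_pos rfl]
    rcases x with i | i
    · have h1 : sw (Sum.inl i : Fin m ⊕ Fin m) = Sum.inr i := rfl
      rw [h1]
      simp only [cf, tgt, Sum.isRight_inl]
      have h2 := (d.2 i).ne_zero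
      rcases Bool.eq_false_or_eq_true (d.1.2 i) with h3 | h3
      · simp only [h3, sd, if_true, Sum.isRight_inr, Bool.false_eq_true, if_false]
        field_simp
      · simp only [h3, sd, Bool.false_eq_true, if_false, Sum.isRight_inl]
        field_simp
    · have h1 : sw (Sum.inr i : Fin m ⊕ Fin m) = Sum.inl i := rfl
      rw [h1]
      simp only [cf, tgt, Sum.isRight_inr]
      have h2 := (d.2 i).ne_zero
      rcases Bool.eq_false_or_eq_true (d.1.2 i) with h3 | h3
      · simp only [h3, sd, Bool.not_true, if_true, Sum.isRight_inl, Bool.false_eq_true, if_false]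
        field_simp
      · simp only [h3, sd, Bool.not_false, if_true, Sum.isRight_inr, Bool.false_eq_true, if_false]
        field_simp
  · rw [if_neg h, if_neg, mul_zero, mul_zero]
    intro h'
    rw [← tgt_sw] at h'
    exact h (tgt_inj d h')

lemma M_inj : Function.Injective (M (m := m) (F := F)) := by
  intro d d' h
  have h1 : ∀ y, cf d y • (Pi.single (tgt d y) 1 : Fin m ⊕ Fin m → F) = cf d' y • Pi.single (tgt d' y) 1 := by
    intro y
    rw [← M_single, ← M_single, h]
  have h2 : ∀ y, tgt d y = tgt d' y := by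
    intro y
    by_contra hne
    have := congrFun (h1 y) (tgt d y)
    rw [Pi.smul_apply, Pi.smul_apply, Pi.single_eq_same, Pi.single_eq_of_ne hne, smul_zero, smul_eq_mul, mul_one] at this
    exact cf_ne d y this
  have h3 : ∀ y, cf d y = cf d' y := by
    intro y
    have := congrFun (h1 y) (tgt d y)
    rwa [← h2 y, Pi.smul_apply, Pi.smul_apply, Pi.single_eq_same, smul_eq_mul, smul_eq_mul, mul_one, mul_one] at this
  have h4 : ∀ i, d.1.2 i = d'.1.2 i ∧ d.1.1 i = d'.1.1 i := fun i => sd_inj.1 (h2 (Sum.inl i))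
  apply Prod.ext
  · apply Prod.ext
    · exact Equiv.ext fun i => (h4 i).2
    · exact funext fun i => (h4 i).1
  · exact funext fun i => Units.ext (h3 (Sum.inl i))

set_option maxHeartbeats 1000000 in
/-- Weyl group of type C_m: for q ≥ 4 the diagonal matrices of Sp_2m(q) form a torus T ≅ (C_(q−1))^m (the elements stabilising every coordinate axis), and the normaliser of T in Sp_2m(q) has order 2^m · m! · (q − 1)^m. -/
theorem result {F : Type*} [Field F] [Fintype F] {q : ℕ} (hF : Fintype.card F = q) (hq : 4 ≤ q) (m : ℕ) : Nat.card ↥(Subgroup.normalizer (⨅ i : Fin m ⊕ Fin m, Cfsg.stabilizing (Cfsg.spToMat m F) ((Submodule.span F {(Pi.single i (1 : F) : Fin m ⊕ Fin m → F)} : Submodule F (Fin m ⊕ Fin m → F)) : Set (Fin m ⊕ Fin m → F)) : Set (Matrix.symplecticGroup (Fin m) F))) = 2 ^ m * Nat.factorial m * (q - 1) ^ m := by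
  classical
  set T : Subgroup (symplecticGroup (Fin m) F) := ⨅ i : Fin m ⊕ Fin m, Cfsg.stabilizing (Cfsg.spToMat m F) ((Submodule.span F {(Pi.single i (1 : F) : Fin m ⊕ Fin m → F)} : Submodule F (Fin m ⊕ Fin m → F)) : Set (Fin m ⊕ Fin m → F)) with hT
  have hsm : ∀ (A : Matrix (Fin m ⊕ Fin m) (Fin m ⊕ Fin m) F) (y : Fin m ⊕ Fin m),
      (∀ v ∈ Submodule.span F {(Pi.single y (1 : F) : Fin m ⊕ Fin m → F)}, A *ᵥ v ∈ Submodule.span F {(Pi.single y (1 : F) : Fin m ⊕ Fin m → F)}) ↔
      ∃ c : F, A *ᵥ (Pi.single y 1) = c • (Pi.single y 1 : Fin m ⊕ Fin m → F) := by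
    intro A y
    constructor
    · intro h
      obtain ⟨c, hc⟩ := Submodule.mem_span_singleton.1 (h _ (Submodule.mem_span_singleton_self _))
      exact ⟨c, hc.symm⟩
    · rintro ⟨c, hc⟩ v hv
      obtain ⟨a, rfl⟩ := Submodule.mem_span_singleton.1 hv
      rw [Matrix.mulVec_smul, hc]
      exact Submodule.smul_mem _ _ (Submodule.smul_mem _ _ (Submodule.mem_span_singleton_self _))
  have hTmem : ∀ A : symplecticGroup (Fin m) F, A ∈ T ↔ ∀ y, ∃ c : F, (A : Matrix (Fin m ⊕ Fin m) (Fin m ⊕ Fin m) F) *ᵥ (Pi.single y 1) = c • (Pi.single y 1 : Fin m ⊕ Fin m → F) := by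
    intro A
    rw [hT, Subgroup.mem_iInf]
    refine forall_congr' fun y => ?_
    rw [mem_stabilizing_iff]
    exact hsm _ y
  have hmv : ∀ (A C : symplecticGroup (Fin m) F) (v : Fin m ⊕ Fin m → F), ((A * C : symplecticGroup (Fin m) F) : Matrix (Fin m ⊕ Fin m) (Fin m ⊕ Fin m) F) *ᵥ v =
      (A : Matrix (Fin m ⊕ Fin m) (Fin m ⊕ Fin m) F) *ᵥ ((C : Matrix (Fin m ⊕ Fin m) (Fin m ⊕ Fin m) F) *ᵥ v) := by
    intro A C v
    rw [Matrix.mulVec_mulVec]; rfl
  have hinv1 : ∀ (A : symplecticGroup (Fin m) F) (v : Fin m ⊕ Fin m → F), ((A⁻¹ : symplecticGroup (Fin m) F) : Matrix (Fin m ⊕ Fin m) (Fin m ⊕ Fin m) F) *ᵥ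
      ((A : Matrix (Fin m ⊕ Fin m) (Fin m ⊕ Fin m) F) *ᵥ v) = v := by
    intro A v
    rw [← hmv, inv_mul_cancel]
    exact Matrix.one_mulVec v
  have hinj : ∀ (A : symplecticGroup (Fin m) F) {u v : Fin m ⊕ Fin m → F}, (A : Matrix (Fin m ⊕ Fin m) (Fin m ⊕ Fin m) F) *ᵥ u =
      (A : Matrix (Fin m ⊕ Fin m) (Fin m ⊕ Fin m) F) *ᵥ v → u = v := by
    intro A u v h
    rw [← hinv1 A u, h, hinv1]
  -- separating torus elements
  obtain ⟨a, ha0, ha1⟩ : ∃ a : F, a ≠ 0 ∧ a ^ 2 ≠ 1 := by
    by_contra hcon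
    push Not at hcon
    have h1 : (Finset.univ : Finset F) ⊆ {0, 1, -1} := by
      intro a _
      by_cases ha : a = 0
      · simp [ha]
      · have h2 : (a - 1) * (a + 1) = 0 := by linear_combination hcon a ha
        rcases mul_eq_zero.1 h2 with h | h
        · simp [sub_eq_zero.1 h]
        · simp [eq_neg_of_add_eq_zero_left h]
    have h2 := Finset.card_le_card h1
    rw [Finset.card_univ, hF] at h2
    have h3 := Finset.card_le_three (a := (0 : F)) (b := 1) (c := -1)
    omega
  have hat : a ≠ a⁻¹ := by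
    intro h
    apply ha1
    rw [pow_two]
    nth_rewrite 2 [h]
    exact mul_inv_cancel₀ ha0
  have ha1' : a ≠ 1 := by
    rintro rfl
    exact ha1 (one_pow 2)
  have hai1 : a⁻¹ ≠ 1 := by
    intro h
    exact ha1' (by rw [← inv_inv a, h, inv_one])
  let td : Fin m → D m F := fun i => ((1, fun _ => false), fun j => if j = i then Units.mk0 a ha0 else 1)
  have htd_tgt : ∀ i y, tgt (td i) y = y := by
    intro i y
    rcases y with j | j <;> simp [tgt, td, sd]
  have htd_l : ∀ i j, cf (td i) (Sum.inl j) = if j = i then a else 1 := by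
    intro i j
    simp only [cf, td]
    split_ifs <;> rfl
  have htd_r : ∀ i j, cf (td i) (Sum.inr j) = if j = i then a⁻¹ else 1 := by
    intro i j
    simp only [cf, td, Bool.false_eq_true, if_false]
    split_ifs
    · rfl
    · rw [Units.val_one, inv_one]
  have hsep : ∀ x y : Fin m ⊕ Fin m, x ≠ y → ∃ i, cf (td i) x ≠ cf (td i) y := by
    intro x y hxy
    rcases x with i | i <;> rcases y with j | j
    · refine ⟨i, ?_⟩
      rw [htd_l, htd_l, if_pos rfl, if_neg]
      · exact ha1'
      · rintro rfl; exact hxy rfl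
    · refine ⟨i, ?_⟩
      rw [htd_l, htd_r, if_pos rfl]
      split_ifs
      · exact hat
      · exact ha1'
    · refine ⟨i, ?_⟩
      rw [htd_l, htd_r, if_pos rfl]
      split_ifs
      · exact hat.symm
      · exact hai1
    · refine ⟨i, ?_⟩
      rw [htd_r, htd_r, if_pos rfl, if_neg]
      · exact hai1
      · rintro rfl; exact hxy rfl
  have htdT : ∀ i, (⟨M (td i), M_mem _⟩ : symplecticGroup (Fin m) F) ∈ T := by
    intro i
    rw [hTmem]
    intro y
    refine ⟨cf (td i) y, ?_⟩
    show M (td i) *ᵥ (Pi.single y 1) = _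
    rw [M_single, htd_tgt]
  -- elements of the family normalise T
  have hnorm : ∀ d : D m F, (⟨M d, M_mem d⟩ : symplecticGroup (Fin m) F) ∈ Subgroup.normalizer (T : Set (symplecticGroup (Fin m) F)) := by
    intro d
    set A : symplecticGroup (Fin m) F := ⟨M d, M_mem d⟩ with hA
    have hAs : ∀ y, (A : Matrix (Fin m ⊕ Fin m) (Fin m ⊕ Fin m) F) *ᵥ (Pi.single y 1) = cf d y • (Pi.single (tgt d y) 1 : Fin m ⊕ Fin m → F) := M_single d
    have hsurj : Function.Surjective (tgt d) := Finite.injective_iff_surjective.1 (tgt_inj d)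
    rw [Subgroup.mem_normalizer_iff]
    intro t
    show t ∈ T ↔ A * t * A⁻¹ ∈ T
    rw [hTmem, hTmem]
    have h5 : ∀ y, (∃ c : F, ((A * t * A⁻¹ : symplecticGroup (Fin m) F) : Matrix (Fin m ⊕ Fin m) (Fin m ⊕ Fin m) F) *ᵥ (Pi.single (tgt d y) 1) = c • (Pi.single (tgt d y) 1 : Fin m ⊕ Fin m → F)) ↔
        ∃ c : F, (t : Matrix (Fin m ⊕ Fin m) (Fin m ⊕ Fin m) F) *ᵥ (Pi.single y 1) = c • (Pi.single y 1 : Fin m ⊕ Fin m → F) := by
      intro y
      have h6 : (Pi.single (tgt d y) 1 : Fin m ⊕ Fin m → F) = (cf d y)⁻¹ • ((A : Matrix (Fin m ⊕ Fin m) (Fin m ⊕ Fin m) F) *ᵥ (Pi.single y 1)) := by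
        rw [hAs, smul_smul, inv_mul_cancel₀ (cf_ne d y), one_smul]
      have h7 : ((A * t * A⁻¹ : symplecticGroup (Fin m) F) : Matrix (Fin m ⊕ Fin m) (Fin m ⊕ Fin m) F) *ᵥ (Pi.single (tgt d y) 1)
          = (A : Matrix (Fin m ⊕ Fin m) (Fin m ⊕ Fin m) F) *ᵥ ((cf d y)⁻¹ • ((t : Matrix (Fin m ⊕ Fin m) (Fin m ⊕ Fin m) F) *ᵥ (Pi.single y 1))) := by
        rw [hmv, hmv, h6, Matrix.mulVec_smul, hinv1, Matrix.mulVec_smul]
      rw [h7]
      refine exists_congr fun c => ?_
      have h8 : c • (Pi.single (tgt d y) 1 : Fin m ⊕ Fin m → F) = (A : Matrix (Fin m ⊕ Fin m) (Fin m ⊕ Fin m) F) *ᵥ ((cf d y)⁻¹ • (c • (Pi.single y 1 : Fin m ⊕ Fin m → F))) := by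
        rw [Matrix.mulVec_smul, Matrix.mulVec_smul, hAs, smul_smul, smul_smul]
        congr 1
        field_simp [cf_ne d y]
      rw [h8]
      constructor
      · intro h
        have := hinj A h
        have h9 := congrArg (fun v => cf d y • v) this
        simp only [smul_smul, mul_inv_cancel₀ (cf_ne d y), one_smul] at h9
        rw [h9, ← mul_assoc, mul_inv_cancel₀ (cf_ne d y), one_mul]
      · intro h
        rw [h]
    constructor
    · intro h y
      obtain ⟨x, rfl⟩ := hsurj y
      exact (h5 x).2 (h x)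
    · intro h y
      exact (h5 y).1 (h _)
  -- every normalising element belongs to the family
  have hfam : ∀ A : symplecticGroup (Fin m) F, A ∈ Subgroup.normalizer (T : Set (symplecticGroup (Fin m) F)) → ∃ d : D m F, M d = (A : Matrix (Fin m ⊕ Fin m) (Fin m ⊕ Fin m) F) := by
    intro A hA
    have hmono : ∀ y, ∃ x, ∃ c : F, c ≠ 0 ∧ (A : Matrix (Fin m ⊕ Fin m) (Fin m ⊕ Fin m) F) *ᵥ (Pi.single y 1) = c • (Pi.single x 1 : Fin m ⊕ Fin m → F) := by
      intro y
      have hne : (A : Matrix (Fin m ⊕ Fin m) (Fin m ⊕ Fin m) F) *ᵥ (Pi.single y 1) ≠ 0 := by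
        intro h
        have h2 : (Pi.single y 1 : Fin m ⊕ Fin m → F) = 0 := hinj A (by rw [h, Matrix.mulVec_zero])
        have := congrFun h2 y
        rw [Pi.single_eq_same, Pi.zero_apply] at this
        exact one_ne_zero this
      obtain ⟨x, hx⟩ := Function.ne_iff.1 hne
      refine ⟨x, ((A : Matrix (Fin m ⊕ Fin m) (Fin m ⊕ Fin m) F) *ᵥ (Pi.single y 1)) x, hx, ?_⟩
      funext z
      by_cases hz : z = x
      · subst hz; simp
      · rw [Pi.smul_apply, Pi.single_eq_of_ne hz, smul_zero]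
        by_contra hz0
        obtain ⟨i, hi⟩ := hsep x z (Ne.symm hz)
        -- conjugate the torus element
        set t : symplecticGroup (Fin m) F := ⟨M (td i), M_mem _⟩ with ht
        have h1 : A⁻¹ * t * A ∈ T := by
          have h2 := (Subgroup.mem_normalizer_iff.1 ((Subgroup.normalizer (T : Set (symplecticGroup (Fin m) F))).inv_mem hA) t).1 (htdT i)
          rwa [inv_inv] at h2
        obtain ⟨c, hc⟩ := (hTmem _).1 h1 y
        have h2 : (t : Matrix (Fin m ⊕ Fin m) (Fin m ⊕ Fin m) F) *ᵥ ((A : Matrix (Fin m ⊕ Fin m) (Fin m ⊕ Fin m) F) *ᵥ (Pi.single y 1)) =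
            c • ((A : Matrix (Fin m ⊕ Fin m) (Fin m ⊕ Fin m) F) *ᵥ (Pi.single y 1)) := by
          rw [← Matrix.mulVec_smul, ← hc, ← hmv, ← hmv]
          congr 2
          group
        have h3 : ∀ (v : Fin m ⊕ Fin m → F) w, ((t : Matrix (Fin m ⊕ Fin m) (Fin m ⊕ Fin m) F) *ᵥ v) w = cf (td i) w * v w := by
          intro v w
          show (M (td i) *ᵥ v) w = _
          rw [Matrix.mulVec, dotProduct, Finset.sum_eq_single w]
          · simp only [M, of_apply, htd_tgt, if_true]
          · intro w' _ hw'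
            simp only [M, of_apply, htd_tgt]
            rw [if_neg (Ne.symm hw'), zero_mul]
          · intro h; exact absurd (Finset.mem_univ _) h
        have h4 := congrFun h2 x
        have h5 := congrFun h2 z
        rw [h3, Pi.smul_apply, smul_eq_mul] at h4 h5
        exact hi ((mul_right_cancel₀ hx h4).trans (mul_right_cancel₀ hz0 h5).symm)
    choose σ c hc0 hc using hmono
    have hform : ∀ x y, c x * (c y * sympForm m F (Pi.single (σ x) 1) (Pi.single (σ y) 1)) = sympForm m F (Pi.single x 1) (Pi.single y 1) := by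
      intro x y
      rw [← mem_iff.1 A.2 (Pi.single x 1) (Pi.single y 1), hc, hc, sympForm_smul_left, sympForm_smul_right]
    have hσsw : ∀ x, σ (sw x) = sw (σ x) := by
      intro x
      by_contra hne
      have := hform x (sw x)
      rw [form_single, form_single, if_neg hne, if_pos rfl, mul_zero, mul_zero] at this
      split_ifs at this
      · exact one_ne_zero this.symm
      · exact neg_ne_zero.2 one_ne_zero this.symm
    have hσinj : Function.Injective σ := by
      intro x y hxy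
      by_contra hne
      have h1 : (A : Matrix (Fin m ⊕ Fin m) (Fin m ⊕ Fin m) F) *ᵥ ((c x)⁻¹ • Pi.single x 1) = (A : Matrix (Fin m ⊕ Fin m) (Fin m ⊕ Fin m) F) *ᵥ ((c y)⁻¹ • Pi.single y 1) := by
        rw [Matrix.mulVec_smul, Matrix.mulVec_smul, hc, hc, smul_smul, smul_smul, inv_mul_cancel₀ (hc0 x), inv_mul_cancel₀ (hc0 y), hxy]
      have h2 := congrFun (hinj A h1) x
      rw [Pi.smul_apply, Pi.smul_apply, Pi.single_eq_same, Pi.single_eq_of_ne hne, smul_zero, smul_eq_mul, mul_one] at h2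
      exact inv_ne_zero (hc0 x) h2
    choose ε π hεπ using fun i : Fin m => exists_sd (σ (Sum.inl i))
    have hεπr : ∀ i, σ (Sum.inr i) = sd m (! ε i) (π i) := by
      intro i
      have := hσsw (Sum.inl i)
      rw [hεπ, sw_sd] at this
      exact this
    have hπinj : Function.Injective π := by
      intro i j hij
      by_cases he : ε i = ε j
      · have : σ (Sum.inl i) = σ (Sum.inl j) := by rw [hεπ, hεπ, he, hij]
        exact Sum.inl.inj (hσinj this)
      · have h2 : ε i = ! ε j := Bool.eq_not.2 he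
        have : σ (Sum.inl i) = σ (Sum.inr j) := by rw [hεπ, hεπr, h2, hij]
        exact absurd (hσinj this) (by simp)
    let P : Equiv.Perm (Fin m) := Equiv.ofBijective π (Finite.injective_iff_bijective.1 hπinj)
    refine ⟨((P, ε), fun i => Units.mk0 (c (Sum.inl i)) (hc0 _)), ?_⟩
    apply Matrix.ext_of_mulVec_single
    intro y
    rw [M_single, hc]
    rcases y with i | i
    · simp only [cf, tgt, Units.val_mk0]
      rw [hεπ]; rfl
    · simp only [cf, tgt, Units.val_mk0]
      rw [hεπr]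
      have h1 := hform (Sum.inl i) (Sum.inr i)
      rw [form_single, form_single, if_pos (show (Sum.inr i : Fin m ⊕ Fin m) = sw (Sum.inl i) from rfl),
        if_pos (show σ (Sum.inr i) = sw (σ (Sum.inl i)) from hσsw (Sum.inl i)), hεπ] at h1
      have h2 : c (Sum.inr i) = if ε i then - (c (Sum.inl i))⁻¹ else (c (Sum.inl i))⁻¹ := by
        have h3 := hc0 (Sum.inl i)
        rcases Bool.eq_false_or_eq_true (ε i) with h4 | h4
        · simp only [h4, sd, if_true, Bool.false_eq_true, if_false, Sum.isRight_inl, Sum.isRight_inr] at h1 ⊢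
          field_simp
          linear_combination h1
        · simp only [h4, sd, Bool.false_eq_true, if_false, Sum.isRight_inl] at h1 ⊢
          field_simp
          linear_combination -h1
      rw [h2]
      rfl
  have e : ↥(Subgroup.normalizer (T : Set (symplecticGroup (Fin m) F))) ≃ D m F :=
    (Equiv.ofBijective (fun d : D m F => (⟨⟨M d, M_mem d⟩, hnorm d⟩ : ↥(Subgroup.normalizer (T : Set (symplecticGroup (Fin m) F))))) ⟨by
      intro d d' h
      exact M_inj (congrArg (fun z => (z.1 : Matrix (Fin m ⊕ Fin m) (Fin m ⊕ Fin m) F)) h), by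
      intro A
      obtain ⟨d, hd⟩ := hfam A.1 A.2
      exact ⟨d, Subtype.ext (Subtype.ext hd)⟩⟩).symm
  have hset : (⨅ i : Fin m ⊕ Fin m, ((Cfsg.stabilizing (Cfsg.spToMat m F) ((Submodule.span F {(Pi.single i (1 : F) : Fin m ⊕ Fin m → F)} : Submodule F (Fin m ⊕ Fin m → F)) : Set (Fin m ⊕ Fin m → F)) : Subgroup (symplecticGroup (Fin m) F)) : Set (Matrix.symplecticGroup (Fin m) F))) = (T : Set (symplecticGroup (Fin m) F)) := by
    rw [hT, Subgroup.coe_iInf]
    rfl
  rw [hset, Nat.card_congr e, Nat.card_prod, Nat.card_prod, Nat.card_fun, Nat.card_fun, Nat.card_eq_fintype_card (α := Fˣ),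
    Fintype.card_units, hF, Nat.card_eq_fintype_card (α := Equiv.Perm (Fin m)), Fintype.card_perm,
    Nat.card_eq_fintype_card (α := Fin m), Fintype.card_fin, Nat.card_eq_fintype_card (α := Bool), Fintype.card_bool,
    mul_comm (Nat.factorial m)]

end Cfsg.Agent.S0777
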