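import Cfsg.Statements.S0778

set_option autoImplicit false
open Cfsg

namespace Cfsg.Agent.S0778

open Matrix

variable {F : Type*} [Field F] {m : ℕ}

lemma blocks (A : Matrix.symplecticGroup (Fin m) F)
    (hA : A ∈ Cfsg.stabilizing (Cfsg.spToMat m F) {v : Fin m ⊕ Fin m → F | ∀ i : Fin m, v (Sum.inr i) = 0} ⊓
      Cfsg.stabilizing (Cfsg.spToMat m F) {v : Fin m ⊕ Fin m → F | ∀ i : Fin m, v (Sum.inl i) = 0}) :
    (A : Matrix (Fin m ⊕ Fin m) (Fin m ⊕ Fin m) F) = fromBlocks (A : Matrix (Fin m ⊕ Fin m) (Fin m ⊕ Fin m) F).toBlocks₁₁ 0 0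
      (A : Matrix (Fin m ⊕ Fin m) (Fin m ⊕ Fin m) F).toBlocks₂₂ := by
  classical
  conv_lhs => rw [← fromBlocks_toBlocks (A : Matrix (Fin m ⊕ Fin m) (Fin m ⊕ Fin m) F)]
  congr 1
  · ext i j
    have h1 := (hA.2 (Pi.single (Sum.inr j) 1)).1 (fun i => by rw [Pi.single_apply, if_neg (by simp)]) i
    have h2 : ((A : Matrix (Fin m ⊕ Fin m) (Fin m ⊕ Fin m) F) *ᵥ (Pi.single (Sum.inr j) 1)) (Sum.inl i) = 0 := h1
    rw [Matrix.mulVec_single_one] at h2
    exact h2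
  · ext i j
    have h1 := (hA.1 (Pi.single (Sum.inl j) 1)).1 (fun i => by rw [Pi.single_apply, if_neg (by simp)]) i
    have h2 : ((A : Matrix (Fin m ⊕ Fin m) (Fin m ⊕ Fin m) F) *ᵥ (Pi.single (Sum.inl j) 1)) (Sum.inr i) = 0 := h1
    rw [Matrix.mulVec_single_one] at h2
    exact h2

lemma mem_sp_iff (X Y : Matrix (Fin m) (Fin m) F) :
    fromBlocks X 0 0 Y ∈ Matrix.symplecticGroup (Fin m) F ↔ X * Yᵀ = 1 := by
  rw [SymplecticGroup.mem_iff, Matrix.J, fromBlocks_transpose, fromBlocks_multiply, fromBlocks_multiply, fromBlocks_inj]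
  simp only [Matrix.mul_zero, Matrix.zero_mul, add_zero, zero_add, Matrix.mul_one, Matrix.mul_neg, Matrix.neg_mul,
    transpose_zero, neg_inj, neg_zero]
  constructor
  · rintro ⟨_, h, _, _⟩; exact h
  · intro h
    refine ⟨trivial, h, ?_, trivial⟩
    have h2 : (X * Yᵀ)ᵀ = 1 := by rw [h, transpose_one]
    rwa [transpose_mul, transpose_transpose] at h2

/-- The elements of Sp_2m(F) stabilising both W = ⟨e_1..e_m⟩ and U = ⟨f_1..f_m⟩ form a subgroup isomorphic to GL_m(F) (block-diagonal matrices diag(X, X^(−ᵀ)) up to the sign convention of J), for m ≥ 1 or m = 0 alike. -/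
theorem result {F : Type*} [Field F] (m : ℕ) : Nonempty (↥(Cfsg.stabilizing (Cfsg.spToMat m F) {v : Fin m ⊕ Fin m → F | ∀ i : Fin m, v (Sum.inr i) = 0} ⊓ Cfsg.stabilizing (Cfsg.spToMat m F) {v : Fin m ⊕ Fin m → F | ∀ i : Fin m, v (Sum.inl i) = 0}) ≃* Matrix.GeneralLinearGroup (Fin m) F) := by
  classical
  let e : Matrix.GeneralLinearGroup (Fin m) F →* Matrix.symplecticGroup (Fin m) F :=
    { toFun := fun X => ⟨fromBlocks (X : Matrix (Fin m) (Fin m) F) 0 0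
          (((X⁻¹ : Matrix.GeneralLinearGroup (Fin m) F) : Matrix (Fin m) (Fin m) F)ᵀ), by
          rw [mem_sp_iff, transpose_transpose, ← Units.val_mul, mul_inv_cancel, Units.val_one]⟩
      map_one' := by
        apply Subtype.ext
        show fromBlocks _ _ _ _ = (1 : Matrix (Fin m ⊕ Fin m) (Fin m ⊕ Fin m) F)
        rw [inv_one, Units.val_one, transpose_one, fromBlocks_one]
      map_mul' := fun X Y => by
        apply Subtype.ext
        show fromBlocks _ _ _ _ = fromBlocks _ _ _ _ * fromBlocks _ _ _ _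
        rw [fromBlocks_multiply]
        simp only [Matrix.mul_zero, Matrix.zero_mul, add_zero, zero_add]
        rw [_root_.mul_inv_rev, Units.val_mul, Units.val_mul, transpose_mul] }
  have hmem : ∀ X, e X ∈ Cfsg.stabilizing (Cfsg.spToMat m F) {v : Fin m ⊕ Fin m → F | ∀ i : Fin m, v (Sum.inr i) = 0} ⊓ Cfsg.stabilizing (Cfsg.spToMat m F) {v : Fin m ⊕ Fin m → F | ∀ i : Fin m, v (Sum.inl i) = 0} := by
    intro X
    have hfwd : ∀ X : Matrix.GeneralLinearGroup (Fin m) F, ∀ v : Fin m ⊕ Fin m → F, (∀ i : Fin m, v (Sum.inr i) = 0) →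
        ∀ i : Fin m, (((e X : Matrix.symplecticGroup (Fin m) F) : Matrix (Fin m ⊕ Fin m) (Fin m ⊕ Fin m) F) *ᵥ v) (Sum.inr i) = 0 := by
      intro X v hv i
      show (fromBlocks _ _ _ _ *ᵥ v) (Sum.inr i) = 0
      rw [fromBlocks_mulVec, Sum.elim_inr, Pi.add_apply, Matrix.zero_mulVec, Pi.zero_apply, zero_add]
      have : (v ∘ Sum.inr : Fin m → F) = 0 := funext hv
      rw [this, Matrix.mulVec_zero, Pi.zero_apply]
    have hfwd2 : ∀ X : Matrix.GeneralLinearGroup (Fin m) F, ∀ v : Fin m ⊕ Fin m → F, (∀ i : Fin m, v (Sum.inl i) = 0) →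
        ∀ i : Fin m, (((e X : Matrix.symplecticGroup (Fin m) F) : Matrix (Fin m ⊕ Fin m) (Fin m ⊕ Fin m) F) *ᵥ v) (Sum.inl i) = 0 := by
      intro X v hv i
      show (fromBlocks _ _ _ _ *ᵥ v) (Sum.inl i) = 0
      rw [fromBlocks_mulVec, Sum.elim_inl, Pi.add_apply, Matrix.zero_mulVec, Pi.zero_apply, add_zero]
      have : (v ∘ Sum.inl : Fin m → F) = 0 := funext hv
      rw [this, Matrix.mulVec_zero, Pi.zero_apply]
    have hinv : ∀ v : Fin m ⊕ Fin m → F, ((e X⁻¹ : Matrix.symplecticGroup (Fin m) F) : Matrix (Fin m ⊕ Fin m) (Fin m ⊕ Fin m) F) *ᵥ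
        (((e X : Matrix.symplecticGroup (Fin m) F) : Matrix (Fin m ⊕ Fin m) (Fin m ⊕ Fin m) F) *ᵥ v) = v := by
      intro v
      have h1 : e X⁻¹ * e X = 1 := by rw [← map_mul, inv_mul_cancel, map_one]
      have h2 : ((e X⁻¹ : Matrix.symplecticGroup (Fin m) F) : Matrix (Fin m ⊕ Fin m) (Fin m ⊕ Fin m) F) *
        ((e X : Matrix.symplecticGroup (Fin m) F) : Matrix (Fin m ⊕ Fin m) (Fin m ⊕ Fin m) F) = 1 := congrArg Subtype.val h1
      rw [Matrix.mulVec_mulVec, h2, Matrix.one_mulVec]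
    constructor
    · intro v
      refine ⟨fun hv => hfwd X v hv, fun hv => ?_⟩
      have := hfwd X⁻¹ _ hv
      rw [show (Cfsg.spToMat m F) (e X) = ((e X : Matrix.symplecticGroup (Fin m) F) : Matrix (Fin m ⊕ Fin m) (Fin m ⊕ Fin m) F) from rfl, hinv] at this
      exact this
    · intro v
      refine ⟨fun hv => hfwd2 X v hv, fun hv => ?_⟩
      have := hfwd2 X⁻¹ _ hv
      rw [show (Cfsg.spToMat m F) (e X) = ((e X : Matrix.symplecticGroup (Fin m) F) : Matrix (Fin m ⊕ Fin m) (Fin m ⊕ Fin m) F) from rfl, hinv] at this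
      exact this
  refine ⟨(MulEquiv.ofBijective (e.codRestrict _ hmem) ⟨?_, ?_⟩).symm⟩
  · intro X Y hXY
    have h1 : e X = e Y := congrArg Subtype.val hXY
    have h2 : fromBlocks (X : Matrix (Fin m) (Fin m) F) 0 0 (((X⁻¹ : Matrix.GeneralLinearGroup (Fin m) F) : Matrix (Fin m) (Fin m) F)ᵀ)
       = fromBlocks (Y : Matrix (Fin m) (Fin m) F) 0 0 (((Y⁻¹ : Matrix.GeneralLinearGroup (Fin m) F) : Matrix (Fin m) (Fin m) F)ᵀ) := congrArg Subtype.val h1
    exact Units.ext (fromBlocks_inj.1 h2).1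
  · rintro ⟨A, hA⟩
    have h1 := blocks A hA
    have h2 := A.2
    rw [h1, mem_sp_iff] at h2
    have h3 : ((A : Matrix (Fin m ⊕ Fin m) (Fin m ⊕ Fin m) F).toBlocks₂₂)ᵀ * (A : Matrix (Fin m ⊕ Fin m) (Fin m ⊕ Fin m) F).toBlocks₁₁ = 1 :=
      mul_eq_one_comm.1 h2
    refine ⟨⟨(A : Matrix (Fin m ⊕ Fin m) (Fin m ⊕ Fin m) F).toBlocks₁₁, ((A : Matrix (Fin m ⊕ Fin m) (Fin m ⊕ Fin m) F).toBlocks₂₂)ᵀ, h2, h3⟩, ?_⟩
    apply Subtype.ext
    apply Subtype.ext
    show fromBlocks _ 0 0 ((((A : Matrix (Fin m ⊕ Fin m) (Fin m ⊕ Fin m) F).toBlocks₂₂)ᵀ)ᵀ) = _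
    rw [transpose_transpose]
    exact h1.symm

end Cfsg.Agent.S0778
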