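import Cfsg.Statements.S0779
import Cfsg.Agent.Lib.HermMat

set_option autoImplicit false
open Cfsg

namespace Cfsg.Agent.S0779

/-- Unitary transvections: let |F| = q², h the standard Hermitian form Σ x_i y_i^q and v ≠ 0 with h(v, v) = 0. The linear map x ↦ x + c h(x, v) v is an isometry of h if and only if c = 0 or c^(q−1) = −1. -/
theorem result {F : Type*} [Field F] [Fintype F] {q : ℕ} (hF : Fintype.card F = q ^ 2) (n : ℕ) (v : Fin n → F) (hv : v ≠ 0) (hv0 : Cfsg.hermForm n F q v v = 0) (c : F) : (∀ x y : Fin n → F, Cfsg.hermForm n F q ((Cfsg.unitaryTransvection n q v c).mulVec x) ((Cfsg.unitaryTransvection n q v c).mulVec y) = Cfsg.hermForm n F q x y) ↔ (c = 0 ∨ c ^ (q - 1) = -1) := by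
  have hq2 := Cfsg.Agent.Lib.HermMat.two_le_q hF
  have key : ∀ x y : Fin n → F, Cfsg.hermForm n F q ((Cfsg.unitaryTransvection n q v c).mulVec x) ((Cfsg.unitaryTransvection n q v c).mulVec y) = Cfsg.hermForm n F q x y + (c + c ^ q) * (Cfsg.hermForm n F q x v * Cfsg.hermForm n F q v y) := by
    intro x y
    rw [Cfsg.Agent.Lib.HermMat.unitaryTransvection_mulVec, Cfsg.Agent.Lib.HermMat.unitaryTransvection_mulVec]
    rw [Cfsg.Agent.Lib.HermMat.hermForm_add_left, Cfsg.Agent.Lib.HermMat.hermForm_add_right hF, Cfsg.Agent.Lib.HermMat.hermForm_add_right hF,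
      Cfsg.Agent.Lib.HermMat.hermForm_smul_right, Cfsg.Agent.Lib.HermMat.hermForm_smul_right,
      Cfsg.Agent.Lib.HermMat.hermForm_smul_left, Cfsg.Agent.Lib.HermMat.hermForm_smul_left, hv0, mul_pow,
      Cfsg.Agent.Lib.HermMat.hermForm_swap hF y v]
    ring
  have hc : (c + c ^ q = 0) ↔ (c = 0 ∨ c ^ (q - 1) = -1) := by
    have h1 : c + c ^ q = c * (1 + c ^ (q - 1)) := by
      have : c ^ q = c * c ^ (q - 1) := by
        rw [← pow_succ']; congr 1; omega
      rw [this]; ring
    rw [h1, mul_eq_zero]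
    constructor
    · rintro (h | h)
      · exact Or.inl h
      · exact Or.inr (by linear_combination h)
    · rintro (h | h)
      · exact Or.inl h
      · exact Or.inr (by rw [h]; ring)
  rw [← hc]
  constructor
  · intro h
    obtain ⟨x, hx⟩ := Cfsg.Agent.Lib.HermMat.exists_ne_zero hF hv
    have h1 := h x x
    rw [key] at h1
    have h2 : Cfsg.hermForm n F q v x ≠ 0 := by
      rw [← Cfsg.Agent.Lib.HermMat.hermForm_swap hF]
      exact pow_ne_zero _ hx
    have h3 : (c + c ^ q) * (Cfsg.hermForm n F q x v * Cfsg.hermForm n F q v x) = 0 := by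
      linear_combination h1
    rcases mul_eq_zero.1 h3 with h4 | h4
    · exact h4
    · exact absurd h4 (mul_ne_zero hx h2)
  · intro h x y
    rw [key, h]
    ring

end Cfsg.Agent.S0779
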