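import Cfsg.Statements.S0782
import Cfsg.Agent.Lib.StabMat
import Cfsg.Agent.Lib.ClUnitary2
import Cfsg.Agent.Lib.UnBridge

set_option autoImplicit false
open Cfsg

namespace Cfsg.Agent.S0782

open Matrix Cfsg.Agent.Lib.ClUnitary Cfsg.Agent.Lib.HermMat Cfsg.Agent.Lib.StabMat Cfsg.Agent.Lib.ClIso
open Module
open scoped MatrixGroups

variable {F : Type*} [Field F]

/-- isotropic frames -/
abbrev Fr (q n k : ℕ) (F : Type*) [Field F] :=
  {e : Fin k → (Fin n → F) // LinearIndependent F e ∧ ∀ i j, hermForm n F q (e i) (e j) = 0}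

/-- the frames with given first vector -/
abbrev Fib (q n k : ℕ) (F : Type*) [Field F] (v : Fin n → F) :=
  {e : Fin k → (Fin n → F) // LinearIndependent F (Fin.cons v e : Fin (k + 1) → (Fin n → F)) ∧
    (∀ i, hermForm n F q (e i) v = 0) ∧ ∀ i j, hermForm n F q (e i) (e j) = 0}

abbrev Iv (q n : ℕ) (F : Type*) [Field F] := {v : Fin n → F // v ≠ 0 ∧ hermForm n F q v v = 0}

lemma herm_zero_symm [Fintype F] {q n : ℕ} (hF : Fintype.card F = q ^ 2) {u v : Fin n → F} (h : hermForm n F q u v = 0) :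
    hermForm n F q v u = 0 := by
  have h2 := two_le_q hF
  rw [← hermForm_swap hF, h, zero_pow (by omega)]

noncomputable def consEquiv [Fintype F] {q : ℕ} (hF : Fintype.card F = q ^ 2) (n k : ℕ) :
    Fr q n (k + 1) F ≃ Σ v : Iv q n F, Fib q n k F v.1 where
  toFun e := ⟨⟨e.1 0, e.2.1.ne_zero 0, e.2.2 0 0⟩, ⟨Fin.tail e.1, by
      rw [Fin.cons_self_tail]; exact e.2.1, fun i => e.2.2 _ _, fun i j => e.2.2 _ _⟩⟩
  invFun x := ⟨Fin.cons x.1.1 x.2.1, x.2.2.1, by
      intro i j
      refine Fin.cases ?_ (fun i => ?_) i <;> refine Fin.cases ?_ (fun j => ?_) j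
      · simp only [Fin.cons_zero]; exact x.1.2.2
      · simp only [Fin.cons_zero, Fin.cons_succ]; exact herm_zero_symm hF (x.2.2.2.1 j)
      · simp only [Fin.cons_zero, Fin.cons_succ]; exact x.2.2.2.1 i
      · simp only [Fin.cons_succ]; exact x.2.2.2.2 i j⟩
  left_inv e := by
    apply Subtype.ext
    exact Fin.cons_self_tail e.1
  right_inv x := by
    obtain ⟨⟨v, hv⟩, ⟨e, he⟩⟩ := x
    rfl

/-- all fibres have the same size -/
lemma card_fib_eq [Fintype F] {q : ℕ} (hF : Fintype.card F = q ^ 2) {n k : ℕ} (v v' : Iv q n F) :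
    Nat.card (Fib q n k F v.1) = Nat.card (Fib q n k F v'.1) := by
  obtain ⟨g, hg⟩ := exists_map hF v.2.1 v'.2.1 (by rw [v.2.2, v'.2.2])
  have hcons : ∀ (g : (Fin n → F) ≃ₗ[F] (Fin n → F)) (v : Fin n → F) (e : Fin k → (Fin n → F)),
      (Fin.cons (g v) (fun i => g (e i)) : Fin (k + 1) → (Fin n → F)) = g ∘ (Fin.cons v e : Fin (k + 1) → (Fin n → F)) := by
    intro g v e
    funext i
    refine Fin.cases ?_ (fun i => ?_) i <;> simp
  have hmap : ∀ (g : isoGrp F (hermForm n F q)) (v v' : Fin n → F), (g : (Fin n → F) ≃ₗ[F] (Fin n → F)) v = v' →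
      ∀ e : Fib q n k F v, LinearIndependent F (Fin.cons v' (fun i => (g : (Fin n → F) ≃ₗ[F] (Fin n → F)) (e.1 i)) : Fin (k + 1) → (Fin n → F)) ∧
      (∀ i, hermForm n F q ((g : (Fin n → F) ≃ₗ[F] (Fin n → F)) (e.1 i)) v' = 0) ∧
      ∀ i j, hermForm n F q ((g : (Fin n → F) ≃ₗ[F] (Fin n → F)) (e.1 i)) ((g : (Fin n → F) ≃ₗ[F] (Fin n → F)) (e.1 j)) = 0 := by
    intro g v v' hgv e
    refine ⟨?_, fun i => ?_, fun i j => ?_⟩
    · rw [← hgv, hcons]
      exact e.2.1.map' (g : (Fin n → F) ≃ₗ[F] (Fin n → F)).toLinearMap (LinearEquiv.ker _)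
    · rw [← hgv, g.2]; exact e.2.2.1 i
    · rw [g.2]; exact e.2.2.2 i j
  have hg' : ((g⁻¹ : isoGrp F (hermForm n F q)) : (Fin n → F) ≃ₗ[F] (Fin n → F)) v'.1 = v.1 := by
    rw [← hg]
    exact (g : (Fin n → F) ≃ₗ[F] (Fin n → F)).symm_apply_apply v.1
  exact Nat.card_congr
    { toFun := fun e => ⟨fun i => (g : (Fin n → F) ≃ₗ[F] (Fin n → F)) (e.1 i), hmap g _ _ hg e⟩
      invFun := fun e => ⟨fun i => ((g⁻¹ : isoGrp F (hermForm n F q)) : (Fin n → F) ≃ₗ[F] (Fin n → F)) (e.1 i), hmap g⁻¹ _ _ hg' e⟩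
      left_inv := fun e => by
        apply Subtype.ext
        funext i
        exact (g : (Fin n → F) ≃ₗ[F] (Fin n → F)).symm_apply_apply (e.1 i)
      right_inv := fun e => by
        apply Subtype.ext
        funext i
        exact (g : (Fin n → F) ≃ₗ[F] (Fin n → F)).apply_symm_apply (e.1 i) }

/-- the standard isotropic vector -/
def v1 (n : ℕ) (τ : F) : Fin (n + 2) → F := Fin.cons 1 (Fin.cons τ 0)

lemma form_split {q n : ℕ} (a b c d : F) (x y : Fin n → F) :
    hermForm (n + 2) F q (Fin.cons a (Fin.cons b x) : Fin (n + 2) → F) (Fin.cons c (Fin.cons d y) : Fin (n + 2) → F) =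
      a * c ^ q + b * d ^ q + hermForm n F q x y := by
  rw [hermForm_def, hermForm_def, Fin.sum_univ_succ, Fin.sum_univ_succ]
  simp only [Fin.cons_zero, Fin.cons_succ]
  ring

lemma cons_eta {n : ℕ} (z : Fin (n + 2) → F) : z = Fin.cons (z 0) (Fin.cons (z 1) (fun j => z j.succ.succ)) := by
  funext i
  refine Fin.cases ?_ (fun i => ?_) i
  · rfl
  · refine Fin.cases ?_ (fun i => ?_) i
    · rfl
    · rfl

lemma form_v1 {q n : ℕ} (τ : F) (z : Fin (n + 2) → F) (hq : q ≠ 0) :
    hermForm (n + 2) F q z (v1 n τ) = z 0 + z 1 * τ ^ q := by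
  rw [cons_eta z, v1, form_split]
  simp only [Fin.cons_zero, Fin.cons_one, one_pow, mul_one]
  rw [hermForm_def]
  simp [hq]

/-- the fibre over the standard vector -/
noncomputable def fibEquiv [Fintype F] {q : ℕ} (hF : Fintype.card F = q ^ 2) (n k : ℕ) {τ : F} (hτ : τ * τ ^ q = -1) :
    Fib q (n + 2) k F (v1 n τ) ≃ (Fin k → F) × Fr q n k F where
  toFun e := (fun i => e.1 i 0, ⟨fun i j => e.1 i j.succ.succ, by
      have hq : q ≠ 0 := by have := two_le_q hF; omega
      have h1 : ∀ i, e.1 i 1 = e.1 i 0 * τ := by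
        intro i
        have h := e.2.2.1 i
        rw [form_v1 _ _ hq] at h
        linear_combination (-τ) * h + e.1 i 1 * hτ
      constructor
      · rw [Fintype.linearIndependent_iff]
        intro c hc
        have h2 : ∑ i, c i • e.1 i = (∑ i, c i * e.1 i 0) • v1 n τ := by
          funext j
          rw [Finset.sum_apply, Pi.smul_apply]
          refine Fin.cases ?_ (fun j => ?_) j
          · simp [v1]
          · refine Fin.cases ?_ (fun j => ?_) j
            · simp only [v1, Fin.cons_succ, Fin.cons_zero, smul_eq_mul, Finset.sum_mul, Pi.smul_apply]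
              refine Finset.sum_congr rfl fun i _ => ?_
              show c i * e.1 i 1 = _
              rw [h1]; ring
            · have h3 := congrFun hc j
              rw [Finset.sum_apply] at h3
              simp only [v1, Fin.cons_succ, Pi.smul_apply, smul_eq_mul, Pi.zero_apply, mul_zero] at h3 ⊢
              exact h3
        have h4 := (Fintype.linearIndependent_iff.1 e.2.1) (Fin.cons (-(∑ i, c i * e.1 i 0)) c) (by
          rw [Fin.sum_univ_succ]
          simp only [Fin.cons_zero, Fin.cons_succ]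
          rw [h2, neg_smul, neg_add_cancel])
        intro i
        exact h4 i.succ
      · intro i j
        have h2 := e.2.2.2 i j
        rw [cons_eta (e.1 i), cons_eta (e.1 j), form_split, h1, h1, mul_pow] at h2
        linear_combination h2 - (e.1 i 0 * e.1 j 0 ^ q) * hτ⟩)
  invFun x := ⟨fun i => Fin.cons (x.1 i) (Fin.cons (x.1 i * τ) (x.2.1 i)), by
      have hq : q ≠ 0 := by have := two_le_q hF; omega
      refine ⟨?_, fun i => ?_, fun i j => ?_⟩
      · rw [Fintype.linearIndependent_iff]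
        intro c hc
        rw [Fin.sum_univ_succ] at hc
        simp only [Fin.cons_zero, Fin.cons_succ] at hc
        have h0 : ∀ i : Fin k, c i.succ = 0 := by
          apply Fintype.linearIndependent_iff.1 x.2.2.1 (fun i => c i.succ)
          funext j
          have h1 := congrFun hc j.succ.succ
          rw [Pi.add_apply, Finset.sum_apply] at h1
          simp only [v1, Pi.smul_apply, Fin.cons_succ, Pi.zero_apply, smul_eq_mul, mul_zero, zero_add] at h1
          rw [Finset.sum_apply]
          exact h1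
        have h1 : c 0 = 0 := by
          have h2 := congrFun hc 0
          rw [Pi.add_apply, Finset.sum_apply] at h2
          simp only [v1, Pi.smul_apply, Fin.cons_zero, Pi.zero_apply, smul_eq_mul, mul_one, h0, zero_mul,
            Finset.sum_const_zero, add_zero] at h2
          exact h2
        intro i
        exact Fin.cases h1 h0 i
      · rw [v1, form_split]
        have h3 : hermForm n F q (x.2.1 i) 0 = 0 := by rw [hermForm_def]; simp [hq]
        rw [h3, one_pow]
        linear_combination (x.1 i) * hτ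
      · rw [form_split, x.2.2.2, mul_pow]
        linear_combination (x.1 i * x.1 j ^ q) * hτ⟩
  left_inv e := by
    have hq : q ≠ 0 := by have := two_le_q hF; omega
    have h1 : ∀ i, e.1 i 1 = e.1 i 0 * τ := by
      intro i
      have h := e.2.2.1 i
      rw [form_v1 _ _ hq] at h
      linear_combination (-τ) * h + e.1 i 1 * hτ
    apply Subtype.ext
    funext i
    show (Fin.cons (e.1 i 0) (Fin.cons (e.1 i 0 * τ) (fun j => e.1 i j.succ.succ)) : Fin (n + 2) → F) = e.1 i
    rw [← h1]
    exact (cons_eta (e.1 i)).symm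
  right_inv x := by
    obtain ⟨a, ⟨e, he⟩⟩ := x
    rfl

lemma card_Fr_succ [Fintype F] {q : ℕ} (hF : Fintype.card F = q ^ 2) (n k : ℕ) :
    Nat.card (Fr q (n + 2) (k + 1) F) = (N F q (n + 2) 0 - 1) * (q ^ (2 * k) * Nat.card (Fr q n k F)) := by
  classical
  have hq : q ≠ 0 := by have := two_le_q hF; omega
  obtain ⟨τ, hτ⟩ := exists_norm hF (c := -1) (by rw [neg_pow_q hF, one_pow])
  have hτ' : τ * τ ^ q = -1 := by rw [← hτ, pow_succ]; ring
  have hv1 : v1 n τ ≠ 0 ∧ hermForm (n + 2) F q (v1 n τ) (v1 n τ) = 0 := by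
    constructor
    · intro h
      have := congrFun h 0
      simp [v1] at this
    · rw [form_v1 _ _ hq]
      show 1 + τ * τ ^ q = 0
      rw [hτ']; ring
  haveI : Fintype (Iv q (n + 2) F) := Fintype.ofFinite _
  rw [Nat.card_congr (consEquiv hF (n + 2) k), Nat.card_sigma,
    Finset.sum_congr rfl (fun v _ => card_fib_eq hF v ⟨v1 n τ, hv1⟩), Finset.sum_const, Finset.card_univ,
    ← Nat.card_eq_fintype_card (α := Iv q (n + 2) F), smul_eq_mul]
  congr 1
  · -- the number of nonzero isotropic vectors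
    have e : {v : Fin (n + 2) → F // hermForm (n + 2) F q v v = 0} ≃ Option (Iv q (n + 2) F) :=
      { toFun := fun v => if h : v.1 = 0 then none else some ⟨v.1, h, v.2⟩
        invFun := fun o => o.elim ⟨0, hermForm_zero_left 0⟩ (fun v => ⟨v.1, v.2.2⟩)
        left_inv := fun v => by
          by_cases h : v.1 = 0
          · simp only [h, dif_pos, Option.elim]
            exact Subtype.ext h.symm
          · simp only [h, dif_neg, not_false_eq_true, Option.elim]
        right_inv := fun o => by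
          rcases o with _ | v
          · simp
          · simp [v.2.1] }
    have h1 : N F q (n + 2) 0 = Nat.card (Iv q (n + 2) F) + 1 := by
      rw [N, Nat.card_congr e, Finite.card_option]
    omega
  · rw [Nat.card_congr (fibEquiv hF n k hτ'), Nat.card_prod, Nat.card_fun, Nat.card_eq_fintype_card (α := F), hF,
      Nat.card_eq_fintype_card (α := Fin k), Fintype.card_fin, ← pow_mul]

lemma card_Fr_zero {q n : ℕ} : Nat.card (Fr q n 0 F) = 1 := by
  rw [Nat.card_eq_one_iff_unique]
  exact ⟨⟨fun a b => Subtype.ext (Subsingleton.elim _ _)⟩, ⟨⟨Fin.elim0, linearIndependent_empty_type, fun i => i.elim0⟩⟩⟩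

/-- order formula -/
noncomputable def G (q n : ℕ) : ℕ := q ^ (n * (n - 1) / 2) * ∏ i ∈ Finset.range n, (if Even i then q ^ (i + 1) + 1 else q ^ (i + 1) - 1)

lemma G_step [Fintype F] {q : ℕ} (hF : Fintype.card F = q ^ 2) (n : ℕ) :
    G q (n + 2) = (N F q (n + 2) 0 - 1) * q ^ (2 * n + 1) * G q n := by
  have h1 : (n + 2) * (n + 2 - 1) / 2 = n * (n - 1) / 2 + (2 * n + 1) := by
    have h2 : (n + 2) * (n + 2 - 1) = n * (n - 1) + 2 * (2 * n + 1) := by
      rcases n with _ | n
      · rfl
      · simp only [Nat.add_sub_cancel, show n + 1 + 2 - 1 = n + 2 from rfl]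
        ring
    rw [h2, Nat.add_mul_div_left _ _ (by norm_num)]
  rw [G, G, h1, pow_add, Finset.prod_range_succ, Finset.prod_range_succ, N_zero hF, Nat.add_sub_cancel]
  by_cases he : Even n
  · have he1 : ¬ Even (n + 1) := by rw [Nat.even_add_one]; exact fun h => h he
    have he2 : Even (n + 2) := by rw [Nat.even_add]; simp [he]
    rw [if_pos he, if_neg he1, if_pos he2, show n + 2 - 1 = n + 1 from rfl, show n + 1 + 1 = n + 2 from rfl]
    ring
  · have he1 : Even (n + 1) := by rw [Nat.even_add_one]; exact he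
    have he2 : ¬ Even (n + 2) := by rw [Nat.even_add]; simp [he]
    rw [if_neg he, if_pos he1, if_neg he2, show n + 2 - 1 = n + 1 from rfl, show n + 1 + 1 = n + 2 from rfl]
    ring

lemma G_frames [Fintype F] {q : ℕ} (hF : Fintype.card F = q ^ 2) : ∀ (k n : ℕ), 2 * k ≤ n →
    G q n = Nat.card (Fr q n k F) * (q ^ (k * (2 * n - 3 * k)) * G q (n - 2 * k)) := by
  intro k
  induction k with
  | zero =>
    intro n _
    rw [card_Fr_zero]
    simp
  | succ k ih =>
    intro n hn
    obtain ⟨m, rfl⟩ : ∃ m, n = m + 2 := ⟨n - 2, by omega⟩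
    have h1 : 2 * k ≤ m := by omega
    rw [G_step hF, ih m h1, card_Fr_succ hF, show m + 2 - 2 * (k + 1) = m - 2 * k by omega]
    have h2 : (k + 1) * (2 * (m + 2) - 3 * (k + 1)) + 2 * k = (2 * m + 1) + k * (2 * m - 3 * k) := by
      obtain ⟨l, rfl⟩ : ∃ l, m = 2 * k + l := ⟨m - 2 * k, by omega⟩
      have e1 : 2 * (2 * k + l + 2) - 3 * (k + 1) = k + 2 * l + 1 := by omega
      have e2 : 2 * (2 * k + l) - 3 * k = k + 2 * l := by omega
      rw [e1, e2]; ring
    have h3 : q ^ ((k + 1) * (2 * (m + 2) - 3 * (k + 1))) * q ^ (2 * k) = q ^ (2 * m + 1) * q ^ (k * (2 * m - 3 * k)) := by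
      rw [← pow_add, ← pow_add, h2]
    calc (N F q (m + 2) 0 - 1) * q ^ (2 * m + 1) * (Nat.card (Fr q m k F) * (q ^ (k * (2 * m - 3 * k)) * G q (m - 2 * k)))
        = (N F q (m + 2) 0 - 1) * Nat.card (Fr q m k F) * (q ^ (2 * m + 1) * q ^ (k * (2 * m - 3 * k))) * G q (m - 2 * k) := by ring
      _ = _ := by rw [← h3]; ring

/-- Maximal parabolics of SU_n(q): if W is a k-dimensional subspace of F^n (n ≥ 1, |F| = q²) on which the Hermitian form vanishes, then (q + 1) times the order of its stabiliser in SU_n(q) equals q^(k(2n−3k)) · |GL_k(q²)| · |GU_(n−2k)(q)|, where |GU_m(q)| = q^(m(m−1)/2) Π_(i=1..m) (q^i − (−1)^i). -/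
theorem result {F : Type*} [Field F] [Fintype F] {q : ℕ} (hF : Fintype.card F = q ^ 2) (n k : ℕ) (hn : 1 ≤ n) (hk : 2 * k ≤ n) (W : Submodule F (Fin n → F)) (hWk : Module.finrank F W = k) (hW : ∀ u ∈ W, ∀ v ∈ W, Cfsg.hermForm n F q u v = 0) : (q + 1) * Nat.card ↥((Cfsg.stabilizing (Cfsg.slToMat n F) (W : Set (Fin n → F))).subgroupOf (Cfsg.SU n F q)) = q ^ (k * (2 * n - 3 * k)) * (∏ i : Fin k, ((q ^ 2) ^ k - (q ^ 2) ^ (i : ℕ))) * (q ^ ((n - 2 * k) * ((n - 2 * k) - 1) / 2) * ∏ i ∈ Finset.range (n - 2 * k), (if Even i then q ^ (i + 1) + 1 else q ^ (i + 1) - 1)) := by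
  classical
  have H := Cfsg.Agent.Lib.UnBridge.herm_HS n hF
  have hnd := Cfsg.Agent.Lib.UnBridge.herm_nd n hF
  let tm : GU n F q →* Matrix (Fin n) (Fin n) F := (Units.coeHom (Matrix (Fin n) (Fin n) F)).comp (GU n F q).subtype
  have htm : ∀ A : GU n F q, tm A = ((A : GL (Fin n) F) : Matrix (Fin n) (Fin n) F) := fun A => rfl
  let S : Subgroup (GU n F q) := stabilizing tm (W : Set (Fin n → F))
  let b := Module.finBasisOfFinrankEq F W hWk
  let e : Fr q n k F := ⟨fun i => (b i : Fin n → F), b.linearIndependent.map' W.subtype W.ker_subtype,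
    fun i j => hW _ (b i).2 _ (b j).2⟩
  have hspan : ∀ (s : Fin k → W), LinearIndependent F s → Submodule.span F (Set.range (fun i => (s i : Fin n → F))) = W := by
    intro s hs
    have h1 : (Submodule.span F (Set.range s)).map W.subtype = Submodule.span F (Set.range (fun i => (s i : Fin n → F))) := by
      rw [Submodule.map_span, ← Set.range_comp]; rfl
    rw [← h1]
    have h2 : Submodule.span F (Set.range s) = ⊤ := hs.span_eq_top_of_card_eq_finrank' (by rw [Fintype.card_fin, hWk])
    rw [h2, Submodule.map_top, Submodule.range_subtype]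
  let K : Subgroup (GU n F q) :=
    { carrier := {A | ∀ i, tm A *ᵥ (e.1 i) = e.1 i}
      mul_mem' := fun {A C} hA hC i => by
        show tm (A * C) *ᵥ (e.1 i) = e.1 i
        rw [map_mul, ← Matrix.mulVec_mulVec, hC i, hA i]
      one_mem' := fun i => by
        rw [map_one]
        exact Matrix.one_mulVec _
      inv_mem' := fun {A} hA i => by
        have h1 := inv_mulVec_mulVec tm A (e.1 i)
        have h2 : tm A *ᵥ (e.1 i) = e.1 i := hA i
        rw [h2] at h1
        exact h1 }
  have hK : ∀ A : GU n F q, A ∈ K ↔ ∀ i, tm A *ᵥ (e.1 i) = e.1 i := fun A => Iff.rfl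
  have hKW : K ≤ S := by
    intro A hA
    show A ∈ stabilizing tm (W : Set (Fin n → F))
    rw [mem_stabilizing_iff]
    intro v hv
    rw [← hspan b b.linearIndependent] at hv
    have : tm A *ᵥ v = v := by
      induction hv using Submodule.span_induction with
      | mem x hx =>
        obtain ⟨i, rfl⟩ := hx
        exact (hK A).1 hA i
      | zero => rw [Matrix.mulVec_zero]
      | add x y _ _ hx hy => rw [Matrix.mulVec_add, hx, hy]
      | smul c x _ hx => rw [Matrix.mulVec_smul, hx]
    rw [this, ← hspan b b.linearIndependent]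
    exact hv
  have hinvK : ∀ A C : GU n F q, (∀ i, tm A *ᵥ (e.1 i) = tm C *ᵥ (e.1 i)) ↔ A⁻¹ * C ∈ K := by
    intro A C
    rw [hK]
    refine forall_congr' fun i => ?_
    have h1 := inv_mulVec_mulVec tm A (e.1 i)
    have h2 := mulVec_inv_mulVec tm A (tm C *ᵥ (e.1 i))
    have h3 : tm (A⁻¹ * C) *ᵥ (e.1 i) = tm A⁻¹ *ᵥ (tm C *ᵥ (e.1 i)) := by
      rw [Matrix.mulVec_mulVec, map_mul]
    rw [h3]
    constructor
    · intro h
      rw [← h]
      exact h1
    · intro h
      rw [h] at h2
      exact h2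
  have hact : ∀ (A : GU n F q), LinearIndependent F (fun i => tm A *ᵥ (e.1 i)) := by
    intro A
    exact e.2.1.map' (toLin tm A).toLinearMap (toLin tm A).ker
  have hwitt : ∀ s : Fr q n k F, ∃ A : GU n F q, ∀ i, tm A *ᵥ (e.1 i) = s.1 i := by
    intro s
    obtain ⟨g, hg⟩ := witt_family hF e.1 s.1 e.2.1 s.2.1 (fun i j => by rw [e.2.2, s.2.2])
    refine ⟨(preservingEquiv (hermForm n F q)).symm g, fun i => ?_⟩
    rw [← hg i]
    have h1 := preservingEquiv_apply (hermForm n F q) ((preservingEquiv (hermForm n F q)).symm g) (e.1 i)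
    rw [MulEquiv.apply_symm_apply] at h1
    exact h1.symm
  have c1 : Nat.card (GU n F q) = Nat.card (Fr q n k F) * Nat.card K := by
    refine card_eq_mul K (fun A => ⟨fun i => tm A *ᵥ (e.1 i), hact A,
      fun i j => by rw [show hermForm n F q (tm A *ᵥ (e.1 i)) (tm A *ᵥ (e.1 j)) = hermForm n F q (e.1 i) (e.1 j) from A.2 _ _]; exact e.2.2 i j⟩) ?_ ?_
    · intro s
      obtain ⟨A, hA⟩ := hwitt s
      exact ⟨A, Subtype.ext (funext hA)⟩
    · intro A C
      rw [← hinvK, Subtype.mk.injEq, funext_iff]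
  have c2 : Nat.card S = Nat.card {s : Fin k → W // LinearIndependent F s} * Nat.card (K.subgroupOf S) := by
    refine card_eq_mul (K.subgroupOf _) (fun A => ⟨fun i => ⟨tm A.1 *ᵥ (e.1 i),
      (A.2 (e.1 i)).1 (b i).2⟩, LinearIndependent.of_comp W.subtype (hact A.1)⟩) ?_ ?_
    · intro s
      obtain ⟨A, hA⟩ := hwitt ⟨fun i => (s.1 i : Fin n → F), s.2.map' W.subtype W.ker_subtype,
        fun i j => hW _ (s.1 i).2 _ (s.1 j).2⟩
      refine ⟨⟨A, ?_⟩, ?_⟩
      · show A ∈ stabilizing tm (W : Set (Fin n → F))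
        rw [mem_stabilizing_iff]
        intro v hv
        rw [← hspan b b.linearIndependent] at hv
        induction hv using Submodule.span_induction with
        | mem x hx =>
          obtain ⟨i, rfl⟩ := hx
          have := hA i
          rw [show e.1 i = (b i : Fin n → F) from rfl] at this
          rw [this]
          exact (s.1 i).2
        | zero => rw [Matrix.mulVec_zero]; exact W.zero_mem
        | add x y _ _ hx hy => rw [Matrix.mulVec_add]; exact W.add_mem hx hy
        | smul c x _ hx => rw [Matrix.mulVec_smul]; exact W.smul_mem _ hx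
      · apply Subtype.ext
        funext i
        apply Subtype.ext
        exact hA i
    · intro A C
      rw [Subgroup.mem_subgroupOf, Subgroup.coe_mul, Subgroup.coe_inv, ← hinvK, Subtype.mk.injEq, funext_iff]
      exact forall_congr' fun i => Subtype.ext_iff
  have c3 : Nat.card (K.subgroupOf S) = Nat.card K :=
    Nat.card_congr (Subgroup.subgroupOfEquivOfLe hKW).toEquiv
  have c4 : Nat.card {s : Fin k → W // LinearIndependent F s} = ∏ i : Fin k, ((q ^ 2) ^ k - (q ^ 2) ^ (i : ℕ)) := by
    have h := card_linearIndependent (K := F) (V := W) (k := k) hWk.ge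
    rw [hWk, hF] at h
    exact h
  -- determinants
  have hdetS : ∀ c : Fˣ, c ^ (q + 1) = 1 → ∃ A ∈ S, detGU n F q A = c := by
    intro c hc
    rcases Nat.eq_zero_or_pos k with hk0 | hk0
    · obtain ⟨A, hA⟩ := det_surj (F := F) (q := q) hn hc
      refine ⟨A, ?_, hA⟩
      show A ∈ stabilizing tm (W : Set (Fin n → F))
      rw [mem_stabilizing_iff]
      have hW0 : W = ⊥ := Submodule.finrank_eq_zero.1 (hWk.trans hk0)
      intro v hv
      rw [hW0, Submodule.mem_bot] at hv
      rw [hv, Matrix.mulVec_zero]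
      exact W.zero_mem
    · set w : Fin n → F := e.1 ⟨0, hk0⟩ with hw
      have hwW : w ∈ W := (b ⟨0, hk0⟩).2
      have hw0 : w ≠ 0 := e.2.1.ne_zero _
      have hww : hermForm n F q w w = 0 := hW w hwW w hwW
      obtain ⟨u, huu, huw⟩ : ∃ u, hermForm n F q u u = 0 ∧ hermForm n F q u w = 1 := by
        obtain ⟨y, -, hy⟩ := hnd w trivial hw0
        obtain ⟨l, hl⟩ := H.exists_add_norm (u := y) hww hy (map_zero _)
        have hyw : hermForm n F q y w ≠ 0 := H.symm_ne hy
        have h1 : hermForm n F q (y + l • w) w = hermForm n F q y w := by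
          rw [H.add_left, H.smul_left, hww, mul_zero, add_zero]
        refine ⟨(hermForm n F q y w)⁻¹ • (y + l • w), ?_, ?_⟩
        · rw [H.smul_left, H.smul_right, hl]; ring
        · rw [H.smul_left, h1, inv_mul_cancel₀ hyw]
      have hwu : hermForm n F q w u = 1 := by rw [H.herm, huw, map_one]
      obtain ⟨y, hy0, hcy⟩ := Cfsg.Agent.Lib.WittHerm.hilbert90 (frob_ne_id hF) (frob_frob hF) (x := (c : F)) (by
        rw [frob_apply, ← pow_succ', ← Units.val_pow_eq_pow_val, hc, Units.val_one])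
      rw [frob_apply] at hcy
      have hyq0 : y ^ q ≠ 0 := pow_ne_zero _ hy0
      have hsig : ∀ x, Cfsg.Agent.Lib.UnBridge.sig hF x = x ^ q := Cfsg.Agent.Lib.UnBridge.sig_apply hF
      let T : Matrix (Fin n) (Fin n) F := (1 + vecMulVec ((y - 1) • w) (fun j => u j ^ q)) * (1 + vecMulVec (((y ^ q)⁻¹ - 1) • u) (fun j => w j ^ q))
      have hdot : ∀ x z : Fin n → F, (fun j => x j ^ q) ⬝ᵥ z = hermForm n F q z x := by
        intro x z
        rw [hermForm_def, dotProduct]
        exact Finset.sum_congr rfl fun i _ => mul_comm _ _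
      have hTdet : T.det = c := by
        rw [det_mul, vecMulVec_eq Unit, det_one_add_replicateCol_mul_replicateRow, vecMulVec_eq Unit,
          det_one_add_replicateCol_mul_replicateRow, hdot, hdot, H.smul_left, H.smul_left, huw, hwu, hcy]
        field_simp
        ring
      have hTv : ∀ z, T *ᵥ z = z + ((y - 1) * hermForm n F q z u) • w + (((y ^ q)⁻¹ - 1) * hermForm n F q z w) • u := by
        intro z
        show ((1 + vecMulVec ((y - 1) • w) (fun j => u j ^ q)) * (1 + vecMulVec (((y ^ q)⁻¹ - 1) • u) (fun j => w j ^ q))) *ᵥ z = _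
        rw [← Matrix.mulVec_mulVec, add_mulVec, one_mulVec, add_mulVec, one_mulVec, vecMulVec_mulVec, vecMulVec_mulVec,
          op_smul_eq_smul, op_smul_eq_smul, hdot, hdot, H.add_left, H.smul_left, H.smul_left, huu]
        module
      have hTdet0 : T.det ≠ 0 := by rw [hTdet]; exact c.ne_zero
      refine ⟨⟨Matrix.GeneralLinearGroup.mkOfDetNeZero T hTdet0, ?_⟩, ?_, ?_⟩
      · intro x z
        show hermForm n F q (T *ᵥ x) (T *ᵥ z) = hermForm n F q x z
        have e1 : Cfsg.Agent.Lib.UnBridge.sig hF y = y ^ q := hsig y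
        rw [hTv, hTv]
        simp only [H.add_left, H.smul_left, H.add_right, H.smul_right, hww, huu, huw, hwu, map_mul, map_sub, map_one,
          map_inv₀, ← e1, H.inv, ← H.herm u z, ← H.herm w z]
        have hy1 : Cfsg.Agent.Lib.UnBridge.sig hF y ≠ 0 := by rw [e1]; exact hyq0
        field_simp
        ring
      · show _ ∈ stabilizing tm (W : Set (Fin n → F))
        rw [mem_stabilizing_iff]
        intro v hv
        show T *ᵥ v ∈ W
        rw [hTv, hW v hv w hwW, mul_zero, zero_smul, add_zero]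
        exact W.add_mem hv (W.smul_mem _ hwW)
      · apply Units.ext
        rw [detGU_apply]
        exact hTdet
  have c5 : Nat.card S = Nat.card {c : Fˣ // c ^ (q + 1) = 1} * Nat.card ((detGU n F q).ker.subgroupOf S) := by
    refine card_eq_mul _ (fun A => ⟨detGU n F q A.1, (range_det hF hn _).1 ⟨A.1, rfl⟩⟩) ?_ ?_
    · rintro ⟨c, hc⟩
      obtain ⟨A, hA, hAc⟩ := hdetS c hc
      exact ⟨⟨A, hA⟩, Subtype.ext hAc⟩
    · intro A C
      rw [Subtype.mk.injEq, Subgroup.mem_subgroupOf, MonoidHom.mem_ker, Subgroup.coe_mul, Subgroup.coe_inv, map_mul, map_inv,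
        inv_mul_eq_one]
  have c6 : Nat.card ((detGU n F q).ker.subgroupOf S) = Nat.card ↥((Cfsg.stabilizing (Cfsg.slToMat n F) (W : Set (Fin n → F))).subgroupOf (Cfsg.SU n F q)) := by
    apply Nat.card_congr
    exact
      { toFun := fun A => ⟨⟨⟨((A.1.1 : GL (Fin n) F) : Matrix (Fin n) (Fin n) F), by
            have := congrArg Units.val (MonoidHom.mem_ker.1 (Subgroup.mem_subgroupOf.1 A.2))
            exact this⟩, A.1.1.2⟩, A.1.2⟩
        invFun := fun B => ⟨⟨⟨SpecialLinearGroup.toGL B.1.1, B.1.2⟩, B.2⟩, by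
            rw [Subgroup.mem_subgroupOf, MonoidHom.mem_ker]
            apply Units.ext
            exact B.1.1.2⟩
        left_inv := fun A => by
          apply Subtype.ext
          apply Subtype.ext
          apply Subtype.ext
          apply Units.ext
          rfl
        right_inv := fun B => rfl }
  have c7 : Nat.card (GU n F q) = G q n := card_GU hF n
  rw [c7, G_frames hF k n hk] at c1
  have hpos : 0 < Nat.card (Fr q n k F) := by
    haveI : Nonempty (Fr q n k F) := ⟨e⟩
    exact Nat.card_pos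
  have c8 := Nat.eq_of_mul_eq_mul_left hpos c1
  rw [← c6, ← card_norm_one_units hF, ← c5, c2, c3, c4, ← c8, G]
  ring

end Cfsg.Agent.S0782
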