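import Cfsg.Statements.S0783
import Cfsg.Agent.Lib.ClUnitary2
import Cfsg.Agent.Lib.ClEmbedU

set_option autoImplicit false
open Cfsg

namespace Cfsg.Agent.S0783

open Matrix Cfsg.Agent.Lib.ClUnitary Cfsg.Agent.Lib.HermMat
open Cfsg.Agent.Lib (ClUtil.card_pow_eq_one)

variable {F : Type*} [Field F] [Fintype F] {n q : ℕ}

/-- central elements of GU are scalar -/
lemma center_scalar (hF : Fintype.card F = q ^ 2) (hn : 2 ≤ n) (g : GU n F q)
    (hg : g ∈ Subgroup.center (GU n F q)) : ∃ c : F, ((g : GL (Fin n) F) : Matrix (Fin n) (Fin n) F) = Matrix.scalar (Fin n) c := by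
  classical
  rw [Subgroup.mem_center_iff] at hg
  have hcomm : ∀ x : SU n F q, x.1.1 * ((g : GL (Fin n) F) : Matrix (Fin n) (Fin n) F) =
      ((g : GL (Fin n) F) : Matrix (Fin n) (Fin n) F) * x.1.1 := by
    intro x
    have h := hg ⟨SpecialLinearGroup.toGL x.1, x.2⟩
    exact congrArg (fun y : GU n F q => ((y : GL (Fin n) F) : Matrix (Fin n) (Fin n) F)) h
  set M := ((g : GL (Fin n) F) : Matrix (Fin n) (Fin n) F) with hM
  obtain ⟨c, hc, hc2⟩ := exists_norm_one_ne hF
  have hoff : ∀ i j : Fin n, i ≠ j → M i j = 0 := by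
    intro i j hij
    have h1 : ((Matrix.diagonal fun k => (((if k = i then c else 1) * (if k = j then c⁻¹ else 1) : Fˣ) : F)) * M) i j =
        (M * (Matrix.diagonal fun k => (((if k = i then c else 1) * (if k = j then c⁻¹ else 1) : Fˣ) : F))) i j :=
      congrArg (fun x : Matrix (Fin n) (Fin n) F => x i j) (hcomm (dgSU hij c hc))
    rw [diagonal_mul, mul_diagonal] at h1
    simp only [if_true, if_neg hij, if_neg hij.symm, mul_one, one_mul] at h1
    have h4 : ((c : F) - ((c⁻¹ : Fˣ) : F)) * M i j = 0 := by linear_combination h1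
    rcases mul_eq_zero.1 h4 with h5 | h5
    · exfalso
      apply hc2
      have h6 : c = c⁻¹ := Units.ext (sub_eq_zero.1 h5)
      rw [sq]
      nth_rewrite 2 [h6]
      exact mul_inv_cancel c
    · exact h5
  have hdiag : ∀ i j : Fin n, M i i = M j j := by
    intro i j
    by_cases hij : i = j
    · rw [hij]
    · let W : Matrix (Fin n) (Fin n) F := Matrix.diagonal (fun k => ((if k = i then (-1) else 1 : Fˣ) : F)) * (Equiv.swap i j).permMatrix F
      have h1 : (W * M) i j = (M * W) i j :=
        congrArg (fun x : Matrix (Fin n) (Fin n) F => x i j) (hcomm (swSU hF hij))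
      have hgd : M = Matrix.diagonal (fun k => M k k) := by
        ext a b
        by_cases hab : a = b
        · subst hab; rw [diagonal_apply_eq]
        · rw [diagonal_apply_ne _ hab, hoff a b hab]
      have hW : W i j = -1 := by
        change (Matrix.diagonal (fun k => ((if k = i then (-1) else 1 : Fˣ) : F)) * (Equiv.swap i j).permMatrix F) i j = -1
        rw [diagonal_mul]
        simp [Equiv.Perm.permMatrix, PEquiv.toMatrix_apply]
      rw [hgd, diagonal_mul, mul_diagonal, hW] at h1
      linear_combination h1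
  refine ⟨M ⟨0, by omega⟩ ⟨0, by omega⟩, ?_⟩
  ext a b
  rw [scalar_apply]
  by_cases hab : a = b
  · subst hab; rw [diagonal_apply_eq]; exact hdiag _ _
  · rw [diagonal_apply_ne _ hab, hoff a b hab]

/-- PGU_n(q)/PSU_n(q) is cyclic of order (n, q+1): for n ≥ 2 and |F| = q² there is a surjective homomorphism from GU_n(q) onto the cyclic group of order gcd(n, q + 1) whose kernel is generated by the determinant-one elements together with the centre. -/
theorem result {F : Type*} [Field F] [Fintype F] {q : ℕ} (hF : Fintype.card F = q ^ 2) (n : ℕ) (hn : 2 ≤ n) : ∃ φ : ↥(Cfsg.GU n F q) →* Multiplicative (ZMod (Nat.gcd n (q + 1))), Function.Surjective φ ∧ φ.ker = (Matrix.GeneralLinearGroup.det : Matrix.GeneralLinearGroup (Fin n) F →* Fˣ).ker.subgroupOf (Cfsg.GU n F q) ⊔ Subgroup.center ↥(Cfsg.GU n F q) := by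
  classical
  set d := Nat.gcd n (q + 1) with hd
  have hd0 : 0 < d := Nat.gcd_pos_of_pos_right _ (by omega)
  obtain ⟨k, hk⟩ : d ∣ q + 1 := Nat.gcd_dvd_right _ _
  have hk0 : 0 < k := by
    rcases Nat.eq_zero_or_pos k with h | h
    · rw [h, mul_zero] at hk; omega
    · exact h
  have hq2 : q ^ 2 - 1 = (q + 1) * (q - 1) := by
    have := Nat.sq_sub_sq q 1
    rwa [one_pow] at this
  have hcardF : Nat.card Fˣ = (q + 1) * (q - 1) := by
    rw [Nat.card_eq_fintype_card, Fintype.card_units, hF, hq2]
  have hdet : ∀ g : GU n F q, detGU n F q g ^ (q + 1) = 1 := fun g => (range_det hF (by omega) _).1 ⟨g, rfl⟩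
  let ψ : GU n F q →* Fˣ := (powMonoidHom k).comp (detGU n F q)
  have hψ : ∀ g, ψ g = detGU n F q g ^ k := fun g => rfl
  -- solving power equations
  have hroot : ∀ (a b : ℕ) (y : Fˣ), 0 < b → a * b = q + 1 → y ^ b = 1 → ∃ x : Fˣ, x ^ a = y := by
    intro a b y hb hab hy
    obtain ⟨x, hx⟩ := Cfsg.Agent.Lib.ClEmbed.exists_pow_eq_of_cyclic (G := Fˣ) (m := a) (k := b * (q - 1)) (Nat.mul_pos hb (by have := two_le_q hF; omega))
      (by rw [hcardF, ← hab]; ring) y (by rw [pow_mul, hy, one_pow])
    exact ⟨x, hx⟩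
  have hrange : ∀ x : Fˣ, x ∈ ψ.range ↔ x ^ d = 1 := by
    intro x
    constructor
    · rintro ⟨g, rfl⟩
      rw [hψ, ← pow_mul, mul_comm, ← hk, hdet]
    · intro hx
      obtain ⟨y, hy⟩ := hroot k d x hd0 (by rw [mul_comm, ← hk]) hx
      obtain ⟨g, hg⟩ := det_surj (F := F) (q := q) (n := n) (by omega) (c := y) (by rw [hk, mul_comm, pow_mul, hy, hx])
      exact ⟨g, by rw [hψ, hg, hy]⟩
  have hcard : Nat.card ψ.range = d := by
    rw [Nat.card_congr (Equiv.subtypeEquivRight hrange), ClUtil.card_pow_eq_one hF, hq2]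
    apply Nat.gcd_eq_left
    exact Dvd.dvd.mul_right (Nat.gcd_dvd_right _ _) _
  have hker : ψ.ker = (Matrix.GeneralLinearGroup.det : Matrix.GeneralLinearGroup (Fin n) F →* Fˣ).ker.subgroupOf (Cfsg.GU n F q) ⊔ Subgroup.center ↥(Cfsg.GU n F q) := by
    apply le_antisymm
    · intro A hA
      rw [MonoidHom.mem_ker, hψ] at hA
      -- a scalar with the right determinant
      obtain ⟨y, hy⟩ := hroot d k _ hk0 hk.symm hA
      have hyq : y ^ (q + 1) = 1 := by rw [hk, pow_mul, hy, hA]
      set z : Fˣ := y ^ (Nat.gcdA n (q + 1)) with hz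
      have hzn : z ^ n = detGU n F q A := by
        have h1 : (d : ℤ) = n * Nat.gcdA n (q + 1) + ((q + 1 : ℕ) : ℤ) * Nat.gcdB n (q + 1) := by
          rw [hd]; exact Nat.gcd_eq_gcd_ab n (q + 1)
        rw [← hy, ← zpow_natCast y d, h1, _root_.zpow_add, _root_.zpow_mul y ((q + 1 : ℕ) : ℤ), zpow_natCast y (q + 1), hyq, _root_.one_zpow, mul_one,
          hz, ← zpow_natCast, ← _root_.zpow_mul, mul_comm]
      have hzq : z ^ (q + 1) = 1 := by
        rw [hz, ← zpow_natCast, ← _root_.zpow_mul, mul_comm, _root_.zpow_mul, zpow_natCast, hyq, _root_.one_zpow]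
      let Z : GU n F q := diagGU (fun _ => z) (fun _ => hzq)
      have hZc : Z ∈ Subgroup.center (GU n F q) := by
        rw [Subgroup.mem_center_iff]
        intro x
        apply Subtype.ext
        apply Units.ext
        show ((x : GL (Fin n) F) : Matrix (Fin n) (Fin n) F) * Matrix.diagonal (fun _ => (z : F)) = Matrix.diagonal (fun _ => (z : F)) * ((x : GL (Fin n) F) : Matrix (Fin n) (Fin n) F)
        ext i j
        rw [mul_diagonal, diagonal_mul, mul_comm]
      have hZd : detGU n F q Z = z ^ n := by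
        apply Units.ext
        rw [detGU_apply]
        show (Matrix.diagonal (fun _ : Fin n => (z : F))).det = _
        rw [det_diagonal, Finset.prod_const, Finset.card_univ, Fintype.card_fin, Units.val_pow_eq_pow_val]
      have h2 : A = (A * Z⁻¹) * Z := by group
      rw [h2]
      refine Subgroup.mul_mem_sup ?_ hZc
      rw [Subgroup.mem_subgroupOf, MonoidHom.mem_ker]
      show detGU n F q (A * Z⁻¹) = 1
      rw [map_mul, map_inv, hZd, hzn, mul_inv_cancel]
    · apply sup_le
      · intro A hA
        rw [Subgroup.mem_subgroupOf, MonoidHom.mem_ker] at hA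
        have h1 : detGU n F q A = 1 := hA
        rw [MonoidHom.mem_ker, hψ, h1, one_pow]
      · intro A hA
        obtain ⟨c, hc⟩ := center_scalar hF hn A hA
        have h1 : (detGU n F q A : F) = c ^ n := by
          rw [detGU_apply, hc, Matrix.scalar_apply, det_diagonal, Finset.prod_const, Finset.card_univ, Fintype.card_fin]
        have h2 : c ^ (q + 1) = 1 := by
          have h3 := A.2 (Pi.single ⟨0, by omega⟩ 1) (Pi.single ⟨0, by omega⟩ 1)
          have h4 : ∀ v : Fin n → F, (Matrix.scalar (Fin n) c) *ᵥ v = c • v := by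
            intro v
            funext i
            rw [Matrix.scalar_apply, mulVec_diagonal]; rfl
          have h5 : hermForm n F q (c • Pi.single ⟨0, by omega⟩ 1) (c • Pi.single ⟨0, by omega⟩ 1) =
              hermForm n F q (Pi.single (⟨0, by omega⟩ : Fin n) 1) (Pi.single ⟨0, by omega⟩ 1) := by
            rw [← h4, ← hc]
            exact h3
          have hq0 : q ≠ 0 := by have := two_le_q hF; omega
          rw [hermForm_smul_left, hermForm_smul_right, hermForm_single _ hq0, Pi.single_eq_same] at h5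
          rw [pow_succ]
          linear_combination h5
        have hc0 : c ≠ 0 := by
          rintro rfl
          rw [zero_pow (by omega)] at h2
          exact zero_ne_one h2
        rw [MonoidHom.mem_ker, hψ]
        apply Units.ext
        obtain ⟨e, he⟩ : d ∣ n := Nat.gcd_dvd_left _ _
        rw [Units.val_pow_eq_pow_val, h1, ← pow_mul, Units.val_one, he, mul_right_comm, ← hk, pow_mul, h2, one_pow]
  have hcyc : IsCyclic ψ.range := inferInstance
  have key : ∀ N : ℕ, Nat.card ψ.range = N → ∃ φ : ↥(Cfsg.GU n F q) →* Multiplicative (ZMod N), Function.Surjective φ ∧ φ.ker = ψ.ker := by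
    rintro N rfl
    refine ⟨(zmodCyclicMulEquiv hcyc).symm.toMonoidHom.comp ψ.rangeRestrict, ?_, ?_⟩
    · exact (zmodCyclicMulEquiv hcyc).symm.surjective.comp ψ.rangeRestrict_surjective
    · ext A
      rw [MonoidHom.mem_ker, MonoidHom.mem_ker]
      show (zmodCyclicMulEquiv hcyc).symm (ψ.rangeRestrict A) = 1 ↔ _
      rw [MulEquiv.map_eq_one_iff, ← MonoidHom.mem_ker, MonoidHom.ker_rangeRestrict, MonoidHom.mem_ker]
  obtain ⟨φ, h1, h2⟩ := key d hcard
  exact ⟨φ, h1, h2.trans hker⟩

end Cfsg.Agent.S0783
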