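import Cfsg.Statements.S0784
import Cfsg.Agent.Lib.SiegelMat

set_option autoImplicit false
open Cfsg

namespace Cfsg.Agent.S0784

open QuadraticMap Matrix in
lemma aux (F : Type*) [Field F] {n : ℕ} (Q : QuadraticForm F (Fin n → F)) (v : Fin n → F) (hv : Q v ≠ 0) :
    (Cfsg.reflectionMatrix ⇑Q v).det = -1 := by
  have h1 : Cfsg.reflectionMatrix ⇑Q v = 1 + vecMulVec (-(Q v)⁻¹ • v) (Cfsg.polarVec ⇑Q v) := by
    rw [Cfsg.reflectionMatrix, sub_eq_add_neg, smul_vecMulVec, neg_smul]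
  rw [h1, vecMulVec_eq Unit, Matrix.det_one_add_replicateCol_mul_replicateRow, dotProduct_smul,
    Cfsg.Agent.Lib.SiegelMat.polarVec_dotProduct, Cfsg.Agent.Lib.SiegelMat.polar_self', smul_eq_mul]
  field_simp
  ring

/-- Reflections: if Q(v) ≠ 0 then the matrix R = 1 − Q(v)⁻¹ · v f(v, ·)ᵀ preserves Q, maps v to −v, fixes each x with f(v, x) = 0, and has determinant −1 (in characteristic two, −1 = 1 and R is the orthogonal transvection of v). -/
theorem result {F : Type*} [Field F] {n : ℕ} (Q : QuadraticForm F (Fin n → F)) (v : Fin n → F) (hv : Q v ≠ 0) : (∀ x, Q ((Cfsg.reflectionMatrix ⇑Q v).mulVec x) = Q x) ∧ (Cfsg.reflectionMatrix ⇑Q v).mulVec v = -v ∧ (∀ x, QuadraticMap.polar ⇑Q v x = 0 → (Cfsg.reflectionMatrix ⇑Q v).mulVec x = x) ∧ (Cfsg.reflectionMatrix ⇑Q v).det = -1 := by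
  have hR := Cfsg.Agent.Lib.SiegelMat.reflectionMatrix_mulVec Q v
  refine ⟨?_, ?_, ?_, aux F Q v hv⟩
  · intro x
    rw [hR, sub_eq_add_neg, ← neg_smul, Cfsg.Agent.Lib.SiegelMat.map_add', QuadraticMap.map_smul,
      QuadraticMap.polar_smul_right, QuadraticMap.polar_comm ⇑Q x v]
    simp only [smul_eq_mul]
    field_simp
    ring
  · rw [hR, Cfsg.Agent.Lib.SiegelMat.polar_self']
    rw [show (Q v)⁻¹ * (2 * Q v) = 2 by field_simp]
    rw [two_smul]
    abel
  · intro x hx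
    rw [hR, hx]
    simp

end Cfsg.Agent.S0784
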