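import Cfsg.Statements.S0785
import Cfsg.Agent.S0784

set_option autoImplicit false
open Cfsg

namespace Cfsg.Agent.S0785

/-- det(I) = {±1}: for a quadratic form on F^n whose polar form is non-degenerate, every element of the isometry group has determinant 1 or −1, and as soon as Q takes a non-zero value some isometry has determinant −1. -/
theorem result {F : Type*} [Field F] {n : ℕ} (Q : QuadraticForm F (Fin n → F)) (hQ : (QuadraticMap.polarBilin Q).Nondegenerate) : (∀ g : ↥(Cfsg.isometryGroup F ⇑Q), ((g : Matrix.GeneralLinearGroup (Fin n) F) : Matrix (Fin n) (Fin n) F).det = 1 ∨ ((g : Matrix.GeneralLinearGroup (Fin n) F) : Matrix (Fin n) (Fin n) F).det = -1) ∧ ((∃ v, Q v ≠ 0) → ∃ g : ↥(Cfsg.isometryGroup F ⇑Q), ((g : Matrix.GeneralLinearGroup (Fin n) F) : Matrix (Fin n) (Fin n) F).det = -1) := by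
  constructor
  · rintro ⟨g, hg⟩
    set M : Matrix (Fin n) (Fin n) F := (g : Matrix (Fin n) (Fin n) F) with hM
    have hgQ : ∀ v, Q (M.mulVec v) = Q v := fun v => hg v v
    have hpol : ∀ u v, QuadraticMap.polar Q (M.mulVec u) (M.mulVec v) = QuadraticMap.polar Q u v := by
      intro u v
      simp only [QuadraticMap.polar]
      rw [← Matrix.mulVec_add, hgQ, hgQ, hgQ]
    set A : Matrix (Fin n) (Fin n) F := LinearMap.toMatrix₂' F (QuadraticMap.polarBilin Q) with hA
    have hMA : M.transpose * A * M = A := by
      have h1 : LinearMap.toMatrix₂' F ((QuadraticMap.polarBilin Q).compl₁₂ (Matrix.toLin' M) (Matrix.toLin' M)) = M.transpose * A * M := by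
        rw [LinearMap.toMatrix₂'_compl₁₂]
        simp [hA]
      rw [← h1, hA]
      congr 1
      refine LinearMap.ext fun u => LinearMap.ext fun v => ?_
      simp only [LinearMap.compl₁₂_apply, Matrix.toLin'_apply]
      exact hpol u v
    have hAdet : A.det ≠ 0 := by
      rw [hA]
      exact Matrix.nondegenerate_iff_det_ne_zero.1 (LinearMap.nondegenerate_toMatrix₂'_iff.2 hQ)
    have h2 := congrArg Matrix.det hMA
    rw [Matrix.det_mul, Matrix.det_mul, Matrix.det_transpose] at h2
    have h3 : (M.det - 1) * (M.det + 1) = 0 := by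
      have : A.det * ((M.det - 1) * (M.det + 1)) = 0 := by linear_combination h2
      exact (mul_eq_zero.1 this).resolve_left hAdet
    rcases mul_eq_zero.1 h3 with h | h
    · left; linear_combination h
    · right; linear_combination h
  · rintro ⟨v, hv⟩
    obtain ⟨h1, -, -, h4⟩ := Cfsg.Agent.S0784.result Q v hv
    have hdet : IsUnit (Cfsg.reflectionMatrix ⇑Q v).det := by
      rw [h4]; exact isUnit_one.neg
    refine ⟨⟨Matrix.GeneralLinearGroup.mk'' _ hdet, ?_⟩, h4⟩
    intro u w
    exact h1 u

end Cfsg.Agent.S0785
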