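import Cfsg.Statements.S0786
import Cfsg.Agent.Lib.QuadIndex2

set_option autoImplicit false
open Cfsg

namespace Cfsg.Agent.S0786

/-- Generation by reflections: if F is finite, Q is a quadratic form on F^n with non-degenerate polar form, and (|F|, n) ≠ (2, 4), then the isometry group of Q is generated by the reflections r_v, Q(v) ≠ 0. -/
theorem result {F : Type*} [Field F] [Fintype F] {n : ℕ} (Q : QuadraticForm F (Fin n → F)) (hQ : (QuadraticMap.polarBilin Q).Nondegenerate) (h : Fintype.card F ≠ 2 ∨ n ≠ 4) : Subgroup.closure {g : ↥(Cfsg.isometryGroup F ⇑Q) | ∃ v : Fin n → F, Q v ≠ 0 ∧ ((g : Matrix.GeneralLinearGroup (Fin n) F) : Matrix (Fin n) (Fin n) F) = Cfsg.reflectionMatrix ⇑Q v} = ⊤ := by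
  have hfr : Module.finrank F (Fin n → F) = n := by rw [Module.finrank_pi]; simp
  have hgen : Cfsg.Agent.Lib.Quad.GenHyp Q :=
    Cfsg.Agent.Lib.Quad.genHyp_of_card (by rw [hfr]; exact h)
  rw [eq_top_iff]
  intro g _
  obtain ⟨vs, hvs, h3, _⟩ := Cfsg.Agent.Lib.Quad.exists_list_matrix hQ hgen g
  induction vs generalizing g with
  | nil =>
    have : g = 1 := Subtype.ext (Cfsg.Agent.Lib.Quad.toLE.injective (by rw [h3]; simp))
    rw [this]; exact one_mem _
  | cons v vs ih =>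
    have hv : Q v ≠ 0 := hvs v (by simp)
    set a : ↥(Cfsg.isometryGroup F ⇑Q) := (Cfsg.Agent.Lib.Quad.toO Q).symm
      ⟨Cfsg.Agent.Lib.Quad.refl Q v, Cfsg.Agent.Lib.Quad.refl_mem v⟩ with ha
    have ha' : Cfsg.Agent.Lib.Quad.toLE (a : Matrix.GeneralLinearGroup (Fin n) F) =
        Cfsg.Agent.Lib.Quad.refl Q v := by
      rw [← Cfsg.Agent.Lib.Quad.coe_toO, ha, MulEquiv.apply_symm_apply]
    have h1 : a ∈ Subgroup.closure {g : ↥(Cfsg.isometryGroup F ⇑Q) | ∃ v : Fin n → F,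
        Q v ≠ 0 ∧ ((g : Matrix.GeneralLinearGroup (Fin n) F) : Matrix (Fin n) (Fin n) F) =
        Cfsg.reflectionMatrix ⇑Q v} := by
      apply Subgroup.subset_closure
      refine ⟨v, hv, ?_⟩
      apply Cfsg.Agent.Lib.Quad.matrix_ext_of_mulVec
      intro y
      rw [← Cfsg.Agent.Lib.Quad.toLE_apply, ha', Cfsg.Agent.Lib.Quad.reflectionMatrix_mulVec]
    have h4 : Cfsg.Agent.Lib.Quad.toLE ((a⁻¹ * g : ↥(Cfsg.isometryGroup F ⇑Q)) :
        Matrix.GeneralLinearGroup (Fin n) F) = (vs.map (Cfsg.Agent.Lib.Quad.refl Q)).prod := by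
      rw [Subgroup.coe_mul, Subgroup.coe_inv, map_mul, map_inv, ha', h3, List.map_cons,
        List.prod_cons, inv_mul_cancel_left]
    have h2 := ih (g := a⁻¹ * g) (Subgroup.mem_top _) (fun x hx => hvs x (by simp [hx])) h4 (by
      apply Cfsg.Agent.Lib.Quad.matrix_ext_of_mulVec
      intro y
      rw [Cfsg.Agent.Lib.Quad.list_prod_mulVec, ← h4, Cfsg.Agent.Lib.Quad.toLE_apply])
    have h5 := mul_mem h1 h2
    rwa [mul_inv_cancel_left] at h5

end Cfsg.Agent.S0786
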