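import Cfsg.Statements.S0790
import Cfsg.Agent.Lib.QuadGram

set_option autoImplicit false
open Cfsg

namespace Cfsg.Agent.S0790

/-- −1 ∈ Ω⁺_2m(q) iff q^m ≡ 1 (mod 4), for q odd and m ≥ 1 (so that in the other case SO⁺_2m(q) = 2 × Ω⁺_2m(q)). -/
theorem result {F : Type*} [Field F] [Fintype F] {q : ℕ} (hF : Fintype.card F = q) (hodd : Odd q) (m : ℕ) (hm : 1 ≤ m) : (∃ g : ↥(Cfsg.isometryGroup F (Cfsg.quadFormPlus m F)), g ∈ Cfsg.Omega F (Cfsg.quadFormPlus m F) ∧ ((g : Matrix.GeneralLinearGroup (Fin m ⊕ Fin m) F) : Matrix (Fin m ⊕ Fin m) (Fin m ⊕ Fin m) F) = -1) ↔ q ^ m % 4 = 1 := by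
  have h2 := Cfsg.Agent.Lib.Quad.two_ne_zero_of_odd hF hodd
  have key := Cfsg.Agent.Lib.Quad.Nd.neg_mem_Om_iff (Cfsg.Agent.Lib.Quad.nd_quadPlus (m := m) (F := F))
    h2 (Pi.basisFun F (Fin m ⊕ Fin m))
  rw [Cfsg.Agent.Lib.Quad.finrank_plus, Cfsg.Agent.Lib.Quad.det_gram_plus,
    Cfsg.Agent.Lib.Quad.isSquare_neg_one_pow_iff hF hodd] at key
  have key' : (LinearEquiv.neg F : (Fin m ⊕ Fin m → F) ≃ₗ[F] (Fin m ⊕ Fin m → F)) ∈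
      Cfsg.Agent.Lib.Quad.Om (Cfsg.Agent.Lib.Quad.quadPlus m F) ↔ q ^ m % 4 = 1 := by
    rw [key]; simp
  rw [← key']
  exact Cfsg.Agent.Lib.Quad.exists_neg_one_iff (Q := Cfsg.Agent.Lib.Quad.quadPlus m F)

end Cfsg.Agent.S0790
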