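import Cfsg.Statements.S0791
import Cfsg.Agent.Lib.QuadGram

set_option autoImplicit false
open Cfsg

namespace Cfsg.Agent.S0791

/-- −1 ∈ Ω⁻_2m(q) iff q^m ≡ −1 (mod 4), for q odd and m ≥ 1; for the minus-type form quadFormMinus (m−1) with anisotropic binary part. -/
theorem result {F : Type*} [Field F] [Fintype F] {q : ℕ} (hF : Fintype.card F = q) (hodd : Odd q) (m : ℕ) (hm : 1 ≤ m) (a b : F) (hab : ∀ z₁ z₂ : F, z₁ ^ 2 + a * z₁ * z₂ + b * z₂ ^ 2 = 0 → z₁ = 0 ∧ z₂ = 0) : (∃ g : ↥(Cfsg.isometryGroup F (Cfsg.quadFormMinus (m - 1) F a b)), g ∈ Cfsg.Omega F (Cfsg.quadFormMinus (m - 1) F a b) ∧ ((g : Matrix.GeneralLinearGroup ((Fin (m - 1) ⊕ Fin (m - 1)) ⊕ Fin 2) F) : Matrix ((Fin (m - 1) ⊕ Fin (m - 1)) ⊕ Fin 2) ((Fin (m - 1) ⊕ Fin (m - 1)) ⊕ Fin 2) F) = -1) ↔ q ^ m % 4 = 3 := by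
  obtain ⟨n, rfl⟩ : ∃ n, m = n + 1 := ⟨m - 1, by omega⟩
  have h2 := Cfsg.Agent.Lib.Quad.two_ne_zero_of_odd hF hodd
  have hns := Cfsg.Agent.Lib.Quad.not_isSquare_disc h2 hab
  have key := Cfsg.Agent.Lib.Quad.Nd.neg_mem_Om_iff (Cfsg.Agent.Lib.Quad.nd_quadMinus (m := n)
    (Cfsg.Agent.Lib.Quad.disc_ne_zero_of_anisotropic hab))
    h2 (Pi.basisFun F ((Fin n ⊕ Fin n) ⊕ Fin 2))
  rw [Cfsg.Agent.Lib.Quad.finrank_minus, Cfsg.Agent.Lib.Quad.det_gram_minus] at key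
  have hne : (-1 : F) ^ (n + 1) ≠ 0 := pow_ne_zero _ (neg_ne_zero.2 one_ne_zero)
  have h3 : IsSquare ((-1 : F) ^ (n + 1) * (a ^ 2 - 4 * b)) ↔ ¬ IsSquare ((-1 : F) ^ (n + 1)) := by
    constructor
    · intro h h'
      exact hns (Cfsg.Agent.Lib.Quad.isSquare_of_mul_left hne h' h)
    · intro h
      exact Cfsg.Agent.Lib.Quad.isSquare_mul_of_not_isSquare h hns
  rw [h3, Cfsg.Agent.Lib.Quad.isSquare_neg_one_pow_iff hF hodd] at key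
  have key' : (LinearEquiv.neg F : ((Fin n ⊕ Fin n) ⊕ Fin 2 → F) ≃ₗ[F] _) ∈
      Cfsg.Agent.Lib.Quad.Om (Cfsg.Agent.Lib.Quad.quadMinus n F a b) ↔ q ^ (n + 1) % 4 = 3 := by
    rw [key]
    have := Cfsg.Agent.Lib.Quad.mod_four_cases hodd (n + 1)
    constructor
    · rintro ⟨_, h⟩; omega
    · intro h; exact ⟨⟨n + 1, by ring⟩, by omega⟩
  rw [← key']
  exact Cfsg.Agent.Lib.Quad.exists_neg_one_iff (Q := Cfsg.Agent.Lib.Quad.quadMinus n F a b)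

end Cfsg.Agent.S0791
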