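import Cfsg.Statements.S0792
import Cfsg.Agent.Lib.QuadIndex2

set_option autoImplicit false
open Cfsg

namespace Cfsg.Agent.S0792

/-- For q odd and Q with non-degenerate polar form on F^n, the determinant-one isometries form the subgroup generated by all products r_u r_v of two reflections (Q(u), Q(v) ≠ 0). -/
theorem result {F : Type*} [Field F] [Fintype F] (h2 : (2 : F) ≠ 0) {n : ℕ} (Q : QuadraticForm F (Fin n → F)) (hQ : (QuadraticMap.polarBilin Q).Nondegenerate) : Cfsg.specialIsometryGroup F ⇑Q = Subgroup.closure {g : ↥(Cfsg.isometryGroup F ⇑Q) | ∃ u v : Fin n → F, Q u ≠ 0 ∧ Q v ≠ 0 ∧ ((g : Matrix.GeneralLinearGroup (Fin n) F) : Matrix (Fin n) (Fin n) F) = Cfsg.reflectionMatrix ⇑Q u * Cfsg.reflectionMatrix ⇑Q v} := by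
  have hgen : Cfsg.Agent.Lib.Quad.GenHyp Q := Cfsg.Agent.Lib.Quad.genHyp_of_two_ne_zero h2
  ext g
  rw [Cfsg.Agent.Lib.Quad.mem_closure_pairs_iff]
  have hmem : g ∈ Cfsg.specialIsometryGroup F ⇑Q ↔
      ((g : Matrix.GeneralLinearGroup (Fin n) F) : Matrix (Fin n) (Fin n) F).det = 1 := by
    rw [Cfsg.specialIsometryGroup, MonoidHom.mem_ker]
    show Matrix.GeneralLinearGroup.det (g : Matrix.GeneralLinearGroup (Fin n) F) = 1 ↔ _
    rw [← Units.val_inj]
    rfl
  obtain ⟨vs, hvs, h3, h4⟩ := Cfsg.Agent.Lib.Quad.exists_list_matrix hQ hgen g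
  rw [hmem, h4, Cfsg.Agent.Lib.Quad.det_list vs hvs]
  have hne := Cfsg.Agent.Lib.Quad.two_ne_zero_iff_neg_one_ne_one.1 h2
  constructor
  · intro h
    refine ⟨vs, hvs, h3, ?_⟩
    by_contra hodd
    rw [(Nat.not_even_iff_odd.1 hodd).neg_one_pow] at h
    exact hne h
  · rintro ⟨ws, hws, h5, h6⟩
    have h7 := Cfsg.Agent.Lib.Quad.spinor_well_defined hQ vs ws hvs hws (by rw [← h3, h5])
    exact (h7.1.2 h6).neg_one_pow

end Cfsg.Agent.S0792
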