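import Mathlib
import Cfsg.Statements.S0793
import Cfsg.Agent.Lib.SiegelMat

set_option autoImplicit false
open Cfsg

namespace Cfsg.Agent.S0793

theorem result {F : Type*} [Field F] {n : ℕ} (Q : QuadraticForm F (Fin n → F)) (u v : Fin n → F) (hu : Q u = 0) (hv : Q v = 0) (huv : QuadraticMap.polar ⇑Q u v = 0) : (∀ c x, Q ((Cfsg.siegelMatrix ⇑Q u v c).mulVec x) = Q x) ∧ (∀ c, (Cfsg.siegelMatrix ⇑Q u v c).mulVec u = u ∧ (Cfsg.siegelMatrix ⇑Q u v c).mulVec v = v) ∧ ∀ c d, Cfsg.siegelMatrix ⇑Q u v c * Cfsg.siegelMatrix ⇑Q u v d = Cfsg.siegelMatrix ⇑Q u v (c + d) := by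
  refine ⟨fun c x => Lib.SiegelMat.siegel_preserves Q u v hu hv huv c x, fun c => ⟨?_, ?_⟩,
    fun c d => Lib.SiegelMat.siegel_mul Q u v hu hv huv c d⟩
  · rw [Lib.SiegelMat.siegelMatrix_mulVec, Lib.SiegelMat.polar_self', hu, QuadraticMap.polar_comm ⇑Q v u, huv]
    simp
  · rw [Lib.SiegelMat.siegelMatrix_mulVec, Lib.SiegelMat.polar_self', hv, huv]
    simp

end Cfsg.Agent.S0793
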