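import Mathlib
import Cfsg.Statements.S0794
import Cfsg.Agent.Lib.SiegelMat

set_option autoImplicit false
open Cfsg
open scoped commutatorElement

namespace Cfsg.Agent.S0794

open Matrix QuadraticMap

/-- an isometry from an involutive-pair of matrices -/
def mkIso {F : Type*} [Field F] {ι : Type} [Fintype ι] [DecidableEq ι] (Q : (ι → F) → F) (A B : Matrix ι ι F)
    (h1 : A * B = 1) (h2 : B * A = 1) (h : ∀ x, Q (A *ᵥ x) = Q x) : ↥(Cfsg.isometryGroup F Q) :=
  ⟨⟨A, B, h1, h2⟩, fun u _ => h u⟩

theorem result {F : Type*} [Field F] [Fintype F] (h2 : (2 : F) ≠ 0) {n : ℕ} (hn : 5 ≤ n) (Q : QuadraticForm F (Fin n → F)) (hQ : (QuadraticMap.polarBilin Q).Nondegenerate) (u v : Fin n → F) (hu : Q u = 0) (hv : Q v = 0) (huv : QuadraticMap.polar ⇑Q u v = 0) (c : F) (g : ↥(Cfsg.isometryGroup F ⇑Q)) (hg : ((g : Matrix.GeneralLinearGroup (Fin n) F) : Matrix (Fin n) (Fin n) F) = Cfsg.siegelMatrix ⇑Q u v c) : g ∈ commutatorSet ↥(Cfsg.isometryGroup F ⇑Q) ∧ g ∈ Cfsg.Omega F ⇑Q := by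
  suffices hmain : g ∈ commutatorSet ↥(Cfsg.isometryGroup F ⇑Q) by
    refine ⟨hmain, ?_⟩
    rw [Cfsg.Omega, commutator_eq_closure]
    exact Subgroup.subset_closure hmain
  by_cases hdep : ∃ w : Fin n → F, polar ⇑Q u w = 1 ∧ polar ⇑Q v w = 0
  · obtain ⟨w, hw1, hw2⟩ := hdep
    -- make w singular
    set w' := w - Q w • u with hw'
    have huu : polar ⇑Q u u = 0 := by rw [Lib.SiegelMat.polar_self', hu, mul_zero]
    have hvv : polar ⇑Q v v = 0 := by rw [Lib.SiegelMat.polar_self', hv, mul_zero]
    have hvu : polar ⇑Q v u = 0 := by rw [polar_comm, huv]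
    have huw' : polar ⇑Q u w' = 1 := by
      rw [hw', polar_sub_right, polar_smul_right, huu, hw1]; simp
    have hvw' : polar ⇑Q v w' = 0 := by
      rw [hw', polar_sub_right, polar_smul_right, hvu, hw2]; simp
    have hw'u : polar ⇑Q w' u = 1 := by rw [polar_comm, huw']
    have hw'v : polar ⇑Q w' v = 0 := by rw [polar_comm, hvw']
    have hQw' : Q w' = 0 := by
      rw [hw', sub_eq_add_neg, ← neg_smul, Lib.SiegelMat.map_add', QuadraticMap.map_smul, polar_smul_right, hu, polar_comm, hw1]
      simp
    have hw'w' : polar ⇑Q w' w' = 0 := by rw [Lib.SiegelMat.polar_self', hQw', mul_zero]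
    -- the matrix H
    set N : Matrix (Fin n) (Fin n) F := vecMulVec u (polarVec (⇑Q) w') + vecMulVec w' (polarVec (⇑Q) u) with hN
    set H : Matrix (Fin n) (Fin n) F := 1 - (2 : F) • N with hH
    have hHx : ∀ x, H *ᵥ x = x - (2 : F) • (polar ⇑Q w' x • u + polar ⇑Q u x • w') := by
      intro x
      rw [hH, hN, sub_mulVec, one_mulVec, smul_mulVec, add_mulVec, vecMulVec_mulVec, vecMulVec_mulVec,
        Lib.SiegelMat.polarVec_dotProduct, Lib.SiegelMat.polarVec_dotProduct, op_smul_eq_smul, op_smul_eq_smul]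
    have hext : ∀ A B : Matrix (Fin n) (Fin n) F, (∀ x, A *ᵥ x = B *ᵥ x) → A = B := by
      intro A B hAB
      exact Matrix.mulVec_injective (funext hAB)
    have hHH : H * H = 1 := by
      apply hext
      intro x
      rw [← mulVec_mulVec, one_mulVec, hHx, hHx]
      simp only [polar_sub_right, polar_smul_right, polar_add_right, hw'u, hw'w', huw', huu, smul_eq_mul]
      module
    have hHQ : ∀ x, Q (H *ᵥ x) = Q x := by
      intro x
      rw [hHx, sub_eq_add_neg, ← neg_smul, Lib.SiegelMat.map_add', QuadraticMap.map_smul, Lib.SiegelMat.map_add',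
        QuadraticMap.map_smul, QuadraticMap.map_smul,
        polar_smul_left, polar_smul_right, polar_smul_right, polar_add_right, polar_smul_right, polar_smul_right, hu, hQw', huw', polar_comm ⇑Q x u, polar_comm ⇑Q x w']
      simp only [smul_eq_mul]
      ring
    have hHT : ∀ a : F, H * siegelMatrix ⇑Q u v a = siegelMatrix ⇑Q u v (-a) * H := by
      intro a
      apply hext
      intro x
      rw [← mulVec_mulVec, ← mulVec_mulVec, Lib.SiegelMat.siegelMatrix_mulVec, Lib.SiegelMat.siegelMatrix_mulVec,
        hHx, hHx]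
      simp only [polar_sub_right, polar_smul_right, polar_add_right, hw'u, hw'w', huw', huu, hvu, hvw', hw'v, huv, smul_eq_mul]
      module
    have hT0 : siegelMatrix ⇑Q u v 0 = 1 := by rw [siegelMatrix]; simp
    have hTT : ∀ a : F, siegelMatrix ⇑Q u v a * siegelMatrix ⇑Q u v (-a) = 1 := by
      intro a
      rw [Lib.SiegelMat.siegel_mul Q u v hu hv huv, add_neg_cancel, hT0]
    have hTT' : ∀ a : F, siegelMatrix ⇑Q u v (-a) * siegelMatrix ⇑Q u v a = 1 := by
      intro a
      rw [Lib.SiegelMat.siegel_mul Q u v hu hv huv, neg_add_cancel, hT0]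
    let h : ↥(Cfsg.isometryGroup F ⇑Q) := mkIso ⇑Q H H hHH hHH hHQ
    let t : ↥(Cfsg.isometryGroup F ⇑Q) := mkIso ⇑Q (siegelMatrix ⇑Q u v (-(c / 2))) (siegelMatrix ⇑Q u v (c / 2))
      (hTT' _) (hTT _) (fun x => Lib.SiegelMat.siegel_preserves Q u v hu hv huv _ x)
    rw [mem_commutatorSet_iff]
    refine ⟨h, t, ?_⟩
    have hgt : h * t = g * (t * h) := by
      apply Subtype.ext
      apply Units.ext
      show H * siegelMatrix ⇑Q u v (-(c / 2)) = ((g : Matrix.GeneralLinearGroup (Fin n) F) : Matrix (Fin n) (Fin n) F) * (siegelMatrix ⇑Q u v (-(c / 2)) * H)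
      rw [hg, hHT, ← mul_assoc, Lib.SiegelMat.siegel_mul Q u v hu hv huv]
      congr 2
      field_simp
      ring
    rw [commutatorElement_def, hgt]
    group
  · -- u, v linearly dependent
    have hdep2 : ∃ a b : F, (a ≠ 0 ∨ b ≠ 0) ∧ a • u + b • v = 0 := by
      by_contra hcon
      push Not at hcon
      have hli : LinearIndependent F ![u, v] := by
        rw [LinearIndependent.pair_iff]
        intro a b hab
        by_contra hne
        rw [not_and_or] at hne
        exact hcon a b hne hab
      apply hdep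
      -- there is a linear functional with values 1, 0
      have hnot : u ∉ Submodule.span F ({v} : Set (Fin n → F)) := by
        intro hmem
        obtain ⟨a, ha⟩ := Submodule.mem_span_singleton.mp hmem
        exact hcon 1 (-a) (Or.inl one_ne_zero) (by rw [one_smul, neg_smul, ha, add_neg_cancel])
      obtain ⟨φ, hφu, hφv⟩ := Submodule.exists_le_ker_of_notMem hnot
      have hφv' : φ v = 0 := LinearMap.mem_ker.mp (hφv (Submodule.mem_span_singleton_self v))
      have hinj : Function.Injective (polarBilin Q) := by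
        rw [← LinearMap.ker_eq_bot]
        exact LinearMap.separatingLeft_iff_ker_eq_bot.mp hQ.1
      have hsurj : Function.Surjective (polarBilin Q) :=
        (LinearMap.injective_iff_surjective_of_finrank_eq_finrank (by
          rw [show Module.finrank F ((Fin n → F) →ₗ[F] F) = Module.finrank F (Module.Dual F (Fin n → F)) from rfl,
            Subspace.dual_finrank_eq])).mp hinj
      obtain ⟨w, hw⟩ := hsurj ((φ u)⁻¹ • φ)
      refine ⟨w, ?_, ?_⟩
      · rw [polar_comm, ← polarBilin_apply_apply, hw, LinearMap.smul_apply, smul_eq_mul, inv_mul_cancel₀ hφu]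
      · rw [polar_comm, ← polarBilin_apply_apply, hw, LinearMap.smul_apply, hφv', smul_zero]
    have hg1 : g = 1 := by
      apply Subtype.ext
      apply Units.ext
      rw [hg]
      show siegelMatrix ⇑Q u v c = 1
      apply Matrix.mulVec_injective
      funext x
      show siegelMatrix ⇑Q u v c *ᵥ x = 1 *ᵥ x
      rw [Lib.SiegelMat.siegelMatrix_mulVec, one_mulVec]
      obtain ⟨a, b, hab, hab2⟩ := hdep2
      rcases hab with ha | hb
      · have hu' : u = (-(b / a)) • v := by
          have : a • u = -(b • v) := eq_neg_of_add_eq_zero_left hab2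
          rw [neg_smul, div_eq_inv_mul, mul_smul, ← smul_neg, ← this, smul_smul, inv_mul_cancel₀ ha, one_smul]
        rw [hu', polar_smul_left]
        simp only [smul_eq_mul]
        module
      · have hv' : v = (-(a / b)) • u := by
          have : b • v = -(a • u) := eq_neg_of_add_eq_zero_right hab2
          rw [neg_smul, div_eq_inv_mul, mul_smul, ← smul_neg, ← this, smul_smul, inv_mul_cancel₀ hb, one_smul]
        rw [hv', polar_smul_left]
        simp only [smul_eq_mul]
        module
    rw [hg1]
    exact one_mem_commutatorSet _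

end Cfsg.Agent.S0794
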