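import Cfsg.Statements.S0795
import Cfsg.Agent.Lib.QuadSiegel

set_option autoImplicit false
open Cfsg

namespace Cfsg.Agent.S0795

/-- Generation of Ω by root elements: for q odd, n ≥ 5 and Q with non-degenerate polar form on F^n, the commutator subgroup of the isometry group equals the subgroup generated by the isometries whose matrices are Siegel transformations T_(u,v)(c) with u, v singular and orthogonal. -/
theorem result {F : Type*} [Field F] [Fintype F] (h2 : (2 : F) ≠ 0) {n : ℕ} (hn : 5 ≤ n) (Q : QuadraticForm F (Fin n → F)) (hQ : (QuadraticMap.polarBilin Q).Nondegenerate) : Cfsg.Omega F ⇑Q = Subgroup.closure {g : ↥(Cfsg.isometryGroup F ⇑Q) | ∃ (u v : Fin n → F) (c : F), Q u = 0 ∧ Q v = 0 ∧ QuadraticMap.polar ⇑Q u v = 0 ∧ ((g : Matrix.GeneralLinearGroup (Fin n) F) : Matrix (Fin n) (Fin n) F) = Cfsg.siegelMatrix ⇑Q u v c} := by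
  have hfr : Module.finrank F (Fin n → F) = n := by rw [Module.finrank_pi, Fintype.card_fin]
  have hgen : Cfsg.Agent.Lib.Quad.GenHyp Q := Cfsg.Agent.Lib.Quad.genHyp_of_two_ne_zero h2
  have hkey := Cfsg.Agent.Lib.Quad.Nd.Om_eq_Sg0 hQ hgen (by rw [hfr]; exact hn)
  -- Siegel matrices as Siegel transformations
  have hsg : ∀ (u v : Fin n → F) (c : F) (hu : Q u = 0) (huv : QuadraticMap.polar Q u (c • v) = 0),
      Q v = 0 → ∀ x, (Cfsg.siegelMatrix ⇑Q u v c).mulVec x =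
        Cfsg.Agent.Lib.Quad.sieg hQ hu huv x := by
    intro u v c hu huv hv x
    rw [Cfsg.Agent.Lib.Quad.siegelMatrix_mulVec, Cfsg.Agent.Lib.Quad.sieg_apply,
      Cfsg.Agent.Lib.Quad.Q_smul, hv, QuadraticMap.polar_smul_left]
    simp only [smul_eq_mul, mul_zero, zero_mul, zero_smul, sub_zero, smul_smul]
    rw [mul_comm c (QuadraticMap.polar Q u x)]
  apply le_antisymm
  · intro g hg
    rw [Cfsg.Agent.Lib.Quad.mem_Omega_iff, hkey, Cfsg.Agent.Lib.Quad.Sg0] at hg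
    set f : ↥(Cfsg.isometryGroup F ⇑Q) →* ((Fin n → F) ≃ₗ[F] (Fin n → F)) :=
      (Cfsg.Agent.Lib.Quad.toLE (ι := Fin n) (F := F)).toMonoidHom.comp
        (Cfsg.isometryGroup F ⇑Q).subtype with hf
    have hfinj : Function.Injective f :=
      Cfsg.Agent.Lib.Quad.toLE.injective.comp (Subgroup.subtype_injective _)
    have h1 : f g ∈ (Subgroup.closure {g : ↥(Cfsg.isometryGroup F ⇑Q) | ∃ (u v : Fin n → F)
        (c : F), Q u = 0 ∧ Q v = 0 ∧ QuadraticMap.polar ⇑Q u v = 0 ∧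
        ((g : Matrix.GeneralLinearGroup (Fin n) F) : Matrix (Fin n) (Fin n) F) =
        Cfsg.siegelMatrix ⇑Q u v c}).map f := by
      rw [MonoidHom.map_closure]
      refine Subgroup.closure_mono ?_ hg
      rintro _ ⟨z, y, hz, hzy, hy, rfl⟩
      refine ⟨Cfsg.Agent.Lib.Quad.ofO (Cfsg.Agent.Lib.Quad.sieg_mem hQ hz hzy),
        ⟨z, y, 1, hz, hy, hzy, ?_⟩,
        Cfsg.Agent.Lib.Quad.toLE_ofO (Cfsg.Agent.Lib.Quad.sieg_mem hQ hz hzy)⟩
      apply Cfsg.Agent.Lib.Quad.matrix_ext_of_mulVec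
      intro x
      rw [Cfsg.Agent.Lib.Quad.ofO_mulVec (Cfsg.Agent.Lib.Quad.sieg_mem hQ hz hzy),
        hsg z y 1 hz (by rw [one_smul]; exact hzy) hy]
      congr 2
      · rw [one_smul]
    obtain ⟨k, hk, hkg⟩ := h1
    rw [← hfinj hkg]
    exact hk
  · rw [Subgroup.closure_le]
    rintro g ⟨u, v, c, hu, hv, huv, hg⟩
    have huv' : QuadraticMap.polar Q u (c • v) = 0 := by
      rw [QuadraticMap.polar_smul_right, huv, smul_zero]
    show g ∈ Cfsg.Omega F ⇑Q
    rw [Cfsg.Agent.Lib.Quad.mem_Omega_iff]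
    have h1 : Cfsg.Agent.Lib.Quad.toLE (g : Matrix.GeneralLinearGroup (Fin n) F) =
        Cfsg.Agent.Lib.Quad.sieg hQ hu huv' := by
      rw [Cfsg.Agent.Lib.Quad.toLE_eq_iff]
      intro x
      rw [hg, hsg u v c hu huv' hv]
    rw [h1]
    exact Cfsg.Agent.Lib.Quad.Nd.sieg_mem_Om hQ hgen hu huv'

end Cfsg.Agent.S0795
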