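import Mathlib
import Cfsg.Statements.S0796

set_option autoImplicit false
open Cfsg

namespace Cfsg.Agent.S0796

theorem result {G X : Type*} [Group G] [Finite G] [MulAction G X] [FaithfulSMul G X] (hprim : MulAction.IsPreprimitive G X) (x : X) (A : Subgroup G) (hA : A ≤ MulAction.stabilizer G x) (hAn : (A.subgroupOf (MulAction.stabilizer G x)).Normal) (hgen : Subgroup.normalClosure (A : Set G) = ⊤) (K : Subgroup G) [K.Normal] (hK : K ≠ ⊥) : ∃ (B : Subgroup A) (_ : B.Normal), Nonempty (G ⧸ K ≃* A ⧸ B) := by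
  have htr : MulAction.IsPretransitive K X := by
    apply MulAction.IsQuasiPreprimitive.isPretransitive_of_normal
    intro h
    apply hK
    rw [eq_bot_iff]
    intro k hk
    rw [Subgroup.mem_bot]
    apply FaithfulSMul.eq_of_smul_eq_smul (α := X)
    intro y
    have : y ∈ MulAction.fixedPoints K X := by rw [h]; trivial
    have := this ⟨k, hk⟩
    rw [one_smul]
    exact this
  -- every g is k * h with k in K, h in stabilizer
  have hKA : K ⊔ A = ⊤ := by
    have hnorm : (K ⊔ A).Normal := by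
      constructor
      intro n hn g
      -- g = k * h
      obtain ⟨k, hk⟩ := htr.exists_smul_eq x (g • x)
      have hh : (k : G)⁻¹ * g ∈ MulAction.stabilizer G x := by
        rw [MulAction.mem_stabilizer_iff, mul_smul, ← hk]
        change (k : G)⁻¹ • ((k : G) • x) = x
        rw [inv_smul_smul]
      set h := (k : G)⁻¹ * g with hhdef
      have hg : g = k * h := by rw [hhdef]; group
      have hconjA : ∀ a ∈ A, h * a * h⁻¹ ∈ A := by
        intro a ha
        have := hAn.conj_mem ⟨a, hA ha⟩ (by rw [Subgroup.mem_subgroupOf]; exact ha) ⟨h, hh⟩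
        rw [Subgroup.mem_subgroupOf] at this
        exact this
      have h1 : h * n * h⁻¹ ∈ K ⊔ A := by
        rw [← SetLike.mem_coe, Subgroup.normal_mul] at hn ⊢
        obtain ⟨k1, hk1, a, ha, rfl⟩ := hn
        refine ⟨h * k1 * h⁻¹, ?_, h * a * h⁻¹, hconjA a ha, ?_⟩
        · exact Subgroup.Normal.conj_mem inferInstance k1 hk1 h
        · show h * k1 * h⁻¹ * (h * a * h⁻¹) = h * (k1 * a) * h⁻¹
          group
      have h2 : g * n * g⁻¹ = k * (h * n * h⁻¹) * (k : G)⁻¹ := by rw [hg]; group
      rw [h2]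
      have hkm : (k : G) ∈ K ⊔ A := (le_sup_left : K ≤ K ⊔ A) k.2
      exact mul_mem (mul_mem hkm h1) (inv_mem hkm)
    rw [eq_top_iff, ← hgen]
    exact Subgroup.normalClosure_le_normal (fun a ha => (le_sup_right : A ≤ K ⊔ A) ha)
  let f : A →* G ⧸ K := (QuotientGroup.mk' K).comp A.subtype
  have hf : Function.Surjective f := by
    intro y
    obtain ⟨g, rfl⟩ := QuotientGroup.mk'_surjective K y
    have hg : g ∈ K ⊔ A := by rw [hKA]; trivial
    rw [sup_comm, ← SetLike.mem_coe, Subgroup.mul_normal] at hg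
    obtain ⟨a, ha, k, hk, rfl⟩ := hg
    refine ⟨⟨a, ha⟩, ?_⟩
    show (QuotientGroup.mk' K) a = (QuotientGroup.mk' K) (a * k)
    rw [map_mul]
    have : (QuotientGroup.mk' K) k = 1 := by
      rw [← MonoidHom.mem_ker, QuotientGroup.ker_mk']; exact hk
    rw [this, mul_one]
  exact ⟨f.ker, inferInstance, ⟨(QuotientGroup.quotientKerEquivOfSurjective f hf).symm⟩⟩

end Cfsg.Agent.S0796
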