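import Cfsg.Statements.S0798
import Cfsg.Agent.Lib.QuadClass

set_option autoImplicit false
open Cfsg

namespace Cfsg.Agent.S0798

/-- For q odd, n ≥ 2 even, Q with non-degenerate polar form (n, |F|) ≠ (4, 3), and a fixed c ≠ 0: the subgroup of the isometry group generated by the reflections r_v with Q(v) ∈ c·(F^×)² has index 2. -/
theorem result {F : Type*} [Field F] [Fintype F] (h2 : (2 : F) ≠ 0) {n : ℕ} (hn : 2 ≤ n) (heven : Even n) (Q : QuadraticForm F (Fin n → F)) (hQ : (QuadraticMap.polarBilin Q).Nondegenerate) (h43 : ¬ (n = 4 ∧ Fintype.card F = 3)) (c : F) (hc : c ≠ 0) : (Subgroup.closure {g : ↥(Cfsg.isometryGroup F ⇑Q) | ∃ (v : Fin n → F) (t : F), t ≠ 0 ∧ Q v = c * t ^ 2 ∧ ((g : Matrix.GeneralLinearGroup (Fin n) F) : Matrix (Fin n) (Fin n) F) = Cfsg.reflectionMatrix ⇑Q v}).index = 2 := by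
  have hfr : Module.finrank F (Fin n → F) = n := by rw [Module.finrank_pi, Fintype.card_fin]
  have hgen : Cfsg.Agent.Lib.Quad.GenHyp Q := Cfsg.Agent.Lib.Quad.genHyp_of_two_ne_zero h2
  have hR := Cfsg.Agent.Lib.Quad.Nd.R_eq_O hQ hgen
  -- the character
  obtain ⟨χ, hχ⟩ : ∃ χ : ↥(Cfsg.Agent.Lib.Quad.O Q) →* ℤˣ, ∀ v (hv : Q v ≠ 0),
      χ ⟨Cfsg.Agent.Lib.Quad.refl Q v, Cfsg.Agent.Lib.Quad.refl_mem v⟩ = 1 ↔
        IsSquare (c * Q v) := by
    by_cases hcs : IsSquare c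
    · refine ⟨Cfsg.Agent.Lib.Quad.spinHom hQ hR, fun v hv => ?_⟩
      rw [Cfsg.Agent.Lib.Quad.spinHom_refl hQ hR hv, Cfsg.Agent.Lib.Quad.sgn_eq_one_iff,
        Cfsg.Agent.Lib.Quad.isSquare_mul_iff hc hv]
      simp [hcs]
    · refine ⟨Cfsg.Agent.Lib.Quad.parHom hQ hR * Cfsg.Agent.Lib.Quad.spinHom hQ hR,
        fun v hv => ?_⟩
      rw [MonoidHom.mul_apply, Cfsg.Agent.Lib.Quad.spinHom_refl hQ hR hv,
        Cfsg.Agent.Lib.Quad.parHom_refl hQ hR hv,
        Cfsg.Agent.Lib.Quad.isSquare_mul_iff hc hv]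
      by_cases hv2 : IsSquare (Q v)
      · rw [Cfsg.Agent.Lib.Quad.sgn_true hv2]
        simp only [hcs, hv2, iff_true]
        decide
      · rw [Cfsg.Agent.Lib.Quad.sgn_false hv2]
        simp [hcs, hv2]
  -- a vector of the other class
  obtain ⟨u₀, hu₀, hcu⟩ : ∃ u₀, Q u₀ ≠ 0 ∧ ¬ IsSquare (c * Q u₀) := by
    obtain ⟨s, hs⟩ := FiniteField.exists_nonsquare (F := F) (by
      intro h
      have h3 : ((2 : ℕ) : F) = 0 := by rw [← h]; exact CharP.cast_eq_zero F (ringChar F)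
      exact h2 (by exact_mod_cast h3))
    have hs0 : s ≠ 0 := fun h => hs (h ▸ IsSquare.zero)
    obtain ⟨v, _, hv⟩ := Cfsg.Agent.Lib.Quad.Nd.exists_Q_eq hQ h2 (by rw [hfr]; exact hn) (c * s)
    have hv' := hv (mul_ne_zero hc hs0)
    refine ⟨v, by rw [hv']; exact mul_ne_zero hc hs0, ?_⟩
    rw [hv']
    intro h
    apply hs
    rw [← Cfsg.Agent.Lib.Quad.isSquare_mul_sq_iff hc]
    convert h using 1
    ring
  set ψ : ↥(Cfsg.isometryGroup F ⇑Q) →* ℤˣ := χ.comp (Cfsg.Agent.Lib.Quad.toO Q).toMonoidHom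
    with hψ
  set f : ↥(Cfsg.isometryGroup F ⇑Q) →* ((Fin n → F) ≃ₗ[F] (Fin n → F)) :=
    (Cfsg.Agent.Lib.Quad.toLE (ι := Fin n) (F := F)).toMonoidHom.comp
      (Cfsg.isometryGroup F ⇑Q).subtype with hf
  have hfinj : Function.Injective f :=
    Cfsg.Agent.Lib.Quad.toLE.injective.comp (Subgroup.subtype_injective _)
  -- elements of the closure
  have hgen1 : ∀ (v : Fin n → F), Q v ≠ 0 → ∀ g : ↥(Cfsg.isometryGroup F ⇑Q),
      ((g : Matrix.GeneralLinearGroup (Fin n) F) : Matrix (Fin n) (Fin n) F) =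
        Cfsg.reflectionMatrix ⇑Q v → Cfsg.Agent.Lib.Quad.toO Q g =
        ⟨Cfsg.Agent.Lib.Quad.refl Q v, Cfsg.Agent.Lib.Quad.refl_mem v⟩ := by
    intro v hv g hg
    apply Subtype.ext
    rw [Cfsg.Agent.Lib.Quad.coe_toO, Cfsg.Agent.Lib.Quad.toLE_eq_iff]
    intro x
    rw [hg, Cfsg.Agent.Lib.Quad.reflectionMatrix_mulVec]
  have hker : Subgroup.closure {g : ↥(Cfsg.isometryGroup F ⇑Q) | ∃ (v : Fin n → F) (t : F),
      t ≠ 0 ∧ Q v = c * t ^ 2 ∧ ((g : Matrix.GeneralLinearGroup (Fin n) F) :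
      Matrix (Fin n) (Fin n) F) = Cfsg.reflectionMatrix ⇑Q v} = ψ.ker := by
    apply le_antisymm
    · rw [Subgroup.closure_le]
      rintro g ⟨v, t, ht, hv, hg⟩
      have hv0 : Q v ≠ 0 := by rw [hv]; exact mul_ne_zero hc (pow_ne_zero _ ht)
      show ψ g = 1
      show χ (Cfsg.Agent.Lib.Quad.toO Q g) = 1
      rw [hgen1 v hv0 g hg, hχ v hv0, hv]
      exact ⟨c * t, by ring⟩
    · intro g hg
      have hg1 : χ (Cfsg.Agent.Lib.Quad.toO Q g) = 1 := hg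
      obtain ⟨vs, hvs, hgv, _⟩ := Cfsg.Agent.Lib.Quad.exists_list_matrix hQ hgen g
      have hKc : ∀ x : ↥(Cfsg.Agent.Lib.Quad.O Q), (x : (Fin n → F) ≃ₗ[F] (Fin n → F)) ∈
          Cfsg.Agent.Lib.Quad.Kc Q c → χ x = 1 := by
        rintro ⟨x, hxO⟩ hx
        have hx' : x ∈ (χ.ker).map (Cfsg.Agent.Lib.Quad.O Q).subtype := by
          refine (Subgroup.closure_le _).2 ?_ hx
          rintro _ ⟨v, hv, hcv, rfl⟩
          exact ⟨⟨Cfsg.Agent.Lib.Quad.refl Q v, Cfsg.Agent.Lib.Quad.refl_mem v⟩,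
            (hχ v hv).2 hcv, rfl⟩
        obtain ⟨y, hy, hyx⟩ := hx'
        have : y = ⟨x, hxO⟩ := Subtype.ext hyx
        rw [← this]; exact hy
      have hKg : Cfsg.Agent.Lib.Quad.toLE (g : Matrix.GeneralLinearGroup (Fin n) F) ∈
          Cfsg.Agent.Lib.Quad.Kc Q c := by
        rcases Cfsg.Agent.Lib.Quad.mem_Kc_or hQ h2 (by rw [hfr]; exact heven)
          (by rw [hfr, Nat.card_eq_fintype_card]; exact h43) hc hu₀ hcu vs hvs with h | h
        · rw [hgv]; exact h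
        · exfalso
          apply hcu
          rw [← hχ u₀ hu₀]
          rw [← hgv] at h
          have h5 := hKc (⟨Cfsg.Agent.Lib.Quad.refl Q u₀, Cfsg.Agent.Lib.Quad.refl_mem u₀⟩ *
            Cfsg.Agent.Lib.Quad.toO Q g) h
          rw [map_mul, hg1, mul_one] at h5
          exact h5
      have h6 : f g ∈ (Subgroup.closure {g : ↥(Cfsg.isometryGroup F ⇑Q) | ∃ (v : Fin n → F)
          (t : F), t ≠ 0 ∧ Q v = c * t ^ 2 ∧ ((g : Matrix.GeneralLinearGroup (Fin n) F) :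
          Matrix (Fin n) (Fin n) F) = Cfsg.reflectionMatrix ⇑Q v}).map f := by
        rw [MonoidHom.map_closure]
        refine Subgroup.closure_mono ?_ hKg
        rintro _ ⟨v, hv, hcv, rfl⟩
        obtain ⟨r, hr⟩ := hcv
        have hr0 : r ≠ 0 := by
          rintro rfl
          rw [mul_zero] at hr
          exact mul_ne_zero hc hv hr
        refine ⟨Cfsg.Agent.Lib.Quad.ofO (Cfsg.Agent.Lib.Quad.refl_mem v), ⟨v, r / c,
          div_ne_zero hr0 hc, ?_, ?_⟩,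
          Cfsg.Agent.Lib.Quad.toLE_ofO (Cfsg.Agent.Lib.Quad.refl_mem v)⟩
        · field_simp
          linear_combination hr
        · apply Cfsg.Agent.Lib.Quad.matrix_ext_of_mulVec
          intro x
          rw [Cfsg.Agent.Lib.Quad.ofO_mulVec (Cfsg.Agent.Lib.Quad.refl_mem v),
            Cfsg.Agent.Lib.Quad.reflectionMatrix_mulVec]
      obtain ⟨k, hk, hkg⟩ := h6
      rw [← hfinj hkg]
      exact hk
  rw [hker]
  have hsurj : Function.Surjective ψ := by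
    intro a
    rcases Int.units_eq_one_or a with rfl | rfl
    · exact ⟨1, map_one _⟩
    · refine ⟨(Cfsg.Agent.Lib.Quad.toO Q).symm ⟨Cfsg.Agent.Lib.Quad.refl Q u₀,
        Cfsg.Agent.Lib.Quad.refl_mem u₀⟩, ?_⟩
      show χ (Cfsg.Agent.Lib.Quad.toO Q _) = -1
      rw [MulEquiv.apply_symm_apply]
      rcases Int.units_eq_one_or (χ ⟨Cfsg.Agent.Lib.Quad.refl Q u₀,
        Cfsg.Agent.Lib.Quad.refl_mem u₀⟩) with h | h
      · exact absurd ((hχ u₀ hu₀).1 h) hcu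
      · exact h
  rw [Subgroup.index_ker, MonoidHom.range_eq_top.2 hsurj,
    Nat.card_congr (Subgroup.topEquiv (G := ℤˣ)).toEquiv]
  simp [Nat.card_eq_fintype_card]

end Cfsg.Agent.S0798
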