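import Mathlib
import Cfsg.Statements.S0799
import Cfsg.Agent.Lib.MobPSL

set_option autoImplicit false

namespace Cfsg.Agent.S0799

open Cfsg.Agent.Lib.MobCount
open scoped LinearAlgebra.Projectivization MatrixGroups

theorem result {F : Type*} [Field F] [Fintype F] {q : ℕ} (hF : Fintype.card F = q) (p : ℕ) [Fact p.Prime] [CharP F p] (H : Subgroup (Matrix.ProjectiveSpecialLinearGroup (Fin 2) F)) : (∃ k : ℕ, (k ∣ (q + 1) / Nat.gcd 2 (q - 1) ∨ k ∣ (q - 1) / Nat.gcd 2 (q - 1)) ∧ ((IsCyclic H ∧ Nat.card H = k) ∨ Nonempty (H ≃* DihedralGroup k))) ∨ (∃ (P : Sylow p (Matrix.ProjectiveSpecialLinearGroup (Fin 2) F)) (K : Subgroup (Matrix.ProjectiveSpecialLinearGroup (Fin 2) F)), K ≤ Subgroup.normalizer ((P : Subgroup (Matrix.ProjectiveSpecialLinearGroup (Fin 2) F)) : Set (Matrix.ProjectiveSpecialLinearGroup (Fin 2) F)) ∧ Nonempty (H ≃* K)) ∨ Nonempty (H ≃* alternatingGroup (Fin 4)) ∨ Nonempty (H ≃* Equiv.Perm (Fin 4)) ∨ Nonempty (H ≃* alternatingGroup (Fin 5)) ∨ (∃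 (K : Type) (_ : Field K) (_ : Fintype K) (m : ℕ), Fintype.card K ^ m = q ∧ (Nonempty (H ≃* Matrix.ProjectiveSpecialLinearGroup (Fin 2) K) ∨ Nonempty (H ≃* Matrix.ProjGenLinGroup (Fin 2) K))) := by
  classical
  have hfin : Finite (Matrix.ProjectiveSpecialLinearGroup (Fin 2) F) := inferInstance
  let f0 : Matrix.ProjectiveSpecialLinearGroup (Fin 2) F →* Matrix.ProjGenLinGroup (Fin 2) F :=
    Matrix.ProjectiveSpecialLinearGroup.toPGL
  have hf0 : Function.Injective f0 := Matrix.ProjectiveSpecialLinearGroup.toPGL_injective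
  let f : H →* Matrix.ProjGenLinGroup (Fin 2) F := f0.comp H.subtype
  have hf : Function.Injective f := hf0.comp H.subtype_injective
  rcases dickson p f hf with ⟨h1, h2⟩ | ⟨C, hC, hpC, hcard, _, hD⟩ | ⟨_, _, h⟩ | ⟨_, _, h⟩ | ⟨_, h60, hs⟩ | ⟨hp, x, hx⟩ | ⟨g, k, h⟩
  · left
    refine ⟨Nat.card H, ?_, Or.inl ⟨h2, rfl⟩⟩
    obtain ⟨c, hc⟩ := IsCyclic.exists_ofOrder_eq_natCard (α := H)
    rw [← hc, ← Subgroup.orderOf_coe]
    apply psl_order_dvd hF p
    rw [Subgroup.orderOf_coe, hc]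
    exact h1
  · left
    refine ⟨Nat.card C, ?_, Or.inr hD⟩
    obtain ⟨c, hc⟩ := IsCyclic.exists_ofOrder_eq_natCard (α := C)
    rw [← hc, ← Subgroup.orderOf_coe, ← Subgroup.orderOf_coe]
    apply psl_order_dvd hF p
    rw [Subgroup.orderOf_coe, Subgroup.orderOf_coe, hc]
    exact hpC
  · right; right; left; exact h
  · right; right; right; left; exact h
  · right; right; right; right; left
    haveI := hs
    exact Cfsg.Agent.Lib.ClSmall.equiv_alternating_five h60
  · right; left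
    obtain ⟨P, hP⟩ := borel_le p f0 hf0 H hp x (fun h hh => hx ⟨h, hh⟩)
    exact ⟨P, H, hP, ⟨MulEquiv.refl _⟩⟩
  · right; right; right; right; right
    obtain ⟨K, hK1, hK2, ⟨e⟩⟩ := exists_small k
    refine ⟨K, hK1, hK2, Module.finrank k F, ?_, ?_⟩
    · have h1 : Fintype.card K = Fintype.card k := Fintype.card_congr e.toEquiv
      rw [h1, ← hF]
      exact (Module.card_eq_pow_finrank (K := k) (V := F)).symm
    · have e1 : H ≃* f.range := MonoidHom.ofInjective hf
      have e2 : f.range ≃* (f.range.map (MulAut.conj g).toMonoidHom) :=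
        Subgroup.equivMapOfInjective _ _ (MulAut.conj g).injective
      rcases h with h | h
      · left
        rw [← range_pslMap_comp k.subtype e] at h
        exact ⟨e1.trans (e2.trans ((MulEquiv.subgroupCongr h).trans (MonoidHom.ofInjective (pslMap_injective _)).symm))⟩
      · right
        rw [← range_map_comp k.subtype e] at h
        exact ⟨e1.trans (e2.trans ((MulEquiv.subgroupCongr h).trans (MonoidHom.ofInjective (map_PGL_injective _)).symm))⟩

end Cfsg.Agent.S0799
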