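import Mathlib
import Cfsg.Statements.S0806
import Cfsg.Agent.Lib.MobCard

set_option autoImplicit false

namespace Cfsg.Agent.S0806

open Cfsg.Agent.Lib.MobCount MulAction
open scoped LinearAlgebra.Projectivization MatrixGroups

theorem result {F : Type*} [Field F] [Fintype F] {q : ℕ} (hF : Fintype.card F = q) (hq : q ∉ ({2, 3, 5, 7, 9, 11} : Finset ℕ)) : (∀ H : Subgroup (Matrix.ProjectiveSpecialLinearGroup (Fin 2) F), H ≠ ⊤ → q + 1 ≤ H.index) ∧ ∃ H : Subgroup (Matrix.ProjectiveSpecialLinearGroup (Fin 2) F), H.index = q + 1 := by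
  refine ⟨fun H hH => ?_, ?_⟩
  · have h1 := psl_card_le hF hq H hH
    have h2 := card_P2 (F := F) hF
    have h3 := Subgroup.card_mul_index H
    rw [← h3, ← mul_assoc] at h2
    have hq2 := two_le_q hF
    have h4 : q ^ 2 - 1 = (q - 1) * (q + 1) := by
      have : q ^ 2 - 1 ^ 2 = (q + 1) * (q - 1) := Nat.sq_sub_sq q 1
      rw [one_pow] at this
      rw [this, mul_comm]
    rw [h4, ← mul_assoc] at h2
    by_contra hlt
    push Not at hlt
    have hpos : 0 < q * (q - 1) := Nat.mul_pos (by omega) (by omega)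
    have h5 : Nat.gcd 2 (q - 1) * Nat.card H * H.index ≤ q * (q - 1) * H.index := Nat.mul_le_mul_right _ h1
    have h6 : q * (q - 1) * H.index < q * (q - 1) * (q + 1) := Nat.mul_lt_mul_of_pos_left hlt hpos
    omega
  · exact ⟨stabilizer (P2 F) (Cfsg.Agent.Lib.ClProjLine.e0 F), index_stab hF _⟩

end Cfsg.Agent.S0806
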