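import Mathlib
import Cfsg.Statements.S0807
import Cfsg.Agent.Lib.MobKlein

set_option autoImplicit false

namespace Cfsg.Agent.S0807

theorem result {F : Type*} [Field F] [Fintype F] {q : ℕ} (hF : Fintype.card F = q) (hodd : Odd q) : 12 * Nat.card {V : Subgroup (Matrix.ProjectiveSpecialLinearGroup (Fin 2) F) // IsKleinFour V} = Nat.card (Matrix.ProjectiveSpecialLinearGroup (Fin 2) F) :=
  Cfsg.Agent.Lib.MobKlein.twelve_mul hF hodd

end Cfsg.Agent.S0807
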