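import Mathlib
import Cfsg.Statements.S0808
import Cfsg.Agent.Lib.MobKlein
import Cfsg.Agent.Lib.ClSL2Syl

set_option autoImplicit false

namespace Cfsg.Agent.S0808

open Cfsg.Agent.Lib Cfsg.Agent.Lib.SL2Basic Cfsg.Agent.Lib.MobCount Cfsg.Agent.Lib.MobQuat Cfsg.Agent.Lib.MobKlein
open scoped MatrixGroups

section

variable {F : Type*} [Field F]

/-- simultaneous conjugacy -/
def R (p p' : SL(2, F) × SL(2, F)) : Prop := ∃ g : SL(2, F), g * p.1 * g⁻¹ = p'.1 ∧ g * p.2 * g⁻¹ = p'.2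

theorem R.refl (p : SL(2, F) × SL(2, F)) : R p p := ⟨1, by simp, by simp⟩

theorem R.symm {p p' : SL(2, F) × SL(2, F)} (h : R p p') : R p' p := by
  obtain ⟨g, h1, h2⟩ := h
  exact ⟨g⁻¹, by rw [← h1]; group, by rw [← h2]; group⟩

theorem R.trans {p p' p'' : SL(2, F) × SL(2, F)} (h : R p p') (h' : R p' p'') : R p p'' := by
  obtain ⟨g, h1, h2⟩ := h
  obtain ⟨k, h3, h4⟩ := h'
  refine ⟨k * g, ?_, ?_⟩
  · rw [← h3, ← h1]; group
  · rw [← h4, ← h2]; group

/-- anticommuting pair -/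
def Good (p : SL(2, F) × SL(2, F)) : Prop := p.1 * p.1 = -1 ∧ p.2 * p.2 = -1 ∧ p.1 * p.2 = -(p.2 * p.1)

theorem good_R {p p' : SL(2, F) × SL(2, F)} (h : R p p') (hp : Good p) : Good p' := by
  obtain ⟨g, h1, h2⟩ := h
  obtain ⟨a1, a2, a3⟩ := hp
  refine ⟨?_, ?_, ?_⟩
  · rw [← h1]
    have : g * p.1 * g⁻¹ * (g * p.1 * g⁻¹) = g * (p.1 * p.1) * g⁻¹ := by group
    rw [this, a1]; simp
  · rw [← h2]
    have : g * p.2 * g⁻¹ * (g * p.2 * g⁻¹) = g * (p.2 * p.2) * g⁻¹ := by group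
    rw [this, a2]; simp
  · rw [← h1, ← h2]
    have e1 : g * p.1 * g⁻¹ * (g * p.2 * g⁻¹) = g * (p.1 * p.2) * g⁻¹ := by group
    have e2 : g * p.2 * g⁻¹ * (g * p.1 * g⁻¹) = g * (p.2 * p.1) * g⁻¹ := by group
    rw [e1, e2, a3]; simp

theorem R_neg_right {a b : SL(2, F)} (h : Good (a, b)) : R (a, b) (a, -b) := by
  obtain ⟨h1, h2, h3⟩ := h
  refine ⟨a, by simp, ?_⟩
  change a * b * a⁻¹ = -b
  simp only at h3
  rw [h3, neg_mul, mul_assoc, mul_inv_cancel, mul_one]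

theorem Good.swap {a b : SL(2, F)} (h : Good (a, b)) : Good (b, a) := by
  obtain ⟨h1, h2, h3⟩ := h
  exact ⟨h2, h1, by simp only at h3 ⊢; rw [h3, neg_neg]⟩

theorem R_neg_left {a b : SL(2, F)} (h : Good (a, b)) : R (a, b) (-a, b) := by
  obtain ⟨g, h1, h2⟩ := R_neg_right h.swap
  exact ⟨g, h2, h1⟩

theorem coe_rel {a b : SL(2, F)} (h : Good (a, b)) :
    (a : Matrix (Fin 2) (Fin 2) F) * a = -1 ∧ (b : Matrix (Fin 2) (Fin 2) F) * b = -1 ∧
      (a : Matrix (Fin 2) (Fin 2) F) * b = -((b : Matrix (Fin 2) (Fin 2) F) * a) := by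
  obtain ⟨h1, h2, h3⟩ := h
  exact ⟨congrArg (fun A : SL(2, F) => (A : Matrix (Fin 2) (Fin 2) F)) h1,
    congrArg (fun A : SL(2, F) => (A : Matrix (Fin 2) (Fin 2) F)) h2,
    congrArg (fun A : SL(2, F) => (A : Matrix (Fin 2) (Fin 2) F)) h3⟩

theorem R_swap (h2 : (2 : F) ≠ 0) {s : F} (hs : s * s * 2 = 1) {a b : SL(2, F)} (h : Good (a, b)) : R (a, b) (b, a) := by
  have hab := h
  obtain ⟨c1, c2, c3⟩ := coe_rel h
  have t1 := tr_of_sq h.1
  have t2 := tr_of_sq h.2.1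
  simp only at t1 t2
  rw [tr_def] at t1 t2
  have d1 := det2 a
  have d2 := det2 b
  have e0 := congrFun (congrFun c3 0) 0
  simp [Matrix.mul_apply, Fin.sum_univ_two] at e0
  have hdet : (s • ((a : Matrix (Fin 2) (Fin 2) F) + b)).det = 1 := by
    rw [Matrix.det_smul, Fintype.card_fin, Matrix.det_fin_two]
    simp only [Matrix.add_apply]
    have a11 : (a : Matrix (Fin 2) (Fin 2) F) 1 1 = -(a : Matrix (Fin 2) (Fin 2) F) 0 0 := by linear_combination t1
    have b11 : (b : Matrix (Fin 2) (Fin 2) F) 1 1 = -(b : Matrix (Fin 2) (Fin 2) F) 0 0 := by linear_combination t2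
    rw [a11] at d1 ⊢
    rw [b11] at d2 ⊢
    linear_combination s ^ 2 * d1 + s ^ 2 * d2 - s ^ 2 * e0 + hs
  let g : SL(2, F) := ⟨s • ((a : Matrix (Fin 2) (Fin 2) F) + b), hdet⟩
  have hg : (g : Matrix (Fin 2) (Fin 2) F) = s • ((a : Matrix (Fin 2) (Fin 2) F) + b) := rfl
  refine ⟨g, ?_, ?_⟩
  · change g * a * g⁻¹ = b
    rw [mul_inv_eq_iff_eq_mul]
    apply Subtype.ext
    change (g : Matrix (Fin 2) (Fin 2) F) * a = (b : Matrix (Fin 2) (Fin 2) F) * g
    rw [hg, Matrix.smul_mul, Matrix.mul_smul, Matrix.add_mul, Matrix.mul_add, c1, c2, add_comm]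
  · change g * b * g⁻¹ = a
    rw [mul_inv_eq_iff_eq_mul]
    apply Subtype.ext
    change (g : Matrix (Fin 2) (Fin 2) F) * b = (a : Matrix (Fin 2) (Fin 2) F) * g
    rw [hg, Matrix.smul_mul, Matrix.mul_smul, Matrix.add_mul, Matrix.mul_add, c1, c2, add_comm]

theorem R_rot (h2 : (2 : F) ≠ 0) {s : F} (hs : s * s * 2 = 1) {a b : SL(2, F)} (h : Good (a, b)) : R (a, b) (a, a * b) := by
  obtain ⟨c1, c2, c3⟩ := coe_rel h
  have t1 := tr_of_sq h.1
  simp only at t1
  rw [tr_def] at t1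
  have d1 := det2 a
  have hdet : (s • (1 + (a : Matrix (Fin 2) (Fin 2) F))).det = 1 := by
    rw [Matrix.det_smul, Fintype.card_fin, Matrix.det_fin_two]
    simp
    linear_combination s ^ 2 * d1 + s ^ 2 * t1 + hs
  let g : SL(2, F) := ⟨s • (1 + (a : Matrix (Fin 2) (Fin 2) F)), hdet⟩
  have hg : (g : Matrix (Fin 2) (Fin 2) F) = s • (1 + (a : Matrix (Fin 2) (Fin 2) F)) := rfl
  refine ⟨g, ?_, ?_⟩
  · change g * a * g⁻¹ = a
    rw [mul_inv_eq_iff_eq_mul]
    apply Subtype.ext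
    change (g : Matrix (Fin 2) (Fin 2) F) * a = (a : Matrix (Fin 2) (Fin 2) F) * g
    rw [hg, Matrix.smul_mul, Matrix.mul_smul, Matrix.add_mul, Matrix.mul_add, Matrix.one_mul, Matrix.mul_one]
  · change g * b * g⁻¹ = a * b
    rw [mul_inv_eq_iff_eq_mul]
    apply Subtype.ext
    change (g : Matrix (Fin 2) (Fin 2) F) * b = ((a : Matrix (Fin 2) (Fin 2) F) * b) * g
    rw [hg, Matrix.smul_mul, Matrix.mul_smul, Matrix.add_mul, Matrix.mul_add, Matrix.one_mul, Matrix.mul_one,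
      Matrix.mul_assoc]
    have : (b : Matrix (Fin 2) (Fin 2) F) * a = -((a : Matrix (Fin 2) (Fin 2) F) * b) := by rw [c3, neg_neg]
    rw [this, Matrix.mul_neg, ← Matrix.mul_assoc, c1]
    rw [Matrix.neg_mul, Matrix.one_mul, neg_neg, add_comm]

theorem R_signs {p : SL(2, F) × SL(2, F)} (hp : Good p) {a b a' b' : SL(2, F)} (h : R p (a, b)) (ha : a' = a ∨ a' = -a)
    (hb : b' = b ∨ b' = -b) : R p (a', b') := by
  have h1 : R p (a', b) := by
    rcases ha with rfl | rfl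
    · exact h
    · exact h.trans (R_neg_left (good_R h hp))
  rcases hb with rfl | rfl
  · exact h1
  · exact h1.trans (R_neg_right (good_R h1 hp))

/-- all pairs in the same quaternion group are conjugate if `2` is a square -/
theorem R_all (h2 : (2 : F) ≠ 0) {s : F} (hs : s * s * 2 = 1) {i j a b : SL(2, F)} (hp : Good (i, j)) (hq : Good (a, b))
    (ha : (a = i ∨ a = -i) ∨ (a = j ∨ a = -j) ∨ (a = i * j ∨ a = -(i * j)))
    (hb : (b = i ∨ b = -i) ∨ (b = j ∨ b = -j) ∨ (b = i * j ∨ b = -(i * j))) : R (i, j) (a, b) := by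
  have c1 : R (i, j) (i, j) := R.refl _
  have c2 : R (i, j) (i, i * j) := R_rot h2 hs hp
  have c3 : R (i, j) (j, i) := R_swap h2 hs hp
  have c4 : R (i, j) (j, i * j) := by
    have h1 := c3.trans (R_rot h2 hs hp.swap)
    exact R_signs hp h1 (Or.inl rfl) (Or.inr hp.2.2)
  have c5 : R (i, j) (i * j, i) := c2.trans (R_swap h2 hs (good_R c2 hp))
  have c6 : R (i, j) (i * j, j) := c4.trans (R_swap h2 hs (good_R c4 hp))
  have hne : ∀ c : SL(2, F), (a = c ∨ a = -c) → (b = c ∨ b = -c) → False := by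
    intro c h3 h4
    apply ap_mk_ne h2 hq.1 hq.2.1 hq.2.2
    have e1 : (QuotientGroup.mk a : P2 F) = QuotientGroup.mk c := (mk_eq_mk_iff _ _).mpr h3
    have e2 : (QuotientGroup.mk b : P2 F) = QuotientGroup.mk c := (mk_eq_mk_iff _ _).mpr h4
    rw [e1, e2]
  rcases ha with ha | ha | ha <;> rcases hb with hb | hb | hb
  · exact (hne _ ha hb).elim
  · exact R_signs hp c1 ha hb
  · exact R_signs hp c2 ha hb
  · exact R_signs hp c3 ha hb
  · exact (hne _ ha hb).elim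
  · exact R_signs hp c4 ha hb
  · exact R_signs hp c5 ha hb
  · exact R_signs hp c6 ha hb
  · exact (hne _ ha hb).elim

/-- orbit sizes -/
theorem card_orbit [Finite F] (h2 : (2 : F) ≠ 0) (p : AP F) :
    Nat.card SL(2, F) = 2 * Nat.card {p' : AP F // R p.1 p'.1} := by
  let f : SL(2, F) → {p' : AP F // R p.1 p'.1} := fun g =>
    ⟨⟨(g * p.1.1 * g⁻¹, g * p.1.2 * g⁻¹), good_R (p := p.1) ⟨g, rfl, rfl⟩ p.2⟩, ⟨g, rfl, rfl⟩⟩
  apply card_of_fibers f
  rintro ⟨⟨p', hp'⟩, g0, h1, h3⟩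
  have : {g : SL(2, F) | f g = ⟨⟨p', hp'⟩, g0, h1, h3⟩} = {g0, -g0} := by
    ext g
    simp only [Set.mem_insert_iff, Set.mem_singleton_iff]
    constructor
    · intro hg
      have hg' : (g * p.1.1 * g⁻¹, g * p.1.2 * g⁻¹) = p' := congrArg (fun z : {p' : AP F // R p.1 p'.1} => z.1.1) hg
      have e1 : g * p.1.1 * g⁻¹ = g0 * p.1.1 * g0⁻¹ := by
        rw [h1]; exact congrArg Prod.fst hg'
      have e2 : g * p.1.2 * g⁻¹ = g0 * p.1.2 * g0⁻¹ := by
        rw [h3]; exact congrArg Prod.snd hg'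
      -- `z = g0⁻¹ g` commutes with both
      have k1 : (g0⁻¹ * g) * p.1.1 = p.1.1 * (g0⁻¹ * g) := by
        have := congrArg (fun z => g0⁻¹ * z * g) e1
        calc (g0⁻¹ * g) * p.1.1 = g0⁻¹ * (g * p.1.1 * g⁻¹) * g := by group
          _ = g0⁻¹ * (g0 * p.1.1 * g0⁻¹) * g := this
          _ = p.1.1 * (g0⁻¹ * g) := by group
      have k2 : (g0⁻¹ * g) * p.1.2 = p.1.2 * (g0⁻¹ * g) := by
        have := congrArg (fun z => g0⁻¹ * z * g) e2
        calc (g0⁻¹ * g) * p.1.2 = g0⁻¹ * (g * p.1.2 * g⁻¹) * g := by group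
          _ = g0⁻¹ * (g0 * p.1.2 * g0⁻¹) * g := this
          _ = p.1.2 * (g0⁻¹ * g) := by group
      have hc : g0⁻¹ * g ∈ Subgroup.center SL(2, F) := by
        by_contra hnc
        have m1 : p.1.1 ∈ Subgroup.centralizer ({g0⁻¹ * g} : Set SL(2, F)) := by
          rw [Subgroup.mem_centralizer_singleton_iff]; exact k1.symm
        have m2 : p.1.2 ∈ Subgroup.centralizer ({g0⁻¹ * g} : Set SL(2, F)) := by
          rw [Subgroup.mem_centralizer_singleton_iff]; exact k2.symm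
        have h5 := SL2Tori.centralizer_comm hnc m1 m2
        have h6 := p.2.2.2
        rw [h5] at h6
        exact neg_ne_self h2 _ h6.symm
      rw [mem_center_iff'] at hc
      rcases hc with hc | hc
      · left; rw [inv_mul_eq_one] at hc; exact hc.symm
      · right
        rw [inv_mul_eq_iff_eq_mul] at hc
        rw [hc]; simp
    · intro hg
      apply Subtype.ext
      apply Subtype.ext
      change (g * p.1.1 * g⁻¹, g * p.1.2 * g⁻¹) = p'
      rcases hg with rfl | rfl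
      · exact Prod.ext h1 h3
      · have hn : (-g0)⁻¹ = -g0⁻¹ := by
          rw [inv_eq_iff_mul_eq_one]; simp
        rw [hn]
        apply Prod.ext
        · simp only [neg_mul, mul_neg, neg_neg]; exact h1
        · simp only [neg_mul, mul_neg, neg_neg]; exact h3
  have h4 : Nat.card {g : SL(2, F) // f g = ⟨⟨p', hp'⟩, g0, h1, h3⟩} =
      ({g : SL(2, F) | f g = ⟨⟨p', hp'⟩, g0, h1, h3⟩}).ncard := rfl
  rw [h4, this, Set.ncard_pair (neg_ne_self h2 g0).symm]

/-- conjugacy of Klein groups from conjugacy of pairs -/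
theorem conj_of_R (h2 : (2 : F) ≠ 0) (p p' : AP F) (h : R p.1 p'.1) :
    ∃ g : P2 F, (klOf (down h2 p')).1 = (klOf (down h2 p)).1.map (MulAut.conj g).toMonoidHom := by
  obtain ⟨g, h1, h3⟩ := h
  refine ⟨(g : P2 F), ?_⟩
  have e1 : ((p'.1.1 : SL(2, F)) : P2 F) = (g : P2 F) * (p.1.1 : P2 F) * (g : P2 F)⁻¹ := by rw [← h1]; rfl
  have e2 : ((p'.1.2 : SL(2, F)) : P2 F) = (g : P2 F) * (p.1.2 : P2 F) * (g : P2 F)⁻¹ := by rw [← h3]; rfl
  have hfin : Finite (klOf (down h2 p')).1 := Nat.finite_of_card_ne_zero (by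
    rw [(klOf (down h2 p')).2.card_four]; norm_num)
  symm
  have hle : (klOf (down h2 p)).1.map (MulAut.conj (g : P2 F)).toMonoidHom ≤ (klOf (down h2 p')).1 := by
    rintro _ ⟨x, hx, rfl⟩
    change (g : P2 F) * x * (g : P2 F)⁻¹ ∈ _
    rcases hx with rfl | rfl | rfl | rfl
    · left; simp
    · right; left; exact e1.symm
    · right; right; left; exact e2.symm
    · right; right; right
      change (g : P2 F) * ((p.1.1 : P2 F) * (p.1.2 : P2 F)) * (g : P2 F)⁻¹ = (p'.1.1 : P2 F) * (p'.1.2 : P2 F)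
      rw [e1, e2]; group
  apply Subgroup.eq_of_le_of_card_ge hle
  rw [Subgroup.card_map_of_injective (MulAut.conj (g : P2 F)).injective, (klOf (down h2 p)).2.card_four,
    (klOf (down h2 p')).2.card_four]

/-- every Klein four-subgroup comes from a pair -/
theorem exists_pair [Finite F] (h2 : (2 : F) ≠ 0) (V : Subgroup (P2 F)) (hV : IsKleinFour V) :
    ∃ p : AP F, (klOf (down h2 p)).1 = V := by
  have hcard := card_pairs hV.card_four
  have : Nonempty {p : V × V // p.1 ≠ 1 ∧ p.2 ≠ 1 ∧ p.1 ≠ p.2} := by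
    by_contra hcon
    rw [not_nonempty_iff] at hcon
    rw [Nat.card_of_isEmpty] at hcard
    omega
  obtain ⟨⟨a, b⟩, ha, hb, hab⟩ := this
  have hx := klein_mul_self hV a.2
  have hy := klein_mul_self hV b.2
  have hxy := klein_comm hV a.2 b.2
  have hx1 : (a : P2 F) ≠ 1 := fun h => ha (Subtype.ext h)
  have hy1 : (b : P2 F) ≠ 1 := fun h => hb (Subtype.ext h)
  have hne : (a : P2 F) ≠ b := fun h => hab (Subtype.ext h)
  obtain ⟨i, hi⟩ := QuotientGroup.mk_surjective (a : P2 F)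
  obtain ⟨j, hj⟩ := QuotientGroup.mk_surjective (b : P2 F)
  refine ⟨⟨(i, j), lift_anti h2 hx hy hxy hx1 hy1 hne i j hi hj⟩, ?_⟩
  refine Eq.trans ?_ (kl_eq hV a.2 b.2 hx1 hy1 hne)
  ext x
  rw [mem_kl hx hy hxy]
  change (x = 1 ∨ x = (i : P2 F) ∨ x = (j : P2 F) ∨ x = (i : P2 F) * (j : P2 F)) ↔ _
  rw [hi, hj]

theorem mk_cases {x : P2 F} {i j a : SL(2, F)} (ha : (a : P2 F) = x) (hx1 : x ≠ 1)
    (hx : x = 1 ∨ x = (i : P2 F) ∨ x = (j : P2 F) ∨ x = (i : P2 F) * (j : P2 F)) :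
    (a = i ∨ a = -i) ∨ (a = j ∨ a = -j) ∨ (a = i * j ∨ a = -(i * j)) := by
  rcases hx with h | h | h | h
  · exact absurd h hx1
  · left; rw [← mk_eq_mk_iff, ← h]; exact ha
  · right; left; rw [← mk_eq_mk_iff, ← h]; exact ha
  · right; right; rw [← mk_eq_mk_iff]
    have : (QuotientGroup.mk (i * j) : P2 F) = (i : P2 F) * (j : P2 F) := rfl
    rw [this, ← h]; exact ha

/-- if `2` is a square, conjugate Klein groups have conjugate pairs -/
theorem R_of_conj (h2 : (2 : F) ≠ 0) {s : F} (hs : s * s * 2 = 1) (p p' : AP F)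
    (h : ∃ g : P2 F, (klOf (down h2 p')).1 = (klOf (down h2 p)).1.map (MulAut.conj g).toMonoidHom) : R p.1 p'.1 := by
  obtain ⟨g, hg⟩ := h
  obtain ⟨k, rfl⟩ := QuotientGroup.mk_surjective g
  -- `g • p`
  have hR : R p.1 (k * p.1.1 * k⁻¹, k * p.1.2 * k⁻¹) := ⟨k, rfl, rfl⟩
  have hgood : Good (k * p.1.1 * k⁻¹, k * p.1.2 * k⁻¹) := good_R hR p.2
  refine hR.trans ?_
  have hmem : ∀ x ∈ (klOf (down h2 p')).1, x = 1 ∨ x = ((k * p.1.1 * k⁻¹ : SL(2, F)) : P2 F) ∨
      x = ((k * p.1.2 * k⁻¹ : SL(2, F)) : P2 F) ∨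
      x = ((k * p.1.1 * k⁻¹ : SL(2, F)) : P2 F) * ((k * p.1.2 * k⁻¹ : SL(2, F)) : P2 F) := by
    intro x hx
    rw [hg] at hx
    obtain ⟨y, hy, rfl⟩ := hx
    rcases hy with rfl | rfl | rfl | rfl
    · left; simp
    · right; left; rfl
    · right; right; left; rfl
    · right; right; right
      change (k : P2 F) * ((p.1.1 : P2 F) * (p.1.2 : P2 F)) * (k : P2 F)⁻¹ =
        ((k : P2 F) * (p.1.1 : P2 F) * (k : P2 F)⁻¹) * ((k : P2 F) * (p.1.2 : P2 F) * (k : P2 F)⁻¹)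
      group
  apply R_all h2 hs hgood p'.2
  · exact mk_cases rfl (mk_ne_one h2 p'.2.1) (hmem _ (Or.inr (Or.inl rfl)))
  · exact mk_cases rfl (mk_ne_one h2 p'.2.2.1) (hmem _ (Or.inr (Or.inr (Or.inl rfl))))

end

theorem result {F : Type*} [Field F] [Fintype F] {q : ℕ} (hF : Fintype.card F = q) (hodd : Odd q) : ((q % 8 = 3 ∨ q % 8 = 5) → ∀ V W : Subgroup (Matrix.ProjectiveSpecialLinearGroup (Fin 2) F), IsKleinFour V → IsKleinFour W → ∃ g : Matrix.ProjectiveSpecialLinearGroup (Fin 2) F, W = V.map (MulAut.conj g).toMonoidHom) ∧ ((q % 8 = 1 ∨ q % 8 = 7) → ∃ V₁ V₂ : Subgroup (Matrix.ProjectiveSpecialLinearGroup (Fin 2) F), IsKleinFour V₁ ∧ IsKleinFour V₂ ∧ (¬ ∃ g : Matrix.ProjectiveSpecialLinearGroup (Fin 2) F, V₂ = V₁.map (MulAut.conj g).toMonoidHom) ∧ ∀ W : Subgroup (Matrix.ProjectiveSpecialLinearGroup (Fin 2) F), IsKleinFour W → (∃ g : Matrix.ProjectiveSpecialLinearGroup (Fin 2) F, W = V₁.map (MulAut.conj g).toMonoidHom)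 ∨ (∃ g : Matrix.ProjectiveSpecialLinearGroup (Fin 2) F, W = V₂.map (MulAut.conj g).toMonoidHom)) := by
  classical
  have h2 := two_ne_zero_of_odd hF hodd
  constructor
  · intro hq V W hV hW
    have hkl := ClSL2Syl.sylow_two_PSL2_klein hF hq
    have key : ∀ V : Subgroup (P2 F), IsKleinFour V → ∃ P : Sylow 2 (P2 F), (P : Subgroup (P2 F)) = V := by
      intro V hV
      have hp : IsPGroup 2 V := IsPGroup.of_card (n := 2) (by rw [hV.card_four]; norm_num)
      obtain ⟨P, hP⟩ := hp.exists_le_sylow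
      refine ⟨P, (Subgroup.eq_of_le_of_card_ge hP ?_).symm⟩
      rw [hV.card_four]
      exact (hkl P).card_four.le
    obtain ⟨P, rfl⟩ := key V hV
    obtain ⟨Q, rfl⟩ := key W hW
    obtain ⟨g, hg⟩ := MulAction.exists_smul_eq (P2 F) P Q
    exact ⟨g, by rw [← hg]; rfl⟩
  · intro hq
    obtain ⟨s, hs⟩ : ∃ s : F, s * s * 2 = 1 := by
      have h3 : IsSquare (2 : F) := by
        rw [FiniteField.isSquare_two_iff, hF]; omega
      obtain ⟨r, hr⟩ := h3
      have hr0 : r ≠ 0 := by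
        rintro rfl; rw [mul_zero] at hr; exact h2 hr
      refine ⟨r⁻¹, ?_⟩
      rw [hr]; field_simp
    have hAP := card_AP (F := F) h2
    have hpos : 0 < Nat.card SL(2, F) := Nat.card_pos
    have hne : Nonempty (AP F) := by
      by_contra hcon
      rw [not_nonempty_iff] at hcon
      rw [Nat.card_of_isEmpty] at hAP
      omega
    obtain ⟨p⟩ := hne
    have h4 := card_orbit h2 p
    obtain ⟨p', hp'⟩ : ∃ p' : AP F, ¬ R p.1 p'.1 := by
      by_contra hcon
      push Not at hcon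
      have : Nat.card {p' : AP F // R p.1 p'.1} = Nat.card (AP F) :=
        Nat.card_congr (Equiv.subtypeUnivEquiv hcon)
      omega
    have h5 := card_orbit h2 p'
    have hcover : ∀ r : AP F, R p.1 r.1 ∨ R p'.1 r.1 := by
      intro r
      by_contra hcon
      push Not at hcon
      have hfin : Finite (AP F) := inferInstance
      have e1 : Nat.card {r : AP F // R p.1 r.1} = ({r : AP F | R p.1 r.1}).ncard := rfl
      have e2 : Nat.card {r : AP F // R p'.1 r.1} = ({r : AP F | R p'.1 r.1}).ncard := rfl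
      have hdisj : Disjoint {r : AP F | R p.1 r.1} {r : AP F | R p'.1 r.1} := by
        rw [Set.disjoint_left]
        intro r h6 h7
        exact hp' (h6.trans h7.symm)
      have h6 := Set.ncard_union_eq hdisj (Set.toFinite _) (Set.toFinite _)
      have h7 : ({r : AP F | R p.1 r.1} ∪ {r : AP F | R p'.1 r.1}) ≠ Set.univ := by
        intro h
        have : r ∈ ({r : AP F | R p.1 r.1} ∪ {r : AP F | R p'.1 r.1}) := by rw [h]; trivial
        rcases this with h | h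
        · exact hcon.1 h
        · exact hcon.2 h
      have h8 := Set.ncard_lt_ncard ((Set.ssubset_univ_iff).mpr h7) (Set.toFinite _)
      rw [Set.ncard_univ, h6, ← e1, ← e2] at h8
      omega
    refine ⟨(klOf (down h2 p)).1, (klOf (down h2 p')).1, (klOf (down h2 p)).2, (klOf (down h2 p')).2, ?_, ?_⟩
    · intro h
      exact hp' (R_of_conj h2 hs p p' h)
    · intro W hW
      obtain ⟨r, rfl⟩ := exists_pair h2 W hW
      rcases hcover r with h | h
      · left; exact conj_of_R h2 p r h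
      · right; exact conj_of_R h2 p' r h

end Cfsg.Agent.S0808
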