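import Mathlib
import Cfsg.Statements.S0809
import Cfsg.Agent.Lib.MobQuat

set_option autoImplicit false

namespace Cfsg.Agent.S0809

open Cfsg.Agent.Lib Cfsg.Agent.Lib.SL2Basic Cfsg.Agent.Lib.MobCount Cfsg.Agent.Lib.MobQuat
open scoped MatrixGroups

theorem gen_of_card_four {F : Type*} [Field F] (h2 : (2 : F) ≠ 0) (A : Subgroup SL(2, F)) (hA : Nat.card A = 4) :
    ∃ a : SL(2, F), a * a = -1 ∧ A = Subgroup.zpowers a := by
  have hfin : Finite A := Nat.finite_of_card_ne_zero (by omega)
  have h1 : ∃ a ∈ A, a ≠ 1 ∧ a ≠ -1 := by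
    by_contra hcon
    push Not at hcon
    have : (A : Set SL(2, F)) ⊆ {1, -1} := by
      intro a ha
      by_cases h : a = 1
      · left; exact h
      · right; exact hcon a ha h
    have h3 := Set.ncard_le_ncard this (Set.toFinite _)
    have h4 : (A : Set SL(2, F)).ncard = 4 := by rw [← hA]; rfl
    have h5 : ({1, -1} : Set SL(2, F)).ncard ≤ 2 := (Set.ncard_insert_le _ _).trans (by simp)
    omega
  obtain ⟨a, haA, ha1, ha2⟩ := h1
  have h4 : a ^ 4 = 1 := by
    have := pow_card_eq_one' (x := (⟨a, haA⟩ : A))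
    rw [hA] at this
    exact congrArg Subtype.val this
  have hsq : a * a = -1 := by
    have h5 : (a * a) * (a * a) = 1 := by
      rw [← h4]; simp [pow_succ, mul_assoc]
    rcases SL2Tori.eq_one_or_neg_one_of_sq h2 h5 with h | h
    · rcases SL2Tori.eq_one_or_neg_one_of_sq h2 h with h | h
      · exact absurd h ha1
      · exact absurd h ha2
    · exact h
  refine ⟨a, hsq, ?_⟩
  symm
  apply Subgroup.eq_of_le_of_card_ge
  · rw [Subgroup.zpowers_le]; exact haA
  · rw [Nat.card_zpowers, orderOf_of_sq h2 hsq, hA]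

theorem result {F : Type*} [Field F] [Fintype F] {q : ℕ} (hF : Fintype.card F = q) (hodd : Odd q) (A : Subgroup (Matrix.SpecialLinearGroup (Fin 2) F)) (hA : Nat.card A = 4) : (∀ B : Subgroup (Matrix.SpecialLinearGroup (Fin 2) F), Nat.card B = 4 → ∃ g : Matrix.SpecialLinearGroup (Fin 2) F, B = A.map (MulAut.conj g).toMonoidHom) ∧ (q % 4 = 1 → Nat.card ↥(Subgroup.normalizer (A : Set (Matrix.SpecialLinearGroup (Fin 2) F))) = 2 * (q - 1)) ∧ (q % 4 = 3 → Nat.card ↥(Subgroup.normalizer (A : Set (Matrix.SpecialLinearGroup (Fin 2) F))) = 2 * (q + 1)) ∧ (∀ x y : Matrix.ProjectiveSpecialLinearGroup (Fin 2) F, orderOf x = 2 → orderOf y = 2 → IsConj x y) := by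
  classical
  have h2 := two_ne_zero_of_odd hF hodd
  obtain ⟨a, ha, rfl⟩ := gen_of_card_four h2 A hA
  have htr := tr_of_sq ha
  have h4 : tr a ^ 2 ≠ 4 := by rw [htr]; exact zero_sq_ne_four h2
  -- the normalizer
  have hnorm : Subgroup.normalizer ((Subgroup.zpowers a : Subgroup SL(2, F)) : Set SL(2, F)) =
      Subgroup.normalizer ((Subgroup.centralizer ({a} : Set SL(2, F)) : Subgroup SL(2, F)) : Set SL(2, F)) := by
    ext g
    rw [SL2Tori.mem_normalizer_centralizer_iff h4 g]
    have hainv : a⁻¹ = -a := by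
      rw [inv_eq_iff_mul_eq_one, mul_neg, ha, neg_neg]
    constructor
    · intro hg
      have h5 : g * a * g⁻¹ ∈ Subgroup.zpowers a := (Subgroup.mem_normalizer_iff.mp hg a).mp (Subgroup.mem_zpowers a)
      have h6 : Commute (g * a * g⁻¹) a := by
        obtain ⟨k, hk⟩ := h5
        change a ^ k = g * a * g⁻¹ at hk
        rw [← hk]
        exact (Commute.refl a).zpow_left k
      apply SL2Tori.eq_or_eq_inv_of_mem_centralizer h4
      · rw [Subgroup.mem_centralizer_singleton_iff]; exact h6.eq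
      · rw [tr_conj]
    · intro hg
      rw [Subgroup.mem_normalizer_iff]
      have key : ∀ g : SL(2, F), (g * a * g⁻¹ = a ∨ g * a * g⁻¹ = a⁻¹) → ∀ h, h ∈ Subgroup.zpowers a → g * h * g⁻¹ ∈ Subgroup.zpowers a := by
        rintro g hg h ⟨k, rfl⟩
        change g * a ^ k * g⁻¹ ∈ _
        rw [← conj_zpow]
        rcases hg with hg | hg
        · rw [hg]; exact ⟨k, rfl⟩
        · rw [hg]; exact Subgroup.zpow_mem _ (Subgroup.inv_mem _ (Subgroup.mem_zpowers a)) k
      intro h
      constructor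
      · exact key g hg h
      · intro hh
        have h7 : g⁻¹ * a * g⁻¹⁻¹ = a ∨ g⁻¹ * a * g⁻¹⁻¹ = a⁻¹ := by
          rw [inv_inv]
          rcases hg with hg | hg
          · left; nth_rewrite 1 [← hg]; group
          · right
            have : a = g * a⁻¹ * g⁻¹ := by
              have h8 := congrArg (fun z => z⁻¹) hg
              simp only [inv_inv] at h8
              exact h8.symm.trans (by group)
            nth_rewrite 1 [this]; group
        have h9 := key g⁻¹ h7 _ hh
        have h10 : g⁻¹ * (g * h * g⁻¹) * g⁻¹⁻¹ = h := by group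
        rwa [h10] at h9
  have hcn := SL2Tori.card_normalizer h2 h4
  refine ⟨?_, ?_, ?_, ?_⟩
  · intro B hB
    obtain ⟨b, hb, rfl⟩ := gen_of_card_four h2 B hB
    obtain ⟨g, hg⟩ := exists_conj h2 ha hb
    refine ⟨g, ?_⟩
    rw [MonoidHom.map_zpowers]
    congr 1
    exact hg.symm
  · intro hq
    rw [hnorm, hcn]
    obtain ⟨c, hc⟩ : ∃ c : F, c ^ 2 = -1 := by
      have : IsSquare (-1 : F) := by
        rw [FiniteField.isSquare_neg_one_iff, hF]; omega
      obtain ⟨c, hc⟩ := this
      exact ⟨c, by rw [sq]; exact hc.symm⟩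
    rw [(SL2Tori.centralizer_of_root h4 (c := c) (by rw [htr, hc]; ring)).2, Nat.card_eq_fintype_card, hF]
  · intro hq
    rw [hnorm, hcn]
    have hr : ∀ x : F, x ^ 2 - tr a * x + 1 ≠ 0 := by
      intro x hx
      rw [htr] at hx
      have : IsSquare (-1 : F) := ⟨x, by linear_combination -hx⟩
      rw [FiniteField.isSquare_neg_one_iff, hF] at this
      omega
    rw [(SL2Tori.centralizer_of_no_root hr).2, Nat.card_eq_fintype_card, hF]
  · intro x y hx hy
    obtain ⟨s, rfl⟩ := QuotientGroup.mk_surjective x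
    obtain ⟨t, rfl⟩ := QuotientGroup.mk_surjective y
    have hs := lift_sq h2 hx s rfl
    have ht := lift_sq h2 hy t rfl
    obtain ⟨g, hg⟩ := exists_conj h2 hs ht
    rw [isConj_iff]
    exact ⟨(g : P2 F), by rw [← hg]; rfl⟩

end Cfsg.Agent.S0809
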