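import Mathlib
import Cfsg.Statements.S0810
import Cfsg.Agent.S0805
import Cfsg.Agent.S0804
import Cfsg.Agent.Lib.MobSolv

set_option autoImplicit false

namespace Cfsg.Agent.S0810

open Cfsg.Agent.Lib Cfsg.Agent.Lib.MobCount MulAction Matrix
open scoped LinearAlgebra.Projectivization MatrixGroups

theorem solvable_card {G : Type*} [Group G] (n a b : ℕ) (h : Nat.card G = n) (hab : n = 2 ^ a * 3 ^ b) :
    Group.IsSolvable G := by
  have hn : n ≠ 0 := by rw [hab]; positivity
  haveI : Finite G := Nat.finite_of_card_ne_zero (by rw [h]; exact hn)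
  exact Burnside.isSolvable_of_card_eq n 2 3 a b Nat.prime_two Nat.prime_three (by rw [h, hab]) h

theorem card_psl_small {F : Type*} [Field F] [Fintype F] (h : Fintype.card F = 2 ∨ Fintype.card F = 3) :
    ∃ a b, Nat.card (P2 F) = 2 ^ a * 3 ^ b := by
  have h3 := card_P2 (F := F) rfl
  rcases h with hc | hc
  · rw [hc] at h3
    refine ⟨1, 1, ?_⟩
    have h5 : Nat.gcd 2 (2 - 1) = 1 := rfl
    rw [h5, one_mul] at h3
    exact h3
  · rw [hc] at h3
    refine ⟨2, 1, ?_⟩
    have h5 : Nat.gcd 2 (3 - 1) = 2 := rfl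
    have h6 : 3 * (3 ^ 2 - 1) = 24 := rfl
    rw [h5, h6] at h3
    omega

theorem card_pgl_small {F : Type*} [Field F] [Fintype F] (h : Fintype.card F = 2 ∨ Fintype.card F = 3) :
    ∃ a b, Nat.card (PGL(Fin 2, F)) = 2 ^ a * 3 ^ b := by
  have h3 := card_G2 (F := F) rfl
  rcases h with hc | hc
  · rw [hc] at h3
    exact ⟨1, 1, h3⟩
  · rw [hc] at h3
    exact ⟨3, 1, h3⟩

/-- the solvability of all proper subgroups in the good cases -/
theorem proper_solvable {F : Type*} [Field F] [Fintype F] {q : ℕ} (hF : Fintype.card F = q)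
    (h : (∃ r : ℕ, r.Prime ∧ q = 2 ^ r) ∨ (∃ r : ℕ, r.Prime ∧ r ≠ 2 ∧ q = 3 ^ r) ∨ (q.Prime ∧ 5 < q ∧ (q % 5 = 2 ∨ q % 5 = 3)) ∨ q = 5)
    (H : Subgroup (P2 F)) (hH : H ≠ ⊤) : Group.IsSolvable H := by
  classical
  obtain ⟨p, hp⟩ := CharP.exists F
  have hpp : Fact p.Prime := ⟨CharP.char_is_prime F p⟩
  obtain ⟨n, hn0, hn⟩ := FiniteField.card F p
  rw [hF] at hn
  rcases psl_cases hF p H hH with ⟨hc, _, _⟩ | ⟨C, hCH, hC, _, hc, _⟩ | ⟨_, h2, _⟩ | ⟨_, h2, _⟩ | ⟨h1, h2, _⟩ |
    ⟨_, x, hx⟩ | ⟨g, k, m, hm, hkm, hk⟩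
  · letI : CommGroup H := hc.commGroup
    infer_instance
  · have e := Subgroup.subgroupOfEquivOfLe hCH
    have hC' : IsCyclic (C.subgroupOf H) := e.isCyclic.mpr hC
    apply isSolvable_of_cyclic_index_two (C.subgroupOf H)
    rw [hc, Nat.card_congr e.toEquiv]
  · exact solvable_card 12 2 1 h2 (by norm_num)
  · exact solvable_card 24 3 1 h2 (by norm_num)
  · exfalso
    have hdvd : Nat.card H ∣ Nat.card (P2 F) := Subgroup.card_subgroup_dvd_card H
    have h3 := card_P2 (F := F) hF
    have h5 : 5 ∣ q * (q ^ 2 - 1) := by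
      rw [← h3]
      rw [h2] at hdvd
      exact Dvd.dvd.mul_left ((by norm_num : (5:ℕ) ∣ 60).trans hdvd) _
    rw [h2] at h1
    have hpn : p ∣ q := by rw [hn]; exact dvd_pow_self _ n.ne_zero
    rcases h with ⟨r, hr, hq⟩ | ⟨r, hr, hr2, hq⟩ | ⟨hqp, hq5, hq⟩ | hq
    · have hp2 : p = 2 := by
        rw [hq] at hpn
        exact (Nat.prime_dvd_prime_iff_eq hpp.1 Nat.prime_two).mp (hpp.1.dvd_of_dvd_pow hpn)
      rw [hp2] at h1
      norm_num at h1
    · have hro : Odd r := hr.odd_of_ne_two hr2
      obtain ⟨s, rfl⟩ := hro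
      have h6 : q ^ 2 % 5 = 4 := by
        rw [hq, ← pow_mul, mul_comm, pow_mul, pow_add, pow_mul, pow_one, Nat.mul_mod, Nat.pow_mod]
        norm_num
      have h7 : 1 ≤ q ^ 2 := Nat.one_le_pow _ _ (by rw [hq]; positivity)
      rcases (Nat.prime_five.dvd_mul).mp h5 with h8 | h8
      · have := Dvd.dvd.mul_left h8 q
        rw [← sq] at this
        omega
      · omega
    · have h6 : q ^ 2 % 5 = 4 := by
        rcases hq with hq | hq <;> rw [Nat.pow_mod, hq]
      have h7 : 1 ≤ q ^ 2 := Nat.one_le_pow _ _ (by omega)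
      rcases (Nat.prime_five.dvd_mul).mp h5 with h8 | h8
      · omega
      · omega
    · have hp2 : p = 5 := by
        rw [hq] at hpn
        exact (Nat.prime_dvd_prime_iff_eq hpp.1 Nat.prime_five).mp hpn
      rw [hp2] at h1
      norm_num at h1
  · exact solvable_of_le_stab H x hx
  · have hck : Fintype.card k = Nat.card k := Nat.card_eq_fintype_card.symm
    have hk1 : 1 < Nat.card k := by rw [← hck]; exact Fintype.one_lt_card
    have h23 : Fintype.card k = 2 ∨ Fintype.card k = 3 := by
      rw [hck]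
      have key : ∀ s r : ℕ, s.Prime → r.Prime → q = s ^ r → Nat.card k = s := by
        intro s r hs hr hq
        rw [← hkm] at hq
        have h1 : Nat.card k ∣ s ^ r := by rw [← hq]; exact dvd_pow_self _ (by omega)
        obtain ⟨j, _, hj⟩ := (Nat.dvd_prime_pow hs).mp h1
        rw [hj, ← pow_mul] at hq
        have h2 := Nat.pow_right_injective hs.two_le hq
        have hmr : m ∣ r := ⟨j, by rw [← h2, mul_comm]⟩
        rcases (Nat.dvd_prime hr).mp hmr with h3 | h3
        · omega
        · subst h3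
          have : j = 1 := by
            have h4 : j * m = 1 * m := by rw [one_mul]; exact h2
            exact Nat.eq_of_mul_eq_mul_right (by omega) h4
          rw [hj, this, pow_one]
      have hnp : ¬ q.Prime := by
        intro h
        rw [← hkm] at h
        have := h.eq_one_of_pow (n := m) 
        omega
      rcases h with ⟨r, hr, hq⟩ | ⟨r, hr, hr2, hq⟩ | ⟨hqp, hq5, hq⟩ | hq
      · left; exact key 2 r Nat.prime_two hr hq
      · right; exact key 3 r Nat.prime_three hr hq
      · exact absurd hqp hnp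
      · exact absurd (hq ▸ Nat.prime_five) hnp
    rcases hk with hk | hk
    · obtain ⟨a, b, hab⟩ := card_psl_small h23
      rw [← card_of_range_psl H g k hk] at hab
      exact solvable_card _ a b rfl hab
    · obtain ⟨a, b, hab⟩ := card_pgl_small h23
      rw [← card_of_range_pgl H g k hk] at hab
      exact solvable_card _ a b rfl hab

theorem alt5_not_solvable : ¬ Group.IsSolvable (alternatingGroup (Fin 5)) := by
  intro h
  apply Equiv.Perm.not_isSolvable_fin_5
  rw [Group.isSolvable_iff_subgroup_quotient (alternatingGroup (Fin 5))]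
  refine ⟨h, ?_⟩
  have h2 : Nat.card (Equiv.Perm (Fin 5) ⧸ alternatingGroup (Fin 5)) = 2 := alternatingGroup.index_eq_two
  haveI : Fact (Nat.Prime 2) := ⟨Nat.prime_two⟩
  have : IsCyclic (Equiv.Perm (Fin 5) ⧸ alternatingGroup (Fin 5)) := isCyclic_of_prime_card h2
  letI : CommGroup (Equiv.Perm (Fin 5) ⧸ alternatingGroup (Fin 5)) := IsCyclic.commGroup
  infer_instance

/-- `A₅` is a proper non-solvable subgroup if `5` divides the order and `q ≥ 7`. -/
theorem not_five {F : Type*} [Field F] [Fintype F] {q : ℕ} (hF : Fintype.card F = q) (hq : 6 < q)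
    (hs : ∀ H : Subgroup (P2 F), H ≠ ⊤ → Group.IsSolvable H) (h5 : 5 ∣ q * (q ^ 2 - 1)) : False := by
  obtain ⟨H, ⟨e⟩⟩ := (S0804.result hF).mpr h5
  have hH : H ≠ ⊤ := by
    rintro rfl
    have h1 : Nat.card (P2 F) = 60 := by
      rw [← Subgroup.card_top, Nat.card_congr e.toEquiv]
      have := two_mul_nat_card_alternatingGroup (α := Fin 5)
      rw [Nat.card_perm, Nat.card_fin] at this
      have h5 : Nat.factorial 5 = 120 := rfl
      rw [h5] at this
      omega
    have h3 := card_P2 (F := F) hF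
    have h4 := gcd_le_two (q := q)
    rw [h1] at h3
    have h6 : 7 * (7 ^ 2 - 1) ≤ q * (q ^ 2 - 1) :=
      Nat.mul_le_mul hq (Nat.sub_le_sub_right (Nat.pow_le_pow_left hq 2) 1)
    omega
  have := hs H hH
  apply alt5_not_solvable
  exact Group.isSolvable_of_surjective (f := e.toMonoidHom) e.surjective

theorem result {F : Type*} [Field F] [Fintype F] {q : ℕ} (hF : Fintype.card F = q) : Cfsg.IsMinimalSimple (Matrix.ProjectiveSpecialLinearGroup (Fin 2) F) ↔ ((∃ r : ℕ, r.Prime ∧ q = 2 ^ r) ∨ (∃ r : ℕ, r.Prime ∧ r ≠ 2 ∧ q = 3 ^ r) ∨ (q.Prime ∧ 5 < q ∧ (q % 5 = 2 ∨ q % 5 = 3)) ∨ q = 5) := by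
  classical
  constructor
  · rintro ⟨hsimple, hnc, hs⟩
    have hq4 : 4 ≤ q := by
      by_contra hlt
      have := solvable_P2 (F := F) (by omega)
      have hc := IsSimpleGroup.comm_iff_isSolvable.mpr this
      exact hnc ⟨⟨hc⟩⟩
    obtain ⟨p, hp⟩ := CharP.exists F
    have hpp : Fact p.Prime := ⟨CharP.char_is_prime F p⟩
    obtain ⟨n, hn0, hn⟩ := FiniteField.card F p
    rw [hF] at hn
    by_cases hn1 : (n : ℕ) = 1
    · rw [hn1, pow_one] at hn
      have hqp : q.Prime := hn ▸ hpp.1
      by_cases h5 : q = 5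
      · right; right; right; exact h5
      right; right; left
      have h4 : q ≠ 4 := by rintro rfl; revert hqp; norm_num
      have h6 : q ≠ 6 := by rintro rfl; revert hqp; norm_num
      refine ⟨hqp, by omega, ?_⟩
      by_contra hcon
      apply not_five hF (by omega) hs
      have h0 : q % 5 ≠ 0 := by
        intro h
        rcases (Nat.dvd_prime hqp).mp (Nat.dvd_of_mod_eq_zero h) with h | h
        · omega
        · omega
      apply Dvd.dvd.mul_left
      have h1 : q ^ 2 % 5 = 1 := by
        have : q % 5 = 1 ∨ q % 5 = 4 := by omega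
        rcases this with h | h <;> rw [Nat.pow_mod, h]
      have : 1 ≤ q ^ 2 := Nat.one_le_pow _ _ (by omega)
      omega
    · have hnpos : 0 < (n : ℕ) := n.pos
      obtain ⟨r, hr, l, hl⟩ := Nat.exists_prime_and_dvd hn1
      have hl0 : l ≠ 0 := by rintro rfl; rw [mul_zero] at hl; omega
      letI : Fintype (GaloisField p l) := Fintype.ofFinite _
      have hck : Fintype.card (GaloisField p l) = p ^ l := by
        rw [← Nat.card_eq_fintype_card]; exact GaloisField.card p l hl0
      have hq' : Fintype.card (GaloisField p l) ^ r = q := by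
        rw [hck, hn, hl, ← pow_mul, mul_comm]
      obtain ⟨alg, _⟩ := FFTower.exists_algebra_of_card (F := GaloisField p l) (K := F) (d := r)
        (by rw [hF, hq']) hr.pos.ne'
      let σ : GaloisField p l →+* F := algebraMap _ F
      obtain ⟨H, ⟨e⟩⟩ := S0805.exists_sub _ (S0805.pslMap_le σ)
      have e' : H ≃* P2 (GaloisField p l) := e.trans (MonoidHom.ofInjective (pslMap_injective σ)).symm
      have hk2 : 2 ≤ p ^ l := by rw [← hck]; exact Fintype.one_lt_card
      have hkq : (p ^ l) ^ 2 ≤ q := by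
        rw [← hq', hck]; exact Nat.pow_le_pow_right (by omega) hr.two_le
      have hH : H ≠ ⊤ := by
        rintro rfl
        have h1 : Nat.card (P2 F) = Nat.card (P2 (GaloisField p l)) := by
          rw [← Subgroup.card_top, Nat.card_congr e'.toEquiv]
        have h2 := card_P2 (F := F) hF
        have h3 := card_P2 (F := GaloisField p l) hck
        have h4 := gcd_le_two (q := q)
        have h5 : 1 ≤ Nat.gcd 2 (p ^ l - 1) := Nat.gcd_pos_of_pos_left _ (by norm_num)
        rw [h1] at h2
        have h6 : Nat.card (P2 (GaloisField p l)) ≤ p ^ l * ((p ^ l) ^ 2 - 1) := by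
          rw [← h3]; exact Nat.le_mul_of_pos_left _ h5
        have h7 : q * (q ^ 2 - 1) ≤ 2 * (p ^ l * ((p ^ l) ^ 2 - 1)) := by
          rw [← h2]; exact Nat.mul_le_mul h4 h6
        have h8 : 2 * p ^ l ≤ q := le_trans (by nlinarith) hkq
        have h9 : 2 * (p ^ l * ((p ^ l) ^ 2 - 1)) < q * (q ^ 2 - 1) := by
          rw [← mul_assoc]
          apply Nat.mul_lt_mul_of_le_of_lt h8 _ (by omega)
          have : (p ^ l) ^ 2 < q ^ 2 := Nat.pow_lt_pow_left (by omega) (by norm_num)
          have h10 : 1 ≤ (p ^ l) ^ 2 := Nat.one_le_pow _ _ (by omega)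
          omega
        omega
      have hsol := hs H hH
      have hsol' : Group.IsSolvable (P2 (GaloisField p l)) :=
        Group.isSolvable_of_surjective (f := e'.toMonoidHom) e'.surjective
      have hk4 : p ^ l < 4 := by
        by_contra hge
        exact not_solvable_P2 (F := GaloisField p l) (by omega) hsol'
      have hl1 : l = 1 := by
        by_contra h
        have h2 : 2 ≤ l := by omega
        have := Nat.pow_le_pow_left hpp.1.two_le l
        have h3 := Nat.pow_le_pow_right (n := 2) (by norm_num) h2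
        omega
      subst hl1
      rw [mul_one] at hl
      rw [pow_one] at hk4
      have hp23 : p = 2 ∨ p = 3 := by
        have := hpp.1.two_le
        omega
      rcases hp23 with hp2 | hp3
      · left
        exact ⟨r, hr, by rw [hn, hl, hp2]⟩
      · right; left
        refine ⟨r, hr, ?_, by rw [hn, hl, hp3]⟩
        rintro rfl
        have hq9 : q = 9 := by rw [hn, hl, hp3]; norm_num
        apply not_five hF (by omega) hs
        rw [hq9]
        norm_num
  · intro h
    have hq4 : 4 ≤ q := by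
      rcases h with ⟨r, hr, hq⟩ | ⟨r, hr, hr2, hq⟩ | ⟨hqp, hq5, hq⟩ | hq
      · rw [hq]; exact Nat.pow_le_pow_right (n := 2) (by norm_num) hr.two_le
      · rw [hq]
        have := Nat.pow_le_pow_right (n := 3) (by norm_num) hr.two_le
        omega
      · omega
      · omega
    refine ⟨simple_P2 (by omega), ?_, proper_solvable hF h⟩
    intro hc
    exact not_comm_P2 (F := F) (fun a b => hc.is_comm.comm a b)

end Cfsg.Agent.S0810
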