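import Mathlib
import Cfsg.Statements.S0812
import Cfsg.Agent.Lib.MobAlt

set_option autoImplicit false

namespace Cfsg.Agent.S0812

open Cfsg.Agent.Lib Cfsg.Agent.Lib.MobCount MulAction
open scoped LinearAlgebra.Projectivization MatrixGroups

set_option maxHeartbeats 1000000 in
theorem result {F : Type*} [Field F] [Fintype F] {q : ℕ} (hF : Fintype.card F = q) (hq : q ∉ ({2, 3, 5, 7, 9, 11} : Finset ℕ)) : ∃ H : Subgroup (Matrix.ProjectiveSpecialLinearGroup (Fin 2) F), IsCoatom H ∧ Nonempty (H ≃* DihedralGroup ((q - 1) / Nat.gcd 2 (q - 1))) := by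
  classical
  obtain ⟨p, hp⟩ := CharP.exists F
  have hpp : Fact p.Prime := ⟨CharP.char_is_prime F p⟩
  have hq2 := two_le_q hF
  have hq4 : 4 ≤ q := by
    simp only [Finset.mem_insert, Finset.mem_singleton, not_or] at hq
    omega
  obtain ⟨r, hr0, hr⟩ := FiniteField.card F p
  rw [hF] at hr
  have hcopq : Nat.Coprime (q - 1) q := by
    have : Nat.Coprime (q - 1) ((q - 1) + 1) := by
      rw [Nat.coprime_self_add_right]; exact Nat.coprime_one_right _
    rwa [Nat.sub_add_cancel (by omega)] at this
  have hpq : p ∣ q := by rw [hr]; exact dvd_pow_self p r.ne_zero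
  have hcop : Nat.Coprime (q - 1) p := Nat.Coprime.coprime_dvd_right hpq hcopq
  obtain ⟨t, ht⟩ := ClSL2Syl.exists_orderOf_card_sub_one (F := F)
  rw [hF] at ht
  have h4 : SL2Basic.tr t ^ 2 ≠ 4 := tr_sq_ne p t (by rw [ht]; exact hcop) (by rw [ht]; omega)
  obtain ⟨w, H, hw, htH, hwH, hcard, hD⟩ := exists_dihedral t h4
  have hdcases := gcd_cases (F := F) hF p
  have hord : orderOf (t : P2 F) = (q - 1) / Nat.gcd 2 (q - 1) := by
    rw [← ht]
    apply PSL2Orders.orderOf_mk
    rcases hdcases with ⟨_, he, _⟩ | ⟨hp2, _, _⟩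
    · right
      rw [ht]
      exact Nat.Even.sub_odd (by omega) he odd_one
    · left
      intro h
      have : ((2 : ℕ) : F) = 0 := by exact_mod_cast h
      rw [CharP.cast_eq_zero_iff F p] at this
      exact hp2 ((Nat.prime_dvd_prime_iff_eq Fact.out Nat.prime_two).mp this)
  rw [hord] at hD
  have hdn : Nat.gcd 2 (q - 1) * orderOf (t : P2 F) = q - 1 := by
    rw [hord, Nat.mul_div_cancel' (Nat.gcd_dvd_right _ _)]
  have hP := card_P2 (F := F) hF
  refine ⟨H, ?_, hD⟩
  set n := orderOf (t : P2 F) with hn
  have hpn : ¬ p ∣ n := by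
    intro h
    have h1 : p ∣ q - 1 := by rw [← hdn]; exact h.mul_left _
    have := Nat.Coprime.eq_one_of_dvd hcop.symm h1
    exact (Fact.out : p.Prime).one_lt.ne' this
  set d := Nat.gcd 2 (q - 1) with hd
  have hq21 : q ^ 2 - 1 = (q - 1) * (q + 1) := by
    have : q ^ 2 - 1 ^ 2 = (q + 1) * (q - 1) := Nat.sq_sub_sq q 1
    rw [one_pow] at this
    rw [this, mul_comm]
  have hdpos : 0 < d := Nat.gcd_pos_of_pos_left _ (by norm_num)
  have hd2 : d ≤ 2 := Nat.gcd_le_left _ (by norm_num)
  constructor
  · intro htop
    rw [htop] at hcard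
    rw [Nat.card_congr (Subgroup.topEquiv (G := P2 F)).toEquiv] at hcard
    rw [hcard, hq21, mul_left_comm, hdn, mul_left_comm, mul_comm (q - 1) (q * (q + 1))] at hP
    have := Nat.eq_of_mul_eq_mul_right (by omega : 0 < q - 1) hP
    have : 4 * 5 ≤ q * (q + 1) := Nat.mul_le_mul hq4 (by omega)
    omega
  · intro M hHM
    by_contra hM
    have hle : H ≤ M := hHM.le
    have hdvd : Nat.card H ∣ Nat.card M := Subgroup.card_dvd_of_le hle
    have hne : Nat.card H ≠ Nat.card M := fun h => hHM.ne (Subgroup.eq_of_le_of_card_ge hle h.ge)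
    rw [hcard] at hdvd hne
    have htM : (t : P2 F) ∈ M := hle htH
    have hordM : orderOf (⟨(t : P2 F), htM⟩ : M) = n := Subgroup.orderOf_mk _ htM
    have hMP : Nat.card M ∣ Nat.card (P2 F) := Subgroup.card_subgroup_dvd_card M
    have hodd2 : (¬ p ∣ Nat.card M ∨ p = 3) → 2 ∣ Nat.card M → d = 2 := by
      intro h1 h2
      rcases hdcases with ⟨h3, _, _⟩ | ⟨_, _, h4⟩
      · exfalso
        rcases h1 with h1 | h1
        · exact h1 (h3 ▸ h2)
        · omega
      · exact h4
    rcases psl_cases hF p M hM with ⟨_, _, h⟩ | ⟨C, _, _, _, hc, _, h, _⟩ | ⟨h1, h2, ⟨e⟩⟩ | ⟨h1, h2, ⟨e⟩⟩ | ⟨h1, h2, ⟨e⟩⟩ |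
      ⟨_, x, hx⟩ | ⟨g, k, m, hm, hkm, h⟩
    · -- cyclic
      have h1 : 2 * (q - 1) ∣ d * Nat.card M := by
        rw [← hdn, mul_left_comm]; exact Nat.mul_dvd_mul_left d hdvd
      rcases h with h | h
      · have := Nat.le_of_dvd (by omega) (h1.trans h); omega
      · have := Nat.le_of_dvd (by omega) (h1.trans h); omega
    · rw [hc] at hdvd hne
      have h1 : n ∣ Nat.card C := Nat.dvd_of_mul_dvd_mul_left (by norm_num) hdvd
      have h2 : q - 1 ∣ d * Nat.card C := by rw [← hdn]; exact Nat.mul_dvd_mul_left d h1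
      rcases h with h | h
      · have h3 : q - 1 ∣ q + 1 := h2.trans h
        have h5 : q - 1 ∣ 2 := by
          have h6 : q + 1 = (q - 1) + 2 := by omega
          rw [h6] at h3
          exact (Nat.dvd_add_right (dvd_refl _)).mp h3
        have := Nat.le_of_dvd (by norm_num) h5
        omega
      · have h3 := (Nat.dvd_antisymm h h2).trans hdn.symm
        have := Nat.eq_of_mul_eq_mul_left hdpos h3
        apply hne
        rw [this]
    · have hd2' := hodd2 (Or.inl h1) (by rw [h2]; norm_num)
      simp only [Finset.mem_insert, Finset.mem_singleton, not_or] at hq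
      rw [hd2'] at hdn
      rcases alt4_orders (e ⟨(t : P2 F), htM⟩) with h | h
      · rw [← map_pow, map_eq_one_iff e e.injective] at h
        have h3 := orderOf_dvd_of_pow_eq_one h
        rw [hordM] at h3
        have := Nat.le_of_dvd (by norm_num) h3
        omega
      · rw [← map_pow, map_eq_one_iff e e.injective] at h
        have h3 := orderOf_dvd_of_pow_eq_one h
        rw [hordM] at h3
        have := Nat.le_of_dvd (by norm_num) h3
        omega
    · have hd2' := hodd2 (Or.inl h1) (by rw [h2]; norm_num)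
      rw [hd2'] at hdn hP
      rw [h2] at hMP h1
      have hdvd24 : n ∣ 3 ∨ n ∣ 4 := by
        rcases sym4_orders (e ⟨(t : P2 F), htM⟩) with h | h
        · rw [← map_pow, map_eq_one_iff e e.injective] at h
          left; rw [← hordM]; exact orderOf_dvd_of_pow_eq_one h
        · rw [← map_pow, map_eq_one_iff e e.injective] at h
          right; rw [← hordM]; exact orderOf_dvd_of_pow_eq_one h
      have hn4 : n ≤ 4 := by
        rcases hdvd24 with h | h
        · exact (Nat.le_of_dvd (by norm_num) h).trans (by norm_num)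
        · exact Nat.le_of_dvd (by norm_num) h
      simp only [Finset.mem_insert, Finset.mem_singleton, not_or] at hq
      omega
    · have hd2' := hodd2 h1 (by rw [h2]; norm_num)
      rw [hd2'] at hdn hP
      have hdvd24 : n ∣ 2 ∨ n ∣ 3 ∨ n ∣ 5 := by
        rcases alt5_orders (e ⟨(t : P2 F), htM⟩) with h | h | h
        · rw [← map_pow, map_eq_one_iff e e.injective] at h
          left; rw [← hordM]; exact orderOf_dvd_of_pow_eq_one h
        · rw [← map_pow, map_eq_one_iff e e.injective] at h
          right; left; rw [← hordM]; exact orderOf_dvd_of_pow_eq_one h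
        · rw [← map_pow, map_eq_one_iff e e.injective] at h
          right; right; rw [← hordM]; exact orderOf_dvd_of_pow_eq_one h
      have hn4 : n = 1 ∨ n = 2 ∨ n = 3 ∨ n = 5 := by
        rcases hdvd24 with h | h | h
        · rcases (Nat.dvd_prime Nat.prime_two).mp h with h | h <;> omega
        · rcases (Nat.dvd_prime Nat.prime_three).mp h with h | h <;> omega
        · rcases (Nat.dvd_prime Nat.prime_five).mp h with h | h <;> omega
      simp only [Finset.mem_insert, Finset.mem_singleton, not_or] at hq
      obtain ⟨_, h3', h5', h7', _, h11'⟩ := hq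
      rcases hn4 with h | h | h | h
      · exact h3' (by rw [h] at hdn; omega)
      · exact h5' (by rw [h] at hdn; omega)
      · exact h7' (by rw [h] at hdn; omega)
      · exact h11' (by rw [h] at hdn; omega)
    · have h1 : (t : P2 F) ∈ stabilizer (P2 F) x := hx htM
      have h2 : (w : P2 F) ∈ stabilizer (P2 F) x := hx (hle hwH)
      exact no_common_fix t w h4 hw x h1 h2
    · have hk2 : 2 ≤ Nat.card k := by rw [Nat.card_eq_fintype_card]; exact Fintype.one_lt_card
      have hck : Fintype.card k = Nat.card k := Nat.card_eq_fintype_card.symm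
      have hchk : CharP k p := (algebraMap k F).charP (algebraMap k F).injective p
      have hdv : Nat.card M ∣ Nat.card k * (Nat.card k ^ 2 - 1) := by
        rcases h with h | h
        · rw [card_of_range_psl M g k h, ← card_P2 hck]
          exact Dvd.intro_left _ rfl
        · rw [card_of_range_pgl M g k h, card_G2 hck]
      have hkq : Nat.card k ^ 2 ≤ q := by
        rw [← hkm]; exact Nat.pow_le_pow_right (by omega) hm
      have h1 : q - 1 ∣ 2 * n := by
        rw [← hdn]
        exact Nat.mul_dvd_mul_right (Nat.gcd_dvd_left _ _) n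
      have h2 : q - 1 ∣ Nat.card k * (Nat.card k ^ 2 - 1) := h1.trans (hdvd.trans hdv)
      have hkdq : Nat.card k ∣ q := by
        rw [← hkm]; exact dvd_pow_self _ (by omega)
      have h3 := (Nat.Coprime.coprime_dvd_right hkdq hcopq).dvd_of_dvd_mul_left h2
      have h5 : 2 ^ 2 ≤ Nat.card k ^ 2 := Nat.pow_le_pow_left hk2 2
      have h6 := Nat.le_of_dvd (by omega) h3
      have hqk : q = Nat.card k ^ 2 := by omega
      -- order of `t` in `PGL_2(k)`
      have hto : n ∣ Nat.card k + 1 ∨ n ∣ Nat.card k - 1 := by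
        let f : M →* Matrix.ProjGenLinGroup (Fin 2) F :=
          (MulAut.conj g).toMonoidHom.comp (Matrix.ProjectiveSpecialLinearGroup.toPGL.comp M.subtype)
        have hf : Function.Injective f :=
          (MulAut.conj g).injective.comp (Matrix.ProjectiveSpecialLinearGroup.toPGL_injective.comp M.subtype_injective)
        have hfr : ∀ x : M, f x ∈ (Matrix.ProjGenLinGroup.map (n := Fin 2) k.subtype).range := by
          intro x
          have h7 : f x ∈ (M.map Matrix.ProjectiveSpecialLinearGroup.toPGL).map (MulAut.conj g).toMonoidHom :=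
            ⟨_, ⟨x.1, x.2, rfl⟩, rfl⟩
          rcases h with h | h
          · rw [h] at h7
            obtain ⟨y, hy⟩ := h7
            exact ⟨Matrix.ProjectiveSpecialLinearGroup.toPGL y, hy⟩
          · rw [h] at h7; exact h7
        obtain ⟨y, hy⟩ := hfr ⟨(t : P2 F), htM⟩
        have hoy : orderOf y = n := by
          rw [← orderOf_injective _ (map_PGL_injective k.subtype) y, hy, orderOf_injective f hf, hordM]
        rw [← hoy]
        apply pgl_order_dvd hck p y
        rw [hoy]; exact hpn
      have h7 : n ≤ Nat.card k + 1 := by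
        rcases hto with h | h
        · exact Nat.le_of_dvd (by omega) h
        · have := Nat.le_of_dvd (by omega) h; omega
      -- `k ≤ 3`
      have hk3 : Nat.card k ≤ 3 := by
        have h8 : q - 1 ≤ 2 * (Nat.card k + 1) := (Nat.le_of_dvd (by
          have : 0 < n := orderOf_pos _
          omega) h1).trans (by omega)
        rw [hqk] at h8
        have h9 : Nat.card k ^ 2 ≤ 2 * Nat.card k + 3 := by omega
        by_contra hlt
        push Not at hlt
        nlinarith
      have hk23 : Nat.card k = 2 ∨ Nat.card k = 3 := by omega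
      rcases hk23 with hk | hk
      · rw [hk] at hqk
        norm_num at hqk
        have h9 : d = 1 := by rw [hd, hqk]; rfl
        rw [h9, hqk] at hdn
        have h10 : n = 3 := by omega
        rw [hk] at hdv
        have hdv' : Nat.card M ∣ 2 * 3 := hdv
        rw [h10] at hdvd hne
        exact hne (Nat.dvd_antisymm hdv' hdvd).symm
      · rw [hk] at hqk
        simp only [Finset.mem_insert, Finset.mem_singleton, not_or] at hq
        exact hq.2.2.2.2.1 hqk

end Cfsg.Agent.S0812
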