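import Cfsg.Statements.S0814
import Cfsg.Agent.Lib.PSpCard

set_option autoImplicit false
open Cfsg

namespace Cfsg.Agent.S0814

/-- |Aut(PSp_2m(q))| = gcd(2, q−1) · f · |PSp_2m(q)| for q = p^f, m ≥ 2, (m, q) ≠ (2, 2), with an extra factor 2 exactly when m = 2 and p = 2. -/
theorem result {F : Type*} [Field F] [Fintype F] (p f : ℕ) [Fact p.Prime] (hf : 1 ≤ f) (hF : Fintype.card F = p ^ f) (m : ℕ) (hm : 2 ≤ m) (h22 : m = 2 → 3 ≤ p ^ f) : Nat.card (MulAut (Cfsg.PSp m F)) = (if m = 2 ∧ p = 2 then 2 else 1) * Nat.gcd 2 (p ^ f - 1) * f * Nat.card (Cfsg.PSp m F) := by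
  have hc : CharP F p := charP_of_card_eq_prime_pow hF
  by_cases h : m = 2 ∧ p = 2
  · obtain ⟨rfl, rfl⟩ := h
    rw [if_pos ⟨rfl, rfl⟩, Lib.PSp4.card_aut hF]
    have h1 : Nat.gcd 2 (2 ^ f - 1) = 1 := by
      rw [Nat.gcd_comm]
      apply Nat.Coprime.symm
      rw [Nat.coprime_two_left]
      obtain ⟨k, rfl⟩ : ∃ k, f = k + 1 := ⟨f - 1, by omega⟩
      refine ⟨2 ^ k - 1, ?_⟩
      have : 1 ≤ 2 ^ k := Nat.one_le_pow _ _ (by omega)
      rw [pow_succ]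
      omega
    rw [h1, mul_one]
  · rw [if_neg h, Lib.PSpAut.card_aut hm (fun hm2 h2 => h ⟨hm2, by
      have h3 : ((2 : ℕ) : F) = 0 := by exact_mod_cast h2
      rw [CharP.cast_eq_zero_iff F p] at h3
      exact (Nat.prime_dvd_prime_iff_eq (Fact.out : p.Prime) Nat.prime_two).1 h3⟩), Lib.FFAut.card_aut hF, hF]
    ring

end Cfsg.Agent.S0814
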