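import Mathlib
import Cfsg.Statements.S0817
import Cfsg.Agent.Lib.OAutQ
import Cfsg.Agent.Lib.D4OutPO

set_option autoImplicit false
open Cfsg

namespace Cfsg.Agent.S0817

/-- |Aut(PΩ⁺_2m(q))| for q = p^f, m ≥ 4: |PΩ⁺_2m(q)| times f, times 3 when m = 4, times 2 if p = 2, and times 8 or 4 if p is odd according as m(q−1)/2 is even or odd. -/
theorem result {F : Type*} [Field F] [Fintype F] (p f : ℕ) [Fact p.Prime] (hf : 1 ≤ f) (hF : Fintype.card F = p ^ f) (m : ℕ) (hm : 4 ≤ m) : Nat.card (MulAut (Cfsg.POmega F (Cfsg.quadFormPlus m F))) = (if m = 4 then 3 else 1) * (if p = 2 then 2 else (if Even (m * (p ^ f - 1) / 2) then 8 else 4)) * f * Nat.card (Cfsg.POmega F (Cfsg.quadFormPlus m F)) := by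
  by_cases h4 : m = 4
  · subst h4
    rw [if_pos rfl]
    exact Cfsg.Agent.Lib.D4Out.card_mulAut_po' hF
  rw [if_neg h4, one_mul]
  open Cfsg.Agent.Lib Lib.OAut Lib.Quad in
  have h1 := Semi.card_aut_plus (m := m) hF (by omega)
  open Cfsg.Agent.Lib Lib.OAut Lib.Quad in
  rw [← card_aut_congr (poEquiv (quadPlus m F))] at h1
  open Cfsg.Agent.Lib Lib.OAut Lib.Quad Lib.ClOmega in
  have h2 := count (quadPlus m F) nd_quadPlus
    (genHyp_plus m (by omega)) (hpPlus m) (show 3 ≤ m by omega)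
    (by rw [finrank_plus]; omega)
  change Nat.card (MulAut (Cfsg.POmega F ⇑(Cfsg.Agent.Lib.Quad.quadPlus m F))) =
    _ * f * Nat.card (Cfsg.POmega F ⇑(Cfsg.Agent.Lib.Quad.quadPlus m F))
  rw [h1]
  by_cases hp : p = 2
  · subst hp
    rw [if_pos rfl, ← h2.1 (Cfsg.Agent.Lib.OAut.Semi.two_eq_zero_of_pow hf hF)]
    ring
  · have h2' : (2 : F) ≠ 0 := Cfsg.Agent.Lib.OAut.Semi.two_ne_zero_of_pow hF hp
    have h3 := Cfsg.Agent.Lib.OAut.Semi.neg_mem_plus (m := m) h2'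
    rw [hF, ← Cfsg.Agent.Lib.OAut.Semi.even_div_iff (((Fact.out : p.Prime).odd_of_ne_two hp).pow)] at h3
    rw [if_neg hp]
    by_cases he : Even (m * (p ^ f - 1) / 2)
    · rw [if_pos he, ← h2.2.1 h2' (h3.2 he)]
      ring
    · rw [if_neg he, ← h2.2.2 h2' (fun h => he (h3.1 h))]
      ring

end Cfsg.Agent.S0817
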