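import Mathlib
import Cfsg.Statements.S0819

set_option autoImplicit false
open Cfsg

namespace Cfsg.Agent.S0819

open Matrix Polynomial

/-- if the roots of the characteristic polynomial of a 3×3 matrix all satisfy `X^k = μ`, char 2, then `A^(4k)` is scalar. -/
lemma pow_scalar {K : Type*} [Field K] [CharP K 2] (A : Matrix (Fin 3) (Fin 3) K) (l1 l2 l3 : K)
    (hf : A.charpoly = (X - C l1) * (X - C l2) * (X - C l3)) (k : ℕ) (μ : K) (h1 : l1 ^ k = μ) (h2 : l2 ^ k = μ)
    (h3 : l3 ^ k = μ) : A ^ (4 * k) = Matrix.scalar (Fin 3) (μ ^ 4) := by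
  have hdvd : ∀ l : K, l ^ k = μ → (X - C l) ∣ (X ^ k - C μ) := by
    intro l hl
    rw [Polynomial.dvd_iff_isRoot, Polynomial.IsRoot]
    simp [hl]
  have hd : A.charpoly ∣ (X ^ k - C μ) ^ 3 := by
    rw [hf, pow_succ, sq]
    exact mul_dvd_mul (mul_dvd_mul (hdvd _ h1) (hdvd _ h2)) (hdvd _ h3)
  have h0 : aeval A ((X ^ k - C μ : K[X]) ^ 3) = 0 := by
    obtain ⟨g, hg⟩ := hd
    rw [hg, map_mul, Matrix.aeval_self_charpoly, zero_mul]
  rw [map_pow, map_sub, map_pow, aeval_X, aeval_C] at h0
  have h4 : (A ^ k - algebraMap K (Matrix (Fin 3) (Fin 3) K) μ) ^ (2 ^ 2) = 0 := by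
    rw [show (2 ^ 2 : ℕ) = 3 + 1 from rfl, pow_succ, h0, zero_mul]
  rw [sub_pow_char_pow_of_commute 2 2 (Algebra.commutes μ (A ^ k)).symm, sub_eq_zero, ← map_pow, ← pow_mul] at h4
  rw [mul_comm 4 k]
  exact h4

theorem result {F : Type*} [Field F] [Fintype F] (hF : Fintype.card F = 4) (g : Matrix.ProjectiveSpecialLinearGroup (Fin 3) F) : orderOf g ≠ 15 := by
  intro hg
  obtain ⟨A, rfl⟩ := QuotientGroup.mk_surjective g
  have hF2 : (2 : F) = 0 := by
    have h := FiniteField.cast_card_eq_zero F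
    rw [hF] at h
    have h4 : (2 : F) * 2 = 0 := by
      rw [← h]; norm_num
    rcases mul_eq_zero.mp h4 with h | h <;> exact h
  have hchar : CharP F 2 := CharTwo.of_one_ne_zero_of_two_eq_zero one_ne_zero hF2
  let K := AlgebraicClosure F
  have hcharK : CharP K 2 := charP_of_injective_algebraMap (algebraMap F K).injective 2
  have hA15 : A ^ 15 ∈ Subgroup.center (Matrix.SpecialLinearGroup (Fin 3) F) := by
    have := pow_orderOf_eq_one (QuotientGroup.mk A : Matrix.ProjectiveSpecialLinearGroup (Fin 3) F)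
    rw [hg] at this
    rwa [← QuotientGroup.mk_pow, QuotientGroup.eq_one_iff] at this
  -- A ^ 45 = 1
  have hA45 : A ^ 45 = 1 := by
    rw [Matrix.SpecialLinearGroup.mem_center_iff] at hA15
    obtain ⟨z, hz, hzA⟩ := hA15
    rw [Fintype.card_fin] at hz
    rw [show 45 = 15 * 3 from rfl, pow_mul]
    apply Subtype.ext
    rw [Matrix.SpecialLinearGroup.coe_pow, ← hzA, ← map_pow, hz, map_one]
    rfl
  let φ : Matrix (Fin 3) (Fin 3) F →+* Matrix (Fin 3) (Fin 3) K := (algebraMap F K).mapMatrix
  have hφ : ∀ B : Matrix (Fin 3) (Fin 3) F, φ B = B.map (algebraMap F K) := fun B => rfl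
  -- key claim
  have key : ∀ k : ℕ, (∃ z : K, ((A : Matrix (Fin 3) (Fin 3) F).map (algebraMap F K)) ^ (4 * k) = Matrix.scalar (Fin 3) z) →
      15 ∣ 4 * k := by
    rintro k ⟨z, hz⟩
    rw [← hg]
    apply orderOf_dvd_of_pow_eq_one
    rw [← QuotientGroup.mk_pow, QuotientGroup.eq_one_iff, Matrix.SpecialLinearGroup.mem_center_iff]
    set B := A ^ (4 * k) with hB
    have hBm : (B : Matrix (Fin 3) (Fin 3) F).map (algebraMap F K) = Matrix.scalar (Fin 3) z := by
      rw [hB, Matrix.SpecialLinearGroup.coe_pow, ← hz, ← hφ, ← hφ, map_pow]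
    have hij : ∀ i j, algebraMap F K (B i j) = if i = j then z else 0 := by
      intro i j
      have := congrFun (congrFun hBm i) j
      rw [Matrix.map_apply, Matrix.scalar_apply, Matrix.diagonal_apply] at this
      exact this
    have hB0 : (B : Matrix (Fin 3) (Fin 3) F) = Matrix.scalar (Fin 3) (B 0 0) := by
      ext i j
      rw [Matrix.scalar_apply, Matrix.diagonal_apply]
      apply (algebraMap F K).injective
      rw [hij]
      split_ifs with h
      · rw [hij]; simp
      · simp
    refine ⟨B 0 0, ?_, hB0.symm⟩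
    have := B.det_coe
    rw [hB0, Matrix.scalar_apply, Matrix.det_diagonal] at this
    simpa using this
  set M := (A : Matrix (Fin 3) (Fin 3) F).map (algebraMap F K) with hM
  have hMcp : M.charpoly = (A : Matrix (Fin 3) (Fin 3) F).charpoly.map (algebraMap F K) := Matrix.charpoly_map _ _
  have hM45 : M ^ 45 = 1 := by
    have h := congrArg (fun y : Matrix.SpecialLinearGroup (Fin 3) F => (y : Matrix (Fin 3) (Fin 3) F).map (algebraMap F K)) hA45
    simp only [Matrix.SpecialLinearGroup.coe_pow, Matrix.SpecialLinearGroup.coe_one] at h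
    rw [← hφ, ← hφ, map_pow, map_one] at h
    exact h
  have hdeg : M.charpoly.natDegree = 3 := by
    rw [Matrix.charpoly_natDegree_eq_dim, Fintype.card_fin]
  have hsplit := IsAlgClosed.splits M.charpoly
  have hcard : M.charpoly.roots.card = 3 := by
    exact hsplit.natDegree_eq_card_roots.symm.trans hdeg
  have hdet : M.charpoly.roots.prod = 1 := by
    rw [← Matrix.det_eq_prod_roots_charpoly]
    have := (RingHom.map_det (algebraMap F K) (A : Matrix (Fin 3) (Fin 3) F)).symm
    rw [A.det_coe, map_one] at this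
    exact this
  have hroot45 : ∀ l : K, l ∈ M.charpoly.roots → l ^ 45 = 1 := by
    intro l hl
    have h1 := Polynomial.isRoot_of_mem_roots hl
    rw [Polynomial.IsRoot, Matrix.eval_charpoly] at h1
    obtain ⟨v, hv0, hv⟩ := Matrix.exists_mulVec_eq_zero_iff.mpr h1
    rw [Matrix.sub_mulVec, sub_eq_zero] at hv
    have hv' : M *ᵥ v = l • v := by
      rw [← hv, Matrix.scalar_apply]
      ext i
      simp [Matrix.mulVec_diagonal]
    have hpow : ∀ n : ℕ, (M ^ n) *ᵥ v = l ^ n • v := by
      intro n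
      induction n with
      | zero => simp
      | succ n ih => rw [pow_succ, ← Matrix.mulVec_mulVec, hv', Matrix.mulVec_smul, ih, smul_smul, pow_succ']
    have h45 := hpow 45
    rw [hM45, Matrix.one_mulVec] at h45
    obtain ⟨i, hi⟩ := Function.ne_iff.mp hv0
    have := congrFun h45 i
    rw [Pi.smul_apply, smul_eq_mul] at this
    exact mul_right_cancel₀ hi (by rw [one_mul]; exact this.symm)
  have hroot4 : ∀ l : K, l ∈ M.charpoly.roots → l ^ 4 ∈ M.charpoly.roots := by
    intro l hl
    have hne : M.charpoly ≠ 0 := (Matrix.charpoly_monic M).ne_zero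
    rw [Polynomial.mem_roots hne] at hl ⊢
    rw [Polynomial.IsRoot, hMcp, Polynomial.eval_map_algebraMap] at hl ⊢
    have h2 := congrArg (aeval l) (FiniteField.expand_card (K := F) (A : Matrix (Fin 3) (Fin 3) F).charpoly)
    rw [map_pow, hl, zero_pow (by rw [hF]; norm_num), Polynomial.expand_aeval, hF] at h2
    exact h2
  have hprod := hsplit.eq_prod_roots_of_monic (Matrix.charpoly_monic M)
  by_cases hfix : ∀ l ∈ M.charpoly.roots, l ^ 4 = l
  · -- all eigenvalues in F_4
    obtain ⟨l1, l2, l3, h123⟩ := Multiset.card_eq_three.mp hcard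
    have hp3 : ∀ l ∈ M.charpoly.roots, l ^ 3 = 1 := by
      intro l hl
      have h1 := hfix l hl
      have h2 : l ≠ 0 := by
        intro h0
        have := hroot45 l hl
        rw [h0] at this
        norm_num at this
      have h3 : l * l ^ 3 = l * 1 := by rw [mul_one, ← pow_succ']; exact h1
      exact mul_left_cancel₀ h2 h3
    have hf : M.charpoly = (X - C l1) * (X - C l2) * (X - C l3) := by
      rw [hprod, h123]; simp [mul_assoc]
    have := key 3 ⟨_, pow_scalar M l1 l2 l3 hf 3 1 (hp3 l1 (by rw [h123]; simp)) (hp3 l2 (by rw [h123]; simp)) (hp3 l3 (by rw [h123]; simp))⟩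
    omega
  · push Not at hfix
    obtain ⟨l, hl, hl4⟩ := hfix
    have hm := hroot4 l hl
    -- roots = {l, l^4, n}
    obtain ⟨s, hs⟩ := Multiset.exists_cons_of_mem hl
    rw [hs, Multiset.mem_cons] at hm
    rcases hm with hm | hm
    · exact absurd hm hl4
    obtain ⟨s', hs'⟩ := Multiset.exists_cons_of_mem hm
    have hcs : s'.card = 1 := by
      rw [hs, hs'] at hcard
      simpa using hcard
    obtain ⟨n, hn⟩ := Multiset.card_eq_one.mp hcs
    have hroots : M.charpoly.roots = l ::ₘ l ^ 4 ::ₘ {n} := by rw [hs, hs', hn]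
    have hn1 : l * (l ^ 4 * n) = 1 := by
      rw [hroots] at hdet
      simpa using hdet
    have hl0 : l ≠ 0 := by
      intro h0
      rw [h0] at hn1
      simp at hn1
    have hl45 := hroot45 l hl
    have hf : M.charpoly = (X - C l) * (X - C (l ^ 4)) * (X - C n) := by
      rw [hprod, hroots]; simp [mul_assoc]
    have hm4 : (l ^ 4) ^ 4 ∈ M.charpoly.roots := hroot4 _ (by rw [hroots]; simp)
    have hnot3 : l ^ 3 ≠ 1 := by
      intro h3
      apply hl4
      rw [pow_succ, h3, one_mul]
    rw [hroots] at hm4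
    simp only [Multiset.mem_cons, Multiset.mem_singleton] at hm4
    rcases hm4 with h | h | h
    · -- l^16 = l
      have h15 : l ^ 15 = 1 := by
        have : l * l ^ 15 = l * 1 := by rw [mul_one, ← pow_succ']; rw [← pow_mul] at h; exact h
        exact mul_left_cancel₀ hl0 this
      have hn5 : l ^ 5 * n = 1 := by rw [← hn1]; ring
      have h4 : (l ^ 4) ^ 5 = l ^ 5 := by
        rw [← pow_mul, show 4 * 5 = 15 + 5 from rfl, pow_add, h15, one_mul]
      have hn' : n ^ 5 = l ^ 5 := by
        have e1 : (l ^ 5 * n) ^ 5 = 1 := by rw [hn5, one_pow]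
        rw [mul_pow, ← pow_mul, show 5 * 5 = 15 + 10 from rfl, pow_add, h15, one_mul] at e1
        -- l^10 * n^5 = 1, l^15 = 1
        calc n ^ 5 = l ^ 15 * n ^ 5 := by rw [h15, one_mul]
          _ = l ^ 5 * (l ^ 10 * n ^ 5) := by ring
          _ = l ^ 5 := by rw [e1, mul_one]
      have := key 5 ⟨_, pow_scalar M l (l ^ 4) n hf 5 (l ^ 5) rfl h4 hn'⟩
      omega
    · exfalso
      -- l^16 = l^4
      have h12 : l ^ 12 = 1 := by
        have : l ^ 4 * l ^ 12 = l ^ 4 * 1 := by rw [mul_one, ← pow_add]; rw [← pow_mul] at h; exact h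
        exact mul_left_cancel₀ (pow_ne_zero 4 hl0) this
      apply hnot3
      calc l ^ 3 = l ^ 3 * (l ^ 45) ^ 1 := by rw [hl45]; simp
        _ = (l ^ 12) ^ 4 := by ring
        _ = 1 := by rw [h12, one_pow]
    · exfalso
      have h21 : l ^ 21 = 1 := by
        rw [← hn1, ← h]; ring
      apply hnot3
      calc l ^ 3 = l ^ 3 * l ^ 45 * l^45 * l ^ 45 * l ^ 45 * l^45 * l^45 := by rw [hl45]; simp
        _ = (l ^ 21) ^ 13 := by ring
        _ = 1 := by rw [h21, one_pow]

end Cfsg.Agent.S0819
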