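import Mathlib
import Cfsg.Statements.S0839

set_option autoImplicit false
open Cfsg

namespace Cfsg.Agent.S0839

open Matrix
open scoped LinearAlgebra.Projectivization

lemma exists_vecMulVec {ι F : Type*} [Fintype ι] [DecidableEq ι] [Field F] (M : Matrix ι ι F) (h : M.rank = 1) :
    ∃ w φ : ι → F, w ≠ 0 ∧ φ ≠ 0 ∧ M = Matrix.vecMulVec w φ := by
  have h1 : Module.finrank F (LinearMap.range M.mulVecLin) = 1 := h
  obtain ⟨w, hw0, hw⟩ := finrank_eq_one_iff'.mp h1
  choose c hc using fun j : ι => hw ⟨M.mulVecLin (Pi.single j 1), LinearMap.mem_range_self _ _⟩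
  have hM : M = Matrix.vecMulVec (w : ι → F) c := by
    ext i j
    have := congrArg (fun x : LinearMap.range M.mulVecLin => (x : ι → F) i) (hc j)
    simp only [SetLike.val_smul, Pi.smul_apply, smul_eq_mul, Matrix.mulVecLin_apply, Matrix.mulVec_single_one, Matrix.col_apply] at this
    rw [Matrix.vecMulVec_apply, ← this, mul_comm]
  refine ⟨w, c, ?_, ?_, hM⟩
  · intro h0; exact hw0 (Subtype.ext h0)
  · intro h0
    rw [h0] at hM
    rw [hM] at h
    simp at h

theorem result {F : Type*} [Field F] (n : ℕ) (t : Matrix.SpecialLinearGroup (Fin (n + 2)) F) (ht : Cfsg.IsTransvection (t : Matrix (Fin (n + 2)) (Fin (n + 2)) F)) : ∃ (g : Matrix.SpecialLinearGroup (Fin (n + 2)) F) (v : Fin (n + 2) → F), v 0 = 0 ∧ ((g⁻¹ * t * g : Matrix.SpecialLinearGroup (Fin (n + 2)) F) : Matrix (Fin (n + 2)) (Fin (n + 2)) F) = 1 + Matrix.vecMulVec v (Pi.single 0 1) := by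
  obtain ⟨h1, h2⟩ := ht
  obtain ⟨w, φ, hw, hφ, hM⟩ := exists_vecMulVec _ h1
  rw [hM] at h2
  have hφw : φ ⬝ᵥ w = 0 := by
    rw [Matrix.vecMulVec_mul_vecMulVec] at h2
    obtain ⟨i, hi⟩ := Function.ne_iff.mp hw
    obtain ⟨j, hj⟩ := Function.ne_iff.mp hφ
    have := congrFun (congrFun h2 i) j
    simp only [Matrix.vecMulVec_apply, Matrix.zero_apply, Pi.smul_apply, Matrix.smul_apply, smul_eq_mul] at this
    simp only [Pi.zero_apply] at hi hj
    have h3 : w i * (φ ⬝ᵥ w * φ j) = 0 := by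
      first
        | exact this
        | (rw [← this]; simp; ring)
    rcases mul_eq_zero.mp h3 with h | h
    · exact absurd h hi
    · rcases mul_eq_zero.mp h with h | h
      · exact h
      · exact absurd h hj
  have htrans : MulAction.IsPretransitive (Matrix.SpecialLinearGroup (Fin (n+2)) F) (ℙ F (Fin (n+2) → F)) := inferInstance
  have he0 : (Pi.single 0 1 : Fin (n+2) → F) ≠ 0 := Pi.single_ne_zero_iff.2 one_ne_zero
  obtain ⟨h, hh⟩ := htrans.exists_smul_eq (Projectivization.mk F φ hφ) (Projectivization.mk F (Pi.single 0 1 : Fin (n+2) → F) he0)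
  rw [Projectivization.smul_mk, Projectivization.mk_eq_mk_iff'] at hh
  obtain ⟨lam, hlam⟩ := hh
  rw [Matrix.SpecialLinearGroup.smul_def] at hlam
  let g : Matrix.SpecialLinearGroup (Fin (n+2)) F := h.transpose
  have hg : φ ᵥ* (g : Matrix (Fin (n+2)) (Fin (n+2)) F) = lam • Pi.single 0 1 := by
    rw [hlam]
    show φ ᵥ* ((h : Matrix (Fin (n+2)) (Fin (n+2)) F)ᵀ) = _
    rw [Matrix.vecMul_transpose]
    rfl
  refine ⟨g, lam • ((g⁻¹ : Matrix.SpecialLinearGroup (Fin (n+2)) F) : Matrix (Fin (n+2)) (Fin (n+2)) F) *ᵥ w, ?_, ?_⟩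
  · have h4 : (lam • (Pi.single 0 1 : Fin (n+2) → F)) ⬝ᵥ ((((g⁻¹ : Matrix.SpecialLinearGroup (Fin (n+2)) F) : Matrix (Fin (n+2)) (Fin (n+2)) F)) *ᵥ w) = 0 := by
      rw [← hg, ← Matrix.dotProduct_mulVec, Matrix.mulVec_mulVec, ← Matrix.SpecialLinearGroup.coe_mul, mul_inv_cancel, Matrix.SpecialLinearGroup.coe_one, Matrix.one_mulVec, hφw]
    rw [smul_dotProduct, single_one_dotProduct] at h4
    exact h4
  · have ht1 : (t : Matrix (Fin (n+2)) (Fin (n+2)) F) = 1 + Matrix.vecMulVec w φ := by rw [← hM]; abel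
    rw [Matrix.SpecialLinearGroup.coe_mul, Matrix.SpecialLinearGroup.coe_mul, ht1, mul_add, add_mul, mul_one, ← Matrix.SpecialLinearGroup.coe_mul, inv_mul_cancel, Matrix.SpecialLinearGroup.coe_one]
    congr 1
    rw [Matrix.mul_vecMulVec, Matrix.vecMulVec_mul, hg]
    ext i j
    simp only [Matrix.vecMulVec_apply, Pi.smul_apply, smul_eq_mul]
    ring

end Cfsg.Agent.S0839
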