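import Mathlib
import Cfsg.Statements.S0820
import Cfsg.Agent.S0839

set_option autoImplicit false
open Cfsg

namespace Cfsg.Agent.S0820

open Matrix

/-- every transvection of `SL_3(F)` is conjugate to the standard one. -/
theorem conj_standard {F : Type*} [Field F] (t : Matrix.SpecialLinearGroup (Fin 3) F)
    (h1 : ((t : Matrix (Fin 3) (Fin 3) F) - 1).rank = 1)
    (h2 : ((t : Matrix (Fin 3) (Fin 3) F) - 1) * ((t : Matrix (Fin 3) (Fin 3) F) - 1) = 0) :
    IsConj (Matrix.SpecialLinearGroup.transvection (show (0 : Fin 3) ≠ 2 by decide) (1 : F)) t := by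
  obtain ⟨w, φ, hw, hφ, hM⟩ := S0839.exists_vecMulVec _ h1
  rw [hM] at h2
  obtain ⟨i, hi⟩ := Function.ne_iff.mp hw
  obtain ⟨j, hj⟩ := Function.ne_iff.mp hφ
  simp only [Pi.zero_apply] at hi hj
  have hφw : φ ⬝ᵥ w = 0 := by
    rw [Matrix.vecMulVec_mul_vecMulVec] at h2
    have := congrFun (congrFun h2 i) j
    simp only [Matrix.vecMulVec_apply, Matrix.zero_apply, Pi.smul_apply, smul_eq_mul] at this
    rcases mul_eq_zero.mp this with h | h
    · exact absurd h hi
    · rcases mul_eq_zero.mp h with h | h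
      · exact h
      · exact absurd h hj
  obtain ⟨c, hc⟩ : ∃ c : Fin 3 → F, c ⬝ᵥ w = 1 := ⟨Pi.single i (w i)⁻¹, by
    rw [single_dotProduct, inv_mul_cancel₀ hi]⟩
  obtain ⟨b, hb⟩ : ∃ b : Fin 3 → F, φ ⬝ᵥ b = 1 := ⟨Pi.single j (φ j)⁻¹, by
    rw [dotProduct_single, mul_inv_cancel₀ hj]⟩
  have hc' : c 0 * w 0 + c 1 * w 1 + c 2 * w 2 = 1 := by
    rw [← hc]; simp [dotProduct, Fin.sum_univ_three]
  have hb' : φ 0 * b 0 + φ 1 * b 1 + φ 2 * b 2 = 1 := by
    rw [← hb]; simp [dotProduct, Fin.sum_univ_three]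
  have hφw' : φ 0 * w 0 + φ 1 * w 1 + φ 2 * w 2 = 0 := by
    rw [← hφw]; simp [dotProduct, Fin.sum_univ_three]
  let P : Matrix (Fin 3) (Fin 3) F := !![w 0, φ 1 * c 2 - φ 2 * c 1, b 0; w 1, φ 2 * c 0 - φ 0 * c 2, b 1;
    w 2, φ 0 * c 1 - φ 1 * c 0, b 2]
  have hP : P.det = 1 := by
    rw [Matrix.det_fin_three]
    simp only [P, Matrix.of_apply, Matrix.cons_val', Matrix.cons_val_zero, Matrix.cons_val_one, Matrix.cons_val, Matrix.cons_val_fin_one]
    linear_combination (φ 0 * b 0 + φ 1 * b 1 + φ 2 * b 2) * hc' + hb' - (c 0 * b 0 + c 1 * b 1 + c 2 * b 2) * hφw'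
  let g : Matrix.SpecialLinearGroup (Fin 3) F := ⟨P, hP⟩
  rw [isConj_iff]
  refine ⟨g, ?_⟩
  rw [mul_inv_eq_iff_eq_mul]
  apply Subtype.ext
  have ht1 : (t : Matrix (Fin 3) (Fin 3) F) = 1 + Matrix.vecMulVec w φ := by rw [← hM]; abel
  show P * (Matrix.transvection 0 2 1) = (t : Matrix (Fin 3) (Fin 3) F) * P
  rw [ht1, Matrix.transvection, mul_add, add_mul, mul_one, one_mul]
  congr 1
  have hφP : φ ᵥ* P = Pi.single 2 1 := by
    ext l
    simp only [Matrix.vecMul, dotProduct, Fin.sum_univ_three]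
    fin_cases l
    · show φ 0 * w 0 + φ 1 * w 1 + φ 2 * w 2 = 0
      exact hφw'
    · show φ 0 * (φ 1 * c 2 - φ 2 * c 1) + φ 1 * (φ 2 * c 0 - φ 0 * c 2) + φ 2 * (φ 0 * c 1 - φ 1 * c 0) = 0
      ring
    · show φ 0 * b 0 + φ 1 * b 1 + φ 2 * b 2 = 1
      exact hb'
  rw [Matrix.vecMulVec_mul, hφP]
  ext k l
  fin_cases k <;> fin_cases l <;>
    simp [P, Matrix.mul_apply, Fin.sum_univ_three, Matrix.vecMulVec_apply, Matrix.single]

theorem exists_lift {F : Type*} [Field F] [Fintype F] (hF : Fintype.card F = 4) (x : Matrix.ProjectiveSpecialLinearGroup (Fin 3) F)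
    (hx : orderOf x = 2) : ∃ t : Matrix.SpecialLinearGroup (Fin 3) F, (QuotientGroup.mk t : Matrix.ProjectiveSpecialLinearGroup (Fin 3) F) = x ∧
      ((t : Matrix (Fin 3) (Fin 3) F) - 1).rank = 1 ∧ ((t : Matrix (Fin 3) (Fin 3) F) - 1) * ((t : Matrix (Fin 3) (Fin 3) F) - 1) = 0 := by
  obtain ⟨A, rfl⟩ := QuotientGroup.mk_surjective x
  have h2 : (2 : F) = 0 := by
    have h := FiniteField.cast_card_eq_zero F
    rw [hF] at h
    have h4 : (2 : F) * 2 = 0 := by
      rw [← h]; norm_num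
    rcases mul_eq_zero.mp h4 with h | h <;> exact h
  have hA2 : A ^ 2 ∈ Subgroup.center (Matrix.SpecialLinearGroup (Fin 3) F) := by
    have := pow_orderOf_eq_one (QuotientGroup.mk A : Matrix.ProjectiveSpecialLinearGroup (Fin 3) F)
    rw [hx] at this
    rwa [← QuotientGroup.mk_pow, QuotientGroup.eq_one_iff] at this
  rw [Matrix.SpecialLinearGroup.mem_center_iff] at hA2
  obtain ⟨z, hz, hzA⟩ := hA2
  rw [Fintype.card_fin] at hz
  have hZ : (Matrix.scalar (Fin 3) z).det = 1 := by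
    rw [Matrix.scalar_apply, Matrix.det_diagonal]; simp [hz]
  let Z : Matrix.SpecialLinearGroup (Fin 3) F := ⟨Matrix.scalar (Fin 3) z, hZ⟩
  have hZc : Z ∈ Subgroup.center (Matrix.SpecialLinearGroup (Fin 3) F) := by
    rw [Matrix.SpecialLinearGroup.mem_center_iff]
    exact ⟨z, by rw [Fintype.card_fin, hz], rfl⟩
  refine ⟨A * Z, ?_, ?_⟩
  · rw [QuotientGroup.eq]
    rw [_root_.mul_inv_rev, mul_assoc, inv_mul_cancel, mul_one]
    exact inv_mem hZc
  · have hsq : (A * Z) ^ 2 = 1 := by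
      have : (A * Z) ^ 2 = A ^ 2 * Z ^ 2 := by
        have hcomm : Commute A Z := (Subgroup.mem_center_iff.mp hZc A)
        exact hcomm.mul_pow 2
      rw [this]
      apply Subtype.ext
      show (A ^ 2 : Matrix.SpecialLinearGroup (Fin 3) F).1 * (Z ^ 2 : Matrix.SpecialLinearGroup (Fin 3) F).1 = 1
      rw [← hzA]
      show Matrix.scalar (Fin 3) z * (Z.1 ^ 2) = 1
      show Matrix.scalar (Fin 3) z * ((Matrix.scalar (Fin 3) z) ^ 2) = 1
      rw [← pow_succ', ← map_pow, hz, map_one]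
    set B := ((A * Z : Matrix.SpecialLinearGroup (Fin 3) F) : Matrix (Fin 3) (Fin 3) F) with hB
    have hB2 : B * B = 1 := by
      have := congrArg (fun y : Matrix.SpecialLinearGroup (Fin 3) F => y.1) hsq
      rw [sq] at this
      exact this
    have hBsq : (B - 1) * (B - 1) = 0 := by
      rw [sub_mul, mul_sub, mul_sub, hB2]
      simp only [mul_one, one_mul]
      have : (1 : Matrix (Fin 3) (Fin 3) F) - B - (B - 1) = (2 : F) • (1 - B) := by
        rw [two_smul]; abel
      rw [this, h2, zero_smul]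
    refine ⟨?_, hBsq⟩
    have hle : (B - 1).rank ≤ 1 := by
      by_contra hcon
      have h3 : LinearMap.range (B-1).mulVecLin ≤ LinearMap.ker (B-1).mulVecLin := by
        rintro _ ⟨y, rfl⟩
        rw [LinearMap.mem_ker]
        simp only [Matrix.mulVecLin_apply, Matrix.mulVec_mulVec, hBsq, Matrix.zero_mulVec]
      have h4 := Submodule.finrank_mono h3
      have h5 := LinearMap.finrank_range_add_finrank_ker (B-1).mulVecLin
      rw [Module.finrank_fin_fun] at h5
      have h6 : Module.finrank F (LinearMap.range (B-1).mulVecLin) = (B-1).rank := rfl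
      omega
    have hne : (B - 1).rank ≠ 0 := by
      intro h0
      have hB1 : B - 1 = 0 := by
        have h6 : Module.finrank F (LinearMap.range (B-1).mulVecLin) = 0 := h0
        rw [Submodule.finrank_eq_zero, LinearMap.range_eq_bot] at h6
        apply Matrix.mulVec_injective
        funext y
        show (B - 1).mulVecLin y = (0 : Matrix (Fin 3) (Fin 3) F) *ᵥ y
        rw [h6, Matrix.zero_mulVec, LinearMap.zero_apply]
      have hAZ : A * Z = 1 := by
        apply Subtype.ext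
        exact sub_eq_zero.mp hB1
      have : (QuotientGroup.mk A : Matrix.ProjectiveSpecialLinearGroup (Fin 3) F) = 1 := by
        rw [QuotientGroup.eq_one_iff]
        rw [eq_inv_of_mul_eq_one_left hAZ]
        exact inv_mem hZc
      rw [this, orderOf_one] at hx
      omega
    omega

theorem result {F : Type*} [Field F] [Fintype F] (hF : Fintype.card F = 4) (x y : Matrix.ProjectiveSpecialLinearGroup (Fin 3) F) (hx : orderOf x = 2) (hy : orderOf y = 2) : IsConj x y := by
  obtain ⟨s, rfl, h1, h2⟩ := exists_lift hF x hx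
  obtain ⟨t, rfl, h3, h4⟩ := exists_lift hF y hy
  have := (conj_standard s h1 h2).symm.trans (conj_standard t h3 h4)
  exact MonoidHom.map_isConj (QuotientGroup.mk' _) this

end Cfsg.Agent.S0820
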