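import Mathlib
import Cfsg.Statements.S0823
import Cfsg.Agent.S0286
import Cfsg.Agent.Lib.SymF2Hom

set_option autoImplicit false
open Cfsg

namespace Cfsg.Agent.S0823

open Module Cfsg.Agent.Lib.SymF2Hom Matrix

section

variable (F : Type*) [Field F]

/-- sum-zero vectors -/
def W : Submodule F (Fin 4 → F) where
  carrier := {x | x 0 + x 1 + x 2 + x 3 = 0}
  zero_mem' := by simp
  add_mem' := fun {a b} ha hb => by
    have ha : a 0 + a 1 + a 2 + a 3 = 0 := ha
    have hb : b 0 + b 1 + b 2 + b 3 = 0 := hb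
    change (a 0 + b 0) + (a 1 + b 1) + (a 2 + b 2) + (a 3 + b 3) = 0
    linear_combination ha + hb
  smul_mem' := fun c a ha => by
    have ha : a 0 + a 1 + a 2 + a 3 = 0 := ha
    change c * a 0 + c * a 1 + c * a 2 + c * a 3 = 0
    linear_combination c * ha

variable {F}

theorem mem_W (x : Fin 4 → F) : x ∈ W F ↔ x 0 + x 1 + x 2 + x 3 = 0 := Iff.rfl

theorem mem_W' (x : Fin 4 → F) : x ∈ W F ↔ ∑ i, x i = 0 := by
  rw [mem_W, Fin.sum_univ_four]

/-- the permutation action -/
def actW (π : Equiv.Perm (Fin 4)) : W F →ₗ[F] W F :=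
  (LinearMap.funLeft F F (π⁻¹ : Equiv.Perm (Fin 4))).restrict (fun x hx => by
    rw [mem_W'] at hx ⊢
    rw [← hx]
    exact Equiv.sum_comp (π⁻¹ : Equiv.Perm (Fin 4)) x)

theorem actW_apply (π : Equiv.Perm (Fin 4)) (x : W F) (i : Fin 4) : (actW π x : Fin 4 → F) i = (x : Fin 4 → F) (π⁻¹ i) := rfl

def rho : Equiv.Perm (Fin 4) →* Module.End F (W F) where
  toFun π := actW π
  map_one' := by
    apply LinearMap.ext
    intro v
    rfl
  map_mul' π σ := by
    apply LinearMap.ext
    intro v
    rfl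

def qW (x : W F) : F := -∑ i, (x : Fin 4 → F) i ^ 2

theorem qW_rho (π : Equiv.Perm (Fin 4)) (x : W F) : qW (rho π x) = qW x := by
  unfold qW
  congr 1
  exact Equiv.sum_comp (π⁻¹ : Equiv.Perm (Fin 4)) (fun i => (x : Fin 4 → F) i ^ 2)

/-- coordinates -/
def eW (h3 : (3 : F) = 0) : W F ≃ₗ[F] (Unit ⊕ (Fin 1 ⊕ Fin 1) → F) where
  toFun x := Sum.elim (fun _ => x.1 0 - x.1 2 - x.1 3) (Sum.elim (fun _ => x.1 2) (fun _ => - x.1 3))
  invFun v := ⟨![v (.inl ()) + v (.inr (.inl 0)) - v (.inr (.inr 0)), - v (.inl ()) + v (.inr (.inl 0)) - v (.inr (.inr 0)),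
    v (.inr (.inl 0)), - v (.inr (.inr 0))], by
      rw [mem_W]
      simp only [Matrix.cons_val_zero, Matrix.cons_val_one, Matrix.cons_val]
      linear_combination (v (.inr (.inl 0)) - v (.inr (.inr 0))) * h3⟩
  map_add' x y := by
    funext i
    rcases i with i | i | i <;> simp <;> ring
  map_smul' c x := by
    funext i
    rcases i with i | i | i <;> simp <;> ring
  left_inv x := by
    apply Subtype.ext
    funext i
    have hx := (mem_W x.1).mp x.2
    fin_cases i <;> simp
    · ring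
    · linear_combination - hx + (x.1 2 + x.1 3) * h3
  right_inv v := by
    funext i
    rcases i with i | i | i
    · simp; ring
    · fin_cases i; simp
    · fin_cases i; simp

theorem qW_eq (h3 : (3 : F) = 0) (x : W F) : qW x = quadFormOdd 1 F (eW h3 x) := by
  have hx := (mem_W x.1).mp x.2
  have h1 : x.1 1 = - x.1 0 - x.1 2 - x.1 3 := by linear_combination hx
  simp only [qW, quadFormOdd, eW, Fin.sum_univ_four, LinearEquiv.coe_mk, LinearMap.coe_mk, AddHom.coe_mk, Sum.elim_inl,
    Sum.elim_inr, Finset.univ_unique, Finset.sum_singleton]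
  rw [h1]
  linear_combination (-(x.1 0)^2 - (x.1 2)^2 - (x.1 3)^2 - x.1 2 * x.1 3) * h3

theorem two_ne [Fintype F] (hF : Fintype.card F = 3) : (2 : F) ≠ 0 ∧ (3 : F) = 0 := by
  have h := Nat.cast_card_eq_zero F
  rw [hF] at h
  have h3 : (3 : F) = 0 := by exact_mod_cast h
  refine ⟨fun h2 => ?_, h3⟩
  have : (1 : F) = 0 := by linear_combination h3 - h2
  exact one_ne_zero this

/-- a permutation cannot act as a scalar unless trivial -/
theorem rho_scalar [Fintype F] (hF : Fintype.card F = 3) (π : Equiv.Perm (Fin 4)) (c : F) (h : ∀ x : W F, rho π x = c • x) : π = 1 := by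
  obtain ⟨h2, h3⟩ := two_ne hF
  by_contra hne
  obtain ⟨a, ha⟩ : ∃ a, π a ≠ a := by
    by_contra hcon
    push Not at hcon
    exact hne (Equiv.ext hcon)
  obtain ⟨b, hb⟩ : ∃ b, b ∉ ({a, π a} : Finset (Fin 4)) := by
    by_contra hcon
    push Not at hcon
    have h1 : (Finset.univ : Finset (Fin 4)) ⊆ {a, π a} := fun x _ => hcon x
    have h2 := Finset.card_le_card h1
    rw [Finset.card_univ, Fintype.card_fin] at h2
    have h3 := Finset.card_le_two (a := a) (b := π a)
    omega
  simp only [Finset.mem_insert, Finset.mem_singleton, not_or] at hb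
  let x : Fin 4 → F := Pi.single a 1 - Pi.single b 1
  have hx : x ∈ W F := by
    rw [mem_W']
    simp only [x, Pi.sub_apply, Finset.sum_sub_distrib, Finset.sum_pi_single']
    simp
  have h1 := congrArg (fun z : W F => (z : Fin 4 → F) (π a)) (h ⟨x, hx⟩)
  have h4 : x (π⁻¹ (π a)) = c * x (π a) := h1
  have e1 : x (π⁻¹ (π a)) = 1 := by
    have : π⁻¹ (π a) = a := by simp
    rw [this]
    simp [x, Pi.single_apply, Ne.symm hb.1]
  have e2 : x (π a) = 0 := by
    simp [x, Pi.single_apply, ha, Ne.symm hb.2]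
  rw [e1, e2, mul_zero] at h4
  exact one_ne_zero h4

/-- scalars as isometries -/
def sc [Fintype F] (hF : Fintype.card F = 3) : Fˣ →* isometryGroup F (quadFormOdd 1 F) where
  toFun c := ⟨Matrix.GeneralLinearGroup.scalar _ c, by
    intro u _
    have hc : (c : F) ^ 2 = 1 := by
      have := FiniteField.pow_card_sub_one_eq_one (c : F) c.ne_zero
      rwa [hF] at this
    have h1 : ((Matrix.GeneralLinearGroup.scalar (Unit ⊕ (Fin 1 ⊕ Fin 1)) c : GL _ F) : Matrix _ _ F) *ᵥ u = (c : F) • u := by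
      rw [Matrix.GeneralLinearGroup.coe_scalar]
      simp
    change quadFormOdd 1 F (((Matrix.GeneralLinearGroup.scalar (Unit ⊕ (Fin 1 ⊕ Fin 1)) c : GL _ F) : Matrix _ _ F) *ᵥ u) = quadFormOdd 1 F u
    rw [h1]
    simp only [quadFormOdd, Pi.smul_apply, smul_eq_mul, Finset.univ_unique, Finset.sum_singleton]
    linear_combination (u (.inl ()) ^ 2 + u (.inr (.inl default)) * u (.inr (.inr default))) * hc⟩
  map_one' := by
    apply Subtype.ext
    exact map_one _
  map_mul' a b := by
    apply Subtype.ext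
    exact map_mul _ a b

theorem sc_val [Fintype F] (hF : Fintype.card F = 3) (c : Fˣ) : (sc hF c).1 = Matrix.GeneralLinearGroup.scalar _ c := rfl

theorem sc_comm [Fintype F] (hF : Fintype.card F = 3) (c : Fˣ) (g : isometryGroup F (quadFormOdd 1 F)) :
    sc hF c * g = g * sc hF c := by
  apply Subtype.ext
  change (sc hF c).1 * g.1 = g.1 * (sc hF c).1
  rw [sc_val]
  apply Units.ext
  rw [Units.val_mul, Units.val_mul, Matrix.GeneralLinearGroup.coe_scalar]
  exact (Matrix.scalar_commute (c : F) (fun r' => Commute.all _ _) ((g.1 : GL _ F) : Matrix (Unit ⊕ (Fin 1 ⊕ Fin 1)) (Unit ⊕ (Fin 1 ⊕ Fin 1)) F)).eq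

theorem sc_mulVec [Fintype F] (hF : Fintype.card F = 3) (c : Fˣ) (u : Unit ⊕ (Fin 1 ⊕ Fin 1) → F) :
    (((sc hF c).1 : GL _ F) : Matrix _ _ F) *ᵥ u = (c : F) • u := by
  rw [sc_val, Matrix.GeneralLinearGroup.coe_scalar]
  simp

/-- the determinant -/
noncomputable def dt (F : Type*) [Field F] : isometryGroup F (quadFormOdd 1 F) →* Fˣ :=
  Matrix.GeneralLinearGroup.det.comp (isometryGroup F (quadFormOdd 1 F)).subtype

theorem mem_special (g : isometryGroup F (quadFormOdd 1 F)) : g ∈ specialIsometryGroup F (quadFormOdd 1 F) ↔ dt F g = 1 := Iff.rfl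

theorem dt_sc [Fintype F] (hF : Fintype.card F = 3) (c : Fˣ) : dt F (sc hF c) = c := by
  have hc : c ^ 2 = 1 := by
    apply Units.ext
    have := FiniteField.pow_card_sub_one_eq_one (c : F) c.ne_zero
    rwa [hF] at this
  apply Units.ext
  change ((((sc hF c).1 : GL _ F) : Matrix (Unit ⊕ (Fin 1 ⊕ Fin 1)) (Unit ⊕ (Fin 1 ⊕ Fin 1)) F)).det = c
  rw [sc_val, Matrix.GeneralLinearGroup.coe_scalar]
  have : (Matrix.scalar (Unit ⊕ (Fin 1 ⊕ Fin 1)) (c : F)).det = (c : F) ^ 3 := by
    rw [Matrix.scalar_apply, Matrix.det_diagonal]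
    simp
  rw [this]
  have hc' : (c : F) ^ 2 = 1 := by rw [← Units.val_pow_eq_pow_val, hc, Units.val_one]
  linear_combination (c : F) * hc'

/-- projection onto the special isometry group -/
noncomputable def psi [Fintype F] (hF : Fintype.card F = 3) :
    isometryGroup F (quadFormOdd 1 F) →* specialIsometryGroup F (quadFormOdd 1 F) where
  toFun g := ⟨sc hF (dt F g) * g, by
    rw [mem_special, map_mul, dt_sc]
    apply Units.ext
    have := FiniteField.pow_card_sub_one_eq_one (dt F g : F) (dt F g).ne_zero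
    rw [hF] at this
    rw [Units.val_mul, Units.val_one, ← sq]
    exact this⟩
  map_one' := by
    apply Subtype.ext
    change sc hF (dt F 1) * 1 = 1
    rw [map_one, map_one, one_mul]
  map_mul' g h := by
    apply Subtype.ext
    change sc hF (dt F (g * h)) * (g * h) = (sc hF (dt F g) * g) * (sc hF (dt F h) * h)
    rw [map_mul, map_mul, mul_assoc, mul_assoc, ← mul_assoc g, ← sc_comm hF (dt F h) g]
    simp only [mul_assoc]

theorem card_special [Fintype F] (hF : Fintype.card F = 3) : Nat.card (specialIsometryGroup F (quadFormOdd 1 F)) = 24 := by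
  have h1 := Cfsg.Agent.S0286.result (F := F) hF (by decide) 1
  norm_num at h1
  have h2 := Subgroup.card_mul_index (specialIsometryGroup F (quadFormOdd 1 F))
  have h3 : (specialIsometryGroup F (quadFormOdd 1 F)).index = 2 := by
    have : specialIsometryGroup F (quadFormOdd 1 F) = (dt F).ker := rfl
    rw [this, Subgroup.index_ker]
    have h4 : (dt F).range = ⊤ := by
      rw [MonoidHom.range_eq_top]
      intro c
      exact ⟨sc hF c, dt_sc hF c⟩
    rw [h4, Subgroup.card_top, Nat.card_units, Nat.card_eq_fintype_card, hF]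
  have h5 : Nat.card (isometryGroup F (quadFormOdd 1 F)) = 48 := h1
  rw [h3, h5] at h2
  omega

end

theorem result {F : Type*} [Field F] [Fintype F] (hF : Fintype.card F = 3) : Nonempty (↥(Cfsg.specialIsometryGroup F (Cfsg.quadFormOdd 1 F)) ≃* Equiv.Perm (Fin 4)) := by
  obtain ⟨h2, h3⟩ := two_ne hF
  have hinj : Function.Injective (rho : Equiv.Perm (Fin 4) →* Module.End F (W F)) := by
    rw [injective_iff_map_eq_one]
    intro π hπ
    apply rho_scalar hF π 1
    intro x
    rw [hπ, one_smul]; rfl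
  obtain ⟨φ, hφ, hφe⟩ := exists_hom_isometry (rho : Equiv.Perm (Fin 4) →* Module.End F (W F)) qW qW_rho hinj (eW h3)
    (quadFormOdd 1 F) (qW_eq h3)
  have hψ : Function.Injective ((psi hF).comp φ) := by
    rw [injective_iff_map_eq_one]
    intro π hπ
    have h4 : sc hF (dt F (φ π)) * φ π = 1 := congrArg Subtype.val hπ
    have h5 : φ π = sc hF (dt F (φ π))⁻¹ := by
      rw [map_inv, eq_inv_iff_mul_eq_one, ← sc_comm]
      exact h4
    apply rho_scalar hF π (((dt F (φ π))⁻¹ : Fˣ) : F)
    intro x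
    apply (eW h3).injective
    rw [← hφe, map_smul, ← sc_mulVec hF, ← h5]
  have hbij : Function.Bijective ((psi hF).comp φ) := by
    have : Finite (specialIsometryGroup F (quadFormOdd 1 F)) := Nat.finite_of_card_ne_zero (by rw [card_special hF]; norm_num)
    rw [Nat.bijective_iff_injective_and_card]
    refine ⟨hψ, ?_⟩
    rw [card_special hF, Nat.card_eq_fintype_card, Fintype.card_perm, Fintype.card_fin]
    rfl
  exact ⟨(MulEquiv.ofBijective _ hbij).symm⟩

end Cfsg.Agent.S0823
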