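import Mathlib
import Cfsg.Statements.S0825
import Cfsg.Agent.S0287
import Cfsg.Agent.Lib.SymF2Hom
import Cfsg.Agent.Lib.IsomTransport

set_option autoImplicit false
open Cfsg

namespace Cfsg.Agent.S0825

open Module Cfsg.Agent.Lib.QuadF2 Cfsg.Agent.Lib.SymF2 Cfsg.Agent.Lib.SymF2Hom Cfsg.Agent.Lib.IsomTransport

theorem result {F : Type*} [Field F] [Fintype F] (hF : Fintype.card F = 2) : Nonempty (↥(Cfsg.isometryGroup F (Cfsg.quadFormPlus 3 F)) ≃* Equiv.Perm (Fin 8)) := by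
  classical
  obtain ⟨qW, fW, hQ, hnd, hfr, hS, hinv⟩ := main 1
  have instF : Fintype (E (4 * 1 + 4) ⧸ R (4 * 1 + 4)) := Fintype.ofFinite _
  have hcl := classification hQ hnd hfr
  have hinj := rho_injective (n := 4 * 1 + 4) (by omega)
  have hpos : 0 < IsQ.S qW := by
    have h2 := @hS _
    have h3 : (0 : ℤ) < (-4) ^ (1 + 1) := by norm_num
    linarith
  obtain ⟨g, hg⟩ := hcl.1 hpos
  obtain ⟨φ, hφ, -⟩ := exists_hom_isometry (rho (4 * 1 + 4)) qW hinv hinj g (Cfsg.quadFormPlus (2 * 1 + 1) (ZMod 2)) hg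
  have hφ' : ∃ φ : Equiv.Perm (Fin 8) →* ↥(Cfsg.isometryGroup (ZMod 2) (Cfsg.quadFormPlus 3 (ZMod 2))), Function.Injective φ := ⟨φ, hφ⟩
  obtain ⟨φ, hφ⟩ := hφ'
  have hcard : Nat.card ↥(Cfsg.isometryGroup (ZMod 2) (Cfsg.quadFormPlus 3 (ZMod 2))) = 40320 := by
    rw [Cfsg.Agent.S0287.result (F := ZMod 2) (q := 2) (by simp [ZMod.card]) 3 (by norm_num)]
    decide
  have hcardS : Nat.card (Equiv.Perm (Fin 8)) = 40320 := by
    rw [Nat.card_eq_fintype_card, Fintype.card_perm, Fintype.card_fin]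
    rfl
  have hbij : Function.Bijective φ := by
    rw [Nat.bijective_iff_injective_and_card]
    exact ⟨hφ, by rw [hcard, hcardS]⟩
  let ψ : Equiv.Perm (Fin 8) ≃* ↥(Cfsg.isometryGroup (ZMod 2) (Cfsg.quadFormPlus 3 (ZMod 2))) := MulEquiv.ofBijective φ hbij
  obtain ⟨σ⟩ := exists_ringEquiv_two hF
  exact ⟨(isometryEquiv σ _ (Cfsg.quadFormPlus 3 F) (quadFormPlus_map σ 3)).symm.trans ψ.symm⟩

end Cfsg.Agent.S0825
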