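import Mathlib
import Cfsg.Statements.S0826
import Cfsg.Agent.Lib.SymF2Hom
import Cfsg.Agent.Lib.ClIso

set_option autoImplicit false
open Cfsg

namespace Cfsg.Agent.S0826

open Module Cfsg.Agent.Lib.QuadF2 Cfsg.Agent.Lib.SymF2 Cfsg.Agent.Lib.SymF2Hom Cfsg.Agent.Lib

/-- the dot product -/
def dp {n : ℕ} (x y : Fin n → ZMod 2) : ZMod 2 := ∑ i, x i * y i

theorem dp_const {n : ℕ} (x : Fin n → ZMod 2) (hx : x ∈ E n) (r : E n) (hr : r ∈ R n) : dp (r : Fin n → ZMod 2) x = 0 := by
  rcases Nat.eq_zero_or_pos n with rfl | hn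
  · simp [dp]
  · have h1 : ∀ i, (r : Fin n → ZMod 2) i = (r : Fin n → ZMod 2) ⟨0, hn⟩ := fun i => hr i _
    unfold dp
    rw [Finset.sum_congr rfl (fun i _ => by rw [h1 i]), ← Finset.mul_sum, (mem_E x).mp hx, mul_zero]

theorem dp_comm {n : ℕ} (x y : Fin n → ZMod 2) : dp x y = dp y x := by
  unfold dp
  exact Finset.sum_congr rfl fun i _ => mul_comm _ _

/-- the form on `E/R` -/
noncomputable def Bq (n : ℕ) : (E n ⧸ R n) →ₗ[ZMod 2] (E n ⧸ R n) →ₗ[ZMod 2] ZMod 2 :=
  Submodule.liftQ (R n)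
    { toFun := fun x => Submodule.liftQ (R n)
        { toFun := fun y => dp (x : Fin n → ZMod 2) (y : Fin n → ZMod 2)
          map_add' := fun a b => by
            simp only [dp, Submodule.coe_add, Pi.add_apply, mul_add, Finset.sum_add_distrib]
          map_smul' := fun c a => by
            simp only [dp, Submodule.coe_smul, Pi.smul_apply, smul_eq_mul, RingHom.id_apply, Finset.mul_sum]
            exact Finset.sum_congr rfl fun i _ => by ring }
        (fun r hr => by
          rw [LinearMap.mem_ker]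
          change dp (x : Fin n → ZMod 2) (r : Fin n → ZMod 2) = 0
          rw [dp_comm]
          exact dp_const _ x.2 r hr)
      map_add' := fun a b => by
        apply LinearMap.ext
        intro v
        obtain ⟨y, rfl⟩ := Submodule.Quotient.mk_surjective _ v
        change dp ((a + b : E n) : Fin n → ZMod 2) (y : Fin n → ZMod 2) = dp (a : Fin n → ZMod 2) (y : Fin n → ZMod 2) + dp (b : Fin n → ZMod 2) (y : Fin n → ZMod 2)
        simp only [dp, Submodule.coe_add, Pi.add_apply, add_mul, Finset.sum_add_distrib]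
      map_smul' := fun c a => by
        apply LinearMap.ext
        intro v
        obtain ⟨y, rfl⟩ := Submodule.Quotient.mk_surjective _ v
        change dp ((c • a : E n) : Fin n → ZMod 2) (y : Fin n → ZMod 2) = c * dp (a : Fin n → ZMod 2) (y : Fin n → ZMod 2)
        simp only [dp, Submodule.coe_smul, Pi.smul_apply, smul_eq_mul, Finset.mul_sum]
        exact Finset.sum_congr rfl fun i _ => by ring }
    (fun r hr => by
      rw [LinearMap.mem_ker]
      apply LinearMap.ext
      intro v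
      obtain ⟨y, rfl⟩ := Submodule.Quotient.mk_surjective _ v
      exact dp_const _ y.2 r hr)

theorem Bq_mk {n : ℕ} (x y : E n) : Bq n (Submodule.Quotient.mk x) (Submodule.Quotient.mk y) =
    dp (x : Fin n → ZMod 2) (y : Fin n → ZMod 2) := rfl

theorem Bq_alt {n : ℕ} (v : E n ⧸ R n) : Bq n v v = 0 := by
  obtain ⟨x, rfl⟩ := Submodule.Quotient.mk_surjective _ v
  rw [Bq_mk]
  have h : ∀ a : ZMod 2, a * a = a := by decide
  unfold dp
  rw [Finset.sum_congr rfl (fun i _ => h _)]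
  exact (mem_E _).mp x.2

theorem pair_mem {n : ℕ} (i j : Fin n) : (Pi.single i 1 + Pi.single j 1 : Fin n → ZMod 2) ∈ E n := by
  rw [mem_E]
  simp only [Pi.add_apply, Finset.sum_add_distrib, Finset.sum_pi_single']
  simp
  rfl

theorem Bq_nondeg {n : ℕ} (u : E n ⧸ R n) (hu : ∀ v, Bq n u v = 0) : u = 0 := by
  obtain ⟨x, rfl⟩ := Submodule.Quotient.mk_surjective _ u
  rw [Submodule.Quotient.mk_eq_zero]
  intro i j
  have h1 := hu (Submodule.Quotient.mk ⟨_, pair_mem i j⟩)
  rw [Bq_mk] at h1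
  simp only [dp, Pi.add_apply, mul_add, Finset.sum_add_distrib] at h1
  simp only [Pi.single_apply, mul_ite, mul_one, mul_zero, Finset.sum_ite_eq', Finset.mem_univ, if_true] at h1
  have h2 := add_self ((x : Fin n → ZMod 2) j)
  linear_combination h1 - h2

theorem Bq_rho {n : ℕ} (π : Equiv.Perm (Fin n)) (u v : E n ⧸ R n) : Bq n (rho n π u) (rho n π v) = Bq n u v := by
  obtain ⟨x, rfl⟩ := Submodule.Quotient.mk_surjective _ u
  obtain ⟨y, rfl⟩ := Submodule.Quotient.mk_surjective _ v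
  rw [rho_mk, rho_mk, Bq_mk, Bq_mk]
  exact Equiv.sum_comp (π⁻¹ : Equiv.Perm (Fin n)) (fun i => (x : Fin n → ZMod 2) i * (y : Fin n → ZMod 2) i)

theorem finrank_quot (n : ℕ) (hn : 1 ≤ n) : finrank (ZMod 2) (E (2 * n) ⧸ R (2 * n)) = 2 * (n - 1) := by
  have h1 := Submodule.finrank_quotient_add_finrank (R (2 * n))
  have h2 : finrank (ZMod 2) (E (2 * n)) = 2 * n - 1 := by
    have : 2 * n = (2 * n - 1) + 1 := by omega
    rw [this]
    exact finrank_E _
  have hsum : ∑ _i : Fin (2 * n), (1 : ZMod 2) = 0 := by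
    rw [Finset.sum_const, Finset.card_univ, Fintype.card_fin, nsmul_eq_mul, mul_one]
    rw [ZMod.natCast_eq_zero_iff]
    exact dvd_mul_right 2 n
  have h3 : finrank (ZMod 2) (R (2 * n)) = 1 := by
    have hone : (fun _ => 1 : Fin (2 * n) → ZMod 2) ∈ E (2 * n) := by
      rw [mem_E]; exact hsum
    rw [finrank_eq_one_iff']
    refine ⟨⟨⟨fun _ => 1, hone⟩, fun i j => rfl⟩, ?_, ?_⟩
    · intro h
      have h1 := congrArg (fun z : R (2 * n) => ((z : E (2 * n)) : Fin (2 * n) → ZMod 2) ⟨0, by omega⟩) h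
      exact one_ne_zero h1
    · intro r
      refine ⟨(r : Fin (2 * n) → ZMod 2) ⟨0, by omega⟩, ?_⟩
      apply Subtype.ext
      apply Subtype.ext
      funext i
      show _ * 1 = _
      rw [mul_one]
      exact r.2 _ _
  omega

theorem result (n : ℕ) (hn : 3 ≤ n) : ∃ f : Equiv.Perm (Fin (2 * n)) →* Matrix.symplecticGroup (Fin (n - 1)) (ZMod 2), Function.Injective f := by
  classical
  obtain ⟨e, he⟩ := SympBasis.exists_equiv_of_finrank (finrank_quot n (by omega)) (Bq (2 * n)) Bq_alt Bq_nondeg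
  have hinj := rho_injective (n := 2 * n) (by omega)
  let ρ1 : Equiv.Perm (Fin (2 * n)) →* ((E (2 * n) ⧸ R (2 * n)) ≃ₗ[ZMod 2] (E (2 * n) ⧸ R (2 * n))) :=
    (LinearMap.GeneralLinearGroup.generalLinearEquiv (ZMod 2) (E (2 * n) ⧸ R (2 * n))).toMonoidHom.comp (rho (2 * n)).toHomUnits
  have hρ1 : ∀ π v, ρ1 π v = rho (2 * n) π v := fun _ _ => rfl
  let ρ2 : Equiv.Perm (Fin (2 * n)) →* ClIso.isoGrp (ZMod 2) (fun u v : E (2 * n) ⧸ R (2 * n) => Bq (2 * n) u v) :=
    ρ1.codRestrict _ (fun π u v => Bq_rho π u v)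
  have hρ2 : Function.Injective ρ2 := by
    intro π σ h
    apply hinj
    apply LinearMap.ext
    intro v
    have h1 := congrArg (fun g : ClIso.isoGrp (ZMod 2) (fun u v : E (2 * n) ⧸ R (2 * n) => Bq (2 * n) u v) => g.1 v) h
    exact h1
  let e2 := ClIso.isoGrpCongr (F := ZMod 2) (f := fun u v : E (2 * n) ⧸ R (2 * n) => Bq (2 * n) u v)
    (f' := fun u v => ClIso.sympForm (Fin (n - 1)) (ZMod 2) u v) e.symm (by
      intro u v
      have h1 := he (e.symm u) (e.symm v)
      rw [LinearEquiv.apply_symm_apply, LinearEquiv.apply_symm_apply] at h1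
      rw [h1, ClIso.sympForm_apply, SympAux.sympForm_eq])
  refine ⟨((ClIso.sympEquiv (Fin (n - 1)) (ZMod 2)).symm.toMonoidHom.comp e2.toMonoidHom).comp ρ2, ?_⟩
  exact ((ClIso.sympEquiv (Fin (n - 1)) (ZMod 2)).symm.injective.comp e2.injective).comp hρ2

end Cfsg.Agent.S0826
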