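import Mathlib
import Cfsg.Statements.S0828
import Cfsg.Agent.Lib.LineCount
import Cfsg.Agent.Lib.SympAux

set_option autoImplicit false

namespace Cfsg.Agent.S0828

open Cfsg.Agent.Lib Cfsg.Agent.Lib.LineCount Cfsg.Agent.Lib.SympAux Module

theorem iso_pair {F : Type*} [Field F] (v w : Fin 2 ⊕ Fin 2 → F) :
    (∀ u ∈ Submodule.span F {v, w}, ∀ x ∈ Submodule.span F {v, w}, Cfsg.sympForm 2 F u x = 0) ↔
      Cfsg.sympForm 2 F v w = 0 := by
  constructor
  · intro h
    exact h v (Submodule.subset_span (Or.inl rfl)) w (Submodule.subset_span (Or.inr rfl))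
  · intro h u hu x hx
    obtain ⟨a, b, rfl⟩ := Submodule.mem_span_pair.mp hu
    obtain ⟨c, d, rfl⟩ := Submodule.mem_span_pair.mp hx
    simp only [sympForm_add_left, sympForm_add_right, sympForm_smul_left, sympForm_smul_right, sympForm_self]
    rw [sympForm_swap w v, h]
    ring

theorem lines_through {F : Type*} [Field F] [Fintype F] {q : ℕ} (hF : Fintype.card F = q) (v : Fin 2 ⊕ Fin 2 → F) (hv : v ≠ 0) :
    Nat.card {W : Submodule F (Fin 2 ⊕ Fin 2 → F) // Module.finrank F W = 2 ∧ v ∈ W ∧ ∀ u ∈ W, ∀ w ∈ W, Cfsg.sympForm 2 F u w = 0} = q + 1 := by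
  have h1 := card_pairs (F := F) (fun W => ∀ u ∈ W, ∀ w ∈ W, Cfsg.sympForm 2 F u w = 0) v hv
  have hq : 2 ≤ q := by rw [← hF]; exact Fintype.one_lt_card
  rw [hF] at h1
  have h2 : Nat.card {w : Fin 2 ⊕ Fin 2 → F // w ∉ Submodule.span F {v} ∧
      ∀ u ∈ Submodule.span F {v, w}, ∀ x ∈ Submodule.span F {v, w}, Cfsg.sympForm 2 F u x = 0} = q ^ 3 - q := by
    let U : Submodule F (Fin 2 ⊕ Fin 2 → F) := LinearMap.ker (bform 2 F v)
    have hU : ∀ w, w ∈ U ↔ Cfsg.sympForm 2 F v w = 0 := fun w => LinearMap.mem_ker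
    have hle : Submodule.span F {v} ≤ U := by
      rw [Submodule.span_singleton_le_iff_mem, hU]; exact sympForm_self v
    have hUd : finrank F U = 3 := by
      have h3 := LinearMap.finrank_range_add_finrank_ker (bform 2 F v)
      have h4 : LinearMap.range (bform 2 F v) = ⊤ := by
        rw [LinearMap.range_eq_top]
        apply LinearMap.surjective
        intro h
        exact hv (sympForm_nondeg fun x => by
          have := congrArg (fun f => f x) h
          simpa [bform_apply] using this)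
      rw [h4, finrank_top, finrank_self, finrank_pi, Fintype.card_sum, Fintype.card_fin] at h3
      change 1 + finrank F U = 2 + 2 at h3
      omega
    have h5 : Set.ncard ((U : Set (Fin 2 ⊕ Fin 2 → F)) \ (Submodule.span F {v} : Submodule F (Fin 2 ⊕ Fin 2 → F))) = q ^ 3 - q := by
      rw [Set.ncard_sdiff (by exact hle)]
      have e1 := card_submodule U
      have e2 := card_submodule (Submodule.span F {v})
      rw [hUd, hF] at e1
      rw [finrank_span_singleton hv, pow_one, hF] at e2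
      congr 1
    rw [← h5]
    refine Nat.card_congr (Equiv.subtypeEquivRight fun w => ?_)
    rw [iso_pair, ← hU]
    exact and_comm
  rw [h2] at h1
  have h3 : q ^ 3 - q = (q ^ 2 - q) * (q + 1) := by
    zify [(by nlinarith : q ≤ q ^ 2), (by nlinarith [Nat.pow_le_pow_left hq 2, pow_succ q 2] : q ≤ q ^ 3)]
    ring
  rw [h3] at h1
  have h4 : 0 < q ^ 2 - q := by
    have : q < q ^ 2 := by nlinarith
    omega
  exact (Nat.eq_of_mul_eq_mul_left h4 h1).symm

theorem result {F : Type*} [Field F] [Fintype F] {q : ℕ} (hF : Fintype.card F = q) : Nat.card {W : Submodule F (Fin 2 ⊕ Fin 2 → F) // Module.finrank F W = 2 ∧ ∀ u ∈ W, ∀ v ∈ W, Cfsg.sympForm 2 F u v = 0} = (q + 1) * (q ^ 2 + 1) ∧ ∀ v : Fin 2 ⊕ Fin 2 → F, v ≠ 0 → Nat.card {W : Submodule F (Fin 2 ⊕ Fin 2 → F) // Module.finrank F W = 2 ∧ v ∈ W ∧ ∀ u ∈ W, ∀ w ∈ W, Cfsg.sympForm 2 F u w = 0} = q + 1 := by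
  classical
  refine ⟨?_, fun v hv => lines_through hF v hv⟩
  have hq : 2 ≤ q := by rw [← hF]; exact Fintype.one_lt_card
  have h1 := card_flags (F := F) (V := Fin 2 ⊕ Fin 2 → F) (fun W => ∀ u ∈ W, ∀ v ∈ W, Cfsg.sympForm 2 F u v = 0)
    (fun _ => True) (q + 1) (fun v hv _ => lines_through hF v hv) (fun _ _ _ _ => trivial)
  have h2 : Nat.card {v : Fin 2 ⊕ Fin 2 → F // v ≠ 0 ∧ True} = q ^ 4 - 1 := by
    have e1 : Nat.card {v : Fin 2 ⊕ Fin 2 → F // v ≠ 0 ∧ True} = Fintype.card {v : Fin 2 ⊕ Fin 2 → F // v ≠ 0} := by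
      rw [← Nat.card_eq_fintype_card]
      exact Nat.card_congr (Equiv.subtypeEquivRight fun v => by simp)
    rw [e1, Fintype.card_subtype_compl]
    simp [hF]
  rw [h2, hF] at h1
  have h3 : (q + 1) * (q ^ 4 - 1) = (q ^ 2 - 1) * ((q + 1) * (q ^ 2 + 1)) := by
    zify [(Nat.one_le_pow _ _ (by omega) : 1 ≤ q ^ 4), (Nat.one_le_pow _ _ (by omega) : 1 ≤ q ^ 2)]
    ring
  rw [h3] at h1
  have h4 : 0 < q ^ 2 - 1 := by
    have : 1 < q ^ 2 := by nlinarith
    omega
  exact Nat.eq_of_mul_eq_mul_left h4 h1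

end Cfsg.Agent.S0828
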