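import Mathlib
import Cfsg.Statements.S0830
import Cfsg.Agent.Lib.UnLines

set_option autoImplicit false

namespace Cfsg.Agent.S0830

open Cfsg Cfsg.Agent.Lib Cfsg.Agent.Lib.UnLines Cfsg.Agent.Lib.ClUnitary Module

theorem result {F : Type*} [Field F] [Fintype F] {q : ℕ} (hF : Fintype.card F = q ^ 2) : Nat.card {W : Submodule F (Fin 5 → F) // Module.finrank F W = 2 ∧ ∀ u ∈ W, ∀ v ∈ W, Cfsg.hermForm 5 F q u v = 0} = (q ^ 3 + 1) * (q ^ 5 + 1) := by
  have hq := HermMat.two_le_q hF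
  have hN := N_zero (F := F) hF 5
  rw [if_neg (by decide)] at hN
  norm_num at hN
  have h1 : 1 ≤ q ^ 4 := Nat.one_le_pow _ _ (by omega)
  have h2 : 1 ≤ q ^ 2 := Nat.one_le_pow _ _ (by omega)
  have h3 : q ^ 2 ≤ q ^ 4 := Nat.pow_le_pow_right (by omega) (by norm_num)
  have h4 : q ^ 2 < q ^ 4 := Nat.pow_lt_pow_right (by omega) (by norm_num)
  have ht : ∀ u : Fin 5 → F, u ≠ 0 → hermForm 5 F q u u = 0 → Nat.card {W : Submodule F (Fin 5 → F) // finrank F W = 2 ∧ u ∈ W ∧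
      ∀ x ∈ W, ∀ y ∈ W, hermForm 5 F q x y = 0} = q ^ 3 + 1 := by
    intro u hu huu
    have h5 := lines_through (n := 4) hF hu huu
    rw [hN] at h5
    generalize Nat.card {W : Submodule F (Fin 5 → F) // finrank F W = 2 ∧ u ∈ W ∧
      ∀ x ∈ W, ∀ y ∈ W, hermForm 5 F q x y = 0} = t at h5 ⊢
    have h6 : 0 < q ^ 2 * (q ^ 4 - q ^ 2) := by
      apply Nat.mul_pos (by omega); omega
    apply Nat.eq_of_mul_eq_mul_left h6
    zify [h1, h2, h3] at h5 ⊢
    linear_combination h5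
  have h5 := lines_all hF (q ^ 3 + 1) ht
  rw [hN, Nat.add_sub_cancel] at h5
  have h6 : 0 < q ^ 4 - 1 := by omega
  apply Nat.eq_of_mul_eq_mul_left h6
  rw [h5]
  ring

end Cfsg.Agent.S0830
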