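import Cfsg.Statements.S0831
import Cfsg.Agent.Lib.QuadTrans

set_option autoImplicit false
open Cfsg

namespace Cfsg.Agent.S0831

/-- The two families of maximal totally singular subspaces of the hyperbolic quadric: for the form Σ x_i y_i on F^(2m), m ≥ 1, and m-dimensional subspaces U, W, X on which it vanishes, the parities of m − dim(U ∩ W), m − dim(W ∩ X) and m − dim(U ∩ X) sum to an even number (so 'even codimension of the intersection' is an equivalence relation), and there exist two such subspaces meeting in codimension 1 (so there are exactly two classes). -/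
theorem result {F : Type*} [Field F] (m : ℕ) (hm : 1 ≤ m) : (∀ U W X : Submodule F (Fin m ⊕ Fin m → F), (Module.finrank F U = m ∧ ∀ w ∈ U, Cfsg.quadFormPlus m F w = 0) → (Module.finrank F W = m ∧ ∀ w ∈ W, Cfsg.quadFormPlus m F w = 0) → (Module.finrank F X = m ∧ ∀ w ∈ X, Cfsg.quadFormPlus m F w = 0) → Even ((m - Module.finrank F ↥(U ⊓ W)) + (m - Module.finrank F ↥(W ⊓ X)) + (m - Module.finrank F ↥(U ⊓ X)))) ∧ ∃ U W : Submodule F (Fin m ⊕ Fin m → F), (Module.finrank F U = m ∧ ∀ w ∈ U, Cfsg.quadFormPlus m F w = 0) ∧ (Module.finrank F W = m ∧ ∀ w ∈ W, Cfsg.quadFormPlus m F w = 0) ∧ Module.finrank F ↥(U ⊓ W) + 1 = m := by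
  set Q := Cfsg.Agent.Lib.Quad.quadPlus m F with hQdef
  have hQ : Cfsg.Agent.Lib.Quad.Nd Q := Cfsg.Agent.Lib.Quad.nd_quadPlus
  have hfr : Module.finrank F (Fin m ⊕ Fin m → F) = 2 * m := Cfsg.Agent.Lib.Quad.finrank_plus
  constructor
  · intro U W X hU hW hX
    have hU' : Cfsg.Agent.Lib.Quad.MTS Q m U := hU
    have hW' : Cfsg.Agent.Lib.Quad.MTS Q m W := hW
    have hX' : Cfsg.Agent.Lib.Quad.MTS Q m X := hX
    have h1 := Cfsg.Agent.Lib.Quad.finrank_inf_le hU' (W := W)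
    have h2 := Cfsg.Agent.Lib.Quad.finrank_inf_le hU' (W := X)
    have h3 := Cfsg.Agent.Lib.Quad.finrank_inf_le hW' (W := X)
    have h4 := hX'.parity hQ hfr (m - Module.finrank F ↥(U ⊓ W)) hU' hW' (by omega)
    rw [inf_comm X U, inf_comm X W] at h4
    rw [Nat.even_iff] at h4 ⊢
    omega
  · have hU : Cfsg.Agent.Lib.Quad.MTS Q m
      (LinearMap.ker (LinearMap.funLeft F F (Sum.inr : Fin m → Fin m ⊕ Fin m))) :=
      Cfsg.Agent.Lib.Quad.mts_std
    obtain ⟨v, hv⟩ := Cfsg.Agent.Lib.Quad.Nd.exists_Q_ne_zero hQ (by omega)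
    exact ⟨_, _, hU, Cfsg.Agent.Lib.Quad.map_ts hU (Cfsg.Agent.Lib.Quad.refl_mem v),
      hU.adj_refl hQ hfr hv⟩

end Cfsg.Agent.S0831
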