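import Cfsg.Statements.S0832
import Cfsg.Agent.Lib.QuadTrans

set_option autoImplicit false
open Cfsg

namespace Cfsg.Agent.S0832

/-- For the form Σ x_i y_i on F^(2m) over a finite field, m ≥ 1: an (m−1)-dimensional subspace on which the form vanishes is contained in exactly two m-dimensional subspaces on which it vanishes. -/
theorem result {F : Type*} [Field F] [Finite F] (m : ℕ) (hm : 1 ≤ m) (U : Submodule F (Fin m ⊕ Fin m → F)) (hU : Module.finrank F U + 1 = m ∧ ∀ u ∈ U, Cfsg.quadFormPlus m F u = 0) : Nat.card {W : Submodule F (Fin m ⊕ Fin m → F) // Module.finrank F W = m ∧ (∀ w ∈ W, Cfsg.quadFormPlus m F w = 0) ∧ U ≤ W} = 2 := by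
  set Q := Cfsg.Agent.Lib.Quad.quadPlus m F with hQdef
  have hQ : Cfsg.Agent.Lib.Quad.Nd Q := Cfsg.Agent.Lib.Quad.nd_quadPlus
  have hfr : Module.finrank F (Fin m ⊕ Fin m → F) = 2 * m := Cfsg.Agent.Lib.Quad.finrank_plus
  have hE : Cfsg.Agent.Lib.Quad.MTS Q m
      (LinearMap.ker (LinearMap.funLeft F F (Sum.inr : Fin m → Fin m ⊕ Fin m))) :=
      Cfsg.Agent.Lib.Quad.mts_std
  have hUts : ∀ u ∈ U, Q u = 0 := hU.2
  -- a singular vector orthogonal to `U` outside `U`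
  obtain ⟨x, hxQ, hxp, hxU⟩ : ∃ x, Q x = 0 ∧ x ∈ Cfsg.Agent.Lib.Quad.perp Q U ∧ x ∉ U := by
    have h1 := Cfsg.Agent.Lib.Quad.finrank_inf_perp hQ hfr hE hU.1
    by_contra hcon
    push Not at hcon
    have h2 := Submodule.finrank_mono (le_inf inf_le_left fun x hx => hcon x (hE.2 x hx.1) hx.2 :
      _ ⊓ Cfsg.Agent.Lib.Quad.perp Q U ≤
      (LinearMap.ker (LinearMap.funLeft F F (Sum.inr : Fin m → Fin m ⊕ Fin m))) ⊓ U)
    omega
  have hsup : ∀ x, Q x = 0 → x ∈ Cfsg.Agent.Lib.Quad.perp Q U → x ∉ U →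
      Cfsg.Agent.Lib.Quad.MTS Q m (U ⊔ (F ∙ x)) := by
    intro x hx0 hxp hxU
    refine ⟨?_, ?_⟩
    · have hxne : x ≠ 0 := fun h => hxU (h ▸ U.zero_mem)
      have h3 := Submodule.finrank_sup_add_finrank_inf_eq U (F ∙ x)
      have h4 : U ⊓ (F ∙ x) = ⊥ := by
        rw [eq_bot_iff]
        rintro y ⟨hy1, hy2⟩
        obtain ⟨c, rfl⟩ := Submodule.mem_span_singleton.1 hy2
        by_cases hc : c = 0
        · rw [hc, zero_smul]; exact Submodule.zero_mem _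
        · exfalso
          apply hxU
          have := U.smul_mem c⁻¹ hy1
          rwa [smul_smul, inv_mul_cancel₀ hc, one_smul] at this
      rw [h4, finrank_bot, finrank_span_singleton hxne] at h3
      omega
    · intro y hy
      obtain ⟨a, ha, b, hb, rfl⟩ := Submodule.mem_sup.1 hy
      obtain ⟨c, rfl⟩ := Submodule.mem_span_singleton.1 hb
      rw [Cfsg.Agent.Lib.Quad.Q_add, Cfsg.Agent.Lib.Quad.Q_smul, hx0, hUts a ha,
        QuadraticMap.polar_smul_right, Cfsg.Agent.Lib.Quad.mem_perp.1 hxp a ha]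
      simp
  have hW1 := hsup x hxQ hxp hxU
  set W₁ := U ⊔ (F ∙ x) with hW₁
  obtain ⟨v, hvp, hv⟩ := Cfsg.Agent.Lib.Quad.exists_nonsing_perp hQ (U := U) (by omega)
  set W₂ := W₁.map (Cfsg.Agent.Lib.Quad.refl Q v).toLinearMap with hW₂
  have hW2 : Cfsg.Agent.Lib.Quad.MTS Q m W₂ :=
    Cfsg.Agent.Lib.Quad.map_ts hW1 (Cfsg.Agent.Lib.Quad.refl_mem v)
  have hadj : Cfsg.Agent.Lib.Quad.Adj m W₁ W₂ := hW1.adj_refl hQ hfr hv
  have hU1 : U ≤ W₁ := le_sup_left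
  have hU2 : U ≤ W₂ := fun u hu => ⟨u, hU1 hu, Cfsg.Agent.Lib.Quad.refl_of_perp (by
    rw [QuadraticMap.polar_comm]; exact Cfsg.Agent.Lib.Quad.mem_perp.1 hvp u hu)⟩
  have hinf : U = W₁ ⊓ W₂ := by
    apply Submodule.eq_of_le_of_finrank_eq (le_inf hU1 hU2)
    have : Module.finrank F ↥(W₁ ⊓ W₂) + 1 = m := hadj
    omega
  have hne : W₁ ≠ W₂ := by
    intro h
    have h1 : Module.finrank F ↥(W₁ ⊓ W₂) + 1 = m := hadj
    rw [← h, inf_idem, hW1.1] at h1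
    omega
  rw [Nat.card_eq_two_iff]
  refine ⟨⟨W₁, hW1.1, hW1.2, hU1⟩, ⟨W₂, hW2.1, hW2.2, hU2⟩, fun h => hne (congrArg Subtype.val h),
    ?_⟩
  rw [Set.eq_univ_iff_forall]
  rintro ⟨W, hWf, hW0, hUW⟩
  rw [Set.mem_insert_iff, Set.mem_singleton_iff, Subtype.mk.injEq, Subtype.mk.injEq]
  have hWm : Cfsg.Agent.Lib.Quad.MTS Q m W := ⟨hWf, hW0⟩
  obtain ⟨w, hw, hwU⟩ : ∃ w ∈ W, w ∉ U := by
    by_contra hcon
    push Not at hcon
    have := Submodule.finrank_mono (show W ≤ U from hcon)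
    omega
  have hwp : w ∈ Cfsg.Agent.Lib.Quad.perp Q U := Cfsg.Agent.Lib.Quad.perp_anti hUW
    (Cfsg.Agent.Lib.Quad.le_perp_of_ts hWm.2 hw)
  have h5 := hsup w (hWm.2 w hw) hwp hwU
  have h6 : ∀ X, Cfsg.Agent.Lib.Quad.MTS Q m X → U ≤ X → w ∈ X → U ⊔ (F ∙ w) = X := by
    intro X hX hUX hwX
    apply Submodule.eq_of_le_of_finrank_eq
    · exact sup_le hUX ((Submodule.span_singleton_le_iff_mem _ _).2 hwX)
    · rw [h5.1, hX.1]
  rw [hinf] at hwp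
  rcases hadj.mem_or hQ hfr hW1 hW2 hwp (hWm.2 w hw) with h | h
  · left
    rw [← h6 W hWm hUW hw, ← h6 W₁ hW1 hU1 h]
  · right
    rw [← h6 W hWm hUW hw, ← h6 W₂ hW2 hU2 h]

end Cfsg.Agent.S0832
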