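import Mathlib
import Cfsg.Statements.S0833
import Cfsg.Agent.Lib.TensorBilin
import Cfsg.Agent.Lib.SympBasis

set_option autoImplicit false

namespace Cfsg.Agent.S0833

open Cfsg.Agent.Lib Cfsg.Agent.Lib.TensorBilin Module TensorProduct

theorem exists_lagrangian {F U : Type*} [Field F] [AddCommGroup U] [Module F U] [FiniteDimensional F U]
    (B : LinearMap.BilinForm F U) (h : B.Nondegenerate) (hA : B.IsAlt) (k : ℕ) (hU : Module.finrank F U = 2 * k) :
    ∃ L : Submodule F U, finrank F L = k ∧ ∀ x ∈ L, ∀ y ∈ L, B x y = 0 := by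
  obtain ⟨e, he⟩ := SympBasis.exists_equiv_of_finrank hU B hA h.1
  refine ⟨(LinearMap.ker (LinearMap.funLeft F F (Sum.inr : Fin k → Fin k ⊕ Fin k))).map e.toLinearMap, ?_, ?_⟩
  · rw [LinearEquiv.finrank_map_eq]
    have h1 := LinearMap.finrank_range_add_finrank_ker
      (LinearMap.funLeft F F (Sum.inr : Fin k → Fin k ⊕ Fin k))
    rw [LinearMap.range_eq_top.2 (LinearMap.funLeft_surjective_of_injective F F _
      Sum.inr_injective), finrank_top, finrank_pi, finrank_pi, Fintype.card_fin, Fintype.card_sum, Fintype.card_fin] at h1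
    omega
  · rintro _ ⟨x, hx, rfl⟩ _ ⟨y, hy, rfl⟩
    change B (e x) (e y) = 0
    rw [he]
    have hx' : ∀ i : Fin k, x (Sum.inr i) = 0 := fun i => congrFun (LinearMap.mem_ker.1 hx) i
    have hy' : ∀ i : Fin k, y (Sum.inr i) = 0 := fun i => congrFun (LinearMap.mem_ker.1 hy) i
    simp [Cfsg.sympForm, Matrix.J, Matrix.mulVec, dotProduct, Matrix.fromBlocks, hx', hy', Matrix.one_apply]

theorem result {F U W : Type*} [Field F] [Fintype F] [AddCommGroup U] [Module F U] [FiniteDimensional F U] [AddCommGroup W] [Module F W] [FiniteDimensional F W] (B₁ : LinearMap.BilinForm F U) (B₂ : LinearMap.BilinForm F W) (h₁ : B₁.Nondegenerate) (h₂ : B₂.Nondegenerate) (hA₁ : B₁.IsAlt) (hA₂ : B₂.IsAlt) (k l : ℕ) (hU : Module.finrank F U = 2 * k) (hW : Module.finrank F W = 2 * l) : (B₁.tmul B₂).IsSymm ∧ (B₁.tmul B₂).Nondegenerate ∧ (∃ X : Submodule F (TensorProduct F U W), Module.finrank F X = 2 * k * l ∧ ∀ x ∈ X, ∀ y ∈ X, (B₁.tmul B₂) x y = 0)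 := by
  have hs : (B₁.tmul B₂).IsSymm := by
    rw [LinearMap.isSymm_iff_eq_flip]
    ext u w u' w'
    have h1 := hA₁.neg_eq u u'
    have h2 := hA₂.neg_eq w w'
    simp [← h1, ← h2]
  refine ⟨hs, nondeg_tmul h₁ h₂ hs, ?_⟩
  obtain ⟨L, hL, hL0⟩ := exists_lagrangian B₁ h₁ hA₁ k hU
  refine ⟨leftSub L W, ?_, leftSub_iso B₁ B₂ L hL0⟩
  rw [finrank_leftSub, hL, hW]
  ring

end Cfsg.Agent.S0833
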