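import Mathlib
import Cfsg.Statements.S0834
import Cfsg.Agent.Lib.TensorBlocks

set_option autoImplicit false

namespace Cfsg.Agent.S0834

open Cfsg.Agent.Lib Cfsg.Agent.Lib.TensorBilin Module TensorProduct

theorem result {F U W : Type*} [Field F] [Fintype F] [AddCommGroup U] [Module F U] [FiniteDimensional F U] [AddCommGroup W] [Module F W] [FiniteDimensional F W] (h2 : (2 : F) ≠ 0) (B₁ : LinearMap.BilinForm F U) (B₂ : LinearMap.BilinForm F W) (h₁ : B₁.Nondegenerate) (h₂ : B₂.Nondegenerate) (hS₁ : B₁.IsSymm) (hS₂ : B₂.IsSymm) (k l : ℕ) (hk : 1 ≤ k) (hl : 1 ≤ l) (hU : Module.finrank F U = 2 * k) (hW : Module.finrank F W = 2 * l) (hm₁ : ¬ (∃ X : Submodule F (U), Module.finrank F X = k ∧ ∀ x ∈ X, ∀ y ∈ X, (B₁) x y = 0)) (hm₂ : ¬ (∃ X : Submodule F (W), Module.finrank F X = l ∧ ∀ x ∈ X, ∀ y ∈ X, (B₂) x y = 0)) : (∃ X : Submodule F (TensorProduct F U W), Module.finrank F X = 2 * k *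 l ∧ ∀ x ∈ X, ∀ y ∈ X, (B₁.tmul B₂) x y = 0) := by
  obtain ⟨b, α, hα, hb⟩ := exists_ortho h2 B₁ hS₁ h₁ hU
  obtain ⟨d, β, hβ, hd⟩ := exists_ortho h2 B₂ hS₂ h₂ hW
  let e1 : Fin k × Fin 2 ≃ Fin (2 * k) := finProdFinEquiv.trans (finCongr (mul_comm k 2))
  let e2 : Fin l × Fin 2 ≃ Fin (2 * l) := finProdFinEquiv.trans (finCongr (mul_comm l 2))
  obtain ⟨X, hX, hX0, -⟩ := exists_block h2 B₁ B₂ (fun i s => b (e1 (i, s))) (fun i s => d (e2 (i, s)))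
    (fun i s => α (e1 (i, s))) (fun i s => β (e2 (i, s))) (fun i s => hα _) (fun i s => hβ _)
    (fun i s i' s' => by rw [hb]; simp only [EmbeddingLike.apply_eq_iff_eq, Prod.mk.injEq])
    (fun i s i' s' => by rw [hd]; simp only [EmbeddingLike.apply_eq_iff_eq, Prod.mk.injEq])
  exact ⟨X, hX, hX0⟩

end Cfsg.Agent.S0834
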