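import Mathlib
import Cfsg.Statements.S0835
import Cfsg.Agent.Lib.TensorBlocks

set_option autoImplicit false

namespace Cfsg.Agent.S0835

open Cfsg.Agent.Lib Cfsg.Agent.Lib.TensorBilin Module TensorProduct

theorem result {F U W : Type*} [Field F] [Fintype F] [AddCommGroup U] [Module F U] [FiniteDimensional F U] [AddCommGroup W] [Module F W] [FiniteDimensional F W] (h2 : (2 : F) ≠ 0) (B₁ : LinearMap.BilinForm F U) (B₂ : LinearMap.BilinForm F W) (h₁ : B₁.Nondegenerate) (h₂ : B₂.Nondegenerate) (hS₁ : B₁.IsSymm) (hS₂ : B₂.IsSymm) (k l : ℕ) (hk : 1 ≤ k) (hU : Module.finrank F U = 2 * k) (hW : Module.finrank F W = 2 * l + 1) (hm₁ : ¬ (∃ X : Submodule F (U), Module.finrank F X = k ∧ ∀ x ∈ X, ∀ y ∈ X, (B₁) x y = 0)) : ¬ (∃ X : Submodule F (TensorProduct F U W), Module.finrank F X = k * (2 * l + 1) ∧ ∀ x ∈ X, ∀ y ∈ X, (B₁.tmul B₂) x y = 0) := by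
  obtain ⟨b, α, hα, hb⟩ := exists_ortho h2 B₁ hS₁ h₁ hU
  obtain ⟨d, β, hβ, hd⟩ := exists_ortho h2 B₂ hS₂ h₂ hW
  let e1 : Fin k × Fin 2 ≃ Fin (2 * k) := finProdFinEquiv.trans (finCongr (mul_comm k 2))
  let e2 : Fin l × Fin 2 ≃ Fin (2 * l) := finProdFinEquiv.trans (finCongr (mul_comm l 2))
  obtain ⟨X, hX, hX0, hXw⟩ := exists_block h2 B₁ B₂ (fun i s => b (e1 (i, s))) (fun i s => d (Fin.castSucc (e2 (i, s))))
    (fun i s => α (e1 (i, s))) (fun i s => β (Fin.castSucc (e2 (i, s)))) (fun i s => hα _) (fun i s => hβ _)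
    (fun i s i' s' => by rw [hb]; simp only [EmbeddingLike.apply_eq_iff_eq, Prod.mk.injEq])
    (fun i s i' s' => by rw [hd]; simp only [Fin.castSucc_inj, EmbeddingLike.apply_eq_iff_eq, Prod.mk.injEq])
  rintro ⟨Y, hY, hY0⟩
  have hs : (B₁.tmul B₂).IsSymm := LinearMap.IsSymm.tmul (LinearMap.BilinForm.isSymm_iff.mp hS₁) (LinearMap.BilinForm.isSymm_iff.mp hS₂)
  have hnd := nondeg_tmul h₁ h₂ hs
  obtain ⟨Z, hZ, hZ0⟩ := descent (B₁.tmul B₂ : LinearMap.BilinForm F (U ⊗[F] W)) hnd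
    (LinearMap.BilinForm.isSymm_iff.mpr hs) X hX0 ((TensorProduct.mk F U W).flip (d (Fin.last (2 * l)))) B₁ h₁
    (β (Fin.last (2 * l))) (hβ _) (fun u u' => by
      rw [LinearMap.flip_apply, LinearMap.flip_apply, TensorProduct.mk_apply, TensorProduct.mk_apply, tmul_apply, hd, if_pos rfl, mul_comm])
    (fun x hx u => by
      rw [LinearMap.flip_apply, TensorProduct.mk_apply]
      exact hXw _ (fun j s => by rw [hd, if_neg (Fin.castSucc_lt_last _).ne]) u x hx)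
    (by rw [Module.finrank_tensorProduct, hU, hW, hX]; ring) Y hY0
    (by rw [Module.finrank_tensorProduct, hU, hW, hY]; ring)
  exact hm₁ ⟨Z, by omega, hZ0⟩

end Cfsg.Agent.S0835
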