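import Mathlib
import Cfsg.Statements.S0836

set_option autoImplicit false
open Cfsg
open scoped commutatorElement

namespace Cfsg.Agent.S0836

open Matrix

theorem result {F : Type*} [Field F] (n : ℕ) (hn : 3 ≤ n ∨ (n = 2 ∧ ∃ x : F, x ≠ 0 ∧ x ^ 2 ≠ 1)) (i j : Fin n) (hij : i ≠ j) (c : F) (t : Matrix.SpecialLinearGroup (Fin n) F) (ht : (t : Matrix (Fin n) (Fin n) F) = Matrix.transvection i j c) : t ∈ commutatorSet (Matrix.SpecialLinearGroup (Fin n) F) := by
  rw [mem_commutatorSet_iff]
  rcases hn with hn | ⟨rfl, x, hx0, hx⟩
  · obtain ⟨k, hki, hkj⟩ : ∃ k : Fin n, k ≠ i ∧ k ≠ j := by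
      have hcard : (({i, j} : Finset (Fin n))).card < Fintype.card (Fin n) := by
        rw [Fintype.card_fin]
        exact lt_of_le_of_lt Finset.card_le_two (by omega)
      obtain ⟨k, hk⟩ := Finset.exists_mem_notMem_of_card_lt_card (s := {i, j}) (t := Finset.univ) (by simpa using hcard)
      simp only [Finset.mem_insert, Finset.mem_singleton, not_or] at hk
      exact ⟨k, hk.2.1, hk.2.2⟩
    let g : Matrix.SpecialLinearGroup (Fin n) F := ⟨Matrix.transvection i k c, Matrix.det_transvection_of_ne i k hki.symm c⟩
    let h : Matrix.SpecialLinearGroup (Fin n) F := ⟨Matrix.transvection k j 1, Matrix.det_transvection_of_ne k j hkj 1⟩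
    refine ⟨g, h, ?_⟩
    have : g * h = t * (h * g) := by
      apply Subtype.ext
      show Matrix.transvection i k c * Matrix.transvection k j 1 = (t : Matrix (Fin n) (Fin n) F) * (Matrix.transvection k j 1 * Matrix.transvection i k c)
      rw [ht]
      simp only [Matrix.transvection, mul_add, add_mul, mul_one, one_mul]
      simp [hij, hki, hkj, hki.symm, hkj.symm, hij.symm, Matrix.single_mul_single_of_ne, Matrix.single_mul_single_same]
      abel
    rw [commutatorElement_def, this]
    group
  · have hx1 : x ^ 2 - 1 ≠ 0 := sub_ne_zero.mpr hx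
    let g : Matrix.SpecialLinearGroup (Fin 2) F := Matrix.SpecialLinearGroup.diag2n hij x hx0
    let h : Matrix.SpecialLinearGroup (Fin 2) F := ⟨Matrix.transvection i j (c / (x ^ 2 - 1)), Matrix.det_transvection_of_ne i j hij _⟩
    refine ⟨g, h, ?_⟩
    have : g * h = t * (h * g) := by
      apply Subtype.ext
      show (g : Matrix (Fin 2) (Fin 2) F) * Matrix.transvection i j _ = (t : Matrix (Fin 2) (Fin 2) F) * (Matrix.transvection i j _ * (g : Matrix (Fin 2) (Fin 2) F))
      rw [ht]
      have hg : (g : Matrix (Fin 2) (Fin 2) F) = Matrix.diagonal (fun l => if l = i then x else x⁻¹) := by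
        ext a b
        simp only [g]
        rw [Matrix.SpecialLinearGroup.diag2n_coe]
        fin_cases i <;> fin_cases j <;> first | (exact absurd rfl hij) | skip
        all_goals fin_cases a <;> fin_cases b <;> simp [Matrix.diagonal]
      rw [hg]
      fin_cases i <;> fin_cases j <;> first | (exact absurd rfl hij) | skip
      all_goals
        ext a b
        fin_cases a <;> fin_cases b <;> simp [Matrix.transvection, Matrix.mul_apply, Matrix.diagonal, Matrix.single] <;> field_simp <;> ring
    rw [commutatorElement_def, this]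
    group

end Cfsg.Agent.S0836
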