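import Mathlib
import Cfsg.Statements.S0837
import Cfsg.Agent.Lib.UnSplit

set_option autoImplicit false

namespace Cfsg.Agent.S0837

open Cfsg Cfsg.Agent.Lib Cfsg.Agent.Lib.UnSplit Cfsg.Agent.Lib.ClIso Cfsg.Agent.Lib.HermMat Module

theorem result {F : Type*} [Field F] [Fintype F] {q : ℕ} (hF : Fintype.card F = q ^ 2) (n k : ℕ) (hk : k ≤ n) (W : Submodule F (Fin n → F)) (hWk : Module.finrank F W = k) (hW : ∀ u ∈ W, (∀ v ∈ W, Cfsg.hermForm n F q u v = 0) → u = 0) : Nonempty (↥((Cfsg.stabilizing (Cfsg.glToMat (Fin n) F) (W : Set (Fin n → F))).subgroupOf (Cfsg.GU n F q)) ≃* ↥(Cfsg.GU k F q) × ↥(Cfsg.GU (n - k) F q)) := by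
  have hq := two_le_q hF
  obtain ⟨e, he, heW⟩ := exists_split hF hk W hWk hW
  have h0 : ∀ (m : ℕ) (x : Fin m → F), hermForm m F q x 0 = 0 := by
    intro m x
    rw [← hermForm_swap hF, hermForm_zero_left, zero_pow (by omega)]
  have h1 : ((Cfsg.stabilizing (Cfsg.glToMat (Fin n) F) (W : Set (Fin n → F))).subgroupOf (Cfsg.GU n F q)) ≃*
      (prodIso e (hermForm n F q) (hermForm k F q) (hermForm (n - k) F q) he).range := by
    apply subgroupEquivOfIff (preservingEquiv (hermForm n F q))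
    intro g
    rw [mem_range_prodIso e _ _ _ he (fun x => hermForm_zero_left x) (fun x => h0 _ x) ?_ (preservingEquiv (hermForm n F q) g)]
    · change (∀ v, v ∈ W ↔ (g.1 : Matrix (Fin n) (Fin n) F).mulVec v ∈ W) ↔ _
      refine forall_congr' fun v => ?_
      rw [heW, heW]
      rfl
    · intro h hx
      by_contra hne
      obtain ⟨x, hx'⟩ := exists_ne_zero hF hne
      apply hx'
      rw [← hermForm_swap hF, hx, zero_pow (by omega)]
  exact ⟨h1.trans ((MonoidHom.ofInjective (prodIso_injective e _ _ _ he)).symm.trans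
    (MulEquiv.prodCongr (preservingEquiv (hermForm k F q)).symm (preservingEquiv (hermForm (n - k) F q)).symm))⟩

end Cfsg.Agent.S0837
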