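import Cfsg.Statements.S0838
import Cfsg.Agent.Lib.QuadStd

set_option autoImplicit false
open Cfsg

namespace Cfsg.Agent.S0838

/-- Over a finite field with 2 ≠ 0 and n odd: two quadratic forms Q₁, Q₂ on F^n with non-degenerate polar forms are similar — there are an invertible linear map g and a scalar c ≠ 0 with Q₂ (g v) = c · Q₁ v for all v. -/
theorem result {F : Type*} [Field F] [Fintype F] (h2 : (2 : F) ≠ 0) {n : ℕ} (hn : Odd n) (Q₁ Q₂ : QuadraticForm F (Fin n → F)) (h₁ : (QuadraticMap.polarBilin Q₁).Nondegenerate) (h₂ : (QuadraticMap.polarBilin Q₂).Nondegenerate) : ∃ (g : (Fin n → F) ≃ₗ[F] (Fin n → F)) (c : F), c ≠ 0 ∧ ∀ v, Q₂ (g v) = c * Q₁ v := by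
  set d₁ := (LinearMap.BilinForm.toMatrix (Pi.basisFun F (Fin n)) (QuadraticMap.polarBilin Q₁)).det
    with hd₁
  set d₂ := (LinearMap.BilinForm.toMatrix (Pi.basisFun F (Fin n)) (QuadraticMap.polarBilin Q₂)).det
    with hd₂
  have hd₁0 : d₁ ≠ 0 := Cfsg.Agent.Lib.Quad.Nd.gram_ne_zero h₁ _
  have hd₂0 : d₂ ≠ 0 := Cfsg.Agent.Lib.Quad.Nd.gram_ne_zero h₂ _
  set c := d₁ * d₂ with hcdef
  have hc : c ≠ 0 := mul_ne_zero hd₁0 hd₂0
  have hcQ : Cfsg.Agent.Lib.Quad.Nd (c • Q₁) := by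
    refine Cfsg.Agent.Lib.Quad.nd_of fun x hx => ?_
    refine Cfsg.Agent.Lib.Quad.Nd.eq_zero h₁ fun y => ?_
    have h1 := hx y
    have h3 : QuadraticMap.polar (⇑(c • Q₁)) x y = c * QuadraticMap.polar Q₁ x y := by
      simp only [QuadraticMap.polar, QuadraticMap.smul_apply, smul_eq_mul]; ring
    rw [h3] at h1
    exact (mul_eq_zero.1 h1).resolve_left hc
  obtain ⟨g, hg⟩ := Cfsg.Agent.Lib.Quad.exists_isometry_of_disc h2 hcQ h₂ rfl
    (Pi.basisFun F (Fin n)) (Pi.basisFun F (Fin n)) (by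
      have h3 : LinearMap.BilinForm.toMatrix (Pi.basisFun F (Fin n))
          (QuadraticMap.polarBilin (c • Q₁)) = c • LinearMap.BilinForm.toMatrix
          (Pi.basisFun F (Fin n)) (QuadraticMap.polarBilin Q₁) := by
        ext i j
        rw [Matrix.smul_apply, LinearMap.BilinForm.toMatrix_apply,
          LinearMap.BilinForm.toMatrix_apply, QuadraticMap.polarBilin_apply_apply,
          QuadraticMap.polarBilin_apply_apply]
        simp only [QuadraticMap.polar, QuadraticMap.smul_apply, smul_eq_mul]; ring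
      rw [h3, Matrix.det_smul, Fintype.card_fin, ← hd₁, ← hd₂]
      obtain ⟨k, hk⟩ := hn
      refine ⟨c ^ k * c, ?_⟩
      have : c ^ n = c ^ k * c ^ k * c := by rw [hk]; ring
      rw [this, hcdef]; ring)
  exact ⟨g, c, hc, fun v => by rw [hg, QuadraticMap.smul_apply, smul_eq_mul]⟩

end Cfsg.Agent.S0838
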