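import Mathlib
import Cfsg.Statements.S0841

set_option autoImplicit false
open Cfsg
open scoped commutatorElement

namespace Cfsg.Agent.S0841

theorem result {G : Type*} [Group G] (hG : commutator G ≤ Subgroup.center G) (x y : G) (n : ℕ) : (x * y) ^ n = x ^ n * y ^ n * (y⁻¹ * x⁻¹ * y * x) ^ (n * (n - 1) / 2) := by
  set c := y⁻¹ * x⁻¹ * y * x with hc
  have hcen : c ∈ Subgroup.center G := by
    apply hG
    have : c = ⁅y⁻¹, x⁻¹⁆ := by simp [hc, commutatorElement_def]
    rw [this]
    exact Subgroup.commutator_mem_commutator (Subgroup.mem_top _) (Subgroup.mem_top _)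
  have hcomm : ∀ g : G, c * g = g * c := fun g => (Subgroup.mem_center_iff.mp hcen g).symm
  have hC : ∀ g : G, Commute c g := fun g => hcomm g
  have hyx : y * x = x * y * c := by rw [hc]; group
  -- y^n * x = x * y^n * c^n
  have key : ∀ n : ℕ, y ^ n * x = x * y ^ n * c ^ n := by
    intro n
    induction n with
    | zero => simp
    | succ k ih =>
      calc y ^ (k+1) * x = y * (y ^ k * x) := by rw [pow_succ']; group
        _ = y * (x * y ^ k * c ^ k) := by rw [ih]
        _ = (y * x) * y ^ k * c ^ k := by group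
        _ = x * y * (c * y ^ k) * c ^ k := by rw [hyx]; group
        _ = x * y * (y ^ k * c) * c ^ k := by rw [hcomm]
        _ = x * (y * y ^ k) * (c * c ^ k) := by group
        _ = x * y ^ (k+1) * c ^ (k+1) := by rw [← pow_succ', ← pow_succ']
  have htri : ∀ n : ℕ, (n + 1) * (n + 1 - 1) / 2 = n * (n - 1) / 2 + n := by
    intro n
    have h1 : (n + 1) * (n + 1 - 1) = n * (n - 1) + 2 * n := by
      cases n with
      | zero => rfl
      | succ k => simp; ring
    rw [h1, Nat.add_mul_div_left _ _ (by norm_num : 0 < 2)]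
  induction n with
  | zero => simp
  | succ k ih =>
    have hc2 : ∀ m : ℕ, Commute (c ^ m) x := fun m => (hC x).pow_left m
    have hc3 : ∀ m : ℕ, Commute (c ^ m) y := fun m => (hC y).pow_left m
    calc (x * y) ^ (k+1) = (x * y) ^ k * (x * y) := pow_succ _ _
      _ = x ^ k * y ^ k * c ^ (k * (k - 1) / 2) * (x * y) := by rw [ih]
      _ = x ^ k * y ^ k * (c ^ (k * (k - 1) / 2) * x) * y := by group
      _ = x ^ k * y ^ k * (x * c ^ (k * (k - 1) / 2)) * y := by rw [(hc2 _).eq]
      _ = x ^ k * (y ^ k * x) * (c ^ (k * (k - 1) / 2) * y) := by group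
      _ = x ^ k * (x * y ^ k * c ^ k) * (y * c ^ (k * (k - 1) / 2)) := by rw [(hc3 _).eq, key]
      _ = x ^ k * x * y ^ k * (c ^ k * y) * c ^ (k * (k - 1) / 2) := by group
      _ = x ^ k * x * y ^ k * (y * c ^ k) * c ^ (k * (k - 1) / 2) := by rw [(hc3 _).eq]
      _ = (x ^ k * x) * (y ^ k * y) * (c ^ k * c ^ (k * (k - 1) / 2)) := by group
      _ = x ^ (k+1) * y ^ (k+1) * c ^ ((k+1) * (k + 1 - 1) / 2) := by
          rw [← pow_succ, ← pow_succ, ← pow_add, htri, Nat.add_comm (k * (k-1) / 2)]

end Cfsg.Agent.S0841
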