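import Cfsg.Statements.S0843
import Cfsg.Agent.Lib.BSQuat2

set_option autoImplicit false
open Cfsg

namespace Cfsg.Agent.S0843

/-- Suppose a Sylow 2-subgroup S of the finite group G is generalized quaternion of order at least 16; let D be the commutator subgroup of S and X the set of elements of the centralizer of D whose order is divisible by the order of D. Then D is contained in the cyclic subgroup generated by any element of X; an element of G conjugating some element of X into the centralizer of D normalizes D; and the normalizer of D maps X to itself under conjugation. -/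
theorem result {G : Type*} [Group G] [Finite G] (S : Sylow 2 G) (n : ℕ) (e : (S : Subgroup G) ≃* QuaternionGroup (2 ^ (n + 2))) (D : Subgroup G) (hD : D = ⁅(S : Subgroup G), (S : Subgroup G)⁆) : (∀ y : G, y ∈ Subgroup.centralizer (D : Set G) → Nat.card D ∣ orderOf y → D ≤ Subgroup.zpowers y) ∧ (∀ g y : G, y ∈ Subgroup.centralizer (D : Set G) → Nat.card D ∣ orderOf y → g * y * g⁻¹ ∈ Subgroup.centralizer (D : Set G) → g ∈ Subgroup.normalizer (D : Set G)) ∧ (∀ g y : G, g ∈ Subgroup.normalizer (D : Set G) → y ∈ Subgroup.centralizer (D : Set G) → Nat.card D ∣ orderOf y → g * y * g⁻¹ ∈ Subgroup.centralizer (D : Set G) ∧ Nat.card D ∣ orderOf (g * y * g⁻¹)) := by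
  obtain ⟨a, b, h⟩ := Cfsg.Agent.Lib.BSQuat.exists_isGQ (by positivity) e
  have hD' : D = Subgroup.zpowers (a ^ 2) := by rw [hD, h.commutator_eq]
  have hm : 4 ≤ 2 ^ (n + 2) := by
    calc 4 = 2 ^ 2 := rfl
      _ ≤ 2 ^ (n + 2) := Nat.pow_le_pow_right (by norm_num) (by omega)
  have hcard : Nat.card D = 2 ^ (n + 2) := by rw [hD', h.card_commutator]
  rw [hcard, hD']
  refine ⟨?_, ?_, ?_⟩
  · intro y hy hmy
    exact Cfsg.Agent.Lib.BSQuat.le_zpowers S h hm (k := n + 2) rfl (h.mem_centralizer_iff.1 hy) hmy
  · intro g y hy hmy hgy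
    exact Cfsg.Agent.Lib.BSQuat.mem_normalizer_of_conj S h hm (k := n + 2) rfl
      (h.mem_centralizer_iff.1 hy) hmy (h.mem_centralizer_iff.1 hgy)
  · intro g y hg hy hmy
    refine ⟨h.mem_centralizer_iff.2 (Cfsg.Agent.Lib.BSQuat.commute_conj_of_mem_normalizer hg
      (h.mem_centralizer_iff.1 hy)), ?_⟩
    rw [Cfsg.Agent.Lib.Involutions.orderOf_conj]
    exact hmy

end Cfsg.Agent.S0843
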