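import Cfsg.Statements.S0848
import Cfsg.Agent.Lib.DihD8

set_option autoImplicit false
open Cfsg

namespace Cfsg.Agent.S0848

/-- If a finite group equals its own commutator subgroup and contains an involution whose centralizer is isomorphic to the dihedral group of order 8, then the group has order 168 or 360. -/
theorem result {G : Type*} [Group G] [Finite G] (hperf : commutator G = ⊤) (t : G) (ht : orderOf t = 2) (e : Subgroup.centralizer ({t} : Set G) ≃* DihedralGroup 4) : Nat.card G = 168 ∨ Nat.card G = 360 := by
  have hno : ∀ H : Subgroup G, H.index ≠ 2 := by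
    intro H hH
    have hHn : H.Normal := Subgroup.normal_of_index_eq_two hH
    have h1 : Nat.card (G ⧸ H) = 2 := hH
    have h2 : commutator G ≤ H := by
      have : Fact (Nat.Prime 2) := ⟨Nat.prime_two⟩
      have hc : IsCyclic (G ⧸ H) := isCyclic_of_prime_card h1
      have hcomm : ∀ a b : G ⧸ H, a * b = b * a := fun a b => by
        let _ := hc.commGroup
        exact mul_comm a b
      rw [← Subgroup.Normal.quotient_commutative_iff_commutator_le]
      exact ⟨⟨hcomm⟩⟩
    rw [hperf, top_le_iff] at h2
    rw [h2, Subgroup.index_top] at hH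
    omega
  obtain ⟨F, hF, hFf, h | h, -⟩ := Lib.DihD8.psl2 hno ht e
  · exact Or.inl h.2
  · exact Or.inr h.2

end Cfsg.Agent.S0848
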