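import Cfsg.Statements.S0859
import Cfsg.Agent.Lib.RelM2

set_option autoImplicit false
open Cfsg

namespace Cfsg.Agent.S0859

/-- Let G be a finite solvable group and N a normal subgroup such that for every prime p every Sylow p-subgroup of N is abelian. Suppose every irreducible character of G is induced from an irreducible character of some subgroup containing N whose restriction to N is irreducible. Then every irreducible character of G is induced from a character of degree 1 of some subgroup. -/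
theorem result {G : Type*} [Group G] [Fintype G] [Group.IsSolvable G] (N : Subgroup G) [N.Normal] (hab : ∀ (p : ℕ) [Fact p.Prime] (P : Sylow p N), ∀ a ∈ P, ∀ b ∈ P, a * b = b * a) (hrel : ∀ χ : G → ℂ, Cfsg.IsIrrCharacter G χ → ∃ (H : Subgroup G) (hNH : N ≤ H) (ψ : H → ℂ), Cfsg.IsIrrCharacter H ψ ∧ Cfsg.indFun H ψ = χ ∧ Cfsg.IsIrrCharacter N (fun n : N => ψ ⟨(n : G), hNH n.2⟩)) (χ : G → ℂ) (hχ : Cfsg.IsIrrCharacter G χ) : ∃ (U : Subgroup G) (lam : U → ℂ), Cfsg.IsCharacter U lam ∧ lam 1 = 1 ∧ Cfsg.indFun U lam = χ := by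
  classical
  obtain ⟨H, hNH, ψ, hψ, hind, hψN⟩ := hrel χ hχ
  have hS := (Cfsg.Agent.Lib.RelM2.sylAb_of hab).sub H
  have h2 := (Cfsg.Agent.Lib.CharBasic.isIrrCharacter_comp_mulEquiv_iff
    (Subgroup.subgroupOfEquivOfLe hNH)).mpr hψN
  obtain ⟨U, nu, hnu, hnu1, hUnu⟩ :=
    Cfsg.Agent.Lib.RelM2.monomial _ (N.subgroupOf H) hS hψ h2 rfl
  refine ⟨U.map H.subtype, fun x => nu ((Cfsg.Agent.Lib.IndStages.up H U).symm x), ?_, ?_, ?_⟩
  · exact hnu.comp (Cfsg.Agent.Lib.IndStages.up H U).symm.toMonoidHom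
  · change nu ((Cfsg.Agent.Lib.IndStages.up H U).symm 1) = 1
    rw [map_one, hnu1]
  · rw [← Cfsg.Agent.Lib.IndStages.indFun_indFun, hUnu, hind]

end Cfsg.Agent.S0859
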