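import Cfsg.Statements.S0861
import Cfsg.Agent.Lib.CharNorm
import Cfsg.Agent.Lib.CharDegrees

set_option autoImplicit false
open Cfsg

namespace Cfsg.Agent.S0861

/-- Let P be a normal abelian Sylow p-subgroup of the finite group G and suppose some element g of P has centralizer exactly P. Then the number of irreducible characters of G is at most the order of P, and if equality holds then G / P is abelian (the commutator subgroup lies in P). -/
theorem result {G : Type*} [Group G] [Finite G] (p : ℕ) [Fact p.Prime] (P : Sylow p G) [(P : Subgroup G).Normal] (hab : ∀ a ∈ P, ∀ b ∈ P, a * b = b * a) (g : G) (hg : g ∈ P) (hC : Subgroup.centralizer ({g} : Set G) = P) : Nat.card (Cfsg.IrrCharacter G) ≤ Nat.card P ∧ (Nat.card (Cfsg.IrrCharacter G) = Nat.card P → commutator G ≤ P) := by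
  classical
  have : Fintype G := Fintype.ofFinite G
  have hp := (Fact.out : p.Prime)
  have hidx : ¬ p ∣ (P : Subgroup G).index := P.not_dvd_index
  have hne : ∀ χ : Cfsg.IrrCharacter G, (χ : G → ℂ) g ≠ 0 := by
    intro χ h0
    obtain ⟨n, hn0, hn⟩ := χ.2.exists_degree
    have h1 := Cfsg.Agent.Lib.CharDegrees.ito χ.2 (P : Subgroup G) hab n hn
    obtain ⟨k, hk⟩ := P.2 ⟨g, hg⟩
    have hk' : g ^ p ^ k = 1 := congrArg Subtype.val hk
    have h2 := Cfsg.Agent.Lib.CharNorm.dvd_of_apply_eq_zero χ.2.isCharacter hp hk' h0 hn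
    exact hidx (h2.trans h1)
  have hsum : ∑ χ : Cfsg.IrrCharacter G, ‖(χ : G → ℂ) g‖ ^ 2 = Nat.card P := by
    have h1 := Cfsg.Agent.Lib.CharBasic.column_orthogonality g g
    rw [if_pos (IsConj.refl g), hC] at h1
    have h2 : ∀ χ : Cfsg.IrrCharacter G, (χ : G → ℂ) g * (starRingEnd ℂ) ((χ : G → ℂ) g) =
        ((‖(χ : G → ℂ) g‖ ^ 2 : ℝ) : ℂ) := by
      intro χ
      rw [Complex.mul_conj, Complex.normSq_eq_norm_sq]
    rw [Finset.sum_congr rfl (fun χ _ => h2 χ), ← Complex.ofReal_sum] at h1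
    exact_mod_cast h1
  obtain ⟨m, hm⟩ := Cfsg.Agent.Lib.CharNorm.prod_irr_int g
  have hprod : 1 ≤ ∏ χ : Cfsg.IrrCharacter G, ‖(χ : G → ℂ) g‖ ^ 2 := by
    rw [Finset.prod_pow, ← norm_prod, hm]
    have hm0 : m ≠ 0 := by
      rintro rfl
      rw [Int.cast_zero, Finset.prod_eq_zero_iff] at hm
      obtain ⟨χ, -, h⟩ := hm
      exact hne χ h
    rw [Complex.norm_intCast]
    have h1 : (1 : ℝ) ≤ |(m : ℝ)| := by
      exact_mod_cast Int.one_le_abs hm0
    nlinarith
  obtain ⟨h1, h2⟩ := Cfsg.Agent.Lib.CharNorm.sum_ge_of_prod_ge Finset.univ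
    (fun χ : Cfsg.IrrCharacter G => ‖(χ : G → ℂ) g‖ ^ 2)
    (fun χ _ => by have := norm_pos_iff.mpr (hne χ); positivity) hprod
  rw [hsum, Finset.card_univ, ← Nat.card_eq_fintype_card] at h1 h2
  refine ⟨by exact_mod_cast h1, fun heq => ?_⟩
  have h3 := h2 (by exact_mod_cast heq)
  -- every irreducible character of G / P is linear
  have hcomm : ∀ a b : G ⧸ (P : Subgroup G), a * b = b * a := by
    apply Cfsg.Agent.Lib.CharBasic.comm_of_forall_irr_linear
    intro χ hχ
    have h4 := h3 ⟨_, hχ.inflate (P : Subgroup G)⟩ (Finset.mem_univ _)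
    obtain ⟨n, hn0, hn⟩ := hχ.exists_degree
    simp only at h4
    have h5 : ((g : G) : G ⧸ (P : Subgroup G)) = 1 := (QuotientGroup.eq_one_iff g).mpr hg
    rw [h5, hn, Complex.norm_natCast] at h4
    have h6 : n = 1 := by
      have h7 : n ^ 2 = 1 := by exact_mod_cast h4
      nlinarith
    rw [hn, h6, Nat.cast_one]
  rw [commutator_def, Subgroup.commutator_le]
  intro a _ b _
  rw [← QuotientGroup.eq_one_iff]
  have h4 := hcomm a b
  rw [commutatorElement_def]
  simp only [QuotientGroup.mk_mul, QuotientGroup.mk_inv]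
  rw [h4]; group

end Cfsg.Agent.S0861
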