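import Cfsg.Statements.S0869
import Mathlib


set_option autoImplicit false
open Cfsg

namespace Cfsg.Agent.S0869

/-- Let S be a nonempty finite type and R an additive subgroup of the integer-valued functions on S that is closed under pointwise multiplication. If the constant function 1 is not in R, then there exist a point x of S and a prime p such that p divides f x for every f in R. -/
theorem result {S : Type*} [Finite S] [Nonempty S] (R : AddSubgroup (S → ℤ)) (hmul : ∀ f ∈ R, ∀ g ∈ R, f * g ∈ R) (h1 : (1 : S → ℤ) ∉ R) : ∃ (x : S) (p : ℕ), p.Prime ∧ ∀ f ∈ R, (p : ℤ) ∣ f x := by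
  classical
  have := Fintype.ofFinite S
  by_contra hcon
  push Not at hcon
  -- every evaluation subgroup is everything
  have key : ∀ x : S, ∃ f ∈ R, f x = 1 := by
    intro x
    let I : AddSubgroup ℤ := R.map (Pi.evalAddMonoidHom (fun _ : S => ℤ) x)
    obtain ⟨a, ha⟩ := Int.subgroup_cyclic I
    have ha' : ∀ f ∈ R, a ∣ f x := by
      intro f hf
      have h1 : f x ∈ I := ⟨f, hf, rfl⟩
      rw [ha, AddSubgroup.mem_closure_singleton] at h1
      obtain ⟨n, hn⟩ := h1
      rw [← hn]
      exact Dvd.intro_left n (by simp)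
    by_cases hu : IsUnit a
    · have h1 : (1 : ℤ) ∈ I := by
        rw [ha, AddSubgroup.mem_closure_singleton]
        rcases Int.isUnit_iff.mp hu with h | h
        · exact ⟨1, by simp [h]⟩
        · exact ⟨-1, by simp [h]⟩
      obtain ⟨f, hf, hfx⟩ := h1
      exact ⟨f, hf, hfx⟩
    · exfalso
      have h2 : a.natAbs ≠ 1 := fun h => hu (Int.natAbs_eq_iff.mp (by simpa using h) |>.elim
        (fun h => by rw [h]; exact isUnit_one) (fun h => by rw [h]; exact isUnit_one.neg))
      obtain ⟨p, hp, hpa⟩ := Nat.exists_prime_and_dvd h2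
      obtain ⟨f, hf, hfp⟩ := hcon x p hp
      exact hfp ((Int.natCast_dvd.mpr hpa).trans (ha' f hf))
  choose f hf hfx using key
  have h2 : ∀ s : Finset S, ∃ g ∈ R, ∏ x ∈ s, (1 - f x) = 1 - g := by
    intro s
    induction s using Finset.induction_on with
    | empty => exact ⟨0, R.zero_mem, by simp⟩
    | insert a s ha ih =>
      obtain ⟨g, hg, hgs⟩ := ih
      refine ⟨f a + g - f a * g, R.sub_mem (R.add_mem (hf a) hg) (hmul _ (hf a) _ hg), ?_⟩
      rw [Finset.prod_insert ha, hgs]
      ring
  obtain ⟨g, hg, hgs⟩ := h2 Finset.univ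
  have h3 : ∏ x : S, (1 - f x) = 0 := by
    ext y
    rw [Finset.prod_apply, Pi.zero_apply]
    apply Finset.prod_eq_zero (Finset.mem_univ y)
    simp [hfx y]
  rw [h3] at hgs
  have h4 : g = 1 := by
    rw [eq_comm, ← sub_eq_zero]; exact hgs.symm
  exact h1 (h4 ▸ hg)

end Cfsg.Agent.S0869
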