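import Cfsg.Statements.S0873
import Cfsg.Agent.Lib.CharBasic2

set_option autoImplicit false
open Cfsg

namespace Cfsg.Agent.S0873

/-- Let C be a normal subgroup of the finite group G of order prime to p and P a p-subgroup with C ⊔ P = G. Let λ be a character of C of degree 1 invariant under conjugation by G and equal to 1 at every element of C centralized by P. Then λ is identically 1. -/
theorem result {G : Type*} [Group G] [Finite G] (p : ℕ) [Fact p.Prime] (C P : Subgroup G) [hC : C.Normal] (hP : IsPGroup p P) (hcop : Nat.Coprime (Nat.card C) p) (hCP : C ⊔ P = ⊤) (lam : C → ℂ) (hlam : Cfsg.IsCharacter C lam ∧ lam 1 = 1) (hinv : ∀ (g : G) (c : C), lam ⟨g * c * g⁻¹, hC.conj_mem (c : G) c.2 g⟩ = lam c) (hker : ∀ c : C, (c : G) ∈ Subgroup.centralizer (P : Set G) → lam c = 1) : lam = fun _ => 1 := by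
  classical
  obtain ⟨f, hf⟩ := hlam.1.exists_hom hlam.2
  funext c
  rw [hf]
  -- the coset of the kernel
  let A : Type _ := {x : C // f x = f c}
  have hinv' : ∀ (g : G) (x : C), f ⟨g * x * g⁻¹, hC.conj_mem (x : G) x.2 g⟩ = f x := by
    intro g x
    apply Units.ext
    rw [← hf, ← hf]
    exact hinv g x
  letI act : MulAction P A :=
    { smul := fun u x => ⟨⟨(u : G) * x.1 * (u : G)⁻¹, hC.conj_mem _ x.1.2 u⟩, by
        rw [hinv' u x.1]; exact x.2⟩
      one_smul := by
        rintro ⟨x, hx⟩
        apply Subtype.ext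
        apply Subtype.ext
        change ((1 : P) : G) * x * ((1 : P) : G)⁻¹ = x
        simp
      mul_smul := by
        rintro u v ⟨x, hx⟩
        apply Subtype.ext
        apply Subtype.ext
        change ((u * v : P) : G) * x * ((u * v : P) : G)⁻¹ =
          (u : G) * ((v : G) * x * (v : G)⁻¹) * (u : G)⁻¹
        simp only [Subgroup.coe_mul, mul_inv_rev, mul_assoc] }
  have h1 := IsPGroup.card_modEq_card_fixedPoints (p := p) (G := P) hP A
  have h2 : Nat.card A = Nat.card f.ker := by
    apply Nat.card_congr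
    exact
      { toFun := fun x => ⟨c⁻¹ * x.1, by rw [MonoidHom.mem_ker, map_mul, map_inv, x.2]; simp⟩
        invFun := fun x => ⟨c * x.1, by rw [map_mul, MonoidHom.mem_ker.mp x.2, mul_one]⟩
        left_inv := fun x => by simp
        right_inv := fun x => by simp }
  have h3 : Nat.card f.ker ∣ Nat.card C := Subgroup.card_subgroup_dvd_card _
  have h4 : ¬ p ∣ Nat.card A := by
    rw [h2]
    intro h
    have := Nat.Coprime.coprime_dvd_left (h.trans h3) hcop
    rw [Nat.coprime_self] at this
    exact (Fact.out : p.Prime).one_lt.ne' this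
  have h5 : Nat.card (MulAction.fixedPoints P A) ≠ 0 := by
    intro h
    rw [h] at h1
    exact h4 ((Nat.modEq_zero_iff_dvd).mp h1)
  have h6 : Nonempty (MulAction.fixedPoints P A) := by
    by_contra hne
    rw [not_nonempty_iff] at hne
    exact h5 (Nat.card_of_isEmpty)
  obtain ⟨⟨⟨x, hx⟩, hfix⟩⟩ := h6
  have h7 : (x : G) ∈ Subgroup.centralizer (P : Set G) := by
    rw [Subgroup.mem_centralizer_iff]
    intro u hu
    have h8 := hfix ⟨u, hu⟩
    have h9 : u * (x : G) * u⁻¹ = x := congrArg (fun z : A => ((z.1 : C) : G)) h8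
    exact mul_inv_eq_iff_eq_mul.mp h9
  have h8 := hker x h7
  rw [hf, hx] at h8
  exact h8

end Cfsg.Agent.S0873
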