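import Cfsg.Statements.S0880
import Cfsg.Agent.Lib.ZassOdd2

set_option autoImplicit false
open Cfsg

namespace Cfsg.Agent.S0880

/-- Let G be a finite simple Zassenhaus group on Ω with n points whose two-point stabilizer E has odd order less than n - 2. Then there are two elements of G, each fixing no point of Ω, that are not conjugate. -/
theorem result {G Ω : Type*} [Group G] [Finite G] [MulAction G Ω] [Fintype Ω] (hZ : Cfsg.IsZassenhausGroup G Ω) {a b : Ω} (hab : a ≠ b) [IsSimpleGroup G] (hodd : Odd (Nat.card ↥(MulAction.stabilizer G a ⊓ MulAction.stabilizer G b : Subgroup G))) (hlt : Nat.card ↥(MulAction.stabilizer G a ⊓ MulAction.stabilizer G b : Subgroup G) < Fintype.card Ω - 2) : ∃ x y : G, (∀ c : Ω, x • c ≠ c) ∧ (∀ c : Ω, y • c ≠ c) ∧ ¬ IsConj x y := by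
  exact Lib.ZassOdd.exists_not_isConj hZ hab hodd

end Cfsg.Agent.S0880
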