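import Cfsg.Statements.S0891
import Cfsg.Agent.Lib.H15Spin2

set_option autoImplicit false
open Cfsg

namespace Cfsg.Agent.S0891

open Cfsg.Agent.Lib.H15Spin

/-- For every n ≥ 4 there are a finite group Γ and a central element z of Γ of order 2 lying in the commutator subgroup of Γ such that the quotient of Γ by the (normal) subgroup generated by z is isomorphic to the alternating group on n letters. -/
theorem result (n : ℕ) (hn : 4 ≤ n) : ∃ (Γ : Type) (_ : Group Γ) (_ : Finite Γ) (z : Γ) (hz : z ∈ Subgroup.center Γ), orderOf z = 2 ∧ z ∈ commutator Γ ∧ ∃ _ : (Subgroup.zpowers z).Normal, Nonempty (Γ ⧸ Subgroup.zpowers z ≃* alternatingGroup (Fin n)) := by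
  classical
  have h2 : (2 : ZMod 3) = -1 := by decide
  have hF : ∀ a : ZMod 3, a = 0 ∨ a = 1 ∨ a = -1 := by decide
  have hfact : Fact (Nat.Prime 3) := ⟨Nat.prime_three⟩
  let z : Ga (ZMod 3) n := zz (ZMod 3) n
  have hz : z ∈ Subgroup.center (Ga (ZMod 3) n) := by
    rw [Subgroup.mem_center_iff]
    intro g
    exact (zz_central g).symm
  have hker : Subgroup.zpowers z = (pa (ZMod 3) n).ker := by
    apply le_antisymm
    · rw [Subgroup.zpowers_le]
      rfl
    · intro x hx
      rcases ker_pa h2 hF x hx with h | h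
      · rw [h]; exact Subgroup.one_mem _
      · rw [h]; exact Subgroup.mem_zpowers z
  have hnorm : (Subgroup.zpowers z).Normal := by rw [hker]; infer_instance
  refine ⟨Ga (ZMod 3) n, inferInstance, inferInstance, z, hz, ?_, zz_comm h2 hn, hnorm, ?_⟩
  · apply orderOf_eq_prime
    · rw [pow_two]; exact zz_sq
    · exact zz_ne h2
  · exact ⟨(QuotientGroup.quotientMulEquivOfEq hker).trans
      (QuotientGroup.quotientKerEquivOfSurjective (pa (ZMod 3) n) (pa_surj h2))⟩

end Cfsg.Agent.S0891
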