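import Cfsg.Statements.S0892
import Cfsg.Agent.Lib.H15AltMult3

set_option autoImplicit false
open Cfsg

namespace Cfsg.Agent.S0892

/-- Let n ≥ 4 with n ≠ 6 and n ≠ 7, and let Γ be a finite group with a subgroup Z contained in both the centre and the commutator subgroup of Γ such that Γ / Z is isomorphic to the alternating group on n letters. Then Z has order at most 2. -/
theorem result (n : ℕ) (hn : 4 ≤ n) (h6 : n ≠ 6) (h7 : n ≠ 7) {Γ : Type*} [Group Γ] [Finite Γ] (Z : Subgroup Γ) [Z.Normal] (hZc : Z ≤ Subgroup.center Γ) (hZd : Z ≤ commutator Γ) (e : Γ ⧸ Z ≃* alternatingGroup (Fin n)) : Nat.card Z ≤ 2 := by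
  have h := (Cfsg.Agent.Lib.H15AltMult.stemDvd_alternating hn h6 h7).congr
    (MulEquiv.ulift.symm : alternatingGroup (Fin n) ≃* ULift.{u_1} (alternatingGroup (Fin n)))
  let f : Γ ⧸ Z ≃* ULift.{u_1} (alternatingGroup (Fin n)) := e.trans MulEquiv.ulift.symm
  let σ : Γ →* ULift.{u_1} (alternatingGroup (Fin n)) := f.toMonoidHom.comp (QuotientGroup.mk' Z)
  have hker : σ.ker = Z := by
    ext x
    rw [MonoidHom.mem_ker]
    show f (QuotientGroup.mk' Z x) = 1 ↔ x ∈ Z
    rw [map_eq_one_iff f f.injective]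
    exact QuotientGroup.eq_one_iff x
  have hstem : Cfsg.IsStemExtension σ := by
    refine ⟨f.surjective.comp (QuotientGroup.mk'_surjective Z), ?_, ?_⟩
    · rw [hker]; exact hZc
    · rw [hker]; exact hZd
  have h1 := h Γ σ hstem
  rw [hker] at h1
  exact Nat.le_of_dvd (by norm_num) h1

end Cfsg.Agent.S0892
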