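import Cfsg.Statements.S0896
import Cfsg.Agent.Lib.ElemRestr

set_option autoImplicit false
open scoped ComplexConjugate
open Cfsg

namespace Cfsg.Agent.S0896

/-- Let N be a normal subgroup of the finite group G with the index of N a power of the prime p, and ϑ an irreducible character of N invariant under conjugation by G. Then there are a p-elementary subgroup E of G with E ⊔ N = ⊤ and an irreducible character φ of the subgroup E ⊓ N, invariant under conjugation by E, such that the inner product of the restriction of ϑ to E ⊓ N with φ is an integer not divisible by p. -/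
theorem result {G : Type*} [Group G] [Fintype G] (p : ℕ) (hp : p.Prime) (N : Subgroup G) [hN : N.Normal] (hind : ∃ k : ℕ, N.index = p ^ k) (ϑ : N → ℂ) (hϑ : Cfsg.IsIrrCharacter N ϑ) (hinv : ∀ (g : G) (n : N), ϑ ⟨g * n * g⁻¹, hN.conj_mem (n : G) n.2 g⟩ = ϑ n) : ∃ (E : Subgroup G) (φ : ↥(E ⊓ N) → ℂ), Cfsg.IsElementary p E ∧ E ⊔ N = ⊤ ∧ Cfsg.IsIrrCharacter ↥(E ⊓ N) φ ∧ (∀ (g : G) (hg : g ∈ E) (x : ↥(E ⊓ N)), φ ⟨g * x * g⁻¹, ⟨(E.mul_mem (E.mul_mem hg x.2.1) (E.inv_mem hg)), hN.conj_mem (x : G) x.2.2 g⟩⟩ = φ x) ∧ ∃ m : ℕ, ¬ p ∣ m ∧ (Nat.card ↥(E ⊓ N) : ℂ)⁻¹ * ∑ᶠ x : ↥(E ⊓ N), ϑ ⟨(x : G), x.2.2⟩ * conj (φ x) = (m : ℂ) := by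
  obtain ⟨E, φ, hE, hEN, hφ, hfin, m, hm, hφm⟩ :=
    Cfsg.Agent.Lib.ElemRestr.main hp N hind ϑ hϑ hinv
  refine ⟨E, φ, hE, hEN, φ.2, ?_, m, hm, ?_⟩
  · intro g hg x
    have h1 := hφ (⟨g, hg⟩ : E)⁻¹
    have h2 := congrFun (congrArg Subtype.val h1) x
    rw [Cfsg.Agent.Lib.ElemRestr.smul_apply, inv_inv] at h2
    exact h2
  · rw [finsum_eq_sum_of_fintype]
    exact hφm

end Cfsg.Agent.S0896
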