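import Cfsg.Statements.S0900
import Cfsg.Agent.Lib.CliffordCorr

set_option autoImplicit false
open Cfsg

namespace Cfsg.Agent.S0900

/-- Let N be a normal subgroup of the finite group G, χ an irreducible character of G and ϑ an irreducible character of N having nonzero inner product with the restriction of χ. Consider: (a) the restriction of χ to N is e • ϑ for a natural number e with e ^ 2 equal to the index of N; (b) χ vanishes outside N and ϑ is invariant under conjugation by G; (c) ϑ is invariant and every irreducible character of G having nonzero inner product with the function induced from ϑ equals χ. Then (a) ↔ (b) and (a) ↔ (c). -/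
theorem result {G : Type*} [Group G] [Fintype G] (N : Subgroup G) [hN : N.Normal] [Fintype N] (χ : G → ℂ) (hχ : Cfsg.IsIrrCharacter G χ) (ϑ : N → ℂ) (hϑ : Cfsg.IsIrrCharacter N ϑ) (hcon : Cfsg.classInner (fun n : N => χ n) ϑ ≠ 0) : ((∃ e : ℕ, (fun n : N => χ n) = (e : ℂ) • ϑ ∧ e ^ 2 = N.index) ↔ ((∀ g : G, g ∉ N → χ g = 0) ∧ ∀ (g : G) (n : N), ϑ ⟨g * n * g⁻¹, hN.conj_mem (n : G) n.2 g⟩ = ϑ n)) ∧ ((∃ e : ℕ, (fun n : N => χ n) = (e : ℂ) • ϑ ∧ e ^ 2 = N.index) ↔ (∀ (g : G) (n : N), ϑ ⟨g * n * g⁻¹, hN.conj_mem (n : G) n.2 g⟩ = ϑ n ∧ ∀ ψ : G → ℂ, Cfsg.IsIrrCharacter G ψ → Cfsg.classInner (Cfsg.indFun N ϑ) ψ ≠ 0 → ψ = χ)) := by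
  have h := Cfsg.Agent.Lib.CliffordCorr.fully_ramified_iff hχ hϑ hcon
  have hinv : (∀ g : G, Cfsg.Agent.Lib.Clifford.cj N g ϑ = ϑ) ↔
      ∀ (g : G) (n : N), ϑ ⟨g * n * g⁻¹, hN.conj_mem (n : G) n.2 g⟩ = ϑ n :=
    ⟨fun h g n => congrFun (h g) n, fun h g => funext (h g)⟩
  rw [hinv] at h
  refine ⟨h.1, h.2.trans ⟨fun h2 g n => ⟨h2.1 g n, h2.2⟩, fun h2 => ⟨fun g n => (h2 g n).1, (h2 1 1).2⟩⟩⟩

end Cfsg.Agent.S0900
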