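import Cfsg.Statements.S0901
import Mathlib
import Cfsg.Agent.Lib.BlockRing

set_option autoImplicit false
set_option linter.all false
open Cfsg

namespace Cfsg.Agent.S0901
open Cfsg.Agent.Lib Cfsg.Agent.Lib.BlockRing
theorem exists_pow_eq_one {p : ℕ} {M : Ideal AlgInt} (hM : IsPModular p M) (a : AlgInt) (ha : a ∉ M) :
    ∃ m : ℕ, ¬ p ∣ m ∧ a ^ m - 1 ∈ M := by
  haveI := hM.2.1
  haveI : Fact p.Prime := ⟨hM.1⟩
  letI : Field (AlgInt ⧸ M) := Ideal.Quotient.field M
  haveI := charP hM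
  letI : Algebra (ZMod p) (AlgInt ⧸ M) := ZMod.algebra _ p
  set b : AlgInt ⧸ M := Ideal.Quotient.mk M a with hb
  have hb0 : b ≠ 0 := fun h => ha (Ideal.Quotient.eq_zero_iff_mem.1 h)
  have h1 : IsIntegral ℤ a := by
    have h := a.2
    rw [mem_integralClosure_iff] at h
    exact (isIntegral_algebraMap_iff (A := AlgInt) (B := ℂ) Subtype.val_injective).1 h
  have h2 : IsIntegral ℤ b := h1.map (Ideal.Quotient.mk M).toIntAlgHom
  have h3 : IsIntegral (ZMod p) b := h2.tower_top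
  haveI : FiniteDimensional (ZMod p) (IntermediateField.adjoin (ZMod p) {b}) :=
    IntermediateField.adjoin.finiteDimensional h3
  haveI : Finite (IntermediateField.adjoin (ZMod p) {b}) := Module.finite_of_finite (ZMod p)
  haveI := Fintype.ofFinite (IntermediateField.adjoin (ZMod p) {b})
  let c : IntermediateField.adjoin (ZMod p) {b} := ⟨b, IntermediateField.mem_adjoin_simple_self _ b⟩
  have hc0 : c ≠ 0 := fun h => hb0 (congrArg Subtype.val h)
  have h4 := FiniteField.pow_card_sub_one_eq_one c hc0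
  have hcard := FiniteField.card (IntermediateField.adjoin (ZMod p) {b}) p
  obtain ⟨n, -, hn⟩ := hcard
  refine ⟨Fintype.card (IntermediateField.adjoin (ZMod p) {b}) - 1, ?_, ?_⟩
  · rw [hn]
    intro h
    have h5 : p ∣ p ^ (n : ℕ) := dvd_pow_self p n.ne_zero
    have h6 : 1 ≤ p ^ (n : ℕ) := Nat.one_le_pow _ _ hM.1.pos
    have h7 := (Nat.dvd_sub h5 h)
    rw [Nat.sub_sub_self h6] at h7
    exact hM.1.one_lt.not_ge (Nat.le_of_dvd one_pos h7)
  · rw [← Ideal.Quotient.eq_zero_iff_mem, map_sub, map_pow, map_one, sub_eq_zero]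
    have h8 := congrArg Subtype.val h4
    simpa using h8

/-- Let M be a maximal ideal of the ring of algebraic integers containing the prime p, and let U be the set of complex roots of unity of order prime to p. Then reduction modulo M is injective on U, and every algebraic integer not in M is congruent modulo M to an element of U (so U maps bijectively onto the nonzero residues). -/
theorem result (p : ℕ) [Fact p.Prime] (M : Ideal Cfsg.AlgInt) (hM : Cfsg.IsPModular p M) : (∀ ε₁ ε₂ : Cfsg.AlgInt, (∃ m : ℕ, ¬ p ∣ m ∧ (ε₁ : ℂ) ^ m = 1) → (∃ m : ℕ, ¬ p ∣ m ∧ (ε₂ : ℂ) ^ m = 1) → ε₁ - ε₂ ∈ M → ε₁ = ε₂) ∧ (∀ a : Cfsg.AlgInt, a ∉ M → ∃ ε : Cfsg.AlgInt, (∃ m : ℕ, ¬ p ∣ m ∧ (ε : ℂ) ^ m = 1) ∧ a - ε ∈ M) := by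
  haveI := isPrime hM
  constructor
  · rintro ε₁ ε₂ ⟨m₁, hm₁, h₁⟩ ⟨m₂, hm₂, h₂⟩ hmem
    have h₁' : ε₁ ^ m₁ = 1 := Subtype.ext (by simpa using h₁)
    have h₂' : ε₂ ^ m₂ = 1 := Subtype.ext (by simpa using h₂)
    set N := m₁ * m₂ with hN
    have hpN : ¬ p ∣ N := fun h => (hM.1.dvd_mul.1 h).elim hm₁ hm₂
    have hN0 : N ≠ 0 := fun h => hpN (h ▸ dvd_zero p)
    have e1 : ε₁ ^ N = 1 := by rw [hN, pow_mul, h₁', one_pow]
    have e2 : ε₂ ^ N = 1 := by rw [hN, mul_comm, pow_mul, h₂', one_pow]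
    have e3 : ε₂ * ε₂ ^ (N - 1) = 1 := by
      rw [← pow_succ', Nat.sub_add_cancel (Nat.one_le_iff_ne_zero.2 hN0), e2]
    set δ := ε₁ * ε₂ ^ (N - 1) with hδ
    have hδN : δ ^ N = 1 := by rw [hδ, mul_pow, e1, one_mul, ← pow_mul, mul_comm, pow_mul, e2, one_pow]
    have hδM : δ - 1 ∈ M := by
      have : δ - 1 = (ε₁ - ε₂) * ε₂ ^ (N - 1) := by rw [sub_mul, e3]
      rw [this]; exact M.mul_mem_right _ hmem
    have hδ1 : δ = 1 := by
      by_contra hne
      have hgeom : (∑ i ∈ Finset.range N, δ ^ i) * (δ - 1) = 0 := by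
        rw [geom_sum_mul, hδN, sub_self]
      have h0 : ∑ i ∈ Finset.range N, δ ^ i = 0 :=
        (mul_eq_zero.1 hgeom).resolve_right (sub_ne_zero.2 hne)
      have h3 : (N : AlgInt) ∈ M := by
        have h4 : ∑ i ∈ Finset.range N, (1 - δ ^ i) ∈ M := by
          refine M.sum_mem fun i _ => ?_
          have h5 : (1 : AlgInt) - δ ^ i = -((δ ^ i) - 1) := by ring
          rw [h5]
          refine M.neg_mem ?_
          exact M.mem_of_dvd (by simpa using sub_dvd_pow_sub_pow δ 1 i) hδM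
        rw [Finset.sum_sub_distrib, h0, sub_zero] at h4
        simpa using h4
      apply hpN
      rw [← idl_natCast_iff hM]
      have := idl_of_mem h3
      simpa using this
    calc ε₁ = ε₁ * (ε₂ * ε₂ ^ (N - 1)) := by rw [e3, mul_one]
      _ = ε₂ * δ := by rw [hδ]; ring
      _ = ε₂ := by rw [hδ1, mul_one]
  · intro a ha
    obtain ⟨m, hm, hmem⟩ := exists_pow_eq_one hM a ha
    have hm0 : m ≠ 0 := fun h => hm (h ▸ dvd_zero p)
    haveI : NeZero m := ⟨hm0⟩
    -- the m-th roots of unity in `ℂ`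
    let f : Polynomial ℂ := Polynomial.X ^ m - 1
    have hprod : (a : ℂ) ^ m - 1 = ∏ ζ ∈ Polynomial.nthRootsFinset m (1 : ℂ), ((a : ℂ) - ζ) := by
      have h1 := Polynomial.X_pow_sub_one_eq_prod (NeZero.pos m) (Complex.isPrimitiveRoot_exp m hm0)
      have h2 := congrArg (Polynomial.eval (a : ℂ)) h1
      simpa [Polynomial.eval_prod] using h2
    have hint : ∀ ζ ∈ Polynomial.nthRootsFinset m (1 : ℂ), IsIntegral ℤ ζ := by
      intro ζ hζ
      rw [Polynomial.mem_nthRootsFinset (NeZero.pos m)] at hζ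
      exact IsIntegral.of_pow (NeZero.pos m) (by rw [hζ]; exact isIntegral_one)
    let F : {ζ // ζ ∈ Polynomial.nthRootsFinset m (1 : ℂ)} → AlgInt := fun ζ => ⟨ζ.1, hint ζ.1 ζ.2⟩
    have hprod2 : a ^ m - 1 = ∏ ζ : {ζ // ζ ∈ Polynomial.nthRootsFinset m (1 : ℂ)}, (a - F ζ) := by
      apply Subtype.ext
      push_cast
      rw [hprod, ← Finset.prod_coe_sort]
    rw [hprod2] at hmem
    obtain ⟨ζ, -, hζ⟩ := (Ideal.IsPrime.prod_mem_iff (hp := isPrime hM)).1 hmem
    refine ⟨F ζ, ⟨m, hm, ?_⟩, hζ⟩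
    exact (Polynomial.mem_nthRootsFinset (NeZero.pos m) _).1 ζ.2

end Cfsg.Agent.S0901
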