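import Cfsg.Statements.S0903


set_option autoImplicit false
open Cfsg

namespace Cfsg.Agent.S0903

/-- Let P be a p-subgroup of the finite group G, let c centralize P and let g, h ∈ G. The number of pairs (x, y) with x conjugate to g, y conjugate to h and x * y = c is congruent modulo p to the number of such pairs in which x and y both centralize P. (This is why the Brauer map on class sums is multiplicative.) -/
theorem result {G : Type*} [Group G] [Finite G] (p : ℕ) [Fact p.Prime] (P : Subgroup G) (hP : IsPGroup p P) (c : G) (hc : c ∈ Subgroup.centralizer (P : Set G)) (g h : G) : Nat.card {xy : G × G // IsConj g xy.1 ∧ IsConj h xy.2 ∧ xy.1 * xy.2 = c} ≡ Nat.card {xy : G × G // IsConj g xy.1 ∧ IsConj h xy.2 ∧ xy.1 * xy.2 = c ∧ xy.1 ∈ Subgroup.centralizer (P : Set G) ∧ xy.2 ∈ Subgroup.centralizer (P : Set G)} [MOD p] := by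
  classical
  let A : Type _ := {xy : G × G // IsConj g xy.1 ∧ IsConj h xy.2 ∧ xy.1 * xy.2 = c}
  have hconj : ∀ (u : P) (a b : G), IsConj a b → IsConj a ((u : G) * b * (u : G)⁻¹) := by
    intro u a b hab
    exact hab.trans (isConj_iff.mpr ⟨u, rfl⟩)
  letI act : MulAction P A :=
    { smul := fun u xy => ⟨((u : G) * xy.1.1 * (u : G)⁻¹, (u : G) * xy.1.2 * (u : G)⁻¹),
        hconj u _ _ xy.2.1, hconj u _ _ xy.2.2.1, by
          have h1 := Subgroup.mem_centralizer_iff.mp hc u u.2
          have h2 := xy.2.2.2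
          calc (u : G) * xy.1.1 * (u : G)⁻¹ * ((u : G) * xy.1.2 * (u : G)⁻¹)
              = (u : G) * (xy.1.1 * xy.1.2) * (u : G)⁻¹ := by group
            _ = (u : G) * c * (u : G)⁻¹ := by rw [h2]
            _ = c := by rw [h1]; group⟩
      one_smul := by
        rintro ⟨⟨x, y⟩, hxy⟩
        apply Subtype.ext
        change (((1 : P) : G) * x * ((1 : P) : G)⁻¹, ((1 : P) : G) * y * ((1 : P) : G)⁻¹) = (x, y)
        simp
      mul_smul := by
        rintro u v ⟨⟨x, y⟩, hxy⟩
        apply Subtype.ext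
        change (((u * v : P) : G) * x * ((u * v : P) : G)⁻¹, ((u * v : P) : G) * y * ((u * v : P) : G)⁻¹) =
          ((u : G) * ((v : G) * x * (v : G)⁻¹) * (u : G)⁻¹,
            (u : G) * ((v : G) * y * (v : G)⁻¹) * (u : G)⁻¹)
        simp only [Subgroup.coe_mul, mul_inv_rev, mul_assoc] }
  have h1 := IsPGroup.card_modEq_card_fixedPoints (p := p) (G := P) hP A
  have h2 : Nat.card (MulAction.fixedPoints P A) = Nat.card {xy : G × G // IsConj g xy.1 ∧
      IsConj h xy.2 ∧ xy.1 * xy.2 = c ∧ xy.1 ∈ Subgroup.centralizer (P : Set G) ∧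
      xy.2 ∈ Subgroup.centralizer (P : Set G)} := by
    apply Nat.card_congr
    refine
      { toFun := fun a => ⟨a.1.1, a.1.2.1, a.1.2.2.1, a.1.2.2.2, ?_, ?_⟩
        invFun := fun b => ⟨⟨b.1, b.2.1, b.2.2.1, b.2.2.2.1⟩, ?_⟩
        left_inv := fun a => rfl
        right_inv := fun b => rfl }
    · rw [Subgroup.mem_centralizer_iff]
      intro u hu
      have h3 := a.2 ⟨u, hu⟩
      have h4 := congrArg (fun z : A => z.1.1) h3
      have h5 : u * a.1.1.1 * u⁻¹ = a.1.1.1 := h4
      exact mul_inv_eq_iff_eq_mul.mp h5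
    · rw [Subgroup.mem_centralizer_iff]
      intro u hu
      have h3 := a.2 ⟨u, hu⟩
      have h4 := congrArg (fun z : A => z.1.2) h3
      have h5 : u * a.1.1.2 * u⁻¹ = a.1.1.2 := h4
      exact mul_inv_eq_iff_eq_mul.mp h5
    · intro u
      apply Subtype.ext
      have h6 := Subgroup.mem_centralizer_iff.mp b.2.2.2.2.1 u u.2
      have h7 := Subgroup.mem_centralizer_iff.mp b.2.2.2.2.2 u u.2
      exact Prod.ext (mul_inv_eq_iff_eq_mul.mpr h6) (mul_inv_eq_iff_eq_mul.mpr h7)
  rw [← h2]
  exact h1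

end Cfsg.Agent.S0903
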