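import Cfsg.Statements.S0914
import Mathlib
import Cfsg.Agent.Lib.BlockDefect
import Cfsg.Agent.Lib.CharCentral

set_option autoImplicit false
open Cfsg

namespace Cfsg.Agent.S0914
open Cfsg.Agent.Lib Cfsg.Agent.Lib.BlockRing Cfsg.Agent.Lib.BlockGA Cfsg.Agent.Lib.BlockIdem Cfsg.Agent.Lib.BlockOsima Cfsg.Agent.Lib.BlockDefect
open scoped ComplexConjugate
theorem dvd_card {G : Type*} [Group G] [Finite G] (χ : IrrCharacter G) :
    charDegree (χ : G → ℂ) ∣ Nat.card G := by
  obtain ⟨n, ρ, hρ, h⟩ := χ.2
  have h1 := CharCentral.finrank_dvd_card (G := G) ρ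
  have h2 := (charDegree_spec χ.2).1
  rw [← h, Representation.char_one] at h2
  have h3 : Module.finrank ℂ (Fin n → ℂ) = charDegree (χ : G → ℂ) := by
    have : charDegree (χ : G → ℂ) = charDegree ρ.character := by rw [h]
    rw [this]
    exact_mod_cast h2
  rwa [h3] at h1

theorem coeff_singleton {G : Type*} [Group G] [Finite G] (χ : IrrCharacter G) (g : G) :
    blockCoeff {χ} g = (Nat.card G : ℂ)⁻¹ * ((χ : G → ℂ) 1 * conj ((χ : G → ℂ) g)) := by
  rw [blockCoeff, finsum_mem_singleton]

/-- Let χ be an irreducible character of the finite group G, p a prime and M a maximal ideal of the algebraic integers containing p. Then p does not divide the integer (Nat.card G) / χ(1) if and only if the block of χ relative to M consists of χ alone. -/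
theorem result {G : Type*} [Group G] [Finite G] (p : ℕ) [Fact p.Prime] (M : Ideal Cfsg.AlgInt) (hM : Cfsg.IsPModular p M) (χ : Cfsg.IrrCharacter G) : ¬ p ∣ Nat.card G / Cfsg.charDegree (χ : G → ℂ) ↔ Cfsg.blockOf M (χ : G → ℂ) = {χ} := by
  classical
  haveI := isPrime hM
  haveI : Fact p.Prime := ⟨hM.1⟩
  have := Fintype.ofFinite G
  have hd := dvd_card χ
  obtain ⟨h1, h0⟩ := charDegree_spec χ.2
  have hG : (Nat.card G : ℂ) ≠ 0 := by exact_mod_cast Nat.card_pos.ne'
  constructor
  · intro hp
    have hloc : ∀ g, MemLocalRing M (blockCoeff {χ} g) := by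
      intro g
      rw [coeff_singleton, ← mul_assoc]
      refine loc_mul ?_ (loc_conj_value χ.2.isCharacter g)
      have e : (Nat.card G : ℂ)⁻¹ * (χ : G → ℂ) 1 = ((Nat.card G / charDegree (χ : G → ℂ) : ℕ) : ℂ)⁻¹ := by
        rw [Nat.cast_div hd (by exact_mod_cast h0), h1, inv_div]
        field_simp
      rw [e]
      exact loc_inv_natCast hM hp
    apply Set.Subset.antisymm
    · intro ψ hψ
      by_contra hcon
      have h2 := sameBlock_omega χ.2.isClassFunction ψ.2.isClassFunction hψ (eB_mem_center {χ}) (fun g => hloc g)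
      rw [omega_eB_mem (Set.mem_singleton χ), omega_eB_not_mem hcon, sub_zero] at h2
      exact one_not_idl h2
    · rintro _ rfl
      exact mem_blockOf_self _
  · intro hB hp
    -- χ vanishes on p-singular elements
    have hvan : ∀ g : G, p ∣ orderOf g → (χ : G → ℂ) g = 0 := by
      intro g hg
      have h2 := blockCoeff_eq_zero hM (isPBlock_blockOf (M := M) χ) hg
      rw [hB, coeff_singleton] at h2
      have h3 := (mul_eq_zero.1 h2).resolve_left (inv_ne_zero hG)
      have h4 := (mul_eq_zero.1 h3).resolve_left χ.2.one_ne_zero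
      simpa using h4
    obtain ⟨P⟩ := (inferInstance : Nonempty (Sylow p G))
    have := Fintype.ofFinite (P : Subgroup G)
    obtain ⟨n, hn⟩ := (χ.2.isCharacter.restrict (P : Subgroup G)).classInner_nat
      (CharBasic.isCharacter_one (G := (P : Subgroup G)))
    have hsum : ∑ u : (P : Subgroup G), (χ : G → ℂ) (u : G) = (χ : G → ℂ) 1 := by
      rw [Finset.sum_eq_single 1]
      · simp
      · intro u _ hu
        apply hvan
        have h1 : (u : G) ≠ 1 := fun h => hu (Subtype.ext h)
        obtain ⟨k, hk⟩ := (IsPGroup.iff_orderOf.1 P.isPGroup') u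
        rw [← Subgroup.orderOf_coe] at hk
        rw [hk]
        apply dvd_pow_self
        rintro rfl
        rw [pow_zero, orderOf_eq_one_iff] at hk
        exact h1 hk
      · intro h; exact absurd (Finset.mem_univ _) h
    have h5 : (χ : G → ℂ) 1 = (Nat.card (P : Subgroup G) : ℂ) * n := by
      rw [← hn, classInner, mul_inv_cancel_left₀ (by exact_mod_cast Nat.card_pos.ne'), ← hsum]
      exact Finset.sum_congr rfl fun u _ => by simp
    rw [h1] at h5
    have h6 : charDegree (χ : G → ℂ) = Nat.card (P : Subgroup G) * n := by exact_mod_cast h5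
    rw [P.card_eq_multiplicity] at h6
    obtain ⟨m, hm⟩ := hd
    have h7 : Nat.card G / charDegree (χ : G → ℂ) = m := by
      rw [hm]; exact Nat.mul_div_cancel_left m (Nat.pos_of_ne_zero h0)
    rw [h7] at hp
    obtain ⟨k, rfl⟩ := hp
    have h8 : p ^ ((Nat.card G).factorization p + 1) ∣ Nat.card G := by
      refine ⟨n * k, ?_⟩
      conv_lhs => rw [hm]
      rw [h6]; ring
    exact Nat.pow_succ_factorization_not_dvd Nat.card_pos.ne' hM.1 h8

end Cfsg.Agent.S0914
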