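import Cfsg.Statements.S0915
import Cfsg.Agent.Lib.BlockNormP
import Cfsg.Agent.Lib.H32PSolv
import Cfsg.Agent.Lib.Cores

set_option autoImplicit false
open Cfsg

namespace Cfsg.Agent.S0915

open Cfsg Cfsg.Agent.Lib.BlockRing Cfsg.Agent.Lib.BlockGA Cfsg.Agent.Lib.BlockIdem
open Cfsg.Agent.Lib.CharBasic Cfsg.Agent.Lib.BlockNormP

/-- Let G be a finite p-solvable group with trivial largest normal subgroup of order prime to p. Then any two irreducible characters of G lie in the same block relative to every maximal ideal M of the algebraic integers containing p: G has a single p-block. -/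
theorem result {G : Type*} [Group G] [Finite G] (p : ℕ) [Fact p.Prime] (M : Ideal Cfsg.AlgInt) (hM : Cfsg.IsPModular p M) (hsolv : Cfsg.IsPSolvable p G) (hcore : Cfsg.pPrimeCore p G = ⊥) (χ ψ : Cfsg.IrrCharacter G) : Cfsg.SameBlock M (χ : G → ℂ) (ψ : G → ℂ) := by
  haveI := isPrime hM
  have hC := Cfsg.Agent.Lib.H32PSolv.centralizer_pCore_le hsolv hcore
  have hP := Cfsg.Agent.Lib.Cores.isPGroup_pCore p G
  have key : ∀ χ : IrrCharacter G, ∀ g ∈ Subgroup.centralizer (pCore p G : Set G),
      MemLocalIdeal M (centralChar (χ : G → ℂ) g - ((Subgroup.centralizer ({g} : Set G)).index : ℂ)) := by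
    intro χ g hg
    obtain ⟨χ', hχ', h1⟩ := exists_trivial hM hP (unionOfBlocks_of_isPBlock (isPBlock_blockOf (M := M) χ))
      ⟨χ, mem_blockOf_self χ⟩
    have h2 : MemLocalIdeal M (centralChar (χ : G → ℂ) g - centralChar (χ' : G → ℂ) g) := mem_blockOf.1 hχ' g
    have h3 : centralChar (χ' : G → ℂ) g = ((Subgroup.centralizer ({g} : Set G)).index : ℂ) := by
      rw [centralChar, h1 g (hC hg), mul_div_assoc, div_self χ'.2.one_ne_zero, mul_one]
    rwa [h3] at h2
  intro g
  by_cases hg : g ∈ Subgroup.centralizer (pCore p G : Set G)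
  · exact idl_sub_trans (key χ g hg) (idl_sub_symm (key ψ g hg))
  · exact idl_sub (idl_centralChar_of_not_mem hM hP χ hg) (idl_centralChar_of_not_mem hM hP ψ hg)

end Cfsg.Agent.S0915
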