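import Cfsg.Statements.S0916
import Cfsg.Agent.Lib.SylIn

set_option autoImplicit false
open Cfsg

namespace Cfsg.Agent.S0916

open Cfsg.Agent.Lib.SylIn

/-- Let P be a p-subgroup of the finite group G, C its centralizer and N its normalizer. Say that a conjugacy class (of G, or of N) has defect group P when P is a Sylow p-subgroup of the centralizer (in G, respectively in N) of some element of the class. Then: (i) if the class of g in G has defect group P, the elements of that class lying in C form a single N-class, again with defect group P; (ii) every N-class with defect group P arises this way from exactly one G-class with defect group P. -/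
theorem result {G : Type*} [Group G] [Finite G] (p : ℕ) [Fact p.Prime] (P : Subgroup G) (hP : IsPGroup p P) : (∀ g : G, (∃ S : Sylow p (Subgroup.centralizer ({g} : Set G)), (S : Subgroup (Subgroup.centralizer ({g} : Set G))).map (Subgroup.centralizer ({g} : Set G)).subtype = P) → (∃ c : G, IsConj g c ∧ c ∈ Subgroup.centralizer (P : Set G)) ∧ (∀ c₁ c₂ : G, IsConj g c₁ → IsConj g c₂ → c₁ ∈ Subgroup.centralizer (P : Set G) → c₂ ∈ Subgroup.centralizer (P : Set G) → ∃ n ∈ Subgroup.normalizer (P : Set G), n * c₁ * n⁻¹ = c₂)) ∧ (∀ c : G, c ∈ Subgroup.centralizer (P : Set G) → (∃ S : Sylow p (Subgroup.centralizer ({c} : Set G) ⊓ Subgroup.normalizer (P : Set G) : Subgroup G), (S : Subgroup ↥(Subgroup.centralizer ({c} : Set G) ⊓ Subgroup.normalizer (P : Set G))).map (Subgroup.centralizer ({c} : Set G) ⊓ Subgroup.normalizer (P : Set G)).subtype = P) → ∃ S : Sylow p (Subgroup.centralizer ({c} : Set G)), (S : Subgroup (Subgroup.centralizer ({c} : Set G))).map (Subgroup.centralizer ({c} : Set G)).subtype = P) := by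
  constructor
  · intro g hg
    have hg' : SylIn p P (Subgroup.centralizer ({g} : Set G)) := hg
    refine ⟨⟨g, IsConj.refl g, ?_⟩, ?_⟩
    · rw [Subgroup.mem_centralizer_iff]
      intro x hx
      exact Subgroup.mem_centralizer_singleton_iff.1 (hg'.le hx)
    · intro c₁ c₂ h1 h2 hc1 hc2
      obtain ⟨a, ha⟩ := isConj_iff.1 h1
      obtain ⟨b, hb⟩ := isConj_iff.1 (h1.symm.trans h2)
      have key : ∀ c : G, IsConj g c → c ∈ Subgroup.centralizer (P : Set G) →
          SylIn p P (Subgroup.centralizer ({c} : Set G)) := by
        intro c hc hcP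
        obtain ⟨d, hd⟩ := isConj_iff.1 hc
        refine sylIn_of_card ?_ ?_
        · intro x hx
          rw [Subgroup.mem_centralizer_singleton_iff]
          exact Subgroup.mem_centralizer_iff.1 hcP x hx
        · rw [hg'.card_eq, ← hd, ← map_conj_centralizer, card_map_conj]
      have k1 := key c₁ h1 hc1
      have k2 := key c₂ h2 hc2
      have k3 := k1.conj b
      rw [map_conj_centralizer, hb] at k3
      obtain ⟨y, hy, hyP⟩ := k3.exists_conj k2
      refine ⟨y * b, ?_, ?_⟩
      · rw [← map_conj_eq_iff_mem_normalizer, map_conj_mul, hyP]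
      · rw [Subgroup.mem_centralizer_singleton_iff] at hy
        calc y * b * c₁ * (y * b)⁻¹ = y * (b * c₁ * b⁻¹) * y⁻¹ := by group
          _ = c₂ := by rw [hb, hy]; group
  · intro c hc hS
    have hS' : SylIn p P (Subgroup.centralizer ({c} : Set G) ⊓ Subgroup.normalizer (P : Set G)) := hS
    change SylIn p P (Subgroup.centralizer ({c} : Set G))
    have hPc : P ≤ Subgroup.centralizer ({c} : Set G) := by
      intro x hx
      rw [Subgroup.mem_centralizer_singleton_iff]
      exact Subgroup.mem_centralizer_iff.1 hc x hx
    rw [sylIn_iff]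
    refine ⟨hPc, hP, fun Q hQ hQp hPQ => ?_⟩
    by_contra hne
    have hlt : P < Q := lt_of_le_of_ne hPQ (Ne.symm hne)
    -- `P` is a proper subgroup of the `p`-group `Q`, so it is properly contained in its normalizer in `Q`
    have := hQp.isNilpotent
    have hnc : NormalizerCondition Q := Group.normalizerCondition_of_isNilpotent
    have hlt' : P.subgroupOf Q < ⊤ := by
      rw [lt_top_iff_ne_top]
      intro h
      exact hlt.not_ge (Subgroup.subgroupOf_eq_top.1 h)
    obtain ⟨x, hx1, hx2⟩ := SetLike.exists_of_lt (hnc _ hlt')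
    have h5 : (x : G) ∈ Subgroup.normalizer (P : Set G) := by
      rw [Subgroup.mem_normalizer_iff] at hx1 ⊢
      intro y
      constructor
      · intro hy
        have := (hx1 ⟨y, hPQ hy⟩).1 (by rw [Subgroup.mem_subgroupOf]; exact hy)
        rw [Subgroup.mem_subgroupOf] at this
        exact this
      · intro hy
        have hyQ : y ∈ Q := by
          have h6 := Q.mul_mem (Q.mul_mem (Q.inv_mem x.2) (hPQ hy)) x.2
          simpa [mul_assoc] using h6
        have := (hx1 ⟨y, hyQ⟩).2 (by rw [Subgroup.mem_subgroupOf]; exact hy)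
        rw [Subgroup.mem_subgroupOf] at this
        exact this
    have h6 : P < Q ⊓ Subgroup.normalizer (P : Set G) := by
      refine lt_of_le_of_ne (le_inf hPQ Subgroup.le_normalizer) ?_
      intro h
      apply hx2
      rw [Subgroup.mem_subgroupOf]
      have : (x : G) ∈ Q ⊓ Subgroup.normalizer (P : Set G) := ⟨x.2, h5⟩
      rwa [← h] at this
    have h7 := hS'.eq_of_le (Q := Q ⊓ Subgroup.normalizer (P : Set G))
      (inf_le_inf_right _ hQ) (hQp.to_le inf_le_left) h6.le
    exact h6.ne h7.symm

end Cfsg.Agent.S0916
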