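import Cfsg.Statements.S0920
import Cfsg.Agent.Lib.BlockFirst

set_option autoImplicit false
open Cfsg

namespace Cfsg.Agent.S0920

open Cfsg Cfsg.Agent.Lib.BlockRing Cfsg.Agent.Lib.BlockGA Cfsg.Agent.Lib.BlockIdem Cfsg.Agent.Lib.BlockHom
open Cfsg.Agent.Lib.BlockRes (resH coeff_resH brH)
open Cfsg.Agent.Lib.CharBasic Cfsg.Agent.Lib.BlockNormP Cfsg.Agent.Lib.BlockDefect Cfsg.Agent.Lib.BlockFirst

/-- Brauer's First Main Theorem. Let D be a p-subgroup of the finite group G with normalizer N, and fix a maximal ideal M of the algebraic integers containing p. Then (i) every block b of N having D as a defect group induces some block B of G having D as a defect group; (ii) every block of G with defect group D is induced by exactly one block of N with defect group D. -/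
theorem result {G : Type*} [Group G] [Finite G] (p : ℕ) [Fact p.Prime] (M : Ideal Cfsg.AlgInt) (hM : Cfsg.IsPModular p M) (D : Subgroup G) (hD : IsPGroup p D) : (∀ b : Set (Cfsg.IrrCharacter (Subgroup.normalizer (D : Set G))), Cfsg.IsPBlock M b → Cfsg.IsDefectGroup p M b (D.subgroupOf (Subgroup.normalizer (D : Set G))) → ∃ B : Set (Cfsg.IrrCharacter G), Cfsg.IsPBlock M B ∧ Cfsg.IsDefectGroup p M B D ∧ Cfsg.IsInducedBlock M (Subgroup.normalizer (D : Set G)) b B) ∧ (∀ B : Set (Cfsg.IrrCharacter G), Cfsg.IsPBlock M B → Cfsg.IsDefectGroup p M B D → ∃! b : Set (Cfsg.IrrCharacter (Subgroup.normalizer (D : Set G))), Cfsg.IsPBlock M b ∧ Cfsg.IsDefectGroup p M b (D.subgroupOf (Subgroup.normalizer (D : Set G))) ∧ Cfsg.IsInducedBlock M (Subgroup.normalizer (D : Set G)) b B) := by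
  have hDN : D ≤ Subgroup.normalizer (D : Set G) := Subgroup.le_normalizer
  have hCN : Subgroup.centralizer (D : Set G) ≤ Subgroup.normalizer (D : Set G) :=
    Subgroup.centralizer_le_normalizer _
  constructor
  · intro b hb hbD
    obtain ⟨B, hB⟩ := inducedBlockDefined hM hD hDN hCN le_rfl hb
    exact ⟨B, hB.2.1, first_main_defect hM hD hB hbD, hB⟩
  · intro B hB hBD
    have hc : ∃ c ∈ Subgroup.centralizer (D : Set G), ¬ MemLocalIdeal M (blockCoeff B c) := by
      obtain ⟨g, hg, hgD⟩ := isDefectGroup_iff.1 hBD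
      refine ⟨g, ?_, hg.2.1⟩
      rw [Subgroup.mem_centralizer_iff]
      intro d hd
      exact Subgroup.mem_centralizer_singleton_iff.1 (sylIn_le hgD hd)
    obtain ⟨c, hc, hc'⟩ := hc
    obtain ⟨b, hb⟩ := exists_inducing_block hM hD hDN hCN le_rfl hB hc hc'
    refine ⟨b, ⟨hb.1, defectGroup_of_induced hM hDN le_rfl hb hBD, hb⟩, ?_⟩
    rintro b' ⟨_, hb'D, hb'⟩
    exact first_main_unique hM hD hb' hb'D hb (defectGroup_of_induced hM hDN le_rfl hb hBD)

end Cfsg.Agent.S0920
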