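import Cfsg.Statements.S0923
import Cfsg.Agent.Lib.BlockSecond2

set_option autoImplicit false
open Cfsg

namespace Cfsg.Agent.S0923

open Cfsg.Agent.Lib.BlockGA Cfsg.Agent.Lib.BlockSecond

/-- Brauer's Second Main Theorem, in terms of ordinary characters. Let x be a p-element of the finite group G with centralizer C, let χ lie in the block B of G and let b be a block of C that does not induce B (relative to a maximal ideal M of the algebraic integers containing p). Form the class function ϑ(c) = χ(x c) on C and its b-part (the sum over ψ ∈ b of the inner product of ϑ with ψ, times ψ). Then the b-part of ϑ vanishes at every p-regular element of C. (Equivalently, the generalized decomposition numbers of χ with respect to b are zero.) -/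
theorem result {G : Type*} [Group G] [Finite G] (p : ℕ) [Fact p.Prime] (M : Ideal Cfsg.AlgInt) (hM : Cfsg.IsPModular p M) (x : G) (hx : ∃ k : ℕ, orderOf x = p ^ k) (B : Set (Cfsg.IrrCharacter G)) (hB : Cfsg.IsPBlock M B) (χ : Cfsg.IrrCharacter G) (hχ : χ ∈ B) (b : Set (Cfsg.IrrCharacter (Subgroup.centralizer ({x} : Set G)))) (hb : Cfsg.IsPBlock M b) (hnot : ¬ Cfsg.IsInducedBlock M (Subgroup.centralizer ({x} : Set G)) b B) (y : Subgroup.centralizer ({x} : Set G)) (hy : ¬ p ∣ orderOf y) : Cfsg.blockPart b (fun c : Subgroup.centralizer ({x} : Set G) => (χ : G → ℂ) (x * (c : G))) y = 0 := by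
  obtain ⟨k, hx⟩ := hx
  have hmem : ∀ g, g ∈ Subgroup.centralizer ({x} : Set G) ↔ Commute x g := by
    intro g
    rw [Subgroup.mem_centralizer_singleton_iff]
    exact ⟨fun h => h.symm, fun h => h.symm⟩
  rw [blockPart_section χ.2.isClassFunction (fun g hg => (hmem g).1 hg)]
  exact second_main hM hx (by rwa [Subgroup.orderOf_coe]) ((hmem _).1 y.2) hmem hb hB hnot hχ

end Cfsg.Agent.S0923
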