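import Cfsg.Statements.S0924
import Cfsg.Agent.Lib.BlockSecond2
import Cfsg.Agent.Lib.BlockDefect

set_option autoImplicit false
open Cfsg

namespace Cfsg.Agent.S0924

/-- Let χ be an irreducible character of the finite group G and g ∈ G, and fix a maximal ideal M of the algebraic integers containing the prime p. If the p-part of g is contained in no defect group of the block of χ, then χ g = 0. -/
theorem result {G : Type*} [Group G] [Finite G] (p : ℕ) [Fact p.Prime] (M : Ideal Cfsg.AlgInt) (hM : Cfsg.IsPModular p M) (χ : Cfsg.IrrCharacter G) (g x : G) (hx : Cfsg.IsPPart p g x) (hD : ∀ D : Subgroup G, Cfsg.IsDefectGroup p M (Cfsg.blockOf M (χ : G → ℂ)) D → x ∉ D) : (χ : G → ℂ) g = 0 := by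
  open Lib.BlockRing Lib.BlockGA Lib.BlockIdem Lib.BlockDefect Lib.BlockSecond in
  have hMp := isPrime hM
  obtain ⟨y, hy1, hy2, ⟨k, hk⟩, hy3⟩ := hx
  set B := blockOf M (χ : G → ℂ) with hB
  have hBb : IsPBlock M B := isPBlock_blockOf χ
  have hu : x ^ p ^ k = 1 := by rw [← hk]; exact pow_orderOf_eq_one x
  have hJ : InJ M x (eB B) := by
    intro c hc
    by_contra hcon
    obtain ⟨D, hD0⟩ := exists_defectGroup hM hBb
    have h1 := minmax_coeff hM hBb hD0 hcon
    have h2 : Subgroup.zpowers x ≤ Subgroup.centralizer ({c} : Set G) := by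
      rw [Subgroup.zpowers_le, Subgroup.mem_centralizer_singleton_iff]
      exact hc.eq
    have h3 : IsPGroup p (Subgroup.zpowers x) := by
      apply IsPGroup.of_card (n := k)
      rw [Nat.card_zpowers, hk]
    obtain ⟨a, ha⟩ := defLE_le h1 h2 h3
    exact hD _ (defectGroup_map_conj hD0 a) (ha (Subgroup.mem_zpowers x))
  have hc := eB_mem_center B
  have key := lin_eq_zero hM hu (pow_orderOf_eq_one y) hy3 hy2 (inF_of_center (locA_eB hBb) hc)
    (eB_mul_self B) (center_comm hc _) hJ χ.2.isClassFunction
  rw [← center_comm hc, lin_mul χ.2 hc, omega_eB_mem (mem_blockOf_self χ), one_mul, lin_single,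
    one_mul, hy1] at key
  exact key

end Cfsg.Agent.S0924
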