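import Cfsg.Statements.S0926
import Cfsg.Agent.Lib.BlockVal
import Cfsg.Agent.S0924

set_option autoImplicit false
open Cfsg

namespace Cfsg.Agent.S0926

open Cfsg Cfsg.Agent.Lib.BlockRing Cfsg.Agent.Lib.BlockGA Cfsg.Agent.Lib.BlockIdem Cfsg.Agent.Lib.BlockHom
open Cfsg.Agent.Lib.BlockRes (resH coeff_resH brH)
open Cfsg.Agent.Lib.CharBasic Cfsg.Agent.Lib.BlockNormP Cfsg.Agent.Lib.BlockDefect Cfsg.Agent.Lib.BlockFirst
open Cfsg.Agent.Lib.BlockVal

/-- Let B be a block of the finite group G with defect group D (relative to a maximal ideal M of the algebraic integers containing p), let χ ∈ B have height zero, and let x be a p-element. Then some conjugate of x lies in D if and only if χ does not vanish on the whole p-section of x (the elements whose p-part is conjugate to x). -/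
theorem result {G : Type*} [Group G] [Finite G] (p : ℕ) [Fact p.Prime] (M : Ideal Cfsg.AlgInt) (hM : Cfsg.IsPModular p M) (B : Set (Cfsg.IrrCharacter G)) (hB : Cfsg.IsPBlock M B) (D : Subgroup G) (hD : Cfsg.IsDefectGroup p M B D) (χ : Cfsg.IrrCharacter G) (hχ : χ ∈ B) (h0 : Cfsg.blockHeight p B (χ : G → ℂ) = 0) (x : G) (hx : ∃ k : ℕ, orderOf x = p ^ k) : (∃ g : G, g * x * g⁻¹ ∈ D) ↔ ∃ u : G, (∃ z : G, Cfsg.IsPPart p u z ∧ IsConj x z) ∧ (χ : G → ℂ) u ≠ 0 := by
  haveI := isPrime hM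
  obtain ⟨k, hk⟩ := hx
  constructor
  · rintro ⟨g, hg⟩
    obtain ⟨y, hy, hyD⟩ := isDefectGroup_iff.1 hD
    have ho : orderOf (g * x * g⁻¹) = p ^ k := by
      rw [show orderOf (g * x * g⁻¹) = orderOf x from MulEquiv.orderOf_eq (MulAut.conj g) x]; exact hk
    have hc : Commute (g * x * g⁻¹) y := Subgroup.mem_centralizer_singleton_iff.1 (sylIn_le hyD hg)
    refine ⟨g * x * g⁻¹ * y, ⟨g * x * g⁻¹, ⟨y, rfl, hc, ⟨k, ho⟩, defectClass_regular hM hB hy⟩,
      isConj_iff.2 ⟨g, rfl⟩⟩, ?_⟩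
    exact ne_zero_of_not_idl (not_idl_value_mul hM hB hy ⟨k, ho⟩ hc hχ h0)
  · rintro ⟨u, ⟨z, hz, hxz⟩, hu⟩
    by_contra hn
    apply hu
    apply Cfsg.Agent.S0924.result p M hM χ u z hz
    intro E hE hzE
    rw [← eq_blockOf hB hχ] at hE
    obtain ⟨c, hc⟩ := isConj_iff.1 hxz
    obtain ⟨t, ht⟩ := defectGroup_conj hM hB hE hD
    apply hn
    refine ⟨t * c, ?_⟩
    rw [ht]
    refine ⟨z, hzE, ?_⟩
    show t * z * t⁻¹ = _
    rw [← hc]; group

end Cfsg.Agent.S0926
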