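import Cfsg.Statements.S0928
import Cfsg.Agent.Lib.BlockFirst
import Cfsg.Agent.Lib.BlockDeg
import Cfsg.Agent.Lib.H76Char

set_option autoImplicit false
open Cfsg

namespace Cfsg.Agent.S0928

open Cfsg Cfsg.Agent.Lib.BlockRing Cfsg.Agent.Lib.BlockGA Cfsg.Agent.Lib.BlockIdem Cfsg.Agent.Lib.BlockDefect
  Cfsg.Agent.Lib.BlockFirst Cfsg.Agent.Lib.BlockHom
open Cfsg.Agent.Lib.BlockRes (resH coeff_resH brH coeff_brH)
open scoped ComplexConjugate

universe u

section
variable {G : Type u} [Group G] [Fintype G]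

/-- the sum of the solutions of `u ^ p = 1` -/
noncomputable def X (p : ℕ) (G : Type u) [Group G] [Fintype G] : GA G :=
  letI := Classical.propDecidable
  ofFun (fun g : G => if g ^ p = 1 then 1 else 0)

open Classical in
theorem coeff_X (p : ℕ) (g : G) : (X p G).coeff g = if g ^ p = 1 then 1 else 0 := rfl

theorem X_mem_center (p : ℕ) : X p G ∈ Subalgebra.center ℂ (GA G) := by
  classical
  rw [mem_center_iff]
  intro g h
  simp only [coeff_X]
  have h1 : (h * g * h⁻¹) ^ p = 1 ↔ g ^ p = 1 := by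
    rw [conj_pow, conj_eq_one_iff]
  simp only [h1]

theorem locA_X {M : Ideal AlgInt} [M.IsPrime] (p : ℕ) : LocA M (X p G) := by
  classical
  intro g
  rw [coeff_X]
  split_ifs
  · exact loc_one
  · exact loc_zero

theorem omega_X {p : ℕ} [hp : Fact p.Prime] (χ : IrrCharacter G) (h : ∀ g : G, orderOf g = p → (χ : G → ℂ) g = 0) :
    omega (χ : G → ℂ) (X p G) = 1 := by
  classical
  rw [omega, lin_apply, Finset.sum_eq_single 1]
  · rw [coeff_X, if_pos (one_pow p), one_mul, div_self χ.2.one_ne_zero]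
  · intro g _ hg
    rw [coeff_X]
    split_ifs with h1
    · rw [h g (orderOf_eq_prime h1 hg), mul_zero]
    · rw [zero_mul]
  · intro h1; exact absurd (Finset.mem_univ _) h1

/-- the square of the Brauer image of `X` is zero modulo `M` when `P ≠ 1`. -/
theorem sq_idl {p : ℕ} {M : Ideal AlgInt} (hM : IsPModular p M) {P H : Subgroup G} [Fintype H]
    (hHP : P ≤ H) {z : G} (hzP : z ∈ P) (hz : orderOf z = p) (hzc : ∀ u ∈ P, u * z = z * u) :
    IdlA M (brH P H (X p G) * brH P H (X p G)) := by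
  classical
  haveI := isPrime hM
  haveI : Fact p.Prime := ⟨hM.1⟩
  intro g
  rw [coeff_mul_fintype']
  -- the number of pairs
  set S : Finset H := Finset.univ.filter (fun h : H => ((g * h⁻¹ : H) : G) ∈ Subgroup.centralizer (P : Set G) ∧
    ((g * h⁻¹ : H) : G) ^ p = 1 ∧ (h : G) ∈ Subgroup.centralizer (P : Set G) ∧ (h : G) ^ p = 1) with hS
  have h1 : ∑ h : H, (brH P H (X p G)).coeff (g * h⁻¹) * (brH P H (X p G)).coeff h = (S.card : ℂ) := by
    rw [hS, Finset.card_eq_sum_ones, Finset.sum_filter]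
    rw [Nat.cast_sum]
    refine Finset.sum_congr rfl fun h _ => ?_
    rw [coeff_brH, coeff_brH, coeff_X, coeff_X, Nat.cast_ite, Nat.cast_one, Nat.cast_zero]
    generalize (g * h⁻¹ : H) = k
    by_cases h1 : (k : G) ∈ Subgroup.centralizer (P : Set G) <;>
    by_cases h2 : (k : G) ^ p = 1 <;>
    by_cases h3 : (h : G) ∈ Subgroup.centralizer (P : Set G) <;>
    by_cases h4 : (h : G) ^ p = 1 <;>
    simp only [h1, h2, h3, h4, if_true, if_false, and_true, true_and, and_self, and_false, false_and, mul_one,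
      mul_zero, zero_mul]
  rw [h1, idl_natCast_iff hM]
  -- the cyclic group `⟨z⟩` acts freely
  have hzH : z ∈ H := hHP hzP
  have hzC : z ∈ Subgroup.centralizer (P : Set G) := by
    rw [Subgroup.mem_centralizer_iff]; exact hzc
  have hzcomm : ∀ {u : G}, u ∈ Subgroup.centralizer (P : Set G) → Commute z u := fun {u} hu =>
    Subgroup.mem_centralizer_iff.1 hu z hzP
  have hzp : z ^ p = 1 := by rw [← hz]; exact pow_orderOf_eq_one z
  have hstep : ∀ h ∈ S, (⟨z, hzH⟩ : H) * h ∈ S := by
    intro h hh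
    rw [hS, Finset.mem_filter] at hh ⊢
    obtain ⟨-, h2, h3, h4, h5⟩ := hh
    refine ⟨Finset.mem_univ _, ?_, ?_, ?_, ?_⟩
    · have h6 : ((g * ((⟨z, hzH⟩ : H) * h)⁻¹ : H) : G) = ((g * h⁻¹ : H) : G) * z⁻¹ := by
        simp [mul_assoc]
      rw [h6]
      exact Subgroup.mul_mem _ h2 (Subgroup.inv_mem _ hzC)
    · have h6 : ((g * ((⟨z, hzH⟩ : H) * h)⁻¹ : H) : G) = ((g * h⁻¹ : H) : G) * z⁻¹ := by
        simp [mul_assoc]
      rw [h6, ((hzcomm h2).symm.inv_right).mul_pow, h3, inv_pow, hzp, inv_one, one_mul]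
    · exact Subgroup.mul_mem _ hzC h4
    · show (z * (h : G)) ^ p = 1
      rw [(hzcomm h4).mul_pow, hzp, h5, one_mul]
  let f : Function.End S := fun h => ⟨(⟨z, hzH⟩ : H) * h, hstep h h.2⟩
  have hfn : ∀ (n : ℕ) (h : S), (((f ^ n) h : S) : H) = (⟨z, hzH⟩ : H) ^ n * h := by
    intro n
    induction n with
    | zero => intro h; rw [pow_zero, pow_zero, one_mul]; rfl
    | succ n ih =>
      intro h
      rw [pow_succ]
      show (((f ^ n) (f h) : S) : H) = _
      rw [ih, pow_succ, mul_assoc]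
  have hf : f ^ p ^ 1 = 1 := by
    funext h
    apply Subtype.ext
    rw [hfn, pow_one]
    have h6 : (⟨z, hzH⟩ : H) ^ p = 1 := Subtype.ext hzp
    rw [h6, one_mul]
    rfl
  have h7 := Equiv.Perm.card_fixedPoints_modEq hf
  have h8 : Fintype.card f.fixedPoints = 0 := by
    rw [Fintype.card_eq_zero_iff]
    constructor
    rintro ⟨h, hh⟩
    have h9 := congrArg Subtype.val hh
    have h10 : (⟨z, hzH⟩ : H) * h = h := h9
    have h11 : (⟨z, hzH⟩ : H) = 1 := mul_eq_right.1 h10
    have h12 : z = 1 := congrArg Subtype.val h11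
    rw [h12, orderOf_one] at hz
    exact hM.1.one_lt.ne hz
  rw [h8, Fintype.card_coe] at h7
  exact (Nat.modEq_zero_iff_dvd).1 h7

/-- a character of a block with a nontrivial defect group -/
theorem omega_X_idl {p : ℕ} {M : Ideal AlgInt} (hM : IsPModular p M) {B : Set (IrrCharacter G)}
    (hB : IsPBlock M B) {D : Subgroup G} (hD : IsDefectGroup p M B D) (hne : D ≠ ⊥) {χ : IrrCharacter G}
    (hχ : χ ∈ B) : MemLocalIdeal M (omega (χ : G → ℂ) (X p G)) := by
  classical
  haveI := isPrime hM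
  haveI : Fact p.Prime := ⟨hM.1⟩
  haveI := Fintype.ofFinite (Subgroup.normalizer (D : Set G))
  have hDp := defectGroup_isPGroup hD
  have hDN : D ≤ Subgroup.normalizer (D : Set G) := Subgroup.le_normalizer
  obtain ⟨h, hh, hhD⟩ := isDefectGroup_iff.1 hD
  have hhC : h ∈ Subgroup.centralizer (D : Set G) := by
    rw [Subgroup.mem_centralizer_iff]
    intro x hx
    exact Subgroup.mem_centralizer_singleton_iff.1 (sylIn_le hhD hx)
  obtain ⟨b, hb⟩ := exists_inducing_block hM hDp hDN (Subgroup.centralizer_le_normalizer _) le_rfl hB hhC hh.2.1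
  obtain ⟨ξ, hξ⟩ := isPBlock_nonempty hb.1
  have h1 := induced_brF hM hDp hDN le_rfl hb hξ hχ (X_mem_center p) (locA_X p)
  rw [← idl_congr h1, brF_apply]
  -- an element of order `p` in the centre of `D`
  haveI : Nontrivial D := (Subgroup.nontrivial_iff_ne_bot D).2 hne
  have hcn := hDp.center_nontrivial
  have hcp : p ∣ Nat.card (Subgroup.center D) := by
    obtain ⟨k, hk⟩ := IsPGroup.iff_card.1 (hDp.to_subgroup (Subgroup.center D))
    rw [hk]
    apply dvd_pow_self
    rintro rfl
    rw [pow_zero] at hk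
    exact (Finite.one_lt_card_iff_nontrivial.2 hcn).ne' hk
  obtain ⟨z, hz⟩ := exists_prime_orderOf_dvd_card' p hcp
  have hz' : orderOf (((z : D) : G)) = p := by
    rw [Subgroup.orderOf_coe, Subgroup.orderOf_coe]; exact hz
  have h2 := sq_idl hM hDN ((z : D)).2 hz' (fun u hu => congrArg Subtype.val (Subgroup.mem_center_iff.1 z.2 ⟨u, hu⟩))
  have hc := Cfsg.Agent.Lib.BlockRes.brH_center (P := D) (H := Subgroup.normalizer (D : Set G)) le_rfl
    (X_mem_center (G := G) p)
  have h3 := idl_omega ξ.2 (Subalgebra.mul_mem _ hc hc) h2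
  rw [omega_mul ξ.2 hc, ← sq] at h3
  exact idl_of_pow (loc_omega ξ.2 hc (Cfsg.Agent.Lib.BlockRes.locA_brH (locA_X p))) h3

end

/-- Let χ be an irreducible character of the finite group G and p a prime. If χ g = 0 for every element g of order p, then the exponent of p in the degree χ(1) equals the exponent of p in the order of G (χ has p-defect zero). -/
theorem result {G : Type*} [Group G] [Finite G] (p : ℕ) [Fact p.Prime] (χ : Cfsg.IrrCharacter G) (hvan : ∀ g : G, orderOf g = p → (χ : G → ℂ) g = 0) : (Cfsg.charDegree (χ : G → ℂ)).factorization p = (Nat.card G).factorization p := by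
  classical
  haveI := Fintype.ofFinite G
  obtain ⟨M, hM⟩ := Cfsg.Agent.Lib.H76Char.exists_isPModular p
  haveI := isPrime hM
  have hB := isPBlock_blockOf (M := M) χ
  have hχ := mem_blockOf_self (M := M) χ
  obtain ⟨D, hD⟩ := exists_defectGroup hM hB
  have hbot : D = ⊥ := by
    by_contra hne
    have h1 := omega_X_idl hM hB hD hne hχ
    rw [omega_X χ hvan] at h1
    exact one_not_idl h1
  have hcard := defectGroup_card hM hB hD
  rw [hbot, Subgroup.card_bot] at hcard
  have hd : Cfsg.blockDefect p (Cfsg.blockOf M (χ : G → ℂ)) = 0 := by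
    by_contra h0
    exact absurd hcard.symm (Nat.one_lt_pow h0 hM.1.one_lt).ne'
  apply le_antisymm
  · exact (Nat.factorization_le_iff_dvd (charDegree_spec χ.2).2 Nat.card_pos.ne').2
      (Cfsg.Agent.Lib.BlockDeg.charDegree_dvd_card χ.2) p
  · have h2 := pow_dvd_degree hM hB hχ
    rw [hd, Nat.sub_zero] at h2
    exact (hM.1.pow_dvd_iff_le_factorization (charDegree_spec χ.2).2).1 h2

end Cfsg.Agent.S0928
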