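import Cfsg.Statements.S0930
import Cfsg.Agent.Lib.BlockVal

set_option autoImplicit false
open Cfsg

namespace Cfsg.Agent.S0930

open Cfsg Cfsg.Agent.Lib.BlockRing Cfsg.Agent.Lib.BlockGA Cfsg.Agent.Lib.BlockIdem Cfsg.Agent.Lib.BlockHom
open Cfsg.Agent.Lib.BlockRes (resH coeff_resH brH)
open Cfsg.Agent.Lib.CharBasic Cfsg.Agent.Lib.BlockNormP Cfsg.Agent.Lib.BlockDefect Cfsg.Agent.Lib.BlockFirst
open Cfsg.Agent.Lib.BlockVal

/-- Let H be a subgroup of the finite group G and fix a maximal ideal M of the algebraic integers containing the prime p. If the block b of H with defect group D induces the block B of G with defect group P, then every element of the centre of P is conjugate in G to an element of the centre of D. -/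
theorem result {G : Type*} [Group G] [Finite G] (p : ℕ) [Fact p.Prime] (M : Ideal Cfsg.AlgInt) (hM : Cfsg.IsPModular p M) (H : Subgroup G) (b : Set (Cfsg.IrrCharacter H)) (B : Set (Cfsg.IrrCharacter G)) (hind : Cfsg.IsInducedBlock M H b B) (D : Subgroup H) (hD : Cfsg.IsDefectGroup p M b D) (P : Subgroup G) (hP : Cfsg.IsDefectGroup p M B P) (x : G) (hx : x ∈ P) (hxc : ∀ w ∈ P, x * w = w * x) : ∃ g : G, g * x * g⁻¹ ∈ D.map H.subtype ∧ ∀ w ∈ D.map H.subtype, (g * x * g⁻¹) * w = w * (g * x * g⁻¹) := by
  exact exists_conj_center hM hind hD hP hx hxc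

end Cfsg.Agent.S0930
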