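import Cfsg.Statements.S0931
import Cfsg.Agent.Lib.BlockVal

set_option autoImplicit false
open Cfsg

namespace Cfsg.Agent.S0931

open Cfsg Cfsg.Agent.Lib.BlockRing Cfsg.Agent.Lib.BlockGA Cfsg.Agent.Lib.BlockIdem Cfsg.Agent.Lib.BlockHom
open Cfsg.Agent.Lib.BlockRes (resH coeff_resH brH)
open Cfsg.Agent.Lib.CharBasic Cfsg.Agent.Lib.BlockNormP Cfsg.Agent.Lib.BlockDefect Cfsg.Agent.Lib.BlockFirst
open Cfsg.Agent.Lib.BlockVal

/-- Let H be a subgroup of the finite group G and fix a maximal ideal M of the algebraic integers containing the prime p. If the block b of H induces the block B of G, then b has defect 0 if and only if B has defect 0. -/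
theorem result {G : Type*} [Group G] [Finite G] (p : ℕ) [Fact p.Prime] (M : Ideal Cfsg.AlgInt) (hM : Cfsg.IsPModular p M) (H : Subgroup G) (b : Set (Cfsg.IrrCharacter H)) (B : Set (Cfsg.IrrCharacter G)) (hind : Cfsg.IsInducedBlock M H b B) : Cfsg.blockDefect p b = 0 ↔ Cfsg.blockDefect p B = 0 := by
  haveI := isPrime hM
  obtain ⟨D, hD⟩ := exists_defectGroup hM hind.1
  obtain ⟨E, hE⟩ := exists_defectGroup hM hind.2.1
  have h1 := defectGroup_card hM hind.1 hD
  have h2 := defectGroup_card hM hind.2.1 hE
  constructor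
  · intro h
    rw [h, pow_zero] at h1
    have hDbot : D = ⊥ := Subgroup.card_eq_one.1 h1
    have hEp : IsPGroup p E := defectGroup_isPGroup hE
    have hE1 : E = ⊥ := by
      by_contra hne
      haveI : Nontrivial E := (Subgroup.nontrivial_iff_ne_bot E).2 hne
      haveI := hEp.center_nontrivial
      obtain ⟨z, hz⟩ := exists_ne (1 : Subgroup.center E)
      have hzc : ∀ w ∈ E, ((z : E) : G) * w = w * ((z : E) : G) := by
        intro w hw
        have := (Subgroup.mem_center_iff.1 z.2) ⟨w, hw⟩
        exact (congrArg Subtype.val this).symm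
      obtain ⟨g, hg, _⟩ := exists_conj_center hM hind hD hE (z : E).2 hzc
      rw [hDbot, Subgroup.map_bot, Subgroup.mem_bot] at hg
      apply hz
      have h3 : ((z : E) : G) = 1 := by
        have := congrArg (fun t => g⁻¹ * t * g) hg
        simpa [mul_assoc] using this
      exact Subtype.ext (Subtype.ext h3)
    rw [hE1, Subgroup.card_bot] at h2
    by_contra hne
    exact absurd h2.symm (Nat.one_lt_pow hne hM.1.one_lt).ne'
  · intro h
    rw [h, pow_zero] at h2
    have hEbot : E = ⊥ := Subgroup.card_eq_one.1 h2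
    obtain ⟨x, hx⟩ := exists_conj_le hM hind hD hE
    rw [hEbot, Subgroup.map_bot, le_bot_iff, Subgroup.map_eq_bot_iff_of_injective _ H.subtype_injective] at hx
    rw [hx, Subgroup.card_bot] at h1
    by_contra hne
    exact absurd h1.symm (Nat.one_lt_pow hne hM.1.one_lt).ne'

end Cfsg.Agent.S0931
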