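import Cfsg.Statements.S0932
import Cfsg.Agent.Lib.ClassSum

set_option autoImplicit false
open Cfsg

namespace Cfsg.Agent.S0932

open scoped Classical

theorem extendByZero_mem {G : Type*} [Group G] (H : Subgroup G) (θ : H → ℂ) (h : H) :
    Cfsg.extendByZero H θ (h : G) = θ h := by
  unfold Cfsg.extendByZero
  exact Function.Injective.extend_apply Subtype.val_injective _ _ _

theorem extendByZero_notMem {G : Type*} [Group G] (H : Subgroup G) (θ : H → ℂ) (g : G) (hg : g ∉ H) :
    Cfsg.extendByZero H θ g = 0 := by
  unfold Cfsg.extendByZero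
  rw [Function.extend_apply']
  · rfl
  · rintro ⟨a, rfl⟩
    exact hg a.2

theorem sum_extendByZero {G : Type*} [Group G] [Fintype G] (H : Subgroup G) (θ : H → ℂ) (g : G) :
    ∑ y ∈ Finset.univ.filter (fun y : G => IsConj g y), Cfsg.extendByZero H θ y
      = ∑ h ∈ Finset.univ.filter (fun h : H => IsConj g (h : G)), θ h := by
  rw [← Finset.sum_filter_add_sum_filter_not _ (fun y : G => y ∈ H)]
  rw [Finset.sum_eq_zero (s := Finset.filter (fun y => ¬ y ∈ H) _), add_zero]
  · symm
    refine Finset.sum_bij (fun h _ => (h : G)) ?_ ?_ ?_ ?_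
    · intro h hh
      simp only [Finset.mem_filter, Finset.mem_univ, true_and] at hh ⊢
      exact ⟨hh, h.2⟩
    · intro a _ b _ hab
      exact Subtype.ext hab
    · intro b hb
      simp only [Finset.mem_filter, Finset.mem_univ, true_and] at hb
      exact ⟨⟨b, hb.2⟩, by simpa using hb.1, rfl⟩
    · intro h _
      exact (extendByZero_mem H θ h).symm
  · intro y hy
    exact extendByZero_notMem H θ y (Finset.mem_filter.1 hy).2

/-- Let H be a subgroup of the finite group G and ξ a character of H. For every g ∈ G, the sum of ξ h / ξ 1 over the elements h ∈ H that are conjugate in G to g equals the central character at g of the character of G induced from ξ (class size times value divided by degree). -/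
theorem result {G : Type*} [Group G] [Fintype G] (H : Subgroup G) (ξ : H → ℂ) (hξ : Cfsg.IsCharacter H ξ) (g : G) : Cfsg.inducedCentralChar H ξ g = Cfsg.centralChar (Cfsg.indFun H ξ) g := by
  unfold Cfsg.inducedCentralChar Cfsg.centralChar Cfsg.indFun
  rw [finsum_mem_eq_finite_toFinset_sum _ (Set.toFinite _)]
  have h1 : (Set.toFinite {h : H | IsConj g (h : G)}).toFinset
      = Finset.univ.filter (fun h : H => IsConj g (h : G)) := by
    ext; simp
  rw [h1, Lib.ClassSum.sum_conj_eq', Lib.ClassSum.sum_conj_eq', sum_extendByZero, sum_extendByZero]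
  have h2 : (Finset.univ.filter (fun h : H => IsConj (1 : G) (h : G))) = {1} := by
    ext h; simp [isConj_one_right, eq_comm]
  have h3 : Nat.card (Subgroup.centralizer ({1} : Set G)) = Nat.card G := by
    have : Subgroup.centralizer ({1} : Set G) = ⊤ := by
      rw [Subgroup.centralizer_eq_top_iff_subset]
      intro x hx
      rw [Set.mem_singleton_iff] at hx
      rw [hx]
      exact Subgroup.one_mem _
    rw [this]
    exact Nat.card_congr Subgroup.topEquiv.toEquiv
  rw [h2, Finset.sum_singleton, h3, ← Finset.sum_div]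
  have h4 : (Nat.card G : ℂ) = (Nat.card (Subgroup.centralizer ({g} : Set G)) : ℂ) * ((Subgroup.centralizer ({g} : Set G)).index : ℂ) := by
    rw [← Nat.cast_mul, Subgroup.card_mul_index]
  have h5 : (Nat.card H : ℂ) ≠ 0 := by exact_mod_cast Nat.card_pos.ne'
  have h6 : (Nat.card (Subgroup.centralizer ({g} : Set G)) : ℂ) ≠ 0 := by exact_mod_cast Nat.card_pos.ne'
  have h7 : ((Subgroup.centralizer ({g} : Set G)).index : ℂ) ≠ 0 := by
    exact_mod_cast Subgroup.index_ne_zero_of_finite
  simp only [nsmul_eq_mul, h4]
  by_cases h8 : ξ 1 = 0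
  · simp [h8]
  · field_simp

end Cfsg.Agent.S0932
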