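import Cfsg.Statements.S0933
import Cfsg.Agent.Lib.BlockPPrime
import Cfsg.Agent.S0932

set_option autoImplicit false
open Cfsg

namespace Cfsg.Agent.S0933

open Cfsg Cfsg.Agent.Lib.BlockRing Cfsg.Agent.Lib.BlockGA Cfsg.Agent.Lib.BlockIdem Cfsg.Agent.Lib.BlockCover
open Cfsg.Agent.Lib.BlockRes (resH coeff_resH)

/-- Let H be a subgroup of the finite group G and ξ an irreducible character of H such that the induced function ξ^G is an irreducible character of G. Then, relative to any maximal ideal M of the algebraic integers containing the prime p, the block of ξ induces the block of ξ^G. -/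
theorem result {G : Type*} [Group G] [Fintype G] (p : ℕ) [Fact p.Prime] (M : Ideal Cfsg.AlgInt) (hM : Cfsg.IsPModular p M) (H : Subgroup G) (ξ : Cfsg.IrrCharacter H) (hind : Cfsg.IsIrrCharacter G (Cfsg.indFun H (ξ : H → ℂ))) : Cfsg.IsInducedBlock M H (Cfsg.blockOf M (ξ : H → ℂ)) (Cfsg.blockOf M (Cfsg.indFun H (ξ : H → ℂ))) := by
  haveI := isPrime hM
  let χ : IrrCharacter G := ⟨_, hind⟩
  apply Cfsg.Agent.Lib.BlockInd.isInducedBlock_of_omega (isPBlock_blockOf ξ) (isPBlock_blockOf χ)
    (mem_blockOf_self ξ) (mem_blockOf_self χ)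
  intro g
  rw [Cfsg.Agent.Lib.BlockRes.omega_resH_classSum, omega_classSum χ.2.isClassFunction,
    Cfsg.Agent.S0932.result H (ξ : H → ℂ) ξ.2.isCharacter g, sub_self]
  exact idl_zero

end Cfsg.Agent.S0933
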