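import Cfsg.Statements.S0934
import Cfsg.Agent.Lib.BlockPPrime
import Cfsg.Agent.Lib.Cores

set_option autoImplicit false
open Cfsg

namespace Cfsg.Agent.S0934

open Cfsg Cfsg.Agent.Lib.BlockRing Cfsg.Agent.Lib.BlockGA Cfsg.Agent.Lib.BlockIdem Cfsg.Agent.Lib.BlockCover
open Cfsg.Agent.Lib.BlockRes (resH coeff_resH)
open Cfsg.Agent.Lib.BlockSecond (incH coeff_incH_coe coeff_incH_of_not_mem lin_incH locA_incH)
open Cfsg.Agent.Lib.Clifford Cfsg.Agent.Lib.CharBasic Cfsg.Agent.Lib.BlockPPrime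
open scoped ComplexConjugate

/-- Let H be a subgroup of the finite group G and fix a maximal ideal M of the algebraic integers containing the prime p. If the block b of H induces the block B of G and ξ ∈ b, then there is χ ∈ B whose restriction to H has nonzero inner product with ξ. -/
theorem result {G : Type*} [Group G] [Fintype G] (p : ℕ) [Fact p.Prime] (M : Ideal Cfsg.AlgInt) (hM : Cfsg.IsPModular p M) (H : Subgroup G) [Fintype H] (b : Set (Cfsg.IrrCharacter H)) (B : Set (Cfsg.IrrCharacter G)) (hind : Cfsg.IsInducedBlock M H b B) (ξ : Cfsg.IrrCharacter H) (hξ : ξ ∈ b) : ∃ χ ∈ B, Cfsg.classInner (fun h : H => (χ : G → ℂ) h) (ξ : H → ℂ) ≠ 0 := by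
  classical
  haveI := isPrime hM
  obtain ⟨χ₀, hχ₀⟩ := isPBlock_nonempty hind.2.1
  have h1 := Cfsg.Agent.Lib.BlockInd.induced_omega hind hξ hχ₀ (eB_mem_center B) (locA_eB hind.2.1)
  rw [omega_eB_mem hχ₀] at h1
  by_contra hn
  push_neg at hn
  have h2 : omega (ξ : H → ℂ) (resH H (eB B)) = 0 := by
    rw [omega, lin_apply]
    have h3 : ∑ h : H, (resH H (eB B)).coeff h * (ξ : H → ℂ) h = 0 := by
      simp only [coeff_resH, coeff_eB, Cfsg.Agent.Lib.BlockCover.blockCoeff_eq_sum', Finset.mul_sum, Finset.sum_mul]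
      rw [Finset.sum_comm]
      refine Finset.sum_eq_zero fun χ _ => ?_
      by_cases hχ : χ ∈ B
      · have h4 := hn χ hχ
        rw [← conj_classInner, map_eq_zero] at h4
        rw [classInner] at h4
        have h5 : (∑ h : H, (ξ : H → ℂ) h * conj ((χ : G → ℂ) h)) = 0 := by
          rcases mul_eq_zero.1 h4 with h6 | h6
          · exact absurd h6 (inv_ne_zero (by exact_mod_cast Nat.card_pos.ne'))
          · exact h6
        rw [show (∑ x : H, ((Nat.card G : ℂ)⁻¹ * if χ ∈ B then (χ : G → ℂ) 1 * conj ((χ : G → ℂ) x) else 0) *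
            (ξ : H → ℂ) x) = (Nat.card G : ℂ)⁻¹ * (χ : G → ℂ) 1 * ∑ h : H, (ξ : H → ℂ) h * conj ((χ : G → ℂ) h) by
          rw [Finset.mul_sum]
          refine Finset.sum_congr rfl fun x _ => ?_
          rw [if_pos hχ]
          ring]
        rw [h5, mul_zero]
      · refine Finset.sum_eq_zero fun x _ => ?_
        rw [if_neg hχ, mul_zero, zero_mul]
    rw [h3, zero_div]
  rw [h2, zero_sub] at h1
  exact one_not_idl (idl_neg_iff.1 h1)

end Cfsg.Agent.S0934
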