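import Cfsg.Statements.S0935
import Cfsg.Agent.Lib.BlockInd
import Cfsg.Agent.Lib.BlockPair

set_option autoImplicit false
open Cfsg

namespace Cfsg.Agent.S0935

open Cfsg.Agent.Lib.BlockRing Cfsg.Agent.Lib.BlockGA Cfsg.Agent.Lib.BlockIdem
open Cfsg.Agent.Lib.BlockRes Cfsg.Agent.Lib.BlockInd Cfsg.Agent.Lib.BlockPair

/-- Let H be a subgroup of the finite group G and χ an irreducible character of G whose restriction to H is irreducible; fix a maximal ideal M of the algebraic integers containing the prime p and suppose χ and its restriction have height zero in their blocks B and b. If e is a block of H whose induced block is defined, then e induces B if and only if e = b. -/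
theorem result {G : Type*} [Group G] [Finite G] (p : ℕ) [Fact p.Prime] (M : Ideal Cfsg.AlgInt) (hM : Cfsg.IsPModular p M) (H : Subgroup G) (χ : Cfsg.IrrCharacter G) (hres : Cfsg.IsIrrCharacter H (fun h : H => (χ : G → ℂ) h)) (hχ0 : Cfsg.blockHeight p (Cfsg.blockOf M (χ : G → ℂ)) (χ : G → ℂ) = 0) (hψ0 : Cfsg.blockHeight p (Cfsg.blockOf M (fun h : H => (χ : G → ℂ) h)) (fun h : H => (χ : G → ℂ) h) = 0) (e : Set (Cfsg.IrrCharacter H)) (he : Cfsg.InducedBlockDefined M H e) : Cfsg.IsInducedBlock M H e (Cfsg.blockOf M (χ : G → ℂ)) ↔ e = Cfsg.blockOf M (fun h : H => (χ : G → ℂ) h) := by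
  have := isPrime hM
  set ψ : Cfsg.IrrCharacter H := ⟨fun h : H => (χ : G → ℂ) h, hres⟩ with hψ
  have h1 : ¬ MemLocalIdeal M (omega (χ : G → ℂ) (pel p (χ : G → ℂ))) :=
    not_idl_pair_self hM (isPBlock_blockOf χ) (mem_blockOf_self χ) hχ0
  have h2 : ¬ MemLocalIdeal M (omega (ψ : H → ℂ) (pel p (ψ : H → ℂ))) :=
    not_idl_pair_self hM (isPBlock_blockOf ψ) (mem_blockOf_self ψ) hψ0
  have hc : pel p (χ : G → ℂ) ∈ Subalgebra.center ℂ (GA G) := pel_mem_center χ.2.isClassFunction
  have hl : LocA M (pel p (χ : G → ℂ)) := locA_pel χ.2.isCharacter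
  obtain ⟨B', hB'⟩ := he
  constructor
  · intro h
    obtain ⟨ξ, hξ⟩ := isPBlock_nonempty h.1
    have h3 := induced_omega h hξ (mem_blockOf_self χ) hc hl
    rw [resH_pel] at h3
    by_contra hne
    have h4 : ¬ SameBlock M (ψ : H → ℂ) (ξ : H → ℂ) := by
      intro h5
      apply hne
      exact block_eq_of_mem h.1 (isPBlock_blockOf ψ) hξ h5
    have h6 := omega_pel_eq_zero hM h4
    have h7 : omega (ξ : H → ℂ) (pel p (fun h : H => (χ : G → ℂ) h)) = 0 := h6
    rw [h7, zero_sub, idl_neg_iff] at h3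
    exact h1 h3
  · intro h
    have hψe : ψ ∈ e := by rw [h]; exact mem_blockOf_self ψ
    obtain ⟨χ', hχ'⟩ := isPBlock_nonempty hB'.2.1
    have h3 := induced_omega hB' hψe hχ' hc hl
    rw [resH_pel] at h3
    have h4 : ¬ MemLocalIdeal M (omega (χ' : G → ℂ) (pel p (χ : G → ℂ))) := fun h5 =>
      h2 ((idl_congr h3).2 h5)
    have h5 : SameBlock M (χ : G → ℂ) (χ' : G → ℂ) := by
      by_contra h6
      apply h4
      rw [omega_pel_eq_zero hM h6]
      exact idl_zero
    have h7 : B' = blockOf M (χ : G → ℂ) := block_eq_of_mem hB'.2.1 (isPBlock_blockOf χ) hχ' h5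
    rw [← h7]
    exact hB'

end Cfsg.Agent.S0935
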