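import Cfsg.Statements.S0936
import Cfsg.Agent.S0935

set_option autoImplicit false
open Cfsg

namespace Cfsg.Agent.S0936

open Cfsg.Agent.Lib.BlockRing Cfsg.Agent.Lib.BlockGA Cfsg.Agent.Lib.BlockIdem
open Cfsg.Agent.Lib.BlockDeg

theorem height_one {G : Type*} [Group G] (p : ℕ) (B : Set (Cfsg.IrrCharacter G)) :
    Cfsg.blockHeight p B (fun _ : G => (1 : ℂ)) = 0 := by
  unfold Cfsg.blockHeight Cfsg.charDegree
  simp

/-- Brauer's Third Main Theorem. Let H be a subgroup of the finite group G and b a block of H (relative to a maximal ideal M of the algebraic integers containing the prime p) whose induced block in G is defined. Then b induces the principal block of G if and only if b is the principal block of H. -/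
theorem result {G : Type*} [Group G] [Finite G] (p : ℕ) [Fact p.Prime] (M : Ideal Cfsg.AlgInt) (hM : Cfsg.IsPModular p M) (H : Subgroup G) (b : Set (Cfsg.IrrCharacter H)) (hdef : Cfsg.InducedBlockDefined M H b) : Cfsg.IsInducedBlock M H b (Cfsg.principalBlock M G) ↔ b = Cfsg.principalBlock M H := by
  have := isPrime hM
  set χ : Cfsg.IrrCharacter G := ⟨fun _ => 1, Lib.CharBasic.isIrrCharacter_fun_one⟩ with hχ
  exact Cfsg.Agent.S0935.result p M hM H χ Lib.CharBasic.isIrrCharacter_fun_one (height_one p _)
    (height_one p _) b hdef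

end Cfsg.Agent.S0936
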