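import Cfsg.Statements.S0937
import Cfsg.Agent.Lib.BlockInd
import Cfsg.Agent.Lib.BlockPair

set_option autoImplicit false
open Cfsg

namespace Cfsg.Agent.S0937

open Cfsg.Agent.Lib.BlockRing Cfsg.Agent.Lib.BlockGA Cfsg.Agent.Lib.BlockIdem
open Cfsg.Agent.Lib.BlockRes Cfsg.Agent.Lib.BlockInd Cfsg.Agent.Lib.BlockPair
open Cfsg.Agent.Lib.CharBasic

theorem pel_sum {G : Type*} [Group G] [Finite G] (p : ℕ) {ι : Type*} (s : Finset ι) (c : ι → ℂ)
    (f : ι → G → ℂ) : pel p (∑ i ∈ s, c i • f i) = ∑ i ∈ s, c i • pel p (f i) := by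
  classical
  ext h
  rw [coeff_finset_sum]
  unfold pel
  simp only [coeff_ofFun, MonoidAlgebra.coeff_smul, Finsupp.smul_apply, smul_eq_mul,
    Finset.sum_apply, Pi.smul_apply]
  split_ifs
  · simp
  · rfl

/-- Let H be a subgroup of the finite group G and fix a maximal ideal M of the algebraic integers containing the prime p. If the block b of H induces the block B of G and χ ∈ B has height zero, then there is ξ ∈ b of height zero whose multiplicity in the restriction of χ to H is a natural number not divisible by p. -/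
theorem result {G : Type*} [Group G] [Fintype G] (p : ℕ) [Fact p.Prime] (M : Ideal Cfsg.AlgInt) (hM : Cfsg.IsPModular p M) (H : Subgroup G) [Fintype H] (b : Set (Cfsg.IrrCharacter H)) (B : Set (Cfsg.IrrCharacter G)) (hind : Cfsg.IsInducedBlock M H b B) (χ : Cfsg.IrrCharacter G) (hχ : χ ∈ B) (h0 : Cfsg.blockHeight p B (χ : G → ℂ) = 0) : ∃ ξ ∈ b, Cfsg.blockHeight p b (ξ : H → ℂ) = 0 ∧ ∃ n : ℕ, Cfsg.classInner (fun h : H => (χ : G → ℂ) h) (ξ : H → ℂ) = (n : ℂ) ∧ ¬ p ∣ n := by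
  have := isPrime hM
  have hc : pel p (χ : G → ℂ) ∈ Subalgebra.center ℂ (GA G) := pel_mem_center χ.2.isClassFunction
  have hl : LocA M (pel p (χ : G → ℂ)) := locA_pel χ.2.isCharacter
  obtain ⟨ξ0, hξ0⟩ := isPBlock_nonempty hind.1
  have h1 := induced_omega hind hξ0 hχ hc hl
  have h2 : ¬ MemLocalIdeal M (omega (ξ0 : H → ℂ) (resH H (pel p (χ : G → ℂ)))) := fun h =>
    not_idl_pair_self hM hind.2.1 hχ h0 ((idl_congr h1).1 h)
  rw [resH_pel] at h2
  have hres : Cfsg.IsCharacter H (fun h : H => (χ : G → ℂ) h) := χ.2.isCharacter.restrict H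
  have hn : ∀ ξ : Cfsg.IrrCharacter H, ∃ n : ℕ, Cfsg.classInner (fun h : H => (χ : G → ℂ) h) (ξ : H → ℂ) = n :=
    fun ξ => hres.classInner_nat ξ.2.isCharacter
  choose n hn using hn
  rw [hres.isClassFunction.expansion, pel_sum, omega_sum] at h2
  obtain ⟨ξ, hξ⟩ : ∃ ξ : Cfsg.IrrCharacter H, ¬ MemLocalIdeal M
      (omega (ξ0 : H → ℂ) (Cfsg.classInner (fun h : H => (χ : G → ℂ) h) (ξ : H → ℂ) • pel p (ξ : H → ℂ))) := by
    by_contra hcon
    push Not at hcon
    exact h2 (idl_sum fun ξ _ => hcon ξ)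
  rw [omega_smul, hn ξ] at hξ
  have h3 : ¬ MemLocalIdeal M (omega (ξ0 : H → ℂ) (pel p (ξ : H → ℂ))) := fun h =>
    hξ (idl_mul_left (loc_natCast _) h)
  have h4 : SameBlock M (ξ : H → ℂ) (ξ0 : H → ℂ) := by
    by_contra h5
    apply h3
    rw [omega_pel_eq_zero hM h5]
    exact idl_zero
  have h6 : ξ ∈ b := mem_of_sameBlock hind.1 hξ0 (sameBlock_symm h4)
  refine ⟨ξ, h6, height_zero_of_not_idl hM hind.1 hξ0 h6 h3, n ξ, hn ξ, ?_⟩
  intro hp
  apply hξ
  refine idl_mul_right ((idl_natCast_iff hM _).2 hp) ?_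
  exact loc_omega ξ0.2 (pel_mem_center ξ.2.isClassFunction) (locA_pel ξ.2.isCharacter)

end Cfsg.Agent.S0937
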