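import Cfsg.Statements.S0943
import Cfsg.Agent.Lib.ClassSum
import Cfsg.Agent.Lib.CharBasic

set_option autoImplicit false
open Cfsg

namespace Cfsg.Agent.S0943

open Cfsg.Agent.Lib.CharBasic Cfsg.Agent.Lib.ClassSum

open scoped Classical

/-- Schur's lemma for class functions: `χ 1 * ∑ a x χ (x v) = (∑ a x χ x) χ v`. -/
theorem irr_mul {G : Type*} [Group G] [Fintype G] {χ : G → ℂ} (hχ : Cfsg.IsIrrCharacter G χ)
    {a : G → ℂ} (ha : Cfsg.IsClassFunction G a) (v : G) :
    χ 1 * ∑ x : G, a x * χ (x * v) = (∑ x : G, a x * χ x) * χ v := by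
  obtain ⟨n, ρ, hρ, rfl⟩ := hχ
  obtain ⟨c, hc⟩ := wsum_irr_scalar ha ρ hρ
  have h1 : ∑ x : G, a x * ρ.character x = c * ρ.character 1 := by
    rw [← trace_wsum, hc, Representation.char_one]
    simp
  have h2 : ∑ x : G, a x * ρ.character (x * v) = c * ρ.character v := by
    have h3 : ∑ x : G, a x * ρ.character (x * v) = LinearMap.trace ℂ _ (wsum a ρ * ρ v) := by
      simp only [wsum, Finset.sum_mul, map_sum, smul_mul_assoc, map_smul, ← map_mul,
        Representation.character, smul_eq_mul]
    rw [h3, hc]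
    simp [Representation.character, Module.End.mul_eq_comp]
  rw [h1, h2]
  ring

/-- Let χ be an irreducible character of the finite group G and u, v ∈ G. If χ (x * y) = χ (u * v) whenever x is conjugate to u and y is conjugate to v, then χ u * χ v = χ 1 * χ (u * v). (Multiply the class sums of u and v and apply the central character of χ.) -/
theorem result {G : Type*} [Group G] [Finite G] (χ : Cfsg.IrrCharacter G) (u v : G) (hc : ∀ x y : G, IsConj u x → IsConj v y → (χ : G → ℂ) (x * y) = (χ : G → ℂ) (u * v)) : (χ : G → ℂ) u * (χ : G → ℂ) v = (χ : G → ℂ) 1 * (χ : G → ℂ) (u * v) := by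
  have := Fintype.ofFinite G
  have hcl : Cfsg.IsClassFunction G (fun x : G => if IsConj u x then (1 : ℂ) else 0) := by
    intro g h
    have : IsConj u (h * g * h⁻¹) ↔ IsConj u g := by
      have h1 : IsConj g (h * g * h⁻¹) := isConj_iff.2 ⟨h, rfl⟩
      exact ⟨fun h2 => h2.trans h1.symm, fun h2 => h2.trans h1⟩
    simp only [this]
  have key := irr_mul χ.2 hcl v
  have h1 : ∑ x : G, (if IsConj u x then (1 : ℂ) else 0) * (χ : G → ℂ) (x * v)
      = (Finset.univ.filter (fun x : G => IsConj u x)).card * (χ : G → ℂ) (u * v) := by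
    simp only [ite_mul, one_mul, zero_mul]
    rw [← Finset.sum_filter, Finset.sum_congr rfl (g := fun _ => (χ : G → ℂ) (u * v)), Finset.sum_const,
      nsmul_eq_mul]
    intro x hx
    exact hc x v (by simpa using hx) (IsConj.refl v)
  have h2 : ∑ x : G, (if IsConj u x then (1 : ℂ) else 0) * (χ : G → ℂ) x
      = (Finset.univ.filter (fun x : G => IsConj u x)).card * (χ : G → ℂ) u := by
    simp only [ite_mul, one_mul, zero_mul]
    rw [← Finset.sum_filter, Finset.sum_congr rfl (g := fun _ => (χ : G → ℂ) u), Finset.sum_const,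
      nsmul_eq_mul]
    intro x hx
    obtain ⟨c, hcx⟩ := isConj_iff.1 (show IsConj u x by simpa using hx)
    rw [← hcx]
    exact χ.2.isClassFunction _ _
  rw [h1, h2] at key
  have h3 : ((Finset.univ.filter (fun x : G => IsConj u x)).card : ℂ) ≠ 0 := by
    have : (Finset.univ.filter (fun x : G => IsConj u x)).Nonempty :=
      ⟨u, Finset.mem_filter.2 ⟨Finset.mem_univ _, IsConj.refl u⟩⟩
    exact_mod_cast this.card_pos.ne'
  apply mul_left_cancel₀ h3
  linear_combination -key

end Cfsg.Agent.S0943
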