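import Cfsg.Statements.S0946
import Cfsg.Agent.S0945
import Mathlib.GroupTheory.Transfer

set_option autoImplicit false
open Cfsg

namespace Cfsg.Agent.S0946

open Cfsg.Agent.S0945

/-- Let P be a Sylow 2-subgroup of the finite group G isomorphic to Z/2^m × Z/2^m with m ≥ 1. Then either P has a normal complement in G, or all involutions of G are conjugate. -/
theorem result {G : Type*} [Group G] [Finite G] (P : Sylow 2 G) (m : ℕ) (hm : 1 ≤ m) (e : (P : Subgroup G) ≃* Multiplicative (ZMod (2 ^ m) × ZMod (2 ^ m))) : (∃ N : Subgroup G, N.Normal ∧ Subgroup.IsComplement' N (P : Subgroup G)) ∨ ∀ s t : G, orderOf s = 2 → orderOf t = 2 → IsConj s t := by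
  by_cases hne : (Subgroup.centralizer ((P : Subgroup G) : Set G)).relIndex
      (Subgroup.normalizer ((P : Subgroup G) : Set G)) = 1
  · left
    have hP : Subgroup.normalizer (P : Set G) ≤ Subgroup.centralizer (P : Set G) :=
      Subgroup.relIndex_eq_one.1 hne
    exact ⟨_, inferInstance, MonoidHom.ker_transferSylow_isComplement' P hP⟩
  · right
    have key := main2 (P : Subgroup G) m hm e P.not_dvd_index hne
    have hinv : ∀ s : G, orderOf s = 2 → ∃ t ∈ invs (P : Subgroup G), IsConj s t := by
      intro s hs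
      have h1 : IsPGroup 2 (Subgroup.zpowers s) := by
        apply IsPGroup.of_card (n := 1)
        rw [Nat.card_zpowers, hs, pow_one]
      obtain ⟨Q, hQ⟩ := h1.exists_le_sylow
      obtain ⟨g, hg⟩ := MulAction.exists_smul_eq G Q P
      refine ⟨g * s * g⁻¹, ⟨?_, ?_, ?_⟩, isConj_iff.2 ⟨g, rfl⟩⟩
      · rw [← hg, Sylow.coe_subgroup_smul]
        exact ⟨s, hQ (Subgroup.mem_zpowers s), rfl⟩
      · intro h
        have h2 : s = 1 := by
          have := congrArg (fun x => g⁻¹ * x * g) h
          simpa [mul_assoc] using this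
        rw [h2, orderOf_one] at hs
        exact absurd hs (by norm_num)
      · have h3 : s * s = 1 := by rw [← pow_two, ← hs, pow_orderOf_eq_one]
        calc g * s * g⁻¹ * (g * s * g⁻¹) = g * (s * s) * g⁻¹ := by group
          _ = 1 := by rw [h3]; group
    intro s t hs ht
    obtain ⟨s', hs1, hs2⟩ := hinv s hs
    obtain ⟨t', ht1, ht2⟩ := hinv t ht
    exact hs2.trans ((key s' hs1 t' ht1).trans ht2.symm)

end Cfsg.Agent.S0946
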