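import Cfsg.Statements.S0947
import Cfsg.Agent.Lib.BlockSection

set_option autoImplicit false
open Cfsg

namespace Cfsg.Agent.S0947

/-- Let z ≠ 1 be a p-element of the finite group G with centralizer H, and fix a maximal ideal M of the algebraic integers containing p. (i) For every y ∈ H of order prime to p, the sum over ζ in the principal block of G of |ζ (z * y)|² equals the sum over χ in the principal block of H of |χ y|². (ii) If moreover H has a normal p-complement (its largest normal subgroup of order prime to p has p-power index), that common value is the largest power of p dividing the order of H. -/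
theorem result {G : Type*} [Group G] [Finite G] (p : ℕ) [Fact p.Prime] (M : Ideal Cfsg.AlgInt) (hM : Cfsg.IsPModular p M) (z : G) (hz : ∃ k : ℕ, orderOf z = p ^ k) (hz1 : z ≠ 1) (y : Subgroup.centralizer ({z} : Set G)) (hy : ¬ p ∣ orderOf y) : (∑ᶠ ζ ∈ Cfsg.principalBlock M G, ‖(ζ : G → ℂ) (z * (y : G))‖ ^ 2 = ∑ᶠ χ ∈ Cfsg.principalBlock M (Subgroup.centralizer ({z} : Set G)), ‖(χ : Subgroup.centralizer ({z} : Set G) → ℂ) y‖ ^ 2) ∧ ((∃ k : ℕ, (Cfsg.pPrimeCore p (Subgroup.centralizer ({z} : Set G))).index = p ^ k) → ∑ᶠ ζ ∈ Cfsg.principalBlock M G, ‖(ζ : G → ℂ) (z * (y : G))‖ ^ 2 = ((p ^ (Nat.card (Subgroup.centralizer ({z} : Set G))).factorization p : ℕ) : ℝ)) := by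
  obtain ⟨k, hk⟩ := hz
  have hmem : ∀ g, g ∈ Subgroup.centralizer ({z} : Set G) ↔ Commute z g := by
    intro g
    rw [Subgroup.mem_centralizer_singleton_iff]
    exact ⟨fun h => h.symm, fun h => h.symm⟩
  have h1 : ∑ᶠ ζ ∈ principalBlock M G, ‖(ζ : G → ℂ) (z * (y : G))‖ ^ 2 =
      ∑ᶠ χ ∈ principalBlock M (Subgroup.centralizer ({z} : Set G)),
        ‖(χ : Subgroup.centralizer ({z} : Set G) → ℂ) y‖ ^ 2 := by
    have h2 := Lib.BlockSection.principal_section_sum hM hk hmem hy hy
    rw [finsum_mem_eq_finite_toFinset_sum _ (Set.toFinite _),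
      finsum_mem_eq_finite_toFinset_sum _ (Set.toFinite _)] at h2 ⊢
    have h3 : ∀ w : ℂ, w * (starRingEnd ℂ) w = ((‖w‖ ^ 2 : ℝ) : ℂ) := by
      intro w
      rw [Complex.mul_conj, Complex.normSq_eq_norm_sq]
    simp only [h3] at h2
    exact_mod_cast h2
  refine ⟨h1, ?_⟩
  rintro ⟨j, hj⟩
  rw [h1]
  have h4 : (pPrimeCore p (Subgroup.centralizer ({z} : Set G))).Normal := inferInstance
  have h5 : ¬ p ∣ Nat.card (pPrimeCore p (Subgroup.centralizer ({z} : Set G))) :=
    (Nat.Prime.coprime_iff_not_dvd hM.1).1 (Lib.Cores.coprime_card_pPrimeCore p _).symm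
  have h6 := Lib.BlockSection.sum_principal_of_normal_complement hM h5 hj hy hy
  have h7 : (Nat.card (Subgroup.centralizer ({z} : Set G))).factorization p = j := by
    rw [← Subgroup.card_mul_index (pPrimeCore p (Subgroup.centralizer ({z} : Set G))), hj,
      Nat.factorization_mul Nat.card_pos.ne' (pow_ne_zero _ hM.1.ne_zero), Finsupp.add_apply,
      Nat.factorization_eq_zero_of_not_dvd h5, zero_add, hM.1.factorization_pow, Finsupp.single_eq_same]
  rw [h7]
  rw [finsum_mem_eq_finite_toFinset_sum _ (Set.toFinite _)] at h6 ⊢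
  have h3 : ∀ w : ℂ, w * (starRingEnd ℂ) w = ((‖w‖ ^ 2 : ℝ) : ℂ) := by
    intro w
    rw [Complex.mul_conj, Complex.normSq_eq_norm_sq]
  simp only [h3] at h6
  exact_mod_cast h6

end Cfsg.Agent.S0947
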