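import Cfsg.Statements.S0948
import Cfsg.Agent.Lib.BlockKlein

set_option autoImplicit false
open Cfsg

namespace Cfsg.Agent.S0948

/-- Let the finite group G have a Sylow 2-subgroup P that is a Klein four-group, suppose all involutions of G are conjugate, and fix a maximal ideal M of the algebraic integers containing 2. Then the principal block consists of exactly four irreducible characters, the principal character and ζ₂, ζ₃, ζ₄, and there is a sign ε such that for every involution z: ζ₂ z = 1, ζ₃ z = ε, ζ₄ z = -1; moreover ζ₂ 1 ≡ 1, ζ₃ 1 ≡ ε, ζ₄ 1 ≡ -1 (mod 4), and 1 + ζ₂ y + ε ζ₃ y - ζ₄ y = 0 for every y of odd order. -/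
theorem result {G : Type*} [Group G] [Finite G] (M : Ideal Cfsg.AlgInt) (hM : Cfsg.IsPModular 2 M) (P : Sylow 2 G) (hP : IsKleinFour (P : Subgroup G)) (hone : ∀ s t : G, orderOf s = 2 → orderOf t = 2 → IsConj s t) : ∃ ζ₂ ζ₃ ζ₄ : Cfsg.IrrCharacter G, ∃ ε : ℤ, (ε = 1 ∨ ε = -1) ∧ (ζ₂ : G → ℂ) ≠ (fun _ => 1) ∧ (ζ₃ : G → ℂ) ≠ (fun _ => 1) ∧ ζ₂ ≠ ζ₃ ∧ ζ₂ ≠ ζ₄ ∧ ζ₃ ≠ ζ₄ ∧ Cfsg.principalBlock M G = {χ : Cfsg.IrrCharacter G | (χ : G → ℂ) = (fun _ => 1) ∨ χ = ζ₂ ∨ χ = ζ₃ ∨ χ = ζ₄} ∧ (∀ z : G, orderOf z = 2 → (ζ₂ : G → ℂ) z = 1 ∧ (ζ₃ : G → ℂ) z = (ε : ℂ) ∧ (ζ₄ : G → ℂ) z = -1) ∧ (4 : ℤ) ∣ (Cfsg.charDegree (ζ₂ : G → ℂ) : ℤ) - 1 ∧ (4 : ℤ) ∣ (Cfsg.charDegree (ζ₃ : G → ℂ) : ℤ) - ε ∧ (4 : ℤ) ∣ (Cfsg.charDegree (ζ₄ : G → ℂ) : ℤ) + 1 ∧ ∀ y : G, Odd (orderOf y) → 1 + (ζ₂ : G → ℂ) y + (ε : ℂ) * (ζ₃ : G → ℂ) y - (ζ₄ : G → ℂ) y = 0 :=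 by
  obtain ⟨a, ζ₂, ζ₃, ζ₄, ha, hdeg, ⟨h2, h3, h4⟩, ⟨ht2, ht3, ht4, h23, h24, h34⟩, hS, hy⟩ :=
    Lib.BlockKlein.klein_block hM P hP hone
  have hne : ∀ χ : IrrCharacter G, Lib.BlockThird.triv G ≠ χ → (χ : G → ℂ) ≠ (fun _ => 1) := by
    intro χ h h'
    exact h (Subtype.ext h'.symm)
  refine ⟨ζ₂, ζ₃, ζ₄, a ζ₃, h3, hne _ ht2, hne _ ht3, h23, h24, h34, ?_, ?_, ?_, ?_, ?_, ?_⟩
  · ext χ
    rw [← Set.Finite.mem_toFinset (Set.toFinite (principalBlock M G)), hS]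
    simp only [Finset.mem_insert, Finset.mem_singleton, Set.mem_setOf_eq]
    have h5 : χ = Lib.BlockThird.triv G ↔ (χ : G → ℂ) = (fun _ => 1) :=
      ⟨fun h => by rw [h]; rfl, fun h => Subtype.ext h⟩
    rw [h5]
  · intro z hz
    refine ⟨?_, ha ζ₃ z hz, ?_⟩
    · rw [ha ζ₂ z hz, h2]; norm_num
    · rw [ha ζ₄ z hz, h4]; norm_num
  · have := hdeg ζ₂
    rwa [h2] at this
  · exact hdeg ζ₃
  · have := hdeg ζ₄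
    rw [h4] at this
    simpa using this
  · intro y hyo
    refine hy y ?_
    intro h
    obtain ⟨k, hk⟩ := h
    rw [hk] at hyo
    exact (Nat.not_odd_iff_even.2 (even_two_mul k)) hyo

end Cfsg.Agent.S0948
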