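import Cfsg.Statements.S0950
import Cfsg.Agent.Lib.BSQ8Local

set_option autoImplicit false
open Cfsg

namespace Cfsg.Agent.S0950

open Cfsg Cfsg.Agent.Lib.Involutions Cfsg.Agent.Lib.BSQ8Local

universe u

variable {G : Type u} [Group G]

/-- conjugate by an element normalizing `P` -/
def NR (P : Subgroup G) (u v : G) : Prop := ∃ n ∈ Subgroup.normalizer (P : Set G), n * u * n⁻¹ = v

theorem NR.refl (P : Subgroup G) (u : G) : NR P u u := ⟨1, Subgroup.one_mem _, by simp⟩

theorem NR.symm {P : Subgroup G} {u v : G} (h : NR P u v) : NR P v u := by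
  obtain ⟨n, hn, rfl⟩ := h
  exact ⟨n⁻¹, Subgroup.inv_mem _ hn, by group⟩

theorem NR.trans {P : Subgroup G} {u v w : G} (h : NR P u v) (h' : NR P v w) : NR P u w := by
  obtain ⟨n, hn, rfl⟩ := h
  obtain ⟨m, hm, rfl⟩ := h'
  exact ⟨m * n, Subgroup.mul_mem _ hm hn, by group⟩

/-- fusion of the elements of order 4 in the normalizer (after helper4's `BSQ8Local.all_conj`) -/
theorem all_conjN {P : Subgroup G} {z : G} (hQ : IsQ8 P z) {g : G}
    (hg : g ∈ Subgroup.normalizer (P : Set G)) (hodd : Odd (orderOf g))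
    (hnc : ¬ ∀ v ∈ P, Commute g v) {u v : G} (hu : u ∈ P) (hv : v ∈ P) (hu2 : u * u = z)
    (hv2 : v * v = z) : NR P u v := by
  have hself : ∀ w ∈ P, w * w = z → NR P w w⁻¹ := by
    intro w hw hw2
    obtain ⟨h, hhP, hh⟩ := hQ.inv w hw hw2
    exact ⟨h, Subgroup.le_normalizer ‹h ∈ P›, hh⟩
  have hconj : ∀ w w' : G, g * w * g⁻¹ = w' → NR P w w' := fun w w' h => ⟨g, hg, h⟩
  by_cases h1 : v = u
  · rw [h1]; exact NR.refl P u
  by_cases h2 : v = u⁻¹
  · rw [h2]; exact hself u hu hu2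
  have hgP : ∀ w ∈ P, g * w * g⁻¹ ∈ P := fun w hw => (Subgroup.mem_normalizer_iff.1 hg w).1 hw
  have hvi : NR P v⁻¹ v := (hself v hv hv2).symm
  -- `σ w` is never in `⟨w⟩`
  have hmove : ∀ w ∈ P, w * w = z → g * w * g⁻¹ ≠ w ∧ g * w * g⁻¹ ≠ w⁻¹ := by
    intro w hw hw2
    constructor
    · intro h; exact hnc (odd_fix hQ hg hodd hw hw2 (Or.inl h))
    · intro h; exact hnc (odd_fix hQ hg hodd hw hw2 (Or.inr h))
  have hnot : ∀ w ∈ P, w * w = z → g * w * g⁻¹ ≠ 1 ∧ g * w * g⁻¹ ≠ z := by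
    intro w hw hw2
    have h3 := hQ.conj_sq hg hw2
    constructor
    · intro h
      rw [h, mul_one] at h3
      exact hQ.zne h3.symm
    · intro h
      rw [h, hQ.zz] at h3
      exact hQ.zne h3.symm
  obtain ⟨h5, h6⟩ := hQ.mul u hu v hv hu2 hv2 h1 h2
  have huvP : u * v ∈ P := P.mul_mem hu hv
  -- the second step
  have hstep : ∀ w ∈ P, w * w = z → (w = u * v ∨ w = (u * v)⁻¹) → g * u * g⁻¹ = w → NR P u v := by
    intro w hw hw2 hww hgu
    have hm := hmove w hw hw2
    have hn := hnot w hw hw2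
    have hbad : g * w * g⁻¹ = u ∨ g * w * g⁻¹ = u⁻¹ → False := by
      intro h
      apply hnc
      have hg2 : g ^ (1 + 1) ∈ Subgroup.normalizer (P : Set G) := pow_mem hg _
      have hodd2 : Odd (orderOf (g ^ (1 + 1))) := Odd.of_dvd_nat hodd (orderOf_pow_dvd _)
      have h7 : g ^ (1 + 1) * u * (g ^ (1 + 1))⁻¹ = u ∨ g ^ (1 + 1) * u * (g ^ (1 + 1))⁻¹ = u⁻¹ := by
        rw [conj_pow' g u 1, pow_one, hgu]; exact h
      have h8 := odd_fix hQ hg2 hodd2 hu hu2 h7
      intro w' hw'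
      exact commute_of_odd (k := 1) hodd (h8 w' hw')
    have hcw : NR P u w := hconj u w hgu
    rcases hQ.gen u hu v hv hu2 hv2 h1 h2 _ (hgP w hw) with h8 | h8 | h8 | h8 | h8 | h8 | h8 | h8
    · exact absurd h8 hn.1
    · exact absurd h8 hn.2
    · exact (hbad (Or.inl h8)).elim
    · exact (hbad (Or.inr h8)).elim
    · exact hcw.trans (hconj w v h8)
    · exact (hcw.trans (hconj w v⁻¹ h8)).trans hvi
    · exfalso
      rcases hww with h9 | h9
      · exact hm.1 (h8.trans h9.symm)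
      · apply hm.2; rw [h8, h9, inv_inv]
    · exfalso
      rcases hww with h9 | h9
      · apply hm.2; rw [h8, h9]
      · exact hm.1 (h8.trans h9.symm)
  have hn := hnot u hu hu2
  have hm := hmove u hu hu2
  rcases hQ.gen u hu v hv hu2 hv2 h1 h2 _ (hgP u hu) with h8 | h8 | h8 | h8 | h8 | h8 | h8 | h8
  · exact absurd h8 hn.1
  · exact absurd h8 hn.2
  · exact absurd h8 hm.1
  · exact absurd h8 hm.2
  · exact hconj u v h8
  · exact (hconj u v⁻¹ h8).trans hvi
  · exact hstep _ huvP h6 (Or.inl rfl) h8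
  · exact hstep _ (P.inv_mem huvP) (hQ.inv_sq h6) (Or.inr rfl) h8


theorem exists_gen {P : Subgroup G} {z : G} (hQ : IsQ8 P z) [Finite G] {A : Subgroup G} (hA : A ≤ P)
    (hA4 : Nat.card A = 4) : ∃ u ∈ A, u * u = z ∧ A = Subgroup.zpowers u := by
  classical
  have h1 : ∃ u ∈ A, u * u = z := by
    by_contra hn
    push_neg at hn
    have h2 : ∀ u ∈ A, u = 1 ∨ u = z := by
      intro u hu
      rcases hQ.sq u (hA hu) with h | h | h
      · exact Or.inl h
      · exact Or.inr h
      · exact absurd h (hn u hu)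
    have h3 : (A : Set G) ⊆ {1, z} := by
      intro u hu
      rcases h2 u hu with h | h
      · exact Or.inl h
      · exact Or.inr h
    have h4 : Set.ncard (A : Set G) ≤ Set.ncard ({1, z} : Set G) := Set.ncard_le_ncard h3 (Set.toFinite _)
    have h5 : Set.ncard (A : Set G) = 4 := hA4
    have h6 : Set.ncard ({1, z} : Set G) ≤ 2 := Set.ncard_insert_le 1 {z} |>.trans (by simp)
    omega
  obtain ⟨u, hu, hu2⟩ := h1
  refine ⟨u, hu, hu2, ?_⟩
  symm
  apply Subgroup.eq_of_le_of_card_ge (Subgroup.zpowers_le.2 hu)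
  rw [hA4, Nat.card_zpowers, hQ.orderOf_eq_four hu2]

/-- Let S be a Sylow 2-subgroup of the finite group G that is isomorphic to the quaternion group of order 8, and suppose S has no normal complement in G. Then any two subgroups of order 4 of S are conjugate by an element of the normalizer of S. -/
theorem result {G : Type*} [Group G] [Finite G] (S : Sylow 2 G) (e : (S : Subgroup G) ≃* QuaternionGroup 2) (hnc : ∀ N : Subgroup G, N.Normal → ¬ Subgroup.IsComplement' N (S : Subgroup G)) (A B : Subgroup G) (hA : A ≤ S) (hB : B ≤ S) (hA4 : Nat.card A = 4) (hB4 : Nat.card B = 4) : ∃ n ∈ Subgroup.normalizer ((S : Subgroup G) : Set G), B = A.map (MulAut.conj n).toMonoidHom := by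
  classical
  obtain ⟨z, hQ⟩ := isQ8_of_equiv e
  obtain ⟨u, hu, hu2, hAu⟩ := exists_gen hQ hA hA4
  obtain ⟨v, hv, hv2, hBv⟩ := exists_gen hQ hB hB4
  have hex : ∃ g ∈ Subgroup.normalizer ((S : Subgroup G) : Set G), Odd (orderOf g) ∧
      ¬ ∀ v ∈ (S : Subgroup G), Commute g v := by
    by_contra hn
    push_neg at hn
    have hc : HasNormalPComplement 2 G := by
      apply hasNormalPComplement S hQ
      intro g hg hodd v hv
      by_contra h
      obtain ⟨v', hv', h'⟩ : ∃ v ∈ (S : Subgroup G), ¬ Commute g v := ⟨v, hv, h⟩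
      exact h' (hn g hg hodd v' hv')
    obtain ⟨P', N, hN, hN'⟩ := hc
    apply hnc N hN
    have hcP : Nat.card P' = Nat.card S := by
      rw [P'.card_eq_multiplicity, S.card_eq_multiplicity]
    have h1 : Nat.card N * Nat.card S = Nat.card G := by
      rw [← hcP]
      exact hN'.card_mul_card
    apply Subgroup.isComplement'_of_coprime h1
    have h2 : ¬ 2 ∣ Nat.card N := by
      have h3 : Nat.card N = (P' : Subgroup G).index := hN'.index_eq_card.symm
      rw [h3]
      exact P'.not_dvd_index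
    rw [S.card_eq_multiplicity]
    exact Nat.Coprime.pow_right _ ((Nat.Prime.coprime_iff_not_dvd Nat.prime_two).2 h2).symm
  obtain ⟨g, hg, hodd, hnc'⟩ := hex
  obtain ⟨n, hn, hnuv⟩ := all_conjN hQ hg hodd hnc' (hA hu) (hB hv) hu2 hv2
  refine ⟨n, hn, ?_⟩
  rw [hAu, hBv, MonoidHom.map_zpowers]
  congr 1
  exact hnuv.symm

end Cfsg.Agent.S0950
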