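import Cfsg.Statements.S0953
import Cfsg.Agent.Lib.BlockCountH16

set_option autoImplicit false
open Cfsg

namespace Cfsg.Agent.S0953

open Cfsg Cfsg.Agent.Lib.BlockRing Cfsg.Agent.Lib.BlockGA Cfsg.Agent.Lib.BlockIdem Cfsg.Agent.Lib.BlockHom
open Cfsg.Agent.Lib.BlockRes (resH coeff_resH brH)
open Cfsg.Agent.Lib.CharBasic Cfsg.Agent.Lib.BlockNormP Cfsg.Agent.Lib.BlockDefect Cfsg.Agent.Lib.BlockFirst
open Cfsg.Agent.Lib.BlockCountH16

/-- Let P be a Sylow p-subgroup of the finite group G with normalizer N, and fix a maximal ideal M of the algebraic integers containing p. The number of blocks of G having P as a defect group equals the number of conjugacy classes of N consisting of elements of order prime to p that centralize P. -/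
theorem result {G : Type*} [Group G] [Finite G] (p : ℕ) [Fact p.Prime] (M : Ideal Cfsg.AlgInt) (hM : Cfsg.IsPModular p M) (P : Sylow p G) : Nat.card {B : Set (Cfsg.IrrCharacter G) // Cfsg.IsPBlock M B ∧ Cfsg.IsDefectGroup p M B (P : Subgroup G)} = Nat.card {C : ConjClasses (Subgroup.normalizer ((P : Subgroup G) : Set G)) // ∀ n : Subgroup.normalizer ((P : Subgroup G) : Set G), ConjClasses.mk n = C → ¬ p ∣ orderOf n ∧ (n : G) ∈ Subgroup.centralizer ((P : Subgroup G) : Set G)} := by
  classical
  haveI := isPrime hM
  set N := Subgroup.normalizer ((P : Subgroup G) : Set G) with hN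
  have hPp : IsPGroup p (P : Subgroup G) := P.isPGroup'
  have hPN : (P : Subgroup G) ≤ N := Subgroup.le_normalizer
  have hCN : Subgroup.centralizer ((P : Subgroup G) : Set G) ≤ N := Subgroup.centralizer_le_normalizer _
  haveI hnorm : ((P : Subgroup G).subgroupOf N).Normal := Subgroup.normal_in_normalizer
  have hPp' : IsPGroup p ((P : Subgroup G).subgroupOf N) := hPp.of_equiv (Subgroup.subgroupOfEquivOfLe hPN).symm
  have hPi : ¬ p ∣ ((P : Subgroup G).subgroupOf N).index := by
    have h1 : ¬ p ∣ (P : Subgroup G).index := P.not_dvd_index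
    intro h2
    exact h1 (h2.trans (Subgroup.relIndex_dvd_index_of_le hPN))
  -- every block of N has defect group P
  have hall : ∀ b : Set (IrrCharacter N), IsPBlock M b → IsDefectGroup p M b ((P : Subgroup G).subgroupOf N) := by
    intro b hb
    obtain ⟨D, hD⟩ := exists_defectGroup hM hb
    have h1 := subgroupOf_le_defectGroup hM hPp hPN le_rfl hb hD
    have hDp : IsPGroup p D := defectGroup_isPGroup hD
    have h2 : D = (P : Subgroup G).subgroupOf N := by
      have h3 := (hPp'.toSylow hPi).is_maximal' hDp h1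
      exact h3
    rw [← h2]
    exact hD
  have h1 : Nat.card {B : Set (IrrCharacter G) // IsPBlock M B ∧ IsDefectGroup p M B (P : Subgroup G)} =
      Nat.card {b : Set (IrrCharacter N) // IsPBlock M b} := by
    symm
    choose F hF using fun b : {b : Set (IrrCharacter N) // IsPBlock M b} =>
      inducedBlockDefined (G := G) (P := (P : Subgroup G)) (H := N) hM hPp hPN hCN le_rfl b.2
    apply Nat.card_congr
    refine Equiv.ofBijective (fun b => ⟨F b, (hF b).2.1, first_main_defect hM hPp (hF b) (hall b.1 b.2)⟩) ⟨?_, ?_⟩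
    · intro b b' h
      have h2 : F b = F b' := congrArg Subtype.val h
      have h3 := hF b'
      rw [← h2] at h3
      exact Subtype.ext (first_main_unique hM hPp (hF b) (hall b.1 b.2) h3 (hall b'.1 b'.2))
    · rintro ⟨B, hB, hBD⟩
      obtain ⟨g, hg, hgD⟩ := isDefectGroup_iff.1 hBD
      have hgC : g ∈ Subgroup.centralizer ((P : Subgroup G) : Set G) := by
        rw [Subgroup.mem_centralizer_iff]
        intro d hd
        exact Subgroup.mem_centralizer_singleton_iff.1 (sylIn_le hgD hd)
      obtain ⟨b, hb⟩ := exists_inducing_block hM hPp hPN hCN le_rfl hB hgC hg.2.1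
      refine ⟨⟨b, hb.1⟩, Subtype.ext ?_⟩
      exact Cfsg.Agent.Lib.BlockInd.induced_unique (hF ⟨b, hb.1⟩) hb
  rw [h1, card_blocks_normal_sylow hM hPp' hPi]
  apply Nat.card_congr
  apply Equiv.subtypeEquivRight
  intro C
  have key : ∀ n : N, n ∈ Subgroup.centralizer (((P : Subgroup G).subgroupOf N : Subgroup N) : Set N) ↔
      (n : G) ∈ Subgroup.centralizer ((P : Subgroup G) : Set G) := by
    intro n
    rw [Subgroup.mem_centralizer_iff, Subgroup.mem_centralizer_iff]
    constructor
    · intro h u hu
      exact congrArg Subtype.val (h ⟨u, hPN hu⟩ (by rwa [SetLike.mem_coe, Subgroup.mem_subgroupOf]))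
    · intro h u hu
      rw [SetLike.mem_coe, Subgroup.mem_subgroupOf] at hu
      exact Subtype.ext (h u hu)
  simp only [key]

end Cfsg.Agent.S0953
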