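import Cfsg.Statements.S0954
import Cfsg.Agent.Lib.BlockPPrime
import Cfsg.Agent.Lib.Cores

set_option autoImplicit false
open Cfsg

namespace Cfsg.Agent.S0954

open Cfsg Cfsg.Agent.Lib.BlockRing Cfsg.Agent.Lib.BlockGA Cfsg.Agent.Lib.BlockIdem Cfsg.Agent.Lib.BlockCover
open Cfsg.Agent.Lib.BlockRes (resH coeff_resH)
open Cfsg.Agent.Lib.BlockSecond (incH coeff_incH_coe coeff_incH_of_not_mem lin_incH locA_incH)
open Cfsg.Agent.Lib.Clifford Cfsg.Agent.Lib.CharBasic Cfsg.Agent.Lib.BlockPPrime
open scoped ComplexConjugate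

/-- Let N be a normal subgroup of the finite group G of order prime to p and of p-power index (a normal p-complement), and fix a maximal ideal M of the algebraic integers containing p. Then two irreducible characters χ, ψ of G lie in the same block if and only if some irreducible character of N has nonzero inner product with both the restriction of χ and the restriction of ψ. -/
theorem result {G : Type*} [Group G] [Fintype G] (p : ℕ) [Fact p.Prime] (M : Ideal Cfsg.AlgInt) (hM : Cfsg.IsPModular p M) (N : Subgroup G) [N.Normal] [Fintype N] (hN : ¬ p ∣ Nat.card N) (hidx : ∃ k : ℕ, N.index = p ^ k) (χ ψ : Cfsg.IrrCharacter G) : Cfsg.SameBlock M (χ : G → ℂ) (ψ : G → ℂ) ↔ ∃ θ : Cfsg.IrrCharacter N, Cfsg.classInner (fun n : N => (χ : G → ℂ) n) (θ : N → ℂ) ≠ 0 ∧ Cfsg.classInner (fun n : N => (ψ : G → ℂ) n) (θ : N → ℂ) ≠ 0 := by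
  classical
  haveI := isPrime hM
  constructor
  · intro h
    obtain ⟨θ, hθ⟩ := exists_constituent_res N χ
    exact ⟨θ, hθ, constituent_of_sameBlock hM hN h hθ⟩
  · rintro ⟨θ, h1, h2⟩
    have hreg : ∀ g : G, g ∉ N → p ∣ orderOf g := by
      intro g hg
      by_contra hpg
      apply hg
      obtain ⟨k, hk⟩ := hidx
      have h1 : orderOf (QuotientGroup.mk' N g) ∣ orderOf g := orderOf_map_dvd _ g
      have h2 : orderOf (QuotientGroup.mk' N g) ∣ p ^ k := by
        rw [← hk]; exact orderOf_dvd_natCard _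
      have h3 : Nat.Coprime (orderOf g) (p ^ k) :=
        Nat.Coprime.pow_right k ((Nat.Prime.coprime_iff_not_dvd hM.1).2 hpg).symm
      have h4 : orderOf (QuotientGroup.mk' N g) = 1 := Nat.eq_one_of_dvd_coprimes h3 h1 h2
      rw [orderOf_eq_one_iff] at h4
      exact (QuotientGroup.eq_one_iff g).1 h4
    have h3 : ∀ n : N, MemLocalIdeal M (centralChar (χ : G → ℂ) (n : G) - centralChar (ψ : G → ℂ) (n : G)) := by
      intro n
      rw [centralChar_eq_inducedCentralChar h1 n.2, centralChar_eq_inducedCentralChar h2 n.2, sub_self]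
      exact idl_zero
    have hB := isPBlock_blockOf (M := M) χ
    have h4 := idl_omega_sub_omega_of_support h3 (eB_mem_center (blockOf M (χ : G → ℂ))) (locA_eB hB)
      (fun g hg => by rw [coeff_eB]; exact Cfsg.Agent.Lib.BlockOsima.blockCoeff_eq_zero hM hB (hreg g hg))
    rw [omega_eB_mem (mem_blockOf_self χ)] at h4
    have h5 : ψ ∈ blockOf M (χ : G → ℂ) := by
      by_contra h
      rw [omega_eB_not_mem h, sub_zero] at h4
      exact one_not_idl h4
    exact h5

end Cfsg.Agent.S0954
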