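import Cfsg.Statements.S0955
import Cfsg.Agent.Lib.BlockFirst
import Cfsg.Agent.Lib.Cores

set_option autoImplicit false
open Cfsg

namespace Cfsg.Agent.S0955

open Cfsg Cfsg.Agent.Lib.BlockRing Cfsg.Agent.Lib.BlockGA Cfsg.Agent.Lib.BlockIdem Cfsg.Agent.Lib.BlockHom
open Cfsg.Agent.Lib.BlockRes (resH coeff_resH brH)
open Cfsg.Agent.Lib.CharBasic Cfsg.Agent.Lib.BlockNormP Cfsg.Agent.Lib.BlockDefect Cfsg.Agent.Lib.BlockFirst

/-- Let D be a defect group of a block of the finite group G relative to a maximal ideal M of the algebraic integers containing the prime p. Then D is the largest normal p-subgroup of its own normalizer: O_p(N_G(D)) = D. -/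
theorem result {G : Type*} [Group G] [Finite G] (p : ℕ) [Fact p.Prime] (M : Ideal Cfsg.AlgInt) (hM : Cfsg.IsPModular p M) (B : Set (Cfsg.IrrCharacter G)) (hB : Cfsg.IsPBlock M B) (D : Subgroup G) (hD : Cfsg.IsDefectGroup p M B D) : (Cfsg.pCore p (Subgroup.normalizer (D : Set G))).map (Subgroup.normalizer (D : Set G)).subtype = D := by
  haveI := isPrime hM
  have hDp : IsPGroup p D := defectGroup_isPGroup hD
  have hDN : D ≤ Subgroup.normalizer (D : Set G) := Subgroup.le_normalizer
  have hCN : Subgroup.centralizer (D : Set G) ≤ Subgroup.normalizer (D : Set G) :=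
    Subgroup.centralizer_le_normalizer _
  have hc : ∃ c ∈ Subgroup.centralizer (D : Set G), ¬ MemLocalIdeal M (blockCoeff B c) := by
    obtain ⟨g, hg, hgD⟩ := isDefectGroup_iff.1 hD
    refine ⟨g, ?_, hg.2.1⟩
    rw [Subgroup.mem_centralizer_iff]
    intro d hd
    exact Subgroup.mem_centralizer_singleton_iff.1 (sylIn_le hgD hd)
  obtain ⟨c, hc, hc'⟩ := hc
  obtain ⟨b, hb⟩ := exists_inducing_block hM hDp hDN hCN le_rfl hB hc hc'
  have hbD := defectGroup_of_induced hM hDN le_rfl hb hD
  have h1 : pCore p (Subgroup.normalizer (D : Set G)) = D.subgroupOf (Subgroup.normalizer (D : Set G)) := by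
    apply le_antisymm
    · exact le_defectGroup hM (Cfsg.Agent.Lib.Cores.isPGroup_pCore p _) hb.1 hbD
    · apply Cfsg.Agent.Lib.Cores.le_pCore Subgroup.normal_in_normalizer
      exact hDp.of_equiv (Subgroup.subgroupOfEquivOfLe hDN).symm
  rw [h1]
  exact Subgroup.map_subgroupOf_eq_of_le hDN

end Cfsg.Agent.S0955
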