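import Cfsg.Statements.S0956
import Cfsg.Agent.Lib.H16Green

set_option autoImplicit false
open Cfsg

namespace Cfsg.Agent.S0956

open Cfsg Cfsg.Agent.Lib.BlockRing Cfsg.Agent.Lib.BlockIdem Cfsg.Agent.Lib.BlockDefect Cfsg.Agent.Lib.BlockFirst
  Cfsg.Agent.Lib.H16Green

theorem lt_normalizer_inf {G : Type*} [Group G] [Finite G] {p : ℕ} [Fact p.Prime] {Q P : Subgroup G} (hP : IsPGroup p P) (hQP : Q < P) :
    Q < Subgroup.normalizer (Q : Set G) ⊓ P := by
  have hnil : Group.IsNilpotent P := hP.isNilpotent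
  have h1 : Q.subgroupOf P < ⊤ := by
    rw [lt_top_iff_ne_top]
    intro h
    rw [Subgroup.subgroupOf_eq_top] at h
    exact absurd h (not_le_of_gt hQP)
  have h2 := Group.normalizerCondition_of_isNilpotent (G := P) (Q.subgroupOf P) h1
  refine lt_of_le_of_ne (le_inf Subgroup.le_normalizer hQP.le) ?_
  intro heq
  obtain ⟨x, hx1, hx2⟩ := SetLike.exists_of_lt h2
  apply hx2
  rw [Subgroup.mem_subgroupOf, heq]
  refine Subgroup.mem_inf.mpr ⟨?_, x.2⟩
  rw [Subgroup.mem_normalizer_iff] at hx1 ⊢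
  intro h
  constructor
  · intro hh
    have := (hx1 ⟨h, hQP.le hh⟩).mp (Subgroup.mem_subgroupOf.mpr hh)
    simpa [Subgroup.mem_subgroupOf] using this
  · intro hh
    have hxh : h ∈ P := by
      have h3 : (x : G) * h * (x : G)⁻¹ ∈ P := hQP.le hh
      have h4 : h = (x : G)⁻¹ * ((x : G) * h * (x : G)⁻¹) * x := by group
      rw [h4]
      exact mul_mem (mul_mem (inv_mem x.2) h3) x.2
    have := (hx1 ⟨h, hxh⟩).mpr (by
      rw [Subgroup.mem_subgroupOf]
      simpa using hh)
    simpa [Subgroup.mem_subgroupOf] using this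

/-- Let D be a defect group of a block of the finite group G (relative to a maximal ideal M of the algebraic integers containing the prime p) and P a Sylow p-subgroup containing D. Then there is an element x of order prime to p such that D is a Sylow p-subgroup of the centralizer of x and D = P ∩ x P x⁻¹. -/
theorem result {G : Type*} [Group G] [Finite G] (p : ℕ) [Fact p.Prime] (M : Ideal Cfsg.AlgInt) (hM : Cfsg.IsPModular p M) (B : Set (Cfsg.IrrCharacter G)) (hB : Cfsg.IsPBlock M B) (D : Subgroup G) (hD : Cfsg.IsDefectGroup p M B D) (P : Sylow p G) (hDP : D ≤ P) : ∃ x : G, ¬ p ∣ orderOf x ∧ (∃ S : Sylow p (Subgroup.centralizer ({x} : Set G)), (S : Subgroup (Subgroup.centralizer ({x} : Set G))).map (Subgroup.centralizer ({x} : Set G)).subtype = D) ∧ (P : Subgroup G) ⊓ (P : Subgroup G).map (MulAut.conj x).toMonoidHom = D := by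
  classical
  haveI := isPrime hM
  haveI := Fintype.ofFinite (Subgroup.normalizer (D : Set G))
  have hDp := defectGroup_isPGroup hD
  have hDN : D ≤ Subgroup.normalizer (D : Set G) := Subgroup.le_normalizer
  obtain ⟨h, hh, hhD⟩ := isDefectGroup_iff.1 hD
  have hhC : h ∈ Subgroup.centralizer (D : Set G) := by
    rw [Subgroup.mem_centralizer_iff]
    intro x hx
    exact Subgroup.mem_centralizer_singleton_iff.1 (sylIn_le hhD hx)
  obtain ⟨b, hb⟩ := exists_inducing_block hM hDp hDN (Subgroup.centralizer_le_normalizer _) le_rfl hB hhC hh.2.1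
  have hbD := defectGroup_of_induced hM hDN le_rfl hb hD
  -- a Sylow subgroup of the normalizer
  have hPN : IsPGroup p (((P : Subgroup G) ⊓ Subgroup.normalizer (D : Set G)).subgroupOf
      (Subgroup.normalizer (D : Set G))) := by
    have h1 : IsPGroup p ((P : Subgroup G) ⊓ Subgroup.normalizer (D : Set G) : Subgroup G) :=
      P.isPGroup'.to_le inf_le_left
    exact h1.of_equiv (Subgroup.subgroupOfEquivOfLe inf_le_right).symm
  obtain ⟨S, hS⟩ := hPN.exists_le_sylow
  obtain ⟨x, hx, hxS⟩ := exists_good hM hb.1 S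
  have hQ := isDefectGroup_iff.2 ⟨x, hx, hxS⟩
  obtain ⟨y, hy⟩ := defectGroup_conj hM hb.1 hbD hQ
  have hy' : (D.subgroupOf (Subgroup.normalizer (D : Set G))).map (MulAut.conj y).toMonoidHom =
      D.subgroupOf (Subgroup.normalizer (D : Set G)) := by
    ext z
    rw [Cfsg.Agent.Lib.BlockDefect.mem_map_conj]
    have h1 := Subgroup.mem_normalizer_iff.1 ((Subgroup.normalizer (D : Set G)).inv_mem y.2) (z : G)
    rw [inv_inv] at h1
    exact h1.symm
  rw [hy'] at hy
  rw [hy] at hxS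
  have hxD : SylC p (x : G) D := sylC_of_normalizer hxS
  refine ⟨x, ?_, ?_, ?_⟩
  · intro hp
    rw [Subgroup.orderOf_coe] at hp
    apply hx.2.1
    rw [Cfsg.Agent.Lib.BlockOsima.blockCoeff_eq_zero hM hb.1 hp]
    exact idl_zero
  · obtain ⟨T, hT⟩ := hxD
    exact ⟨T, hT.symm⟩
  · -- `P ∩ xPx⁻¹ = D`
    have hxC : ∀ u ∈ D, (x : G) * u = u * x := fun u hu =>
      (Subgroup.mem_centralizer_singleton_iff.1 (sylIn_le hxD hu)).symm
    have hDR : D ≤ (P : Subgroup G) ⊓ (P : Subgroup G).map (MulAut.conj (x : G)).toMonoidHom := by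
      intro u hu
      refine ⟨hDP hu, Cfsg.Agent.Lib.BlockDefect.mem_map_conj.2 ?_⟩
      have h1 : (x : G)⁻¹ * u * x = u := by
        rw [mul_assoc, ← hxC u hu]; group
      rw [h1]
      exact hDP hu
    by_contra hne
    have hlt : D < (P : Subgroup G) ⊓ (P : Subgroup G).map (MulAut.conj (x : G)).toMonoidHom :=
      lt_of_le_of_ne hDR (Ne.symm hne)
    have hRp : IsPGroup p ((P : Subgroup G) ⊓ (P : Subgroup G).map (MulAut.conj (x : G)).toMonoidHom : Subgroup G) :=
      P.isPGroup'.to_le inf_le_left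
    -- the normalizer condition
    obtain ⟨r, hr, hrN, hrD⟩ : ∃ r ∈ (P : Subgroup G) ⊓ (P : Subgroup G).map (MulAut.conj (x : G)).toMonoidHom,
        r ∈ Subgroup.normalizer (D : Set G) ∧ r ∉ D := by
      obtain ⟨r, hr1, hr2⟩ := SetLike.exists_of_lt (lt_normalizer_inf hRp hlt)
      exact ⟨r, hr1.2, hr1.1, hr2⟩
    apply hrD
    have h1 : (⟨r, hrN⟩ : Subgroup.normalizer (D : Set G)) ∈ (S : Subgroup (Subgroup.normalizer (D : Set G))) :=
      hS ⟨hr.1, hrN⟩
    have h2 : (x : G)⁻¹ * r * x ∈ (P : Subgroup G) := Cfsg.Agent.Lib.BlockDefect.mem_map_conj.1 hr.2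
    have h3 : x⁻¹ * (⟨r, hrN⟩ : Subgroup.normalizer (D : Set G)) * x ∈
        (S : Subgroup (Subgroup.normalizer (D : Set G))) :=
      hS ⟨h2, ((x⁻¹ * (⟨r, hrN⟩ : Subgroup.normalizer (D : Set G)) * x) : Subgroup.normalizer (D : Set G)).2⟩
    have h4 : (⟨r, hrN⟩ : Subgroup.normalizer (D : Set G)) ∈
        (S : Subgroup (Subgroup.normalizer (D : Set G))) ⊓
          (S : Subgroup (Subgroup.normalizer (D : Set G))).map (MulAut.conj x).toMonoidHom :=
      ⟨h1, Cfsg.Agent.Lib.BlockDefect.mem_map_conj.2 h3⟩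
    rw [hy] at h4
    exact h4

end Cfsg.Agent.S0956
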