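import Cfsg.Statements.S0958
import Cfsg.Agent.Lib.BlockFirst

set_option autoImplicit false
open Cfsg

namespace Cfsg.Agent.S0958

open Cfsg Cfsg.Agent.Lib.BlockRing Cfsg.Agent.Lib.BlockGA Cfsg.Agent.Lib.BlockIdem Cfsg.Agent.Lib.BlockHom
open Cfsg.Agent.Lib.BlockRes (resH coeff_resH brH)
open Cfsg.Agent.Lib.CharBasic Cfsg.Agent.Lib.BlockNormP Cfsg.Agent.Lib.BlockDefect Cfsg.Agent.Lib.BlockFirst

/-- Let P be a p-subgroup of the finite group G and H a subgroup with P ⊔ C_G(P) ≤ H ≤ N_G(P); fix a maximal ideal M of the algebraic integers containing p. Then a block B of G is induced by some block of H if and only if some conjugate of P is contained in a defect group of B. -/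
theorem result {G : Type*} [Group G] [Finite G] (p : ℕ) [Fact p.Prime] (M : Ideal Cfsg.AlgInt) (hM : Cfsg.IsPModular p M) (P H : Subgroup G) (hP : IsPGroup p P) (hPH : P ⊔ Subgroup.centralizer (P : Set G) ≤ H) (hHN : H ≤ Subgroup.normalizer (P : Set G)) (B : Set (Cfsg.IrrCharacter G)) (hB : Cfsg.IsPBlock M B) : (∃ b : Set (Cfsg.IrrCharacter H), Cfsg.IsInducedBlock M H b B) ↔ ∃ D : Subgroup G, Cfsg.IsDefectGroup p M B D ∧ ∃ x : G, P.map (MulAut.conj x).toMonoidHom ≤ D := by
  haveI := isPrime hM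
  have hPH' : P ≤ H := le_sup_left.trans hPH
  have hCH : Subgroup.centralizer (P : Set G) ≤ H := le_sup_right.trans hPH
  constructor
  · rintro ⟨b, hb⟩
    obtain ⟨D, hD⟩ := exists_defectGroup hM hb.1
    obtain ⟨E, hE⟩ := exists_defectGroup hM hB
    obtain ⟨x, hx⟩ := exists_conj_le hM hb hD hE
    have h1 := subgroupOf_le_defectGroup hM hP hPH' hHN hb.1 hD
    refine ⟨_, defectGroup_map_conj hE x, 1, ?_⟩
    rw [map_conj_one]
    refine le_trans ?_ hx
    rw [← Subgroup.map_subgroupOf_eq_of_le hPH']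
    exact Subgroup.map_mono h1
  · rintro ⟨D, hD, x, hx⟩
    obtain ⟨g, hg, hgD⟩ := isDefectGroup_iff.1 hD
    have h1 : x⁻¹ * g * x ∈ Subgroup.centralizer (P : Set G) := by
      rw [Subgroup.mem_centralizer_iff]
      intro u hu
      have h2 : x * u * x⁻¹ ∈ D := hx ⟨u, hu, rfl⟩
      have h3 := Subgroup.mem_centralizer_singleton_iff.1 (sylIn_le hgD h2)
      have h4 := congrArg (fun t => x⁻¹ * t * x) h3
      simpa [mul_assoc] using h4
    apply exists_inducing_block hM hP hPH' hCH hHN hB h1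
    have h2 : blockCoeff B (x⁻¹ * g * x) = blockCoeff B g := by
      have := isClassFunction_blockCoeff B g x⁻¹
      simpa using this
    rw [h2]
    exact hg.2.1

end Cfsg.Agent.S0958
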