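import Cfsg.Statements.S0959
import Cfsg.Agent.Lib.BlockFirst

set_option autoImplicit false
open Cfsg

namespace Cfsg.Agent.S0959

open Cfsg Cfsg.Agent.Lib.BlockRing Cfsg.Agent.Lib.BlockGA Cfsg.Agent.Lib.BlockIdem Cfsg.Agent.Lib.BlockHom
open Cfsg.Agent.Lib.BlockRes (resH coeff_resH brH)
open Cfsg.Agent.Lib.CharBasic Cfsg.Agent.Lib.BlockNormP Cfsg.Agent.Lib.BlockDefect Cfsg.Agent.Lib.BlockFirst

/-- Let B be a block of the finite group G with defect group D (relative to a maximal ideal M of the algebraic integers containing the prime p), and let P be a p-subgroup. Then there is an element g whose idempotent coefficient for B is a local integer outside the local ideal at M and which has a conjugate centralizing P, if and only if some conjugate of P is contained in D. -/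
theorem result {G : Type*} [Group G] [Finite G] (p : ℕ) [Fact p.Prime] (M : Ideal Cfsg.AlgInt) (hM : Cfsg.IsPModular p M) (B : Set (Cfsg.IrrCharacter G)) (hB : Cfsg.IsPBlock M B) (D : Subgroup G) (hD : Cfsg.IsDefectGroup p M B D) (P : Subgroup G) (hP : IsPGroup p P) : (∃ g : G, Cfsg.MemLocalRing M (Cfsg.blockCoeff B g) ∧ ¬ Cfsg.MemLocalIdeal M (Cfsg.blockCoeff B g) ∧ ∃ c : G, IsConj g c ∧ c ∈ Subgroup.centralizer (P : Set G)) ↔ ∃ x : G, P.map (MulAut.conj x).toMonoidHom ≤ D := by
  haveI := isPrime hM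
  constructor
  · rintro ⟨g, _, hg, c, hc, hcP⟩
    have h1 : blockCoeff B c = blockCoeff B g := (isClassFunction_blockCoeff B).conj_eq hc.symm
    rw [← h1] at hg
    have h2 := minmax_coeff hM hB hD hg
    have h3 : P ≤ Subgroup.centralizer ({c} : Set G) := by
      intro u hu
      rw [Subgroup.mem_centralizer_singleton_iff]
      exact Subgroup.mem_centralizer_iff.1 hcP u hu
    obtain ⟨x, hx⟩ := defLE_le h2 h3 hP
    refine ⟨x⁻¹, ?_⟩
    rw [map_conj_le_iff, inv_inv]
    exact hx
  · rintro ⟨x, hx⟩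
    obtain ⟨g, hg, hgD⟩ := isDefectGroup_iff.1 hD
    refine ⟨g, hg.1, hg.2.1, x⁻¹ * g * x, isConj_iff.2 ⟨x⁻¹, by simp⟩, ?_⟩
    rw [Subgroup.mem_centralizer_iff]
    intro u hu
    have h2 : x * u * x⁻¹ ∈ D := hx ⟨u, hu, rfl⟩
    have h3 := Subgroup.mem_centralizer_singleton_iff.1 (sylIn_le hgD h2)
    have h4 := congrArg (fun t => x⁻¹ * t * x) h3
    simpa [mul_assoc] using h4

end Cfsg.Agent.S0959
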