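import Cfsg.Statements.S0962
import Mathlib
import Cfsg.Agent.Lib.BlockDefect

set_option autoImplicit false
open Cfsg

namespace Cfsg.Agent.S0962
open Cfsg.Agent.Lib Cfsg.Agent.Lib.BlockRing Cfsg.Agent.Lib.BlockGA Cfsg.Agent.Lib.BlockIdem Cfsg.Agent.Lib.BlockOsima Cfsg.Agent.Lib.BlockDefect
open scoped ComplexConjugate


/-- Fix a maximal ideal M of the algebraic integers containing the prime p and a natural number d. The number of blocks of the finite group G of defect at least d is at most the number of conjugacy classes of p-regular elements of G of defect at least d, where the defect of a class is the exponent of p in the order of the centralizer of any of its elements. -/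
theorem result {G : Type*} [Group G] [Finite G] (p : ℕ) [Fact p.Prime] (M : Ideal Cfsg.AlgInt) (hM : Cfsg.IsPModular p M) (d : ℕ) : Nat.card {B : Set (Cfsg.IrrCharacter G) // Cfsg.IsPBlock M B ∧ d ≤ Cfsg.blockDefect p B} ≤ Nat.card {C : ConjClasses G // ∃ g : G, ConjClasses.mk g = C ∧ Cfsg.IsPRegular p g ∧ d ≤ (Nat.card (Subgroup.centralizer ({g} : Set G))).factorization p} := by
  classical
  haveI := isPrime hM
  have := Fintype.ofFinite G
  have := Fintype.ofFinite (ConjClasses G)
  let X := {B : Set (IrrCharacter G) // IsPBlock M B ∧ d ≤ blockDefect p B}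
  let Y := {C : ConjClasses G // ∃ g : G, ConjClasses.mk g = C ∧ IsPRegular p g ∧
    d ≤ (Nat.card (Subgroup.centralizer ({g} : Set G))).factorization p}
  change Nat.card X ≤ Nat.card Y
  have : Fintype X := Fintype.ofFinite _
  have : Fintype Y := Fintype.ofFinite _
  let χ : X → IrrCharacter G := fun B => (isPBlock_nonempty B.2.1).choose
  have hχ : ∀ B : X, χ B ∈ (B : Set (IrrCharacter G)) := fun B => (isPBlock_nonempty B.2.1).choose_spec
  let P : Matrix X Y ℂ := fun B C => centralChar (χ B : G → ℂ) (Quotient.out (C : ConjClasses G))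
  let Q : Matrix Y X ℂ := fun C B => (eB (B : Set (IrrCharacter G))).coeff (Quotient.out (C : ConjClasses G))
  have hPQ : IdlMat M (P * Q - 1) := by
    intro B B'
    rw [Matrix.sub_apply, Matrix.mul_apply]
    have h1 : omega (χ B : G → ℂ) (eB (B' : Set (IrrCharacter G))) = (1 : Matrix X X ℂ) B B' := by
      rw [omega_eB, Matrix.one_apply]
      congr 1
      apply propext
      constructor
      · intro h; exact Subtype.ext (block_eq_of_mem B.2.1 B'.2.1 (hχ B) h)
      · rintro rfl; exact hχ B
    rw [← h1, omega_eq_sum (χ B).2.isClassFunction (eB_mem_center _)]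
    have h2 : ∑ C : Y, P B C * Q C B' = ∑ C ∈ Finset.univ.filter (fun C : ConjClasses G =>
        ∃ g : G, ConjClasses.mk g = C ∧ IsPRegular p g ∧
          d ≤ (Nat.card (Subgroup.centralizer ({g} : Set G))).factorization p),
        (eB (B' : Set (IrrCharacter G))).coeff (Quotient.out C) *
          centralChar (χ B : G → ℂ) (Quotient.out C) := by
      rw [Finset.sum_subtype (p := fun C : ConjClasses G => ∃ g : G, ConjClasses.mk g = C ∧ IsPRegular p g ∧
          d ≤ (Nat.card (Subgroup.centralizer ({g} : Set G))).factorization p) _ (by intro x; simp)]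
      exact Finset.sum_congr rfl fun C _ => mul_comm _ _
    rw [h2, Finset.sum_filter, ← Finset.sum_sub_distrib]
    refine idl_sum fun C _ => ?_
    split_ifs with hC
    · rw [sub_self]; exact idl_zero
    · rw [zero_sub]
      apply idl_neg
      set x := (Quotient.out C : G) with hx
      have hxC : ConjClasses.mk x = C := Quotient.out_eq C
      by_cases hreg : p ∣ orderOf x
      · rw [coeff_eB, blockCoeff_eq_zero hM B'.2.1 hreg, zero_mul]; exact idl_zero
      · have h3 : (Nat.card (Subgroup.centralizer ({x} : Set G))).factorization p < d := by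
          by_contra hcon
          push Not at hcon
          exact hC ⟨x, hxC, hreg, hcon⟩
        refine idl_mul_left (locA_eB B'.2.1 x) ?_
        by_contra hcon
        have h4 := fact_index_le_vdeg hM hcon
        obtain ⟨D, hD⟩ := exists_defectGroup hM B.2.1
        obtain ⟨S, hS⟩ := sylIn_exists (p := p) (Subgroup.centralizer ({x} : Set G))
        obtain ⟨y, hy⟩ := minmax_omega hM B.2.1 hD ⟨χ B, hχ B, hcon⟩ hS
        have h5 := Subgroup.card_le_of_le hy
        rw [card_map_conj, sylIn_card hS, defectGroup_card hM B.2.1 hD] at h5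
        have h6 := (Nat.pow_le_pow_iff_right hM.1.one_lt).1 h5
        have h7 := B.2.2
        omega
  have hu := isUnit_of_sub_one_idlMat hPQ
  have h1 : (P * Q).rank = Fintype.card X := Matrix.rank_of_isUnit _ hu
  have h2 := (Matrix.rank_mul_le_left P Q).trans (Matrix.rank_le_card_width P)
  rw [h1] at h2
  rw [Nat.card_eq_fintype_card, Nat.card_eq_fintype_card]
  exact h2

end Cfsg.Agent.S0962
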