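import Cfsg.Statements.S0963
import Cfsg.Agent.Lib.BlockCover2

set_option autoImplicit false
open Cfsg

namespace Cfsg.Agent.S0963

open Cfsg Cfsg.Agent.Lib.BlockRing Cfsg.Agent.Lib.BlockGA Cfsg.Agent.Lib.BlockIdem Cfsg.Agent.Lib.BlockCover
open Cfsg.Agent.Lib.BlockRes (resH coeff_resH)
open Cfsg.Agent.Lib.BlockSecond (incH coeff_incH_coe coeff_incH_of_not_mem lin_incH locA_incH)
open Cfsg.Agent.Lib.Clifford

/-- Let N be a normal subgroup of the finite group G, χ an irreducible character of G and θ an irreducible character of N. Then θ occurs in the restriction of χ to N if and only if, for every n ∈ N, the central character of χ at n (class size in G times χ n over χ 1) equals the sum of θ m / θ 1 over the elements m of N conjugate in G to n. -/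
theorem result {G : Type*} [Group G] [Fintype G] (N : Subgroup G) [N.Normal] [Fintype N] (χ : Cfsg.IrrCharacter G) (θ : Cfsg.IrrCharacter N) : Cfsg.classInner (fun n : N => (χ : G → ℂ) n) (θ : N → ℂ) ≠ 0 ↔ ∀ n : N, Cfsg.centralChar (χ : G → ℂ) (n : G) = Cfsg.inducedCentralChar N (θ : N → ℂ) (n : G) := by
  classical
  constructor
  · intro h n
    exact centralChar_eq_inducedCentralChar h n.2
  · intro h
    haveI := Fintype.ofFinite (ConjClasses G)
    have hz := incH_eB_mem_center (stable_orbitSet (G := G) ({θ} : Set (IrrCharacter N)))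
    have h1 := omega_eq_of_support h hz (fun g hg => coeff_incH_of_not_mem _ hg)
    rw [resH_incH, omega_eB_mem (subset_orbitSet _ (Set.mem_singleton θ))] at h1
    have h2 : omega (χ : G → ℂ) (incH N (eB (orbitSet N {θ}))) ≠ 0 := by
      rw [h1]; exact one_ne_zero
    obtain ⟨ψ, hψ, h3⟩ := exists_constituent_of_omega (stable_orbitSet _) h2
    obtain ⟨θ', hθ', h4⟩ := constituent_of_mem_orbitSet h3 hψ
    rw [Set.mem_singleton_iff] at hθ'
    rwa [hθ'] at h4

end Cfsg.Agent.S0963
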