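import Cfsg.Statements.S0967
import Cfsg.Agent.Lib.BlockCover2
import Cfsg.Agent.Lib.CharBasic2

set_option autoImplicit false
open Cfsg

namespace Cfsg.Agent.S0967

open Cfsg Cfsg.Agent.Lib.BlockRing Cfsg.Agent.Lib.BlockGA Cfsg.Agent.Lib.BlockIdem Cfsg.Agent.Lib.BlockCover
open Cfsg.Agent.Lib.BlockRes (resH coeff_resH)
open Cfsg.Agent.Lib.BlockSecond (incH coeff_incH_coe coeff_incH_of_not_mem lin_incH locA_incH)
open Cfsg.Agent.Lib.Clifford Cfsg.Agent.Lib.CharBasic
open scoped ComplexConjugate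

theorem sum_quot {G : Type*} [Group G] [Fintype G] (N : Subgroup G) [N.Normal] [Fintype (G ⧸ N)]
    (f : G ⧸ N → ℂ) : ∑ x : G, f (x : G ⧸ N) = (Nat.card N : ℂ) * ∑ y : G ⧸ N, f y := by
  classical
  haveI := Fintype.ofFinite N
  rw [← Equiv.sum_comp (Subgroup.groupEquivQuotientProdSubgroup (s := N)).symm, Fintype.sum_prod_type,
    Finset.mul_sum]
  refine Finset.sum_congr rfl fun y _ => ?_
  have h : ∀ n : N, f (((Subgroup.groupEquivQuotientProdSubgroup (s := N)).symm (y, n) : G) : G ⧸ N) = f y := by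
    intro n
    have h1 : (Subgroup.groupEquivQuotientProdSubgroup (s := N)
        ((Subgroup.groupEquivQuotientProdSubgroup (s := N)).symm (y, n))).1 = y := by simp
    have h2 : ∀ x : G, (Subgroup.groupEquivQuotientProdSubgroup (s := N) x).1 = (x : G ⧸ N) := by
      intro x
      rfl
    rw [h2] at h1
    rw [h1]
  simp only [h, Finset.sum_const, Finset.card_univ, nsmul_eq_mul, Nat.card_eq_fintype_card]

/-- Let N be a normal subgroup of the finite group G of order prime to p and fix a maximal ideal M of the algebraic integers containing p. If χ is an irreducible character of G ⧸ N and ψ lies in the block of its inflation χ ∘ (quotient map), then ψ is itself inflated from an irreducible character ψ' of G ⧸ N lying in the block of χ. (Over a normal p'-subgroup, blocks of the quotient are whole blocks of G.) -/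
theorem result {G : Type*} [Group G] [Finite G] (p : ℕ) [Fact p.Prime] (M : Ideal Cfsg.AlgInt) (hM : Cfsg.IsPModular p M) (N : Subgroup G) [N.Normal] (hN : ¬ p ∣ Nat.card N) (χ : Cfsg.IrrCharacter (G ⧸ N)) (ψ : Cfsg.IrrCharacter G) (hψ : ψ ∈ Cfsg.blockOf M ((χ : G ⧸ N → ℂ) ∘ QuotientGroup.mk)) : ∃ ψ' : Cfsg.IrrCharacter (G ⧸ N), (ψ : G → ℂ) = (ψ' : G ⧸ N → ℂ) ∘ QuotientGroup.mk ∧ Cfsg.SameBlock M (χ : G ⧸ N → ℂ) (ψ' : G ⧸ N → ℂ) := by
  classical
  haveI := isPrime hM
  haveI := Fintype.ofFinite G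
  haveI := Fintype.ofFinite N
  haveI := Fintype.ofFinite (G ⧸ N)
  have hinf : ∀ χ : IrrCharacter (G ⧸ N), IsIrrCharacter G ((χ : G ⧸ N → ℂ) ∘ QuotientGroup.mk) :=
    fun χ => χ.2.inflate N
  -- the trivial character of N
  let τ : IrrCharacter N := ⟨1, isIrrCharacter_one⟩
  have hst : Stable (G := G) ({τ} : Set (IrrCharacter N)) := by
    rintro g θ hθ ψ hψ
    rw [Set.mem_singleton_iff] at hθ ⊢
    subst hθ
    apply Subtype.ext
    rw [hψ]
    rfl
  have hz := incH_eB_mem_center hst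
  have hl : LocA M (incH N (eB ({τ} : Set (IrrCharacter N)))) := by
    apply locA_incH
    intro n
    rw [coeff_eB, blockCoeff_eq_sum', Finset.sum_eq_single τ]
    · rw [if_pos (Set.mem_singleton τ)]
      show MemLocalRing M ((Nat.card N : ℂ)⁻¹ * (1 * conj (1 : ℂ)))
      simpa using loc_inv_natCast hM hN
    · intro b _ hb
      rw [if_neg (by simpa using hb)]
    · intro h; exact absurd (Finset.mem_univ _) h
  have hcon : ∀ χ : IrrCharacter (G ⧸ N),
      classInner (fun x : N => ((χ : G ⧸ N → ℂ) ∘ QuotientGroup.mk) (x : G)) (τ : N → ℂ) ≠ 0 := by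
    intro χ
    have h1 : (fun x : N => ((χ : G ⧸ N → ℂ) ∘ QuotientGroup.mk) (x : G)) = fun x : N => (χ : G ⧸ N → ℂ) 1 := by
      funext x
      show (χ : G ⧸ N → ℂ) ((x : G) : G ⧸ N) = _
      rw [(QuotientGroup.eq_one_iff (x : G)).2 x.2]
    rw [h1]
    have h2 : classInner (fun x : N => (χ : G ⧸ N → ℂ) 1) (τ : N → ℂ) = (χ : G ⧸ N → ℂ) 1 := by
      rw [classInner]
      show (Nat.card N : ℂ)⁻¹ * ∑ x : N, (χ : G ⧸ N → ℂ) 1 * conj (1 : ℂ) = _
      simp only [map_one, mul_one, Finset.sum_const, Finset.card_univ, nsmul_eq_mul, Nat.card_eq_fintype_card]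
      rw [← mul_assoc, inv_mul_cancel₀ (by exact_mod_cast Fintype.card_ne_zero), one_mul]
    rw [h2]
    exact χ.2.one_ne_zero
  -- ψ is trivial on N
  have h1 := sameBlock_omega (hinf χ).isClassFunction ψ.2.isClassFunction hψ hz hl
  rw [omega_incH_eB_mem (χ := ⟨_, hinf χ⟩) (hcon χ) hst (Set.mem_singleton τ)] at h1
  have h2 : omega (ψ : G → ℂ) (incH N (eB ({τ} : Set (IrrCharacter N)))) ≠ 0 := by
    intro h3
    rw [h3, sub_zero] at h1
    exact one_not_idl h1
  obtain ⟨τ', hτ', h3⟩ := exists_constituent_of_omega hst h2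
  rw [Set.mem_singleton_iff] at hτ'
  subst hτ'
  have h4 := res_eq_smul_of_invariant ψ.2 τ.2 (fun g => rfl) h3
  have h5 : ∀ n ∈ N, (ψ : G → ℂ) n = (ψ : G → ℂ) 1 := by
    intro n hn
    have h6 := congrFun h4 ⟨n, hn⟩
    have h7 := congrFun h4 1
    exact h6.trans h7.symm
  obtain ⟨ψ', hψ', h6⟩ := ψ.2.deflate N h5
  refine ⟨⟨ψ', hψ'⟩, funext fun g => (h6 g).symm, ?_⟩
  -- same block
  intro y
  obtain ⟨g, rfl⟩ := QuotientGroup.mk_surjective y
  let z : GA G := ofFun fun x => if IsConj (g : G ⧸ N) (x : G ⧸ N) then (Nat.card N : ℂ)⁻¹ else 0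
  have hzc : z ∈ Subalgebra.center ℂ (GA G) := by
    rw [mem_center_iff]
    intro x h
    show (if IsConj (g : G ⧸ N) ((h * x * h⁻¹ : G) : G ⧸ N) then (Nat.card N : ℂ)⁻¹ else 0) =
      (if IsConj (g : G ⧸ N) (x : G ⧸ N) then (Nat.card N : ℂ)⁻¹ else 0)
    have h8 : IsConj ((h * x * h⁻¹ : G) : G ⧸ N) (x : G ⧸ N) := by
      apply IsConj.symm
      rw [isConj_iff]
      exact ⟨(h : G ⧸ N), rfl⟩
    have h9 : IsConj (g : G ⧸ N) ((h * x * h⁻¹ : G) : G ⧸ N) ↔ IsConj (g : G ⧸ N) (x : G ⧸ N) :=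
      ⟨fun h' => h'.trans h8, fun h' => h'.trans h8.symm⟩
    by_cases hc : IsConj (g : G ⧸ N) (x : G ⧸ N)
    · rw [if_pos hc, if_pos (h9.2 hc)]
    · rw [if_neg hc, if_neg (fun h' => hc (h9.1 h'))]
  have hzl : LocA M z := by
    intro x
    show MemLocalRing M (if IsConj (g : G ⧸ N) (x : G ⧸ N) then (Nat.card N : ℂ)⁻¹ else 0)
    split_ifs
    · exact loc_inv_natCast hM hN
    · exact loc_zero
  have key : ∀ χ : G ⧸ N → ℂ, IsClassFunction (G ⧸ N) χ →
      omega (fun x : G => χ (x : G ⧸ N)) z = centralChar χ (g : G ⧸ N) := by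
    intro χ hχ
    rw [← omega_classSum hχ, omega, omega, lin_apply, lin_apply]
    congr 1
    have h8 := sum_quot N (fun y : G ⧸ N => (if IsConj (g : G ⧸ N) y then (Nat.card N : ℂ)⁻¹ else 0) * χ y)
    have h9 : (∑ x : G, z.coeff x * χ (x : G ⧸ N)) =
      ∑ x : G, (if IsConj (g : G ⧸ N) (x : G ⧸ N) then (Nat.card N : ℂ)⁻¹ else 0) * χ (x : G ⧸ N) := rfl
    rw [h9, h8, Finset.mul_sum]
    refine Finset.sum_congr rfl fun y _ => ?_
    rw [coeff_classSum]
    have hN0 : (Nat.card N : ℂ) ≠ 0 := by exact_mod_cast Nat.card_pos.ne'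
    split_ifs
    · field_simp
    · ring
  have h10 := sameBlock_omega (hinf χ).isClassFunction ψ.2.isClassFunction hψ hzc hzl
  have h11 : (ψ : G → ℂ) = fun x : G => ψ' (x : G ⧸ N) := funext fun x => (h6 x).symm
  rw [h11] at h10
  have h12 := key (χ : G ⧸ N → ℂ) χ.2.isClassFunction
  have h13 := key ψ' hψ'.isClassFunction
  rw [← h12, ← h13]
  exact h10

end Cfsg.Agent.S0967
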