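import Cfsg.Statements.S0986
import Cfsg.Agent.Lib.SmallSimple

set_option autoImplicit false
open Cfsg

namespace Cfsg.Agent.S0986

open Cfsg.Agent.Lib.SmallSimple

/-- Let P and Q be distinct Sylow p-subgroups of a finite group G chosen so that the order of P ∩ Q is as large as possible among intersections of two distinct Sylow p-subgroups, and let N be the normalizer of P ∩ Q. Then N has more than one Sylow p-subgroup, any two distinct Sylow p-subgroups of N intersect exactly in P ∩ Q, and each Sylow p-subgroup of N lies in exactly one Sylow p-subgroup of G. -/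
theorem result {G : Type*} [Group G] [Finite G] (p : ℕ) [Fact p.Prime] (P Q : Sylow p G) (hPQ : P ≠ Q) (hmax : ∀ P' Q' : Sylow p G, P' ≠ Q' → Nat.card ↥((P' : Subgroup G) ⊓ (Q' : Subgroup G)) ≤ Nat.card ↥((P : Subgroup G) ⊓ (Q : Subgroup G))) : 1 < Nat.card (Sylow p ↥(Subgroup.normalizer (((P : Subgroup G) ⊓ (Q : Subgroup G) : Subgroup G) : Set G))) ∧ (∀ S T : Sylow p ↥(Subgroup.normalizer (((P : Subgroup G) ⊓ (Q : Subgroup G) : Subgroup G) : Set G)), S ≠ T → (S : Subgroup _) ⊓ (T : Subgroup _) = ((P : Subgroup G) ⊓ (Q : Subgroup G)).subgroupOf (Subgroup.normalizer (((P : Subgroup G) ⊓ (Q : Subgroup G) : Subgroup G) : Set G))) ∧ ∀ S : Sylow p ↥(Subgroup.normalizer (((P : Subgroup G) ⊓ (Q : Subgroup G) : Subgroup G) : Set G)), ∃! T : Sylow p G, (S : Subgroup _).map (Subgroup.normalizer (((P : Subgroup G) ⊓ (Q : Subgroup G) : Subgroup G) : Set G)).subtype ≤ (T : Subgroup G) := by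
  classical
  set D : Subgroup G := (P : Subgroup G) ⊓ (Q : Subgroup G) with hD
  set N : Subgroup G := Subgroup.normalizer (D : Set G) with hN
  have hDN : D ≤ N := Subgroup.le_normalizer
  -- strictness
  have hstrict : ∀ R : Sylow p G, D ≤ R → (R = P ∨ R = Q) → Nat.card D < Nat.card ↥((R : Subgroup G) ⊓ N) := by
    intro R hDR hR
    have hne : D ≠ R := by
      intro h
      apply hPQ
      have hcard : ∀ A B : Sylow p G, (A : Subgroup G) ≤ B → A = B := by
        intro A B hAB
        apply Sylow.ext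
        exact A.is_maximal' B.2 hAB |>.symm
      rcases hR with rfl | rfl
      · exact hcard _ _ (by rw [← h]; exact inf_le_right)
      · exact (hcard _ _ (by rw [← h]; exact inf_le_left)).symm
    have hnil : Group.IsNilpotent R := R.2.isNilpotent
    have hnc := Group.normalizerCondition_of_isNilpotent (G := R)
    have hlt : D.subgroupOf R < ⊤ := by
      rw [lt_top_iff_ne_top]
      intro h
      rw [Subgroup.subgroupOf_eq_top] at h
      exact hne (le_antisymm hDR h)
    have h1 := hnc _ hlt
    rw [← Subgroup.subgroupOf_normalizer_eq hDR] at h1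
    have h2 : Nat.card (D.subgroupOf R) < Nat.card (N.subgroupOf (R : Subgroup G)) := by
      rw [lt_iff_le_and_ne]
      refine ⟨Subgroup.card_le_of_le h1.le, fun h => ?_⟩
      exact h1.ne (Subgroup.eq_of_le_of_card_ge h1.le h.ge)
    rw [card_subgroupOf, card_subgroupOf, inf_eq_left.2 hDR, inf_comm] at h2
    exact h2
  have hDP : D ≤ P := inf_le_left
  have hDQ : D ≤ Q := inf_le_right
  have hDp : IsPGroup p (D.subgroupOf N) :=
    (P.2.to_le hDP).comap_of_injective N.subtype N.subtype_injective
  have hDnormal : (D.subgroupOf N).Normal := Subgroup.normal_in_normalizer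
  have hDS : ∀ S : Sylow p N, D ≤ (S : Subgroup N).map N.subtype := by
    intro S x hx
    have h1 : D.subgroupOf N ≤ S := hDp.le_sylow_of_normal S
    exact ⟨⟨x, hDN hx⟩, h1 hx, rfl⟩
  have hmapcard : ∀ S : Sylow p N, Nat.card ((S : Subgroup N).map N.subtype) = Nat.card S := fun S =>
    Nat.card_congr ((S : Subgroup N).equivMapOfInjective N.subtype N.subtype_injective).toEquiv.symm
  have hinN : ∀ R : Sylow p G, ∃ S : Sylow p N, (R : Subgroup G) ⊓ N ≤ (S : Subgroup N).map N.subtype := by
    intro R
    have h1 : IsPGroup p ((R : Subgroup G).subgroupOf N) := R.2.comap_of_injective N.subtype N.subtype_injective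
    obtain ⟨S, hS⟩ := h1.exists_le_sylow
    refine ⟨S, ?_⟩
    rintro x ⟨hx1, hx2⟩
    exact ⟨⟨x, hx2⟩, hS hx1, rfl⟩
  have hSbig : ∀ S : Sylow p N, Nat.card D < Nat.card ((S : Subgroup N).map N.subtype) := by
    intro S
    obtain ⟨S1, hS1⟩ := hinN P
    have h1 := hstrict P hDP (Or.inl rfl)
    have h2 := Subgroup.card_le_of_le hS1
    have h3 : Nat.card ((S1 : Subgroup N).map N.subtype) = Nat.card ((S : Subgroup N).map N.subtype) := by
      rw [hmapcard, hmapcard, S1.card_eq_multiplicity, S.card_eq_multiplicity]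
    omega
  have hex : ∀ S : Sylow p N, ∃ T : Sylow p G, (S : Subgroup N).map N.subtype ≤ (T : Subgroup G) := by
    intro S
    exact (S.2.map N.subtype).exists_le_sylow
  have huniq : ∀ (S : Sylow p N) (T T' : Sylow p G), (S : Subgroup N).map N.subtype ≤ (T : Subgroup G) →
      (S : Subgroup N).map N.subtype ≤ (T' : Subgroup G) → T = T' := by
    intro S T T' h1 h2
    by_contra hne
    have h3 := hmax T T' hne
    have h4 := Subgroup.card_le_of_le (le_inf h1 h2)
    have h5 := hSbig S
    omega
  -- a Sylow subgroup of `G` containing the `S` meets `N` in `S`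
  have hback : ∀ (S S' : Sylow p N) (T : Sylow p G), (S : Subgroup N).map N.subtype ≤ (T : Subgroup G) →
      (S' : Subgroup N).map N.subtype ≤ (T : Subgroup G) → S = S' := by
    intro S S' T h1 h2
    have h3 : IsPGroup p ((T : Subgroup G).subgroupOf N) := T.2.comap_of_injective N.subtype N.subtype_injective
    have h4 : (S : Subgroup N) ≤ (T : Subgroup G).subgroupOf N := fun x hx => h1 ⟨x, hx, rfl⟩
    have h5 : (S' : Subgroup N) ≤ (T : Subgroup G).subgroupOf N := fun x hx => h2 ⟨x, hx, rfl⟩
    apply Sylow.ext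
    rw [← S.is_maximal' h3 h4, ← S'.is_maximal' h3 h5]
  refine ⟨?_, ?_, ?_⟩
  · obtain ⟨S1, hS1⟩ := hinN P
    obtain ⟨S2, hS2⟩ := hinN Q
    rw [Finite.one_lt_card_iff_nontrivial]
    refine ⟨S1, S2, ?_⟩
    rintro rfl
    obtain ⟨T, hT⟩ := hex S1
    have hTP : T = P := by
      by_contra hne
      have h3 := hmax T P hne
      have h4 : Nat.card ↥((P : Subgroup G) ⊓ N) ≤ Nat.card ↥((T : Subgroup G) ⊓ (P : Subgroup G)) :=
        Subgroup.card_le_of_le (le_inf (hS1.trans hT) inf_le_left)
      have h5 := hstrict P hDP (Or.inl rfl)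
      omega
    have hTQ : T = Q := by
      by_contra hne
      have h3 := hmax T Q hne
      have h4 : Nat.card ↥((Q : Subgroup G) ⊓ N) ≤ Nat.card ↥((T : Subgroup G) ⊓ (Q : Subgroup G)) :=
        Subgroup.card_le_of_le (le_inf (hS2.trans hT) inf_le_left)
      have h5 := hstrict Q hDQ (Or.inr rfl)
      omega
    exact hPQ (hTP.symm.trans hTQ)
  · intro S S' hne
    obtain ⟨T, hT⟩ := hex S
    obtain ⟨T', hT'⟩ := hex S'
    have hTT' : T ≠ T' := by
      rintro rfl
      exact hne (hback S S' T hT hT')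
    symm
    have hle : D.subgroupOf N ≤ (S : Subgroup N) ⊓ (S' : Subgroup N) :=
      le_inf (hDp.le_sylow_of_normal S) (hDp.le_sylow_of_normal S')
    apply Subgroup.eq_of_le_of_card_ge hle
    have h1 : Nat.card ↥((S : Subgroup N) ⊓ (S' : Subgroup N)) =
        Nat.card ↥(((S : Subgroup N) ⊓ (S' : Subgroup N)).map N.subtype) :=
      Nat.card_congr (((S : Subgroup N) ⊓ (S' : Subgroup N)).equivMapOfInjective N.subtype N.subtype_injective).toEquiv
    have h2 : ((S : Subgroup N) ⊓ (S' : Subgroup N)).map N.subtype ≤ (T : Subgroup G) ⊓ (T' : Subgroup G) := by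
      apply le_inf
      · exact (Subgroup.map_mono inf_le_left).trans hT
      · exact (Subgroup.map_mono inf_le_right).trans hT'
    have h3 := Subgroup.card_le_of_le h2
    have h4 := hmax T T' hTT'
    have h5 : Nat.card (D.subgroupOf N) = Nat.card D := by
      rw [card_subgroupOf, inf_eq_left.2 hDN]
    rw [h5, h1]
    exact h3.trans h4
  · intro S
    obtain ⟨T, hT⟩ := hex S
    exact ⟨T, hT, fun T' hT' => huniq S T' T hT' hT⟩

end Cfsg.Agent.S0986
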