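import Cfsg.Statements.S0987
import Cfsg.Agent.Lib.SmallSimple

set_option autoImplicit false
open Cfsg

namespace Cfsg.Agent.S0987

open Cfsg.Agent.Lib.SmallSimple

/-- If a finite group has order pqr for primes p < q < r, then its Sylow r-subgroups are normal. -/
theorem result {G : Type*} [Group G] [Finite G] (p q r : ℕ) (hp : p.Prime) (hq : q.Prime) [Fact r.Prime] (hpq : p < q) (hqr : q < r) (hG : Nat.card G = p * q * r) (R : Sylow r G) : (R : Subgroup G).Normal := by
  have hr : r.Prime := Fact.out
  have : Fact p.Prime := ⟨hp⟩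
  have : Fact q.Prime := ⟨hq⟩
  obtain ⟨P⟩ : Nonempty (Sylow p G) := inferInstance
  have hpqc : Nat.Coprime p q := (Nat.coprime_primes hp hq).2 hpq.ne
  have hprc : Nat.Coprime p r := (Nat.coprime_primes hp hr).2 (hpq.trans hqr).ne
  have hqrc : Nat.Coprime q r := (Nat.coprime_primes hq hr).2 hqr.ne
  have fac : ∀ l : ℕ, (p * q * r).factorization l = p.factorization l + q.factorization l + r.factorization l := by
    intro l
    rw [Nat.factorization_mul (Nat.mul_ne_zero hp.ne_zero hq.ne_zero) hr.ne_zero,
      Nat.factorization_mul hp.ne_zero hq.ne_zero]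
    rfl
  have fac0 : ∀ {a b : ℕ}, a.Prime → b.Prime → a ≠ b → a.factorization b = 0 := by
    intro a b ha hb hab
    exact Nat.factorization_eq_zero_of_not_dvd (fun h => hab ((Nat.prime_dvd_prime_iff_eq hb ha).1 h).symm)
  have hPcard : Nat.card P = p := by
    rw [P.card_eq_multiplicity, hG, fac, hp.factorization_self, fac0 hq hp hpq.ne',
      fac0 hr hp (hpq.trans hqr).ne', add_zero, add_zero, pow_one]
  have hRcard : Nat.card R = r := by
    rw [R.card_eq_multiplicity, hG, fac, hr.factorization_self, fac0 hq hr hqr.ne,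
      fac0 hp hr (hpq.trans hqr).ne, zero_add, zero_add, pow_one]
  have hmin : (Nat.card G).minFac = p := by
    rw [hG]
    have h1 : (p * q * r) ≠ 1 := by
      intro h
      have := Nat.dvd_one.1 (h ▸ (Dvd.intro_left _ rfl : r ∣ p * q * r))
      exact hr.one_lt.ne' this
    have h2 := Nat.minFac_prime h1
    have h3 := Nat.minFac_dvd (p * q * r)
    rcases (Nat.Prime.dvd_mul h2).1 h3 with h4 | h4
    · rcases (Nat.Prime.dvd_mul h2).1 h4 with h5 | h5
      · exact (Nat.prime_dvd_prime_iff_eq h2 hp).1 h5
      · have h6 := (Nat.prime_dvd_prime_iff_eq h2 hq).1 h5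
        have h7 := Nat.minFac_le_of_dvd hp.two_le (show p ∣ p * q * r from Dvd.intro _ (mul_assoc p q r).symm)
        omega
    · have h6 := (Nat.prime_dvd_prime_iff_eq h2 hr).1 h4
      have h7 := Nat.minFac_le_of_dvd hp.two_le (show p ∣ p * q * r from Dvd.intro _ (mul_assoc p q r).symm)
      omega
  have hcyc : IsCyclic P := isCyclic_of_prime_card hPcard
  obtain ⟨M, hMc, hMcompl, -⟩ := exists_characteristic_complement P (IsCyclic.normalizer_le_centralizer hmin hcyc)
  have hMidx : M.index = p := by rw [hMcompl.symm.index_eq_card, hPcard]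
  have hMcard : Nat.card M = q * r := by
    have h1 := M.card_mul_index
    rw [hMidx, hG] at h1
    have h2 : Nat.card M * p = (q * r) * p := by rw [h1]; ring
    exact Nat.eq_of_mul_eq_mul_right hp.pos h2
  have hRM : (R : Subgroup G) ≤ M := by
    intro x hx
    apply mem_of_orderOf_coprime_index
    rw [hMidx]
    have h1 : orderOf x ∣ r := by
      rw [← hRcard]
      have := orderOf_dvd_natCard (⟨x, hx⟩ : R)
      rwa [Subgroup.orderOf_mk] at this
    exact Nat.Coprime.coprime_dvd_left h1 hprc.symm
  let R' : Sylow r M := R.subtype hRM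
  have hR'card : Nat.card R' = r := by
    have h1 : (R' : Subgroup M) = (R : Subgroup G).subgroupOf M := rfl
    rw [h1, card_subgroupOf, inf_eq_left.2 hRM, hRcard]
  have hR'idx : (R' : Subgroup M).index = q := by
    have h1 := (R' : Subgroup M).index_mul_card
    rw [hR'card, hMcard] at h1
    exact Nat.eq_of_mul_eq_mul_right hr.pos h1
  have hn1 : Nat.card (Sylow r M) = 1 := by
    have h1 := R'.card_dvd_index
    rw [hR'idx] at h1
    rcases (Nat.dvd_prime hq).1 h1 with h2 | h2
    · exact h2
    · exfalso
      have h3 := card_sylow_modEq_one r M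
      rw [h2] at h3
      have h4 : r ∣ q - 1 := (Nat.modEq_iff_dvd' hq.one_lt.le).1 h3.symm
      have h5 := Nat.le_of_dvd (by have := hq.one_lt; omega) h4
      omega
  have hsub : Subsingleton (Sylow r M) := (Nat.card_eq_one_iff_unique.1 hn1).1
  have hR'n : (R' : Subgroup M).Normal := Sylow.normal_of_subsingleton R'
  have hR'c : (R' : Subgroup M).Characteristic := Sylow.characteristic_of_normal R' hR'n
  have h1 : ((R' : Subgroup M).map M.subtype).Normal := inferInstance
  have h2 : (R' : Subgroup M).map M.subtype = (R : Subgroup G) := by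
    have h1 : (R' : Subgroup M) = (R : Subgroup G).subgroupOf M := rfl
    rw [h1, Subgroup.subgroupOf_map_subtype, inf_eq_left.2 hRM]
  rw [← h2]; exact h1

end Cfsg.Agent.S0987
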