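import Cfsg.Statements.S1008
import Cfsg.Agent.Lib.Simple168b

set_option autoImplicit false
open Cfsg

namespace Cfsg.Agent.S1008

open Cfsg.Agent.Lib.SmallSimple Cfsg.Agent.Lib.Simple168

/-- In a simple group of order 168 every maximal subgroup is either isomorphic to the symmetric group of degree 4 or non-abelian of order 21; the maximal subgroups of order 21 form one conjugacy class and those isomorphic to the symmetric group of degree 4 form exactly two conjugacy classes. -/
theorem result {G : Type*} [Group G] [Finite G] [IsSimpleGroup G] (h : Nat.card G = 168) : (∀ M : Subgroup G, IsCoatom M → Nonempty (↥M ≃* Equiv.Perm (Fin 4)) ∨ (Nat.card ↥M = 21 ∧ ¬ IsMulCommutative ↥M)) ∧ (∀ M M' : Subgroup G, IsCoatom M → IsCoatom M' → Nat.card ↥M = 21 → Nat.card ↥M' = 21 → ∃ g : G, M' = M.map (MulAut.conj g).toMonoidHom) ∧ ∃ M₁ M₂ : Subgroup G, IsCoatom M₁ ∧ IsCoatom M₂ ∧ Nonempty (↥M₁ ≃* Equiv.Perm (Fin 4)) ∧ Nonempty (↥M₂ ≃* Equiv.Perm (Fin 4)) ∧ (∀ g : G, M₂ ≠ M₁.map (MulAut.conj g).toMonoidHom) ∧ ∀ M : Subgroup G, IsCoatom M → Nonempty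 (↥M ≃* Equiv.Perm (Fin 4)) → ∃ g : G, M = M₁.map (MulAut.conj g).toMonoidHom ∨ M = M₂.map (MulAut.conj g).toMonoidHom := by
  have S21 : ∀ M : Subgroup G, IsCoatom M → Nat.card ↥M = 21 →
      ∃ Q : Sylow 7 G, M = Subgroup.normalizer ((Q : Subgroup G) : Set G) := by
    intro M hM h21
    rcases maximal_cases h M hM with ⟨⟨e⟩⟩ | ⟨-, -, h2⟩
    · exfalso
      have h3 := Nat.card_congr e.toEquiv
      rw [h21, Nat.card_perm, Nat.card_fin] at h3
      revert h3; decide
    · exact h2
  refine ⟨?_, ?_, ?_⟩
  · intro M hM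
    rcases maximal_cases h M hM with h1 | ⟨h1, h2, -⟩
    · exact Or.inl h1
    · exact Or.inr ⟨h1, h2⟩
  · intro M M' hM hM' h21 h21'
    obtain ⟨Q, hQ⟩ := S21 M hM h21
    obtain ⟨Q', hQ'⟩ := S21 M' hM' h21'
    obtain ⟨g, hg⟩ := MulAction.exists_smul_eq G Q Q'
    refine ⟨g, ?_⟩
    rw [hQ, hQ', ← hg, coe_smul_sylow, normalizer_map_conj]
  · obtain ⟨T⟩ : Nonempty (Sylow 2 G) := inferInstance
    obtain ⟨A, B, hAB, hA, hB, hAK, hBK, hall⟩ := exists_two_kleinFour_le h T
    have hcA := card_normalizer_kleinFour h A hAK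
    have hcB := card_normalizer_kleinFour h B hBK
    refine ⟨Subgroup.normalizer (A : Set G), Subgroup.normalizer (B : Set G), isCoatom_of_card h _ hcA,
      isCoatom_of_card h _ hcB, normalizer_kleinFour_iso h A hAK, normalizer_kleinFour_iso h B hBK, ?_, ?_⟩
    · intro g hg
      rw [← normalizer_map_conj] at hg
      have h1 : Nat.card (A.map (MulAut.conj g).toMonoidHom) = 4 := by rw [card_map_conj]; exact hAK.card_four
      have h2 := normal_four_unique h (Subgroup.normalizer (B : Set G)) (A.map (MulAut.conj g).toMonoidHom) B hcB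
        (by rw [hg]; exact Subgroup.le_normalizer) Subgroup.le_normalizer (by rw [hg]) le_rfl h1 hBK.card_four
      exact not_conj_kleinFour h T A B hA hB hAK hBK hAB g h2
    · intro M hM hMe
      obtain ⟨e⟩ := hMe
      obtain ⟨e'⟩ := normalizer_kleinFour_iso h A hAK
      have hM24 : Nat.card M = 24 := by
        rw [Nat.card_congr e.toEquiv, Nat.card_perm, Nat.card_fin]; rfl
      -- the pullback of `A`
      let f : M ≃* Subgroup.normalizer (A : Set G) := e.trans e'.symm
      have hAn : (A.subgroupOf (Subgroup.normalizer (A : Set G))).Normal := Subgroup.normal_in_normalizer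
      let V : Subgroup M := (A.subgroupOf (Subgroup.normalizer (A : Set G))).comap f.toMonoidHom
      have hVn : V.Normal := hAn.comap _
      have hA4 : Nat.card A = 4 := hAK.card_four
      have hVcard : Nat.card V = 4 := by
        have e1 : Nat.card V = Nat.card (A.subgroupOf (Subgroup.normalizer (A : Set G))) := by
          have e2 : (A.subgroupOf (Subgroup.normalizer (A : Set G))) = V.map f.toMonoidHom :=
            (Subgroup.map_comap_eq_self_of_surjective f.surjective _).symm
          rw [e2]
          exact Nat.card_congr (V.equivMapOfInjective _ f.injective).toEquiv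
        rw [e1, card_subgroupOf, inf_eq_left.2 Subgroup.le_normalizer, hA4]
      have hVK : IsKleinFour V := by
        rw [isKleinFour_iff]
        refine ⟨hVcard, fun v => ?_⟩
        have h1 : (f v : G) ∈ A := v.2
        have h2 : (⟨(f v : G), h1⟩ : A) * ⟨(f v : G), h1⟩ = 1 := IsKleinFour.mul_self _
        have h3 : (f v : G) * (f v : G) = 1 := congrArg Subtype.val h2
        have h4 : f ((v : M) * (v : M)) = f 1 := by
          rw [map_mul, map_one]
          exact Subtype.ext h3
        exact Subtype.ext (f.injective h4)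
      set U := V.map M.subtype with hU
      have hUM : U ≤ M := Subgroup.map_subtype_le _
      have hUK : IsKleinFour ↥U := isKleinFour_of_equiv (V.equivMapOfInjective _ M.subtype_injective) hVK
      have hUsub : U.subgroupOf M = V := Subgroup.comap_map_eq_self_of_injective M.subtype_injective _
      have hUn : (U.subgroupOf M).Normal := by rw [hUsub]; exact hVn
      have hMU : M ≤ Subgroup.normalizer (U : Set G) := Subgroup.le_normalizer_of_normal_subgroupOf hUM
      have hMe : M = Subgroup.normalizer (U : Set G) := by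
        apply Subgroup.eq_of_le_of_card_ge hMU
        rw [card_normalizer_kleinFour h U hUK, hM24]
      -- conjugate `U` into `T`
      have hUp : IsPGroup 2 U := IsPGroup.of_card (n := 2) (by rw [hUK.card_four]; norm_num)
      obtain ⟨T', hT'⟩ := hUp.exists_le_sylow
      obtain ⟨g, hg⟩ := MulAction.exists_smul_eq G T' T
      have h1 : U.map (MulAut.conj g).toMonoidHom ≤ (T : Subgroup G) := by
        rw [← hg, coe_smul_sylow]
        exact Subgroup.map_mono hT'
      have h2 : IsKleinFour (U.map (MulAut.conj g).toMonoidHom) :=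
        isKleinFour_of_equiv (U.equivMapOfInjective _ (MulAut.conj g).injective) hUK
      have h3 : ∀ C : Subgroup G, U.map (MulAut.conj g).toMonoidHom = C →
          M = (Subgroup.normalizer (C : Set G)).map (MulAut.conj g⁻¹).toMonoidHom := by
        rintro C rfl
        rw [normalizer_map_conj, map_conj_conj, inv_mul_cancel, map_conj_one]
        exact hMe
      refine ⟨g⁻¹, ?_⟩
      rcases hall _ h1 h2 with h4 | h4
      · exact Or.inl (h3 A h4)
      · exact Or.inr (h3 B h4)

end Cfsg.Agent.S1008
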