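import Cfsg.Statements.S1009
import Mathlib

set_option autoImplicit false
open Cfsg

namespace Cfsg.Agent.S1009

open Pointwise

/-- Brodkey's Theorem: if a finite group has abelian Sylow p-subgroups, then there are two Sylow p-subgroups whose intersection equals the intersection of all Sylow p-subgroups. -/
theorem result {G : Type*} [Group G] [Finite G] (p : ℕ) [Fact p.Prime] (hab : ∀ P : Sylow p G, IsMulCommutative ↥(P : Subgroup G)) : ∃ P Q : Sylow p G, (P : Subgroup G) ⊓ (Q : Subgroup G) = ⨅ R : Sylow p G, (R : Subgroup G) := by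
  classical
  obtain ⟨⟨P, Q⟩, hmin⟩ : ∃ x : Sylow p G × Sylow p G, ∀ y : Sylow p G × Sylow p G,
      Nat.card ↥((x.1 : Subgroup G) ⊓ (x.2 : Subgroup G)) ≤ Nat.card ↥((y.1 : Subgroup G) ⊓ (y.2 : Subgroup G)) :=
    Finite.exists_min (fun x : Sylow p G × Sylow p G => Nat.card ↥((x.1 : Subgroup G) ⊓ (x.2 : Subgroup G)))
  refine ⟨P, Q, ?_⟩
  apply le_antisymm
  · apply le_iInf
    intro R
    set D : Subgroup G := (P : Subgroup G) ⊓ (Q : Subgroup G) with hD
    set C : Subgroup G := Subgroup.centralizer (D : Set G) with hC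
    have hPC : (P : Subgroup G) ≤ C := by
      intro x hx
      rw [hC, Subgroup.mem_centralizer_iff]
      intro y hy
      have hyP : y ∈ (P : Subgroup G) := hy.1
      have := (hab P).is_comm.comm ⟨y, hyP⟩ ⟨x, hx⟩
      exact congrArg Subtype.val this
    have hQC : (Q : Subgroup G) ≤ C := by
      intro x hx
      rw [hC, Subgroup.mem_centralizer_iff]
      intro y hy
      have hyQ : y ∈ (Q : Subgroup G) := hy.2
      have := (hab Q).is_comm.comm ⟨y, hyQ⟩ ⟨x, hx⟩
      exact congrArg Subtype.val this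
    -- the Sylow subgroup of `C` containing `R ⊓ C`
    have h1 : IsPGroup p ((R : Subgroup G).subgroupOf C) := by
      exact R.2.comap_of_injective C.subtype C.subtype_injective
    obtain ⟨S, hS⟩ := h1.exists_le_sylow
    let P' : Sylow p C := P.subtype hPC
    obtain ⟨c, hc⟩ := MulAction.exists_smul_eq C S P'
    -- `R^c ∩ C ≤ P`
    have h2 : ∀ x ∈ (R : Subgroup G), x ∈ C → (c : G) * x * (c : G)⁻¹ ∈ (P : Subgroup G) := by
      intro x hx hxC
      have h3 : (⟨x, hxC⟩ : C) ∈ S := hS hx
      have h4 : c * ⟨x, hxC⟩ * c⁻¹ ∈ (c • S) := by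
        rw [Sylow.smul_def]
        exact ⟨⟨x, hxC⟩, h3, rfl⟩
      rw [hc] at h4
      exact h4
    have h5 : ((((c : G) • R : Sylow p G)) : Subgroup G) ⊓ (Q : Subgroup G) ≤ D := by
      rintro x ⟨hx1, hx2⟩
      refine ⟨?_, hx2⟩
      change x ∈ (((c : G) • R : Sylow p G)) at hx1
      rw [Sylow.smul_def] at hx1
      obtain ⟨y, hy, hxy⟩ := hx1
      have hxC : x ∈ C := hQC hx2
      have hxy' : (c : G) * y * (c : G)⁻¹ = x := hxy
      have hyC : y ∈ C := by
        have : y = (c : G)⁻¹ * x * (c : G) := by rw [← hxy']; group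
        rw [this]
        exact C.mul_mem (C.mul_mem (C.inv_mem c.2) hxC) c.2
      rw [← hxy']
      exact h2 y hy hyC
    have h6 : ((((c : G) • R : Sylow p G)) : Subgroup G) ⊓ (Q : Subgroup G) = D := by
      apply Subgroup.eq_of_le_of_card_ge h5
      exact hmin ((c : G) • R, Q)
    intro x hx
    have hx1 : x ∈ (((c : G) • R : Sylow p G)) := by
      have : x ∈ ((((c : G) • R : Sylow p G)) : Subgroup G) ⊓ (Q : Subgroup G) := by rw [h6]; exact hx
      exact this.1
    rw [Sylow.smul_def] at hx1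
    obtain ⟨y, hy, hxy⟩ := hx1
    have hxy' : (c : G) * y * (c : G)⁻¹ = x := hxy
    have hcx : x * (c : G) = (c : G) * x := by
      have h8 : (c : G) ∈ Subgroup.centralizer (D : Set G) := c.2
      rw [Subgroup.mem_centralizer_iff] at h8
      exact h8 x hx
    have : y = x := by
      have h7 : y = (c : G)⁻¹ * x * (c : G) := by rw [← hxy']; group
      rw [h7, mul_assoc, hcx]; group
    rw [← this]; exact hy
  · exact le_inf (iInf_le _ P) (iInf_le _ Q)

end Cfsg.Agent.S1009
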