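import Cfsg.Statements.S1013
import Cfsg.Agent.Lib.SmallSimple

set_option autoImplicit false
open Cfsg

namespace Cfsg.Agent.S1013

open Cfsg.Agent.Lib.SmallSimple

/-- Let G be a transitive permutation group of prime degree p having more than one Sylow p-subgroup, and suppose a Sylow p-subgroup P has prime index in its normalizer. Then G is simple. -/
theorem result {α : Type*} [Fintype α] [DecidableEq α] {p : ℕ} [Fact p.Prime] (hα : Fintype.card α = p) (G : Subgroup (Equiv.Perm α)) [MulAction.IsPretransitive ↥G α] (P : Sylow p ↥G) (hn : 1 < Nat.card (Sylow p ↥G)) (ht : (((P : Subgroup ↥G).subgroupOf (Subgroup.normalizer ((P : Subgroup ↥G) : Set ↥G))).index).Prime) : IsSimpleGroup ↥G := by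
  classical
  have hp : p.Prime := Fact.out
  have hcardα : Nat.card α = p := by rw [Nat.card_eq_fintype_card, hα]
  have : Nontrivial ↥G := by
    by_contra h
    rw [not_nontrivial_iff_subsingleton] at h
    have : Subsingleton (Sylow p ↥G) := by
      refine ⟨fun A B => ?_⟩
      apply Sylow.ext
      exact Subsingleton.elim _ _
    have h1 : Nat.card (Sylow p ↥G) ≤ 1 := Finite.card_le_one_iff_subsingleton.2 this
    omega
  have hprim : MulAction.IsPreprimitive ↥G α := MulAction.IsPreprimitive.of_prime_card (by rw [hcardα]; exact hp)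
  have hnonempty : Nonempty α := by
    rw [← Fintype.card_pos_iff, hα]; exact hp.pos
  obtain ⟨a⟩ := hnonempty
  -- the order of `G` is not divisible by `p^2`
  have hGcard : Nat.card ↥G ∣ p.factorial := by
    have := Subgroup.card_subgroup_dvd_card G
    rwa [Nat.card_perm, hcardα] at this
  have hfact : (Nat.card ↥G).factorization p ≤ 1 := by
    have h1 : (Nat.card ↥G).factorization p ≤ (p.factorial).factorization p :=
      (Nat.factorization_le_iff_dvd Nat.card_pos.ne' (Nat.factorial_ne_zero _)).2 hGcard p
    have h2 : (p.factorial).factorization p = 1 := by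
      obtain ⟨k, hk⟩ : ∃ k, p = k + 1 := ⟨p - 1, by have := hp.pos; omega⟩
      have h3 : p.factorial = p * (p - 1).factorial := (Nat.mul_factorial_pred hp.ne_zero).symm
      rw [h3, Nat.factorization_mul hp.ne_zero (Nat.factorial_ne_zero _)]
      simp only [Finsupp.add_apply]
      rw [hp.factorization_self, Nat.factorization_eq_zero_of_not_dvd]
      rw [hp.dvd_factorial]
      have := hp.pos
      omega
    omega
  -- a normal nontrivial subgroup is transitive, hence of order divisible by `p`
  have key : ∀ K : Subgroup ↥G, K.Normal → K ≠ ⊥ → p ∣ Nat.card K := by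
    intro K hK hKb
    have htr : MulAction.IsPretransitive K α := by
      apply MulAction.IsQuasiPreprimitive.isPretransitive_of_normal
      intro h
      apply hKb
      rw [eq_bot_iff]
      intro k hk
      rw [Subgroup.mem_bot]
      apply Subtype.ext
      ext x
      have hx : x ∈ MulAction.fixedPoints K α := by rw [h]; trivial
      have := hx ⟨k, hk⟩
      exact this
    have h1 := (MulAction.stabilizer K a).index_mul_card
    rw [MulAction.index_stabilizer_of_transitive K a, hcardα] at h1
    exact Dvd.intro _ h1
  have hPcard : Nat.card P = p := by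
    have h0 : p ∣ Nat.card ↥G := by
      have h1 := (MulAction.stabilizer ↥G a).index_mul_card
      rw [MulAction.index_stabilizer_of_transitive ↥G a, hcardα] at h1
      exact Dvd.intro _ h1
    have h1 := P.card_eq_multiplicity
    have h2 : 1 ≤ (Nat.card ↥G).factorization p := (hp.dvd_iff_one_le_factorization Nat.card_pos.ne').1 h0
    rw [h1, le_antisymm hfact h2, pow_one]
  have hPK : ∀ K : Subgroup ↥G, K.Normal → K ≠ ⊥ → (P : Subgroup ↥G) ≤ K := by
    intro K hK hKb
    have h1 := key K hK hKb
    obtain ⟨Q⟩ : Nonempty (Sylow p K) := inferInstance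
    have h2 : p ∣ Nat.card Q := Q.dvd_card_of_dvd_card h1
    let Q' : Subgroup ↥G := (Q : Subgroup K).map K.subtype
    have hQ'card : Nat.card Q' = Nat.card Q :=
      Nat.card_congr ((Q : Subgroup K).equivMapOfInjective K.subtype K.subtype_injective).toEquiv.symm
    have hQ'p : IsPGroup p Q' := Q.2.map _
    obtain ⟨R, hR⟩ := hQ'p.exists_le_sylow
    have hRcard : Nat.card R = p := by
      rw [Sylow.card_eq_multiplicity R, ← P.card_eq_multiplicity, hPcard]
    have hRQ : Q' = (R : Subgroup ↥G) := by
      apply Subgroup.eq_of_le_of_card_ge hR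
      rw [hQ'card, hRcard]
      exact Nat.le_of_dvd Nat.card_pos h2
    have hRK : (R : Subgroup ↥G) ≤ K := by
      rw [← hRQ]; exact Subgroup.map_subtype_le _
    obtain ⟨g, hg⟩ := MulAction.exists_smul_eq ↥G R P
    rw [← hg]
    intro x hx
    rw [Sylow.coe_subgroup_smul] at hx
    obtain ⟨y, hy, rfl⟩ := hx
    exact hK.conj_mem y (hRK hy) g
  refine ⟨fun K hK => ?_⟩
  by_cases hKb : K = ⊥
  · exact Or.inl hKb
  right
  have hle := hPK K hK hKb
  have hsup := Sylow.normalizer_sup_eq_top' P hle
  set N : Subgroup ↥G := Subgroup.normalizer ((P : Subgroup ↥G) : Set ↥G) with hN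
  have hdvd : (K.subgroupOf N).index ∣ ((P : Subgroup ↥G).subgroupOf N).index :=
    Subgroup.index_dvd_of_le (Subgroup.comap_mono hle)
  rcases (Nat.dvd_prime ht).1 hdvd with h1 | h1
  · rw [Subgroup.index_eq_one, Subgroup.subgroupOf_eq_top] at h1
    rw [← hsup]
    exact (sup_eq_right.2 h1).symm
  · exfalso
    have hEq : (P : Subgroup ↥G).subgroupOf N = K.subgroupOf N := by
      apply Subgroup.eq_of_le_of_card_ge (Subgroup.comap_mono hle)
      have h2 := ((P : Subgroup ↥G).subgroupOf N).index_mul_card
      have h3 := (K.subgroupOf N).index_mul_card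
      rw [h1, ← h2] at h3
      exact (Nat.eq_of_mul_eq_mul_left ht.pos h3).le
    have hKN : ∀ x ∈ K, x ∈ N → x ∈ (P : Subgroup ↥G) := by
      intro x hx hxN
      have h2 : (⟨x, hxN⟩ : N) ∈ K.subgroupOf N := hx
      rw [← hEq] at h2
      exact h2
    have hcomm : IsMulCommutative (P : Subgroup ↥G) := by
      have : IsCyclic (P : Subgroup ↥G) := isCyclic_of_prime_card hPcard
      infer_instance
    let P' : Sylow p K := P.subtype hle
    have hP'mem : ∀ x : K, x ∈ P' ↔ (x : ↥G) ∈ (P : Subgroup ↥G) := fun x => Iff.rfl
    have hNC : Subgroup.normalizer ((P' : Subgroup K) : Set K) ≤ Subgroup.centralizer ((P' : Subgroup K) : Set K) := by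
      have h2 : (P' : Subgroup K) = (P : Subgroup ↥G).subgroupOf K := rfl
      rw [h2, ← Subgroup.subgroupOf_normalizer_eq hle]
      intro x hx
      have hxP := hKN x x.2 hx
      rw [Subgroup.mem_centralizer_iff]
      intro y hy
      have h5 := hcomm.is_comm.comm (⟨(y : ↥G), hy⟩ : (P : Subgroup ↥G)) ⟨x, hxP⟩
      have h6 := congrArg Subtype.val h5
      apply Subtype.ext
      exact h6
    obtain ⟨M, hMc, hMcompl, hMp⟩ := exists_characteristic_complement P' hNC
    have hM' : (M.map K.subtype).Normal := inferInstance
    have hMcard : Nat.card (M.map K.subtype) = Nat.card M :=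
      Nat.card_congr (M.equivMapOfInjective K.subtype K.subtype_injective).toEquiv.symm
    have hMbot : M.map K.subtype = ⊥ := by
      by_contra hne
      have := key _ hM' hne
      rw [hMcard] at this
      exact hMp this
    have hM1 : Nat.card M = 1 := by
      rw [← hMcard, hMbot]; simp
    have hKcard : Nat.card K = p := by
      have h6 := hMcompl.card_mul_card
      rw [hM1, one_mul] at h6
      rw [← h6]
      have h7 : Nat.card P' = Nat.card P := by
        rw [Sylow.card_eq_multiplicity P', hPcard]
        have h8 : (Nat.card K).factorization p ≤ 1 :=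
          le_trans ((Nat.factorization_le_iff_dvd Nat.card_pos.ne' Nat.card_pos.ne').2 (Subgroup.card_subgroup_dvd_card K) p) hfact
        have h9 : 1 ≤ (Nat.card K).factorization p :=
          (hp.dvd_iff_one_le_factorization Nat.card_pos.ne').1 (key K hK hKb)
        rw [le_antisymm h8 h9, pow_one]
      exact h7.trans hPcard
    have hKP : (P : Subgroup ↥G) = K := by
      apply Subgroup.eq_of_le_of_card_ge hle
      rw [hKcard, hPcard]
    have hPn : (P : Subgroup ↥G).Normal := by rw [hKP]; exact hK
    have hsub : Subsingleton (Sylow p ↥G) := by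
      have := Sylow.unique_of_normal P hPn
      exact Unique.instSubsingleton
    have h10 : Nat.card (Sylow p ↥G) ≤ 1 := Finite.card_le_one_iff_subsingleton.2 hsub
    omega

end Cfsg.Agent.S1013
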