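import Cfsg.Statements.S1014
import Cfsg.Agent.Lib.SmallSimple3

set_option autoImplicit false
open Cfsg

namespace Cfsg.Agent.S1014

open Cfsg.Agent.Lib.SmallSimple

/-- No finite simple group has order 1104 = 2^4 * 3 * 23. -/
theorem result {G : Type*} [Group G] [Finite G] [IsSimpleGroup G] : Nat.card G ≠ 1104 := by
  intro h
  have hG : ¬ IsMulCommutative G := not_isMulCommutative_of_card h (by norm_num)
  have hp : Fact (Nat.Prime 23) := ⟨by norm_num⟩
  have hG23 : Nat.card G = 23 ^ 1 * 48 := by rw [h]; norm_num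
  have h1 := nsyl_mem hG23 (by norm_num)
  have h2 : (Nat.divisors 48).filter (fun d => d % 23 = 1) = {1, 24} := by decide +kernel
  rw [h2] at h1
  simp only [Finset.mem_insert, Finset.mem_singleton] at h1
  obtain ⟨P⟩ : Nonempty (Sylow 23 G) := inferInstance
  have hd : 23 ∣ Nat.card G := by rw [h]; norm_num
  have h3 := nsyl_ne_one hG (p := 23) hd
  have h4 : Nat.card (Sylow 23 G) = 24 := h1.resolve_left h3
  have h5 := card_normalizer_mul_nsyl P
  rw [h4, h] at h5
  have h6 := normalizer_dvd_of_nsyl hG (by norm_num) h4 hd P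
  have h7 : Nat.card (Subgroup.normalizer ((P : Subgroup G) : Set G)) = 46 := by omega
  rw [h7] at h6
  revert h6
  norm_num

end Cfsg.Agent.S1014
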