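import Cfsg.Statements.S1015
import Cfsg.Agent.Lib.SmallSimple3
import Cfsg.Agent.S0985

set_option autoImplicit false
open Cfsg

namespace Cfsg.Agent.S1015

open Cfsg.Agent.Lib.SmallSimple

/-- No finite simple group has order 1200 = 2^4 * 3 * 5^2. -/
theorem result {G : Type*} [Group G] [Finite G] [IsSimpleGroup G] : Nat.card G ≠ 1200 := by
  intro h
  have hG : ¬ IsMulCommutative G := not_isMulCommutative_of_card h (by norm_num)
  have hp : Fact (Nat.Prime 5) := ⟨by norm_num⟩
  have hG5 : Nat.card G = 5 ^ 2 * 48 := by rw [h]; norm_num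
  have h1 := nsyl_mem hG5 (by norm_num)
  have h2 : (Nat.divisors 48).filter (fun d => d % 5 = 1) = {1, 6, 16} := by decide +kernel
  rw [h2] at h1
  simp only [Finset.mem_insert, Finset.mem_singleton] at h1
  have hd : 5 ∣ Nat.card G := by rw [h]; norm_num
  have h3 := nsyl_ne_one hG (p := 5) hd
  have h4 : ¬ Nat.card (Sylow 5 G) ≡ 1 [MOD 5 ^ 2] := by
    rcases h1 with h1 | h1 | h1
    · exact absurd h1 h3
    · rw [h1]; decide
    · rw [h1]; decide
  obtain ⟨P, R, hPR, hidx⟩ := Cfsg.Agent.S0985.result 5 2 h4
  have hPcard : Nat.card (P : Subgroup G) = 25 := by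
    have := sylow_card_of hG5 (by norm_num) P
    rw [show Nat.card (P : Subgroup G) = 5 ^ 2 from this]; norm_num
  have hRcard : Nat.card (R : Subgroup G) = 25 := by
    have := sylow_card_of hG5 (by norm_num) R
    rw [show Nat.card (R : Subgroup G) = 5 ^ 2 from this]; norm_num
  -- the intersection
  set D : Subgroup G := (P : Subgroup G) ⊓ (R : Subgroup G) with hD
  have hDne : D ≠ ⊥ := by
    intro hb
    have e1 := ((R : Subgroup G).subgroupOf (P : Subgroup G)).index_mul_card
    rw [card_subgroupOf, inf_comm, ← hD, hb, hPcard] at e1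
    simp at e1
    rw [e1] at hidx
    norm_num at hidx
  have hcommP : IsMulCommutative (P : Subgroup G) :=
    IsPGroup.isMulCommutative_of_card_eq_prime_sq (p := 5) (by rw [hPcard]; norm_num)
  have hcommR : IsMulCommutative (R : Subgroup G) :=
    IsPGroup.isMulCommutative_of_card_eq_prime_sq (p := 5) (by rw [hRcard]; norm_num)
  set C : Subgroup G := Subgroup.centralizer (D : Set G) with hC
  have hPC : (P : Subgroup G) ≤ C :=
    (le_centralizer_of_comm hcommP).trans (Subgroup.centralizer_le (inf_le_left : D ≤ P))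
  have hRC : (R : Subgroup G) ≤ C :=
    (le_centralizer_of_comm hcommR).trans (Subgroup.centralizer_le (inf_le_right : D ≤ R))
  -- C is proper
  have hCtop : C ≠ ⊤ := by
    intro ht
    have h5 : D ≤ Subgroup.center G := by
      intro x hx
      rw [Subgroup.mem_center_iff]
      intro g
      have hg : g ∈ C := by rw [ht]; trivial
      exact (Subgroup.mem_centralizer_iff.1 hg x hx).symm
    rcases IsSimpleGroup.eq_bot_or_eq_top_of_normal (Subgroup.center G) inferInstance with h6 | h6
    · apply hDne
      rw [eq_bot_iff, ← h6]; exact h5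
    · apply hG
      refine ⟨⟨fun a b => ?_⟩⟩
      have hb : b ∈ Subgroup.center G := by rw [h6]; trivial
      exact Subgroup.mem_center_iff.1 hb a
  -- the Sylow number of C
  have hC25 : 25 ∣ Nat.card C := by
    rw [← hPcard]; exact Subgroup.card_dvd_of_le hPC
  obtain ⟨k, hk⟩ := hC25
  have hidxC := C.card_mul_index
  rw [hk, h] at hidxC
  have hkidx : k * C.index = 48 := by
    have : 25 * (k * C.index) = 25 * 48 := by rw [← mul_assoc, hidxC]
    omega
  have hk5 : ¬ 5 ∣ k := by
    intro h5
    have : 5 ∣ 48 := by rw [← hkidx]; exact Dvd.dvd.mul_right h5 _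
    omega
  have hCk : Nat.card C = 5 ^ 2 * k := by rw [hk]; norm_num
  have hn := nsyl_dvd hCk hk5
  have hnm := nsyl_mod 5 C
  have hn1 : Nat.card (Sylow 5 C) ≠ 1 := by
    intro h1
    have hsub : Subsingleton (Sylow 5 C) := (Nat.card_eq_one_iff_unique.1 h1).1
    apply hPR
    have h6 : P.subtype hPC = R.subtype hRC := Subsingleton.elim _ _
    exact Sylow.subtype_injective h6
  have hk6 : 6 ≤ k := by
    have hkpos : 0 < k := Nat.pos_of_ne_zero (by rintro rfl; simp at hkidx)
    have h7 := Nat.le_of_dvd hkpos hn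
    omega
  have hidx8 : C.index ≤ 8 := by
    by_contra hcon
    push Not at hcon
    have : 6 * 9 ≤ k * C.index := Nat.mul_le_mul hk6 hcon
    omega
  have h8 := two_mul_card_dvd_factorial_index hG C hCtop
  have h9 : 2 * Nat.card G ∣ (8).factorial := h8.trans (Nat.factorial_dvd_factorial hidx8)
  rw [h] at h9
  revert h9
  decide

end Cfsg.Agent.S1015
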