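import Cfsg.Statements.S1016
import Cfsg.Agent.Lib.SylData

set_option autoImplicit false
open Cfsg

namespace Cfsg.Agent.S1016

open Subgroup Cfsg.Agent.Lib.SmallSimple Cfsg.Agent.Lib.SylEven

/-- No finite simple group has order 1440 = 2^5 * 3^2 * 5. -/
theorem result {G : Type*} [Group G] [Finite G] [IsSimpleGroup G] : Nat.card G ≠ 1440 := by
  intro h
  have : Fact (Nat.Prime 5) := ⟨by norm_num⟩
  have hG : ¬ IsMulCommutative G := not_isMulCommutative_of_card h (by norm_num)
  have hdvd : 5 ∣ Nat.card G := by rw [h]; norm_num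
  obtain ⟨P⟩ : Nonempty (Sylow 5 G) := inferInstance
  obtain ⟨hPc, e, c, hN, hC, he, he1, hecn, hmod, hn1⟩ := data hG (M := 288) (by rw [h]) (by norm_num) P
  set n := Nat.card (Sylow 5 G) with hn
  have hdec : ∀ n ∈ Nat.divisors 288, n % 5 = 1 → n ≠ 1 → ∀ e ∈ Nat.divisors 4, e ≠ 1 → 288 / n % e = 0 →
      n = 6 ∨ (n = 16 ∧ e = 2) ∨ (n = 36 ∧ (e = 2 ∨ e = 4)) := by decide +kernel
  have hn288 : n ∈ Nat.divisors 288 := Nat.mem_divisors.2 ⟨Dvd.intro_left _ hecn, by norm_num⟩
  have hnpos : 0 < n := Nat.pos_of_mem_divisors hn288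
  have hdiv : 288 / n = e * c := by rw [← hecn]; exact Nat.mul_div_cancel _ hnpos
  rcases hdec n hn288 hmod hn1 e (by simpa using he) he1 (by rw [hdiv]; exact Nat.mul_mod_right _ _) with
    h1 | ⟨h1, h2⟩ | ⟨h1, h2⟩
  · have h2 := two_mul_card_dvd_factorial_nsyl hG hdvd
    rw [← hn, h1, h] at h2
    revert h2
    decide
  · rw [h1] at hecn
    obtain ⟨f, k1, k2, k3, k4, k5, -⟩ := pack hG (by norm_num) P hPc (m := 3) (by rw [← hn, h1]) (by norm_num)
    obtain ⟨a, -, ha, hNa, -⟩ := card_norm hG P hPc k1 k2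
    have hb : Nat.card f.range ∣ 6 := by
      have h10 := Subgroup.card_subgroup_dvd_card f.range
      have h11 : Nat.card (Equiv.Perm (Fin 3)) = 6 := by rw [Nat.card_perm, Nat.card_fin]; rfl
      rwa [h11] at h10
    rw [hN] at hNa
    have h3 : a * Nat.card f.range = 18 := by
      have h4 : 5 * (e * c) = 5 * (a * Nat.card f.range) := by rw [hNa]; ring
      omega
    have : ∀ a ∈ Nat.divisors 4, ∀ b ∈ Nat.divisors 6, a * b ≠ 18 := by decide
    exact this a (by simpa using ha) _ (Nat.mem_divisors.2 ⟨hb, by norm_num⟩) h3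
  · rw [h1] at hecn
    refine no_involution hG (by norm_num) P hPc (m := 7) (k := 3) (by rw [← hn, h1]) (by norm_num) (by omega)
      (by norm_num) ?_ ?_
    · intro i hi
      obtain ⟨c, hc⟩ := hi
      rw [even_iff_two_dvd]
      omega
    · rw [hC]
      have : 2 ∣ c := by
        rcases h2 with h2 | h2 <;> rw [h2] at hecn <;> omega
      exact Dvd.dvd.mul_left this 5

end Cfsg.Agent.S1016
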