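import Cfsg.Statements.S1017
import Cfsg.Agent.Lib.SylData

set_option autoImplicit false
open Cfsg

namespace Cfsg.Agent.S1017

open Subgroup Cfsg.Agent.Lib.SmallSimple Cfsg.Agent.Lib.SylEven

/-- No finite simple group has order 2016 = 2^5 * 3^2 * 7. -/
theorem result {G : Type*} [Group G] [Finite G] [IsSimpleGroup G] : Nat.card G ≠ 2016 := by
  intro h
  have : Fact (Nat.Prime 7) := ⟨by norm_num⟩
  have hG : ¬ IsMulCommutative G := not_isMulCommutative_of_card h (by norm_num)
  have hdvd : 7 ∣ Nat.card G := by rw [h]; norm_num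
  obtain ⟨P⟩ : Nonempty (Sylow 7 G) := inferInstance
  obtain ⟨hPc, e, c, hN, hC, he, he1, hecn, hmod, hn1⟩ := data hG (M := 288) (by rw [h]) (by norm_num) P
  set n := Nat.card (Sylow 7 G) with hn
  have hdec : ∀ n ∈ Nat.divisors 288, n % 7 = 1 → n ≠ 1 → ∀ e ∈ Nat.divisors 6, e ≠ 1 → 288 / n % e = 0 →
      n = 8 ∨ (n = 36 ∧ e = 2) := by decide +kernel
  have hn288 : n ∈ Nat.divisors 288 := Nat.mem_divisors.2 ⟨Dvd.intro_left _ hecn, by norm_num⟩
  have hnpos : 0 < n := Nat.pos_of_mem_divisors hn288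
  have hdiv : 288 / n = e * c := by rw [← hecn]; exact Nat.mul_div_cancel _ hnpos
  rcases hdec n hn288 hmod hn1 e (by simpa using he) he1 (by rw [hdiv]; exact Nat.mul_mod_right _ _) with h1 | ⟨h1, h2⟩
  · have h2 := normalizer_dvd_of_nsyl hG (by norm_num : (7 : ℕ) ≠ 2) (by rw [← hn, h1]) hdvd P
    rw [h1] at hecn
    have h3 : e * c = 36 := by omega
    rw [hN, h3] at h2
    norm_num at h2
  · rw [h1] at hecn
    subst h2
    refine no_involution hG (by norm_num) P hPc (m := 5) (k := 1) (by rw [← hn, h1]) (by norm_num) (by omega)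
      (by norm_num) ?_ ?_
    · intro i hi
      obtain ⟨c, hc⟩ := hi
      rw [even_iff_two_dvd]
      omega
    · rw [hC]
      have : 2 ∣ c := by omega
      exact Dvd.dvd.mul_left this 7

end Cfsg.Agent.S1017
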