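import Cfsg.Statements.S1018
import Cfsg.Agent.Lib.SmallSimple

set_option autoImplicit false
open Cfsg

namespace Cfsg.Agent.S1018

open Cfsg.Agent.Lib.SmallSimple

/-- Let P be a Sylow p-subgroup of order p of a finite group G, and consider the action of G on the left cosets of the normalizer N of P. Then every element of order p fixes exactly one coset, and an element of N that does not centralize P fixes at most as many cosets as there are orbits of P. -/
theorem result {G : Type*} [Group G] [Finite G] (p : ℕ) [Fact p.Prime] (P : Sylow p G) (hP : Nat.card ↥(P : Subgroup G) = p) : (∀ y : G, orderOf y = p → Nat.card (MulAction.fixedBy (G ⧸ Subgroup.normalizer ((P : Subgroup G) : Set G)) y) = 1) ∧ ∀ x : G, x ∈ Subgroup.normalizer ((P : Subgroup G) : Set G) → x ∉ Subgroup.centralizer ((P : Subgroup G) : Set G) → Nat.card (MulAction.fixedBy (G ⧸ Subgroup.normalizer ((P : Subgroup G) : Set G)) x) ≤ Nat.card (MulAction.orbitRel.Quotient ↥(P : Subgroup G) (G ⧸ Subgroup.normalizer ((P : Subgroup G) : Set G))) := by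
  classical
  have hp : p.Prime := Fact.out
  set N := Subgroup.normalizer ((P : Subgroup G) : Set G) with hN
  -- cosets fixed by an element of order p
  have hfix : ∀ (g y : G), orderOf y = p → (y • (QuotientGroup.mk g : G ⧸ N) = QuotientGroup.mk g ↔ g⁻¹ * y * g ∈ (P : Subgroup G)) := by
    intro g y hy
    rw [show y • (QuotientGroup.mk g : G ⧸ N) = QuotientGroup.mk (y * g) from rfl, eq_comm,
        QuotientGroup.eq, ← mul_assoc]
    constructor
    · intro h
      have h1 : orderOf (g⁻¹ * y * g) = p := by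
        have : g⁻¹ * y * g = MulAut.conj g⁻¹ y := by rw [MulAut.conj_apply, inv_inv]
        rw [this]
        rw [← hy]
        exact MulEquiv.orderOf_eq (MulAut.conj g⁻¹) y
      have h2 : IsPGroup p (Subgroup.zpowers (g⁻¹ * y * g)) := by
        apply IsPGroup.of_card (n := 1)
        rw [Nat.card_zpowers, h1, pow_one]
      have h3 := h2.inf_normalizer_sylow P
      have h4 : g⁻¹ * y * g ∈ Subgroup.zpowers (g⁻¹ * y * g) ⊓ Subgroup.normalizer (P : Set G) :=
        ⟨Subgroup.mem_zpowers _, h⟩
      rw [h3] at h4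
      exact h4.2
    · intro h
      exact Subgroup.le_normalizer h
  have hgen : ∀ y ∈ (P : Subgroup G), y ≠ 1 → Subgroup.zpowers y = P := by
    intro y hy hy1
    apply Subgroup.eq_of_le_of_card_ge
    · rw [Subgroup.zpowers_le]; exact hy
    · rw [Nat.card_zpowers, hP]
      have h1 : orderOf y ∣ Nat.card P := by
        have := orderOf_dvd_natCard (⟨y, hy⟩ : P)
        rwa [Subgroup.orderOf_mk] at this
      rw [hP] at h1
      rcases (Nat.dvd_prime hp).1 h1 with h2 | h2
      · exact absurd (orderOf_eq_one_iff.1 h2) hy1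
      · exact h2.ge
  constructor
  · intro y hy
    have hy1 : y ≠ 1 := by
      rintro rfl
      rw [orderOf_one] at hy
      exact hp.one_lt.ne hy
    rw [Nat.card_eq_one_iff_unique]
    constructor
    · constructor
      rintro ⟨a, ha⟩ ⟨b, hb⟩
      apply Subtype.ext
      induction a using QuotientGroup.induction_on with | _ g =>
      induction b using QuotientGroup.induction_on with | _ h =>
      rw [MulAction.mem_fixedBy] at ha hb
      have ha' := (hfix g y hy).1 ha
      have hb' := (hfix h y hy).1 hb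
      have ne : ∀ k : G, k⁻¹ * y * k ≠ 1 := by
        intro k hk
        apply hy1
        have : y = k * (k⁻¹ * y * k) * k⁻¹ := by group
        rw [this, hk]; group
      have h1 := hgen _ ha' (ne g)
      have h2 := hgen _ hb' (ne h)
      change (QuotientGroup.mk g : G ⧸ N) = QuotientGroup.mk h
      rw [QuotientGroup.eq, hN, Subgroup.mem_normalizer_iff_map_conj_eq]
      apply Subgroup.eq_of_le_of_card_ge
      · rintro w ⟨v, hv, rfl⟩
        have hv' : v ∈ Subgroup.zpowers (h⁻¹ * y * h) := by rw [h2]; exact hv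
        obtain ⟨k, rfl⟩ := hv'
        change MulAut.conj (g⁻¹ * h) ((h⁻¹ * y * h) ^ k) ∈ (P : Subgroup G)
        rw [map_zpow, MulAut.conj_apply]
        have h3 : g⁻¹ * h * (h⁻¹ * y * h) * (g⁻¹ * h)⁻¹ = g⁻¹ * y * g := by group
        rw [h3]
        exact Subgroup.zpow_mem _ ha' k
      · rw [Nat.card_congr ((P : Subgroup G).equivMapOfInjective _ (MulAut.conj (g⁻¹ * h)).injective).toEquiv.symm]
    · have h2 : IsPGroup p (Subgroup.zpowers y) := by
        apply IsPGroup.of_card (n := 1)
        rw [Nat.card_zpowers, hy, pow_one]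
      obtain ⟨Q, hQ⟩ := h2.exists_le_sylow
      obtain ⟨x, hx⟩ := MulAction.exists_smul_eq G Q P
      have hxg : x * y * x⁻¹ ∈ P := by
        rw [← hx, Sylow.smul_def]
        exact ⟨y, hQ (Subgroup.mem_zpowers y), rfl⟩
      refine ⟨⟨QuotientGroup.mk x⁻¹, ?_⟩⟩
      rw [MulAction.mem_fixedBy]
      rw [hfix _ _ hy, inv_inv]
      exact hxg
  · intro x hx hxC
    apply Nat.card_le_card_of_injective
      (fun a : MulAction.fixedBy (G ⧸ N) x => (Quotient.mk (MulAction.orbitRel P (G ⧸ N)) (a : G ⧸ N) : MulAction.orbitRel.Quotient P (G ⧸ N)))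
    rintro ⟨a, ha⟩ ⟨b, hb⟩ hab
    apply Subtype.ext
    have h1 : (MulAction.orbitRel P (G ⧸ N)) a b := Quotient.exact hab
    obtain ⟨u, hu⟩ := h1
    have hu' : (u : G) • b = a := hu
    rw [MulAction.mem_fixedBy] at ha hb
    -- the commutator
    have hxu : x⁻¹ * (u : G)⁻¹ * x ∈ (P : Subgroup G) := by
      have h3 := (Subgroup.mem_normalizer_iff.1 (Subgroup.inv_mem _ hx) (u : G)⁻¹).1 (Subgroup.inv_mem _ u.2)
      rwa [inv_inv] at h3
    have hc : x⁻¹ * (u : G)⁻¹ * x * (u : G) ∈ (P : Subgroup G) := Subgroup.mul_mem _ hxu u.2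
    have hcfix : (x⁻¹ * (u : G)⁻¹ * x * (u : G)) • b = b := by
      rw [mul_smul, mul_smul, mul_smul, hu', ha, ← hu', inv_smul_smul, inv_smul_eq_iff, hb]
    change a = b
    by_cases hc1 : x⁻¹ * (u : G)⁻¹ * x * (u : G) = 1
    · -- x commutes with u
      have hcomm : x * (u : G) = (u : G) * x := by
        have : x * (u : G) = (u : G) * x * (x⁻¹ * (u : G)⁻¹ * x * (u : G)) := by group
        rw [this, hc1, mul_one]
      by_cases hu1 : (u : G) = 1
      · rw [← hu', hu1, one_smul]
      · exfalso
        apply hxC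
        rw [← hgen u u.2 hu1, Subgroup.mem_centralizer_iff]
        rintro w ⟨k, rfl⟩
        have h4 : Commute x (u : G) := hcomm
        exact (h4.zpow_right k).symm
    · have h5 := hgen _ hc hc1
      have h6 : (u : G) ∈ MulAction.stabilizer G b := by
        have h7 : Subgroup.zpowers (x⁻¹ * (u : G)⁻¹ * x * (u : G)) ≤ MulAction.stabilizer G b := by
          rw [Subgroup.zpowers_le]; exact hcfix
        rw [h5] at h7
        exact h7 u.2
      rw [← hu']
      exact h6

end Cfsg.Agent.S1018
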