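import Cfsg.Statements.S1019
import Cfsg.Agent.Lib.SmallSimple

set_option autoImplicit false
open Cfsg

namespace Cfsg.Agent.S1019

open Cfsg.Agent.Lib.SmallSimple

/-- Let H be a subgroup of a finite group G and x an element of H. In the action of G on the left cosets of H, the number of cosets fixed by x, multiplied by the size of the conjugacy class of x, equals the index of H multiplied by the number of conjugates of x that lie in H. -/
theorem result {G : Type*} [Group G] [Finite G] (H : Subgroup G) (x : G) (hx : x ∈ H) : Nat.card (MulAction.fixedBy (G ⧸ H) x) * Nat.card {g : G // IsConj x g} = H.index * Nat.card {g : G // IsConj x g ∧ g ∈ H} := by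
  classical
  -- the set of all `g` with `g⁻¹ x g ∈ H`
  have key1 : Nat.card {g : G // g⁻¹ * x * g ∈ H} = Nat.card (MulAction.fixedBy (G ⧸ H) x) * Nat.card H := by
    have h1 : {g : G | g⁻¹ * x * g ∈ H} = (QuotientGroup.mk (s := H)) ⁻¹' (MulAction.fixedBy (G ⧸ H) x) := by
      ext g
      simp only [Set.mem_setOf_eq, Set.mem_preimage, MulAction.mem_fixedBy]
      rw [show x • (QuotientGroup.mk g : G ⧸ H) = QuotientGroup.mk (x * g) from rfl, eq_comm,
        QuotientGroup.eq, mul_assoc]
    have h2 : Nat.card {g : G // g⁻¹ * x * g ∈ H} = Nat.card ((QuotientGroup.mk (s := H)) ⁻¹' (MulAction.fixedBy (G ⧸ H) x)) := by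
      rw [← h1]; rfl
    rw [h2, Nat.card_congr (QuotientGroup.preimageMkEquivSubgroupProdSet H _), Nat.card_prod, mul_comm]
  have key2 := card_conj_mem x (H : Set G)
  have key3 := card_isConj_mul_card_centralizer x
  have hC : 0 < Nat.card (Subgroup.centralizer ({x} : Set G)) := Nat.card_pos
  have hH : 0 < Nat.card H := Nat.card_pos
  have h4 := H.index_mul_card
  have h5 : Nat.card (MulAction.fixedBy (G ⧸ H) x) * Nat.card H =
      Nat.card {g : G // IsConj x g ∧ g ∈ H} * Nat.card (Subgroup.centralizer ({x} : Set G)) := by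
    rw [← key1]; exact key2
  apply Nat.eq_of_mul_eq_mul_right hC
  apply Nat.eq_of_mul_eq_mul_right hH
  calc Nat.card (MulAction.fixedBy (G ⧸ H) x) * Nat.card {g : G // IsConj x g} * Nat.card (Subgroup.centralizer ({x} : Set G)) * Nat.card H
      = (Nat.card (MulAction.fixedBy (G ⧸ H) x) * Nat.card H) * (Nat.card {g : G // IsConj x g} * Nat.card (Subgroup.centralizer ({x} : Set G))) := by ring
    _ = (Nat.card {g : G // IsConj x g ∧ g ∈ H} * Nat.card (Subgroup.centralizer ({x} : Set G))) * Nat.card G := by rw [h5, key3]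
    _ = _ := by rw [← h4]; ring

end Cfsg.Agent.S1019
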