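import Cfsg.Statements.S1038
import Cfsg.Agent.Lib.ChevN

set_option autoImplicit false
open Cfsg

namespace Cfsg.Agent.S1038

/-- The diagonal subgroup `H` (generated by the `h_r(t)`, `t ≠ 0`) is normal in the monomial subgroup `N` (generated by `H` and the `n_r`). -/
theorem result {F : Type*} [Field F] (D : Cfsg.Lie.ChevalleyDatum) (hD : D ∈ [Cfsg.Lie.chevG2, Cfsg.Lie.chevB2, Cfsg.Lie.chevD4, Cfsg.Lie.chevF4, Cfsg.Lie.chevE6, Cfsg.Lie.chevE7, Cfsg.Lie.chevE8]) : ((D.diagonalSubgroup F).subgroupOf (D.monomialSubgroup F)).Normal := by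
  obtain ⟨G⟩ := Cfsg.Agent.Lib.ChevRel.good_of_mem hD
  exact Cfsg.Agent.Lib.ChevN.H_normal_N G

end Cfsg.Agent.S1038
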