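import Cfsg.Statements.S1039
import Cfsg.Agent.Lib.ChevNPerm
import Cfsg.Agent.Lib.CoxRootData

set_option autoImplicit false
open Cfsg Cfsg.Agent.Lib

namespace Cfsg.Agent.S1039

/-- `N/H ≅ W`: there is a surjective homomorphism from `N` onto the Coxeter group of the type (Mathlib's Coxeter matrix G₂, B₂, F₄, E₆, E₇, E₈, nodes numbered as the fundamental roots) with kernel `H`, mapping each `n_{p_i}` to the `i`-th simple reflection. -/
theorem result {F : Type*} [Field F]
    (p : Cfsg.Lie.ChevalleyDatum × (Σ n : ℕ, CoxeterMatrix (Fin n)))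
    (hp : p ∈ [(Cfsg.Lie.chevG2, ⟨2, CoxeterMatrix.G₂⟩), (Cfsg.Lie.chevB2, ⟨2, CoxeterMatrix.B 2⟩), (Cfsg.Lie.chevD4, ⟨4, Cfsg.Lie.coxeterD4⟩), (Cfsg.Lie.chevF4, ⟨4, CoxeterMatrix.F₄⟩),
      (Cfsg.Lie.chevE6, ⟨6, CoxeterMatrix.E₆⟩), (Cfsg.Lie.chevE7, ⟨7, CoxeterMatrix.E₇⟩), (Cfsg.Lie.chevE8, ⟨8, CoxeterMatrix.E₈⟩)]) :
    ∃ φ : ↥(p.1.monomialSubgroup F) →* p.2.2.Group, Function.Surjective φ ∧
      φ.ker = (p.1.diagonalSubgroup F).subgroupOf (p.1.monomialSubgroup F) ∧
      ∀ (i : Fin p.2.1) (g : ↥(p.1.monomialSubgroup F)),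
        ((g : GL p.1.Idx F) : Matrix p.1.Idx p.1.Idx F) = p.1.nMat F (p.1.simple i) 1 → φ g = p.2.2.simple i := by
  have main : ∀ (D : Cfsg.Lie.ChevalleyDatum) (M : CoxeterMatrix (Fin D.rank)),
      Nonempty (Cfsg.Agent.Lib.ChevGood.Good D) → Cfsg.Agent.Lib.CoxRootData.FaithfulOnRoots D M →
      ∃ φ : ↥(D.monomialSubgroup F) →* M.Group, Function.Surjective φ ∧
        φ.ker = (D.diagonalSubgroup F).subgroupOf (D.monomialSubgroup F) ∧
        ∀ (i : Fin D.rank) (g : ↥(D.monomialSubgroup F)),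
          ((g : GL D.Idx F) : Matrix D.Idx D.Idx F) = D.nMat F (D.simple i) 1 → φ g = M.simple i := by
    rintro D M ⟨G⟩ ⟨ψ, hψ, hs⟩
    have hs' : ∀ i, ψ (M.simple i) = ChevNPerm.refl G i := fun i => Equiv.ext fun x => Fin.ext (hs i x)
    have hr : ψ.range = Subgroup.closure (Set.range (ChevNPerm.refl G)) := by
      rw [MonoidHom.range_eq_map, ← M.toCoxeterSystem.subgroup_closure_range_simple, MonoidHom.map_closure]
      congr 1
      ext x
      constructor
      · rintro ⟨_, ⟨i, rfl⟩, rfl⟩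
        exact ⟨i, (hs' i).symm⟩
      · rintro ⟨i, rfl⟩
        exact ⟨_, ⟨i, rfl⟩, hs' i⟩
    let e : M.Group ≃* ψ.range := MonoidHom.ofInjective hψ
    have hmem : ∀ g, ChevNPerm.permHom (F := F) G g ∈ ψ.range := by
      intro g
      rw [hr, ← ChevNPerm.permHom_range (F := F) G]
      exact ⟨g, rfl⟩
    let φ : ↥(D.monomialSubgroup F) →* M.Group :=
      e.symm.toMonoidHom.comp ((ChevNPerm.permHom (F := F) G).codRestrict _ hmem)
    have hφ : ∀ g, ψ (φ g) = ChevNPerm.permHom (F := F) G g := by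
      intro g
      have h1 : e (φ g) = ⟨_, hmem g⟩ := e.apply_symm_apply _
      exact congrArg Subtype.val h1
    refine ⟨φ, ?_, ?_, ?_⟩
    · intro x
      have h1 : ψ x ∈ (ChevNPerm.permHom (F := F) G).range := by
        rw [ChevNPerm.permHom_range (F := F) G, ← hr]; exact ⟨x, rfl⟩
      obtain ⟨g, hg⟩ := h1
      exact ⟨g, hψ (by rw [hφ, hg])⟩
    · rw [← ChevNPerm.permHom_ker G]
      ext g
      rw [MonoidHom.mem_ker, MonoidHom.mem_ker, ← hφ]
      constructor
      · intro h; rw [h, map_one]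
      · intro h; exact hψ (by rw [h, map_one])
    · intro i g hg
      apply hψ
      rw [hφ, hs']
      apply ChevNPerm.permOf_eq
      have h1 : (g : GL D.Idx F) = ChevRel.ng D F (D.simple i) 1 := Units.ext (by rw [hg, ChevRel.coe_ng G])
      rw [h1]
      exact ChevNPerm.mono_ng G i
  simp only [List.mem_cons, List.not_mem_nil, or_false] at hp
  rcases hp with rfl | rfl | rfl | rfl | rfl | rfl | rfl
  · exact main _ _ (ChevRel.good_of_mem (by simp)) CoxRootData.faithfulG2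
  · exact main _ _ (ChevRel.good_of_mem (by simp)) CoxRootData.faithfulB2
  · exact main _ _ (ChevRel.good_of_mem (by simp)) CoxRootData.faithfulD4
  · exact main _ _ (ChevRel.good_of_mem (by simp)) CoxRootData.faithfulF4
  · exact main _ _ (ChevRel.good_of_mem (by simp)) CoxRootData.faithfulE6
  · exact main _ _ (ChevRel.good_of_mem (by simp)) CoxRootData.faithfulE7
  · exact main _ _ (ChevRel.good_of_mem (by simp)) CoxRootData.faithfulE8

end Cfsg.Agent.S1039
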