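import Cfsg.Statements.S1057
import Cfsg.Agent.Lib.H10G2U3b
-- import your own Cfsg.Agent.* helpers here

set_option autoImplicit false
open Cfsg

namespace Cfsg.Agent.S1057

open Cfsg.Agent.Lib.H10G2U3 Cfsg.Agent.Lib.H58J2 Cfsg.Agent.Lib.H58F9 Cfsg.Lie

open scoped commutatorElement

universe u v

theorem commutator_le_of_index_two {G : Type u} [Group G] {N : Subgroup G} (h : N.index = 2) : commutator G ≤ N := by
  have hN : N.Normal := Subgroup.normal_of_index_eq_two h
  rw [commutator_def, Subgroup.commutator_le]
  intro a _ b _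
  rw [← QuotientGroup.eq_one_iff]
  have hc : Nat.card (G ⧸ N) = 2 := h
  have hp : Fact (Nat.Prime 2) := ⟨Nat.prime_two⟩
  have hcy : IsCyclic (G ⧸ N) := isCyclic_of_prime_card hc
  have hcomm : ∀ x y : G ⧸ N, x * y = y * x := fun x y => by
    letI : CommGroup (G ⧸ N) := IsCyclic.commGroup
    exact mul_comm x y
  show (QuotientGroup.mk' N) ⁅a, b⁆ = 1
  rw [map_commutatorElement, commutatorElement_eq_one_iff_mul_comm]
  exact hcomm _ _

/-- G₂(2)′ ≅ PSU₃(3). -/
theorem result {F K : Type*} [Field F] [Fintype F] [Field K] [Fintype K] (hF : Fintype.card F = 2) (hK : Fintype.card K = 9) :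
    Nonempty (↥(commutator ↥(Cfsg.Lie.chevG2.group F)) ≃* Cfsg.PSU 3 K 3) := by
  let e : ZMod 2 ≃+* F := FiniteField.ringEquivOfCardEq (by rw [hF, ZMod.card])
  have hG : Nat.card ↥(chevG2.group F) = 12096 := by
    rw [S1059.result hF]; norm_num
  have hfin : Finite ↥(chevG2.group F) := Nat.finite_of_card_ne_zero (by rw [hG]; norm_num)
  let N : Subgroup ↥(chevG2.group F) := (toG2 e).range
  let φ : S3u ≃* N := MonoidHom.ofInjective (toG2_inj e)
  have hNc : Nat.card N = 6048 := by rw [← card_S3u]; exact (Nat.card_congr φ.toEquiv).symm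
  have hidx : N.index = 2 := by
    have h := N.card_mul_index
    rw [hNc, hG] at h
    omega
  have hle : commutator ↥(chevG2.group F) ≤ N := commutator_le_of_index_two hidx
  have e9 : S3u ≃* PSU 3 F9 3 :=
    (QuotientGroup.quotientBot (G := S3u)).symm.trans (QuotientGroup.quotientMulEquivOfEq center_SU_triv.symm)
  have hsP : IsSimpleGroup (PSU 3 F9 3) := S0283.result (q := 3) (by decide) 3 (by norm_num) (by norm_num)
  have hsS : IsSimpleGroup S3u := MulEquiv.isSimpleGroup e9
  have hsN : IsSimpleGroup N := MulEquiv.isSimpleGroup φ.symm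
  -- the commutator is everything
  have hCN : commutator ↥(chevG2.group F) = N := by
    apply le_antisymm hle
    have hn : ((commutator ↥(chevG2.group F)).subgroupOf N).Normal := inferInstance
    rcases hn.eq_bot_or_eq_top with h | h
    · exfalso
      have hbot : commutator ↥(chevG2.group F) = ⊥ := by
        have h1 := Subgroup.subgroupOf_eq_bot.mp h
        rw [disjoint_iff, inf_eq_left.mpr hle] at h1
        exact h1
      have hcm : ∀ x y : N, x * y = y * x := by
        intro x y
        have h1 : ⁅(x : ↥(chevG2.group F)), (y : ↥(chevG2.group F))⁆ ∈ commutator ↥(chevG2.group F) :=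
          Subgroup.commutator_mem_commutator (Subgroup.mem_top _) (Subgroup.mem_top _)
        rw [hbot, Subgroup.mem_bot, commutatorElement_eq_one_iff_mul_comm] at h1
        exact Subtype.ext h1
      have : IsMulCommutative N := ⟨⟨hcm⟩⟩
      letI : CommGroup N := { (inferInstance : Group N) with mul_comm := hcm }
      have hpr := IsSimpleGroup.prime_card (α := N)
      rw [hNc] at hpr
      revert hpr
      norm_num
    · exact Subgroup.subgroupOf_eq_top.mp h
  have eK : F9 ≃+* K := FiniteField.ringEquivOfCardEq (by rw [F9.card, hK])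
  exact ⟨(MulEquiv.subgroupCongr hCN).trans (φ.symm.trans (e9.trans (Lib.SUTransport.psuEquiv eK 3 3)))⟩

end Cfsg.Agent.S1057
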