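import Cfsg.Statements.S1060
import Cfsg.Agent.Lib.ChevOrder
import Cfsg.Agent.Lib.ChevPoincB2
import Cfsg.Agent.Lib.ChevHOrder

set_option autoImplicit false
open Cfsg

namespace Cfsg.Agent.S1060
open Cfsg.Agent.Lib Cfsg.Agent.Lib.ChevOrder Cfsg.Agent.Lib.ChevHOrder

/-- `gcd(2, q-1) · |B₂(q)| = q⁴ (q² - 1)(q⁴ - 1)`. -/
theorem result {F : Type*} [Field F] [Fintype F] {q : ℕ} (hq : Fintype.card F = q) : Nat.gcd 2 (q - 1) * Nat.card ↥(Cfsg.Lie.chevB2.group F) = q ^ 4 * (q ^ 2 - 1) * (q ^ 4 - 1) := by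
  have hq2 : 2 ≤ q := by
    rw [← hq]; exact Fintype.one_lt_card
  have hD : Lie.chevB2 ∈ [Lie.chevG2, Lie.chevB2, Lie.chevD4, Lie.chevF4, Lie.chevE6, Lie.chevE7, Lie.chevE8] := by simp
  have h := order_formula (F := F) ChevOkB2.good hD hq (d := Nat.gcd 2 (q - 1)) (card_diagonal hq (Lie.chevB2, Nat.gcd 2 (q - 1)) (by simp))
    (ChevPoincB2.poinc ChevOkB2.good (q : ℤ) (by exact_mod_cast hq2))
  apply Nat.cast_injective (R := ℤ)
  skip
  rw [h]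
  simp only [Nat.cast_mul, cast_pred (show 1 ≤ q by omega)]
  push_cast
  show (q : ℤ) ^ 4 * _ = _
  ring

end Cfsg.Agent.S1060
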