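import Cfsg.Statements.S1058
import Cfsg.Agent.S1060
import Cfsg.Agent.Lib.StF2
import Cfsg.Agent.Lib.StPres

set_option autoImplicit false
open Cfsg

namespace Cfsg.Agent.S1058

open Equiv in
/-- images of the root elements -/
def pB (r : ℕ) : Equiv.Perm (Fin 6) :=
  ([swap 1 2, swap 0 5 * swap 1 2 * swap 3 4, swap 0 3 * swap 1 2 * swap 4 5, swap 3 4, swap 4 5,
    swap 0 1 * swap 2 5 * swap 3 4, swap 0 1 * swap 2 3 * swap 4 5, swap 0 1] : List (Equiv.Perm (Fin 6))).getD r 1

theorem pB_sq : ∀ r < Lie.chevB2.nroots, pB r * pB r = 1 := by decide +kernel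

theorem pB_pos : ∀ r < Lie.chevB2.nroots, ∀ s < Lie.chevB2.nroots, ∀ c ∈ Lie.chevB2.commTerms r s,
    1 ≤ c.2.2.1 ∧ 1 ≤ c.2.2.2 ∧ c.1 < Lie.chevB2.nroots := by decide +kernel

theorem pB_comm : ∀ r < Lie.chevB2.nroots, ∀ s < Lie.chevB2.nroots, s ≠ r → s ≠ Lie.chevB2.neg r →
    pB s * pB r * pB s * pB r = (((Lie.chevB2.commTerms r s).filter fun c => c.2.1 % 2 ≠ 0).map fun c => pB c.1).prod := by
  decide +kernel

theorem pB_rot : pB 7 * pB 0 * (pB 2 * pB 7 * pB 2) * pB 3 * pB 4 = finRotate 6 := by decide +kernel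

theorem pB_swap : pB 7 = Equiv.swap 0 (finRotate 6 0) := by decide +kernel

/-- B₂(2) ≅ S₆. -/
theorem result {F : Type*} [Field F] [Fintype F] (hF : Fintype.card F = 2) :
    Nonempty (↥(Cfsg.Lie.chevB2.group F) ≃* Equiv.Perm (Fin 6)) := by
  classical
  haveI : Fact (Nat.Prime 2) := ⟨Nat.prime_two⟩
  have h2 : ∀ t : F, t = 0 ∨ t = 1 := by
    intro t
    by_contra hcon
    push Not at hcon
    have h3 : ({0, 1, t} : Finset F).card = 3 := by
      rw [Finset.card_insert_of_notMem, Finset.card_insert_of_notMem, Finset.card_singleton]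
      · simp [Ne.symm hcon.2]
      · simp [Ne.symm hcon.1]
    have h4 := Finset.card_le_univ ({0, 1, t} : Finset F)
    omega
  have hD : Lie.chevB2 ∈ [Lie.chevG2, Lie.chevB2, Lie.chevD4, Lie.chevF4, Lie.chevE6, Lie.chevE7, Lie.chevE8] := by
    simp
  obtain ⟨θ, hθ, hk, -⟩ := Cfsg.Agent.Lib.StPres.ker_eq_center (K := F) hD
  set φ := Cfsg.Agent.Lib.StF2.hom (D := Lie.chevB2) (F := F) h2 pB pB_sq pB_pos pB_comm with hφd
  have hgen : ∀ r, r < 8 → pB r ∈ φ.range := fun r hr =>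
    ⟨Lie.chevB2.stGen F r 1, Cfsg.Agent.Lib.StF2.hom_stGen h2 pB pB_sq pB_pos pB_comm hr⟩
  have hφ : φ.range = ⊤ := by
    rw [eq_top_iff, ← Equiv.Perm.closure_cycle_adjacent_swap (isCycle_finRotate (n := 4))
      (support_finRotate (n := 4)) 0, Subgroup.closure_le]
    rintro x (rfl | rfl)
    · show finRotate 6 ∈ φ.range
      rw [← pB_rot]
      exact mul_mem (mul_mem (mul_mem (mul_mem (hgen 7 (by norm_num)) (hgen 0 (by norm_num)))
        (mul_mem (mul_mem (hgen 2 (by norm_num)) (hgen 7 (by norm_num))) (hgen 2 (by norm_num))))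
        (hgen 3 (by norm_num))) (hgen 4 (by norm_num))
    · show Equiv.swap 0 (finRotate 6 0) ∈ φ.range
      rw [← pB_swap]
      exact hgen 7 (by norm_num)
  have hsurj : Function.Surjective φ := MonoidHom.range_eq_top.1 hφ
  have hle : θ.ker ≤ φ.ker := by
    rw [hk]
    intro z hz
    rw [MonoidHom.mem_ker]
    have h1 : φ z ∈ Subgroup.center (Equiv.Perm (Fin 6)) := by
      rw [Subgroup.mem_center_iff]
      intro y
      obtain ⟨x, rfl⟩ := hsurj y
      rw [← map_mul, ← map_mul, Subgroup.mem_center_iff.1 hz x]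
    ext1 x
    by_contra hx
    rw [Equiv.Perm.one_apply] at hx
    obtain ⟨y, hy1, hy2⟩ : ∃ y : Fin 6, y ≠ x ∧ y ≠ φ z x := by
      have hc : ({x, φ z x} : Finset (Fin 6)).card < Fintype.card (Fin 6) :=
        lt_of_le_of_lt Finset.card_le_two (by decide)
      obtain ⟨y, hy⟩ := Finset.exists_mem_notMem_of_card_lt_card (s := {x, φ z x}) (t := Finset.univ)
        (by rwa [Finset.card_univ])
      refine ⟨y, fun h => hy.2 ?_, fun h => hy.2 ?_⟩ <;> simp [← h]
    have h3 := Subgroup.mem_center_iff.1 h1 (Equiv.swap (φ z x) y)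
    have h4 := congrArg (fun w : Equiv.Perm (Fin 6) => w x) h3
    simp only [Equiv.Perm.mul_apply, Equiv.swap_apply_left] at h4
    rw [Equiv.swap_apply_of_ne_of_ne (Ne.symm hx) (Ne.symm hy1)] at h4
    exact hy2 h4
  have hcard : Nat.card ↥(Lie.chevB2.group F) = 720 := by
    have h := Cfsg.Agent.S1060.result (F := F) (q := 2) hF
    generalize Nat.card ↥(Lie.chevB2.group F) = N at h
    norm_num at h
    exact h
  have hcardP : Nat.card (Equiv.Perm (Fin 6)) = 720 := by
    rw [Nat.card_eq_fintype_card, Fintype.card_perm, Fintype.card_fin]; rfl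
  let e := QuotientGroup.quotientKerEquivOfSurjective θ hθ
  let ψ : ↥(Lie.chevB2.group F) →* Equiv.Perm (Fin 6) := (QuotientGroup.lift θ.ker φ hle).comp e.symm.toMonoidHom
  have hψ : Function.Surjective ψ := by
    intro y
    obtain ⟨x, rfl⟩ := hsurj y
    refine ⟨e (QuotientGroup.mk x), ?_⟩
    show QuotientGroup.lift θ.ker φ hle (e.symm (e (QuotientGroup.mk x))) = φ x
    rw [e.symm_apply_apply]; rfl
  haveI : Finite ↥(Lie.chevB2.group F) := Nat.finite_of_card_ne_zero (by rw [hcard]; norm_num)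
  have hbij : Function.Bijective ψ := by
    haveI := Fintype.ofFinite ↥(Lie.chevB2.group F)
    rw [Fintype.bijective_iff_surjective_and_card]
    refine ⟨hψ, ?_⟩
    rw [← Nat.card_eq_fintype_card, ← Nat.card_eq_fintype_card, hcard, hcardP]
  exact ⟨MulEquiv.ofBijective ψ hbij⟩

end Cfsg.Agent.S1058
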