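import Cfsg.Statements.S1078
import Cfsg.Agent.Lib.StCenter

set_option autoImplicit false
open Cfsg

namespace Cfsg.Agent.S1078

/-- For G₂, F₄, E₈ the presented group has trivial centre (the universal and adjoint groups coincide). -/
theorem result {K : Type*} [Field K] (D : Cfsg.Lie.ChevalleyDatum) (hD : D ∈ [Cfsg.Lie.chevG2, Cfsg.Lie.chevF4, Cfsg.Lie.chevE8]) :
    Subgroup.center (D.SteinbergGroup K) = ⊥ :=
  Cfsg.Agent.Lib.StCenter.center_trivial hD

end Cfsg.Agent.S1078
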