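import Cfsg.Statements.S1089
import Cfsg.Agent.Lib.TwF4End

set_option autoImplicit false
open Cfsg

namespace Cfsg.Agent.S1089

/-- ²F₄(2^(2m+1)) has a (B,N)-pair: B¹ = G¹ ∩ B and N¹ = G¹ ∩ N, intersections with the ambient Chevalley group's B = UH and N. -/
theorem result {K : Type*} [Field K] [Fintype K] {m : ℕ} (hK : Fintype.card K = 2 ^ (2 * m + 1)) :
    ∃ P : Cfsg.BNPair ↥(Cfsg.Lie.twistedF4 K (2 ^ m)),
      P.B = (Cfsg.Lie.chevF4.borelSubgroup K ⊓ Cfsg.Lie.twistedF4 K (2 ^ m)).subgroupOf (Cfsg.Lie.twistedF4 K (2 ^ m)) ∧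
      P.N = (Cfsg.Lie.chevF4.monomialSubgroup K ⊓ Cfsg.Lie.twistedF4 K (2 ^ m)).subgroupOf (Cfsg.Lie.twistedF4 K (2 ^ m)) := by
  exact (Cfsg.Agent.Lib.TwF4.all hK).bnpair

end Cfsg.Agent.S1089
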