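import Cfsg.Statements.S1092
import Cfsg.Agent.Lib.CoxSound
import Cfsg.Agent.Lib.CoxCerts
import Cfsg.Agent.Lib.CoxData

set_option autoImplicit false
open Cfsg

namespace Cfsg.Agent.S1092

open Cfsg.Agent.Lib.CoxSound Cfsg.Agent.Lib.CoxCerts Cfsg.Agent.Lib.CoxData

theorem result (p : (Σ n : ℕ, CoxeterMatrix (Fin n)) × ℕ)
    (hp : p ∈ [(⟨2, CoxeterMatrix.B 2⟩, 8), (⟨2, CoxeterMatrix.G₂⟩, 12), (⟨4, Cfsg.Lie.coxeterD4⟩, 192), (⟨4, CoxeterMatrix.F₄⟩, 1152)]) :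
    Nat.card p.1.2.Group = p.2 := by
  simp only [List.mem_cons, List.not_mem_nil, or_false] at hp
  rcases hp with rfl | rfl | rfl | rfl
  · exact (main certB2 checkB2 (CoxeterMatrix.B 2) matB2).2.1
  · exact (main certG2 checkG2 (CoxeterMatrix.G₂) matG2).2.1
  · exact (main certD4 checkD4 (Cfsg.Lie.coxeterD4) matD4).2.1
  · exact (main certF4 checkF4 (CoxeterMatrix.F₄) matF4).2.1

end Cfsg.Agent.S1092
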