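import Cfsg.Statements.S1094
import Cfsg.Agent.Lib.CoxSound
import Cfsg.Agent.Lib.CoxElem
import Cfsg.Agent.Lib.CoxCerts
import Cfsg.Agent.Lib.CoxData

set_option autoImplicit false
open Cfsg

namespace Cfsg.Agent.S1094

open Cfsg.Agent.Lib.CoxSound Cfsg.Agent.Lib.CoxCerts Cfsg.Agent.Lib.CoxData Cfsg.Agent.Lib.CoxElem Cfsg.Agent.Lib.CoxCert

theorem aux (C : Cert) (hC : C.check = true) (M : CoxeterMatrix (Fin C.n)) (hM : ∀ i j : Fin C.n, M i j = C.mm i j)
    (h : ℕ) (hc : checkOrder C ((List.finRange C.n).map Fin.val) h 0 = true) :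
    orderOf ((List.finRange C.n).map M.simple).prod = h := by
  obtain ⟨-, -, φ, hinj, hφ⟩ := main C hC M hM
  exact orderOf_word C M.simple φ hinj hφ _ h 0 hc

theorem result (p : (Σ n : ℕ, CoxeterMatrix (Fin n)) × ℕ)
    (hp : p ∈ [(⟨2, CoxeterMatrix.B 2⟩, 4), (⟨2, CoxeterMatrix.G₂⟩, 6), (⟨4, Cfsg.Lie.coxeterD4⟩, 6), (⟨4, CoxeterMatrix.F₄⟩, 12),
      (⟨6, CoxeterMatrix.E₆⟩, 12), (⟨7, CoxeterMatrix.E₇⟩, 18), (⟨8, CoxeterMatrix.E₈⟩, 30)]) :
    orderOf ((List.finRange p.1.1).map p.1.2.simple).prod = p.2 := by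
  simp only [List.mem_cons, List.not_mem_nil, or_false] at hp
  rcases hp with rfl | rfl | rfl | rfl | rfl | rfl | rfl
  · exact aux certB2 checkB2 (CoxeterMatrix.B 2) matB2 4 (by decide +kernel)
  · exact aux certG2 checkG2 (CoxeterMatrix.G₂) matG2 6 (by decide +kernel)
  · exact aux certD4 checkD4 (Cfsg.Lie.coxeterD4) matD4 6 (by decide +kernel)
  · exact aux certF4 checkF4 (CoxeterMatrix.F₄) matF4 12 (by decide +kernel)
  · exact aux certE6 checkE6 (CoxeterMatrix.E₆) matE6 12 (by decide +kernel)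
  · exact aux certE7 checkE7 (CoxeterMatrix.E₇) matE7 18 (by decide +kernel)
  · exact aux certE8 checkE8 (CoxeterMatrix.E₈) matE8 30 (by decide +kernel)

end Cfsg.Agent.S1094
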