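import Cfsg.Statements.S1095
import Cfsg.Agent.Lib.ChevRel
-- import your own Cfsg.Agent.* helpers here

set_option autoImplicit false
open Cfsg

namespace Cfsg.Agent.S1095

/-- `n_p` (p = p_{i+1} fundamental) is the signed monomial matrix `h_{p_j} ↦ h_{p_j} - A_{p_j,p} h_p`, `e_s ↦ η_s e_{w_p(s)}`, with `η_s = ±1`, `η_p = η_{-p} = -1`, `η_s η_{w_p(s)} = (-1)^{A_{p,s}}`, `η_s η_{-s} = 1`. -/
theorem result {F : Type*} [Field F] (D : Cfsg.Lie.ChevalleyDatum) (hD : D ∈ [Cfsg.Lie.chevG2, Cfsg.Lie.chevB2, Cfsg.Lie.chevD4, Cfsg.Lie.chevF4, Cfsg.Lie.chevE6, Cfsg.Lie.chevE7, Cfsg.Lie.chevE8]) (i : ℕ) (hi : i < D.rank) :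
    ∃ η : ℕ → ℤ, (∀ s < D.nroots, η s = 1 ∨ η s = -1) ∧ η (D.simple i) = -1 ∧ η (D.neg (D.simple i)) = -1 ∧
      (∀ s < D.nroots, η s * η (D.reflectRoot i s) = (-1) ^ (D.cartan i s).natAbs ∧ η s * η (D.neg s) = 1) ∧
      D.nMat F (D.simple i) 1 = Matrix.of (fun (row col : D.Idx) =>
        Sum.elim
          (fun j' : Fin D.rank => Sum.elim
            (fun j : Fin D.rank => (if j' = j then (1 : F) else 0) - (if (j' : ℕ) = i then ((D.cartan j (D.simple i) : ℤ) : F) else 0))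
            (fun _ => (0 : F)) col)
          (fun s' : Fin D.nroots => Sum.elim
            (fun _ => (0 : F))
            (fun s : Fin D.nroots => if (s' : ℕ) = D.reflectRoot i s then ((η s : ℤ) : F) else 0) col)
          row) := by
  obtain ⟨G⟩ := Cfsg.Agent.Lib.ChevRel.good_of_mem hD
  refine ⟨G.η i, fun s hs => G.η_sq i hi s hs, G.η_simple i hi, ?_, ?_, ?_⟩
  · rw [G.η_neg i hi _ (G.simple_lt i hi), G.η_simple i hi]
  · intro s hs
    have h1 : G.η i s * G.η i s = 1 := by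
      rcases G.η_sq i hi s hs with h | h <;> rw [h] <;> norm_num
    refine ⟨?_, ?_⟩
    · rw [G.η_w i hi s hs, ← mul_assoc, h1, one_mul]
    · rw [G.η_neg i hi s hs, h1]
  · ext row col
    rcases row with a | a <;> rcases col with b | b
    · rw [Cfsg.Agent.Lib.ChevRel.n_ll G hi]; rfl
    · rw [Cfsg.Agent.Lib.ChevRel.n_lr G hi]; rfl
    · rw [Cfsg.Agent.Lib.ChevRel.n_rl G hi]; rfl
    · rw [Cfsg.Agent.Lib.ChevRel.n_rr G hi]; rfl

end Cfsg.Agent.S1095
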