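import Cfsg.Statements.S1096
import Cfsg.Agent.Lib.ChevRel
-- import your own Cfsg.Agent.* helpers here

set_option autoImplicit false
open Cfsg

namespace Cfsg.Agent.S1096

/-- `n_p h_{p_j}(t) n_p⁻¹ = h_{w_p(p_j)}(t)` for fundamental `p`, `p_j` and `t ≠ 0`, stated as `n_p h_{p_j}(t) = h_{w_p(p_j)}(t) n_p`. -/
theorem result {F : Type*} [Field F] (D : Cfsg.Lie.ChevalleyDatum) (hD : D ∈ [Cfsg.Lie.chevG2, Cfsg.Lie.chevB2, Cfsg.Lie.chevD4, Cfsg.Lie.chevF4, Cfsg.Lie.chevE6, Cfsg.Lie.chevE7, Cfsg.Lie.chevE8]) (i j : ℕ) (hi : i < D.rank) (hj : j < D.rank) (t : F) (ht : t ≠ 0) :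
    D.nMat F (D.simple i) 1 * D.hMat F (D.simple j) t = D.hMat F (D.reflectRoot i (D.simple j)) t * D.nMat F (D.simple i) 1 := by
  obtain ⟨G⟩ := Cfsg.Agent.Lib.ChevRel.good_of_mem hD
  have h := mul_inv_eq_iff_eq_mul.mp (show Cfsg.Agent.Lib.ChevRel.ng D F (D.simple i) 1
      * Cfsg.Agent.Lib.ChevRel.hg D F (D.simple j) t * (Cfsg.Agent.Lib.ChevRel.ng D F (D.simple i) 1)⁻¹
      = Cfsg.Agent.Lib.ChevRel.hg D F (D.reflectRoot i (D.simple j)) t from ?_)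
  · have h2 := congrArg (fun g : GL D.Idx F => (g : Matrix D.Idx D.Idx F)) h
    simpa only [Units.val_mul, Cfsg.Agent.Lib.ChevRel.coe_hg G, Cfsg.Agent.Lib.ChevRel.coe_ng G] using h2
  · rw [mul_inv_eq_iff_eq_mul]
    apply Units.ext
    simp only [Units.val_mul, Cfsg.Agent.Lib.ChevRel.coe_hg G, Cfsg.Agent.Lib.ChevRel.coe_ng G]
    have hjn := G.simple_lt j hj
    rw [Cfsg.Agent.Lib.ChevRel.hMat_eq_dg G hjn t ht, Cfsg.Agent.Lib.ChevRel.n_mul_dg G hi,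
      Cfsg.Agent.Lib.ChevRel.hMat_eq_dg G (G.w_lt i hi _ hjn) t ht]
    congr 1
    apply Cfsg.Agent.Lib.ChevRel.dg_congr
    intro s hs
    rw [Cfsg.Agent.Lib.ChevRel.pr_w G hi hjn hs]

end Cfsg.Agent.S1096
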