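import Cfsg.Statements.S1099
import Cfsg.Agent.Lib.TwSpec

set_option autoImplicit false
open Cfsg

namespace Cfsg.Agent.S1099

/-- Graph automorphism of G₂ in characteristic 3 (K perfect): `x_a(t) ↦ x_b(t³)`, `x_b(t) ↦ x_a(t)`, `x_{-a}(t) ↦ x_{-b}(t³)`, `x_{-b}(t) ↦ x_{-a}(t)` extend to an automorphism of the group. -/
theorem result {K : Type*} [Field K] [CharP K 3] (hperf : ∀ x : K, ∃ y : K, y ^ 3 = x) :
    ∃ α : ↥(Cfsg.Lie.chevG2.group K) ≃* ↥(Cfsg.Lie.chevG2.group K), ∀ (g : ↥(Cfsg.Lie.chevG2.group K)) (t : K),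
      (((g : GL Cfsg.Lie.chevG2.Idx K) : Matrix _ _ K) = Cfsg.Lie.chevG2.x K Cfsg.Lie.g2a t →
        ((α g : GL Cfsg.Lie.chevG2.Idx K) : Matrix _ _ K) = Cfsg.Lie.chevG2.x K Cfsg.Lie.g2b (t ^ 3)) ∧
      (((g : GL Cfsg.Lie.chevG2.Idx K) : Matrix _ _ K) = Cfsg.Lie.chevG2.x K Cfsg.Lie.g2b t →
        ((α g : GL Cfsg.Lie.chevG2.Idx K) : Matrix _ _ K) = Cfsg.Lie.chevG2.x K Cfsg.Lie.g2a t) ∧
      (((g : GL Cfsg.Lie.chevG2.Idx K) : Matrix _ _ K) = Cfsg.Lie.chevG2.x K Cfsg.Lie.g2ma t →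
        ((α g : GL Cfsg.Lie.chevG2.Idx K) : Matrix _ _ K) = Cfsg.Lie.chevG2.x K Cfsg.Lie.g2mb (t ^ 3)) ∧
      (((g : GL Cfsg.Lie.chevG2.Idx K) : Matrix _ _ K) = Cfsg.Lie.chevG2.x K Cfsg.Lie.g2mb t →
        ((α g : GL Cfsg.Lie.chevG2.Idx K) : Matrix _ _ K) = Cfsg.Lie.chevG2.x K Cfsg.Lie.g2ma t) := by
  obtain ⟨α, hα⟩ := Cfsg.Agent.Lib.TwSpec.exists_special (K := K) Cfsg.Agent.Lib.ChevOkG2.good
    (Q := Cfsg.Agent.Lib.TwSpec.spG2) Cfsg.Agent.Lib.TwSpec.chkG2 Nat.prime_three (by simp)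
    Cfsg.Agent.Lib.TwSpec.ker_G2 hperf
  have key : ∀ (s : ℕ) (hs : s < Cfsg.Lie.chevG2.nroots) (g : ↥(Cfsg.Lie.chevG2.group K)) (t : K),
      ((g : GL Cfsg.Lie.chevG2.Idx K) : Matrix _ _ K) = Cfsg.Lie.chevG2.x K s t →
      ((α g : GL Cfsg.Lie.chevG2.Idx K) : Matrix _ _ K) =
        Cfsg.Lie.chevG2.x K (Cfsg.Agent.Lib.TwSpec.spG2.r s) (t ^ Cfsg.Agent.Lib.TwSpec.spG2.l s) := by
    intro s hs g t h
    have hg : g = Cfsg.Agent.Lib.TwSpec.XG Cfsg.Agent.Lib.ChevOkG2.good K s t := by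
      apply Subtype.ext
      apply Units.ext
      exact h.trans (Cfsg.Agent.Lib.ChevRel.coe_xg Cfsg.Agent.Lib.ChevOkG2.good s t).symm
    rw [hg, hα s hs t]
    exact Cfsg.Agent.Lib.ChevRel.coe_xg Cfsg.Agent.Lib.ChevOkG2.good _ _
  refine ⟨α, fun g t => ⟨key 7 (by decide) g t, fun h => ?_, key 4 (by decide) g t, fun h => ?_⟩⟩
  · have := key 6 (by decide) g t h
    rw [show Cfsg.Agent.Lib.TwSpec.spG2.l 6 = 1 from rfl, pow_one] at this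
    exact this
  · have := key 5 (by decide) g t h
    rw [show Cfsg.Agent.Lib.TwSpec.spG2.l 5 = 1 from rfl, pow_one] at this
    exact this

end Cfsg.Agent.S1099
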