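import Cfsg.Statements.S1100
import Cfsg.Agent.Lib.ChevBruhat

set_option autoImplicit false
open Cfsg

namespace Cfsg.Agent.S1100

/-- Canonical form `g = b n_w u` (`b ∈ B`, `u ∈ U_w⁻ = ⟨X_r : r > 0, n_w X_r n_w⁻¹ ≤ V⟩`): such a decomposition exists for every element of the group; the coset `n_w H` is determined by `g`; and for a fixed representative `n_w` the factors `b`, `u` are unique. -/
theorem result {F : Type*} [Field F] (D : Cfsg.Lie.ChevalleyDatum) (hD : D ∈ [Cfsg.Lie.chevG2, Cfsg.Lie.chevB2, Cfsg.Lie.chevD4, Cfsg.Lie.chevF4, Cfsg.Lie.chevE6, Cfsg.Lie.chevE7, Cfsg.Lie.chevE8]) :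
    (∀ g ∈ D.group F, ∃ b ∈ D.borelSubgroup F, ∃ n ∈ D.monomialSubgroup F,
      ∃ u ∈ Subgroup.closure {x : GL D.Idx F | ∃ (r : ℕ) (t : F), D.IsPosRoot r ∧
            (D.rootSubgroup F r).map (MulAut.conj n).toMonoidHom ≤ D.negUnipotent F ∧ (x : Matrix D.Idx D.Idx F) = D.x F r t},
        g = b * n * u) ∧
    (∀ (b b' n n' u u' : GL D.Idx F), b ∈ D.borelSubgroup F → b' ∈ D.borelSubgroup F →
      n ∈ D.monomialSubgroup F → n' ∈ D.monomialSubgroup F →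
      u ∈ Subgroup.closure {x : GL D.Idx F | ∃ (r : ℕ) (t : F), D.IsPosRoot r ∧
            (D.rootSubgroup F r).map (MulAut.conj n).toMonoidHom ≤ D.negUnipotent F ∧ (x : Matrix D.Idx D.Idx F) = D.x F r t} →
      u' ∈ Subgroup.closure {x : GL D.Idx F | ∃ (r : ℕ) (t : F), D.IsPosRoot r ∧
            (D.rootSubgroup F r).map (MulAut.conj n').toMonoidHom ≤ D.negUnipotent F ∧ (x : Matrix D.Idx D.Idx F) = D.x F r t} →
      b * n * u = b' * n' * u' → n⁻¹ * n' ∈ D.diagonalSubgroup F ∧ (n = n' → b = b' ∧ u = u')) := by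
  obtain ⟨G⟩ := Cfsg.Agent.Lib.ChevRel.good_of_mem hD
  refine ⟨?_, ?_⟩
  · intro g hg
    obtain ⟨u, hu, n, hn, w, hw, u', hu', h⟩ := Cfsg.Agent.Lib.ChevBruhat.exists_bruhat G hD hg
    exact ⟨u, Cfsg.Agent.Lib.ChevBruhat.borel_U G hu, n, hn, u',
      by rw [Cfsg.Agent.Lib.ChevBruhat.Um_eq G hD hw]; exact hu', h⟩
  · intro b b' n n' u u' hb hb' hn hn' hu hu' h
    obtain ⟨w, hw⟩ := Cfsg.Agent.Lib.ChevNPerm.exists_mono G hn
    obtain ⟨w', hw'⟩ := Cfsg.Agent.Lib.ChevNPerm.exists_mono G hn'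
    rw [Cfsg.Agent.Lib.ChevBruhat.Um_eq G hD hw] at hu
    rw [Cfsg.Agent.Lib.ChevBruhat.Um_eq G hD hw'] at hu'
    obtain ⟨v, hv, a, ha, rfl⟩ := Cfsg.Agent.Lib.ChevBruhat.mem_borel G hb
    obtain ⟨v', hv', a', ha', rfl⟩ := Cfsg.Agent.Lib.ChevBruhat.mem_borel G hb'
    have h1 : v * (a * n) * u = v' * (a' * n') * u' := by simpa [mul_assoc] using h
    have hwa := Cfsg.Agent.Lib.ChevNPerm.mono_mul G (Cfsg.Agent.Lib.ChevNPerm.mono_diag G ha) hw
    have hwa' := Cfsg.Agent.Lib.ChevNPerm.mono_mul G (Cfsg.Agent.Lib.ChevNPerm.mono_diag G ha') hw'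
    rw [one_mul] at hwa hwa'
    obtain ⟨e1, e2, e3⟩ := Cfsg.Agent.Lib.ChevBruhat.bruhat_unique G hD hv hv'
      (mul_mem (Subgroup.mem_sup_left ha) hn) (mul_mem (Subgroup.mem_sup_left ha') hn') hwa hwa' hu hu' h1
    subst e1 e3
    constructor
    · have h2 : n' = (a'⁻¹ * a) * n := by rw [mul_assoc, e2]; group
      have h3 := Cfsg.Agent.Lib.ChevNPerm.mono_conj_diag G (Cfsg.Agent.Lib.ChevNPerm.mono_inv G hw)
        (mul_mem (inv_mem ha') ha)
      rw [h2, ← mul_assoc]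
      rwa [inv_inv] at h3
    · rintro rfl
      have : a = a' := mul_right_cancel e2
      subst this
      exact ⟨rfl, rfl⟩

end Cfsg.Agent.S1100
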