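import Cfsg.Statements.S1109
import Cfsg.Agent.Lib.TwD4End

set_option autoImplicit false
open Cfsg

namespace Cfsg.Agent.S1109

/-- The normal core of `B¹ = G¹ ∩ B` in ³D₄(q) is trivial. -/
theorem result {K : Type*} [Field K] [Fintype K] {q : ℕ} (hq : IsPrimePow q) (hK : Fintype.card K = q ^ 3) :
    ((Cfsg.Lie.chevD4.borelSubgroup K ⊓ Cfsg.Lie.twistedD4 K q).subgroupOf (Cfsg.Lie.twistedD4 K q)).normalCore = ⊥ := by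
  rw [Cfsg.Agent.Lib.TwD4.twisted_eq (Cfsg.Agent.Lib.TwField.pow_pow_card hK)]
  exact Cfsg.Agent.Lib.TwTab.coreT (Cfsg.Agent.Lib.TwD4.sig hq hK) Cfsg.Agent.Lib.TwTab.chk1D4
    Cfsg.Agent.Lib.TwTab.chk2D4 Cfsg.Agent.Lib.TwTab.chk3D4 Cfsg.Agent.Lib.TwD4.listed Cfsg.Agent.Lib.TwTab.chk4D4
    Cfsg.Agent.Lib.TwTab.chk5D4 Cfsg.Agent.Lib.TwTab.hp0 (Cfsg.Agent.Lib.TwD4.all hq hK).le _
    (Cfsg.Agent.Lib.TwD4.all hq hK) Cfsg.Agent.Lib.TwD4.chkL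

end Cfsg.Agent.S1109
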