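import Cfsg.Statements.S1118
import Cfsg.Agent.Lib.RankOne

set_option autoImplicit false
open Cfsg

namespace Cfsg.Agent.S1118

/-- In the rank-one set-up (`G` finite and doubly transitive on `Ω`, `t` an involution moving `a`, `Q` normal in `G_a` with `G_a = Q D`, `Q ⊓ D = 1` for the two-point stabiliser `D = G_a ⊓ G_{t • a}`, `|Q|` even, `|D|` odd), the normaliser of a subset of `Q` containing a non-identity element lies in `G_a`; consequently `N_G(Q) = N_G(G_a) = G_a`. -/
theorem result {G Ω : Type*} [Group G] [Finite G] [MulAction G Ω] {a : Ω} {t : G} {Q : Subgroup G}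
    (hS : Cfsg.IsRankOneSetup G Ω a t Q) :
    (∀ X : Set G, X ⊆ (Q : Set G) → (∃ x ∈ X, x ≠ 1) → Subgroup.normalizer X ≤ MulAction.stabilizer G a) ∧
      Subgroup.normalizer (Q : Set G) = MulAction.stabilizer G a ∧
      Subgroup.normalizer (MulAction.stabilizer G a : Set G) = MulAction.stabilizer G a := by
  have key : ∀ X : Set G, X ⊆ (Q : Set G) → (∃ x ∈ X, x ≠ 1) → Subgroup.normalizer X ≤ MulAction.stabilizer G a := by
    intro X hX ⟨x, hx, hx1⟩ g hg
    have h1 : g * x * g⁻¹ ∈ X := (hg x).1 hx
    have h2 : (g * x * g⁻¹) • (g • a) = g • a := by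
      rw [mul_smul, mul_smul, inv_smul_smul, Lib.RankOne.Q_fix hS (hX hx)]
    have h3 : g * x * g⁻¹ ≠ 1 := by
      intro h
      apply hx1
      have := congrArg (fun z => g⁻¹ * z * g) h
      simpa [mul_assoc] using this
    exact MulAction.mem_stabilizer_iff.2 (Lib.RankOne.Q_free hS (hX h1) h3 h2)
  obtain ⟨s, hs, hs1, hs2⟩ := Lib.RankOne.exists_invol hS
  refine ⟨key, ?_, ?_⟩
  · apply le_antisymm
    · exact key _ subset_rfl ⟨s, hs, hs1⟩
    · intro g hg
      rw [Subgroup.mem_normalizer_iff]
      intro h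
      constructor
      · intro hh; exact hS.conj_mem g hg h hh
      · intro hh
        have := hS.conj_mem g⁻¹ (Subgroup.inv_mem _ hg) _ hh
        have e : g⁻¹ * (g * h * g⁻¹) * g⁻¹⁻¹ = h := by group
        rwa [e] at this
  · apply le_antisymm
    · intro g hg
      rw [Subgroup.mem_normalizer_iff''] at hg
      have h1 : g⁻¹ * s * g ∈ MulAction.stabilizer G a := (hg s).1 (hS.le hs)
      have h2 : s • (g • a) = g • a := by
        rw [MulAction.mem_stabilizer_iff, mul_smul, mul_smul, inv_smul_eq_iff] at h1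
        exact h1
      exact MulAction.mem_stabilizer_iff.2 (Lib.RankOne.Q_free hS hs hs1 h2)
    · exact Subgroup.le_normalizer

end Cfsg.Agent.S1118
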