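import Cfsg.Statements.S1124
import Cfsg.Agent.Lib.OddInv

set_option autoImplicit false
open Cfsg

namespace Cfsg.Agent.S1124

open Pointwise in
theorem result {M : Type*} [Group M] [Finite M]
    (t : M) (ht : orderOf t = 2) (X : Subgroup M) (hodd : Odd (Nat.card X))
    (hnorm : ∀ x ∈ X, t * x * t⁻¹ ∈ X) :
    (∀ x ∈ X, ∃! p : M × M, p.1 ∈ X ⊓ Subgroup.centralizer {t} ∧ p.2 ∈ Cfsg.invertedBy X t ∧ x = p.1 * p.2) ∧
      Nat.card X = Nat.card ↥(X ⊓ Subgroup.centralizer {t}) * Nat.card (Cfsg.invertedBy X t) ∧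
      ∀ x ∈ X, MulAut.conj x • Subgroup.closure (Cfsg.invertedBy X t) = Subgroup.closure (Cfsg.invertedBy X t) := by
  have htt : t * t = 1 := by rw [← pow_two, ← ht]; exact pow_orderOf_eq_one t
  refine ⟨Lib.OddInv.exists_unique_mul t htt X hodd hnorm, Lib.OddInv.card_eq_mul t htt X hodd hnorm, fun x hx => ?_⟩
  have key := Lib.OddInv.closure_conj_le t htt X hodd hnorm
  ext c
  rw [Subgroup.mem_pointwise_smul_iff_inv_smul_mem]
  have e : (MulAut.conj x)⁻¹ • c = x⁻¹ * c * x := by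
    rw [← map_inv]; simp [MulAut.conj_apply]
  rw [e]
  constructor
  · intro h
    have := key x hx _ h
    have e2 : x * (x⁻¹ * c * x) * x⁻¹ = c := by group
    rwa [e2] at this
  · intro h
    have := key x⁻¹ (X.inv_mem hx) _ h
    rwa [inv_inv] at this

end Cfsg.Agent.S1124
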