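import Cfsg.Statements.S1125
import Cfsg.Agent.Lib.RankOneB

set_option autoImplicit false
open Cfsg

namespace Cfsg.Agent.S1125

/-- In the rank-one set-up (`G` finite and doubly transitive on `Ω`, `t` an involution moving `a`, `Q` normal in `G_a` with `G_a = Q D`, `Q ⊓ D = 1` for the two-point stabiliser `D = G_a ⊓ G_{t • a}`, `|Q|` even, `|D|` odd), let `X ⊆ D` fix at least three points of `Ω`. Then `C_G(X)` is doubly transitive on the fixed-point set of `X`, `|C_Q(X)|` is even, and `C_{G_a}(X) = C_Q(X) C_D(X)`. -/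
theorem result {G Ω : Type*} [Group G] [Finite G] [MulAction G Ω] {a : Ω} {t : G} {Q : Subgroup G}
    (hS : Cfsg.IsRankOneSetup G Ω a t Q)
    (X : Set G) (hX : X ⊆ ((MulAction.stabilizer G a ⊓ MulAction.stabilizer G (t • a)) : Set G))
    (h3 : ∃ b c d : Ω, b ≠ c ∧ b ≠ d ∧ c ≠ d ∧ ∀ x ∈ X, x • b = b ∧ x • c = c ∧ x • d = d) :
    (∀ b₁ b₂ c₁ c₂ : Ω, (∀ x ∈ X, x • b₁ = b₁ ∧ x • b₂ = b₂ ∧ x • c₁ = c₁ ∧ x • c₂ = c₂) →
        b₁ ≠ b₂ → c₁ ≠ c₂ → ∃ g ∈ Subgroup.centralizer X, g • b₁ = c₁ ∧ g • b₂ = c₂) ∧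
      Even (Nat.card ↥(Subgroup.centralizer X ⊓ Q)) ∧
      (Subgroup.centralizer X ⊓ Q) ⊔ (Subgroup.centralizer X ⊓ (MulAction.stabilizer G a ⊓ MulAction.stabilizer G (t • a))) = Subgroup.centralizer X ⊓ MulAction.stabilizer G a := by
  have hX' : ∀ x ∈ X, x • a = a ∧ x • t • a = t • a := fun x hx => hX hx
  have h3' : ∃ d : Ω, d ≠ a ∧ d ≠ t • a ∧ ∀ x ∈ X, x • d = d := by
    obtain ⟨b, c, d, hbc, hbd, hcd, hf⟩ := h3
    by_cases hb : b ≠ a ∧ b ≠ t • a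
    · exact ⟨b, hb.1, hb.2, fun x hx => (hf x hx).1⟩
    by_cases hc : c ≠ a ∧ c ≠ t • a
    · exact ⟨c, hc.1, hc.2, fun x hx => (hf x hx).2.1⟩
    refine ⟨d, ?_, ?_, fun x hx => (hf x hx).2.2⟩
    · rintro rfl
      apply hb
      refine ⟨hbd, ?_⟩
      rintro rfl
      exact hc ⟨hcd, hbc.symm⟩
    · rintro rfl
      apply hb
      refine ⟨?_, hbd⟩
      rintro rfl
      exact hc ⟨hbc.symm, hcd⟩
  refine ⟨?_, ?_, ?_⟩
  · intro b₁ b₂ c₁ c₂ hf hb hc
    obtain ⟨g, hg, h1, h2⟩ := Lib.RankOneB.cent_two_trans hS hX' h3' hf hb hc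
    exact ⟨g, Subgroup.mem_centralizer_iff.2 hg, h1, h2⟩
  · obtain ⟨z, hz, hzX, hz1, hzz⟩ := Lib.RankOneB.cent_invol_Q hS hX' h3'
    have hmem : z ∈ Subgroup.centralizer X ⊓ Q := ⟨Subgroup.mem_centralizer_iff.2 hzX, hz⟩
    by_contra hodd
    rw [Nat.not_even_iff_odd] at hodd
    exact hz1 (Lib.OddInv.eq_one_of_sq_eq_one hodd hmem hzz)
  · apply le_antisymm
    · apply sup_le
      · rintro y ⟨hy1, hy2⟩
        exact ⟨hy1, hS.le hy2⟩
      · rintro y ⟨hy1, hy2⟩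
        exact ⟨hy1, hy2.1⟩
    · rintro g ⟨hg1, hg2⟩
      have hgX := Subgroup.mem_centralizer_iff.1 hg1
      have hga := MulAction.mem_stabilizer_iff.1 hg2
      have hne : g • t • a ≠ a := by
        intro h
        apply Lib.RankOne.ta_ne hS
        exact smul_left_cancel g (h.trans hga.symm)
      obtain ⟨y, hy, hyX, hyb⟩ := Lib.RankOneB.cent_trans_a hS hX' (Lib.RankOne.ta_ne hS) hne
        (fun x hx => (hX' x hx).2) (by intro x hx; rw [smul_smul, hgX x hx, mul_smul, (hX' x hx).2])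
      have hyc : y ∈ Subgroup.centralizer X := Subgroup.mem_centralizer_iff.2 hyX
      have e : g = y * (y⁻¹ * g) := by group
      rw [e]
      apply Subgroup.mul_mem_sup
      · exact ⟨hyc, hy⟩
      · refine ⟨Subgroup.mul_mem _ (Subgroup.inv_mem _ hyc) hg1, ?_, ?_⟩
        · exact (MulAction.stabilizer G a).mul_mem ((MulAction.stabilizer G a).inv_mem (hS.le hy)) hg2
        · show y⁻¹ * g ∈ MulAction.stabilizer G (t • a)
          rw [MulAction.mem_stabilizer_iff, mul_smul, ← hyb, inv_smul_smul]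

end Cfsg.Agent.S1125
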