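import Cfsg.Statements.S1126
import Cfsg.Agent.Lib.RankOneB

set_option autoImplicit false
open Cfsg

namespace Cfsg.Agent.S1126

/-- In the rank-one set-up (`G` finite and doubly transitive on `Ω`, `t` an involution moving `a`, `Q` normal in `G_a` with `G_a = Q D`, `Q ⊓ D = 1` for the two-point stabiliser `D = G_a ⊓ G_{t • a}`, `|Q|` even, `|D|` odd), a subset `X ⊆ D` fixing at least three points of `Ω` is conjugate by an element of `D` into `V = C_D(t)`. -/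
theorem result {G Ω : Type*} [Group G] [Finite G] [MulAction G Ω] {a : Ω} {t : G} {Q : Subgroup G}
    (hS : Cfsg.IsRankOneSetup G Ω a t Q)
    (X : Set G) (hX : X ⊆ ((MulAction.stabilizer G a ⊓ MulAction.stabilizer G (t • a)) : Set G))
    (h3 : ∃ b c d : Ω, b ≠ c ∧ b ≠ d ∧ c ≠ d ∧ ∀ x ∈ X, x • b = b ∧ x • c = c ∧ x • d = d) :
    ∃ k ∈ (MulAction.stabilizer G a ⊓ MulAction.stabilizer G (t • a)), ∀ x ∈ X, (k * x * k⁻¹) * t = t * (k * x * k⁻¹) := by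
  have hX' : ∀ x ∈ X, x • a = a ∧ x • t • a = t • a := fun x hx => hX hx
  have h3' : ∃ d : Ω, d ≠ a ∧ d ≠ t • a ∧ ∀ x ∈ X, x • d = d := by
    obtain ⟨b, c, d, hbc, hbd, hcd, hf⟩ := h3
    by_cases hb : b ≠ a ∧ b ≠ t • a
    · exact ⟨b, hb.1, hb.2, fun x hx => (hf x hx).1⟩
    by_cases hc : c ≠ a ∧ c ≠ t • a
    · exact ⟨c, hc.1, hc.2, fun x hx => (hf x hx).2.1⟩
    refine ⟨d, ?_, ?_, fun x hx => (hf x hx).2.2⟩
    · rintro rfl
      apply hb
      refine ⟨hbd, ?_⟩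
      rintro rfl
      exact hc ⟨hcd, hbc.symm⟩
    · rintro rfl
      apply hb
      refine ⟨?_, hbd⟩
      rintro rfl
      exact hc ⟨hbc.symm, hcd⟩
  obtain ⟨l, hl, hlX⟩ := Lib.RankOneB.conj_into hS hX' h3'
  exact ⟨l, hl.1, hlX⟩

end Cfsg.Agent.S1126
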