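import Cfsg.Statements.S1141
import Cfsg.Agent.Lib.HigmanPSU
import Cfsg.Agent.Lib.SuzukiFin

set_option autoImplicit false
open Cfsg

namespace Cfsg.Agent.S1141

/-- Let `q = 2^n ≥ 4` and `|F| = q²`. A Sylow 2-subgroup `S` of `PSU₃(q)` has order `q³`, its centre has order `q`, and `S` is a Suzuki 2-group. -/
theorem result {F : Type*} [Field F] [Fintype F] {n : ℕ} (hn : 2 ≤ n)
    (hF : Fintype.card F = (2 ^ n) ^ 2) (S : Sylow 2 (Cfsg.PSU 3 F (2 ^ n))) :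
    Nat.card S = (2 ^ n) ^ 3 ∧ Nat.card (Subgroup.center ↥(S : Subgroup (Cfsg.PSU 3 F (2 ^ n)))) = 2 ^ n ∧
      Cfsg.IsSuzukiTwoGroup ↥(S : Subgroup (Cfsg.PSU 3 F (2 ^ n))) := by
  haveI : CharP F 2 := Lib.SuzukiFin.charTwo (n := n * 2) (by rw [hF, ← pow_mul])
  haveI : Fact (Nat.Prime 2) := ⟨Nat.prime_two⟩
  obtain ⟨e⟩ := Lib.SylU3.sylow_equiv hF S
  have h4 : 4 ≤ 2 ^ n := by
    calc 4 = 2 ^ 2 := by norm_num
      _ ≤ 2 ^ n := Nat.pow_le_pow_right (by norm_num) hn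
  refine ⟨?_, ?_, Lib.HigmanPSU.isSuzuki_congr e (Lib.HigmanPSU.isSuzuki hF (by omega))⟩
  · rw [← Nat.card_congr e.toEquiv, Lib.SylU3.card_U3]
  · have h1 := Lib.SylU3.map_center_equiv e
    rw [← h1]
    refine Eq.trans ?_ (Lib.SylU3.card_center_U3 hF)
    exact Nat.card_congr ((Subgroup.center (Lib.SylU3.U3 hF)).equivMapOfInjective e.toMonoidHom
      e.injective).toEquiv.symm

end Cfsg.Agent.S1141
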