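import Cfsg.Statements.S1160
import Cfsg.Agent.Lib.ConstStab


set_option autoImplicit false
open Cfsg

namespace Cfsg.Agent.S1160


/-- Let `p ≠ 2` be prime and `P` a finite `p`-group acting faithfully by additive automorphisms on a finite elementary abelian `q`-group `E` (`q` prime), such that `|P_a|` is the same for all `a ≠ 0`. Then `P` is cyclic and every non-identity element of `P` fixes only `0`. -/
theorem result {P E : Type*} [Group P] [Finite P]
    [AddCommGroup E] [Finite E] [DistribMulAction P E] [FaithfulSMul P E]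
    {p q : ℕ} [Fact p.Prime] (hp2 : p ≠ 2) (hP : IsPGroup p P) (hq : q.Prime) (hE : ∀ e : E, q • e = 0)
    (hconst : ∀ a b : E, a ≠ 0 → b ≠ 0 →
      Nat.card (MulAction.stabilizer P a) = Nat.card (MulAction.stabilizer P b)) :
    IsCyclic P ∧ ∀ g : P, g ≠ 1 → ∀ a : E, g • a = a → a = 0 := by
  exact Cfsg.Agent.Lib.ConstStab.main hp2 hP hq hE hconst

end Cfsg.Agent.S1160
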