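import Cfsg.Statements.S1167
import Cfsg.Agent.Lib.ZassMain

set_option autoImplicit false
open Cfsg

namespace Cfsg.Agent.S1167

open Cfsg.Agent.Lib MulAction

/-- Let `G` be a finite simple Zassenhaus group on `Ω`, `U` a normal subgroup of `G_a` regular on `Ω` minus `a` which is an abelian 2-group, and `v` an involution with `v • a ≠ a`. Then there is a unique `u₀ ∈ U`, `u₀ ≠ 1`, with `v u₀ v = u₀ v u₀`. -/
theorem result {G Ω : Type*} [Group G] [Finite G] [MulAction G Ω] [Finite Ω]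
    (hZ : Cfsg.IsZassenhausGroup G Ω) [IsSimpleGroup G] {a : Ω}
    (U : Subgroup G) (hUle : U ≤ MulAction.stabilizer G a)
    (hUn : ∀ h ∈ MulAction.stabilizer G a, ∀ u ∈ U, h * u * h⁻¹ ∈ U)
    (hreg : ∀ c d : Ω, c ≠ a → d ≠ a → ∃! u : U, (u : G) • c = d)
    (hU2 : IsPGroup 2 U) (hUab : ∀ u ∈ U, ∀ u' ∈ U, u * u' = u' * u)
    (v : G) (hv1 : v ≠ 1) (hv2 : v * v = 1) (hva : v • a ≠ a) :
    ∃! u₀ : G, u₀ ∈ U ∧ u₀ ≠ 1 ∧ v * u₀ * v = u₀ * v * u₀ := by
  classical
  obtain ⟨hfaith, h2, h3, -, -⟩ := id hZ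
  have h3' : ZassBasic.Fix3 G Ω := h3
  obtain ⟨b, hb⟩ : ∃ b, b = v • a := ⟨_, rfl⟩
  have hab : a ≠ b := fun h => hva (h.trans hb).symm
  have hvb : v • b = a := by rw [hb, smul_smul, hv2, one_smul]
  have hin : ∀ u ∈ U, ZassBasic.InK a u := by
    intro u hu
    refine ⟨hUle hu, fun hu1 y hy huy => hu1 ?_⟩
    obtain ⟨w, -, hw⟩ := hreg y y hy hy
    have h4 := hw ⟨u, hu⟩ huy
    have h5 := hw 1 (one_smul _ _)
    exact congrArg Subtype.val (h4.trans h5.symm)
  have hmova : ∀ u ∈ U, ∀ x, x ≠ a → u • x ≠ a := by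
    intro u hu x hx h
    have hux : u • a = a := hUle hu
    exact hx (MulAction.injective u (h.trans hux.symm))
  have hcard : Nat.card U = Nat.card {y : Ω // y ≠ a} := by
    refine Nat.card_congr (Equiv.ofBijective (fun u => ⟨(u : G) • b, hmova u u.2 b hab.symm⟩) ⟨?_, ?_⟩)
    · intro u v huv
      have h4 : (u : G) • b = (v : G) • b := congrArg Subtype.val huv
      obtain ⟨w, -, hw⟩ := hreg b _ hab.symm (hmova v v.2 b hab.symm)
      rw [hw u h4, hw v rfl]
    · rintro ⟨y, hy⟩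
      obtain ⟨w, hw, -⟩ := hreg b y hab.symm hy
      exact ⟨w, Subtype.ext hw⟩
  have hK : ∀ u, u ∈ U ↔ ZassBasic.InK a u := by
    intro u
    refine ⟨hin u, fun hu => ?_⟩
    let φ : U → {u : G // ZassBasic.InK a u} := fun u => ⟨u, hin u u.2⟩
    have hφ : Function.Injective φ := by
      intro u v huv
      have h4 : (φ u : G) = (φ v : G) := congrArg Subtype.val huv
      exact Subtype.ext h4
    have hb : Function.Bijective φ := by
      rw [Nat.bijective_iff_injective_and_card]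
      exact ⟨hφ, by rw [hcard, ZassBasic.card_InK h2 h3 hab]⟩
    obtain ⟨v, hv⟩ := hb.2 ⟨u, hu⟩
    have h4 : (v : G) = u := congrArg Subtype.val hv
    rw [← h4]
    exact v.2
  have hΩ := ZassMain.card_ne a
  rw [← hcard] at hΩ
  obtain ⟨d, had, hbd⟩ := ZassMain.exists_third hZ hab
  -- U is a nontrivial 2-group
  obtain ⟨ud, hud, -⟩ := hreg b d hab.symm had.symm
  have hUnt : Nontrivial U := by
    refine ⟨⟨ud, 1, fun h => hbd ?_⟩⟩
    rw [h] at hud
    rw [← hud]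
    exact (one_smul _ _).symm
  have heven : 2 ∣ Nat.card U := by
    obtain ⟨n, hn⟩ := IsPGroup.iff_card.1 hU2
    have h4 : 1 < Nat.card U := Finite.one_lt_card
    rw [hn] at h4 ⊢
    refine dvd_pow_self 2 ?_
    rintro rfl
    simp at h4
  rcases ZassMain.main hZ hab U hK (fun u hu v hv => hUab u hu v hv) with hm | ⟨E, i1, i2, h4, -, h5, -⟩
  swap
  · omega
  -- elements of U are involutions
  have hF2 : Fact (Nat.Prime 2) := ⟨Nat.prime_two⟩
  obtain ⟨t, ht⟩ := exists_prime_orderOf_dvd_card' 2 heven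
  have ht1 : (t : G) ≠ 1 := by
    intro h
    have : t = 1 := Subtype.ext h
    rw [this, orderOf_one] at ht
    omega
  have htt : (t : G) * t = 1 := by
    have h4 : t * t = 1 := by rw [← sq, ← ht, pow_orderOf_eq_one]
    exact congrArg Subtype.val h4
  have hsq : ∀ u ∈ U, u * u = 1 := by
    intro u hu
    by_cases hu1 : u = 1
    · rw [hu1, one_mul]
    have h6 := (hin u hu).2 hu1 b hab.symm
    have h7 := (hin t t.2).2 ht1 b hab.symm
    have h8 := hmova u hu b hab.symm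
    have h9 := hmova t t.2 b hab.symm
    obtain ⟨g, hg1, hg2, hg3⟩ := hm a b ((t : G) • b) a b (u • b) hab h9.symm h7.symm hab h8.symm h6.symm
    have h10 : g * t * g⁻¹ = u := by
      obtain ⟨w, -, hw⟩ := hreg b (u • b) hab.symm h8
      have h11 := hw ⟨u, hu⟩ rfl
      have h12 := hw ⟨g * t * g⁻¹, hUn g hg1 t t.2⟩ (by
        change (g * t * g⁻¹) • b = u • b
        rw [mul_smul, mul_smul, inv_smul_eq_iff.2 hg2.symm, hg3])
      exact congrArg Subtype.val (h12.trans h11.symm)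
    rw [← h10, show g * t * g⁻¹ * (g * t * g⁻¹) = g * (t * t) * g⁻¹ by group, htt]
    group
  -- the fixed point of v
  have hpar := ZassBasic.involution_parity (Ω := Ω) hv2
  have hle2 := ZassBasic.fixedBy_le_two h3' hv1
  have hone : Nat.card (fixedBy Ω v) = 1 := by
    have h6 : Nat.card Ω % 2 = Nat.card (fixedBy Ω v) % 2 := hpar
    omega
  obtain ⟨⟨c, hc⟩, huniq⟩ := (Nat.card_eq_one_iff_exists.1 hone)
  have hvc : v • c = c := hc
  have hca : c ≠ a := by rintro rfl; exact hva hvc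
  have hcb : c ≠ b := by
    rintro rfl
    exact hab (hvb.symm.trans hvc)
  obtain ⟨⟨u₀, hu₀⟩, hu₀b, hu₀u⟩ := hreg b c hab.symm hca
  have hu₀b' : u₀ • b = c := hu₀b
  have hu₀a : u₀ • a = a := hUle hu₀
  have hu₀c : u₀ • c = b := by rw [← hu₀b', smul_smul, hsq u₀ hu₀, one_smul]
  refine ⟨u₀, ⟨hu₀, ?_, ?_⟩, ?_⟩
  · rintro rfl
    exact hcb ((one_smul _ _).symm.trans hu₀b').symm
  · refine Sharp3.eq_of_three h3' hab hca.symm hcb.symm ?_ ?_ ?_
    · rw [mul_smul, mul_smul, mul_smul, mul_smul, hu₀a, ← hb, hu₀b', hvc]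
    · rw [mul_smul, mul_smul, mul_smul, mul_smul, hvb, hu₀a, hu₀b', ← hb, hvc, hu₀c]
    · rw [mul_smul, mul_smul, mul_smul, mul_smul, hvc, hu₀c, hvb, hu₀a]
  · rintro u ⟨hu, -, hueq⟩
    have h6 : (v * u * v) • a = (u * v * u) • a := by rw [hueq]
    rw [mul_smul, mul_smul, mul_smul, mul_smul, (hUle hu : u • a = a), ← hb] at h6
    have h7 := huniq ⟨u • b, h6⟩
    have h8 : u • b = c := congrArg Subtype.val h7
    exact congrArg Subtype.val (hu₀u ⟨u, hu⟩ h8)

end Cfsg.Agent.S1167
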