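import Cfsg.Statements.S1168
import Mathlib


set_option autoImplicit false
open Cfsg

namespace Cfsg.Agent.S1168

theorem aux {F : Type*} [Field F] [Fintype F] [CharP F 2]
    (q : F → F)
    (hq : ∀ x y z : F, q (x + y + z) + q (x + y) + q (x + z) + q (y + z) + q x + q y + q z = 0) :
    q ∈ Submodule.span F (Set.range (fun (p : (F ≃+* F) × (F ≃+* F)) (x : F) => p.1 x * p.2 x)) := by
  classical
  letI : Algebra (ZMod 2) F := ZMod.algebra F 2
  have htwo : ∀ x : F, x + x = 0 := fun x => CharTwo.add_self_eq_zero x
  have hq0 : q 0 = 0 := by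
    have h := hq 0 0 0
    simp only [add_zero, htwo, zero_add] at h
    exact h
  let b := Module.finBasis (ZMod 2) F
  let e := b.traceDual
  let l : Fin (Module.finrank (ZMod 2) F) → F → F := fun i x => algebraMap (ZMod 2) F (Algebra.trace (ZMod 2) F (x * b i))
  have hl01 : ∀ i x, l i x = 0 ∨ l i x = 1 := by
    intro i x
    have : ∀ t : ZMod 2, t = 0 ∨ t = 1 := by decide
    rcases this (Algebra.trace (ZMod 2) F (x * b i)) with h | h
    · left; simp only [l, h, map_zero]
    · right; simp only [l, h, map_one]
  have hsum : ∀ x : F, x = ∑ i, l i x * e i := by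
    intro x
    conv_lhs => rw [← e.sum_repr x]
    refine Finset.sum_congr rfl fun i _ => ?_
    rw [Algebra.smul_def, Module.Basis.traceDual_repr_apply]
    rfl
  have hlsum : ∀ i x, l i x = ∑ σ : Gal(F/ZMod 2), σ (b i) * σ x := by
    intro i x
    simp only [l]
    rw [trace_eq_sum_automorphisms]
    refine Finset.sum_congr rfl fun σ _ => ?_
    rw [map_mul, mul_comm]
  set V := Submodule.span F (Set.range (fun (p : (F ≃+* F) × (F ≃+* F)) (x : F) => p.1 x * p.2 x)) with hV
  have hll : ∀ i j, (fun x => l i x * l j x) ∈ V := by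
    intro i j
    have : (fun x => l i x * l j x) = ∑ σ : Gal(F/ZMod 2), ∑ τ : Gal(F/ZMod 2),
        (σ (b i) * τ (b j)) • (fun x : F => (σ : F ≃+* F) x * (τ : F ≃+* F) x) := by
      funext x
      rw [hlsum, hlsum, Finset.sum_mul_sum, Finset.sum_apply]
      refine Finset.sum_congr rfl fun σ _ => ?_
      rw [Finset.sum_apply]
      refine Finset.sum_congr rfl fun τ _ => ?_
      simp only [Pi.smul_apply, smul_eq_mul]
      show σ (b i) * σ x * (τ (b j) * τ x) = σ (b i) * τ (b j) * (σ x * τ x)
      ring
    rw [this]
    refine Submodule.sum_mem _ fun σ _ => Submodule.sum_mem _ fun τ _ => ?_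
    refine Submodule.smul_mem _ _ (Submodule.subset_span ?_)
    exact ⟨((σ : F ≃+* F), (τ : F ≃+* F)), rfl⟩
  -- the polar form
  have hB : ∀ x y z : F, q (x + (y + z)) + q x + q (y + z) =
      (q (x + y) + q x + q y) + (q (x + z) + q x + q z) := by
    intro x y z
    have h := hq x y z
    have h1 := htwo (q (x + y) + q (x + z) + q y + q z + q x)
    have e1 : x + y + z = x + (y + z) := by ring
    rw [e1] at h
    linear_combination h - h1
  have hBsum : ∀ (s : Finset (Fin (Module.finrank (ZMod 2) F))) (u : F) (v : Fin (Module.finrank (ZMod 2) F) → F),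
      q (u + ∑ i ∈ s, v i) + q u + q (∑ i ∈ s, v i) = ∑ i ∈ s, (q (u + v i) + q u + q (v i)) := by
    intro s u v
    induction s using Finset.induction_on with
    | empty => simp [hq0, htwo]
    | insert a s ha ih =>
      rw [Finset.sum_insert ha, Finset.sum_insert ha, hB, ih]
  have hmain : ∀ s : Finset (Fin (Module.finrank (ZMod 2) F)), (fun x => q (∑ i ∈ s, l i x * e i)) ∈ V := by
    intro s
    induction s using Finset.induction_on with
    | empty =>
      simp only [Finset.sum_empty, hq0]
      exact Submodule.zero_mem V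
    | insert a s ha ih =>
      have : (fun x => q (∑ i ∈ insert a s, l i x * e i)) =
          (q (e a)) • (fun x => l a x * l a x) + (fun x => q (∑ i ∈ s, l i x * e i)) +
            ∑ i ∈ s, (q (e a + e i) + q (e a) + q (e i)) • (fun x => l a x * l i x) := by
        funext x
        rw [Finset.sum_insert ha]
        simp only [Pi.add_apply, Pi.smul_apply, Finset.sum_apply, smul_eq_mul]
        have h1 := hBsum s (l a x * e a) (fun i => l i x * e i)
        have h2 : q (l a x * e a) = q (e a) * (l a x * l a x) := by
          rcases hl01 a x with h | h <;> simp [h, hq0]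
        have h3 : ∑ i ∈ s, (q (l a x * e a + l i x * e i) + q (l a x * e a) + q (l i x * e i)) =
            ∑ i ∈ s, (q (e a + e i) + q (e a) + q (e i)) * (l a x * l i x) := by
          refine Finset.sum_congr rfl fun i _ => ?_
          rcases hl01 a x with h | h <;> rcases hl01 i x with h' | h' <;> simp [h, h', hq0, htwo]
        rw [h3] at h1
        rw [← h2, ← h1]
        have h4 := htwo (q (l a x * e a))
        have h5 := htwo (q (∑ i ∈ s, l i x * e i))
        linear_combination -h4 - h5
      rw [this]
      refine Submodule.add_mem _ (Submodule.add_mem _ (Submodule.smul_mem _ _ (hll a a)) ih) ?_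
      exact Submodule.sum_mem _ fun i _ => Submodule.smul_mem _ _ (hll a i)
  have := hmain Finset.univ
  have h2 : (fun x => q (∑ i, l i x * e i)) = q := by
    funext x
    rw [← hsum x]
  rw [h2] at this
  exact this


/-- For a finite field `F` of characteristic 2: if `q : F → F` is quadratic over the prime field, i.e. `(x, y) ↦ q (x + y) + q x + q y` is additive in each variable, then `q x = Σ c_{σ,τ} σ(x) τ(x)` for some coefficients indexed by pairs of field automorphisms. -/
theorem result {F : Type*} [Field F] [Fintype F] [CharP F 2]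
    (q : F → F)
    (hq : ∀ x y z : F, q (x + y + z) + q (x + y) + q (x + z) + q (y + z) + q x + q y + q z = 0) :
    ∃ (s : Finset ((F ≃+* F) × (F ≃+* F))) (c : (F ≃+* F) × (F ≃+* F) → F),
      ∀ x : F, q x = ∑ p ∈ s, c p * (p.1 x * p.2 x) := by
  classical
  have h := aux q hq
  haveI : Finite (F ≃+* F) := Finite.of_injective (fun f : F ≃+* F => (f : F → F)) DFunLike.coe_injective
  letI : Fintype ((F ≃+* F) × (F ≃+* F)) := Fintype.ofFinite _
  rw [Submodule.mem_span_range_iff_exists_fun] at h
  obtain ⟨c, hc⟩ := h
  refine ⟨Finset.univ, c, fun x => ?_⟩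
  rw [← hc]
  simp [Finset.sum_apply]

end Cfsg.Agent.S1168
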