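import Cfsg.Statements.S1176


set_option autoImplicit false
open Cfsg

namespace Cfsg.Agent.S1176

open scoped commutatorElement in
theorem aux {G : Type*} [Group G] (W : Subgroup G) (hW : ⁅⁅W, W⁆, W⁆ = ⊥) {u x : G}
    (hu : u ∈ W) (hx : x ∈ W) :
    (u * x * u⁻¹ * x⁻¹) * x * (u * x * u⁻¹ * x⁻¹)⁻¹ * x⁻¹ = 1 := by
  have h1 : ⁅⁅u, x⁆, x⁆ ∈ ⁅⁅W, W⁆, W⁆ :=
    Subgroup.commutator_mem_commutator (Subgroup.commutator_mem_commutator hu hx) hx
  rw [hW, Subgroup.mem_bot] at h1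
  exact h1


/-- Let x₀ be an involution of the finite group G and D its conjugacy class. Assume (a) for each x ∈ D the subgroup W(x) generated by the members of D commuting with x is a 2-group of nilpotency class at most 2, and (b) the product of two distinct commuting members of D again lies in D. Then for all x, y ∈ D, if xy has even order greater than 2, its order is 4. -/
theorem result {G : Type*} [Group G] [Finite G] (x₀ : G) (hx₀ : orderOf x₀ = 2) (ha : ∀ x : G, IsConj x₀ x → IsPGroup 2 ↥(Subgroup.closure {y : G | IsConj x₀ y ∧ Commute y x}) ∧ ⁅⁅Subgroup.closure {y : G | IsConj x₀ y ∧ Commute y x}, Subgroup.closure {y : G | IsConj x₀ y ∧ Commute y x}⁆, Subgroup.closure {y : G | IsConj x₀ y ∧ Commute y x}⁆ = ⊥) (hb : ∀ x y : G, IsConj x₀ x → IsConj x₀ y → x ≠ y → Commute x y → IsConj x₀ (x * y)) (x y : G) (hx : IsConj x₀ x) (hy : IsConj x₀ y) (heven : Even (orderOf (x * y))) (hgt : 2 < orderOf (x * y)) : orderOf (x * y) = 4 :=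 by
  have inv_of : ∀ t : G, IsConj x₀ t → t * t = 1 := by
    intro t ht
    obtain ⟨c, hc⟩ := isConj_iff.1 ht
    have h0 : x₀ * x₀ = 1 := by
      have := pow_orderOf_eq_one x₀
      rwa [hx₀, pow_two] at this
    rw [← hc]
    calc c * x₀ * c⁻¹ * (c * x₀ * c⁻¹) = c * (x₀ * x₀) * c⁻¹ := by group
      _ = 1 := by rw [h0]; group
  have hxx := inv_of x hx
  have hyy := inv_of y hy
  have hxi : x⁻¹ = x := inv_eq_of_mul_eq_one_left hxx
  have hyi : y⁻¹ = y := inv_eq_of_mul_eq_one_left hyy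
  set u := x * y with hu
  have hux : x * u * x⁻¹ = u⁻¹ := by
    rw [hu, hxi]
    calc x * (x * y) * x = (x * x) * y * x := by group
      _ = y * x := by rw [hxx, one_mul]
      _ = y⁻¹ * x⁻¹ := by rw [hxi, hyi]
      _ = (x * y)⁻¹ := by group
  have hupow : ∀ n : ℕ, x * u ^ n * x⁻¹ = (u ^ n)⁻¹ := by
    intro n
    rw [← conj_pow, hux, inv_pow]
  have hxu : x * u = y := by rw [hu, ← mul_assoc, hxx, one_mul]
  have hcj : ∀ j : ℕ, (u ^ j)⁻¹ * x * u ^ j = x * u ^ (2 * j) := by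
    intro j
    rw [← hupow j, hxi, two_mul, pow_add]
    calc x * u ^ j * x * x * u ^ j = x * u ^ j * (x * x) * u ^ j := by group
      _ = x * (u ^ j * u ^ j) := by rw [hxx]; group
  have hcj' : ∀ j : ℕ, (u ^ j)⁻¹ * y * u ^ j = x * u ^ (2 * j + 1) := by
    intro j
    rw [← hxu]
    calc (u ^ j)⁻¹ * (x * u) * u ^ j = ((u ^ j)⁻¹ * x * u ^ j) * ((u ^ j)⁻¹ * u * u ^ j) := by group
      _ = x * u ^ (2 * j) * u := by
        rw [hcj]
        congr 1
        have : Commute u (u ^ j) := (Commute.refl u).pow_right j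
        rw [mul_assoc, this.eq]; group
      _ = x * u ^ (2 * j + 1) := by rw [pow_succ]; group
  obtain ⟨m, hm⟩ := heven
  have hm0 : 0 < m := by omega
  have hz1 : u ^ m ≠ 1 := by
    intro h
    have h1 := orderOf_dvd_of_pow_eq_one h
    have h2 := Nat.le_of_dvd hm0 h1
    omega
  have hzz : u ^ m * u ^ m = 1 := by rw [← pow_add, ← hm, pow_orderOf_eq_one]
  have hzi : (u ^ m)⁻¹ = u ^ m := inv_eq_of_mul_eq_one_left hzz
  have hxz : Commute x (u ^ m) := by
    have h1 := hupow m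
    rw [hzi] at h1
    show x * u ^ m = u ^ m * x
    calc x * u ^ m = (x * u ^ m * x⁻¹) * x := by group
      _ = u ^ m * x := by rw [h1]
  have huz : Commute u (u ^ m) := (Commute.refl u).pow_right m
  have hyz : Commute y (u ^ m) := by
    rw [← hxu]; exact hxz.mul_left huz
  have hDxz : IsConj x₀ (x * u ^ m) := by
    rcases Nat.even_or_odd m with ⟨j, hj⟩ | ⟨j, hj⟩
    · refine hx.trans (isConj_iff.2 ⟨(u ^ j)⁻¹, ?_⟩)
      rw [inv_inv, hcj j, hj, two_mul]
    · refine hy.trans (isConj_iff.2 ⟨(u ^ j)⁻¹, ?_⟩)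
      rw [inv_inv, hcj' j, hj]
  have hDz : IsConj x₀ (u ^ m) := by
    have h1 : x ≠ x * u ^ m := by
      intro h
      exact hz1 (by simpa using h.symm)
    have h2 : Commute x (x * u ^ m) := (Commute.refl x).mul_right hxz
    have h3 := hb x (x * u ^ m) hx hDxz h1 h2
    rwa [← mul_assoc, hxx, one_mul] at h3
  obtain ⟨-, hW⟩ := ha (u ^ m) hDz
  set W : Subgroup G := Subgroup.closure {y : G | IsConj x₀ y ∧ Commute y (u ^ m)} with hWdef
  have hxW : x ∈ W := Subgroup.subset_closure ⟨hx, hxz⟩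
  have hyW : y ∈ W := Subgroup.subset_closure ⟨hy, hyz⟩
  have huW : u ∈ W := mul_mem hxW hyW
  have h1 := aux W hW huW hxW
  have h2 : u * x * u⁻¹ * x⁻¹ = u ^ 2 := by
    calc u * x * u⁻¹ * x⁻¹ = u * (x * u * x⁻¹)⁻¹ := by group
      _ = u ^ 2 := by rw [hux, inv_inv, pow_two]
  rw [h2] at h1
  have h3 : u ^ 4 = 1 := by
    calc u ^ 4 = u ^ 2 * (x * u ^ 2 * x⁻¹)⁻¹ := by rw [hupow, inv_inv, ← pow_add]
      _ = u ^ 2 * x * (u ^ 2)⁻¹ * x⁻¹ := by group
      _ = 1 := h1
  have h4 : orderOf u ∣ 4 := orderOf_dvd_of_pow_eq_one h3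
  have h5 : orderOf u ≤ 4 := Nat.le_of_dvd (by norm_num) h4
  interval_cases h : orderOf u
  · omega
  · rfl

end Cfsg.Agent.S1176
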