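import Cfsg.Statements.S1177


set_option autoImplicit false
open Cfsg

namespace Cfsg.Agent.S1177


/-- Let A be a nontrivial elementary abelian 2-subgroup of a finite group G which is a T.I. set (each conjugate of A meets A trivially or equals A) and which does not commute elementwise with any conjugate of A other than A itself. Then for every a ∈ A, a ≠ 1, every conjugate of A contained in C_G(a) is equal to A (A is weakly closed in C_G(a)). -/
theorem result {G : Type*} [Group G] [Finite G] (A : Subgroup G) (hA : Cfsg.IsElementaryAbelian 2 A) (hA1 : A ≠ ⊥) (hTI : ∀ g : G, A.map (MulAut.conj g).toMonoidHom ⊓ A = ⊥ ∨ A.map (MulAut.conj g).toMonoidHom = A) (hb : ∀ g : G, (∀ a ∈ A, ∀ b ∈ A.map (MulAut.conj g).toMonoidHom, a * b = b * a) → A.map (MulAut.conj g).toMonoidHom = A) (a : G) (ha : a ∈ A) (ha1 : a ≠ 1) (g : G) (hg : A.map (MulAut.conj g).toMonoidHom ≤ Subgroup.centralizer ({a} : Set G)) : A.map (MulAut.conj g).toMonoidHom = A := by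
  obtain ⟨hAc, hA2⟩ := hA
  have hAcomm : ∀ x ∈ A, ∀ y ∈ A, x * y = y * x := fun x hx y hy => by
    have := hAc.is_comm.comm ⟨x, hx⟩ ⟨y, hy⟩
    exact congrArg Subtype.val this
  have memB : ∀ {k x : G}, x ∈ A.map (MulAut.conj k).toMonoidHom ↔ k⁻¹ * x * k ∈ A := by
    intro k x
    constructor
    · rintro ⟨y, hy, rfl⟩
      have : k⁻¹ * (k * y * k⁻¹) * k = y := by group
      simpa [this] using hy
    · intro h
      exact ⟨_, h, by simp [mul_assoc]⟩
  by_contra hne
  have hdisj : ∀ x, x ∈ A.map (MulAut.conj g).toMonoidHom → x ∈ A → x = 1 := by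
    intro x hx hxA
    have h := (hTI g).resolve_right hne
    have : x ∈ A.map (MulAut.conj g).toMonoidHom ⊓ A := ⟨hx, hxA⟩
    rw [h] at this
    simpa using this
  -- B normalizes A
  have hnormal : ∀ b ∈ A.map (MulAut.conj g).toMonoidHom, ∀ x ∈ A, b * x * b⁻¹ ∈ A := by
    intro b hb x hx
    have hab : b * a * b⁻¹ = a := by
      have := hg hb
      rw [Subgroup.mem_centralizer_singleton_iff] at this
      rw [this]; group
    have h1 : A.map (MulAut.conj b).toMonoidHom = A := by
      rcases hTI b with h | h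
      · exfalso
        have : a ∈ A.map (MulAut.conj b).toMonoidHom ⊓ A := by
          refine ⟨memB.2 ?_, ha⟩
          have : b⁻¹ * a * b = a := by
            calc b⁻¹ * a * b = b⁻¹ * (b * a * b⁻¹) * b := by rw [hab]
              _ = a := by group
          rw [this]; exact ha
        rw [h] at this
        exact ha1 (by simpa using this)
      · exact h
    rw [← h1]
    refine memB.2 ?_
    have : b⁻¹ * (b * x * b⁻¹) * b = x := by group
    rw [this]; exact hx
  have hnorm : A.map (MulAut.conj g).toMonoidHom ≤ Subgroup.normalizer (A : Set G) := by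
    intro b hb
    rw [Subgroup.mem_normalizer_iff]
    intro x
    constructor
    · exact hnormal b hb x
    · intro h
      have := hnormal b⁻¹ (inv_mem hb) _ h
      simpa [mul_assoc] using this
  have hA2g : IsPGroup 2 A := fun x => ⟨1, by
    ext; simpa using hA2 x x.2⟩
  have hP : IsPGroup 2 (A ⊔ A.map (MulAut.conj g).toMonoidHom : Subgroup G) :=
    hA2g.to_sup_of_normal_left' (hA2g.map _) hnorm
  set P : Subgroup G := A ⊔ A.map (MulAut.conj g).toMonoidHom with hPdef
  have hAP : A ≤ P := le_sup_left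
  have hBP : A.map (MulAut.conj g).toMonoidHom ≤ P := le_sup_right
  haveI : Fact (Nat.Prime 2) := ⟨Nat.prime_two⟩
  haveI hnil : Group.IsNilpotent P := hP.isNilpotent
  -- some element of A does not centralize B
  have hex : ∃ n, ∃ x, ∃ hx : x ∈ A, (⟨x, hAP hx⟩ : P) ∈ Subgroup.upperCentralSeries P n ∧
      ¬ ∀ b ∈ A.map (MulAut.conj g).toMonoidHom, x * b = b * x := by
    by_contra hcon
    push Not at hcon
    apply hne
    apply hb
    intro x hx b hb'
    exact hcon (Group.nilpotencyClass P) x hx (by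
      rw [Subgroup.upperCentralSeries_nilpotencyClass]; trivial) b hb'
  classical
  obtain ⟨x, hx, hxn, hxc⟩ := Nat.find_spec hex
  have hmin := fun m => Nat.find_min (m := m) hex
  cases hn : Nat.find hex with
  | zero =>
    rw [hn] at hxn
    rw [Subgroup.upperCentralSeries_zero] at hxn
    have : x = 1 := by simpa using hxn
    apply hxc
    intro b _
    simp [this]
  | succ m =>
    rw [hn] at hxn hmin
    have hm := hmin m (Nat.lt_succ_self m)
    push Not at hm
    rw [Subgroup.mem_upperCentralSeries_succ_iff] at hxn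
    have hcA : ∀ b ∈ A.map (MulAut.conj g).toMonoidHom, x * b * x⁻¹ * b⁻¹ ∈ A := by
      intro b hb'
      have := hnormal b hb' x⁻¹ (inv_mem hx)
      have h2 := A.mul_mem hx this
      have e : x * (b * x⁻¹ * b⁻¹) = x * b * x⁻¹ * b⁻¹ := by group
      rw [e] at h2
      exact h2
    have hcc : ∀ b ∈ A.map (MulAut.conj g).toMonoidHom, ∀ b' ∈ A.map (MulAut.conj g).toMonoidHom,
        (x * b * x⁻¹ * b⁻¹) * b' = b' * (x * b * x⁻¹ * b⁻¹) := by
      intro b hb' b' hb''
      refine hm _ (hcA b hb') ?_ b' hb''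
      exact hxn ⟨b, hBP hb'⟩
    have hBcomm : ∀ b ∈ A.map (MulAut.conj g).toMonoidHom, ∀ b' ∈ A.map (MulAut.conj g).toMonoidHom,
        b * b' = b' * b := by
      rintro _ ⟨u, hu, rfl⟩ _ ⟨v, hv, rfl⟩
      rw [← map_mul, ← map_mul]
      exact congrArg _ (hAcomm u hu v hv)
    have hxb : ∀ b ∈ A.map (MulAut.conj g).toMonoidHom, ∀ b' ∈ A.map (MulAut.conj g).toMonoidHom,
        (x * b * x⁻¹) * b' = b' * (x * b * x⁻¹) := by
      intro b hb' b' hb''
      have h1 := hcc b hb' b' hb''
      have h2 := hBcomm b hb' b' hb''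
      calc (x * b * x⁻¹) * b' = (x * b * x⁻¹ * b⁻¹) * (b * b') := by group
        _ = (x * b * x⁻¹ * b⁻¹) * b' * b := by rw [h2]; group
        _ = b' * (x * b * x⁻¹) := by rw [h1]; group
    have h3 : A.map (MulAut.conj (g⁻¹ * x * g)).toMonoidHom = A := by
      apply hb
      intro u hu v hv
      rw [memB] at hv
      have hv' : g⁻¹ * (x⁻¹ * (g * v * g⁻¹) * x) * g ∈ A := by
        convert hv using 1
        group
      have k1 := hxb _ (memB.2 hv') (g * u * g⁻¹) (memB.2 (by
        have : g⁻¹ * (g * u * g⁻¹) * g = u := by group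
        rw [this]; exact hu))
      have k2 : x * (x⁻¹ * (g * v * g⁻¹) * x) * x⁻¹ = g * v * g⁻¹ := by group
      rw [k2] at k1
      have k3 : g⁻¹ * (g * v * g⁻¹ * (g * u * g⁻¹)) * g = v * u := by group
      have k4 : g⁻¹ * (g * u * g⁻¹ * (g * v * g⁻¹)) * g = u * v := by group
      rw [← k3, ← k4, k1]
    apply hxc
    intro b hb'
    have hb1 : x * b * x⁻¹ ∈ A.map (MulAut.conj g).toMonoidHom := by
      rw [memB]
      have e1 : g⁻¹ * b * g ∈ A := memB.1 hb'
      have e2 : (g⁻¹ * x * g) * (g⁻¹ * b * g) * (g⁻¹ * x * g)⁻¹ ∈ A.map (MulAut.conj (g⁻¹ * x * g)).toMonoidHom :=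
        ⟨_, e1, rfl⟩
      rw [h3] at e2
      convert e2 using 1
      group
    have h5 := hdisj _ (mul_mem hb1 (inv_mem hb')) (hcA b hb')
    have h6 : x * b = (x * b * x⁻¹ * b⁻¹) * (b * x) := by group
    rw [h6, h5, one_mul]

end Cfsg.Agent.S1177
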