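import Cfsg.Statements.S1178


set_option autoImplicit false
open Cfsg

namespace Cfsg.Agent.S1178


/-- Let A be a subgroup of a Sylow 2-subgroup S of the finite group G which is weakly closed in S. If a conjugate g A g⁻¹ commutes elementwise with A, then g A g⁻¹ = A. -/
theorem result {G : Type*} [Group G] [Finite G] (S : Sylow 2 G) (A : Subgroup G) (hW : Cfsg.IsWeaklyClosed A (S : Subgroup G)) (g : G) (hc : ∀ a ∈ A, ∀ b ∈ A.map (MulAut.conj g).toMonoidHom, a * b = b * a) : A.map (MulAut.conj g).toMonoidHom = A := by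
  obtain ⟨hAS, hw⟩ := hW
  have hA : IsPGroup 2 A := S.isPGroup'.to_le hAS
  have hAg : IsPGroup 2 (A.map (MulAut.conj g).toMonoidHom) := hA.map _
  have hn : A ≤ Subgroup.normalizer ((A.map (MulAut.conj g).toMonoidHom : Subgroup G) : Set G) := by
    intro a ha
    rw [Subgroup.mem_normalizer_iff]
    intro b
    constructor
    · intro hb
      rw [hc a ha b hb, mul_inv_cancel_right]
      exact hb
    · intro hb
      have h1 := hc a ha _ hb
      have h2 : a * b * a⁻¹ = b := by
        have h3 : a * (a * b * a⁻¹) * a⁻¹ = (a * b * a⁻¹) := by rw [h1]; group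
        have h4 : a * b * a⁻¹ = b := by
          have := congrArg (fun t => a⁻¹ * t * a) h3
          simpa [mul_assoc] using this
        exact h4
      rw [h2] at hb
      exact hb
  have hsup : IsPGroup 2 (A ⊔ A.map (MulAut.conj g).toMonoidHom : Subgroup G) :=
    hA.to_sup_of_normal_right' hAg hn
  obtain ⟨Q, hQ⟩ := hsup.exists_le_sylow
  obtain ⟨h, rfl⟩ := MulAction.exists_smul_eq G S Q
  have key : ∀ k : G, A.map (MulAut.conj k).toMonoidHom ≤ ((h • S : Sylow 2 G) : Subgroup G) →
      A.map (MulAut.conj k).toMonoidHom = A.map (MulAut.conj h).toMonoidHom := by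
    intro k hk
    have h1 : A.map (MulAut.conj (h⁻¹ * k)).toMonoidHom ≤ (S : Subgroup G) := by
      rintro _ ⟨a, ha, rfl⟩
      have h2 := hk (Subgroup.mem_map_of_mem _ ha)
      rw [Sylow.coe_subgroup_smul, Subgroup.mem_pointwise_smul_iff_inv_smul_mem] at h2
      simpa [MulAut.smul_def, mul_assoc] using h2
    have h3 := hw _ h1
    have h4 := congrArg (fun K : Subgroup G => K.map (MulAut.conj h).toMonoidHom) h3
    simp only [Subgroup.map_map] at h4
    rw [← h4]
    congr 1
    ext x
    simp [mul_assoc]
  have e1 := key g (le_trans le_sup_right hQ)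
  have e2 := key 1 (by
    intro x hx
    apply hQ
    apply Subgroup.mem_sup_left
    obtain ⟨a, ha, rfl⟩ := hx
    simpa using ha)
  rw [e1, ← e2]
  ext x
  simp [Subgroup.mem_map]

end Cfsg.Agent.S1178
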