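import Cfsg.Statements.S1188
import Cfsg.Agent.Lib.ZStar
import Cfsg.Agent.Lib.InvLocal
import Cfsg.Agent.Lib.Isolated
import Cfsg.Agent.S0201

set_option autoImplicit false
open Cfsg

namespace Cfsg.Agent.S1188

/-- The soluble Z*-Theorem: let z be an isolated involution of the finite group G whose centralizer C_G(z) is solvable. Then z is central modulo O(G): every commutator z g z⁻¹ g⁻¹ lies in the largest normal subgroup of odd order. -/
theorem result {G : Type*} [Group G] [Finite G] (z : G) (hz : Cfsg.IsIsolatedInvolution z) (hsol : Group.IsSolvable ↥(Subgroup.centralizer ({z} : Set G))) : ∀ g : G, z * g * z⁻¹ * g⁻¹ ∈ Cfsg.oddCore G := by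
  haveI : Fact (Nat.Prime 2) := ⟨Nat.prime_two⟩
  have hp : IsPGroup 2 ↥(Subgroup.zpowers z) := by
    apply IsPGroup.of_card (n := 1)
    rw [Nat.card_zpowers, hz.1, pow_one]
  obtain ⟨P, hP⟩ := hp.exists_le_sylow
  have hzP : z ∈ P := hP (Subgroup.mem_zpowers z)
  have hiso : IsIsolated z := fun g hg => hz.2 g hg
  have h0 := Lib.InvLocal.odd_of_isolated P z hz.1 (fun g hg =>
    Lib.Isolated.conj_pow_eq hiso ⟨1, by rw [hz.1, pow_one]⟩ P.isPGroup' hzP
      (Subgroup.mem_zpowers z) hg)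
  have h1 := Lib.ZStar.inZStar_of_oddIso
    (fun G _ _ S n e hO => Cfsg.Agent.S0201.result S n e hO) hz.1 h0
  intro g
  have h2 := (pPrimeCore 2 G).inv_mem (h1 g)
  have e : (g * z * g⁻¹ * z⁻¹)⁻¹ = z * g * z⁻¹ * g⁻¹ := by group
  rwa [e] at h2

end Cfsg.Agent.S1188
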