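import Cfsg.Statements.S1227
import Cfsg.Agent.Lib.ElemCent2

set_option autoImplicit false
open Cfsg

namespace Cfsg.Agent.S1227

/-- Let G be a finite group with a Sylow 2-subgroup T that is neither cyclic nor normal, such that the centralizer of every involution is an elementary abelian 2-group; put H = N_G(T), let u be an involution outside H and D = H ∩ uHu⁻¹. Then u inverts every element of D, |H| = |T|·(|T| − 1), and D is a complement to T in H. -/
theorem result {G : Type*} [Group G] [Finite G] (T : Sylow 2 G) (hnc : ¬ IsCyclic (T : Subgroup G)) (hnn : ¬ (T : Subgroup G).Normal) (hC : ∀ t : G, orderOf t = 2 → IsMulCommutative (Subgroup.centralizer ({t} : Set G)) ∧ ∀ c ∈ Subgroup.centralizer ({t} : Set G), c ^ 2 = 1) (u : G) (hu : orderOf u = 2) (huH : u ∉ Subgroup.normalizer ((T : Subgroup G) : Set G)) : (∀ d ∈ Subgroup.normalizer ((T : Subgroup G) : Set G) ⊓ (Subgroup.normalizer ((T : Subgroup G) : Set G)).map (MulAut.conj u).toMonoidHom, u * d * u⁻¹ = d⁻¹) ∧ Nat.card (Subgroup.normalizer ((T : Subgroup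 G) : Set G)) = Nat.card T * (Nat.card T - 1) ∧ Subgroup.IsComplement' ((Subgroup.normalizer ((T : Subgroup G) : Set G) ⊓ (Subgroup.normalizer ((T : Subgroup G) : Set G)).map (MulAut.conj u).toMonoidHom).subgroupOf (Subgroup.normalizer ((T : Subgroup G) : Set G))) ((T : Subgroup G).subgroupOf (Subgroup.normalizer ((T : Subgroup G) : Set G))) := by
  classical
  rw [Cfsg.Agent.Lib.ElemCent.inf_eq T u]
  have hne : Cfsg.Agent.Lib.ElemCent.base T ≠ QuotientGroup.mk u := by
    intro h
    rw [QuotientGroup.eq] at h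
    apply huH
    simpa using h
  have hus : u ∈ Cfsg.Agent.Lib.InvAct.invSwap G (Cfsg.Agent.Lib.ElemCent.base T)
      (QuotientGroup.mk u) := by
    refine ⟨hu, ?_⟩
    rw [MulAction.Quotient.smul_mk, smul_eq_mul, mul_one]
  refine ⟨?_, ?_, ?_⟩
  · intro d hd
    exact Cfsg.Agent.Lib.ElemCent.inverts_two T hnc hnn hC hne hus d hd
  · exact Cfsg.Agent.Lib.ElemCent.card_normalizer T hnc hnn hC
  · have hDle : MulAction.stabilizer G (Cfsg.Agent.Lib.ElemCent.base T) ⊓
        MulAction.stabilizer G (QuotientGroup.mk u : Cfsg.Agent.Lib.ElemCent.Pts T) ≤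
        Subgroup.normalizer ((T : Subgroup G) : Set G) := by
      refine inf_le_left.trans ?_
      rw [Cfsg.Agent.Lib.StrongEmbPt.stabilizer_one]
    have hTle : (T : Subgroup G) ≤ Subgroup.normalizer ((T : Subgroup G) : Set G) :=
      Subgroup.le_normalizer
    have hcardD := Cfsg.Agent.Lib.ElemCent.card_two T hnc hnn hC hne
    have hcardN := Cfsg.Agent.Lib.ElemCent.card_normalizer T hnc hnn hC
    have c1 := Nat.card_congr (Subgroup.subgroupOfEquivOfLe hDle).toEquiv
    have c2 := Nat.card_congr (Subgroup.subgroupOfEquivOfLe hTle).toEquiv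
    apply Subgroup.isComplement'_of_coprime
    · rw [c1, c2, hcardD, hcardN, mul_comm]
    · rw [c1, c2, hcardD]
      change Nat.Coprime (Nat.card T - 1) (Nat.card T)
      have h4 := Cfsg.Agent.Lib.ElemCent.four_le_card T hnc hC
      have : Nat.Coprime (Nat.card T - 1) (Nat.card T - 1 + 1) := by simp
      rwa [Nat.sub_add_cancel (by omega)] at this

end Cfsg.Agent.S1227
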