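import Cfsg.Statements.S1228
import Cfsg.Agent.Lib.ElemCent2

set_option autoImplicit false
open Cfsg

namespace Cfsg.Agent.S1228

/-- Let G be a finite group with a Sylow 2-subgroup T that is neither cyclic nor normal, such that the centralizer of every involution is an elementary abelian 2-group; put H = N_G(T), let u be an involution outside H and D = H ∩ uHu⁻¹. Then N_G(D) = D ⊔ ⟨u⟩, and a coset gH is fixed by every element of D exactly when gH = H or gH = uH. -/
theorem result {G : Type*} [Group G] [Finite G] (T : Sylow 2 G) (hnc : ¬ IsCyclic (T : Subgroup G)) (hnn : ¬ (T : Subgroup G).Normal) (hC : ∀ t : G, orderOf t = 2 → IsMulCommutative (Subgroup.centralizer ({t} : Set G)) ∧ ∀ c ∈ Subgroup.centralizer ({t} : Set G), c ^ 2 = 1) (u : G) (hu : orderOf u = 2) (huH : u ∉ Subgroup.normalizer ((T : Subgroup G) : Set G)) : Subgroup.normalizer ((Subgroup.normalizer ((T : Subgroup G) : Set G) ⊓ (Subgroup.normalizer ((T : Subgroup G) : Set G)).map (MulAut.conj u).toMonoidHom : Subgroup G) : Set G) = (Subgroup.normalizer ((T : Subgroup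 G) : Set G) ⊓ (Subgroup.normalizer ((T : Subgroup G) : Set G)).map (MulAut.conj u).toMonoidHom) ⊔ Subgroup.zpowers u ∧ ∀ g : G, ((∀ d ∈ Subgroup.normalizer ((T : Subgroup G) : Set G) ⊓ (Subgroup.normalizer ((T : Subgroup G) : Set G)).map (MulAut.conj u).toMonoidHom, d • (QuotientGroup.mk g : G ⧸ Subgroup.normalizer ((T : Subgroup G) : Set G)) = QuotientGroup.mk g) ↔ (QuotientGroup.mk g : G ⧸ Subgroup.normalizer ((T : Subgroup G) : Set G)) = QuotientGroup.mk 1 ∨ (QuotientGroup.mk g : G ⧸ Subgroup.normalizer ((T : Subgroup G) : Set G)) = QuotientGroup.mk u) := by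
  rw [Cfsg.Agent.Lib.ElemCent.inf_eq T u]
  have hne : Cfsg.Agent.Lib.ElemCent.base T ≠ QuotientGroup.mk u := by
    intro h
    rw [QuotientGroup.eq] at h
    apply huH
    simpa using h
  have hus : u ∈ Cfsg.Agent.Lib.InvAct.invSwap G (Cfsg.Agent.Lib.ElemCent.base T)
      (QuotientGroup.mk u) := by
    refine ⟨hu, ?_⟩
    rw [MulAction.Quotient.smul_mk, smul_eq_mul, mul_one]
  have huy := Cfsg.Agent.Lib.InvAct.smul_of_swap hus.1 hus.2
  have hinv := Cfsg.Agent.Lib.ElemCent.inverts_two T hnc hnn hC hne hus
  have hcardD := Cfsg.Agent.Lib.ElemCent.card_two T hnc hnn hC hne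
  have h4 := Cfsg.Agent.Lib.ElemCent.four_le_card T hnc hC
  set x : Cfsg.Agent.Lib.ElemCent.Pts T := Cfsg.Agent.Lib.ElemCent.base T with hx
  set y : Cfsg.Agent.Lib.ElemCent.Pts T := QuotientGroup.mk u with hy
  set D : Subgroup G := MulAction.stabilizer G x ⊓ MulAction.stabilizer G y with hD
  -- a nontrivial element of D
  obtain ⟨d, hdD, hd1⟩ : ∃ d ∈ D, d ≠ 1 := by
    by_contra hcon
    push Not at hcon
    have : D = ⊥ := (Subgroup.eq_bot_iff_forall D).2 hcon
    rw [this] at hcardD
    simp only [Subgroup.card_bot] at hcardD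
    omega
  -- fixed points of D
  have hfix : ∀ z : Cfsg.Agent.Lib.ElemCent.Pts T, (∀ e ∈ D, e • z = z) → z = x ∨ z = y := by
    intro z hz
    by_contra hcon
    push Not at hcon
    exact hd1 (Cfsg.Agent.Lib.ElemCent.eq_one_of_three T hnc hnn hC hne (Ne.symm hcon.1)
      (Ne.symm hcon.2) hdD.1 hdD.2 (hz d hdD))
  -- normalizer elements permute the fixed points
  have hperm : ∀ n ∈ Subgroup.normalizer (D : Set G), ∀ z : Cfsg.Agent.Lib.ElemCent.Pts T,
      (∀ e ∈ D, e • z = z) → ∀ e ∈ D, e • n • z = n • z := by
    intro n hn z hz e he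
    have h1 : n⁻¹ * e * n ∈ D := by
      have := (Subgroup.mem_normalizer_iff.1 ((Subgroup.normalizer (D : Set G)).inv_mem hn) e).1 he
      simpa using this
    have h2 := hz _ h1
    rw [← smul_smul, ← smul_smul, inv_smul_eq_iff] at h2
    exact h2
  have hxD : ∀ e ∈ D, e • x = x := fun e he => he.1
  have hyD : ∀ e ∈ D, e • y = y := fun e he => he.2
  constructor
  · apply le_antisymm
    · intro n hn
      rcases hfix _ (hperm n hn x hxD) with h | h
      · have h2 : n • y = y := by
          rcases hfix _ (hperm n hn y hyD) with h' | h'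
          · exact absurd (MulAction.injective n (h.trans h'.symm)) hne
          · exact h'
        exact Subgroup.mem_sup_left ⟨h, h2⟩
      · have h2 : n • y = x := by
          rcases hfix _ (hperm n hn y hyD) with h' | h'
          · exact h'
          · exact absurd (MulAction.injective n (h.trans h'.symm)) hne
        have h3 : u * n ∈ D := by
          refine ⟨?_, ?_⟩
          · show (u * n) • x = x
            rw [← smul_smul, h, huy]
          · show (u * n) • y = y
            rw [← smul_smul, h2, hus.2]
        have h5 : n = u⁻¹ * (u * n) := by group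
        rw [h5]
        exact (D ⊔ Subgroup.zpowers u).mul_mem
          (Subgroup.mem_sup_right ((Subgroup.zpowers u).inv_mem (Subgroup.mem_zpowers u)))
          (Subgroup.mem_sup_left h3)
    · rw [sup_le_iff, Subgroup.zpowers_le]
      refine ⟨Subgroup.le_normalizer, ?_⟩
      apply Cfsg.Agent.Lib.SylowTools.mem_normalizer_of_forall
      intro e he
      rw [hinv e he]
      exact D.inv_mem he
  · intro g
    constructor
    · intro h
      exact hfix _ h
    · rintro (h | h) e he
      · rw [h]; exact hxD e he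
      · rw [h]; exact hyD e he

end Cfsg.Agent.S1228
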