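import Cfsg.Statements.S1229
import Cfsg.Agent.Lib.ElemCent2

set_option autoImplicit false
open Cfsg

namespace Cfsg.Agent.S1229

/-- Let G be a finite group with a Sylow 2-subgroup T that is neither cyclic nor normal, such that the centralizer of every involution is an elementary abelian 2-group; put H = N_G(T) and X = G/H. Then G is triply transitive on X, an element fixing three distinct points of X is the identity, and T acts regularly on X minus the point H. -/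
theorem result {G : Type*} [Group G] [Finite G] (T : Sylow 2 G) (hnc : ¬ IsCyclic (T : Subgroup G)) (hnn : ¬ (T : Subgroup G).Normal) (hC : ∀ t : G, orderOf t = 2 → IsMulCommutative (Subgroup.centralizer ({t} : Set G)) ∧ ∀ c ∈ Subgroup.centralizer ({t} : Set G), c ^ 2 = 1) : (∀ x₁ x₂ x₃ y₁ y₂ y₃ : G ⧸ Subgroup.normalizer ((T : Subgroup G) : Set G), x₁ ≠ x₂ → x₁ ≠ x₃ → x₂ ≠ x₃ → y₁ ≠ y₂ → y₁ ≠ y₃ → y₂ ≠ y₃ → ∃ g : G, g • x₁ = y₁ ∧ g • x₂ = y₂ ∧ g • x₃ = y₃) ∧ (∀ g : G, ∀ x₁ x₂ x₃ : G ⧸ Subgroup.normalizer ((T : Subgroup G) : Set G), x₁ ≠ x₂ → x₁ ≠ x₃ → x₂ ≠ x₃ → g • x₁ = x₁ → g • x₂ = x₂ → g • x₃ = x₃ → g = 1) ∧ (∀ x y : G ⧸ Subgroup.normalizer ((T : Subgroup G) : Set G), x ≠ QuotientGroup.mk 1 → y ≠ QuotientGroup.mk 1 → ∃! t : G, t ∈ T ∧ t • x = y) := by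
  refine ⟨?_, ?_, ?_⟩
  · intro x₁ x₂ x₃ y₁ y₂ y₃ h12 h13 h23 k12 k13 k23
    obtain ⟨g, hg⟩ := MulAction.exists_smul_eq G x₁ y₁
    have h1 : g • x₂ ≠ y₁ := fun h => h12 (MulAction.injective g (hg.trans h.symm))
    obtain ⟨g', hg'1, hg'2⟩ := Cfsg.Agent.Lib.ElemCent.two_trans T hnc hnn hC h1 (Ne.symm k12)
    have h2 : g' • g • x₃ ≠ y₁ := fun h => h13 (MulAction.injective (g' * g) (by
      change (g' * g) • x₁ = (g' * g) • x₃
      rw [← smul_smul, ← smul_smul, hg, hg'1, h]))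
    have h3 : g' • g • x₃ ≠ y₂ := fun h => h23 (MulAction.injective (g' * g) (by
      change (g' * g) • x₂ = (g' * g) • x₃
      rw [← smul_smul, ← smul_smul, hg'2, h]))
    obtain ⟨k, hk1, hk2, hk3⟩ := Cfsg.Agent.Lib.ElemCent.three_trans T hnc hnn hC k12 h2 h3
      (Ne.symm k13) (Ne.symm k23)
    refine ⟨k * g' * g, ?_, ?_, ?_⟩
    · rw [← smul_smul, ← smul_smul, hg, hg'1, hk1]
    · rw [← smul_smul, ← smul_smul, hg'2, hk2]
    · rw [← smul_smul, ← smul_smul, hk3]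
  · intro g x₁ x₂ x₃ h12 h13 h23 h1 h2 h3
    exact Cfsg.Agent.Lib.ElemCent.eq_one_of_three T hnc hnn hC h12 h13 h23 h1 h2 h3
  · intro x y hx hy
    exact Cfsg.Agent.Lib.ElemCent.regular T hnc hnn hC hx hy

end Cfsg.Agent.S1229
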