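import Cfsg.Statements.S1231
import Cfsg.Agent.Lib.PRankInj

set_option autoImplicit false
open Cfsg

namespace Cfsg.Agent.S1231

/-- Let H be a subgroup of the finite group G, p a prime, k ≥ 1, and P a Sylow p-subgroup of H whose p-rank is at least k. Then N_G(X) ≤ H for every subgroup X of P of p-rank at least k if and only if H ∩ gHg⁻¹ has p-rank less than k for every g ∉ H. -/
theorem result {G : Type*} [Group G] [Finite G] {p : ℕ} [Fact p.Prime] (k : ℕ) (hk : 1 ≤ k) (H : Subgroup G) (P : Sylow p ↥H) (hP : ¬ Cfsg.PRankLE p (k - 1) ↥(P : Subgroup ↥H)) : (∀ X : Subgroup G, X ≤ (P : Subgroup ↥H).map H.subtype → ¬ Cfsg.PRankLE p (k - 1) ↥X → Subgroup.normalizer (X : Set G) ≤ H) ↔ (∀ g : G, g ∉ H → Cfsg.PRankLE p (k - 1) ↥(H ⊓ H.map (MulAut.conj g).toMonoidHom)) := by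
  have hPH : (P : Subgroup ↥H).map H.subtype ≤ H := Subgroup.map_subtype_le _
  have hPp : IsPGroup p ((P : Subgroup ↥H).map H.subtype) := P.2.map _
  have hidx : ¬ p ∣ ((P : Subgroup ↥H).map H.subtype).relIndex H := by
    rw [Cfsg.Agent.Lib.SylowTools.relIndex_map_subtype]
    exact P.not_dvd_index
  constructor
  · intro hN g hg
    by_contra hcon
    unfold Cfsg.PRankLE at hcon
    push Not at hcon
    obtain ⟨A, hA1, hA2, hA3⟩ := hcon
    -- A as a subgroup of G
    set B : Subgroup G := A.map (H ⊓ H.map (MulAut.conj g).toMonoidHom).subtype with hB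
    have hBle : B ≤ H ⊓ H.map (MulAut.conj g).toMonoidHom := Subgroup.map_subtype_le _
    have hBrank : ¬ Cfsg.PRankLE p (k - 1) ↥B := by
      intro h
      have h1 := h ⊤ (by
        refine ⟨⟨?_⟩⟩
        rintro ⟨⟨_, a, ha, rfl⟩, -⟩ ⟨⟨_, b, hb, rfl⟩, -⟩
        apply Subtype.ext
        apply Subtype.ext
        have := hA1.1.comm ⟨a, ha⟩ ⟨b, hb⟩
        change (a : G) * b = b * a
        exact congrArg Subtype.val (congrArg Subtype.val this)) (by
        rintro ⟨_, a, ha, rfl⟩ -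
        apply Subtype.ext
        have := hA2 a ha
        change (a : G) ^ p = 1
        exact congrArg Subtype.val this)
      rw [Subgroup.card_top, hB, Subgroup.card_map_of_injective (Subgroup.subtype_injective _)] at h1
      omega
    have hBp : IsPGroup p B := by
      rintro ⟨_, a, ha, rfl⟩
      refine ⟨1, ?_⟩
      apply Subtype.ext
      have := hA2 a ha
      rw [pow_one]
      change (a : G) ^ p = 1
      exact congrArg Subtype.val this
    -- move B into P
    obtain ⟨h, hh, hhB⟩ := Cfsg.Agent.Lib.SylowTools.conj_into_of_sylow_of_subgroup hPH hPp hidx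
      (hBle.trans inf_le_left) hBp
    have key := Cfsg.Agent.Lib.PRankInj.mem_of_conj_le (p := p) hPH hPp hidx
      (fun X => ¬ Cfsg.PRankLE p (k - 1) ↥X)
      (fun A B hAB hA hB => hA (Cfsg.Agent.Lib.PRankInj.mono hAB hB))
      (fun A x hA hB => hA (Cfsg.Agent.Lib.PRankInj.conj x hB)) hN _
      (B.map (MulAut.conj h).toMonoidHom) rfl
      (Cfsg.Agent.Lib.PRankInj.map_conj_le_iff.2 hhB)
      (fun hB' => hBrank (Cfsg.Agent.Lib.PRankInj.conj h hB')) (g⁻¹ * h⁻¹) (by
        rintro _ ⟨b, hb, rfl⟩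
        obtain ⟨c, hc, hcb⟩ := (hBle hb).2
        change g⁻¹ * h⁻¹ * (h * b * h⁻¹) * (g⁻¹ * h⁻¹)⁻¹ ∈ H
        have : g⁻¹ * h⁻¹ * (h * b * h⁻¹) * (g⁻¹ * h⁻¹)⁻¹ = c := by
          rw [← hcb]
          change g⁻¹ * h⁻¹ * (h * (g * c * g⁻¹) * h⁻¹) * (g⁻¹ * h⁻¹)⁻¹ = c
          group
        rw [this]; exact hc)
    apply hg
    have h1 := H.mul_mem key hh
    have h2 : g⁻¹ * h⁻¹ * h = g⁻¹ := by group
    rw [h2] at h1
    exact (H.inv_mem_iff).1 h1
  · intro hrk X hXP hX g hg
    by_contra hgH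
    apply hX
    refine Cfsg.Agent.Lib.PRankInj.mono (le_inf (hXP.trans hPH) ?_) (hrk g hgH)
    intro x hx
    refine ⟨g⁻¹ * x * g, hPH (hXP ?_), by simp [mul_assoc]⟩
    have := (Subgroup.mem_normalizer_iff.1 ((Subgroup.normalizer (X : Set G)).inv_mem hg) x).1 hx
    simpa using this

end Cfsg.Agent.S1231
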