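import Cfsg.Statements.S1235
import Cfsg.Agent.Lib.H81Har2

set_option autoImplicit false
open Cfsg

namespace Cfsg.Agent.S1235

open Subgroup Cfsg.Agent.Lib.SectRank Cfsg.Agent.Lib.H81Har Cfsg.Agent.Lib.H81Har2

theorem dih_data {G : Type*} [Group G] [Finite G] (D : Subgroup G)
    (hD : (∃ m : ℕ, 2 ≤ m ∧ Nonempty (D ≃* DihedralGroup m)) ∨ Cfsg.IsQuasiDihedral D) :
    ∃ c y : G, c ∈ D ∧ y ∈ D ∧ Nat.card D = 2 * orderOf c ∧
      (∃ j : ℤ, Odd j ∧ y * c * y⁻¹ = c ^ (2 * j + 1)) ∧
      (c ^ 2 = 1 → Nat.card D = 4 ∧ ∀ d ∈ D, d ^ 2 = 1) := by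
  rcases hD with ⟨m, hm, ⟨e⟩⟩ | ⟨n, hn, hc, x, y, hx, hy, hxy⟩
  · have hcard : Nat.card D = 2 * m := by
      rw [Nat.card_congr e.toEquiv]; exact DihedralGroup.nat_card
    have ho : orderOf ((e.symm (DihedralGroup.r 1) : D) : G) = m := by
      rw [Subgroup.orderOf_coe, MulEquiv.orderOf_eq]
      exact DihedralGroup.orderOf_r_one
    refine ⟨(e.symm (DihedralGroup.r 1) : D), (e.symm (DihedralGroup.sr 0) : D), SetLike.coe_mem _,
      SetLike.coe_mem _, ?_, ⟨-1, by decide, ?_⟩, ?_⟩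
    · rw [ho, hcard]
    · have h1 : e.symm (DihedralGroup.sr 0) * e.symm (DihedralGroup.r 1) * (e.symm (DihedralGroup.sr 0))⁻¹ =
          (e.symm (DihedralGroup.r 1))⁻¹ := by
        rw [← map_inv, ← map_mul, ← map_mul, ← map_inv]
        congr 1
        rw [DihedralGroup.inv_sr, DihedralGroup.sr_mul_r, DihedralGroup.sr_mul_sr, DihedralGroup.inv_r]
        simp
      have h2 := congrArg (fun z : D => (z : G)) h1
      have h3 : (2 * (-1) + 1 : ℤ) = -1 := by norm_num
      rw [h3, zpow_neg, zpow_one]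
      exact h2
    · intro h2
      have h3 : m ∣ 2 := by rw [← ho]; exact orderOf_dvd_of_pow_eq_one h2
      have h4 : m = 2 := le_antisymm (Nat.le_of_dvd (by norm_num) h3) hm
      subst h4
      refine ⟨hcard, fun d hd => ?_⟩
      have h5 : ∀ a : DihedralGroup 2, a ^ 2 = 1 := by decide
      have h6 : (⟨d, hd⟩ : D) ^ 2 = 1 := by
        apply e.injective
        rw [map_pow, map_one, h5]
      exact congrArg (fun z : D => (z : G)) h6
  · have ho : orderOf (x : G) = 2 ^ n := by rw [Subgroup.orderOf_coe]; exact hx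
    refine ⟨x, y, x.2, y.2, ?_, ⟨2 ^ (n - 2) - 1, ?_, ?_⟩, ?_⟩
    · rw [ho, hc, pow_succ]; ring
    · have h1 : Even ((2 : ℤ) ^ (n - 2)) := by
        rw [Int.even_pow]
        exact ⟨by decide, by omega⟩
      exact h1.sub_odd odd_one
    · have h1 := congrArg (fun z : D => (z : G)) hxy
      have h2 : (2 * ((2 : ℤ) ^ (n - 2) - 1) + 1) = ((2 ^ (n - 1) - 1 : ℕ) : ℤ) := by
        have h3 : 1 ≤ 2 ^ (n - 1) := Nat.one_le_two_pow
        rw [Nat.cast_sub h3]
        push_cast
        have h4 : n - 1 = (n - 2) + 1 := by omega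
        rw [h4, pow_succ]; ring
      rw [h2, zpow_natCast]
      exact h1
    · intro h2
      exfalso
      have h3 : 2 ^ n ∣ 2 := by rw [← ho]; exact orderOf_dvd_of_pow_eq_one h2
      have h4 := Nat.le_of_dvd (by norm_num) h3
      have h5 : 2 ^ 3 ≤ 2 ^ n := Nat.pow_le_pow_right (by norm_num) hn
      omega

/-- Let G be a finite group, x an involution and T ≤ G a Sylow 2-subgroup of C_G(x) (T ≤ C_G(x) with |C_G(x) : T| odd) which is the internal direct product of a subgroup D that is dihedral (of order ≥ 4) or quasi-dihedral and a Klein four-subgroup B. Suppose that for every involution b ∈ B, T ≤ C_G(b) with |C_G(b) : T| odd. Then every section of G has 2-rank at most 4. -/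
theorem result {G : Type*} [Group G] [Finite G] (x : G) (hx : orderOf x = 2) (T D B : Subgroup G) (hT : IsPGroup 2 T) (hTx : T ≤ Subgroup.centralizer ({x} : Set G)) (hTxi : Odd (T.relIndex (Subgroup.centralizer ({x} : Set G)))) (hprod : Cfsg.IsInternalDirectProduct D B T) (hD : (∃ m : ℕ, 2 ≤ m ∧ Nonempty (D ≃* DihedralGroup m)) ∨ Cfsg.IsQuasiDihedral D) (hB : IsKleinFour B) (hTb : ∀ b ∈ B, orderOf b = 2 → T ≤ Subgroup.centralizer ({b} : Set G) ∧ Odd (T.relIndex (Subgroup.centralizer ({b} : Set G)))) : Cfsg.SectionalPRankLE 2 4 G := by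
  have : Fact (Nat.Prime 2) := ⟨Nat.prime_two⟩
  obtain ⟨hDT, hBT, hcomm, hinf, hsup⟩ := hprod
  obtain ⟨S, hTS⟩ := hT.exists_le_sylow
  obtain ⟨c, y, hc, hy, cD, ⟨j, hj, hrel⟩, hc2⟩ := dih_data D hD
  -- B
  have cB : Nat.card B = 4 := hB.card_four
  have sqB : ∀ b ∈ B, b ^ 2 = 1 := by
    intro b hb
    have h1 : (⟨b, hb⟩ : B) ^ 2 = 1 := by
      rw [← hB.exponent_two]; exact Monoid.pow_exponent_eq_one _
    exact congrArg (fun z : B => (z : G)) h1
  have ordB : ∀ b ∈ B, b ≠ 1 → orderOf b = 2 := fun b hb hb1 => orderOf_eq_prime (sqB b hb) hb1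
  have cen : ∀ b ∈ B, ∀ t ∈ T, b * t = t * b := by
    intro b hb t ht
    by_cases hb1 : b = 1
    · rw [hb1]; simp
    · have := (hTb b hb (ordB b hb hb1)).1 ht
      rw [mem_centralizer_singleton_iff] at this
      first | exact this | exact this.symm
  have hC : ∀ b ∈ B, b ≠ 1 → ∀ s ∈ (S : Subgroup G), s * b = b * s → s ∈ T := by
    intro b hb hb1 s hs hsb
    obtain ⟨h1, h2⟩ := hTb b hb (ordB b hb hb1)
    set C := Subgroup.centralizer ({b} : Set G) with hCdef
    set Q := (S : Subgroup G) ⊓ C with hQ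
    have hTQ : T ≤ Q := le_inf hTS h1
    have hQp : IsPGroup 2 Q := S.isPGroup'.to_le inf_le_left
    have h3 : T.relIndex Q * Q.relIndex C = T.relIndex C :=
      Subgroup.relIndex_mul_relIndex _ _ _ hTQ inf_le_right
    have h4 : Odd (T.relIndex Q) := by
      rw [← h3, Nat.odd_mul] at h2
      exact h2.1
    obtain ⟨n, hn⟩ := hQp.index (T.subgroupOf Q)
    have h5 : T.relIndex Q = 2 ^ n := hn
    have h6 : T.relIndex Q = 1 := by
      rw [h5] at h4 ⊢
      rcases Nat.eq_zero_or_pos n with h0 | h0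
      · rw [h0, pow_zero]
      · exfalso
        have h6 : 2 ∣ 2 ^ n := dvd_pow_self 2 (by omega)
        rw [Nat.odd_iff] at h4
        omega
    have h7 : Q ≤ T := Subgroup.relIndex_eq_one.1 h6
    exact h7 ⟨hs, mem_centralizer_singleton_iff.2 hsb⟩
  have hDS := hDT.trans hTS
  have hBS := hBT.trans hTS
  have hF : F (T.subgroupOf S) (D.subgroupOf S) (B.subgroupOf S) (⟨c, hDS hc⟩ : (S : Subgroup G))
      (⟨y, hDS hy⟩ : (S : Subgroup G)) j :=
    { hDT := fun z hz => hDT hz
      hBT := fun z hz => hBT hz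
      sup := by rw [← Subgroup.subgroupOf_sup hDS hBS, hsup]
      cen := fun b hb t ht => Subtype.ext (cen b hb t ht)
      sqB := fun b hb => Subtype.ext (sqB b hb)
      cB := by rw [← cB]; exact Nat.card_congr (subgroupOfEquivOfLe hBS).toEquiv
      hC := fun b hb hb1 s hs => hC b hb (fun h1 => hb1 (Subtype.ext h1)) s s.2
        (congrArg (fun z : (S : Subgroup G) => (z : G)) hs)
      hc := hc
      hy := hy
      cD := by
        rw [← Subgroup.orderOf_coe, ← cD]
        exact Nat.card_congr (subgroupOfEquivOfLe hDS).toEquiv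
      jodd := hj
      rel := Subtype.ext (by push_cast; exact hrel) }
  apply sectional_of_rankIn
  apply rank_of_sylow S
  rw [← sectional_subgroup_iff, sectional_iff_rankIn]
  apply rankIn_of_count S.isPGroup'
  intro H N hNH hsq hcm hbig
  by_cases hcc : c ^ 2 = 1
  · obtain ⟨h4, hd2⟩ := hc2 hcc
    have hn : B ≤ normalizer (D : Set G) := le_normalizer_of_commute hcomm
    have cT : Nat.card T = 16 := by
      rw [← hsup, Cfsg.Agent.Lib.SubgroupTools.card_sup_of_disjoint hn (disjoint_iff.2 hinf), h4, cB]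
    have dec : ∀ t ∈ T, ∃ d ∈ D, ∃ b ∈ B, t = d * b := by
      intro t ht
      rw [← hsup] at ht
      obtain ⟨d, hd, b, hb, e⟩ := (Cfsg.Agent.Lib.SubgroupTools.mem_sup_of_le_normalizer hn).1 ht
      exact ⟨d, hd, b, hb, e.symm⟩
    have sqT : ∀ t ∈ T, t ^ 2 = 1 := by
      intro t ht
      obtain ⟨d, hd, b, hb, rfl⟩ := dec t ht
      have hc : Commute d b := hcomm d hd b hb
      rw [hc.mul_pow, hd2 d hd, sqB b hb, one_mul]
    have abT : ∀ a ∈ T, ∀ b ∈ T, a * b = b * a := by
      intro a ha b hb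
      have h1 := sqT (a * b) (mul_mem ha hb)
      have h2 := sqT a ha
      have h3 := sqT b hb
      rw [pow_two] at h1 h2 h3
      have ha' : a⁻¹ = a := by rw [inv_eq_iff_mul_eq_one]; exact h2
      have hb' : b⁻¹ = b := by rw [inv_eq_iff_mul_eq_one]; exact h3
      have h4 : (a * b)⁻¹ = a * b := by rw [inv_eq_iff_mul_eq_one]; exact h1
      rw [← h4, mul_inv_rev, ha', hb']
    have hE : E (T.subgroupOf S) (B.subgroupOf S) :=
      { hBT := hF.hBT
        ab := fun a ha b hb => Subtype.ext (abT a ha b hb)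
        sq := fun a ha => Subtype.ext (sqT a ha)
        cT := by rw [← cT]; exact Nat.card_congr (subgroupOfEquivOfLe hTS).toEquiv
        cB := hF.cB
        hC := hF.hC }
    exact hE.rank S.isPGroup' H N hsq hcm hbig
  · have hcc' : (⟨c, hDS hc⟩ : (S : Subgroup G)) ^ 2 ≠ 1 := fun h1 =>
      hcc (congrArg (fun z : (S : Subgroup G) => (z : G)) h1)
    exact hF.rank S.isPGroup' (hF.top S.isPGroup' hcc') H N hNH hsq hcm hbig

end Cfsg.Agent.S1235
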