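import Cfsg.Statements.S1236
import Cfsg.Agent.Lib.DihSylow
import Cfsg.Agent.Lib.QuasiDihedral
import Cfsg.Agent.Lib.SubgroupTools

set_option autoImplicit false
open Cfsg

namespace Cfsg.Agent.S1236

open Subgroup Cfsg.Agent.Lib.DihSylow

theorem zmod_two_torsion {m : ℕ} [NeZero m] {j k : ZMod m} (hj : j + j = 0) (hk : k + k = 0)
    (hk0 : k ≠ 0) : j = 0 ∨ j = k := by
  by_contra hcon
  push Not at hcon
  obtain ⟨h1, h2⟩ := hcon
  have h3 := IsAddCyclic.card_nsmul_eq_zero_le (α := ZMod m) (n := 2) (by norm_num)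
  have h4 : ({0, k, j} : Finset (ZMod m)) ⊆ Finset.univ.filter (fun a => 2 • a = 0) := by
    intro a ha
    simp only [Finset.mem_insert, Finset.mem_singleton] at ha
    simp only [Finset.mem_filter, Finset.mem_univ, true_and]
    rcases ha with rfl | rfl | rfl
    · simp
    · rw [two_nsmul]; exact hk
    · rw [two_nsmul]; exact hj
  have h5 := Finset.card_le_card h4
  have h6 : ({0, k, j} : Finset (ZMod m)).card = 3 := by
    rw [Finset.card_insert_of_notMem, Finset.card_insert_of_notMem, Finset.card_singleton]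
    · simpa using h2.symm
    · simp only [Finset.mem_insert, Finset.mem_singleton]
      push Not
      exact ⟨hk0.symm, h1.symm⟩
  omega

theorem dihedral_four_centralizer {m : ℕ} [NeZero m] {V : Subgroup (DihedralGroup m)}
    (hV : IsKleinFour V) : centralizer (V : Set (DihedralGroup m)) ≤ V := by
  classical
  -- a reflection in `V`
  have hrot : ∀ k : ZMod m, DihedralGroup.r k ∈ V → DihedralGroup.r k ≠ 1 → k ≠ 0 ∧ k + k = 0 := by
    intro k hk hk1
    constructor
    · rintro rfl; exact hk1 rfl
    · have := four_sq hV hk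
      rw [DihedralGroup.r_mul_r, ← DihedralGroup.r_zero] at this
      exact DihedralGroup.r.inj this
  obtain ⟨i, hi⟩ : ∃ i : ZMod m, DihedralGroup.sr i ∈ V := by
    by_contra hcon
    push Not at hcon
    obtain ⟨a, ha, ha1, -⟩ := four_exists hV 1
    obtain ⟨b, hb, hb1, hba⟩ := four_exists hV a
    cases a with
    | sr i => exact hcon i ha
    | r k =>
      cases b with
      | sr i => exact hcon i hb
      | r l =>
        obtain ⟨h1, h2⟩ := hrot k ha ha1
        obtain ⟨h3, h4⟩ := hrot l hb hb1
        rcases zmod_two_torsion h4 h2 h1 with h5 | h5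
        · exact h3 h5
        · exact hba (by rw [h5])
  -- a nontrivial rotation in `V`
  obtain ⟨k, hk, hk0, hkk⟩ : ∃ k : ZMod m, DihedralGroup.r k ∈ V ∧ k ≠ 0 ∧ k + k = 0 := by
    obtain ⟨b, hb, hb1, hbi⟩ := four_exists hV (DihedralGroup.sr i)
    cases b with
    | r k => exact ⟨k, hb, hrot k hb hb1⟩
    | sr j =>
      have h1 : DihedralGroup.sr i * DihedralGroup.sr j ∈ V := mul_mem hi hb
      rw [DihedralGroup.sr_mul_sr] at h1
      refine ⟨j - i, h1, hrot _ h1 ?_⟩
      intro h2
      rw [← DihedralGroup.r_zero] at h2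
      have h3 := DihedralGroup.r.inj h2
      apply hbi
      rw [sub_eq_zero.mp h3]
  have key : ∀ j : ZMod m, DihedralGroup.r j * DihedralGroup.sr i = DihedralGroup.sr i * DihedralGroup.r j →
      DihedralGroup.r j ∈ V := by
    intro j hj
    rw [DihedralGroup.r_mul_sr, DihedralGroup.sr_mul_r] at hj
    have h1 := DihedralGroup.sr.inj hj
    have h2 : j + j = 0 := by
      have : i - j - (i + j) = 0 := by rw [h1, sub_self]
      have h3 : -(j + j) = 0 := by rw [← this]; ring
      exact neg_eq_zero.mp h3
    rcases zmod_two_torsion h2 hkk hk0 with h3 | h3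
    · rw [h3, DihedralGroup.r_zero]; exact one_mem _
    · rw [h3]; exact hk
  intro g hg
  have h1 := mem_centralizer_iff.mp hg _ hi
  cases g with
  | r j => exact key j h1.symm
  | sr j =>
    have h2 : DihedralGroup.sr j * DihedralGroup.sr i ∈ V := by
      have h3 : DihedralGroup.sr j * DihedralGroup.sr i = DihedralGroup.r (i - j) :=
        DihedralGroup.sr_mul_sr j i
      rw [h3]
      apply key
      rw [← h3]
      have h4 : DihedralGroup.sr i * (DihedralGroup.sr j * DihedralGroup.sr i) =
          (DihedralGroup.sr i * DihedralGroup.sr j) * DihedralGroup.sr i := (mul_assoc _ _ _).symm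
      rw [h4, h1]
    have h5 : DihedralGroup.sr j = (DihedralGroup.sr j * DihedralGroup.sr i) * DihedralGroup.sr i := by
      rw [mul_assoc, four_sq hV hi, mul_one]
    rw [h5]
    exact mul_mem h2 hi

theorem centralizer_map_equiv {A B : Type*} [Group A] [Group B] (e : A ≃* B) (V : Subgroup A)
    (h : centralizer ((V.map e.toMonoidHom : Subgroup B) : Set B) ≤ V.map e.toMonoidHom) :
    centralizer (V : Set A) ≤ V := by
  intro g hg
  have h1 : e g ∈ centralizer ((V.map e.toMonoidHom : Subgroup B) : Set B) := by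
    rw [mem_centralizer_iff]
    rintro _ ⟨v, hv, rfl⟩
    change e v * e g = e g * e v
    rw [← map_mul, ← map_mul, mem_centralizer_iff.mp hg v hv]
  obtain ⟨v, hv, hvg⟩ := h h1
  have : v = g := e.injective hvg
  rwa [← this]

theorem isKleinFour_map {A B : Type*} [Group A] [Group B] (e : A ≃* B) {V : Subgroup A}
    (hV : IsKleinFour V) : IsKleinFour (V.map e.toMonoidHom) := by
  have e' := V.equivMapOfInjective e.toMonoidHom e.injective
  refine ⟨by rw [← Nat.card_congr e'.toEquiv]; exact hV.card_four, ?_⟩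
  rw [← Monoid.exponent_eq_of_mulEquiv e']; exact hV.exponent_two

/-- Let R be a finite group, t a central involution of R such that R ⧸ ⟨t⟩ is dihedral (of order ≥ 4) or quasi-dihedral, and A ≤ R an elementary abelian subgroup of order 8 containing t. Then C_R(A) = A. -/
theorem result {R : Type*} [Group R] [Finite R] (t : R) (ht : orderOf t = 2) (htz : t ∈ Subgroup.center R) [(Subgroup.zpowers t).Normal] (hq : (∃ m : ℕ, 2 ≤ m ∧ Nonempty (R ⧸ Subgroup.zpowers t ≃* DihedralGroup m)) ∨ Cfsg.IsQuasiDihedral (R ⧸ Subgroup.zpowers t)) (A : Subgroup R) (hA : Cfsg.IsElementaryAbelian 2 A) (hA8 : Nat.card A = 8) (htA : t ∈ A) : Subgroup.centralizer (A : Set R) = A := by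
  classical
  have htt : t * t = 1 := by rw [← pow_two, ← ht]; exact pow_orderOf_eq_one t
  set f := QuotientGroup.mk' (Subgroup.zpowers t) with hf
  have hsurj : Function.Surjective f := QuotientGroup.mk'_surjective _
  have hker : f.ker = Subgroup.zpowers t := QuotientGroup.ker_mk' _
  have hzA : Subgroup.zpowers t ≤ A := by rwa [Subgroup.zpowers_le]
  set V := A.map f with hV
  have hcard : Nat.card V = 4 := by
    have h1 := Lib.SubgroupTools.card_map_mul_card_inf_ker f A
    rw [hker, inf_eq_right.mpr hzA, Nat.card_zpowers, ht, hA8] at h1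
    have h2 : Nat.card V * 2 = 8 := h1
    omega
  have hV4 : IsKleinFour V := by
    refine ⟨hcard, ?_⟩
    have hsq : ∀ v : V, v ^ 2 = 1 := by
      rintro ⟨_, a, ha, rfl⟩
      apply Subtype.ext
      change (f a) ^ 2 = 1
      rw [← map_pow, hA.2 a ha, map_one]
    have hnt : Nontrivial V := by
      rw [← Finite.one_lt_card_iff_nontrivial, hcard]; norm_num
    have hdvd : Monoid.exponent V ∣ 2 := Monoid.exponent_dvd_of_forall_pow_eq_one hsq
    rcases (Nat.dvd_prime Nat.prime_two).mp hdvd with h5 | h5
    · rw [Monoid.exp_eq_one_iff] at h5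
      exact absurd h5 (not_subsingleton V)
    · exact h5
  have hCV : centralizer (V : Set (R ⧸ Subgroup.zpowers t)) ≤ V := by
    rcases hq with ⟨m, hm, ⟨e⟩⟩ | hq
    · have : NeZero m := ⟨by omega⟩
      exact centralizer_map_equiv e V (dihedral_four_centralizer (isKleinFour_map e hV4))
    · obtain ⟨x, y, M, k, hQ⟩ := Lib.QuasiDihedral.exists_qd hq
      exact (hQ.klein_four_centralizer hV4).le
  apply le_antisymm
  · intro c hc
    have h1 : f c ∈ V := by
      apply hCV
      rw [mem_centralizer_iff]
      rintro _ ⟨a, ha, rfl⟩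
      rw [← map_mul, ← map_mul, mem_centralizer_iff.mp hc a ha]
    obtain ⟨a, ha, hac⟩ := h1
    have h2 : a⁻¹ * c ∈ f.ker := by
      rw [MonoidHom.mem_ker, map_mul, map_inv, hac, inv_mul_cancel]
    rw [hker] at h2
    have : c = a * (a⁻¹ * c) := by group
    rw [this]
    exact mul_mem ha (hzA h2)
  · intro a ha
    rw [mem_centralizer_iff]
    intro b hb
    exact congrArg Subtype.val (hA.1.is_comm.comm ⟨b, hb⟩ ⟨a, ha⟩)

end Cfsg.Agent.S1236
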