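import Cfsg.Statements.S1238
import Cfsg.Agent.Lib.TwoEGrp

set_option autoImplicit false
open Cfsg

namespace Cfsg.Agent.S1238

/-- Let G be a finite group of 2-rank 2 (a Klein four-subgroup but no elementary abelian subgroup of order 8) which is fusion simple: G has no subgroup of index 2 and no isolated involution. Let S be a Sylow 2-subgroup. Then S is dihedral, quasi-dihedral, wreathed, isomorphic to Z_{2^n} × Z_{2^n} for some n ≥ 2, or isomorphic to a Sylow 2-subgroup of PSU(3) over the field with 16 elements. -/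
theorem result {G : Type*} [Group G] [Finite G] (h2 : Cfsg.PRankLE 2 2 G) (h1 : ¬ Cfsg.PRankLE 2 1 G) (hidx : ∀ H : Subgroup G, H.index ≠ 2) (hiso : ∀ z : G, ¬ Cfsg.IsIsolatedInvolution z) (S : Sylow 2 G) {F : Type*} [Field F] [Fintype F] (hF : Fintype.card F = 16) (P : Sylow 2 (Cfsg.PSU 3 F 4)) : (∃ m : ℕ, 2 ≤ m ∧ Nonempty ((S : Subgroup G) ≃* DihedralGroup m)) ∨ Cfsg.IsQuasiDihedral (S : Subgroup G) ∨ Cfsg.IsWreathed (S : Subgroup G) ∨ (∃ n : ℕ, 2 ≤ n ∧ Nonempty ((S : Subgroup G) ≃* Multiplicative (ZMod (2 ^ n) × ZMod (2 ^ n)))) ∨ Nonempty ((S : Subgroup G) ≃* (P : Subgroup (Cfsg.PSU 3 F 4))) := by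
  have hp : Fact (Nat.Prime 2) := ⟨Nat.prime_two⟩
  refine Cfsg.Agent.Lib.TwoE.group_main h2 hiso S ?_ hF P
  intro hS
  apply h1
  intro A _ hA
  have hA2 : IsPGroup 2 A := by
    rintro ⟨x, hx⟩
    refine ⟨1, Subtype.ext ?_⟩
    show x ^ 2 ^ 1 = 1
    rw [pow_one]
    exact hA x hx
  obtain ⟨u, hu⟩ := Cfsg.Agent.Lib.SylCard.exists_conj_mem_top S hA2
  have h3 : A = ⊥ := by
    rw [Subgroup.eq_bot_iff_forall]
    intro x hx
    have h4 := hu x hx
    rw [hS, Subgroup.mem_bot] at h4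
    exact conj_eq_one_iff.1 h4
  rw [h3, Subgroup.card_bot]
  norm_num

end Cfsg.Agent.S1238
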