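import Cfsg.Statements.S1239
import Cfsg.Agent.Lib.ZStarU
import Cfsg.Agent.Lib.WrFusion4
import Cfsg.Agent.Lib.QWFusion2

set_option autoImplicit false
open Cfsg

namespace Cfsg.Agent.S1239

/-- Let X be a finite group whose Sylow 2-subgroup S is quasi-dihedral or wreathed, and suppose some involution of S is isolated in X. Then the product of the largest normal odd-order subgroup O(X) with the centre of S is normal in X. -/
theorem result {X : Type*} [Group X] [Finite X] (S : Sylow 2 X) (hS : Cfsg.IsQuasiDihedral (S : Subgroup X) ∨ Cfsg.IsWreathed (S : Subgroup X)) (z : X) (hzS : z ∈ S) (hz : Cfsg.IsIsolatedInvolution z) : (Cfsg.oddCore X ⊔ (Subgroup.center (S : Subgroup X)).map (S : Subgroup X).subtype).Normal := by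
  have hp2 := Fact.mk Nat.prime_two
  have hZ := Cfsg.Agent.Lib.ZStarU.inZStar_of_isolated hz
  have hzc := Cfsg.Agent.Lib.ZStarU.mem_center_of_inZStar S hzS hZ
  have hzo : orderOf (⟨z, hzS⟩ : ↥(S : Subgroup X)) = 2 := (Subgroup.orderOf_coe _).symm.trans hz.1
  apply Cfsg.Agent.Lib.ZStarU.normal_sup
  rcases hS with h | h
  · obtain ⟨x, y, M, k, hqd⟩ := Cfsg.Agent.Lib.QuasiDihedral.exists_qd h
    have hzx := Cfsg.Agent.Lib.QWFusion.qd_central hqd hzo hzc
    rintro _ ⟨c, hc, rfl⟩
    rw [SetLike.mem_coe, hqd.center_eq, ← hzx] at hc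
    obtain ⟨i, rfl⟩ := hc
    have h1 : (S : Subgroup X).subtype ((fun i : ℤ => (⟨z, hzS⟩ : ↥(S : Subgroup X)) ^ i) i) = z ^ i := by
      change (((⟨z, hzS⟩ : ↥(S : Subgroup X)) ^ i : ↥(S : Subgroup X)) : X) = z ^ i
      rw [Subgroup.coe_zpow]
    rw [h1]
    rcases Int.even_or_odd i with ⟨j, hj⟩ | ⟨j, hj⟩
    · have h2 : z ^ i = 1 := by
        rw [hj, ← two_mul, zpow_mul]
        have := pow_orderOf_eq_one z
        rw [hz.1] at this
        have h3 : z ^ (2 : ℤ) = 1 := by exact_mod_cast this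
        rw [h3, one_zpow]
      rw [h2]
      intro g
      simp
    · have h2 : z ^ i = z := by
        rw [hj, zpow_add, zpow_mul]
        have := pow_orderOf_eq_one z
        rw [hz.1] at this
        have h3 : z ^ (2 : ℤ) = 1 := by exact_mod_cast this
        rw [h3, one_zpow, zpow_one, one_mul]
      rw [h2]; exact hZ
  · obtain ⟨x, y, t, q, n, hwr⟩ := Cfsg.Agent.Lib.Wreathed.exists_wr h
    have hzx := Cfsg.Agent.Lib.QWFusion.wr_central hwr hzo hzc
    have hU2 : (Subgroup.centralizer (Cfsg.Agent.Lib.WrFusion.UG hwr : Set X)).relIndex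
        (Subgroup.normalizer (Cfsg.Agent.Lib.WrFusion.UG hwr : Set X)) = 2 := by
      rcases Cfsg.Agent.Lib.WrFusion.U_index hwr with h2 | h6
      · exact h2
      · exfalso
        have h1 := Cfsg.Agent.Lib.WrFusion.tau_conj_rho hwr h6
        obtain ⟨g, hg⟩ := isConj_iff.mp h1
        rw [← hzx] at hg
        have h3 : Commute z (g * z * g⁻¹) := by
          have hg' : g * z * g⁻¹ = ((x ^ (2 * q : ℤ) * y ^ (0 : ℤ) : ↥(S : Subgroup X)) : X) := hg
          rw [hg']
          have := Subgroup.mem_center_iff.mp hzc (x ^ (2 * q : ℤ) * y ^ (0 : ℤ))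
          exact (congrArg Subtype.val this).symm
        have h4 := hz.2 g h3
        have h5 : (⟨z, hzS⟩ : ↥(S : Subgroup X)) = x ^ (2 * q : ℤ) * y ^ (0 : ℤ) :=
          Subtype.ext (h4.symm.trans hg)
        rw [hzx, hwr.P_eq_iff] at h5
        obtain ⟨-, c, hc⟩ := h5
        have hq := hwr.q_pos'
        have h6 : (q : ℤ) * (2 * c - 1) = 0 := by linarith
        rcases mul_eq_zero.mp h6 with h7 | h7 <;> omega
    rintro c hc
    have hcS : c ∈ S := by
      obtain ⟨d, -, rfl⟩ := hc; exact d.2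
    exact Cfsg.Agent.Lib.ZStarU.inZStar_of_sylow S hcS (fun g hg =>
      Cfsg.Agent.Lib.WrFusion.center_fixed hwr hU2 hcS hg (isConj_iff.mpr ⟨g, rfl⟩) hc)

end Cfsg.Agent.S1239
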