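import Cfsg.Statements.S1241
import Mathlib.GroupTheory.Abelianization.Defs

set_option autoImplicit false
open Cfsg

namespace Cfsg.Agent.S1241

/-- Let G be a finite group, p a prime, H a subgroup of index prime to p, K a subgroup of H normal in H with H/K commutative, and g ∈ H ∖ K an element of p-power order such that for all integers m and all a ∈ G with a g^m a⁻¹ ∈ H one has a g^m a⁻¹ ∈ g^m K. Then g ∉ G'. -/
theorem result {G : Type*} [Group G] [Finite G] {p : ℕ} [Fact p.Prime] (H K : Subgroup G) (hHK : K ≤ H) (hKn : (K.subgroupOf H).Normal) (hab : ∀ x ∈ H, ∀ y ∈ H, x * y * x⁻¹ * y⁻¹ ∈ K) (hidx : Nat.Coprime p H.index) (g : G) (hgH : g ∈ H) (hgK : g ∉ K) (hgp : ∃ k : ℕ, orderOf g = p ^ k) (hctrl : ∀ (m : ℤ) (a : G), a * g ^ m * a⁻¹ ∈ H → (a * g ^ m * a⁻¹) * (g ^ m)⁻¹ ∈ K) : g ∉ commutator G := by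
  classical
  intro hcomm
  have : Fintype (G ⧸ H) := Fintype.ofFinite _
  have : (K.subgroupOf H).Normal := hKn
  let iQ : CommGroup (H ⧸ K.subgroupOf H) :=
    { (inferInstance : Group (H ⧸ K.subgroupOf H)) with
      mul_comm := by
        intro a b
        induction a using QuotientGroup.induction_on with
        | H a =>
        induction b using QuotientGroup.induction_on with
        | H b =>
        change ((a * b : H) : H ⧸ K.subgroupOf H) = ((b * a : H) : H ⧸ K.subgroupOf H)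
        rw [QuotientGroup.eq, Subgroup.mem_subgroupOf]
        have h1 := hab _ (H.inv_mem b.2) _ (H.inv_mem a.2)
        simpa [mul_assoc] using h1 }
  let φ : H →* (H ⧸ K.subgroupOf H) := QuotientGroup.mk' (K.subgroupOf H)
  have hft := MonoidHom.transfer_eq_prod_quotient_orbitRel_zpowers_quot φ g
  have h1 : MonoidHom.transfer φ g = 1 := Abelianization.commutator_subset_ker (MonoidHom.transfer φ) hcomm
  have hfac : ∀ q : Quotient (MulAction.orbitRel (Subgroup.zpowers g) (G ⧸ H)),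
      φ ⟨q.out.out⁻¹ * g ^ Function.minimalPeriod (g • ·) q.out * q.out.out,
        QuotientGroup.out_conj_pow_minimalPeriod_mem H g q.out⟩ =
      φ ⟨g, hgH⟩ ^ Function.minimalPeriod (g • ·) q.out := by
    intro q
    rw [← map_pow]
    have h2 := QuotientGroup.out_conj_pow_minimalPeriod_mem H g q.out
    have h3 := hctrl (Function.minimalPeriod (g • ·) q.out : ℤ) (q.out.out⁻¹)
      (by simpa using h2)
    rw [zpow_natCast, inv_inv] at h3
    change ((_ : H) : H ⧸ K.subgroupOf H) = ((_ : H) : H ⧸ K.subgroupOf H)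
    rw [eq_comm, QuotientGroup.eq, Subgroup.mem_subgroupOf]
    have h4 : g ^ Function.minimalPeriod (g • ·) q.out ∈ H := H.pow_mem hgH _
    have h5 := (hKn.conj_mem ⟨_, hHK h3⟩ h3 ⟨_, H.inv_mem h4⟩)
    rw [Subgroup.mem_subgroupOf] at h5
    simpa [mul_assoc] using h5
  rw [h1, Finset.prod_congr rfl (fun q _ => hfac q), Finset.prod_pow_eq_pow_sum,
    ← Subgroup.index_eq_sum_minimalPeriod H g] at hft
  have h6 : orderOf (φ ⟨g, hgH⟩) ∣ H.index := orderOf_dvd_of_pow_eq_one hft.symm
  obtain ⟨k, hk⟩ := hgp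
  have h7 : orderOf (φ ⟨g, hgH⟩) ∣ p ^ k := by
    rw [← hk]
    refine (orderOf_map_dvd φ _).trans ?_
    rw [Subgroup.orderOf_mk]
  have h8 : orderOf (φ ⟨g, hgH⟩) = 1 :=
    Nat.eq_one_of_dvd_coprimes (Nat.Coprime.pow_left k hidx) h7 h6
  rw [orderOf_eq_one_iff] at h8
  have h9 : (⟨g, hgH⟩ : H) ∈ K.subgroupOf H := (QuotientGroup.eq_one_iff _).1 h8
  exact hgK h9

end Cfsg.Agent.S1241
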