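import Cfsg.Statements.S1242
import Cfsg.Agent.Lib.TransferPow

set_option autoImplicit false
open Cfsg

namespace Cfsg.Agent.S1242

/-- Let G be a finite group, p a prime and H a subgroup of index prime to p such that any two elements of H of p-power order that are conjugate in G are conjugate in H. Then (O^p(G)·G') ∩ H = O^p(H)·H', where O^p denotes the subgroup generated by the elements of order prime to p. -/
theorem result {G : Type*} [Group G] [Finite G] {p : ℕ} [Fact p.Prime] (H : Subgroup G) (hidx : Nat.Coprime p H.index) (hfus : ∀ g ∈ H, (∃ k : ℕ, orderOf g = p ^ k) → ∀ a : G, a * g * a⁻¹ ∈ H → ∃ h ∈ H, h * g * h⁻¹ = a * g * a⁻¹) : (Cfsg.pResidual p G ⊔ commutator G) ⊓ H = (Cfsg.pResidual p ↥H ⊔ commutator ↥H).map H.subtype := by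
  classical
  have hp : p.Prime := Fact.out
  apply le_antisymm
  · rintro x ⟨hx, hxH⟩
    have hKn : (Cfsg.pResidual p ↥H).Normal := by
      constructor
      intro n hn g
      have : Cfsg.pResidual p ↥H ≤ (Cfsg.pResidual p ↥H).comap (MulAut.conj g).toMonoidHom := by
        rw [Cfsg.pResidual, Subgroup.closure_le]
        intro y hy
        apply Subgroup.subset_closure
        change Nat.Coprime (orderOf ((MulAut.conj g).toMonoidHom y)) p
        rw [orderOf_injective (MulAut.conj g).toMonoidHom (MulAut.conj g).injective y]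
        exact hy
      exact this hn
    have hKn' : (Cfsg.pResidual p ↥H ⊔ commutator ↥H).Normal := Subgroup.sup_normal _ _
    set K : Subgroup H := Cfsg.pResidual p ↥H ⊔ commutator ↥H with hK
    let iQ : CommGroup (H ⧸ K) :=
      { (inferInstance : Group (H ⧸ K)) with
        mul_comm := by
          intro a b
          induction a using QuotientGroup.induction_on with
          | H a =>
          induction b using QuotientGroup.induction_on with
          | H b =>
          change ((a * b : H) : H ⧸ K) = ((b * a : H) : H ⧸ K)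
          rw [QuotientGroup.eq]
          apply (le_sup_right : commutator ↥H ≤ K)
          have h1 := Subgroup.commutator_mem_commutator (Subgroup.mem_top b⁻¹) (Subgroup.mem_top a⁻¹)
          rw [commutator_def]
          rw [commutatorElement_def] at h1
          simpa [mul_assoc] using h1 }
    let φ : H →* (H ⧸ K) := QuotientGroup.mk' K
    have hQp : IsPGroup p (H ⧸ K) := Cfsg.Agent.Lib.TransferPow.isPGroup_quotient le_sup_left
    -- transfer kills x
    have hV : ∀ y : G, y ∈ Cfsg.pResidual p G ⊔ commutator G → MonoidHom.transfer φ y = 1 := by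
      intro y hy
      have hle : Cfsg.pResidual p G ⊔ commutator G ≤ (MonoidHom.transfer φ).ker :=
        sup_le (Cfsg.Agent.Lib.TransferPow.pResidual_le_ker hQp _)
          (Abelianization.commutator_subset_ker _)
      exact hle hy
    set n := orderOf x with hn
    have hn0 : n ≠ 0 := (orderOf_pos x).ne'
    -- y = x ^ m, m the p'-part
    set m := n / p ^ n.factorization p with hm
    have hmdvd : m ∣ n := Nat.ordCompl_dvd n p
    have hm0 : m ≠ 0 := (Nat.ordCompl_pos p hn0).ne'
    have hmcop : Nat.Coprime p m := Nat.coprime_ordCompl hp hn0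
    have hy1 : orderOf (x ^ m) = p ^ n.factorization p := by
      rw [orderOf_pow_of_dvd hm0 hmdvd]
      exact Nat.div_div_self (Nat.ordProj_dvd n p) hn0
    have hyH : x ^ m ∈ H := H.pow_mem hxH m
    have hfus' : ∀ (k : ℕ) (a : G) (h : a⁻¹ * (x ^ m) ^ k * a ∈ H),
        φ ⟨a⁻¹ * (x ^ m) ^ k * a, h⟩ = φ ⟨x ^ m, hyH⟩ ^ k := by
      intro k a h
      have h1 : ∃ j : ℕ, orderOf ((x ^ m) ^ k) = p ^ j := by
        have : orderOf ((x ^ m) ^ k) ∣ p ^ n.factorization p := by
          rw [← hy1]; exact orderOf_pow_dvd k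
        obtain ⟨j, -, hj⟩ := (Nat.dvd_prime_pow hp).1 this
        exact ⟨j, hj⟩
      obtain ⟨b, hb, hba⟩ := hfus _ (H.pow_mem hyH k) h1 a⁻¹ (by simpa using h)
      have h2 : (⟨a⁻¹ * (x ^ m) ^ k * a, h⟩ : H) = ⟨b, hb⟩ * ⟨x ^ m, hyH⟩ ^ k * ⟨b, hb⟩⁻¹ := by
        apply Subtype.ext
        simp only [Subgroup.coe_mul, Subgroup.coe_inv, Subgroup.coe_pow]
        rw [hba, inv_inv]
      rw [h2, map_mul, map_mul, map_inv, map_pow, mul_comm, inv_mul_cancel_left]
    have h3 := Cfsg.Agent.Lib.TransferPow.transfer_eq_pow φ hyH hfus'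
    rw [hV _ (Subgroup.pow_mem _ hx m)] at h3
    have h4 : orderOf (φ ⟨x ^ m, hyH⟩) ∣ H.index := orderOf_dvd_of_pow_eq_one h3.symm
    have h5 : φ ⟨x ^ m, hyH⟩ = 1 := by
      obtain ⟨k, hk⟩ := hQp (φ ⟨x ^ m, hyH⟩)
      have h6 : orderOf (φ ⟨x ^ m, hyH⟩) ∣ p ^ k := orderOf_dvd_of_pow_eq_one hk
      exact orderOf_eq_one_iff.1 (Nat.eq_one_of_dvd_coprimes (Nat.Coprime.pow_left k hidx) h6 h4)
    have h7 : (φ ⟨x, hxH⟩) ^ m = 1 := by
      rw [← map_pow]; exact h5
    have h8 : φ ⟨x, hxH⟩ = 1 := by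
      obtain ⟨k, hk⟩ := hQp (φ ⟨x, hxH⟩)
      have h9 : orderOf (φ ⟨x, hxH⟩) ∣ p ^ k := orderOf_dvd_of_pow_eq_one hk
      have h10 : orderOf (φ ⟨x, hxH⟩) ∣ m := orderOf_dvd_of_pow_eq_one h7
      exact orderOf_eq_one_iff.1 (Nat.eq_one_of_dvd_coprimes (Nat.Coprime.pow_left k hmcop) h9 h10)
    have h11 : (⟨x, hxH⟩ : H) ∈ K := (QuotientGroup.eq_one_iff _).1 h8
    exact ⟨⟨x, hxH⟩, h11, rfl⟩
  · refine le_inf ?_ (Subgroup.map_subtype_le _)
    rw [Subgroup.map_sup]
    apply sup_le_sup
    · rw [Cfsg.pResidual, MonoidHom.map_closure, Subgroup.closure_le]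
      rintro _ ⟨y, hy, rfl⟩
      apply Subgroup.subset_closure
      change Nat.Coprime (orderOf (y : G)) p
      rw [Subgroup.orderOf_coe]
      exact hy
    · rw [commutator_def, Subgroup.map_commutator]
      exact Subgroup.commutator_mono le_top le_top

end Cfsg.Agent.S1242
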