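import Cfsg.Statements.S1243
import Cfsg.Agent.Lib.SylowTools

set_option autoImplicit false
open Cfsg

namespace Cfsg.Agent.S1243

/-- Let T be a Sylow p-subgroup of the finite group G and W ≤ T a subgroup weakly closed in T. If d and g d g⁻¹ both centralize W, then g d g⁻¹ = h d h⁻¹ for some h ∈ N_G(W). -/
theorem result {G : Type*} [Group G] [Finite G] {p : ℕ} [Fact p.Prime] (T : Sylow p G) (W : Subgroup G) (hW : Cfsg.IsWeaklyClosed W (T : Subgroup G)) (d g : G) (hd : d ∈ Subgroup.centralizer (W : Set G)) (hgd : g * d * g⁻¹ ∈ Subgroup.centralizer (W : Set G)) : ∃ h ∈ Subgroup.normalizer (W : Set G), h * d * h⁻¹ = g * d * g⁻¹ := by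
  obtain ⟨hWT, hwc⟩ := hW
  set c : G := g * d * g⁻¹ with hc
  have hWC : W ≤ Subgroup.centralizer ({c} : Set G) := by
    intro w hw
    rw [Subgroup.mem_centralizer_singleton_iff]
    exact (Subgroup.mem_centralizer_iff.1 hgd w hw)
  have hWgC : W.map (MulAut.conj g).toMonoidHom ≤ Subgroup.centralizer ({c} : Set G) := by
    rintro _ ⟨w, hw, rfl⟩
    rw [Subgroup.mem_centralizer_singleton_iff]
    have := Subgroup.mem_centralizer_iff.1 hd w hw
    simp only [MulEquiv.toMonoidHom_eq_coe, MonoidHom.coe_coe, MulAut.conj_apply, hc]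
    calc g * w * g⁻¹ * (g * d * g⁻¹) = g * (w * d) * g⁻¹ := by group
      _ = g * (d * w) * g⁻¹ := by rw [this]
      _ = g * d * g⁻¹ * (g * w * g⁻¹) := by group
  have hWp : IsPGroup p W := T.2.to_le hWT
  have hWgp : IsPGroup p (W.map (MulAut.conj g).toMonoidHom) := hWp.map _
  obtain ⟨R, hR, hRC, hRp, hidx⟩ :=
    Cfsg.Agent.Lib.SylowTools.exists_sylow_of_subgroup hWC hWp
  obtain ⟨k, hkC, hk⟩ :=
    Cfsg.Agent.Lib.SylowTools.conj_into_of_sylow_of_subgroup hRC hRp hidx hWgC hWgp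
  obtain ⟨x, hx⟩ := Cfsg.Agent.Lib.SylowTools.conj_into_sylow T hRp
  have e1 : W.map (MulAut.conj x).toMonoidHom = W := by
    apply hwc
    rintro _ ⟨w, hw, rfl⟩
    exact hx w (hR hw)
  have e2 : W.map (MulAut.conj (x * k * g)).toMonoidHom = W := by
    apply hwc
    rintro _ ⟨w, hw, rfl⟩
    have := hx _ (hk (g * w * g⁻¹) ⟨w, hw, by simp⟩)
    simpa [mul_assoc] using this
  have n1 := Cfsg.Agent.Lib.SylowTools.mem_normalizer_of_map_eq e1
  have n2 := Cfsg.Agent.Lib.SylowTools.mem_normalizer_of_map_eq e2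
  refine ⟨k * g, ?_, ?_⟩
  · have := (Subgroup.normalizer (W : Set G)).mul_mem
      ((Subgroup.normalizer (W : Set G)).inv_mem n1) n2
    simpa [mul_assoc] using this
  · have hkc : k * c = c * k := Subgroup.mem_centralizer_singleton_iff.1 hkC
    calc k * g * d * (k * g)⁻¹ = k * c * k⁻¹ := by rw [hc]; group
      _ = c := by rw [hkc]; group

end Cfsg.Agent.S1243
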