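import Cfsg.Statements.S1244
import Cfsg.Agent.Lib.NoIndexTwo

set_option autoImplicit false
open Cfsg

namespace Cfsg.Agent.S1244

/-- Let G be a finite group with no subgroup of index 2 whose Sylow 2-subgroup S is commutative, and let R ≤ S be a subgroup whose 2-rank is exactly one less than the 2-rank r of S. Then every involution of S is conjugate, by an element of N_G(S), to an element of R. -/
theorem result {G : Type*} [Group G] [Finite G] (hG : ∀ H : Subgroup G, H.index ≠ 2) (S : Sylow 2 G) (hS : IsMulCommutative (S : Subgroup G)) (r : ℕ) (hr1 : 1 ≤ r) (hSr : Cfsg.PRankLE 2 r (S : Subgroup G) ∧ ¬ Cfsg.PRankLE 2 (r - 1) (S : Subgroup G)) (R : Subgroup G) (hRS : R ≤ S) (hRr : Cfsg.PRankLE 2 (r - 1) R ∧ (r = 1 ∨ ¬ Cfsg.PRankLE 2 (r - 2) R)) (t : G) (ht : orderOf t = 2) (htS : t ∈ S) : ∃ n ∈ Subgroup.normalizer ((S : Subgroup G) : Set G), n * t * n⁻¹ ∈ R := by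
  classical
  by_contra hcon
  push Not at hcon
  have hfact : Fact (Nat.Prime 2) := ⟨Nat.prime_two⟩
  have hcm : ∀ a ∈ (S : Subgroup G), ∀ b ∈ (S : Subgroup G), a * b = b * a := fun a ha b hb =>
    congrArg Subtype.val (hS.1.comm ⟨a, ha⟩ ⟨b, hb⟩)
  set N := Subgroup.normalizer ((S : Subgroup G) : Set G) with hN
  let E : Subgroup G :=
    { carrier := {x | x ∈ (S : Subgroup G) ∧ x * x = 1}
      mul_mem' := by
        rintro a b ⟨ha, ha2⟩ ⟨hb, hb2⟩
        refine ⟨(S : Subgroup G).mul_mem ha hb, ?_⟩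
        calc a * b * (a * b) = a * (b * a) * b := by group
          _ = a * (a * b) * b := by rw [hcm b hb a ha]
          _ = (a * a) * (b * b) := by group
          _ = 1 := by rw [ha2, hb2, one_mul]
      one_mem' := ⟨(S : Subgroup G).one_mem, one_mul 1⟩
      inv_mem' := by
        rintro a ⟨ha, ha2⟩
        refine ⟨(S : Subgroup G).inv_mem ha, ?_⟩
        rw [← mul_inv_rev, ha2, inv_one] }
  have hES : E ≤ (S : Subgroup G) := fun x hx => hx.1
  have hEsq : ∀ x ∈ E, x * x = 1 := fun x hx => hx.2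
  have hEp : IsPGroup 2 E := S.2.to_le hES
  obtain ⟨k, hk⟩ := hEp.exists_card_eq
  -- |E| = 2 ^ r
  have hE1 : Nat.card E ≤ 2 ^ r := by
    have h1 := hSr.1 (E.subgroupOf (S : Subgroup G))
      ⟨⟨fun a b => Subtype.ext (Subtype.ext (hcm _ a.1.2 _ b.1.2))⟩⟩
      (fun a ha => Subtype.ext (by
        rw [Subgroup.mem_subgroupOf] at ha
        simpa [sq] using hEsq _ ha))
    rwa [Nat.card_congr (Subgroup.subgroupOfEquivOfLe hES).toEquiv] at h1
  have hE2 : 2 ^ (r - 1) < Nat.card E := by
    have h1 := hSr.2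
    unfold Cfsg.PRankLE at h1
    push Not at h1
    obtain ⟨A, hA1, hA2, hA3⟩ := h1
    have h2 : A.map (S : Subgroup G).subtype ≤ E := by
      rintro _ ⟨a, ha, rfl⟩
      refine ⟨a.2, ?_⟩
      have := hA2 a ha
      rw [sq] at this
      exact congrArg Subtype.val this
    have h3 := Subgroup.card_le_of_le h2
    rw [Subgroup.card_map_of_injective (S : Subgroup G).subtype_injective] at h3
    exact lt_of_lt_of_le hA3 h3
  have hkr : k = r := by
    rw [hk] at hE1 hE2
    have a1 := (Nat.pow_le_pow_iff_right (a := 2) (by norm_num)).1 hE1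
    have a2 := (Nat.pow_lt_pow_iff_right (a := 2) (by norm_num)).1 hE2
    omega
  -- R ∩ E
  let E0 : Subgroup G := R ⊓ E
  have hE0R : E0 ≤ R := inf_le_left
  have hE0E : E0 ≤ E := inf_le_right
  have hE0p : IsPGroup 2 E0 := hEp.to_le hE0E
  obtain ⟨j, hj⟩ := hE0p.exists_card_eq
  have hF1 : Nat.card E0 ≤ 2 ^ (r - 1) := by
    have h1 := hRr.1 (E0.subgroupOf R)
      ⟨⟨fun a b => Subtype.ext (Subtype.ext (hcm _ (hRS a.1.2) _ (hRS b.1.2)))⟩⟩
      (fun a ha => Subtype.ext (by
        rw [Subgroup.mem_subgroupOf] at ha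
        simpa [sq] using hEsq _ (hE0E ha)))
    rwa [Nat.card_congr (Subgroup.subgroupOfEquivOfLe hE0R).toEquiv] at h1
  have hjr : j = r - 1 := by
    rw [hj] at hF1
    have a1 := (Nat.pow_le_pow_iff_right (a := 2) (by norm_num)).1 hF1
    rcases hRr.2 with h | h
    · omega
    · unfold Cfsg.PRankLE at h
      push Not at h
      obtain ⟨A, hA1, hA2, hA3⟩ := h
      have h2 : A.map R.subtype ≤ E0 := by
        rintro _ ⟨a, ha, rfl⟩
        refine ⟨a.2, hRS a.2, ?_⟩
        have := hA2 a ha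
        rw [sq] at this
        exact congrArg Subtype.val this
      have h3 := Subgroup.card_le_of_le h2
      rw [Subgroup.card_map_of_injective R.subtype_injective, hj] at h3
      have h4 := lt_of_lt_of_le hA3 h3
      have a2 := (Nat.pow_lt_pow_iff_right (a := 2) (by norm_num)).1 h4
      omega
  let iC : CommGroup E :=
    { (inferInstance : Group E) with
      mul_comm := fun a b => Subtype.ext (hcm _ (hES a.2) _ (hES b.2)) }
  have hidx : (E0.subgroupOf E).index = 2 := by
    have h1 := (E0.subgroupOf E).card_mul_index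
    rw [Nat.card_congr (Subgroup.subgroupOfEquivOfLe hE0E).toEquiv, hj, hk, hkr, hjr] at h1
    have h2 : (2 : ℕ) ^ r = 2 ^ (r - 1) * 2 := by
      rw [← pow_succ]; congr 1; omega
    rw [h2] at h1
    exact Nat.eq_of_mul_eq_mul_left (by positivity) h1
  -- the orbit
  have htE : t ∈ E := ⟨htS, (Cfsg.Agent.Lib.InvAct.orderOf_two_iff.1 ht).1⟩
  have hNE : ∀ n ∈ N, ∀ x ∈ E, n * x * n⁻¹ ∈ E := by
    intro n hn x hx
    refine ⟨(Subgroup.mem_normalizer_iff.1 hn x).1 hx.1, ?_⟩
    calc n * x * n⁻¹ * (n * x * n⁻¹) = n * (x * x) * n⁻¹ := by group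
      _ = 1 := by rw [hEsq x hx]; group
  have : Fintype E := Fintype.ofFinite _
  let O : Finset E := Finset.univ.filter (fun a : E => ∃ n ∈ N, n * t * n⁻¹ = (a : G))
  have hOcard : O.card = Set.ncard {v : G | ∃ k ∈ N, k * t * k⁻¹ = v} := by
    rw [← Set.ncard_coe_finset, ← Set.ncard_image_of_injective _ (Subtype.val_injective (p := (· ∈ E)))]
    congr 1
    ext v
    constructor
    · rintro ⟨a, ha, rfl⟩
      simpa [O] using ha
    · rintro ⟨n, hn, rfl⟩
      refine ⟨⟨n * t * n⁻¹, hNE n hn t htE⟩, ?_, rfl⟩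
      simp only [O, Finset.coe_filter, Finset.mem_univ, true_and, Set.mem_ofPred_eq]
      exact ⟨n, hn, rfl⟩
  have hodd : ¬ Even O.card := by
    rw [hOcard, Nat.not_even_iff_odd]
    exact Cfsg.Agent.Lib.NoIndexTwo.odd_orbit S hS htS
  have hOnot : ∀ x ∈ O, x ∉ E0.subgroupOf E := by
    intro x hx h
    simp only [O, Finset.mem_filter, Finset.mem_univ, true_and] at hx
    obtain ⟨n, hn, hnx⟩ := hx
    apply hcon n hn
    rw [hnx]
    exact h.1
  have hz0 : (∏ x ∈ O, x) ∉ E0.subgroupOf E := by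
    rw [Cfsg.Agent.Lib.NoIndexTwo.prod_mem_iff hidx O hOnot]
    exact hodd
  set z : E := ∏ x ∈ O, x with hz
  have hzfix : ∀ n ∈ N, n * (z : G) * n⁻¹ = z := by
    intro n hn
    let c : E →* E :=
      { toFun := fun x => ⟨n * x * n⁻¹, hNE n hn x x.2⟩
        map_one' := Subtype.ext (by simp)
        map_mul' := fun a b => Subtype.ext (by
          change n * ((a * b : E) : G) * n⁻¹ = (n * a * n⁻¹) * (n * b * n⁻¹)
          simp only [Subgroup.coe_mul]; group) }
    have hcbij : Function.Bijective c := by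
      have hci : Function.Injective c := by
        intro a b hab
        have h1 : n * (a : G) * n⁻¹ = n * b * n⁻¹ := congrArg Subtype.val hab
        exact Subtype.ext (by simpa using h1)
      exact ⟨hci, Finite.surjective_of_injective hci⟩
    have h1 : c z = z := by
      rw [hz, map_prod]
      apply Finset.prod_bijective c hcbij
      · intro a
        simp only [O, Finset.mem_filter, Finset.mem_univ, true_and]
        constructor
        · rintro ⟨m, hm, hma⟩
          refine ⟨n * m, N.mul_mem hn hm, ?_⟩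
          change n * m * t * (n * m)⁻¹ = n * a * n⁻¹
          rw [← hma]; group
        · rintro ⟨m, hm, hma⟩
          refine ⟨n⁻¹ * m, N.mul_mem (N.inv_mem hn) hm, ?_⟩
          change m * t * m⁻¹ = n * a * n⁻¹ at hma
          calc n⁻¹ * m * t * (n⁻¹ * m)⁻¹ = n⁻¹ * (m * t * m⁻¹) * n := by group
            _ = n⁻¹ * (n * a * n⁻¹) * n := by rw [hma]
            _ = a := by group
      · intro a _; rfl
    exact congrArg Subtype.val h1
  have hz1 := Cfsg.Agent.Lib.NoIndexTwo.no_fixed hG S hS (hES z.2) hzfix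
  apply hz0
  have : z = 1 := Subtype.ext hz1
  rw [this]
  exact Subgroup.one_mem _

end Cfsg.Agent.S1244
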