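import Cfsg.Statements.S1246
import Cfsg.Agent.Lib.CharPIff
import Cfsg.Agent.Lib.ConjSylow

set_option autoImplicit false
open Cfsg

namespace Cfsg.Agent.S1246

open Subgroup Cfsg.Agent.Lib.H49Base in
theorem isPGroup_genFitting_iff {X : Type*} [Group X] [Finite X] {p : ℕ} [Fact p.Prime] :
    IsPGroup p ↥(Cfsg.generalizedFittingSubgroup X) ↔ CharP' p X := by
  constructor
  · intro h
    have hn : (Cfsg.generalizedFittingSubgroup X).Normal := by
      have := Lib.Layer.generalizedFittingSubgroup_characteristic X
      infer_instance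
    have h1 : Cfsg.generalizedFittingSubgroup X ≤ Cfsg.pCore p X := Lib.Cores.le_pCore hn h
    exact (centralizer_le (SetLike.coe_subset_coe.mpr h1)).trans
      (Lib.Layer.centralizer_genFitting_le.trans h1)
  · intro h
    rw [Lib.CharPIff.genFitting_eq_pCore_iff.mpr h]
    exact Lib.Cores.isPGroup_pCore p X

open Subgroup Cfsg.Agent.Lib.H49Base in
theorem charP_up {G : Type*} [Group G] [Finite G] {p : ℕ} [Fact p.Prime] {U : Subgroup G}
    (hU : IsPGroup p U) (n : ℕ) : ∀ V : Subgroup G, V ≤ U → Nat.card U - Nat.card V ≤ n →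
    CharP' p ↥(centralizer (V : Set G)) → CharP' p ↥(centralizer (U : Set G)) := by
  induction n with
  | zero =>
    intro V hVU hn hV
    have h1 : V = U := Subgroup.eq_of_le_of_card_ge hVU (by omega)
    rwa [h1] at hV
  | succ n ih =>
    intro V hVU hn hV
    rcases hVU.lt_or_eq with hlt | heq
    · obtain ⟨b, hb, hbV, hbN⟩ := Lib.ConjSylow.exists_mem_normalizer_of_lt hU hlt
      set W := U ⊓ normalizer (V : Set G) with hW
      have hVW : V ≤ W := le_inf hVU le_normalizer
      have hcard : Nat.card V < Nat.card W := by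
        rcases (Nat.le_of_dvd Nat.card_pos (Subgroup.card_dvd_of_le hVW)).lt_or_eq with h | h
        · exact h
        · exfalso
          apply hbV
          rw [Subgroup.eq_of_le_of_card_ge hVW h.ge]
          exact ⟨hb, hbN⟩
      have hVp : IsPGroup p V := hU.to_le hVU
      have h1 := Lib.CharPIff.charP'_normalizer_of_centralizer hVp hV
      have hCW : centralizer (W : Set G) ≤ normalizer (V : Set G) :=
        (centralizer_le (SetLike.coe_subset_coe.mpr hVW)).trans
          (Lib.Components.centralizer_le_normalizer' V)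
      have h2 := Lib.CharPIff.charP'_centralizer h1 (hU.to_le inf_le_left) inf_le_right hCW
      exact ih W inf_le_left (by omega) h2
    · rwa [heq] at hV

/-- Let V ≤ U be p-subgroups of the finite group G. If the generalized Fitting subgroup of C_G(V) is a p-group, then so is that of C_G(U). -/
theorem result {G : Type*} [Group G] [Finite G] {p : ℕ} [Fact p.Prime] (U V : Subgroup G) (hVU : V ≤ U) (hU : IsPGroup p U) (hV : IsPGroup p ↥(Cfsg.generalizedFittingSubgroup ↥(Subgroup.centralizer (V : Set G)))) : IsPGroup p ↥(Cfsg.generalizedFittingSubgroup ↥(Subgroup.centralizer (U : Set G))) := by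
  rw [isPGroup_genFitting_iff] at hV ⊢
  exact charP_up hU _ V hVU le_rfl hV

end Cfsg.Agent.S1246
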