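import Cfsg.Statements.S1247
import Cfsg.Agent.Lib.BenderMax

set_option autoImplicit false
open Cfsg

namespace Cfsg.Agent.S1247

/-- Let G be a non-abelian finite simple group, A a maximal subgroup, F = F*(A) its generalized Fitting subgroup (viewed in G), and S ≤ F a subgroup subnormal in F with C_F(S) ≤ S. Let B be any subgroup of G containing S. Then (a) for every prime q not dividing |F(A)|, O_q(B) ∩ A = 1; and (b) for every prime p dividing |F(A)|, O_p(B) commutes elementwise with the subgroup of F generated by its elements of order prime to p. -/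
theorem result {G : Type*} [Group G] [Finite G] [IsSimpleGroup G] (hna : ¬ IsMulCommutative G) (A : Subgroup G) (hA : IsCoatom A) (S : Subgroup G) (hSF : S ≤ (Cfsg.generalizedFittingSubgroup ↥A).map A.subtype) (hSsn : (S.subgroupOf ((Cfsg.generalizedFittingSubgroup ↥A).map A.subtype)).IsSubnormal) (hSC : (Cfsg.generalizedFittingSubgroup ↥A).map A.subtype ⊓ Subgroup.centralizer (S : Set G) ≤ S) (B : Subgroup G) (hSB : S ≤ B) : (∀ q : ℕ, q.Prime → ¬ q ∣ Nat.card (Cfsg.fittingSubgroup ↥A) → (Cfsg.pCore q ↥B).map B.subtype ⊓ A = ⊥) ∧ (∀ p : ℕ, p.Prime → p ∣ Nat.card (Cfsg.fittingSubgroup ↥A) → ∀ x ∈ (Cfsg.pCore p ↥B).map B.subtype, ∀ y ∈ (Cfsg.pResidual p ↥(Cfsg.generalizedFittingSubgroup ↥A)).map ((Cfsg.generalizedFittingSubgroup ↥A).subtype) , x * (A.subtype y) = (A.subtype y) * x) := by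
  classical
  have hH : Lib.BenderMax.Hyp A S := ⟨hSF, hSsn, hSC⟩
  have hmax : ∀ X : Subgroup G, X ≠ ⊥ → A ≤ Subgroup.normalizer (X : Set G) → X ≤ A →
      Subgroup.normalizer (X : Set G) ≤ A := by
    intro X hX hAX hXA
    rcases hA.le_iff.mp hAX with h | h
    · exfalso
      have hn : X.Normal := Subgroup.normalizer_eq_top_iff.mp h
      rcases hn.eq_bot_or_eq_top with h1 | h1
      · exact hX h1
      · rw [h1, top_le_iff] at hXA
        exact hA.1 hXA
    · exact h.le
  have hSA : S ≤ A := hSF.trans (Subgroup.map_subtype_le _)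
  have hnorm : ∀ q : ℕ, S ≤ Subgroup.normalizer (((Cfsg.pCore q ↥B).map B.subtype : Subgroup G) : Set G) :=
    fun q => hSB.trans (Lib.Cores.le_normalizer_map_subtype _)
  constructor
  · intro q hq hqF
    have := Fact.mk hq
    have hQp : IsPGroup q ↥((Cfsg.pCore q ↥B).map B.subtype) := (Lib.Cores.isPGroup_pCore q ↥B).map _
    exact hH.parta hq hqF (hQp.to_le inf_le_left) inf_le_right
      (Lib.LocalLayer.normalizer_inf_le_normalizer (hnorm q) (hSA.trans Subgroup.le_normalizer))
  · intro p hp hpF x hx y hy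
    have := Fact.mk hp
    have hPp : IsPGroup p ↥((Cfsg.pCore p ↥B).map B.subtype) := (Lib.Cores.isPGroup_pCore p ↥B).map _
    have h1 := hH.partb p hpF hmax hPp (hnorm p) hx
    have h2 : (Cfsg.pResidual p ↥(Cfsg.generalizedFittingSubgroup ↥A)).map
        (Cfsg.generalizedFittingSubgroup ↥A).subtype ≤
        (Lib.BenderMax.EA A ⊔ Lib.BenderMax.NA p A).comap A.subtype := by
      rw [Subgroup.map_le_iff_le_comap]
      unfold Cfsg.pResidual
      rw [Subgroup.closure_le]
      intro g hg
      apply Lib.BenderMax.mem_of_coprime A p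
      · exact ⟨(g : ↥A), g.2, rfl⟩
      · change (orderOf (A.subtype (g : ↥A))).Coprime p
        rw [orderOf_injective A.subtype A.subtype_injective, Subgroup.orderOf_coe]
        exact hg
    exact (Subgroup.mem_centralizer_iff.mp h1 _ (h2 hy)).symm

end Cfsg.Agent.S1247
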