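import Cfsg.Statements.S1248
import Cfsg.Agent.Lib.SylU3b

set_option autoImplicit false
open Cfsg

namespace Cfsg.Agent.S1248

open Cfsg.Agent.Lib Cfsg.Agent.Lib.SylU3

/-- Let F be a field with 16 elements and S a Sylow 2-subgroup of PSU(3) over F (the unitary group U₃(4)). Then |S| = 64; the centre Z(S) is a Klein four-group and coincides with the subgroup generated by the involutions of S and with the derived subgroup; and every element of S ⧸ Z(S) squares to the identity, S ⧸ Z(S) having order 16. -/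
theorem result {F : Type*} [Field F] [Fintype F] (hF : Fintype.card F = 16) (S : Sylow 2 (Cfsg.PSU 3 F 4)) : Nat.card S = 64 ∧ IsKleinFour (Subgroup.center (S : Subgroup (Cfsg.PSU 3 F 4))) ∧ Subgroup.center (S : Subgroup (Cfsg.PSU 3 F 4)) = Subgroup.closure {x : (S : Subgroup (Cfsg.PSU 3 F 4)) | orderOf x = 2} ∧ Subgroup.center (S : Subgroup (Cfsg.PSU 3 F 4)) = commutator (S : Subgroup (Cfsg.PSU 3 F 4)) ∧ Nat.card ((S : Subgroup (Cfsg.PSU 3 F 4)) ⧸ Subgroup.center (S : Subgroup (Cfsg.PSU 3 F 4))) = 16 ∧ ∀ x : (S : Subgroup (Cfsg.PSU 3 F 4)) ⧸ Subgroup.center (S : Subgroup (Cfsg.PSU 3 F 4)), x ^ 2 = 1 := by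
  classical
  have hp2 := Fact.mk Nat.prime_two
  have hF2 : Fintype.card F = 4 ^ 2 := by rw [hF]; norm_num
  have hchar : CharP F 2 := by
    obtain ⟨p, f, hp, hc, hq, hf⟩ := HermMat.exists_char hF2
    have h1 : p ∣ 4 := by rw [hq]; exact dvd_pow_self p (by omega)
    have h2 : p ∣ 2 ^ 2 := h1
    have h3 : p = 2 := (Nat.prime_dvd_prime_iff_eq hp Nat.prime_two).mp (hp.dvd_of_dvd_pow h2)
    rw [← h3]; exact hc
  obtain ⟨e⟩ := sylow_equiv hF2 S
  have hcard : Nat.card S = 64 := by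
    rw [← Nat.card_congr e.toEquiv, card_U3]; norm_num
  have hcen := map_center_equiv e
  have hcc : Nat.card (Subgroup.center (S : Subgroup (Cfsg.PSU 3 F 4))) = 4 := by
    rw [← hcen, Subgroup.card_map_of_injective e.injective, card_center_U3]
  have hsqc : ∀ x ∈ Subgroup.center (S : Subgroup (Cfsg.PSU 3 F 4)), x * x = 1 := by
    intro x hx
    rw [← hcen] at hx
    obtain ⟨y, hy, rfl⟩ := hx
    rw [SetLike.mem_coe, center_U3] at hy
    rw [← map_mul, sq_of_mem_ker hF2 hy, map_one]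
  have hq16 : Nat.card ((S : Subgroup (Cfsg.PSU 3 F 4)) ⧸ Subgroup.center (S : Subgroup (Cfsg.PSU 3 F 4))) = 16 := by
    have h1 := Subgroup.card_eq_card_quotient_mul_card_subgroup (Subgroup.center (S : Subgroup (Cfsg.PSU 3 F 4)))
    rw [hcc] at h1
    have h2 : Nat.card (S : Subgroup (Cfsg.PSU 3 F 4)) = 64 := hcard
    omega
  refine ⟨hcard, ⟨hcc, ?_⟩, ?_, ?_, hq16, ?_⟩
  · have h1 : Monoid.exponent (Subgroup.center (S : Subgroup (Cfsg.PSU 3 F 4))) ∣ 2 :=
      Monoid.exponent_dvd_of_forall_pow_eq_one (fun x => by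
        rw [pow_two]; exact Subtype.ext (hsqc x x.2))
    rcases (Nat.dvd_prime Nat.prime_two).mp h1 with h2 | h2
    · exfalso
      have h3 : ∀ x : Subgroup.center (S : Subgroup (Cfsg.PSU 3 F 4)), x = 1 := by
        intro x
        have := Monoid.pow_exponent_eq_one x
        rwa [h2, pow_one] at this
      have h4 : Subsingleton (Subgroup.center (S : Subgroup (Cfsg.PSU 3 F 4))) := ⟨fun a b => by rw [h3 a, h3 b]⟩
      have h5 := Nat.card_of_subsingleton (1 : Subgroup.center (S : Subgroup (Cfsg.PSU 3 F 4)))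
      omega
    · exact h2
  · rw [← hcen, ← closure_U3, map_closure_order_two]
  · rw [← hcen, ← commutator_U3, map_commutator_equiv]
  · intro x
    obtain ⟨y, rfl⟩ := QuotientGroup.mk_surjective x
    rw [pow_two, ← QuotientGroup.mk_mul, QuotientGroup.eq_one_iff, ← hcen]
    obtain ⟨z, rfl⟩ := e.surjective y
    exact ⟨z * z, sq_mem_center hF2 z, map_mul e z z⟩

end Cfsg.Agent.S1248
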