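import Cfsg.Statements.S1253
import Cfsg.Agent.Lib.ZStarU
import Cfsg.Agent.Lib.SylowTools
import Cfsg.Agent.Lib.InvAct
import Cfsg.Agent.Lib.Isolated
import Cfsg.Agent.Lib.CoprimeAction
import Cfsg.Agent.Lib.PComponents

set_option autoImplicit false
open Cfsg

namespace Cfsg.Agent.S1253

open Cfsg.Agent.Lib Cfsg.Agent.Lib.SylowTools

/-- conjugates of an isolated involution inside `K` are `K`-conjugate -/
theorem isolated_conj {G : Type*} [Group G] [Finite G] {z : G} (hz : Cfsg.IsIsolatedInvolution z)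
    {K : Subgroup G} (hzK : z ∈ K) {g : G} (hg : g * z * g⁻¹ ∈ K) :
    ∃ k ∈ K, (k * g) * z * (k * g)⁻¹ = z := by
  have hp2 := Fact.mk Nat.prime_two
  have hzp : IsPGroup 2 (Subgroup.zpowers z) := by
    apply IsPGroup.of_card (n := 1); rw [Nat.card_zpowers, hz.1, pow_one]
  obtain ⟨T, hzT, hTK, hT, hTi⟩ := exists_sylow_of_subgroup (p := 2) (Subgroup.zpowers_le.mpr hzK) hzp
  obtain ⟨k, hk, hkz⟩ := conj_elem_into_of_subgroup (p := 2) hTK hT hTi hg
    ⟨1, by rw [orderOf_conj', hz.1, pow_one]⟩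
  have hzT' : z ∈ T := hzT (Subgroup.mem_zpowers z)
  have hcomm := Isolated.commute_of_mem_pgroup (p := 2) hz.2 hT hzT' hkz
  have h1 : k * (g * z * g⁻¹) * k⁻¹ = (k * g) * z * (k * g)⁻¹ := by group
  rw [h1] at hcomm
  exact ⟨k, hk, hz.2 _ hcomm⟩

theorem card_inverted {G : Type*} [Group G] [Finite G] {z : G} (hz2 : orderOf z = 2) (P : Subgroup G)
    (hodd : Odd (Nat.card P)) (hzP : z ∈ Subgroup.normalizer (P : Set G)) :
    (P ⊓ Subgroup.centralizer ({z} : Set G)).relIndex P = Nat.card {x : G // x ∈ P ∧ z * x * z⁻¹ = x⁻¹} := by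
  have hzz : z * z = 1 := by have := pow_orderOf_eq_one z; rwa [hz2, pow_two] at this
  have hzi : z⁻¹ = z := inv_eq_of_mul_eq_one_left hzz
  have h1 := InvAct.card_conj_orbit P z
  have h2 : Nat.card ↥(P ⊓ Subgroup.centralizer ({z} : Set G)) *
      (P ⊓ Subgroup.centralizer ({z} : Set G)).relIndex P = Nat.card P :=
    Cores.card_mul_relIndex inf_le_left
  have h3 : (P ⊓ Subgroup.centralizer ({z} : Set G)).relIndex P =
      Set.ncard {v : G | ∃ k ∈ P, k * z * k⁻¹ = v} := by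
    apply Nat.eq_of_mul_eq_mul_left (Nat.card_pos (α := ↥(P ⊓ Subgroup.centralizer ({z} : Set G))))
    rw [h2, h1, mul_comm]
  rw [h3, ← Nat.card_coe_set_eq]
  have hmem : ∀ v : {v : G | ∃ k ∈ P, k * z * k⁻¹ = v}, (v : G) * z ∈ P ∧ z * ((v : G) * z) * z⁻¹ = ((v : G) * z)⁻¹ := by
    rintro ⟨v, k, hk, rfl⟩
    constructor
    · change k * z * k⁻¹ * z ∈ P
      have h4 : k * z * k⁻¹ * z = k * (z * k⁻¹ * z⁻¹) := by rw [hzi]; group
      rw [h4]
      exact mul_mem hk ((Subgroup.mem_normalizer_iff.mp hzP k⁻¹).mp (inv_mem hk))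
    · change z * (k * z * k⁻¹ * z) * z⁻¹ = (k * z * k⁻¹ * z)⁻¹
      have h5 : (k * z * k⁻¹ * z)⁻¹ = z * k * z * k⁻¹ := by
        rw [mul_inv_rev, mul_inv_rev, mul_inv_rev, inv_inv, hzi]; group
      rw [h5]; group
  refine Nat.card_congr (Equiv.ofBijective (fun v => ⟨(v : G) * z, hmem v⟩) ⟨?_, ?_⟩)
  · intro v w hvw
    have := congrArg Subtype.val hvw
    exact Subtype.ext (mul_right_cancel this)
  · rintro ⟨w, hwP, hw⟩
    -- square root
    have hwo : Odd (orderOf w) := by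
      have h5 : orderOf w ∣ Nat.card P := Subgroup.orderOf_dvd_natCard P hwP
      exact hodd.of_dvd_nat h5
    obtain ⟨m, hm⟩ := hwo
    set v := w ^ (m + 1) with hv
    have hvv : v * v = w := by
      rw [hv, ← pow_add, show m + 1 + (m + 1) = (2 * m + 1) + 1 by ring, pow_succ, ← hm, pow_orderOf_eq_one,
        one_mul]
    have hvz : z * v * z⁻¹ = v⁻¹ := by
      rw [hv, ← conj_pow, hw, inv_pow]
    refine ⟨⟨v * z * v⁻¹, v, pow_mem hwP _, rfl⟩, Subtype.ext ?_⟩
    change v * z * v⁻¹ * z = w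
    have h6 : z * v⁻¹ * z = v := by
      have h7 : z * v⁻¹ * z⁻¹ = v := by
        rw [← inv_inj, mul_inv_rev, mul_inv_rev, inv_inv, inv_inv, ← mul_assoc, hvz]
      rwa [hzi] at h7
    calc v * z * v⁻¹ * z = v * (z * v⁻¹ * z) := by group
      _ = w := by rw [h6, hvv]

/-- Let z be an isolated involution of the finite group G with centralizer C, p an odd prime and P a Sylow p-subgroup of G normalized by z. Then P ∩ C has p-power-free index in C (it is a Sylow p-subgroup of C), and |P : C_P(z)| equals the number of elements x ∈ P with z x z⁻¹ = x⁻¹. -/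
theorem result {G : Type*} [Group G] [Finite G] (z : G) (hz : Cfsg.IsIsolatedInvolution z) {p : ℕ} [Fact p.Prime] (hp : p ≠ 2) (P : Sylow p G) (hzP : z ∈ Subgroup.normalizer ((P : Subgroup G) : Set G)) : ¬ p ∣ ((P : Subgroup G) ⊓ Subgroup.centralizer ({z} : Set G)).relIndex (Subgroup.centralizer ({z} : Set G)) ∧ ((P : Subgroup G) ⊓ Subgroup.centralizer ({z} : Set G)).relIndex (P : Subgroup G) = Nat.card {x : G // x ∈ P ∧ z * x * z⁻¹ = x⁻¹} := by
  have hp2 := Fact.mk Nat.prime_two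
  have hpp : p.Prime := Fact.out
  have hPodd : Odd (Nat.card (P : Subgroup G)) := by
    obtain ⟨n, hn⟩ := IsPGroup.iff_card.mp P.isPGroup'
    rw [hn]
    exact (hpp.odd_of_ne_two hp).pow
  refine ⟨?_, card_inverted hz.1 (P : Subgroup G) hPodd hzP⟩
  set C := Subgroup.centralizer ({z} : Set G) with hC
  have hZ := ZStarU.inZStar_of_isolated hz
  set N := pPrimeCore 2 G with hN
  have hNn : N.Normal := inferInstance
  have hNodd : (Nat.card N).Coprime 2 := Cores.coprime_card_pPrimeCore 2 G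
  have hzN : Subgroup.zpowers z ≤ Subgroup.normalizer (N : Set G) := by
    rw [Subgroup.normalizer_eq_top_iff.mpr hNn]; exact le_top
  have hcz : Nat.card (Subgroup.zpowers z) = 2 := by rw [Nat.card_zpowers, hz.1]
  -- `G = N C`
  have hNC : ∀ g : G, ∃ n ∈ N, ∃ c ∈ C, g = c * n := by
    intro g
    have hzK : z ∈ Subgroup.zpowers z ⊔ N := Subgroup.mem_sup_left (Subgroup.mem_zpowers z)
    have hgK : g * z * g⁻¹ ∈ Subgroup.zpowers z ⊔ N := by
      have h1 : g * z * g⁻¹ = (g * z * g⁻¹ * z⁻¹) * z := by group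
      rw [h1]; exact mul_mem (Subgroup.mem_sup_right (hZ g)) hzK
    obtain ⟨k, hk, hkz⟩ := isolated_conj hz hzK hgK
    obtain ⟨s, hs, n, hn, rfl⟩ := mem_sup_normal_iff.mp hk
    have hsC : s ∈ C := by
      obtain ⟨i, rfl⟩ := hs
      rw [hC, Subgroup.mem_centralizer_singleton_iff]
      exact ((Commute.refl z).zpow_left i).eq
    have hkgC : (s * n) * g ∈ C := by
      rw [hC, Subgroup.mem_centralizer_singleton_iff]
      have : (s * n * g) * z * (s * n * g)⁻¹ = z := hkz
      rw [mul_inv_eq_iff_eq_mul] at this; exact this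
    have hngC : n * g ∈ C := by
      have : n * g = s⁻¹ * ((s * n) * g) := by group
      rw [this]; exact mul_mem (inv_mem hsC) hkgC
    refine ⟨(n * g)⁻¹ * n⁻¹ * (n * g), ?_, n * g, hngC, by group⟩
    have := hNn.conj_mem n⁻¹ (inv_mem hn) (n * g)⁻¹
    rwa [inv_inv] at this
  -- a Sylow p-subgroup `R` of `C` containing `P ∩ C`
  have hPCp : IsPGroup p ↥((P : Subgroup G) ⊓ C) := P.isPGroup'.to_le inf_le_left
  obtain ⟨R, hPR, hRC, hR, hRi⟩ := exists_sylow_of_subgroup (p := p) (inf_le_right : (P : Subgroup G) ⊓ C ≤ C) hPCp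
  -- the group `R N`
  set K := R ⊔ N with hK
  have hzR : ∀ r ∈ R, z * r * z⁻¹ = r := by
    intro r hr
    have h1 := Subgroup.mem_centralizer_singleton_iff.mp (hRC hr)
    rw [← h1]; group
  have hAK : Subgroup.zpowers z ≤ Subgroup.normalizer (K : Set G) := by
    rw [Subgroup.zpowers_le]
    apply mem_normalizer_of_forall
    intro y hy
    obtain ⟨r, hr, n, hn, rfl⟩ := mem_sup_normal_iff.mp hy
    have h1 : z * (r * n) * z⁻¹ = (z * r * z⁻¹) * (z * n * z⁻¹) := by group
    rw [h1, hzR r hr]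
    exact mul_mem (Subgroup.mem_sup_left hr) (Subgroup.mem_sup_right (hNn.conj_mem n hn z))
  have hAR : Subgroup.zpowers z ≤ Subgroup.normalizer (R : Set G) := by
    rw [Subgroup.zpowers_le]
    apply mem_normalizer_of_forall
    intro y hy
    rw [hzR y hy]; exact hy
  have hRodd : (Nat.card R).Coprime 2 := by
    obtain ⟨n, hn⟩ := IsPGroup.iff_card.mp hR
    rw [hn]
    exact Nat.Coprime.pow_left n ((Nat.coprime_primes hpp Nat.prime_two).mpr hp)
  have hcopK : (Nat.card (Subgroup.zpowers z)).Coprime (Nat.card K) := by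
    rw [hcz]
    exact (Nat.Coprime.coprime_dvd_left (Cores.card_sup_dvd R N) (Nat.Coprime.mul_left hRodd hNodd)).symm
  have hsolv : Group.IsSolvable (Subgroup.zpowers z) := inferInstance
  obtain ⟨Q, hRQ, hQK, hQ, hQi, hQz⟩ := CoprimeAction.exists_invariant_sylow_ge hAK hcopK (Or.inl hsolv)
    (p := p) (U := R) (le_sup_left) hR hAR
  -- `Q` is a Sylow p-subgroup of `G`
  have hKi : ¬ p ∣ K.index := by
    -- `C` maps onto `G / N`
    intro hd
    apply hRi
    have h1 : C ⊔ N = ⊤ := by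
      rw [eq_top_iff]
      intro g _
      obtain ⟨n, hn, c, hc, rfl⟩ := hNC g
      exact mul_mem (Subgroup.mem_sup_left hc) (Subgroup.mem_sup_right hn)
    -- `|G : R N|` divides `|C : R|`
    let π := QuotientGroup.mk' N
    have hπ : Function.Surjective π := QuotientGroup.mk'_surjective N
    have h2 : K.index ∣ R.relIndex C := by
      have h3 : K = (R.map π).comap π := by
        rw [Subgroup.comap_map_eq, QuotientGroup.ker_mk']
      have h4 : C.map π = ⊤ := by
        have h5 : (C ⊔ N).map π = ⊤ := by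
          rw [h1]; exact Subgroup.map_top_of_surjective π hπ
        rw [Subgroup.map_sup] at h5
        have h6 : N.map π = ⊥ := by
          rw [eq_bot_iff]
          rintro _ ⟨n, hn, rfl⟩
          exact (QuotientGroup.eq_one_iff n).mpr hn
        rwa [h6, sup_bot_eq] at h5
      rw [h3, Subgroup.index_comap_of_surjective _ hπ, ← Subgroup.relIndex_top_right, ← h4]
      exact PComponents.relIndex_map_dvd π hRC
    exact hd.trans h2
  have hQG : ¬ p ∣ Q.index := by
    rw [← Subgroup.relIndex_mul_index hQK]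
    intro hd
    rcases hpp.dvd_mul.mp hd with h1 | h1
    · exact hQi h1
    · exact hKi h1
  let QS : Sylow p G := hQ.toSylow hQG
  have hQS : (QS : Subgroup G) = Q := rfl
  -- `P` and `Q` are conjugate by an element of `C`
  obtain ⟨g, hg⟩ := sylow_conj P QS
  have hgz : g⁻¹ * z * g ∈ Subgroup.normalizer ((P : Subgroup G) : Set G) := by
    rw [Subgroup.mem_normalizer_iff]
    intro y
    have h1 : y ∈ (P : Subgroup G) ↔ g * y * g⁻¹ ∈ Q := by
      have := hg (g * y * g⁻¹)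
      rw [hQS] at this
      rw [this]
      have h2 : g⁻¹ * (g * y * g⁻¹) * g = y := by group
      rw [h2]
    have h3 : (g⁻¹ * z * g * y * (g⁻¹ * z * g)⁻¹ ∈ (P : Subgroup G)) ↔ z * (g * y * g⁻¹) * z⁻¹ ∈ Q := by
      have := hg (z * (g * y * g⁻¹) * z⁻¹)
      rw [hQS] at this
      rw [this]
      have h2 : g⁻¹ * (z * (g * y * g⁻¹) * z⁻¹) * g = g⁻¹ * z * g * y * (g⁻¹ * z * g)⁻¹ := by group
      rw [h2]
    rw [h1, h3]
    exact Subgroup.mem_normalizer_iff.mp (hQz (Subgroup.mem_zpowers z)) _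
  obtain ⟨k, hk, hkz⟩ := isolated_conj hz hzP (g := g⁻¹) (by rw [inv_inv]; exact hgz)
  -- `k g⁻¹ ∈ C`
  have hkC : k * g⁻¹ ∈ C := by
    rw [hC, Subgroup.mem_centralizer_singleton_iff]
    rw [mul_inv_eq_iff_eq_mul] at hkz; exact hkz
  -- conjugation by `k g⁻¹` maps `R` into `P ∩ C`
  have hmap : ∀ r ∈ R, (k * g⁻¹) * r * (k * g⁻¹)⁻¹ ∈ (P : Subgroup G) ⊓ C := by
    intro r hr
    refine Subgroup.mem_inf.mpr ⟨?_, mul_mem (mul_mem hkC (hRC hr)) (inv_mem hkC)⟩
    have h1 : g⁻¹ * r * g ∈ (P : Subgroup G) := (hg r).mp (by rw [hQS]; exact hRQ hr)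
    have h2 : (k * g⁻¹) * r * (k * g⁻¹)⁻¹ = k * (g⁻¹ * r * g) * k⁻¹ := by group
    rw [h2]
    exact (Subgroup.mem_normalizer_iff.mp hk _).mp h1
  have hle : R.map (MulAut.conj (k * g⁻¹)).toMonoidHom ≤ (P : Subgroup G) ⊓ C := by
    rintro _ ⟨r, hr, rfl⟩
    exact hmap r hr
  have hcard : Nat.card R ≤ Nat.card ↥((P : Subgroup G) ⊓ C) := by
    have h1 : Nat.card (R.map (MulAut.conj (k * g⁻¹)).toMonoidHom) = Nat.card R :=
      Subgroup.card_map_of_injective (MulAut.conj (k * g⁻¹)).injective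
    rw [← h1]
    exact Nat.card_le_card_of_injective _ (Subgroup.inclusion_injective hle)
  have heq : (P : Subgroup G) ⊓ C = R := Subgroup.eq_of_le_of_card_ge hPR hcard
  rw [heq]
  exact hRi

end Cfsg.Agent.S1253
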