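import Cfsg.Statements.S1254
import Cfsg.Agent.Lib.DihSylow
import Cfsg.Agent.Lib.LocalLayer3

set_option autoImplicit false
open Cfsg

namespace Cfsg.Agent.S1254

/-- Let X be a finite group whose Sylow 2-subgroup S is dihedral (of order at least 4). Then X has a normal 2-complement if and only if, for every Klein four-subgroup U ≤ S, the normalizer N_X(U) is generated by C_X(U) and N_S(U). -/
theorem result {X : Type*} [Group X] [Finite X] (S : Sylow 2 X) (m : ℕ) (hm : 2 ≤ m) (eS : (S : Subgroup X) ≃* DihedralGroup m) : Cfsg.HasNormalPComplement 2 X ↔ ∀ U : Subgroup X, U ≤ S → IsKleinFour U → Subgroup.normalizer (U : Set X) = Subgroup.centralizer (U : Set X) ⊔ ((S : Subgroup X) ⊓ Subgroup.normalizer (U : Set X)) := by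
  classical
  obtain ⟨x, y, q, n, hD, -⟩ := Lib.DihSylow.exists_dh (p := 2) S.isPGroup' hm eS
  constructor
  · intro hX U hUS hU
    apply le_antisymm
    · intro g hg
      obtain ⟨z, hz, hzu⟩ := Lib.Transfer.ownFusion_of_hasNormalPComplement S hX g
      have h1 : z⁻¹ * g ∈ Subgroup.centralizer (U : Set X) := by
        rw [Subgroup.mem_centralizer_iff]
        intro u hu
        have h2 : g * u * g⁻¹ ∈ S := hUS ((Subgroup.mem_normalizer_iff.mp hg u).mp hu)
        have h3 := hzu u (hUS hu) h2
        have h4 : g * u = z * u * z⁻¹ * g := by rw [h3]; group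
        calc u * (z⁻¹ * g) = z⁻¹ * (z * u * z⁻¹ * g) := by group
          _ = z⁻¹ * (g * u) := by rw [h4]
          _ = z⁻¹ * g * u := by group
      have h2 : z⁻¹ * g ∈ Subgroup.normalizer (U : Set X) :=
        (Lib.Components.centralizer_le_normalizer' U) h1
      have h3 : z ∈ Subgroup.normalizer (U : Set X) := by
        have : z = g * (z⁻¹ * g)⁻¹ := by group
        rw [this]; exact mul_mem hg (inv_mem h2)
      have h4 : g = z * (z⁻¹ * g) := by group
      rw [h4]
      exact mul_mem (Subgroup.mem_sup_right (Subgroup.mem_inf.mpr ⟨hz, h3⟩)) (Subgroup.mem_sup_left h1)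
    · exact sup_le (Lib.Components.centralizer_le_normalizer' U) inf_le_right
  · intro hU
    rw [Lib.Transfer.hasNormalPComplement_iff_le_sylow S]
    intro Q hQS g hg hgo
    by_cases hQ : IsKleinFour Q
    · have h1 := hU Q hQS hQ
      have hg' := hg
      have hle : (S : Subgroup X) ⊓ Subgroup.normalizer (Q : Set X) ≤
          Subgroup.normalizer (Subgroup.centralizer (Q : Set X) : Set X) :=
        inf_le_right.trans (Lib.LocalLayer.normalizer_le_normalizer_centralizer Q)
      rw [h1, sup_comm, Lib.Components.mem_sup_of_le_normalizer hle] at hg'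
      obtain ⟨s, hs, c, hc, hsc⟩ := hg'
      set φ := Q.normalizerMonoidHom with hφ
      have hcN : c ∈ Subgroup.normalizer (Q : Set X) :=
        (Lib.Components.centralizer_le_normalizer' Q) hc
      have hcφ : φ ⟨c, hcN⟩ = 1 := by
        have : (⟨c, hcN⟩ : Subgroup.normalizer (Q : Set X)) ∈ φ.ker := by
          rw [hφ, Subgroup.normalizerMonoidHom_ker]
          exact Subgroup.mem_subgroupOf.mpr hc
        exact this
      have hgφ : φ ⟨g, hg⟩ = φ ⟨s, hs.2⟩ := by
        have : (⟨g, hg⟩ : Subgroup.normalizer (Q : Set X)) = ⟨s, hs.2⟩ * ⟨c, hcN⟩ :=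
          Subtype.ext hsc.symm
        rw [this, map_mul, hcφ, mul_one]
      obtain ⟨k, hk⟩ := S.isPGroup' ⟨s, hs.1⟩
      have hk' : s ^ 2 ^ k = 1 := congrArg Subtype.val hk
      have h2 : (φ ⟨g, hg⟩) ^ 2 ^ k = 1 := by
        rw [hgφ, ← map_pow]
        have : (⟨s, hs.2⟩ : Subgroup.normalizer (Q : Set X)) ^ 2 ^ k = 1 := Subtype.ext hk'
        rw [this, map_one]
      have h3 : orderOf (φ ⟨g, hg⟩) = 1 := by
        have h4 : orderOf (φ ⟨g, hg⟩) ∣ orderOf g := by
          have := orderOf_map_dvd φ (⟨g, hg⟩ : Subgroup.normalizer (Q : Set X))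
          rwa [Subgroup.orderOf_mk] at this
        exact Nat.Coprime.eq_one_of_dvd
          (Nat.Coprime.pow_right k (Nat.Coprime.coprime_dvd_left h4 hgo))
          (orderOf_dvd_of_pow_eq_one h2)
      rw [orderOf_eq_one_iff] at h3
      have h5 : (⟨g, hg⟩ : Subgroup.normalizer (Q : Set X)) ∈ φ.ker := h3
      rw [hφ, Subgroup.normalizerMonoidHom_ker] at h5
      exact Subgroup.mem_subgroupOf.mp h5
    · exact hD.odd_centralizes hQS hQ hg hgo

end Cfsg.Agent.S1254
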