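import Cfsg.Statements.S1255
import Cfsg.Agent.Lib.DihSylow2

set_option autoImplicit false
open Cfsg

namespace Cfsg.Agent.S1255

/-- Let X be a finite group whose Sylow 2-subgroup S is dihedral of order 2m ≥ 4. Then X has no subgroup of index 2 and no isolated involution if and only if either all involutions of X are conjugate, or for every Klein four-subgroup U ≤ S the index |N_X(U) : C_X(U)| equals 3 when |S| = 4 and equals 6 when |S| > 4. -/
theorem result {X : Type*} [Group X] [Finite X] (S : Sylow 2 X) (m : ℕ) (hm : 2 ≤ m) (eS : (S : Subgroup X) ≃* DihedralGroup m) : ((∀ H : Subgroup X, H.index ≠ 2) ∧ (∀ z : X, ¬ Cfsg.IsIsolatedInvolution z)) ↔ ((∀ a b : X, orderOf a = 2 → orderOf b = 2 → IsConj a b) ∨ (∀ U : Subgroup X, U ≤ S → IsKleinFour U → (Subgroup.centralizer (U : Set X)).relIndex (Subgroup.normalizer (U : Set X)) = (if Nat.card S = 4 then 3 else 6))) := by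
  classical
  obtain ⟨x, y, q, n, hD, -⟩ := Lib.DihSylow.exists_dh (p := 2) S.isPGroup' hm eS
  constructor
  · rintro ⟨hidx, -⟩
    left
    intro a b ha hb
    exact (hD.conj_z_of_no_index_two hidx ha).trans (hD.conj_z_of_no_index_two hidx hb).symm
  · intro h
    have hall : ∀ a b : X, orderOf a = 2 → orderOf b = 2 → IsConj a b := by
      rcases h with h | h
      · exact h
      · have key : ∀ a : X, orderOf a = 2 → IsConj a (x ^ (q : ℤ)) := by
          intro a ha
          obtain ⟨g, hg⟩ := Lib.DihSylow.exists_conj_mem S (a := a)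
            ⟨1, by rw [pow_one, ← ha]; exact pow_orderOf_eq_one a⟩
          have h1 : IsConj a (g * a * g⁻¹) := isConj_iff.mpr ⟨g, rfl⟩
          refine h1.trans ?_
          have haa : a * a = 1 := by rw [← pow_two, ← ha]; exact pow_orderOf_eq_one a
          have hb1 : (g * a * g⁻¹) * (g * a * g⁻¹) = 1 := by
            calc (g * a * g⁻¹) * (g * a * g⁻¹) = g * (a * a) * g⁻¹ := by group
              _ = 1 := by rw [haa]; group
          have hb2 : g * a * g⁻¹ ≠ 1 := by
            intro h2
            have h3 : g * a = g := by rw [mul_inv_eq_one] at h2; exact h2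
            rw [mul_eq_left.mp h3, orderOf_one] at ha
            omega
          rcases hD.involution hg hb1 hb2 with h2 | ⟨i, hi⟩
          · rw [h2]
          · obtain ⟨U, hU, hU4, hUS⟩ := hD.exists_four i
            have h3 := h U hUS hU4
            have h4 : 3 ∣ (Subgroup.centralizer (U : Set X)).relIndex (Subgroup.normalizer (U : Set X)) := by
              rw [h3]; split_ifs <;> norm_num
            apply Lib.DihSylow.four_conj_of_three_dvd hU4 h4 _ _ hb2 hD.z_ne
            · rw [hU, hi]; right; right; left; rfl
            · rw [hU]; right; left; rfl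
        intro a b ha hb
        exact (key a ha).trans (key b hb).symm
    exact ⟨hD.no_index_two_of_conj hall, hD.not_isolated_of_conj hall⟩

end Cfsg.Agent.S1255
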