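import Cfsg.Statements.S1256
import Cfsg.Agent.Lib.DihSylow2

set_option autoImplicit false
open Cfsg

namespace Cfsg.Agent.S1256

open Subgroup Cfsg.Agent.Lib.DihSylow

/-- The centralizer of the central involution has a normal 2-complement. -/
theorem complement_centralizer {X : Type*} [Group X] [Finite X] {S : Sylow 2 X} {x y : X} {q n : ℕ}
    (h : DH (S : Subgroup X) x y q n) :
    Cfsg.HasNormalPComplement 2 ↥(centralizer ({x ^ (q : ℤ)} : Set X)) := by
  classical
  set z := x ^ (q : ℤ) with hz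
  set C := centralizer ({z} : Set X) with hC
  have hSC : (S : Subgroup X) ≤ C := by
    intro s hs
    rw [hC, mem_centralizer_singleton_iff]
    exact (h.z_comm hs).symm
  set P := S.subtype hSC with hP
  rw [Lib.Transfer.hasNormalPComplement_iff_le_sylow P]
  intro Q hQP g hg hgo
  set Q' := Q.map C.subtype with hQ'
  have hQ'S : Q' ≤ S := by
    rintro _ ⟨u, hu, rfl⟩
    exact hQP hu
  have hgN : (g : X) ∈ normalizer (Q' : Set X) := by
    have := (le_normalizer_map C.subtype) ⟨g, hg, rfl⟩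
    exact this
  have hgo' : (orderOf (g : X)).Coprime 2 := by rwa [Subgroup.orderOf_coe]
  have key : (g : X) ∈ centralizer (Q' : Set X) := by
    by_cases h4 : IsKleinFour Q'
    · obtain ⟨hzQ, i, hi⟩ := h.four_structure h4 hQ'S
      have hiz : x ^ i * y ≠ z := fun he => h.not_mem_zpowers i (by rw [he]; exact zpow_mem (mem_zpowers x) _)
      have hi1 : x ^ i * y ≠ 1 := fun he => h.not_mem_zpowers i (by rw [he]; exact one_mem _)
      set v := x ^ i * y with hv
      have hmem := four_mem h4 hzQ hi h.z_ne hi1 hiz.symm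
      have hgz : (g : X) * z = z * g := mem_centralizer_singleton_iff.mp g.2
      have hgzg : (g : X) * z * (g : X)⁻¹ = z := by rw [hgz]; group
      have hvQ : (g : X) * v * (g : X)⁻¹ ∈ Q' := (mem_normalizer_iff.mp hgN v).mp hi
      have hgv : (g : X) * v * (g : X)⁻¹ = v := by
        rcases (hmem _).mp hvQ with h5 | h5 | h5 | h5
        · exfalso; apply hi1
          have : (g : X) * v = g := by rw [mul_inv_eq_one] at h5; exact h5
          exact mul_eq_left.mp this
        · exfalso; apply hiz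
          have : (g : X) * v * (g : X)⁻¹ = g * z * (g : X)⁻¹ := by rw [h5, hgzg]
          exact mul_left_cancel (mul_right_cancel this)
        · exact h5
        · exfalso
          -- powers of `g` map `v` to `z^k v`
          have hzv : z * v = v * z := h.z_comm (h.xy_mem i)
          have hpow : ∀ k : ℕ, (g : X) ^ k * v * ((g : X) ^ k)⁻¹ = z ^ k * v := by
            intro k
            induction k with
            | zero => group
            | succ k ih =>
              have hck : (g : X) * z ^ k = z ^ k * g := by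
                have : Commute (g : X) z := hgz
                exact (this.pow_right k).eq
              calc (g : X) ^ (k + 1) * v * ((g : X) ^ (k + 1))⁻¹
                  = g * ((g : X) ^ k * v * ((g : X) ^ k)⁻¹) * (g : X)⁻¹ := by
                    rw [pow_succ' (g : X) k]; group
                _ = g * (z ^ k * v) * (g : X)⁻¹ := by rw [ih]
                _ = (g * z ^ k) * v * (g : X)⁻¹ := by group
                _ = z ^ k * (g * v * (g : X)⁻¹) := by rw [hck]; group
                _ = z ^ k * (z * v) := by rw [h5]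
                _ = z ^ (k + 1) * v := by rw [pow_succ]; group
          have h6 := hpow (orderOf (g : X))
          rw [pow_orderOf_eq_one] at h6
          have h7 : z ^ orderOf (g : X) = 1 := by
            have : v = z ^ orderOf (g : X) * v := by
              rw [← h6]; group
            exact (mul_eq_right.mp this.symm)
          have h8 : orderOf z ∣ 2 := orderOf_dvd_of_pow_eq_one (by rw [pow_two]; exact h.z_sq)
          have h9 : orderOf z = 1 :=
            Nat.Coprime.eq_one_of_dvd (Nat.Coprime.coprime_dvd_left h8 hgo'.symm)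
              (orderOf_dvd_of_pow_eq_one h7)
          exact h.z_ne (orderOf_eq_one_iff.mp h9)
      rw [mem_centralizer_iff]
      intro w hw
      have key : (g : X) * w * (g : X)⁻¹ = w := by
        rcases (hmem w).mp hw with rfl | rfl | rfl | rfl
        · group
        · exact hgzg
        · exact hgv
        · have : (g : X) * (z * v) * (g : X)⁻¹ = (g * z * (g : X)⁻¹) * (g * v * (g : X)⁻¹) := by group
          rw [this, hgzg, hgv]
      calc w * (g : X) = (g * w * (g : X)⁻¹) * g := by rw [key]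
        _ = g * w := by group
    · exact h.odd_centralizes hQ'S h4 hgN hgo'
  rw [mem_centralizer_iff]
  intro u hu
  exact Subtype.ext (mem_centralizer_iff.mp key u ⟨u, hu, rfl⟩)

/-- the two four-groups are not conjugate -/
theorem not_conj {X : Type*} [Group X] [Finite X] {S : Sylow 2 X} {x y : X} {q n : ℕ}
    (h : DH (S : Subgroup X) x y q n) (hn : 1 ≤ n) {U₁ U₂ : Subgroup X} (h1 : IsKleinFour U₁)
    (h2 : IsKleinFour U₂) (hz1 : x ^ (q : ℤ) ∈ U₁) (hz2 : x ^ (q : ℤ) ∈ U₂) (hy1 : y ∈ U₁)
    (hy2 : x * y ∈ U₂) (g : X) (hg : ∀ u, u ∈ U₁ ↔ g * u * g⁻¹ ∈ U₂) : False := by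
  classical
  obtain ⟨q', hq'⟩ : ∃ q' : ℤ, (q : ℤ) = 2 * q' := by
    obtain ⟨k, rfl⟩ := Nat.exists_eq_add_of_le hn
    refine ⟨2 ^ k, ?_⟩
    rw [h.hq]; push_cast; ring
  set z := x ^ (q : ℤ) with hz
  have hxy0 : x ^ (1 : ℤ) * y = x * y := by rw [zpow_one]
  have hyz : y ≠ z := fun he => h.hyx (by rw [he]; exact zpow_mem (mem_zpowers x) _)
  have hxyz : x * y ≠ z := fun he => h.not_mem_zpowers 1 (by rw [hxy0, he]; exact zpow_mem (mem_zpowers x) _)
  have hxy1 : x * y ≠ 1 := fun he => h.not_mem_zpowers 1 (by rw [hxy0, he]; exact one_mem _)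
  have hm1 := four_mem h1 hz1 hy1 h.z_ne h.y_ne hyz.symm
  have hm2 := four_mem h2 hz2 hy2 h.z_ne hxy1 hxyz.symm
  -- reduce to `g` centralizing `z`
  have main : ∀ g : X, (∀ u, u ∈ U₁ → g * u * g⁻¹ ∈ U₂) → g * z * g⁻¹ = z → False := by
    intro g hg hgz
    have hgC : g ∈ centralizer ({z} : Set X) := by
      rw [mem_centralizer_singleton_iff]
      calc g * z = (g * z * g⁻¹) * g := by group
        _ = z * g := by rw [hgz]
    have hSC : (S : Subgroup X) ≤ centralizer ({z} : Set X) := by
      intro s hs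
      rw [mem_centralizer_singleton_iff]
      exact (h.z_comm hs).symm
    obtain ⟨s, hs, hsu⟩ := Lib.Transfer.ownFusion_of_hasNormalPComplement (S.subtype hSC)
      (complement_centralizer h) (⟨g, hgC⟩ : ↥(centralizer ({z} : Set X)))
    have hgy := hg y hy1
    have hgyS : g * y * g⁻¹ ∈ S := by
      rcases (hm2 _).mp hgy with h5 | h5 | h5 | h5
      · rw [h5]; exact one_mem _
      · rw [h5]; exact h.xpow_mem _
      · rw [h5, ← hxy0]; exact h.xy_mem 1
      · rw [h5, ← hxy0]; exact mul_mem (h.xpow_mem _) (h.xy_mem 1)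
    have h3 := hsu ⟨y, hSC h.yS⟩ h.yS hgyS
    have h4 : (s : X) * y * (s : X)⁻¹ = g * y * g⁻¹ := congrArg Subtype.val h3
    have hsS : (s : X) ∈ (S : Subgroup X) := hs
    -- `s y s⁻¹ = x^{2k} y`
    have h5 : ∃ k : ℤ, (s : X) * y * (s : X)⁻¹ = x ^ (2 * k) * y := by
      rcases h.exists_rep hsS with ⟨j, hj⟩ | ⟨j, hj⟩
      · refine ⟨j, ?_⟩
        have := h.conj_xy j 0
        rw [zpow_zero, one_mul, zero_add] at this
        rw [hj]; exact this
      · refine ⟨j, ?_⟩
        have h6 : (x ^ j * y) * y * (x ^ j * y)⁻¹ = x ^ j * y * (x ^ j)⁻¹ := by group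
        have := h.conj_xy j 0
        rw [zpow_zero, one_mul, zero_add] at this
        rw [hj, h6]; exact this
    obtain ⟨k, hk⟩ := h5
    rw [hk] at h4
    have hq0 : (0 : ℤ) < q := by exact_mod_cast h.q_pos
    rcases (hm2 _).mp hgy with h5 | h5 | h5 | h5
    · apply h.not_mem_zpowers (2 * k)
      rw [h4, h5]; exact one_mem _
    · apply h.not_mem_zpowers (2 * k)
      rw [h4, h5]; exact zpow_mem (mem_zpowers x) _
    · rw [h5, ← hxy0] at h4
      have h6 := (h.zpow_eq_iff _ _).mp (mul_right_cancel h4)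
      obtain ⟨l, hl⟩ := h6
      have : (2 : ℤ) ∣ 1 := ⟨k - q * l, by linarith⟩
      omega
    · rw [h5, ← hxy0, ← mul_assoc, hz, ← zpow_add] at h4
      have h6 := (h.zpow_eq_iff _ _).mp (mul_right_cancel h4)
      obtain ⟨l, hl⟩ := h6
      have : (2 : ℤ) ∣ 1 := ⟨k - q' - q * l, by linarith⟩
      omega
  have hg' : ∀ u, u ∈ U₁ → g * u * g⁻¹ ∈ U₂ := fun u hu => (hg u).mp hu
  -- the element `w = x^{q'}`
  set w := x ^ q' with hw
  have hwz : w * z * w⁻¹ = z := by
    rw [hz, hw, ← zpow_neg, ← zpow_add, ← zpow_add]; congr 1; ring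
  have hwy : w * y * w⁻¹ = z * y := by
    have := h.conj_xy q' 0
    rw [zpow_zero, one_mul, zero_add, ← hq'] at this
    exact this
  have hwxy : w * (x * y) * w⁻¹ = z * (x * y) := by
    have h8 := h.conj_xy q' 1
    have h9 : x ^ (1 + 2 * q') * y = z * (x * y) := by
      rw [← hq', add_comm, zpow_add, zpow_one, mul_assoc]
    rw [h9, hxy0] at h8
    exact h8
  have hzy : z * y = y * z := h.z_y
  have hzz : z * z = 1 := h.z_sq
  by_cases hgz : g * z * g⁻¹ = z
  · exact main g hg' hgz
  -- `u = g z g⁻¹ ∈ {xy, zxy}`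
  have hgz1 : g * z * g⁻¹ ≠ 1 := by
    intro h5
    have : g * z = g := by rw [mul_inv_eq_one] at h5; exact h5
    exact h.z_ne (mul_eq_left.mp this)
  -- `z = g v g⁻¹` with `v ∈ {y, zy}`
  have hzg : g⁻¹ * z * g ∈ U₁ := by
    rw [hg]
    have : g * (g⁻¹ * z * g) * g⁻¹ = z := by group
    rw [this]; exact hz2
  set v := g⁻¹ * z * g with hv
  have hgv : g * v * g⁻¹ = z := by rw [hv]; group
  have hv1 : v ≠ 1 := by
    intro h5
    rw [h5] at hgv
    apply h.z_ne
    change z = 1
    rw [← hgv]; group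
  have hvz : v ≠ z := by
    intro h5
    rw [h5] at hgv
    exact hgz hgv
  -- `w` swaps `v` and `z v`
  have hwv : w * v * w⁻¹ = z * v := by
    rcases (hm1 _).mp hzg with h5 | h5 | h5 | h5
    · exact absurd h5 hv1
    · exact absurd h5 hvz
    · rw [h5]; exact hwy
    · rw [h5]
      have : w * (z * y) * w⁻¹ = (w * z * w⁻¹) * (w * y * w⁻¹) := by group
      rw [this, hwz, hwy]
  set u := g * z * g⁻¹ with hu
  have hwu : w * u * w⁻¹ = z * u := by
    rcases (hm2 _).mp (hg' z hz1) with h5 | h5 | h5 | h5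
    · exact absurd h5 hgz1
    · exact absurd h5 hgz
    · rw [hu, h5]; exact hwxy
    · rw [hu, h5]
      have : w * (z * (x * y)) * w⁻¹ = (w * z * w⁻¹) * (w * (x * y) * w⁻¹) := by group
      rw [this, hwz, hwxy]
  -- w1 = g w g⁻¹ swaps z and z u
  have hw1z : (g * w * g⁻¹) * z * (g * w * g⁻¹)⁻¹ = u * z := by
    calc (g * w * g⁻¹) * z * (g * w * g⁻¹)⁻¹ = g * (w * (g⁻¹ * z * g) * w⁻¹) * g⁻¹ := by group
      _ = g * (z * v) * g⁻¹ := by rw [← hv, hwv]
      _ = (g * z * g⁻¹) * (g * v * g⁻¹) := by group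
      _ = u * z := by rw [hgv]
  have huz : u * z = z * u := by
    rcases (hm2 _).mp (hg' z hz1) with h5 | h5 | h5 | h5
    · exact absurd h5 hgz1
    · exact absurd h5 hgz
    · have hc := h.z_comm (h.xy_mem 1)
      rw [hxy0] at hc
      rw [hu, h5]; exact hc.symm
    · have hc := h.z_comm (h.xy_mem 1)
      rw [hxy0] at hc
      rw [hu, h5]
      rw [mul_assoc, ← hc]
  have hw1u : (g * w * g⁻¹) * u * (g * w * g⁻¹)⁻¹ = u := by
    calc (g * w * g⁻¹) * u * (g * w * g⁻¹)⁻¹ = g * (w * (g⁻¹ * u * g) * w⁻¹) * g⁻¹ := by group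
      _ = g * (w * z * w⁻¹) * g⁻¹ := by rw [hu]; group
      _ = u := by rw [hwz]
  -- new element `g' = w1 w g`
  have hU2w : ∀ t ∈ U₂, w * t * w⁻¹ ∈ U₂ := by
    intro t ht
    rcases (hm2 _).mp ht with rfl | rfl | rfl | rfl
    · have : w * 1 * w⁻¹ = 1 := by group
      rw [this]; exact one_mem _
    · rw [hwz]; exact hz2
    · rw [hwxy]; exact mul_mem hz2 hy2
    · have : w * (z * (x * y)) * w⁻¹ = (w * z * w⁻¹) * (w * (x * y) * w⁻¹) := by group
      rw [this, hwz, hwxy, ← mul_assoc, hzz, one_mul]; exact hy2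
  have hU1w : ∀ t ∈ U₁, w * t * w⁻¹ ∈ U₁ := by
    intro t ht
    rcases (hm1 _).mp ht with rfl | rfl | rfl | rfl
    · have : w * 1 * w⁻¹ = 1 := by group
      rw [this]; exact one_mem _
    · rw [hwz]; exact hz1
    · rw [hwy]; exact mul_mem hz1 hy1
    · have : w * (z * y) * w⁻¹ = (w * z * w⁻¹) * (w * y * w⁻¹) := by group
      rw [this, hwz, hwy, ← mul_assoc, hzz, one_mul]; exact hy1
  apply main ((g * w * g⁻¹) * w * g)
  · intro t ht
    have h5 : (g * w * g⁻¹) * w * g * t * ((g * w * g⁻¹) * w * g)⁻¹ =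
        g * (w * (g⁻¹ * (w * (g * t * g⁻¹) * w⁻¹) * g) * w⁻¹) * g⁻¹ := by group
    rw [h5]
    apply hg'
    apply hU1w
    rw [hg]
    have h6 : g * (g⁻¹ * (w * (g * t * g⁻¹) * w⁻¹) * g) * g⁻¹ = w * (g * t * g⁻¹) * w⁻¹ := by group
    rw [h6]
    exact hU2w _ (hg' t ht)
  · calc (g * w * g⁻¹) * w * g * z * ((g * w * g⁻¹) * w * g)⁻¹
        = (g * w * g⁻¹) * (w * u * w⁻¹) * (g * w * g⁻¹)⁻¹ := by rw [hu]; group
      _ = ((g * w * g⁻¹) * z * (g * w * g⁻¹)⁻¹) * ((g * w * g⁻¹) * u * (g * w * g⁻¹)⁻¹) := by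
          rw [hwu]; group
      _ = u * z * u := by rw [hw1z, hw1u]
      _ = z * (u * u) := by rw [huz]; group
      _ = z := by
          have : u * u = 1 := by
            calc u * u = g * (z * z) * g⁻¹ := by rw [hu]; group
              _ = 1 := by rw [hzz]; group
          rw [this, mul_one]

/-- Let X be a finite group whose Sylow 2-subgroup S is dihedral of order 2m ≥ 4. If |S| = 4, any two Klein four-subgroups of X are conjugate; if |S| > 4, there are Klein four-subgroups U₁, U₂ of X that are not conjugate, and every Klein four-subgroup of X is conjugate to U₁ or to U₂. -/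
theorem result {X : Type*} [Group X] [Finite X] (S : Sylow 2 X) (m : ℕ) (hm : 2 ≤ m) (eS : (S : Subgroup X) ≃* DihedralGroup m) : (Nat.card S = 4 → ∀ U V : Subgroup X, IsKleinFour U → IsKleinFour V → (∃ x : X, U.map (MulAut.conj x).toMonoidHom = V)) ∧ (4 < Nat.card S → ∃ U₁ U₂ : Subgroup X, IsKleinFour U₁ ∧ IsKleinFour U₂ ∧ ¬ (∃ x : X, U₁.map (MulAut.conj x).toMonoidHom = U₂) ∧ ∀ V : Subgroup X, IsKleinFour V → (∃ x : X, V.map (MulAut.conj x).toMonoidHom = U₁) ∨ (∃ x : X, V.map (MulAut.conj x).toMonoidHom = U₂)) := by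
  classical
  obtain ⟨x, y, q, n, hD, -⟩ := Lib.DihSylow.exists_dh (p := 2) S.isPGroup' hm eS
  have hp2 := Fact.mk Nat.prime_two
  constructor
  · intro h4 U V hU hV
    have hUp : IsPGroup 2 U := IsPGroup.of_card (n := 2) (by rw [hU.card_four]; norm_num)
    have hVp : IsPGroup 2 V := IsPGroup.of_card (n := 2) (by rw [hV.card_four]; norm_num)
    obtain ⟨g, hg⟩ := Lib.DihSylow.exists_map_le S hUp
    obtain ⟨k, hk⟩ := Lib.DihSylow.exists_map_le S hVp
    have e1 : U.map (MulAut.conj g).toMonoidHom = S := by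
      apply Subgroup.eq_of_le_of_card_ge hg
      rw [h4, Subgroup.card_map_of_injective (MulAut.conj g).injective, hU.card_four]
    have e2 : V.map (MulAut.conj k).toMonoidHom = S := by
      apply Subgroup.eq_of_le_of_card_ge hk
      rw [h4, Subgroup.card_map_of_injective (MulAut.conj k).injective, hV.card_four]
    refine ⟨k⁻¹ * g, ?_⟩
    have e3 : U.map (MulAut.conj (k⁻¹ * g)).toMonoidHom =
        (U.map (MulAut.conj g).toMonoidHom).map (MulAut.conj k⁻¹).toMonoidHom := by
      rw [Subgroup.map_map]; congr 1; ext a; simp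
    rw [e3, e1, ← e2, Subgroup.map_map]
    have e4 : (MulAut.conj k⁻¹).toMonoidHom.comp (MulAut.conj k).toMonoidHom = MonoidHom.id X := by
      ext a
      change k⁻¹ * (k * a * k⁻¹) * k⁻¹⁻¹ = a
      group
    rw [e4, Subgroup.map_id]
  · intro h4
    have hn : 1 ≤ n := by
      by_contra hlt
      have hn0 : n = 0 := by omega
      have := hD.hq
      rw [hn0, pow_zero] at this
      have h5 := hD.card
      rw [this] at h5
      have h6 : Nat.card S = 4 * 1 := h5
      omega
    obtain ⟨U₁, hU₁, hU₁4, hU₁S⟩ := hD.exists_four 0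
    obtain ⟨U₂, hU₂, hU₂4, hU₂S⟩ := hD.exists_four 1
    refine ⟨U₁, U₂, hU₁4, hU₂4, ?_, ?_⟩
    · rintro ⟨g, hg⟩
      apply not_conj hD hn hU₁4 hU₂4 (by rw [hU₁]; right; left; rfl) (by rw [hU₂]; right; left; rfl)
        (by rw [hU₁]; right; right; left; simp) (by rw [hU₂]; right; right; left; simp) g
      intro u
      rw [← hg]
      constructor
      · intro hu
        exact ⟨u, hu, rfl⟩
      · rintro ⟨v, hv, hvu⟩
        have : v = u := (MulAut.conj g).injective hvu
        rwa [← this]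
    · intro V hV
      have hVp : IsPGroup 2 V := IsPGroup.of_card (n := 2) (by rw [hV.card_four]; norm_num)
      obtain ⟨g, hg⟩ := Lib.DihSylow.exists_map_le S hVp
      set V' := V.map (MulAut.conj g).toMonoidHom with hV'
      have hV'4 : IsKleinFour V' := by
        have e := V.equivMapOfInjective (MulAut.conj g).toMonoidHom (MulAut.conj g).injective
        refine ⟨by rw [← Nat.card_congr e.toEquiv]; exact hV.card_four, ?_⟩
        rw [← Monoid.exponent_eq_of_mulEquiv e]; exact hV.exponent_two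
      obtain ⟨hz, i, hi⟩ := hD.four_structure hV'4 hg
      have hi1 : x ^ i * y ≠ 1 := fun he => hD.not_mem_zpowers i (by rw [he]; exact one_mem _)
      have hiz : x ^ i * y ≠ x ^ (q : ℤ) := fun he => hD.not_mem_zpowers i (by
        rw [he]; exact zpow_mem (Subgroup.mem_zpowers x) _)
      have hm := Lib.DihSylow.four_mem hV'4 hz hi hD.z_ne hi1 hiz.symm
      -- conjugating by `x^j`
      have hconj : ∀ (j i' : ℤ) (U : Subgroup X), i + 2 * j = i' →
          (∀ g, g ∈ U ↔ g = 1 ∨ g = x ^ (q : ℤ) ∨ g = x ^ i' * y ∨ g = x ^ (q : ℤ) * (x ^ i' * y)) →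
          V'.map (MulAut.conj (x ^ j)).toMonoidHom = U := by
        intro j i' U hij hU
        have hxz : x ^ j * x ^ (q : ℤ) * (x ^ j)⁻¹ = x ^ (q : ℤ) := by
          rw [← zpow_neg, ← zpow_add, ← zpow_add]; congr 1; ring
        have hxv : x ^ j * (x ^ i * y) * (x ^ j)⁻¹ = x ^ i' * y := by
          rw [hD.conj_xy, hij]
        have hxzv : x ^ j * (x ^ (q : ℤ) * (x ^ i * y)) * (x ^ j)⁻¹ = x ^ (q : ℤ) * (x ^ i' * y) := by
          rw [← hxv]
          have : x ^ (q : ℤ) * (x ^ j * (x ^ i * y) * (x ^ j)⁻¹) =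
            (x ^ j * x ^ (q : ℤ) * (x ^ j)⁻¹) * (x ^ j * (x ^ i * y) * (x ^ j)⁻¹) := by rw [hxz]
          rw [this]; group
        ext t
        rw [hU]
        constructor
        · rintro ⟨v, hv, rfl⟩
          change x ^ j * v * (x ^ j)⁻¹ = 1 ∨ _
          rcases (hm v).mp hv with rfl | rfl | rfl | rfl
          · left; group
          · right; left; exact hxz
          · right; right; left; exact hxv
          · right; right; right; exact hxzv
        · rintro (rfl | rfl | rfl | rfl)
          · exact one_mem _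
          · exact ⟨_, hz, hxz⟩
          · exact ⟨_, hi, hxv⟩
          · exact ⟨_, mul_mem hz hi, hxzv⟩
      rcases Int.even_or_odd i with ⟨j, hj⟩ | ⟨j, hj⟩
      · left
        refine ⟨x ^ (-j) * g, ?_⟩
        have e3 : V.map (MulAut.conj (x ^ (-j) * g)).toMonoidHom =
            V'.map (MulAut.conj (x ^ (-j))).toMonoidHom := by
          rw [hV', Subgroup.map_map]; congr 1; ext a; simp [mul_assoc]
        rw [e3]
        exact hconj (-j) 0 U₁ (by rw [hj]; ring) hU₁
      · right
        refine ⟨x ^ (-j) * g, ?_⟩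
        have e3 : V.map (MulAut.conj (x ^ (-j) * g)).toMonoidHom =
            V'.map (MulAut.conj (x ^ (-j))).toMonoidHom := by
          rw [hV', Subgroup.map_map]; congr 1; ext a; simp [mul_assoc]
        rw [e3]
        exact hconj (-j) 1 U₂ (by rw [hj]; ring) hU₂

end Cfsg.Agent.S1256
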