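import Cfsg.Statements.S1258
import Cfsg.Agent.Lib.Components

set_option autoImplicit false
open Cfsg

namespace Cfsg.Agent.S1258

/-- If the central quotient of a finite group X is non-abelian simple, then X = X' Z(X) and the commutator subgroup X' is quasisimple. -/
theorem result {X : Type*} [Group X] [Finite X] (hs : IsSimpleGroup (X ⧸ Subgroup.center X)) (hna : ¬ IsMulCommutative (X ⧸ Subgroup.center X)) : commutator X ⊔ Subgroup.center X = ⊤ ∧ Cfsg.IsQuasisimple ↥(commutator X) := by
  classical
  set Z := Subgroup.center X with hZ
  have hsurj : Function.Surjective (QuotientGroup.mk' Z) := QuotientGroup.mk'_surjective Z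
  have hmap : (commutator X).map (QuotientGroup.mk' Z) = commutator (X ⧸ Z) := by
    rw [commutator_def, Subgroup.map_commutator, Subgroup.map_top_of_surjective _ hsurj,
      ← commutator_def]
  have hctop : commutator (X ⧸ Z) = ⊤ := by
    rcases (inferInstance : (commutator (X ⧸ Z)).Normal).eq_bot_or_eq_top with h1 | h1
    · exact absurd ((commutator_eq_bot_iff _).mp h1) hna
    · exact h1
  have hsup : commutator X ⊔ Z = ⊤ := by
    have := congrArg (Subgroup.comap (QuotientGroup.mk' Z)) (hmap.trans hctop)
    rw [Subgroup.comap_map_eq, QuotientGroup.ker_mk', Subgroup.comap_top] at this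
    exact this
  refine ⟨hsup, ?_⟩
  have hperf : ⁅commutator X, commutator X⁆ = commutator X := by
    have := Lib.Components.commutator_sup_central (H := commutator X) (Z := Z) (by
      intro x _
      rw [Subgroup.mem_centralizer_iff]
      intro z hz
      exact ((Subgroup.mem_center_iff.mp hz) x).symm)
    rw [hsup, ← commutator_def] at this
    exact this.symm
  have hP : Group.IsPerfect ↥(commutator X) := Lib.Components.isPerfect_iff'.mpr hperf
  refine Lib.Components.quasisimple_of_central_quotient hP
    ((QuotientGroup.mk' Z).comp (commutator X).subtype) ?_ ?_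
    (Lib.Components.quasisimple_of_simple hna)
  · intro x hx
    rw [MonoidHom.mem_ker, MonoidHom.comp_apply, QuotientGroup.mk'_apply,
      QuotientGroup.eq_one_iff] at hx
    rw [Subgroup.mem_center_iff]
    intro y
    exact Subtype.ext ((Subgroup.mem_center_iff.mp hx) y)
  · intro q
    have hq : q ∈ (commutator X).map (QuotientGroup.mk' Z) := by
      rw [hmap, hctop]; trivial
    obtain ⟨c, hc, hcq⟩ := hq
    exact ⟨⟨c, hc⟩, hcq⟩

end Cfsg.Agent.S1258
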