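import Cfsg.Statements.S1263
import Cfsg.Agent.Lib.Layer

set_option autoImplicit false
open Cfsg

namespace Cfsg.Agent.S1263

open Subgroup in
theorem center_aux {G : Type*} [Group G] [Finite G] (n : ℕ) : ∀ S : Set (Subgroup G),
    S.ncard = n → (∀ L ∈ S, Cfsg.IsComponent L) → ∀ x ∈ sSup S, x ∈ centralizer ((sSup S : Subgroup G) : Set G) →
    x ∈ ⨆ L : {K : Subgroup G // Cfsg.IsComponent K}, (center ↥(L : Subgroup G)).map (L : Subgroup G).subtype := by
  classical
  induction n with
  | zero =>
    intro S hS hC x hx hxc
    rw [Set.ncard_eq_zero (Set.toFinite _)] at hS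
    rw [hS, sSup_empty, mem_bot] at hx
    rw [hx]
    exact one_mem _
  | succ n ih =>
    intro S hS hC x hx hxc
    have hne : S.Nonempty := by
      rw [← Set.ncard_pos (Set.toFinite _), hS]; omega
    obtain ⟨L, hL⟩ := hne
    have hS' : (S \ {L}).ncard = n := by
      rw [Set.ncard_sdiff_singleton_of_mem hL, hS]; rfl
    have hSeq : sSup S = L ⊔ sSup (S \ {L}) := by
      rw [← sSup_insert, Set.insert_sdiff_singleton, Set.insert_eq_of_mem hL]
    have hcomm : L ≤ centralizer ((sSup (S \ {L}) : Subgroup G) : Set G) := by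
      apply Lib.Components.le_centralizer_sSup
      rintro M ⟨hM, hML⟩
      exact Lib.Components.components_commute (hC L hL) (hC M hM) (fun h => hML h.symm)
    rw [hSeq, Lib.Components.mem_sup_of_commute hcomm] at hx
    obtain ⟨a, ha, b, hb, rfl⟩ := hx
    have hbL : b ∈ centralizer (L : Set G) := Lib.Components.le_centralizer_comm hcomm hb
    have haS' : a ∈ centralizer ((sSup (S \ {L}) : Subgroup G) : Set G) := hcomm ha
    have h1 : a * b ∈ centralizer (L : Set G) :=
      centralizer_le (SetLike.coe_subset_coe.mpr (le_sSup hL)) hxc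
    have h2 : a * b ∈ centralizer ((sSup (S \ {L}) : Subgroup G) : Set G) :=
      centralizer_le (SetLike.coe_subset_coe.mpr (sSup_le_sSup Set.sdiff_subset)) hxc
    have h3 : a ∈ centralizer (L : Set G) := by
      have : a = (a * b) * b⁻¹ := by group
      rw [this]; exact mul_mem h1 (inv_mem hbL)
    have h4 : b ∈ centralizer ((sSup (S \ {L}) : Subgroup G) : Set G) := by
      have : b = a⁻¹ * (a * b) := by group
      rw [this]; exact mul_mem (inv_mem haS') h2
    refine mul_mem ?_ (ih (S \ {L}) hS' (fun M hM => hC M hM.1) b hb h4)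
    have hle := le_iSup (fun L : {K : Subgroup G // Cfsg.IsComponent K} =>
      (center ↥(L : Subgroup G)).map (L : Subgroup G).subtype) ⟨L, hC L hL⟩
    apply hle
    refine ⟨⟨a, ha⟩, ?_, rfl⟩
    rw [SetLike.mem_coe, mem_center_iff]
    intro y
    exact Subtype.ext (mem_centralizer_iff.mp h3 y y.2)

/-- For a finite group G, Z(E(G)) is the subgroup generated by the centres Z(L) of the components L of G (all viewed as subgroups of G). -/
theorem result {G : Type*} [Group G] [Finite G] : (Subgroup.center ↥(Cfsg.layer G)).map (Cfsg.layer G).subtype = ⨆ L : {K : Subgroup G // Cfsg.IsComponent K}, (Subgroup.center ↥(L : Subgroup G)).map (L : Subgroup G).subtype := by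
  classical
  apply le_antisymm
  · rintro _ ⟨x, hx, rfl⟩
    rw [SetLike.mem_coe, Subgroup.mem_center_iff] at hx
    refine center_aux _ {K : Subgroup G | Cfsg.IsComponent K} rfl (fun L hL => hL) x x.2 ?_
    rw [Subgroup.mem_centralizer_iff]
    intro y hy
    exact congrArg Subtype.val (hx ⟨y, hy⟩)
  · apply iSup_le
    rintro ⟨L, hL⟩
    rintro _ ⟨x, hx, rfl⟩
    rw [SetLike.mem_coe, Subgroup.mem_center_iff] at hx
    have hLE : L ≤ Cfsg.layer G := Lib.Layer.component_le_layer hL
    refine ⟨⟨(x : G), hLE x.2⟩, ?_, rfl⟩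
    rw [SetLike.mem_coe, Subgroup.mem_center_iff]
    have hxc : (x : G) ∈ Subgroup.centralizer ((Cfsg.layer G : Subgroup G) : Set G) := by
      have h1 : Cfsg.layer G ≤ Subgroup.centralizer (Subgroup.zpowers (x : G) : Set G) := by
        apply sSup_le
        intro M hM
        by_cases hML : M = L
        · subst hML
          intro m hm
          rw [Subgroup.mem_centralizer_iff]
          rintro _ ⟨k, rfl⟩
          have h2 := congrArg Subtype.val (hx ⟨m, hm⟩)
          have h3 : Commute (m : G) (x : G) := h2
          exact (h3.zpow_right k).eq.symm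
        · refine (Lib.Components.components_commute hM hL hML).trans (Subgroup.centralizer_le ?_)
          rw [SetLike.coe_subset_coe, Subgroup.zpowers_le]
          exact x.2
      exact Lib.Components.le_centralizer_comm h1 (Subgroup.mem_zpowers _)
    intro y
    exact Subtype.ext (Subgroup.mem_centralizer_iff.mp hxc y y.2)

end Cfsg.Agent.S1263
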