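import Cfsg.Statements.S1264
import Cfsg.Agent.Lib.Layer

set_option autoImplicit false
open Cfsg

namespace Cfsg.Agent.S1264

/-- Let G be finite, C = C_G(F(G)) the centralizer of the Fitting subgroup, and N a solvable subgroup of C normalized by C. Then N ≤ Z(F(G)). -/
theorem result {G : Type*} [Group G] [Finite G] (N : Subgroup G) (hN : N ≤ Subgroup.centralizer (Cfsg.fittingSubgroup G : Set G)) (hnorm : Subgroup.centralizer (Cfsg.fittingSubgroup G : Set G) ≤ Subgroup.normalizer (N : Set G)) (hsolv : Group.IsSolvable ↥N) : N ≤ (Subgroup.center ↥(Cfsg.fittingSubgroup G)).map (Cfsg.fittingSubgroup G).subtype := by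
  classical
  set F := Cfsg.fittingSubgroup G with hF
  set C := Subgroup.centralizer (F : Set G) with hC
  have hFn : F.Normal := inferInstance
  have hCn : C.Normal := inferInstance
  have hNs : N.IsSubnormal := Subgroup.IsSubnormal.step N C hN hCn.isSubnormal
    (Subgroup.normal_subgroupOf_of_le_normalizer hnorm)
  -- `F*(N) = F(N)`
  have hlay : Cfsg.layer ↥N = ⊥ := by
    rw [eq_bot_iff]
    apply sSup_le
    intro K hK
    exact absurd le_top (Lib.Components.component_not_le_solvable (S := (⊤ : Subgroup ↥N)) hK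
      (Group.isSolvable_of_isSolvable_injective (f := (⊤ : Subgroup ↥N).subtype)
        (Subgroup.subtype_injective _)))
  have hgf : Cfsg.generalizedFittingSubgroup ↥N = Cfsg.fittingSubgroup ↥N := by
    unfold Cfsg.generalizedFittingSubgroup
    rw [hlay, bot_sup_eq]
  have hFN : (Cfsg.fittingSubgroup ↥N).map N.subtype ≤ F := Lib.Layer.map_fitting_le_of_subnormal hNs
  have h1 : (⊤ : Subgroup ↥N) ≤ Subgroup.centralizer (Cfsg.fittingSubgroup ↥N : Set ↥N) := by
    intro x _
    rw [Subgroup.mem_centralizer_iff]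
    intro y hy
    have hy' : (y : G) ∈ F := hFN ⟨y, hy, rfl⟩
    exact Subtype.ext (Subgroup.mem_centralizer_iff.mp (hN x.2) y hy')
  have h2 := Lib.Layer.centralizer_genFitting_le (G := ↥N)
  rw [hgf] at h2
  have h3 : (Cfsg.fittingSubgroup ↥N) = ⊤ := top_le_iff.mp (h1.trans h2)
  have hNF : N ≤ F := by
    intro x hx
    apply hFN
    refine ⟨⟨x, hx⟩, ?_, rfl⟩
    rw [h3]; trivial
  intro x hx
  refine ⟨⟨x, hNF hx⟩, ?_, rfl⟩
  rw [SetLike.mem_coe, Subgroup.mem_center_iff]
  intro y
  exact Subtype.ext (Subgroup.mem_centralizer_iff.mp (hN hx) y y.2)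

end Cfsg.Agent.S1264
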