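import Cfsg.Statements.S1267
import Cfsg.Agent.Lib.LocalLayer2

set_option autoImplicit false
open Cfsg

namespace Cfsg.Agent.S1267

/-- Let G be finite and P ≤ O_p(G). Then E(N_G(P)) = E(G). -/
theorem result {G : Type*} [Group G] [Finite G] (p : ℕ) [Fact p.Prime] (P : Subgroup G) (hP : P ≤ Cfsg.pCore p G) : (Cfsg.layer ↥(Subgroup.normalizer ((P : Subgroup G) : Set G))).map (Subgroup.normalizer ((P : Subgroup G) : Set G)).subtype = Cfsg.layer G := by
  classical
  set N := Subgroup.normalizer ((P : Subgroup G) : Set G) with hN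
  set Q := Cfsg.pCore p G with hQ
  have hQp : IsPGroup p ↥Q := Lib.Cores.isPGroup_pCore p G
  have hPp : IsPGroup p ↥P := hQp.to_le hP
  set C := Subgroup.centralizer (Q : Set G) with hC
  have hCn : C.Normal := inferInstance
  have hCN : C ≤ N := (Subgroup.centralizer_le (SetLike.coe_subset_coe.mpr hP)).trans
    (Lib.Components.centralizer_le_normalizer' P)
  apply le_antisymm
  · rw [Subgroup.map_le_iff_le_comap]
    apply sSup_le
    intro K hK
    rw [← Subgroup.map_le_iff_le_comap]
    apply Lib.Layer.component_le_layer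
    have h1 : K.map N.subtype ≤ C := by
      refine le_trans ?_ (Lib.LocalLayer.EpreIn_normalizer_le_centralizer_pCore hPp)
      exact Subgroup.map_mono ((Lib.Layer.component_le_layer hK).trans Lib.LocalLayer.layer_le_Epre)
    refine ⟨?_, (Lib.Components.quasisimple_map_of_injective N.subtype_injective).mpr hK.2⟩
    exact Subgroup.IsSubnormal.trans h1 (Lib.LocalLayer.isSubnormal_map_subgroupOf hK.1 hCN)
      hCn.isSubnormal
  · apply sSup_le
    intro K hK
    have hKN : K ≤ N := by
      refine ((Lib.Layer.component_le_layer hK).trans ?_).trans hCN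
      exact Lib.Layer.layer_le_centralizer_fitting.trans
        (Subgroup.centralizer_le (SetLike.coe_subset_coe.mpr (Lib.Cores.pCore_le_fittingSubgroup p)))
    have h1 := Lib.Components.isComponent_subgroupOf hKN hK
    have h2 := Subgroup.map_mono (f := N.subtype) (Lib.Layer.component_le_layer h1)
    rwa [Subgroup.subgroupOf_map_subtype, inf_eq_left.mpr hKN] at h2

end Cfsg.Agent.S1267
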