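import Cfsg.Statements.S1273
import Cfsg.Agent.Lib.PComponents

set_option autoImplicit false
open Cfsg

namespace Cfsg.Agent.S1273

/-- Let K be a p-component of the finite group X and N a normal subgroup of K whose index in K is prime to p. Then N = K. -/
theorem result {X : Type*} [Group X] [Finite X] (p : ℕ) [Fact p.Prime] (K : Subgroup X) (hK : Cfsg.IsPComponent p K) (N : Subgroup ↥K) [N.Normal] (hidx : (N.index).Coprime p) : N = ⊤ := by
  have hp := (inferInstance : Fact p.Prime)
  have h2 : (N.map K.subtype).subgroupOf K = N :=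
    Subgroup.comap_map_eq_self_of_injective K.subtype_injective N
  have h1 : N.map K.subtype = K := by
    apply Lib.PComponents.pComponent_eq_of_relIndex hK (Subgroup.map_subtype_le N)
    · intro k hk
      have hn : N.Normal := inferInstance
      rw [Subgroup.mem_normalizer_iff]
      intro x
      constructor
      · rintro ⟨y, hy, rfl⟩
        exact ⟨⟨k, hk⟩ * y * ⟨k, hk⟩⁻¹, hn.conj_mem y hy ⟨k, hk⟩, rfl⟩
      · rintro ⟨y, hy, hyx⟩
        refine ⟨⟨k, hk⟩⁻¹ * y * ⟨k, hk⟩, ?_, ?_⟩
        · have := hn.conj_mem y hy ⟨k, hk⟩⁻¹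
          rwa [inv_inv] at this
        · have h2 : (y : X) = k * x * k⁻¹ := hyx
          change k⁻¹ * (y : X) * k = x
          rw [h2]; group
    · rw [Subgroup.relIndex, h2]
      exact (hp.out.coprime_iff_not_dvd).mp hidx.symm
  rw [h1, Subgroup.subgroupOf_self] at h2
  exact h2.symm

end Cfsg.Agent.S1273
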