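import Cfsg.Statements.S1276
import Cfsg.Agent.Lib.PComponents

set_option autoImplicit false
open Cfsg Cfsg.Agent.Lib.Components Cfsg.Agent.Lib.Layer Cfsg.Agent.Lib.CompRel Cfsg.Agent.Lib.PComponents

namespace Cfsg.Agent.S1276

/-- Let K be a 2-component of the finite group X. Then K is quasisimple if and only if ⁅K, O(K)⁆ = 1. -/
theorem result {X : Type*} [Group X] [Finite X] (K : Subgroup X) (hK : Cfsg.IsPComponent 2 K) : Cfsg.IsQuasisimple ↥K ↔ ⁅K, ((Cfsg.oddCore ↥K).map K.subtype)⁆ = ⊥ := by
  have h2 : Fact (Nat.Prime 2) := ⟨Nat.prime_two⟩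
  have hperf := pComponent_perfect hK
  have hn : (Cfsg.oddCore ↥K).Normal := inferInstance
  constructor
  · intro hq
    rcases normal_le_center_or_eq_top hq (Cfsg.oddCore ↥K) with h | h
    · rw [← le_centralizer_iff_commutator]
      intro k hk
      rw [Subgroup.mem_centralizer_iff]
      rintro _ ⟨z, hz, rfl⟩
      exact (congrArg Subtype.val (Subgroup.mem_center_iff.mp (h hz) ⟨k, hk⟩)).symm
    · exfalso
      have h1 : Nat.card ↥(Cfsg.oddCore ↥K) = Nat.card ↥K := by rw [h, Subgroup.card_top]
      have h3 := Cfsg.Agent.Lib.H23Basic.odd_card_oddCore (G := ↥K)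
      rw [h1] at h3
      exact (Nat.not_even_iff_odd.mpr h3) (even_iff_two_dvd.mpr (dvd_card_pComponent hK))
  · intro hcomm
    have hcent : Cfsg.oddCore ↥K ≤ Subgroup.center ↥K := by
      intro z hz
      rw [Subgroup.mem_center_iff]
      intro k
      ext
      rw [← le_centralizer_iff_commutator] at hcomm
      exact ((Subgroup.mem_centralizer_iff.mp (hcomm k.2)) z ⟨z, hz, rfl⟩).symm
    refine quasisimple_of_central_quotient (isPerfect_iff'.mpr hperf)
      (QuotientGroup.mk' (Cfsg.oddCore ↥K)) ?_ (QuotientGroup.mk'_surjective _)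
      (pComponent_quotient_quasisimple hK)
    rw [QuotientGroup.ker_mk']
    exact hcent

end Cfsg.Agent.S1276
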