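import Cfsg.Statements.S1277
import Cfsg.Agent.Lib.PComponents

set_option autoImplicit false
open Cfsg Cfsg.Agent.Lib.Components Cfsg.Agent.Lib.Layer Cfsg.Agent.Lib.CompRel Cfsg.Agent.Lib.PComponents

namespace Cfsg.Agent.S1277

/-- For a finite group X with core O(X): the image of E(X) in X / O(X) is all of E(X / O(X)) if and only if every 2-component of X is a component, i.e. L_{2'}(X) ≤ E(X). -/
theorem result {X : Type*} [Group X] [Finite X] : (Cfsg.layer X).map (QuotientGroup.mk' (Cfsg.oddCore X)) = Cfsg.layer (X ⧸ Cfsg.oddCore X) ↔ Cfsg.pLayer 2 X ≤ Cfsg.layer X := by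
  have h2 : Fact (Nat.Prime 2) := ⟨Nat.prime_two⟩
  set π := QuotientGroup.mk' (Cfsg.oddCore X) with hπ
  have hsurj : Function.Surjective π := QuotientGroup.mk'_surjective _
  constructor
  · intro h
    apply sSup_le
    intro K hK
    -- the image of `K` is a component of the quotient contained in the product of images
    have h1 : K.map π ≤ Cfsg.layer (X ⧸ Cfsg.oddCore X) := component_le_layer hK.2.1
    rw [← h] at h1
    have h3 : (Cfsg.layer X).map π =
        sSup {L : Subgroup (X ⧸ Cfsg.oddCore X) | Cfsg.IsComponent L ∧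
          ∃ M : Subgroup X, Cfsg.IsComponent M ∧ M.map π = L} := by
      apply le_antisymm
      · unfold Cfsg.layer
        rw [Subgroup.map_le_iff_le_comap]
        apply sSup_le
        intro M hM
        rw [← Subgroup.map_le_iff_le_comap]
        by_cases hM1 : M.map π = ⊥
        · rw [hM1]; exact bot_le
        · exact le_sSup ⟨isComponent_map_of_surjective hsurj hM hM1, M, hM, rfl⟩
      · apply sSup_le
        rintro _ ⟨-, M, hM, rfl⟩
        exact Subgroup.map_mono (component_le_layer hM)
    rw [h3] at h1
    obtain ⟨-, M, hM, hMK⟩ := component_mem_of_le_sSup (fun L hL => hL.1) hK.2.1 h1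
    obtain ⟨K', hK', hK'M, hK'map⟩ := exists_pComponent_le hK.2.1 hM.1 hMK
    have : K' = K := pComponent_eq_of_map_eq hK' hK hK'map
    rw [← this]
    exact hK'M.trans (component_le_layer hM)
  · intro h
    apply le_antisymm (layer_map_le π hsurj)
    rw [← map_pLayer (p := 2)]
    exact Subgroup.map_mono h

end Cfsg.Agent.S1277
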