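import Cfsg.Statements.S1278
import Cfsg.Agent.Lib.PComponents
import Cfsg.Agent.S1276

set_option autoImplicit false
open Cfsg Cfsg.Agent.Lib.Components Cfsg.Agent.Lib.Layer Cfsg.Agent.Lib.CompRel Cfsg.Agent.Lib.PComponents

namespace Cfsg.Agent.S1278

/-- Let K ≠ L be 2-components of the finite group X. Then ⁅K, L⁆ ≤ O(K) ⊓ O(L), and if K is quasisimple then ⁅K, L⁆ = 1. -/
theorem result {X : Type*} [Group X] [Finite X] (K L : Subgroup X) (hK : Cfsg.IsPComponent 2 K) (hL : Cfsg.IsPComponent 2 L) (hne : K ≠ L) : ⁅K, L⁆ ≤ ((Cfsg.oddCore ↥K).map K.subtype) ⊓ ((Cfsg.oddCore ↥L).map L.subtype) ∧ (Cfsg.IsQuasisimple ↥K → ⁅K, L⁆ = ⊥) := by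
  have h2 : Fact (Nat.Prime 2) := ⟨Nat.prime_two⟩
  have hKL : ⁅K, L⁆ ≤ Cfsg.oddCore X := pComponents_commutator_le hK hL hne
  have h1 : ⁅K, L⁆ ≤ K := by
    rw [Subgroup.commutator_comm]
    exact Subgroup.le_normalizer_iff_commutator_le_right.mp (pComponent_le_normalizer hK hL)
  have h3 : ⁅K, L⁆ ≤ L := Subgroup.le_normalizer_iff_commutator_le_right.mp
    (pComponent_le_normalizer hL hK)
  have h4 : ⁅K, L⁆ ≤ (Cfsg.oddCore ↥K).map K.subtype := by
    rw [map_pPrimeCore_eq_of_subnormal hK.1]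
    exact le_inf h1 hKL
  refine ⟨le_inf h4 ?_, ?_⟩
  · rw [map_pPrimeCore_eq_of_subnormal hL.1]
    exact le_inf h3 hKL
  · intro hq
    have h5 := (Cfsg.Agent.S1276.result K hK).mp hq
    rw [← le_centralizer_iff_commutator]
    exact le_centralizer_of_perfect (pComponent_perfect hK) h4
      (le_centralizer_comm (le_centralizer_iff_commutator.mpr h5))

end Cfsg.Agent.S1278
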