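import Cfsg.Statements.S1285
import Cfsg.Agent.Lib.Signalizer2

set_option autoImplicit false
open Cfsg Cfsg.Agent.Lib.Signalizer

namespace Cfsg.Agent.S1285

/-- Let θ be a solvable A-signalizer functor on the finite group G with A elementary abelian of rank at least 3, and suppose that for some prime q every θ a (a ∈ A non-identity) is a q-group. Then θ is complete. -/
theorem result {G : Type*} [Group G] [Finite G] (p : ℕ) [Fact p.Prime] (A : Subgroup G) (hA : Cfsg.IsElementaryAbelian p A) (hA3 : p ^ 3 ≤ Nat.card ↥A) (θ : G → Subgroup G) (hθ : Cfsg.IsSolvableSignalizerFunctor p A θ) (q : ℕ) [Fact q.Prime] (hq : ∀ a ∈ A, a ≠ 1 → IsPGroup q ↥(θ a)) : Cfsg.IsCompleteSignalizerFunctor p A θ := by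
  obtain ⟨Q, hQ⟩ := exists_isMaxMember p A θ q
  refine ⟨hθ.1, Q, hQ.1.2.2.1, hQ.1.2.1, ?_⟩
  intro a ha ha1
  have hza : Subgroup.zpowers a ≤ A := by rw [Subgroup.zpowers_le]; exact ha
  have hza1 : Subgroup.zpowers a ≠ ⊥ := by
    rw [Ne, Subgroup.zpowers_eq_bot]; exact ha1
  obtain ⟨h1, h2⟩ := centralizer_sylow hA hA3 hθ hQ hza hza1
  rw [← centralizer_singleton_eq] at h1 h2
  have hinf : Cfsg.signalizerInf (Subgroup.zpowers a) θ = θ a := by
    apply le_antisymm (signalizerInf_le (Subgroup.mem_zpowers a) ha1)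
    apply le_iInf
    rintro ⟨b, hb, hb1⟩
    have h3 := hθ.1.2.2.2 a ha ha1 b (hza hb) hb1
    refine le_trans (le_inf le_rfl ?_) h3
    refine (hθ.1.1 a ha ha1).trans ?_
    rw [centralizer_singleton_eq]
    apply Subgroup.centralizer_le
    intro x hx
    rw [Set.mem_singleton_iff] at hx
    rw [hx]; exact hb
  rw [hinf] at h1 h2
  have h4 := Lib.SubgroupTools.card_mul_relIndex_of_le h1
  obtain ⟨k, hk⟩ := IsPGroup.iff_card.mp (hq a ha ha1)
  rw [hk] at h4
  have h5 : (Q ⊓ Subgroup.centralizer {a}).relIndex (θ a) ∣ q ^ k := Dvd.intro_left _ h4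
  obtain ⟨j, hj, hj'⟩ := (Nat.dvd_prime_pow (Fact.out : q.Prime)).mp h5
  rcases j with _ | j
  · rw [pow_zero] at hj'
    rw [Subgroup.relIndex_eq_one] at hj'
    exact le_antisymm h1 hj'
  · exfalso
    apply h2
    rw [hj']
    exact dvd_pow_self q (Nat.succ_ne_zero j)

end Cfsg.Agent.S1285
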