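import Cfsg.Statements.S1286


set_option autoImplicit false
open Cfsg

namespace Cfsg.Agent.S1286
/-- elements of a subgroup generated by an element of order 3 -/
theorem mem_zp {H : Type*} [Group H] {x g : H} (hx : x ^ 3 = 1) (hg : g ∈ Subgroup.zpowers x) :
    g = 1 ∨ g = x ∨ g = x⁻¹ := by
  obtain ⟨k, rfl⟩ := Subgroup.mem_zpowers_iff.mp hg
  have h1 : x ^ k = x ^ (k % 3) := by
    conv_lhs => rw [← Int.emod_add_mul_ediv k 3, zpow_add, zpow_mul]
    have : x ^ (3 : ℤ) = 1 := by exact_mod_cast hx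
    rw [this, one_zpow, mul_one]
  rw [h1]
  have h2 : k % 3 = 0 ∨ k % 3 = 1 ∨ k % 3 = 2 := by omega
  rcases h2 with h | h | h
  · left; rw [h, zpow_zero]
  · right; left; rw [h, zpow_one]
  · right; right
    rw [h]
    have h3 : x ^ (2 : ℤ) = x ^ 2 := by norm_cast
    rw [h3, eq_inv_iff_mul_eq_one, ← pow_succ]
    exact hx

abbrev P5 := Equiv.Perm (Fin 5)

def ea : P5 := Equiv.swap 3 4
def eb : P5 := Equiv.swap 0 1
def ex : P5 := Equiv.swap 0 1 * Equiv.swap 1 2
def ey : P5 := Equiv.swap 2 3 * Equiv.swap 3 4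

theorem ex3 : ex ^ 3 = 1 := by decide
theorem ey3 : ey ^ 3 = 1 := by decide
theorem ea_ne : ea ≠ 1 := by decide
theorem eb_ne : eb ≠ 1 := by decide
theorem ab_ne : ea * eb ≠ 1 := by decide

def VA : Subgroup P5 where
  carrier := {g | g = 1 ∨ g = ea ∨ g = eb ∨ g = ea * eb}
  mul_mem' := by
    rintro u v (rfl | rfl | rfl | rfl) (rfl | rfl | rfl | rfl) <;> decide
  one_mem' := Or.inl rfl
  inv_mem' := by
    rintro u (rfl | rfl | rfl | rfl) <;> decide

theorem mem_VA {g : P5} : g ∈ VA ↔ g = 1 ∨ g = ea ∨ g = eb ∨ g = ea * eb := Iff.rfl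

instance : DecidablePred (· ∈ VA) := fun g => decidable_of_iff _ mem_VA.symm

theorem card_VA : Nat.card ↥VA = 4 := by
  rw [Nat.card_eq_fintype_card]
  decide

open Classical in
noncomputable def th (g : P5) : Subgroup P5 :=
  if g = ea then Subgroup.zpowers ex else if g = eb then Subgroup.zpowers ey else ⊥

theorem th_a : th ea = Subgroup.zpowers ex := by simp [th]
theorem th_b : th eb = Subgroup.zpowers ey := by
  have : eb ≠ ea := by decide
  simp [th, this]
theorem th_ab : th (ea * eb) = ⊥ := by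
  have h1 : ea * eb ≠ ea := by decide
  have h2 : ea * eb ≠ eb := by decide
  simp only [th, if_neg h1, if_neg h2]

theorem cases_VA {P : P5 → Prop} (ha : P ea) (hb : P eb) (hab : P (ea * eb)) :
    ∀ g ∈ VA, g ≠ 1 → P g := by
  rintro g (rfl | rfl | rfl | rfl) h
  · exact absurd rfl h
  · exact ha
  · exact hb
  · exact hab

theorem th_comm : ∀ g ∈ VA, g ≠ 1 → th g ≤ Subgroup.centralizer {g} := by
  apply cases_VA
  · rw [th_a, Subgroup.zpowers_le, Subgroup.mem_centralizer_singleton_iff]; decide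
  · rw [th_b, Subgroup.zpowers_le, Subgroup.mem_centralizer_singleton_iff]; decide
  · rw [th_ab]; exact bot_le

theorem th_odd : ∀ g ∈ VA, g ≠ 1 → ¬ 2 ∣ Nat.card ↥(th g) := by
  have h3 : ∀ x : P5, x ^ 3 = 1 → x ≠ 1 → ¬ 2 ∣ Nat.card ↥(Subgroup.zpowers x) := by
    intro x hx hx1
    have hp3 : Fact (Nat.Prime 3) := ⟨Nat.prime_three⟩
    rw [Nat.card_zpowers, orderOf_eq_prime hx hx1]
    decide
  apply cases_VA
  · rw [th_a]; exact h3 _ ex3 (by decide)
  · rw [th_b]; exact h3 _ ey3 (by decide)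
  · rw [th_ab, Subgroup.card_bot]; decide

theorem th_inv : ∀ g ∈ VA, g ≠ 1 → ∀ b ∈ VA, ∀ x ∈ th g, b * x * b⁻¹ ∈ th g := by
  have key : ∀ x : P5, (∀ b ∈ VA, b * x * b⁻¹ ∈ Subgroup.zpowers x) →
      ∀ b ∈ VA, ∀ y ∈ Subgroup.zpowers x, b * y * b⁻¹ ∈ Subgroup.zpowers x := by
    intro x hx b hb y hy
    obtain ⟨k, rfl⟩ := Subgroup.mem_zpowers_iff.mp hy
    rw [← conj_zpow]
    exact Subgroup.zpow_mem _ (hx b hb) k
  apply cases_VA
  · rw [th_a]
    apply key
    rintro b (rfl | rfl | rfl | rfl)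
    · simp
    · have : ea * ex * ea⁻¹ = ex := by decide
      rw [this]; exact Subgroup.mem_zpowers _
    · have : eb * ex * eb⁻¹ = ex⁻¹ := by decide
      rw [this]; exact inv_mem (Subgroup.mem_zpowers _)
    · have : ea * eb * ex * (ea * eb)⁻¹ = ex⁻¹ := by decide
      rw [this]; exact inv_mem (Subgroup.mem_zpowers _)
  · rw [th_b]
    apply key
    rintro b (rfl | rfl | rfl | rfl)
    · simp
    · have : ea * ey * ea⁻¹ = ey⁻¹ := by decide
      rw [this]; exact inv_mem (Subgroup.mem_zpowers _)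
    · have : eb * ey * eb⁻¹ = ey := by decide
      rw [this]; exact Subgroup.mem_zpowers _
    · have : ea * eb * ey * (ea * eb)⁻¹ = ey⁻¹ := by decide
      rw [this]; exact inv_mem (Subgroup.mem_zpowers _)
  · rw [th_ab]
    intro b _ x hx
    rw [Subgroup.mem_bot] at hx ⊢
    rw [hx]; group

theorem inf_bot {x g : P5} (hx : x ^ 3 = 1) (h1 : x * g ≠ g * x) (h2 : x⁻¹ * g ≠ g * x⁻¹) :
    Subgroup.zpowers x ⊓ Subgroup.centralizer {g} = ⊥ := by
  rw [Subgroup.eq_bot_iff_forall]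
  intro y hy
  obtain ⟨hy1, hy2⟩ := Subgroup.mem_inf.mp hy
  rw [Subgroup.mem_centralizer_singleton_iff] at hy2
  rcases mem_zp hx hy1 with rfl | rfl | rfl
  · rfl
  · exact absurd hy2 h1
  · exact absurd hy2 h2

theorem th_bal : ∀ a ∈ VA, a ≠ 1 → ∀ b ∈ VA, b ≠ 1 → th a ⊓ Subgroup.centralizer {b} ≤ th b := by
  apply cases_VA
  · apply cases_VA
    · exact inf_le_left
    · rw [th_a, inf_bot ex3 (by decide) (by decide)]; exact bot_le
    · rw [th_a, inf_bot ex3 (by decide) (by decide)]; exact bot_le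
  · apply cases_VA
    · rw [th_b, inf_bot ey3 (by decide) (by decide)]; exact bot_le
    · exact inf_le_left
    · rw [th_b, inf_bot ey3 (by decide) (by decide)]; exact bot_le
  · intro b _ _
    rw [th_ab, bot_inf_eq]; exact bot_le

theorem th_solv : ∀ a ∈ VA, a ≠ 1 → Group.IsSolvable ↥(th a) := by
  have h : ∀ x : P5, Group.IsSolvable ↥(Subgroup.zpowers x) := by
    intro x
    have : IsMulCommutative ↥(Subgroup.zpowers x) := inferInstance
    infer_instance
  apply cases_VA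
  · rw [th_a]; exact h _
  · rw [th_b]; exact h _
  · rw [th_ab]; infer_instance

theorem VA_elem : Cfsg.IsElementaryAbelian 2 VA := by
  constructor
  · rw [isMulCommutative_iff]
    rintro ⟨u, hu⟩ ⟨v, hv⟩
    apply Subtype.ext
    change u * v = v * u
    rcases hu with rfl | rfl | rfl | rfl <;> rcases hv with rfl | rfl | rfl | rfl <;> decide
  · rintro u (rfl | rfl | rfl | rfl) <;> decide


/-- There exist a finite group X, an elementary abelian subgroup A of order 4 and a solvable A-signalizer functor θ on X for the prime 2 which is not complete. -/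
theorem result : ∃ (X : Type) (_ : Group X) (_ : Finite X) (A : Subgroup X) (θ : X → Subgroup X), Cfsg.IsElementaryAbelian 2 A ∧ Nat.card ↥A = 4 ∧ Cfsg.IsSolvableSignalizerFunctor 2 A θ ∧ ¬ Cfsg.IsCompleteSignalizerFunctor 2 A θ := by

  refine ⟨P5, inferInstance, inferInstance, VA, th, VA_elem, card_VA,
    ⟨⟨th_comm, th_odd, th_inv, th_bal⟩, th_solv⟩, ?_⟩
  rintro ⟨-, X, -, hX, hc⟩
  have hx : ex ∈ X := by
    have h := hc ea (mem_VA.mpr (Or.inr (Or.inl rfl))) ea_ne
    rw [th_a] at h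
    have h2 : ex ∈ X ⊓ Subgroup.centralizer {ea} := by rw [h]; exact Subgroup.mem_zpowers _
    exact (Subgroup.mem_inf.mp h2).1
  have hy : ey ∈ X := by
    have h := hc eb (mem_VA.mpr (Or.inr (Or.inr (Or.inl rfl)))) eb_ne
    rw [th_b] at h
    have h2 : ey ∈ X ⊓ Subgroup.centralizer {eb} := by rw [h]; exact Subgroup.mem_zpowers _
    exact (Subgroup.mem_inf.mp h2).1
  apply hX
  have hp2 : Fact (Nat.Prime 2) := ⟨Nat.prime_two⟩
  have hw : orderOf (ex * ey * ex * ey⁻¹) = 2 := orderOf_eq_prime (by decide) (by decide)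
  rw [← hw, ← Subgroup.orderOf_mk (ex * ey * ex * ey⁻¹) (mul_mem (mul_mem (mul_mem hx hy) hx) (inv_mem hy))]
  exact orderOf_dvd_natCard _

end Cfsg.Agent.S1286
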