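import Cfsg.Statements.S1288
import Cfsg.Agent.Lib.CoprimeHyper
import Cfsg.Agent.Lib.Cores2
import Cfsg.Agent.Lib.PLengthOne
import Cfsg.Agent.Lib.PCoreTools

set_option autoImplicit false
open Cfsg

namespace Cfsg.Agent.S1288

open scoped commutatorElement

/-- Let A be a noncyclic elementary abelian p-subgroup of a finite group H normalizing a solvable subgroup K of order prime to p, q a prime dividing |K|, and U ≤ K a subgroup of order prime to q such that ⁅U, C_K(B)⁆ has order prime to q for every subgroup B of index p in A. Then U ≤ O_{q'}(K). -/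
theorem result {H : Type*} [Group H] [Finite H] (p : ℕ) [Fact p.Prime] (A K : Subgroup H) (hA : Cfsg.IsElementaryAbelian p A) (hA2 : p ^ 2 ≤ Nat.card ↥A) (hK : ¬ p ∣ Nat.card ↥K) (hKs : Group.IsSolvable ↥K) (hAK : A ≤ Subgroup.normalizer (K : Set H)) (q : ℕ) [Fact q.Prime] (hqK : q ∣ Nat.card ↥K) (U : Subgroup H) (hU : U ≤ K) (hUq : ¬ q ∣ Nat.card ↥U) (hcomm : ∀ B : Subgroup H, B ≤ A → B.relIndex A = p → ¬ q ∣ Nat.card ↥⁅U, K ⊓ Subgroup.centralizer (B : Set H)⁆) : U ≤ (Cfsg.pPrimeCore q ↥K).map K.subtype := by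
  have hpq : ¬ p ∣ Nat.card K := hK
  have hqne : p ≠ q := by rintro rfl; exact hK hqK
  have hp : p.Prime := Fact.out
  have hq : q.Prime := Fact.out
  set N := Cfsg.pPrimeCore q K with hN
  set R := Cfsg.pPrimePCore q K with hR
  have hNchar : N.Characteristic := Cfsg.Agent.Lib.PLengthOne.characteristic_pPrimeCore
  have hRchar : R.Characteristic := Cfsg.Agent.Lib.PLengthOne.characteristic_pPrimePCore
  set N0 := N.map K.subtype with hN0
  set R0 := R.map K.subtype with hR0
  have hR0K : R0 ≤ K := Subgroup.map_subtype_le _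
  have hNR : N ≤ R := Cfsg.Agent.Lib.Cores.pPrimeCore_le_pPrimePCore q K
  have hAN0 : A ≤ Subgroup.normalizer (N0 : Set H) :=
    hAK.trans (Cfsg.Agent.Lib.PCoreTools.normalizer_le_of_characteristic hNchar)
  have hAR0 : A ≤ Subgroup.normalizer (R0 : Set H) :=
    hAK.trans (Cfsg.Agent.Lib.PCoreTools.normalizer_le_of_characteristic hRchar)
  have hAp : IsPGroup p A := Cfsg.Agent.Lib.CoprimeHyper.elemAb_isPGroup hA
  have hcopR : (Nat.card A).Coprime (Nat.card R0) := by
    obtain ⟨k, hk⟩ := IsPGroup.iff_card.mp hAp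
    rw [hk]
    apply Nat.Coprime.pow_left
    rw [Nat.Prime.coprime_iff_not_dvd hp]
    intro hd
    exact hK (hd.trans (Subgroup.card_dvd_of_le hR0K))
  have hAnil : Group.IsNilpotent A := hAp.isNilpotent
  obtain ⟨Q, hQR, hQq, hQi, hAQ⟩ := Cfsg.Agent.Lib.CoprimeAction.exists_invariant_sylow hAR0 hcopR
    (Or.inl inferInstance) q
  have hQK : Q ≤ K := hQR.trans hR0K
  have hA1 : A ≠ ⊥ := by
    rintro rfl
    rw [Subgroup.card_bot] at hA2
    have : 1 < p ^ 2 := Nat.one_lt_pow (by norm_num) hp.one_lt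
    omega
  set π := QuotientGroup.mk' N with hπ
  have hcore : Cfsg.pPrimeCore q (K ⧸ N) = ⊥ := Cfsg.Agent.Lib.Cores.pPrimeCore_quotient_pPrimeCore q K
  have hsolQ : Group.IsSolvable (K ⧸ N) := Group.isSolvable_of_surjective (QuotientGroup.mk'_surjective N)
  have hcc : Subgroup.centralizer (Cfsg.pCore q (K ⧸ N) : Set (K ⧸ N)) ≤ Cfsg.pCore q (K ⧸ N) :=
    Cfsg.Agent.Lib.Cores.centralizer_pCore_le hcore
  set D' := (Subgroup.centralizer (((U.subgroupOf K).map π : Subgroup (K ⧸ N)) : Set (K ⧸ N))).comap π with hD'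
  set D := D'.map K.subtype with hD
  -- elements `u` and `x` with trivial commutator
  have hQD : Q ≤ D := by
    apply Cfsg.Agent.Lib.CoprimeHyper.le_of_hyper_eq hA hA1 _ hAQ
    · intro B hB hBi x hx
      obtain ⟨hxQ, hxB⟩ := Subgroup.mem_inf.mp hx
      have hxK : x ∈ K := hQK hxQ
      refine ⟨⟨x, hxK⟩, ?_, rfl⟩
      have hxR : (⟨x, hxK⟩ : K) ∈ R := by
        obtain ⟨y, hy, hyx⟩ := hQR hxQ
        have : y = ⟨x, hxK⟩ := Subtype.ext hyx
        rwa [← this]
      refine Subgroup.mem_comap.mpr (Subgroup.mem_centralizer_iff.mpr ?_)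
      rintro _ ⟨u, hu, rfl⟩
      have huU : (u : H) ∈ U := Subgroup.mem_subgroupOf.mp hu
      -- the commutator
      have h1 : ⁅u, (⟨x, hxK⟩ : K)⁆ ∈ R := by
        rw [commutatorElement_def]
        exact mul_mem ((inferInstance : R.Normal).conj_mem _ hxR u) (inv_mem hxR)
      have h2 : π ⁅u, (⟨x, hxK⟩ : K)⁆ ∈ Cfsg.pCore q (K ⧸ N) := h1
      have h3 : (⁅u, (⟨x, hxK⟩ : K)⁆ : K) = (1 : K) ∨ ¬ q ∣ orderOf (⁅u, (⟨x, hxK⟩ : K)⁆ : K) := by
        right
        intro hd
        apply hcomm B hB hBi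
        have h4 : ((⁅u, (⟨x, hxK⟩ : K)⁆ : K) : H) ∈ ⁅U, K ⊓ Subgroup.centralizer (B : Set H)⁆ :=
          Subgroup.commutator_mem_commutator huU (Subgroup.mem_inf.mpr ⟨hxK, hxB⟩)
        have h5 : orderOf ((⁅u, (⟨x, hxK⟩ : K)⁆ : K) : H) ∣ Nat.card ↥⁅U, K ⊓ Subgroup.centralizer (B : Set H)⁆ := by
          rw [← Nat.card_zpowers]
          exact Subgroup.card_dvd_of_le (by rw [Subgroup.zpowers_le]; exact h4)
        rw [Subgroup.orderOf_coe] at h5
        exact hd.trans h5
      have h6 : π ⁅u, (⟨x, hxK⟩ : K)⁆ = 1 := by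
        rcases h3 with h3 | h3
        · rw [h3, map_one]
        · obtain ⟨k, hk⟩ := IsPGroup.iff_orderOf.mp (Cfsg.Agent.Lib.Cores.isPGroup_pCore q (K ⧸ N)) ⟨_, h2⟩
          rw [Subgroup.orderOf_mk] at hk
          have h7 := orderOf_map_dvd π ⁅u, (⟨x, hxK⟩ : K)⁆
          rw [hk] at h7
          have h8 : k = 0 := by
            by_contra hk0
            exact h3 ((dvd_pow_self q hk0).trans h7)
          rw [h8, pow_zero] at hk
          exact orderOf_eq_one_iff.mp hk
      rw [map_commutatorElement, commutatorElement_eq_one_iff_mul_comm] at h6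
      exact h6
    · intro hd
      exact hK (hd.trans (Subgroup.card_dvd_of_le hQK))
  -- `R ≤ D'`
  have hRD : R ≤ D' := by
    have hND : N ≤ D' := by
      intro n hn
      refine Subgroup.mem_comap.mpr ?_
      have : π n = 1 := by rw [hπ, ← MonoidHom.mem_ker, QuotientGroup.ker_mk']; exact hn
      rw [this]; exact one_mem _
    have hQD' : Q.subgroupOf K ≤ D' := by
      intro x hx
      obtain ⟨y, hy, hyx⟩ := hQD (Subgroup.mem_subgroupOf.mp hx)
      have : y = x := Subtype.ext hyx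
      rwa [← this]
    -- `R = N ⊔ Q`
    have h1 : (Q.subgroupOf K) ⊔ N ≤ R := by
      refine sup_le ?_ hNR
      intro x hx
      obtain ⟨y, hy, hyx⟩ := hQR (Subgroup.mem_subgroupOf.mp hx)
      have : y = x := Subtype.ext hyx
      rwa [← this]
    have h2 : (Q.subgroupOf K) ⊔ N = R := by
      apply Subgroup.eq_of_le_of_card_ge h1
      -- index of the join in `R` is prime to `q` and a power of `q`
      have h3 : ((Q.subgroupOf K) ⊔ N).relIndex R = 1 := by
        by_contra hne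
        obtain ⟨r, hr, hrd⟩ := Nat.exists_prime_and_dvd hne
        have h4 : ((Q.subgroupOf K) ⊔ N).relIndex R ∣ (Q.subgroupOf K).relIndex R :=
          Subgroup.relIndex_dvd_of_le_left _ le_sup_left
        have h5 : ((Q.subgroupOf K) ⊔ N).relIndex R ∣ N.relIndex R :=
          Subgroup.relIndex_dvd_of_le_left _ le_sup_right
        have h6 : (Q.subgroupOf K).relIndex R = Q.relIndex R0 := by
          rw [hR0]
          have e1 : Q = (Q.subgroupOf K).map K.subtype := by
            rw [Subgroup.subgroupOf_map_subtype, inf_of_le_left hQK]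
          conv_rhs => rw [e1]
          rw [Subgroup.relIndex_map_map_of_injective _ _ K.subtype_injective]
        have h7 : N.relIndex R * 1 = Nat.card (Cfsg.pCore q (K ⧸ N)) := by
          have h8 := Cfsg.Agent.Lib.Cores.card_comap_mk N (Cfsg.pCore q (K ⧸ N))
          have h9 := Cfsg.Agent.Lib.Cores.card_mul_relIndex hNR
          have h10 : (Cfsg.pCore q (K ⧸ N)).comap (QuotientGroup.mk' N) = R := rfl
          rw [h10, ← h9] at h8
          have h11 : 0 < Nat.card N := Nat.card_pos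
          rw [mul_one]
          exact Nat.eq_of_mul_eq_mul_left h11 (by rw [h8])
        obtain ⟨k, hk⟩ := IsPGroup.iff_card.mp (Cfsg.Agent.Lib.Cores.isPGroup_pCore q (K ⧸ N))
        rw [mul_one, hk] at h7
        have h8 : r ∣ q ^ k := by rw [← h7]; exact hrd.trans h5
        have h9 : r = q := (Nat.prime_dvd_prime_iff_eq hr hq).mp (hr.dvd_of_dvd_pow h8)
        rw [h6] at h4
        rw [h9] at hrd
        exact hQi (hrd.trans h4)
      rw [Subgroup.relIndex_eq_one] at h3
      exact Subgroup.card_le_of_le h3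
    rw [← h2]
    exact sup_le hQD' hND
  -- conclusion
  intro u hu
  refine ⟨⟨u, hU hu⟩, ?_, rfl⟩
  have h1 : π ⟨u, hU hu⟩ ∈ Cfsg.pCore q (K ⧸ N) := by
    apply hcc
    rw [Subgroup.mem_centralizer_iff]
    intro y hy
    obtain ⟨x, rfl⟩ := QuotientGroup.mk'_surjective N y
    have hxR : x ∈ R := hy
    have h2 := Subgroup.mem_centralizer_iff.mp (Subgroup.mem_comap.mp (hRD hxR))
    exact (h2 (π ⟨u, hU hu⟩) ⟨⟨u, hU hu⟩, Subgroup.mem_subgroupOf.mpr hu, rfl⟩).symm
  obtain ⟨k, hk⟩ := IsPGroup.iff_orderOf.mp (Cfsg.Agent.Lib.Cores.isPGroup_pCore q (K ⧸ N)) ⟨_, h1⟩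
  rw [Subgroup.orderOf_mk] at hk
  have h7 := orderOf_map_dvd π ⟨u, hU hu⟩
  have h8 : k = 0 := by
    by_contra hk0
    apply hUq
    rw [hk, Subgroup.orderOf_mk] at h7
    refine (dvd_pow_self q hk0).trans (h7.trans ?_)
    rw [← Nat.card_zpowers]
    exact Subgroup.card_dvd_of_le (by rw [Subgroup.zpowers_le]; exact hu)
  rw [h8, pow_zero, orderOf_eq_one_iff, hπ, ← MonoidHom.mem_ker, QuotientGroup.ker_mk'] at hk
  exact hk

end Cfsg.Agent.S1288
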