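import Cfsg.Statements.S1289
import Cfsg.Agent.Lib.PComponents

set_option autoImplicit false
open Cfsg Cfsg.Agent.Lib.Components Cfsg.Agent.Lib.Layer Cfsg.Agent.Lib.CompRel Cfsg.Agent.Lib.PComponents

namespace Cfsg.Agent.S1289

/-- A p-component K of the finite group X is subnormal, perfect, of order divisible by p, and minimal among the subnormal perfect subgroups of X of order divisible by p. -/
theorem result {X : Type*} [Group X] [Finite X] (p : ℕ) [Fact p.Prime] (K : Subgroup X) (hK : Cfsg.IsPComponent p K) : K.IsSubnormal ∧ ⁅K, K⁆ = K ∧ p ∣ Nat.card ↥K ∧ ∀ H : Subgroup X, H ≤ K → H.IsSubnormal → ⁅H, H⁆ = H → p ∣ Nat.card ↥H → H = K := by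
  refine ⟨hK.1, pComponent_perfect hK, dvd_card_pComponent hK, ?_⟩
  intro H hHK hH hperf hdvd
  apply hK.2.2 H hH hHK
  set π := QuotientGroup.mk' (Cfsg.pPrimeCore p X) with hπ
  have hsurj : Function.Surjective π := QuotientGroup.mk'_surjective _
  rcases subnormal_le_component hK.2.1 (hH.map hsurj) (Subgroup.map_mono hHK) with h | h
  · exfalso
    have h1 : H.map π = ⊥ := by
      apply eq_bot_of_perfect_of_le_centralizer
      · rw [← Subgroup.map_commutator, hperf]
      · exact (Subgroup.map_mono hHK).trans h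
    rw [Subgroup.map_eq_bot_iff, QuotientGroup.ker_mk'] at h1
    have h2 : Nat.card ↥H ∣ Nat.card ↥(Cfsg.pPrimeCore p X) := Subgroup.card_dvd_of_le h1
    have h3 := Cfsg.Agent.Lib.H23Basic.coprime_card_pPrimeCore (G := X) p
    exact ((Fact.out : p.Prime).coprime_iff_not_dvd.mp h3.symm) (hdvd.trans h2)
  · exact h

end Cfsg.Agent.S1289
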