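import Cfsg.Statements.S1298
import Cfsg.Agent.Lib.H22KBal

set_option autoImplicit false
open Cfsg Cfsg.Agent.Lib

namespace Cfsg.Agent.S1298

/-- Let G be finite and k ≥ 1. Suppose that for every x of order p, writing C = C_G(x), every component K of C / O_{p'}(C) has K / Z(K) locally k-balanced for p. Then G is k-balanced for p. -/
theorem result {G : Type*} [Group G] [Finite G] (p k : ℕ) [Fact p.Prime] (hk : 1 ≤ k) (h : ∀ x : G, orderOf x = p → ∀ K : Subgroup (↥(Subgroup.centralizer ({x} : Set G)) ⧸ Cfsg.pPrimeCore p ↥(Subgroup.centralizer ({x} : Set G))), Cfsg.IsComponent K → Cfsg.IsLocallyKBalanced p k (↥K ⧸ Subgroup.center ↥K)) : Cfsg.IsKBalanced p k G := by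
  exact H22KBal.isKBalanced hk h

end Cfsg.Agent.S1298
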