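import Cfsg.Statements.S1299
import Cfsg.Agent.Lib.KBalance

set_option autoImplicit false
open Cfsg Cfsg.Agent.Lib.Balance Cfsg.Agent.Lib.KBalance

namespace Cfsg.Agent.S1299

/-- Let G be finite and k-balanced for the prime p (k ≥ 1), A an elementary abelian p-subgroup of order at least p^(k+2) such that O_{p'}(C_G(a)) is solvable for every non-identity a ∈ A. For a ∈ A put θ a = the subgroup generated by the Δ_G(D) ∩ C_G(a) over the subgroups D ≤ A of order p^k. Then θ is an A-signalizer functor. -/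
theorem result {G : Type*} [Group G] [Finite G] (p k : ℕ) [Fact p.Prime] (hk : 1 ≤ k) (hbal : Cfsg.IsKBalanced p k G) (A : Subgroup G) (hA : Cfsg.IsElementaryAbelian p A) (hAk : p ^ (k + 2) ≤ Nat.card ↥A) (hsolv : ∀ a ∈ A, a ≠ 1 → Group.IsSolvable ↥(Cfsg.centralizerPPrimeCore p a)) : Cfsg.IsSignalizerFunctor p A (fun a => ⨆ D : {D : Subgroup G // D ≤ A ∧ Nat.card ↥D = p ^ k}, Cfsg.signalizerDelta p (D : Subgroup G) ⊓ Subgroup.centralizer {a}) := by
  have hpp : p.Prime := Fact.out
  have hp1 : 1 < p := hpp.one_lt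
  -- `Δ(D)` facts
  have hΔle : ∀ (D : Subgroup G) (d : G), d ∈ D → d ≠ 1 →
      Cfsg.signalizerDelta p D ≤ Cfsg.centralizerPPrimeCore p d := fun D d hd hd1 =>
    iInf_le (fun a : {a : G // a ∈ D ∧ a ≠ 1} => Cfsg.centralizerPPrimeCore p (a : G)) ⟨d, hd, hd1⟩
  have hΔC : ∀ D : Subgroup G, Cfsg.signalizerDelta p D ≤ Subgroup.centralizer (D : Set G) := by
    intro D x hx
    rw [Subgroup.mem_centralizer_iff]
    intro d hd
    by_cases hd1 : d = 1
    · rw [hd1, one_mul, mul_one]
    · have := cpc_le d (hΔle D d hd hd1 hx)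
      exact (Subgroup.mem_centralizer_singleton_iff.mp this).symm
  have hΔn : ∀ D : Subgroup G, Subgroup.centralizer (D : Set G) ≤
      Subgroup.normalizer (Cfsg.signalizerDelta p D : Set G) := by
    intro D
    rw [Subgroup.le_normalizer_iff]
    intro c hc x hx
    rw [Cfsg.signalizerDelta, Subgroup.mem_iInf] at hx ⊢
    rintro ⟨d, hd, hd1⟩
    have h1 : c ∈ Subgroup.centralizer ({d} : Set G) := by
      rw [Subgroup.mem_centralizer_singleton_iff]
      exact ((Subgroup.mem_centralizer_iff.mp hc) d hd).symm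
    exact (Subgroup.mem_normalizer_iff.mp (cpc_normalizer (p := p) d h1) x).mp (hx ⟨d, hd, hd1⟩)
  have hΔmono : ∀ D E : Subgroup G, D ≤ E → Cfsg.signalizerDelta p E ≤ Cfsg.signalizerDelta p D := by
    intro D E hDE
    apply le_iInf
    rintro ⟨d, hd, hd1⟩
    exact hΔle E d (hDE hd) hd1
  have hord : ∀ a ∈ A, a ≠ 1 → orderOf a = p := fun a ha ha1 =>
    Lib.CoprimeHyper.orderOf_eq_of_ne_one hA ha ha1
  have hAC : ∀ D : Subgroup G, D ≤ A → A ≤ Subgroup.centralizer (D : Set G) := fun D hD =>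
    (Lib.CoprimeHyper.elemAb_le_centralizer hA).trans (Subgroup.centralizer_le hD)
  -- subgroups of order `p ^ k`
  have hsub : ∀ D : Subgroup G, D ≤ A → p ^ k ≤ Nat.card ↥D →
      ∃ D₀ : Subgroup G, D₀ ≤ D ∧ Nat.card ↥D₀ = p ^ k := by
    intro D hD hDk
    obtain ⟨n, hn⟩ := IsPGroup.iff_card.mp
      (Lib.CoprimeHyper.elemAb_isPGroup (Lib.CoprimeHyper.elemAb_mono hA hD))
    have hkn : k ≤ n := by
      rw [hn] at hDk
      exact (Nat.pow_le_pow_iff_right hp1).mp hDk
    obtain ⟨K, hK⟩ := Sylow.exists_subgroup_card_pow_prime (G := ↥D) p (n := k)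
      (by rw [hn]; exact pow_dvd_pow p hkn)
    exact ⟨K.map D.subtype, Subgroup.map_subtype_le K, by rw [Subgroup.card_subtype]; exact hK⟩
  have hbal' : ∀ D : Subgroup G, D ≤ A → p ^ k ≤ Nat.card ↥D → ∀ b ∈ A, b ≠ 1 →
      Cfsg.signalizerDelta p D ⊓ Subgroup.centralizer {b} ≤ Cfsg.centralizerPPrimeCore p b := by
    intro D hD hDk b hb hb1
    obtain ⟨D₀, hD₀, hc⟩ := hsub D hD hDk
    refine (inf_le_inf_right _ (hΔmono D₀ D hD₀)).trans ?_
    apply hbal D₀ (Lib.CoprimeHyper.elemAb_mono hA (hD₀.trans hD)) hc b (hord b hb hb1)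
    intro a ha
    exact Lib.CoprimeHyper.elemAb_comm hA (hD (hD₀ ha)) hb
  -- the balanced family on `P = O_{p'}(C(a))`
  have hfam : ∀ a ∈ A, a ≠ 1 → BalFam p k A (Cfsg.centralizerPPrimeCore p a)
      (fun D => Cfsg.signalizerDelta p D ⊓ Subgroup.centralizer {a}) := by
    intro a ha ha1
    have hAa : A ≤ Subgroup.centralizer ({a} : Set G) := by
      intro b hb
      rw [Subgroup.mem_centralizer_singleton_iff]
      exact Lib.CoprimeHyper.elemAb_comm hA hb ha
    refine ⟨?_, ?_, ?_, ?_, ?_⟩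
    · intro D hD hDk
      exact hbal' D hD hDk a ha ha1
    · intro D hD hDk
      exact inf_le_left.trans (hΔC D)
    · intro D hD hDk
      refine (le_inf ?_ ?_).trans Subgroup.inf_normalizer_le_normalizer_inf
      · exact inf_le_right.trans (hΔn D)
      · exact (inf_le_left.trans (cpc_le a)).trans Subgroup.le_normalizer
    · intro D hD hDk
      refine (le_inf ?_ ?_).trans Subgroup.inf_normalizer_le_normalizer_inf
      · exact (hAC D hD).trans (hΔn D)
      · exact hAa.trans Subgroup.le_normalizer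
    · intro D E hDE hE hDk
      apply le_antisymm
      · intro x hx
        obtain ⟨hx1, hxE⟩ := Subgroup.mem_inf.mp hx
        obtain ⟨hxD, hxa⟩ := Subgroup.mem_inf.mp hx1
        refine Subgroup.mem_inf.mpr ⟨?_, hxa⟩
        rw [Cfsg.signalizerDelta, Subgroup.mem_iInf]
        rintro ⟨e, he, he1⟩
        apply hbal' D (hDE.trans hE) hDk e (hE he) he1
        refine Subgroup.mem_inf.mpr ⟨hxD, ?_⟩
        rw [Subgroup.mem_centralizer_singleton_iff]
        exact ((Subgroup.mem_centralizer_iff.mp hxE) e he).symm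
      · refine le_inf (inf_le_inf_right _ (hΔmono D E hDE)) (inf_le_left.trans (hΔC E))
  -- identification of `θ a`
  have hθ : ∀ a ∈ A, a ≠ 1 →
      (⨆ D : {D : Subgroup G // D ≤ A ∧ Nat.card ↥D = p ^ k},
        Cfsg.signalizerDelta p (D : Subgroup G) ⊓ Subgroup.centralizer {a}) =
      gen p A (fun D => Cfsg.signalizerDelta p D ⊓ Subgroup.centralizer {a})
        (Cfsg.centralizerPPrimeCore p a) := by
    intro a ha ha1
    have hAP : A ≤ Subgroup.normalizer (Cfsg.centralizerPPrimeCore p a : Set G) := by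
      refine le_trans ?_ (cpc_normalizer a)
      intro b hb
      rw [Subgroup.mem_centralizer_singleton_iff]
      exact Lib.CoprimeHyper.elemAb_comm hA hb ha
    apply le_antisymm
    · apply iSup_le
      rintro ⟨D, hD, hDc⟩
      have h1 := le_gen hA hAk (cpc_not_dvd a) (hfam a ha ha1) hAP hD hDc.ge
      refine le_trans (le_inf le_rfl ?_) h1
      exact (hfam a ha ha1).le D hD hDc.ge
    · apply iSup_le
      rintro ⟨B, hB, hBi⟩
      have hBk : p ^ k ≤ Nat.card ↥B := pow_le_pow_succ'.trans (card_hyper hAk hB hBi)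
      obtain ⟨D₀, hD₀, hc⟩ := hsub B hB hBk
      refine inf_le_left.trans ((inf_le_inf_right _ (hΔmono D₀ B hD₀)).trans ?_)
      exact le_iSup (fun D : {D : Subgroup G // D ≤ A ∧ Nat.card ↥D = p ^ k} =>
        Cfsg.signalizerDelta p (D : Subgroup G) ⊓ Subgroup.centralizer {a})
        ⟨D₀, hD₀.trans hB, hc⟩
  refine ⟨?_, ?_, ?_, ?_⟩
  · intro a _ _
    exact iSup_le fun D => inf_le_right
  · intro a ha ha1
    simp only []
    rw [hθ a ha ha1]
    exact not_dvd_of_le (cpc_not_dvd a) (gen_le hAk (hfam a ha ha1) _)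
  · intro a ha ha1 b hb x hx
    simp only [] at hx ⊢
    rw [hθ a ha ha1] at hx ⊢
    have hAP : A ≤ Subgroup.normalizer (Cfsg.centralizerPPrimeCore p a : Set G) := by
      refine le_trans ?_ (cpc_normalizer a)
      intro b hb
      rw [Subgroup.mem_centralizer_singleton_iff]
      exact Lib.CoprimeHyper.elemAb_comm hA hb ha
    exact (Subgroup.mem_normalizer_iff.mp (gen_normalizer hAk (hfam a ha ha1) hAP hb) x).mp hx
  · intro a ha ha1 b hb hb1
    simp only []
    rw [hθ a ha ha1]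
    have hAP : A ≤ Subgroup.normalizer (Cfsg.centralizerPPrimeCore p a : Set G) := by
      refine le_trans ?_ (cpc_normalizer a)
      intro b hb
      rw [Subgroup.mem_centralizer_singleton_iff]
      exact Lib.CoprimeHyper.elemAb_comm hA hb ha
    -- generated by fixed points of hyperplanes
    have hA1 : A ≠ ⊥ := ne_bot_of_card (n := k + 2) (by omega) hAk
    have hgn := gen_normalizer hAk (hfam a ha ha1) hAP
    have hbA : A ≤ Subgroup.centralizer ({b} : Set G) := by
      intro c hc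
      rw [Subgroup.mem_centralizer_singleton_iff]
      exact Lib.CoprimeHyper.elemAb_comm hA hc hb
    apply Lib.CoprimeHyper.le_of_hyper_eq hA hA1
      (not_dvd_of_le (cpc_not_dvd a) (inf_le_left.trans (gen_le hAk (hfam a ha ha1) _)))
      ((le_inf hgn (hbA.trans Subgroup.le_normalizer)).trans
        Subgroup.inf_normalizer_le_normalizer_inf)
    intro B hB hBi x hx
    obtain ⟨hx1, hxB⟩ := Subgroup.mem_inf.mp hx
    obtain ⟨hxg, hxb⟩ := Subgroup.mem_inf.mp hx1
    have hBk : p ^ k ≤ Nat.card ↥B := pow_le_pow_succ'.trans (card_hyper hAk hB hBi)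
    have h1 : x ∈ Cfsg.signalizerDelta p B ⊓ Subgroup.centralizer {a} := by
      rw [← family_inf_centralizer hA hAk (cpc_not_dvd a) (hsolv a ha ha1) (hfam a ha ha1) hAP hB hBk]
      exact Subgroup.mem_inf.mpr ⟨hxg, hxB⟩
    obtain ⟨D₀, hD₀, hc⟩ := hsub B hB hBk
    have h2 : x ∈ Cfsg.signalizerDelta p D₀ ⊓ Subgroup.centralizer {b} :=
      Subgroup.mem_inf.mpr ⟨hΔmono D₀ B hD₀ (Subgroup.mem_inf.mp h1).1, hxb⟩
    exact (le_iSup (fun D : {D : Subgroup G // D ≤ A ∧ Nat.card ↥D = p ^ k} =>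
        Cfsg.signalizerDelta p (D : Subgroup G) ⊓ Subgroup.centralizer {b})
        ⟨D₀, hD₀.trans hB, hc⟩) h2

end Cfsg.Agent.S1299
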