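import Cfsg.Statements.S1300
import Cfsg.Agent.Lib.CompRel

set_option autoImplicit false
open Cfsg Cfsg.Agent.Lib.Components Cfsg.Agent.Lib.Layer Cfsg.Agent.Lib.CompRel

namespace Cfsg.Agent.S1300

/-- For a finite group G, balance in the sense of commuting involutions is the same as 1-balance for the prime 2. -/
theorem result {G : Type*} [Group G] [Finite G] : Cfsg.IsBalanced G ↔ Cfsg.IsKBalanced 2 1 G := by
  have hcore_le : ∀ x : G, Cfsg.centralizerPPrimeCore 2 x ≤ Subgroup.centralizer {x} :=
    fun x => Subgroup.map_subtype_le _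
  constructor
  · intro h A hA hcard b hb hcomm
    have hA1 : ∃ a ∈ A, a ≠ 1 := by
      by_contra hcon
      push Not at hcon
      have : A = ⊥ := (Subgroup.eq_bot_iff_forall A).mpr hcon
      rw [this] at hcard
      simp at hcard
    obtain ⟨a, ha, ha1⟩ := hA1
    have ha2 : orderOf a = 2 := orderOf_eq_prime (hA.2 a ha) ha1
    have h1 : Cfsg.signalizerDelta 2 A ≤ Cfsg.centralizerPPrimeCore 2 a :=
      iInf_le (fun a : {a : G // a ∈ A ∧ a ≠ 1} => Cfsg.centralizerPPrimeCore 2 (a : G)) ⟨a, ha, ha1⟩
    calc Cfsg.signalizerDelta 2 A ⊓ Subgroup.centralizer {b}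
        ≤ Cfsg.centralizerPPrimeCore 2 a ⊓ Subgroup.centralizer {b} := inf_le_inf_right _ h1
      _ = Cfsg.centralizerPPrimeCore 2 b ⊓ Subgroup.centralizer {a} := h a b ha2 hb (hcomm a ha)
      _ ≤ _ := inf_le_left
  · intro h
    have key : ∀ x y : G, orderOf x = 2 → orderOf y = 2 → x * y = y * x →
        Cfsg.centralizerPPrimeCore 2 x ⊓ Subgroup.centralizer {y} ≤
          Cfsg.centralizerPPrimeCore 2 y ⊓ Subgroup.centralizer {x} := by
      intro x y hx hy hxy
      apply le_inf _ (inf_le_left.trans (hcore_le x))
      have hzp : ∀ a ∈ Subgroup.zpowers x, a = 1 ∨ a = x := by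
        intro a ha
        obtain ⟨k, rfl⟩ := Subgroup.mem_zpowers_iff.mp ha
        rcases Int.even_or_odd' k with ⟨c, hc | hc⟩
        · left
          rw [hc, zpow_mul]
          have : x ^ (2 : ℤ) = 1 := by
            have := pow_orderOf_eq_one x
            rw [hx] at this
            exact_mod_cast this
          rw [this, one_zpow]
        · right
          rw [hc, zpow_add, zpow_mul]
          have : x ^ (2 : ℤ) = 1 := by
            have := pow_orderOf_eq_one x
            rw [hx] at this
            exact_mod_cast this
          rw [this, one_zpow, one_mul, zpow_one]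
      have hx2 : x ^ 2 = 1 := by
        have := pow_orderOf_eq_one x
        rwa [hx] at this
      have hA : Cfsg.IsElementaryAbelian 2 (Subgroup.zpowers x) := by
        refine ⟨inferInstance, ?_⟩
        intro a ha
        rcases hzp a ha with rfl | rfl
        · simp
        · exact hx2
      have hcard : Nat.card ↥(Subgroup.zpowers x) = 2 ^ 1 := by
        rw [Nat.card_zpowers, hx, pow_one]
      have h1 := h (Subgroup.zpowers x) hA hcard y hy (by
        intro a ha
        rcases hzp a ha with rfl | rfl
        · simp
        · exact hxy)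
      refine le_trans (inf_le_inf_right _ ?_) h1
      apply le_iInf
      rintro ⟨a, ha, ha1⟩
      rcases hzp a ha with rfl | rfl
      · exact absurd rfl ha1
      · exact le_rfl
    intro x y hx hy hxy
    exact le_antisymm (key x y hx hy hxy) (key y x hy hx hxy.symm)

end Cfsg.Agent.S1300
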