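import Cfsg.Statements.S1303
import Cfsg.Agent.Lib.ClSL23
import Cfsg.Agent.Lib.PConstraint

set_option autoImplicit false
open Cfsg

namespace Cfsg.Agent.S1303

open Cfsg.Agent.Lib

/-- The group X = SL(2, 3): it is 2-constrained, O_{2'}(X) = 1, its centre A = Z(X) contains every involution of X = C_X(A), and X has a subgroup of order 3 (normalized by A) not contained in O_{2'}(X). -/
theorem result : Cfsg.IsPConstrained 2 (Matrix.SpecialLinearGroup (Fin 2) (ZMod 3)) ∧ Cfsg.pPrimeCore 2 (Matrix.SpecialLinearGroup (Fin 2) (ZMod 3)) = ⊥ ∧ (∀ t : Matrix.SpecialLinearGroup (Fin 2) (ZMod 3), orderOf t = 2 → t ∈ Subgroup.center (Matrix.SpecialLinearGroup (Fin 2) (ZMod 3))) ∧ ∃ Q : Subgroup (Matrix.SpecialLinearGroup (Fin 2) (ZMod 3)), Nat.card ↥Q = 3 ∧ ¬ (Q ≤ Cfsg.pPrimeCore 2 (Matrix.SpecialLinearGroup (Fin 2) (ZMod 3))) := by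
  obtain ⟨Q, hQn, hi, he, hc, hQ⟩ := ClSL23.exists_Q
  have h24 : Nat.card (Matrix.SpecialLinearGroup (Fin 2) (ZMod 3)) = 24 := SLTwoThree.card_SL
  have hcore : Cfsg.pPrimeCore 2 (Matrix.SpecialLinearGroup (Fin 2) (ZMod 3)) = ⊥ := by
    rw [Cfsg.pPrimeCore, eq_bot_iff]
    apply sSup_le
    rintro N ⟨hN, hN2⟩
    rcases ClSL23.normal_cases N with h | h | h | h
    · rw [h]
    · rw [h, Subgroup.card_top, h24] at hN2; norm_num at hN2
    · rw [h, ClSL23.card_center_eq] at hN2; norm_num at hN2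
    · have : N = Q := by ext x; rw [h, hQ]
      rw [this, hc] at hN2
      norm_num at hN2
  refine ⟨?_, hcore, ?_, ?_⟩
  · rw [PConstraint.isPConstrained_iff_of_pPrimeCore_eq_bot hcore]
    have hQp : Q ≤ Cfsg.pCore 2 (Matrix.SpecialLinearGroup (Fin 2) (ZMod 3)) := by
      apply le_sSup
      refine ⟨hQn, IsPGroup.of_card (n := 3) (by rw [hc]; norm_num)⟩
    refine le_trans (Subgroup.centralizer_le (fun x hx => hQp hx)) (le_trans ?_ hQp)
    intro x hx
    rw [Subgroup.mem_centralizer_iff] at hx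
    have h1 : ∀ y : ClSL23.G, y * y = -1 → y * x = x * y := fun y hy => hx y ((hQ y).2 (Or.inr (Or.inr hy)))
    rw [hQ]
    have key : ∀ x : ClSL23.G, (∀ y : ClSL23.G, y * y = -1 → y * x = x * y) → x = 1 ∨ x = -1 ∨ x * x = -1 := by
      decide +kernel
    exact key x h1
  · intro t ht
    have h1 : t * t = 1 := by
      have h := pow_orderOf_eq_one t
      rw [ht, pow_two] at h
      exact h
    rw [ClSL23.mem_center_iff']
    exact ClSL23.inv_unique t h1
  · obtain ⟨P⟩ : Nonempty (Sylow 3 (Matrix.SpecialLinearGroup (Fin 2) (ZMod 3))) := inferInstance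
    have hP : Nat.card P = 3 := ClSL2.card_sylow_char_SL2 (F := ZMod 3) (q := 3) (p := 3) (ZMod.card 3) P
    refine ⟨(P : Subgroup _), hP, ?_⟩
    rw [hcore, le_bot_iff]
    intro h
    have : Nat.card (P : Subgroup (Matrix.SpecialLinearGroup (Fin 2) (ZMod 3))) = 3 := hP
    rw [h, Subgroup.card_bot] at this
    omega

end Cfsg.Agent.S1303
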