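import Cfsg.Statements.S1304
import Mathlib.Tactic.Group
-- import your own Cfsg.Agent.* helpers here

set_option autoImplicit false
open Cfsg

namespace Cfsg.Agent.S1304

/-- Let X be a perfect group and α an automorphism of X with α(x) x⁻¹ central for every x. Then α is the identity. -/
theorem result {X : Type*} [Group X] (hperf : commutator X = ⊤) (α : X ≃* X) (h : ∀ x : X, α x * x⁻¹ ∈ Subgroup.center X) : ∀ x : X, α x = x := by
  -- `z x = α x * x⁻¹` is a homomorphism into the centre
  let z : X →* Subgroup.center X :=
    { toFun := fun x => ⟨α x * x⁻¹, h x⟩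
      map_one' := by ext; simp
      map_mul' := by
        intro x y
        ext
        have hy := Subgroup.mem_center_iff.mp (h y) x⁻¹
        simp only [map_mul, mul_inv_rev, Subgroup.coe_mul]
        calc α x * α y * (y⁻¹ * x⁻¹) = α x * ((α y * y⁻¹) * x⁻¹) := by group
          _ = α x * (x⁻¹ * (α y * y⁻¹)) := by rw [hy]
          _ = α x * x⁻¹ * (α y * y⁻¹) := by group }
  have hker : commutator X ≤ z.ker := by
    rw [commutator_def, Subgroup.commutator_le]
    intro a _ b _
    rw [MonoidHom.mem_ker, map_commutatorElement, commutatorElement_eq_one_iff_mul_comm]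
    exact (Subgroup.mem_center_iff.mp (z b).2 (z a : X)) |> fun h => Subtype.ext h
  intro x
  have hx : x ∈ z.ker := hker (by rw [hperf]; exact Subgroup.mem_top x)
  have hx' : ((z x : Subgroup.center X) : X) = 1 := by
    rw [MonoidHom.mem_ker.mp hx]; rfl
  have : α x * x⁻¹ = 1 := hx'
  exact mul_inv_eq_one.mp this

end Cfsg.Agent.S1304
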