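import Cfsg.Statements.S1305
import Cfsg.Agent.Lib.GlaubComp2

set_option autoImplicit false
open Cfsg

namespace Cfsg.Agent.S1305

universe u
open Subgroup Cfsg.Agent.Lib
open scoped commutatorElement
open Cfsg.Agent.Lib.LocBase Cfsg.Agent.Lib.GlaubComp
open Cfsg.Agent.Lib.Components Cfsg.Agent.Lib.Layer Cfsg.Agent.Lib.PComponents

theorem main {G : Type u} [Group G] [Finite G] (hO : Cfsg.oddCore G = ⊥) (hB : Cfsg.HasBProperty G)
    (a : G) (ha : orderOf a = 2) (K : Subgroup G) (hKa : K ≤ centralizer ({a} : Set G))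
    (hK : IsComponent (K.subgroupOf (centralizer ({a} : Set G))))
    (hmax : ∀ y : G, orderOf y = 2 → ∀ K' : Subgroup G, K' ≤ centralizer ({y} : Set G) →
      IsComponent (K'.subgroupOf (centralizer ({y} : Set G))) → Nat.card ↥K' ≤ Nat.card ↥K ∧
      (Nat.card ↥K' = Nat.card ↥K → ∀ k : ℕ, Cfsg.PRankLE 2 k ↥(centralizer ({a} : Set G) ⊓ centralizer (K : Set G)) →
        Cfsg.PRankLE 2 k ↥(centralizer ({y} : Set G) ⊓ centralizer (K' : Set G))))
    (hrk : ¬ Cfsg.PRankLE 2 1 ↥K) (B : Subgroup G)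
    (hBle : B ≤ centralizer ({a} : Set G) ⊓ centralizer (K : Set G)) (hBel : Cfsg.IsElementaryAbelian 2 B)
    (hBmax : ∀ B' : Subgroup G, B' ≤ centralizer ({a} : Set G) ⊓ centralizer (K : Set G) →
      Cfsg.IsElementaryAbelian 2 B' → Nat.card ↥B' ≤ Nat.card ↥B) (b : G) (hb : b ∈ B) (hb1 : b ≠ 1) :
    K ≤ centralizer ({b} : Set G) ∧ IsComponent (K.subgroupOf (centralizer ({b} : Set G))) := by
  have hBc : ∀ x ∈ B, ∀ y ∈ B, x * y = y * x := fun x hx y hy => by
    have := hBel.1.1.1 (⟨x, hx⟩ : B) ⟨y, hy⟩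
    exact congrArg Subtype.val this
  have hcomm_a : ∀ x ∈ B, a * x = x * a := fun x hx => mem_centralizer_iff.1 (hBle hx).1 a rfl
  have hcomm_K : ∀ x ∈ B, ∀ k ∈ K, k * x = x * k := fun x hx k hk => mem_centralizer_iff.1 (hBle hx).2 k hk
  have haK : ∀ k ∈ K, a * k = k * a := fun k hk => mem_centralizer_iff.1 (hKa hk) a rfl
  -- `a ∈ B`
  have haB : a ∈ B := by
    have h1 : IsElementaryAbelian 2 (B ⊔ zpowers a) := by
      have hc : zpowers a ≤ centralizer (B : Set G) := by
        rw [zpowers_le, mem_centralizer_iff]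
        intro x hx
        exact (hcomm_a x hx).symm
      have hform : ∀ x ∈ B ⊔ zpowers a, ∃ y ∈ B, ∃ j : ℤ, x = y * a ^ j := by
        intro x hx
        obtain ⟨y, hy, _, ⟨j, rfl⟩, rfl⟩ := exists_mul_of_mem_sup_of_le (hc.trans (centralizer_le_normalizer _)) hx
        exact ⟨y, hy, j, rfl⟩
      have hcj : ∀ x ∈ B, ∀ j : ℤ, x * a ^ j = a ^ j * x := fun x hx j =>
        ((Commute.zpow_left (hcomm_a x hx) j)).symm.eq
      refine ⟨⟨⟨?_⟩⟩, ?_⟩
      · rintro ⟨x, hx⟩ ⟨y, hy⟩
        apply Subtype.ext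
        change x * y = y * x
        obtain ⟨x, hx', i, rfl⟩ := hform x hx
        obtain ⟨y, hy', j, rfl⟩ := hform y hy
        calc x * a ^ i * (y * a ^ j) = x * (a ^ i * y) * a ^ j := by group
          _ = x * (y * a ^ i) * a ^ j := by rw [hcj y hy']
          _ = (x * y) * (a ^ i * a ^ j) := by group
          _ = (y * x) * (a ^ j * a ^ i) := by rw [hBc x hx' y hy', ← zpow_add, ← zpow_add, add_comm]
          _ = y * (x * a ^ j) * a ^ i := by group
          _ = y * (a ^ j * x) * a ^ i := by rw [hcj x hx']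
          _ = _ := by group
      · intro x hx
        obtain ⟨x, hx', i, rfl⟩ := hform x hx
        have h2 : (a ^ i) ^ 2 = 1 := by
          have h3 : a ^ 2 = 1 := by rw [← ha, pow_orderOf_eq_one]
          rw [← zpow_natCast, ← zpow_mul, mul_comm, zpow_mul, zpow_natCast, h3, one_zpow]
        have h3 : Commute x (a ^ i) := hcj x hx' i
        rw [h3.mul_pow, hBel.2 x hx', h2, one_mul]
    have h2 := hBmax (B ⊔ zpowers a) (sup_le hBle (by
      rw [zpowers_le]
      refine ⟨?_, ?_⟩
      · exact mem_centralizer_iff.2 (fun y hy => by rw [show y = a from hy])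
      · exact mem_centralizer_iff.2 (fun k hk => (haK k hk).symm))) h1
    have h3 : B = B ⊔ zpowers a := Subgroup.eq_of_le_of_card_ge le_sup_left h2
    rw [h3]; exact mem_sup_right (mem_zpowers a)
  have hb2 : orderOf b = 2 := orderOf_eq_prime (hBel.2 b hb) hb1
  have hKb : K ≤ centralizer ({b} : Set G) := by
    intro k hk
    exact mem_centralizer_iff.2 (fun y hy => by rw [show y = b from hy]; exact (hcomm_K b hb k hk).symm)
  refine ⟨hKb, ?_⟩
  set Cb := centralizer ({b} : Set G) with hCb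
  have haCb : a ∈ Cb := mem_centralizer_iff.2 (fun y hy => by rw [show y = b from hy]; exact (hcomm_a b hb).symm)
  have hBCb : B ≤ Cb := fun x hx =>
    mem_centralizer_iff.2 (fun y hy => by rw [show y = b from hy]; exact hBc b hb x hx)
  set t : Cb := ⟨a, haCb⟩ with ht
  have ht2 : orderOf t = 2 := by rw [← Subgroup.orderOf_coe]; exact ha
  set L := K.subgroupOf Cb with hL
  have hct : centralizer ({t} : Set Cb) = (centralizer ({a} : Set G)).subgroupOf Cb := by
    ext x
    rw [mem_subgroupOf, mem_centralizer_iff, mem_centralizer_iff]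
    constructor
    · intro h y hy
      rw [show y = a from hy]
      exact congrArg Subtype.val (h t rfl)
    · intro h y hy
      rw [show y = t from hy]
      exact Subtype.ext (h a rfl)
  have hLt : L ≤ centralizer ({t} : Set Cb) := by
    rw [hct]; exact fun x hx => hKa hx
  have hKsub : Subn K (centralizer ({a} : Set G)) := (subn_iff hKa).2 hK.1
  have hKq : IsQuasisimple K := (quasisimple_subgroupOf hKa).1 hK.2
  have hLc : IsComponent (L.subgroupOf (centralizer ({t} : Set Cb))) := by
    refine ⟨?_, ?_⟩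
    · rw [← subn_iff hLt, hct]
      have h1 : Subn (K.comap Cb.subtype) ((centralizer ({a} : Set G)).comap Cb.subtype) := hKsub.comap _
      exact h1
    · rw [quasisimple_subgroupOf hLt, quasisimple_subgroupOf hKb]; exact hKq
  have hLcard : Nat.card L = Nat.card K := Nat.card_congr (subgroupOfEquivOfLe hKb).toEquiv
  -- even order
  have hPK : ∃ E : Subgroup K, IsMulCommutative E ∧ (∀ x ∈ E, x ^ 2 = 1) ∧ 2 < Nat.card E := by
    by_contra hcon
    apply hrk
    intro A hA hA2
    by_contra hlt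
    exact hcon ⟨A, hA, hA2, by omega⟩
  obtain ⟨E₀, hE₀c, hE₀2, hE₀⟩ := hPK
  have heven : ¬ Odd (Nat.card L) := by
    rw [hLcard]
    intro hodd
    have h1 : ∀ x ∈ E₀, x = 1 := by
      intro x hx
      have h2 : orderOf x ∣ 2 := orderOf_dvd_of_pow_eq_one (hE₀2 x hx)
      have h3 : orderOf x ∣ Nat.card K := orderOf_dvd_natCard x
      have h4 : orderOf x ∣ 1 := by
        rw [← Nat.coprime_two_left.2 hodd]
        exact Nat.dvd_gcd h2 h3
      exact orderOf_eq_one_iff.1 (Nat.dvd_one.1 h4)
    have h2 : E₀ = ⊥ := by rw [eq_bot_iff]; intro x hx; rw [mem_bot]; exact h1 x hx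
    rw [h2, Subgroup.card_bot] at hE₀
    omega
  -- the 2-layer of `C_G(b)`
  have hpl : pLayer 2 Cb ≤ layer Cb := by
    have h2 : Fact (Nat.Prime 2) := ⟨Nat.prime_two⟩
    apply pLayer_le_layer
    have h3 := hB b hb2
    rw [hO, le_bot_iff, Subgroup.map_eq_bot_iff_of_injective _ (subtype_injective _)] at h3
    exact h3
  have hLE : L ≤ layer Cb := (le_pLayer ht2 hLt hLc heven).trans hpl
  obtain ⟨D, hD, h1 | ⟨h1, -, -⟩ | ⟨hDt, hLd, -⟩⟩ := trichotomy ht2 hLt hLc hLE
  · rw [h1]; exact hD
  · exfalso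
    have h2 := hmax b hb2 (D.map Cb.subtype) (map_subtype_le _) (by
      have : (D.map Cb.subtype).subgroupOf Cb = D := by
        rw [Subgroup.subgroupOf, Subgroup.comap_map_eq_self_of_injective Cb.subtype_injective]
      rw [this]; exact hD)
    have h3 : Nat.card (D.map Cb.subtype) = Nat.card D := Cores.card_map_subtype D
    have h4 := card_lt_of_lt h1
    rw [hLcard] at h4
    rw [h3] at h2
    omega
  · exfalso
    set D₁ := D.map Cb.subtype with hD₁
    have hD₁s : D₁.subgroupOf Cb = D := by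
      rw [hD₁, Subgroup.subgroupOf, Subgroup.comap_map_eq_self_of_injective Cb.subtype_injective]
    have h2 := hmax b hb2 D₁ (map_subtype_le _) (by rw [hD₁s]; exact hD)
    have hD₁card : Nat.card D₁ = Nat.card D := Cores.card_map_subtype D
    have hc : D ≤ centralizer (cj t D : Set Cb) := components_commute hD (isComponent_conj t hD) (Ne.symm hDt)
    set δ := diag ht2 hc with hδ
    have hδL : δ.range = L := by
      ext x
      rw [hLd x, MonoidHom.mem_range]
      constructor
      · rintro ⟨d, rfl⟩; exact ⟨d, d.2, rfl⟩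
      · rintro ⟨d, hd, rfl⟩; exact ⟨⟨d, hd⟩, rfl⟩
    have hcardD : Nat.card D = Nat.card K := by
      apply le_antisymm
      · rw [← hD₁card]; exact h2.1
      · rw [← hLcard, ← hδL]
        exact Nat.card_le_card_of_surjective _ δ.rangeRestrict_surjective
    have hinj' : Function.Injective δ := by
      have h3 : Function.Bijective δ.rangeRestrict := by
        rw [Nat.bijective_iff_surjective_and_card]
        refine ⟨δ.rangeRestrict_surjective, ?_⟩
        rw [hδL, hLcard, hcardD]
      intro x y hxy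
      exact h3.1 (Subtype.ext hxy)
    have hinj : ∀ d ∈ D, d * (t * d * t⁻¹) = 1 → d = 1 := by
      intro d hd h3
      have h4 : δ ⟨d, hd⟩ = δ 1 := by rw [map_one]; exact h3
      exact congrArg Subtype.val (hinj' h4)
    set B' := B.subgroupOf Cb with hB'
    -- the elementary abelian subgroup of `D`
    set E₁ : Subgroup Cb := (E₀.map K.subtype).subgroupOf Cb with hE₁
    have hE₁L : E₁ ≤ L := Subgroup.comap_mono (map_subtype_le _)
    set E : Subgroup Cb := (E₁.comap δ).map D.subtype with hE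
    have hED : E ≤ D := map_subtype_le _
    have hEcard : Nat.card E = Nat.card E₀ := by
      rw [hE, Cores.card_map_subtype]
      have h3 : (E₁.comap δ).map δ = E₁ := map_comap_eq_self (by rw [hδL]; exact hE₁L)
      rw [← Nat.card_congr ((E₁.comap δ).equivMapOfInjective δ hinj').toEquiv.symm, h3, hE₁,
        Nat.card_congr (subgroupOfEquivOfLe ((map_subtype_le _).trans hKb)).toEquiv, Cores.card_map_subtype]
    have hE₁p : ∀ x ∈ E₁, ∃ e ∈ E₀, ((e : K) : G) = x := fun x hx => by
      obtain ⟨e, he, h3⟩ := (mem_subgroupOf.1 hx)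
      exact ⟨e, he, h3⟩
    have hE₀comm : ∀ x ∈ E₀, ∀ y ∈ E₀, x * y = y * x := fun x hx y hy => by
      have := hE₀c.1.1 (⟨x, hx⟩ : E₀) ⟨y, hy⟩
      exact congrArg Subtype.val this
    have hEc : IsMulCommutative E := by
      refine ⟨⟨?_⟩⟩
      rintro ⟨_, ⟨x, hx, rfl⟩⟩ ⟨_, ⟨y, hy, rfl⟩⟩
      apply Subtype.ext
      change (D.subtype x) * (D.subtype y) = D.subtype y * D.subtype x
      rw [← map_mul, ← map_mul]
      congr 1
      apply hinj'
      rw [map_mul, map_mul]
      obtain ⟨e, he, h3⟩ := hE₁p _ hx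
      obtain ⟨f, hf, h4⟩ := hE₁p _ hy
      apply Subtype.ext
      change ((δ x : Cb) : G) * (δ y : Cb) = (δ y : Cb) * (δ x : Cb)
      rw [← h3, ← h4, ← Subgroup.coe_mul, ← Subgroup.coe_mul, hE₀comm e he f hf]
    have hE2 : ∀ x ∈ E, x ^ 2 = 1 := by
      rintro _ ⟨x, hx, rfl⟩
      rw [← map_pow]
      have h4 : x ^ 2 = 1 := by
        apply hinj'
        rw [map_pow, map_one]
        obtain ⟨e, he, h3⟩ := hE₁p _ hx
        apply Subtype.ext
        change ((δ x : Cb) : G) ^ 2 = 1
        rw [← h3, ← Subgroup.coe_pow, hE₀2 e he, Subgroup.coe_one]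
      rw [h4, map_one]
    have hB'L : ∀ x ∈ B', ∀ d ∈ D, x * (d * (t * d * t⁻¹)) = d * (t * d * t⁻¹) * x := by
      intro x hx d hd
      have h3 : d * (t * d * t⁻¹) ∈ L := (hLd _).2 ⟨d, hd, rfl⟩
      exact Subtype.ext (hcomm_K x hx _ h3).symm
    have hLD : L ≤ D ⊔ cj t D := by
      intro x hx
      obtain ⟨d, hd, rfl⟩ := (hLd x).1 hx
      exact mul_mem (mem_sup_left hd) (mem_sup_right ⟨d, hd, rfl⟩)
    have hperm : ∀ x ∈ B', cj x D = D ∨ cj x D = cj t D := by
      intro x hx
      by_contra hcon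
      push Not at hcon
      have hx1 := isComponent_conj x hD
      have h3 : cj x D ≤ centralizer ((D ⊔ cj t D : Subgroup Cb) : Set Cb) :=
        le_centralizer_sup (components_commute hx1 hD hcon.1)
          (components_commute hx1 (isComponent_conj t hD) hcon.2)
      have h4 : cj x D ≤ centralizer (L : Set Cb) := h3.trans (centralizer_le hLD)
      have h5 : D ≤ centralizer (L : Set Cb) := by
        intro d hd
        have h6 : x * d * x⁻¹ ∈ centralizer (L : Set Cb) := h4 ⟨d, hd, rfl⟩
        rw [mem_centralizer_iff] at h6 ⊢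
        intro l hl
        have hxl : x * l = l * x := Subtype.ext (hcomm_K x hx l hl).symm
        have h7 := h6 l hl
        have h8 : l = x * l * x⁻¹ := by rw [hxl]; group
        have h9 : x * (l * d) * x⁻¹ = x * (d * l) * x⁻¹ := by
          calc x * (l * d) * x⁻¹ = (x * l * x⁻¹) * (x * d * x⁻¹) := by group
            _ = (x * d * x⁻¹) * (x * l * x⁻¹) := by rw [← h8, h7]
            _ = _ := by group
        exact mul_left_cancel (mul_right_cancel h9)
      have h6 : ⁅D, D⁆ ≤ ⊥ := by
        rw [commutator_le]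
        intro x hx y hy
        have h7 := mem_centralizer_iff.1 (h5 hx) _ ((hLd _).2 ⟨y, hy, rfl⟩)
        have h8 : (t * y * t⁻¹) * x = x * (t * y * t⁻¹) :=
          mem_centralizer_iff.1 (hc hx) _ ⟨y, hy, rfl⟩
        rw [mem_bot, commutatorElement_def, mul_inv_eq_one, mul_inv_eq_iff_eq_mul]
        have h9 : (y * x) * (t * y * t⁻¹) = (x * y) * (t * y * t⁻¹) := by
          calc (y * x) * (t * y * t⁻¹) = y * (x * (t * y * t⁻¹)) := by group
            _ = y * ((t * y * t⁻¹) * x) := by rw [h8]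
            _ = y * (t * y * t⁻¹) * x := by group
            _ = x * (y * (t * y * t⁻¹)) := h7
            _ = _ := by group
        exact (mul_right_cancel h9).symm
      rw [component_perfect hD, le_bot_iff] at h6
      exact component_ne_bot hD h6
    have hB'c : IsMulCommutative B' := by
      refine ⟨⟨?_⟩⟩
      rintro ⟨x, hx⟩ ⟨y, hy⟩
      exact Subtype.ext (Subtype.ext (hBc x hx y hy))
    obtain ⟨A, hAc, hA2, hAB, hAD, hAcard⟩ := exists_bigger ht2 hc hinj hB'c
      (fun x hx => Subtype.ext (hBel.2 x hx)) haB hB'L hperm hED hEc hE2 (by rw [hEcard]; exact hE₀)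
    have hB'card : Nat.card B' = Nat.card B := Nat.card_congr (subgroupOfEquivOfLe hBCb).toEquiv
    -- the rank of `C(a) ∩ C(K)`
    have hBp : IsPGroup 2 B := fun x => ⟨1, Subtype.ext (by
      rw [pow_one]; exact hBel.2 x x.2)⟩
    have h2f : Fact (Nat.Prime 2) := ⟨Nat.prime_two⟩
    obtain ⟨k, hk⟩ := IsPGroup.iff_card.1 hBp
    have hr1 : PRankLE 2 k ↥(centralizer ({a} : Set G) ⊓ centralizer (K : Set G)) := by
      intro A' hA' hA'2
      rw [← hk, ← Cores.card_map_subtype A']
      apply hBmax _ (map_subtype_le _)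
      refine ⟨⟨⟨?_⟩⟩, ?_⟩
      · rintro ⟨_, ⟨x, hx, rfl⟩⟩ ⟨_, ⟨y, hy, rfl⟩⟩
        apply Subtype.ext
        have h3 := hA'.1.1 (⟨x, hx⟩ : A') ⟨y, hy⟩
        exact congrArg (fun z : A' => ((z : ↥(centralizer ({a} : Set G) ⊓ centralizer (K : Set G))) : G)) h3
      · rintro _ ⟨x, hx, rfl⟩
        rw [← map_pow, hA'2 x hx, map_one]
    have hr2 := h2.2 (hD₁card.trans hcardD) k hr1
    have hle : A.map Cb.subtype ≤ centralizer ({b} : Set G) ⊓ centralizer (D₁ : Set G) := by
      rintro _ ⟨x, hx, rfl⟩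
      refine ⟨x.2, ?_⟩
      apply mem_centralizer_iff.2
      rintro _ ⟨d, hd, rfl⟩
      exact congrArg Subtype.val (mem_centralizer_iff.1 (hAD hx) d hd)
    have h3 := hr2 ((A.map Cb.subtype).subgroupOf _) (by
      refine ⟨⟨?_⟩⟩
      rintro ⟨z, hz⟩ ⟨w, hw⟩
      obtain ⟨x, hx, hxz⟩ := mem_subgroupOf.1 hz
      obtain ⟨y, hy, hyw⟩ := mem_subgroupOf.1 hw
      apply Subtype.ext
      apply Subtype.ext
      have h3 := hAc.1.1 (⟨x, hx⟩ : A) ⟨y, hy⟩
      change (z : G) * (w : G) = w * z
      rw [← hxz, ← hyw]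
      exact congrArg (fun z : A => ((z : Cb) : G)) h3) (by
      intro z hz
      obtain ⟨x, hx, hxz⟩ := mem_subgroupOf.1 hz
      apply Subtype.ext
      change (z : G) ^ 2 = 1
      rw [← hxz]
      exact congrArg Subtype.val (hA2 x hx))
    rw [Nat.card_congr (subgroupOfEquivOfLe hle).toEquiv, Cores.card_map_subtype, ← hk, ← hB'card] at h3
    omega

/-- Let G be a finite group of component type with the B-property and no nontrivial normal subgroup of odd order. Let a be an involution and K a component of C_G(a) such that (a) |K| is maximal among the orders of components of centralizers of involutions of G, (b) subject to (a) the 2-rank of the centralizer of K in C_G(a) is as large as possible, and (c) K has 2-rank at least 2. If B is an elementary abelian 2-subgroup of that centralizer of the largest possible order, then K is a component of C_G(b) for every non-identity b ∈ B. -/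
theorem result {G : Type*} [Group G] [Finite G] (hO : Cfsg.oddCore G = ⊥) (hB : Cfsg.HasBProperty G) (hct : Cfsg.IsComponentType G) (a : G) (ha : orderOf a = 2) (K : Subgroup G) (hKa : K ≤ Subgroup.centralizer ({a} : Set G)) (hK : Cfsg.IsComponent (K.subgroupOf (Subgroup.centralizer ({a} : Set G)))) (hmax : ∀ y : G, orderOf y = 2 → ∀ K' : Subgroup G, K' ≤ Subgroup.centralizer ({y} : Set G) → Cfsg.IsComponent (K'.subgroupOf (Subgroup.centralizer ({y} : Set G))) → Nat.card ↥K' ≤ Nat.card ↥K ∧ (Nat.card ↥K' = Nat.card ↥K → ∀ k : ℕ, Cfsg.PRankLE 2 k ↥(Subgroup.centralizer ({a} : Set G) ⊓ Subgroup.centralizer (K : Set G)) → Cfsg.PRankLE 2 k ↥(Subgroup.centralizer ({y} : Set G) ⊓ Subgroup.centralizer (K' : Set G)))) (hrk : ¬ Cfsg.PRankLE 2 1 ↥K) (B : Subgroup G) (hBle : B ≤ Subgroup.centralizer ({a} : Set G) ⊓ Subgroup.centralizer (K : Set G)) (hBel : Cfsg.IsElementaryAbelian 2 B) (hBmax : ∀ B' : Subgroup G, B' ≤ Subgroup.centralizer ({a} : Set G) ⊓ Subgroup.centralizer (K : Set G) → Cfsg.IsElementaryAbelian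 2 B' → Nat.card ↥B' ≤ Nat.card ↥B) (b : G) (hb : b ∈ B) (hb1 : b ≠ 1) : K ≤ Subgroup.centralizer ({b} : Set G) ∧ Cfsg.IsComponent (K.subgroupOf (Subgroup.centralizer ({b} : Set G))) := by
  exact main hO hB a ha K hKa hK hmax hrk B hBle hBel hBmax b hb hb1

end Cfsg.Agent.S1305
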