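import Cfsg.Statements.S1306
import Cfsg.Agent.Lib.CompRel

set_option autoImplicit false
open Cfsg Cfsg.Agent.Lib.Components Cfsg.Agent.Lib.Layer Cfsg.Agent.Lib.CompRel

namespace Cfsg.Agent.S1306

/-- Let G be finite, x an involution and L ≤ C_G(x) a component of C_G(x). Suppose L is a component of C_G(y) for every involution y ∈ C_G(L), and ⁅L, g L g⁻¹⁆ ≠ 1 whenever g L g⁻¹ ≠ L. Then L is a standard subgroup of G. -/
theorem result {G : Type*} [Group G] [Finite G] (x : G) (hx : orderOf x = 2) (L : Subgroup G) (hLx : L ≤ Subgroup.centralizer ({x} : Set G)) (hL : Cfsg.IsComponent (L.subgroupOf (Subgroup.centralizer ({x} : Set G)))) (hne : ∀ y : G, orderOf y = 2 → y ∈ Subgroup.centralizer (L : Set G) → L ≤ Subgroup.centralizer ({y} : Set G) ∧ Cfsg.IsComponent (L.subgroupOf (Subgroup.centralizer ({y} : Set G)))) (hnc : ∀ g : G, L.map (MulAut.conj g).toMonoidHom ≠ L → ⁅L, L.map (MulAut.conj g).toMonoidHom⁆ ≠ ⊥) : Cfsg.IsStandardSubgroup L := by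
  -- `L` is quasisimple
  have hLq : Cfsg.IsQuasisimple ↥L := (quasisimple_subgroupOf hLx).mp hL.2
  have hxL : x ∈ Subgroup.centralizer (L : Set G) := by
    rw [Subgroup.mem_centralizer_iff]
    intro l hl
    exact ((Subgroup.mem_centralizer_iff.mp (hLx hl)) x rfl).symm
  have hconj : ∀ (g y : G), y ∈ Subgroup.centralizer ((L.map (MulAut.conj g).toMonoidHom : Subgroup G) : Set G) →
      g⁻¹ * y * g ∈ Subgroup.centralizer (L : Set G) := by
    intro g y hy
    rw [Subgroup.mem_centralizer_iff] at hy ⊢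
    intro l hl
    have h1 := hy (g * l * g⁻¹) ⟨l, hl, by simp⟩
    calc l * (g⁻¹ * y * g) = g⁻¹ * (g * l * g⁻¹ * y) * g := by group
      _ = g⁻¹ * (y * (g * l * g⁻¹)) * g := by rw [h1]
      _ = g⁻¹ * y * g * l := by group
  -- if an involution centralizes `L` and `L^g` then they are equal
  have key : ∀ (g y : G), orderOf y = 2 → y ∈ Subgroup.centralizer (L : Set G) →
      y ∈ Subgroup.centralizer ((L.map (MulAut.conj g).toMonoidHom : Subgroup G) : Set G) →
      L.map (MulAut.conj g).toMonoidHom = L := by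
    intro g y hy hyL hyLg
    by_contra hcon
    apply hnc g hcon
    obtain ⟨h1, h2⟩ := hne y hy hyL
    have hy' : orderOf (g⁻¹ * y * g) = 2 := by
      have := (MulAut.conj g⁻¹).orderOf_eq y
      simpa [hy] using this
    obtain ⟨h3, h4⟩ := hne (g⁻¹ * y * g) hy' (hconj g y hyLg)
    -- `L^g` is a component of `C(y)`
    have h5 : L.map (MulAut.conj g).toMonoidHom ≤ Subgroup.centralizer ({y} : Set G) := by
      rintro _ ⟨l, hl, rfl⟩
      rw [Subgroup.mem_centralizer_singleton_iff]
      exact ((Subgroup.mem_centralizer_iff.mp hyLg) _ ⟨l, hl, rfl⟩)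
    have h6 : Cfsg.IsComponent ((L.map (MulAut.conj g).toMonoidHom).subgroupOf
        (Subgroup.centralizer ({y} : Set G))) := by
      apply isComponent_conj_subgroupOf g _ h4
      rw [map_conj_centralizer_singleton]
      have : g * (g⁻¹ * y * g) * g⁻¹ = y := by group
      rw [this]
    rw [← le_centralizer_iff_commutator]
    exact components_commute_rel h1 h5 h2 h6 (fun h => hcon h.symm)
  have hN1 : Subgroup.normalizer (L : Set G) ≤
      Subgroup.normalizer (Subgroup.centralizer (L : Set G) : Set G) := by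
    intro g hg
    apply mem_normalizer_of_map_conj
    rw [map_conj_centralizer, map_conj_of_mem_normalizer hg]
  have hN2 : Subgroup.normalizer (Subgroup.centralizer (L : Set G) : Set G) ≤
      Subgroup.normalizer (L : Set G) := by
    intro g hg
    apply mem_normalizer_of_map_conj
    apply key g x hx hxL
    have h1 := map_conj_of_mem_normalizer hg
    rw [map_conj_centralizer] at h1
    rw [h1]
    exact hxL
  refine ⟨hLq, ⟨?_, ?_⟩, hnc, le_antisymm hN1 hN2⟩
  · -- even order
    have h1 : orderOf (⟨x, hxL⟩ : ↥(Subgroup.centralizer (L : Set G))) = 2 := by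
      rw [Subgroup.orderOf_mk]; exact hx
    exact even_iff_two_dvd.mpr (h1 ▸ orderOf_dvd_natCard _)
  · intro g hg
    by_contra hodd
    rw [Nat.not_odd_iff_even, even_iff_two_dvd] at hodd
    have : Fact (Nat.Prime 2) := ⟨Nat.prime_two⟩
    obtain ⟨y, hy⟩ := exists_prime_orderOf_dvd_card' 2 hodd
    have hy2 : orderOf (y : G) = 2 := by rw [Subgroup.orderOf_coe]; exact hy
    have hyC := (Subgroup.mem_inf.mp y.2).1
    have hyC' := (Subgroup.mem_inf.mp y.2).2
    have hyC2 := (map_conj_centralizer g L).le hyC'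
    apply hg
    apply hN1
    exact mem_normalizer_of_map_conj (key g y hy2 hyC hyC2)

end Cfsg.Agent.S1306
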