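import Cfsg.Statements.S1307
import Cfsg.Agent.Lib.ZStarIso
import Cfsg.Agent.Lib.UniqueInvolution
import Cfsg.Agent.Lib.Components
import Cfsg.Agent.Lib.Cores
import Cfsg.Agent.S0201

set_option autoImplicit false
open Cfsg Cfsg.Agent.Lib

namespace Cfsg.Agent.S1307
open Cfsg.Agent.Lib.Components

/-- the structure of quasisimple groups of 2-rank one -/
theorem struct {K : Type*} [Group K] [Finite K] (hK : IsQuasisimple K) (heven : Even (Nat.card K))
    (hrk : PRankLE 2 1 K) : ∃ u : K, orderOf u = 2 ∧ u ∈ Subgroup.center K ∧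
      ∃ S : Sylow 2 K, ∃ n : ℕ, Nonempty (↥(S : Subgroup K) ≃* QuaternionGroup (2 ^ (n + 1))) := by
  haveI : Fact (Nat.Prime 2) := ⟨Nat.prime_two⟩
  -- two commuting involutions are equal
  have huniq : ∀ x z : K, orderOf x = 2 → orderOf z = 2 → Commute x z → x = z := by
    intro x z hx hz hxz
    by_contra hne
    have hx2 : x ^ 2 = 1 := by rw [← hx]; exact pow_orderOf_eq_one x
    have hz2 : z ^ 2 = 1 := by rw [← hz]; exact pow_orderOf_eq_one z
    have hx1 : x ≠ 1 := by intro h; rw [h, orderOf_one] at hx; omega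
    have hz1 : z ≠ 1 := by intro h; rw [h, orderOf_one] at hz; omega
    have hcomm : ∀ a ∈ ({x, z} : Set K), ∀ b ∈ ({x, z} : Set K), a * b = b * a := by
      rintro a (rfl | rfl) b (rfl | rfl)
      · rfl
      · exact hxz
      · exact hxz.symm
      · rfl
    have hcc : ∀ a ∈ Subgroup.closure ({x, z} : Set K), ∀ b ∈ Subgroup.closure ({x, z} : Set K),
        a * b = b * a := by
      intro a ha b hb
      have h1 : Subgroup.closure ({x, z} : Set K) ≤
          Subgroup.centralizer (Subgroup.closure ({x, z} : Set K) : Set K) := by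
        rw [Subgroup.closure_le, Subgroup.centralizer_closure]
        intro c hc
        rw [SetLike.mem_coe, Subgroup.mem_centralizer_iff]
        intro d hd
        exact hcomm d hd c hc
      exact (Subgroup.mem_centralizer_iff.1 (h1 hb) a ha)
    have hA := hrk (Subgroup.closure ({x, z} : Set K))
      ⟨⟨fun a b => Subtype.ext (hcc a a.2 b b.2)⟩⟩ (by
        intro a ha
        induction ha using Subgroup.closure_induction with
        | mem y hy =>
          rcases hy with rfl | hy
          · exact hx2
          · rw [Set.mem_singleton_iff] at hy; rw [hy]; exact hz2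
        | one => simp
        | mul a b ha hb iha ihb =>
          have : Commute a b := hcc a ha b hb
          rw [this.mul_pow, iha, ihb, mul_one]
        | inv a ha iha => rw [inv_pow, iha, inv_one])
    have hxA : x ∈ Subgroup.closure ({x, z} : Set K) := Subgroup.subset_closure (by simp)
    have hzA : z ∈ Subgroup.closure ({x, z} : Set K) := Subgroup.subset_closure (by simp)
    have h3 : ({1, x, z} : Set K) ⊆ (Subgroup.closure ({x, z} : Set K) : Set K) := by
      rintro w (rfl | rfl | rfl)
      · exact one_mem _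
      · exact hxA
      · exact hzA
    have h4 := Set.ncard_le_ncard h3 (Set.toFinite _)
    rw [Set.ncard_eq_three.2 ⟨1, x, z, hx1.symm, hz1.symm, hne, rfl⟩] at h4
    have h5 : (Subgroup.closure ({x, z} : Set K) : Set K).ncard = Nat.card ↥(Subgroup.closure ({x, z} : Set K)) :=
      rfl
    rw [h5] at h4
    omega
  obtain ⟨P⟩ : Nonempty (Sylow 2 K) := inferInstance
  have hPne : (P : Subgroup K) ≠ ⊥ := by
    intro h
    have h1 := P.not_dvd_index
    rw [h, Subgroup.index_bot] at h1
    exact h1 heven.two_dvd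
  -- a central involution of P
  haveI : Nontrivial ↥(P : Subgroup K) := (Subgroup.nontrivial_iff_ne_bot _).2 hPne
  haveI : Nontrivial ↥(Subgroup.center ↥(P : Subgroup K)) := P.isPGroup'.center_nontrivial
  obtain ⟨u, hu⟩ : ∃ u : ↥(Subgroup.center ↥(P : Subgroup K)), orderOf u = 2 := by
    have h1 : IsPGroup 2 ↥(Subgroup.center ↥(P : Subgroup K)) := P.isPGroup'.to_subgroup _
    apply exists_prime_orderOf_dvd_card'
    obtain ⟨n, hn⟩ := IsPGroup.iff_card.1 h1
    rw [hn]
    apply dvd_pow_self
    rintro rfl
    have := Finite.one_lt_card (α := ↥(Subgroup.center ↥(P : Subgroup K)))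
    omega
  have hu1 : orderOf ((u : ↥(P : Subgroup K)) : K) = 2 := by
    rw [Subgroup.orderOf_coe, Subgroup.orderOf_coe, hu]
  have huP : ((u : ↥(P : Subgroup K)) : K) ∈ P := (u : ↥(P : Subgroup K)).2
  have hucomm : ∀ a ∈ P, Commute ((u : ↥(P : Subgroup K)) : K) a := by
    intro a ha
    have := (Subgroup.mem_center_iff.1 u.2) ⟨a, ha⟩
    exact (congrArg Subtype.val this).symm
  have hu2 : ∀ a ∈ P, orderOf a = 2 → a = ((u : ↥(P : Subgroup K)) : K) := fun a ha h =>
    (huniq _ _ hu1 h (hucomm a ha)).symm
  -- `u` is isolated, so central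
  have hZ := Cfsg.Agent.Lib.ZStarIso.inZStar_of_sylow
    (fun G _ _ S n e hO => Cfsg.Agent.S0201.result S n e hO) K P huP (by
      intro g hg
      exact hu2 _ hg ((orderOf_injective (MulAut.conj g).toMonoidHom (MulAut.conj g).injective
        ((u : ↥(P : Subgroup K)) : K)).trans hu1))
  have hodd : pPrimeCore 2 K ≤ Subgroup.center K := by
    rcases normal_le_center_or_eq_top hK (pPrimeCore 2 K) (hN := pPrimeCore_normal 2 K) with h | h
    · exact h
    · exfalso
      have h1 := Cfsg.Agent.Lib.Cores.coprime_card_pPrimeCore 2 K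
      rw [h, Subgroup.card_top] at h1
      rw [Nat.coprime_two_right] at h1
      exact (Nat.not_even_iff_odd.2 h1) heven
  have hucen : ((u : ↥(P : Subgroup K)) : K) ∈ Subgroup.center K := by
    set U : K := ((u : ↥(P : Subgroup K)) : K) with hUdef
    have hU : ⁅(⊤ : Subgroup K), Subgroup.zpowers U⁆ ≤ Subgroup.center K := by
      rw [Subgroup.commutator_le]
      intro g _ y hy
      have h1 : (QuotientGroup.mk' (Subgroup.center K)) U ∈ Subgroup.center (K ⧸ Subgroup.center K) := by
        rw [Subgroup.mem_center_iff]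
        intro q
        obtain ⟨q, rfl⟩ := QuotientGroup.mk'_surjective _ q
        rw [← map_mul, ← map_mul]
        have h2 : q * U * q⁻¹ * U⁻¹ ∈ Subgroup.center K := hodd (hZ q)
        rw [QuotientGroup.mk'_apply, QuotientGroup.mk'_apply, QuotientGroup.eq]
        have h3 : (q * U)⁻¹ * (U * q) = (U * q)⁻¹ * (q * U * q⁻¹ * U⁻¹)⁻¹ * (U * q) := by group
        rw [h3]
        have h4 := (Subgroup.center K).inv_mem h2
        have h5 := Subgroup.mem_center_iff.1 h4 (U * q)
        rw [mul_assoc, ← h5, ← mul_assoc, inv_mul_cancel, one_mul]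
        exact h4
      obtain ⟨k, rfl⟩ := Subgroup.mem_zpowers_iff.1 hy
      rw [← QuotientGroup.ker_mk' (Subgroup.center K), MonoidHom.mem_ker, map_commutatorElement,
        map_zpow, commutatorElement_eq_one_iff_commute]
      exact Commute.zpow_right ((Subgroup.mem_center_iff.1 h1) _) k
    have h2 : ⁅⁅(⊤ : Subgroup K), Subgroup.zpowers U⁆, (⊤ : Subgroup K)⁆ = ⊥ := by
      rw [eq_bot_iff, Subgroup.commutator_le]
      intro a ha b _
      rw [Subgroup.mem_bot, commutatorElement_eq_one_iff_commute]
      exact ((Subgroup.mem_center_iff.1 (hU ha)) b).symm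
    have hperf : ⁅(⊤ : Subgroup K), (⊤ : Subgroup K)⁆ = ⊤ := by
      have := hK.1
      rw [Group.isPerfect_def] at this
      exact this
    have h3 : ⁅Subgroup.zpowers U, (⊤ : Subgroup K)⁆ = ⊥ :=
      commutator_eq_bot_of_perfect hperf (by rw [Subgroup.commutator_comm (Subgroup.zpowers U)]; exact h2)
    rw [Subgroup.mem_center_iff]
    intro g
    have h4 : U * g * U⁻¹ * g⁻¹ ∈ (⊥ : Subgroup K) := by
      rw [← h3]
      exact Subgroup.commutator_mem_commutator (Subgroup.mem_zpowers U) (Subgroup.mem_top g)
    rw [Subgroup.mem_bot, mul_inv_eq_one, mul_inv_eq_iff_eq_mul] at h4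
    exact h4.symm
  refine ⟨_, hu1, hucen, P, ?_⟩
  rcases Lib.UniqueInvolution.isCyclic_or_quaternion (p := 2) P.isPGroup' (by
    intro x y hx hy
    have h1 := hu2 x x.2 (by rw [Subgroup.orderOf_coe]; exact hx)
    have h2 := hu2 y y.2 (by rw [Subgroup.orderOf_coe]; exact hy)
    have h3 : y = x := Subtype.ext (h2.trans h1.symm)
    rw [h3]
    exact Subgroup.mem_zpowers x) with hcyc | ⟨-, m, hm, ⟨e⟩⟩
  · exfalso
    have hmin : (Nat.card K).minFac = 2 := by
      rw [Nat.minFac_eq_two_iff]; exact heven.two_dvd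
    have hc := IsCyclic.isComplement' hmin hcyc
    have hn := normal_le_center_or_eq_top hK
      (MonoidHom.transferSylow P (hcyc.normalizer_le_centralizer hmin)).ker
    have h2 := MonoidHom.not_dvd_card_ker_transferSylow P (hcyc.normalizer_le_centralizer hmin)
    rcases hn with hn | hn
    · -- K / ker is abelian
      have h5 : commutator K ≤ (MonoidHom.transferSylow P (hcyc.normalizer_le_centralizer hmin)).ker := by
        haveI := hcyc
        letI : CommGroup ↥(P : Subgroup K) := IsCyclic.commGroup
        rw [commutator_def, Subgroup.commutator_le]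
        intro a _ b _
        rw [MonoidHom.mem_ker, map_commutatorElement, commutatorElement_eq_one_iff_commute]
        obtain ⟨c, hc⟩ := hcyc.exists_generator
        obtain ⟨i, hi⟩ := hc ((MonoidHom.transferSylow P (hcyc.normalizer_le_centralizer hmin)) a)
        obtain ⟨j, hj⟩ := hc ((MonoidHom.transferSylow P (hcyc.normalizer_le_centralizer hmin)) b)
        simp only at hi hj
        rw [← hi, ← hj]
        exact (Commute.refl c).zpow_zpow i j
      have hperf : commutator K = ⊤ := by
        have := hK.1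
        rw [Group.isPerfect_def] at this
        exact this
      rw [hperf, top_le_iff] at h5
      rw [h5, Subgroup.card_top] at h2
      exact h2 heven.two_dvd
    · rw [hn, Subgroup.card_top] at h2
      exact h2 heven.two_dvd
  · obtain ⟨m, rfl⟩ : ∃ m', m = m' + 1 := ⟨m - 1, by omega⟩
    exact ⟨m, ⟨e⟩⟩


/-- Let G be finite, x an involution and L ≤ C_G(x) a component of C_G(x) of even order and 2-rank 1, such that L is a component of C_G(y) for every involution y ∈ C_G(L). Then some involution of L is a classical involution of G. -/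
theorem result {G : Type*} [Group G] [Finite G] (x : G) (hx : orderOf x = 2) (L : Subgroup G) (hLx : L ≤ Subgroup.centralizer ({x} : Set G)) (hL : Cfsg.IsComponent (L.subgroupOf (Subgroup.centralizer ({x} : Set G)))) (heven : Even (Nat.card ↥L)) (hrk : Cfsg.PRankLE 2 1 ↥L) (hne : ∀ y : G, orderOf y = 2 → y ∈ Subgroup.centralizer (L : Set G) → L ≤ Subgroup.centralizer ({y} : Set G) ∧ Cfsg.IsComponent (L.subgroupOf (Subgroup.centralizer ({y} : Set G)))) : ∃ t ∈ L, Cfsg.IsClassicalInvolution t := by

  obtain ⟨hsn, hq⟩ := hL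
  have hqL : IsQuasisimple ↥L := (quasisimple_subgroupOf hLx).1 hq
  obtain ⟨u, hu, huc, S, n, he⟩ := struct hqL heven hrk
  have huo : orderOf (u : G) = 2 := by rw [Subgroup.orderOf_coe]; exact hu
  have hucen : (u : G) ∈ Subgroup.centralizer (L : Set G) := by
    rw [Subgroup.mem_centralizer_iff]
    intro y hy
    exact congrArg Subtype.val (Subgroup.mem_center_iff.1 huc ⟨y, hy⟩)
  obtain ⟨h1, h2⟩ := hne u huo hucen
  exact ⟨u, u.2, huo, L, h1, u.2, h2.1, S, n, he⟩

end Cfsg.Agent.S1307
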