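import Cfsg.Statements.S1314
import Cfsg.Agent.Lib.CompRel

set_option autoImplicit false
open Cfsg Cfsg.Agent.Lib.Components Cfsg.Agent.Lib.Layer Cfsg.Agent.Lib.CompRel

namespace Cfsg.Agent.S1314

/-- Let x be an involution of a group G and L a perfect subgroup with ⁅L, x L x⁻¹⁆ = 1. Then l ↦ l (x l x⁻¹) is a group homomorphism π from L to G whose kernel is central in L and whose image lies in C_G(x); and the commutator subgroup of C_{L ⊔ xLx⁻¹}(x) equals the image of π. -/
theorem result {G : Type*} [Group G] [Finite G] (x : G) (hx : orderOf x = 2) (L : Subgroup G) (hperf : ⁅L, L⁆ = L) (hcomm : ⁅L, L.map (MulAut.conj x).toMonoidHom⁆ = ⊥) : ∃ π : ↥L →* G, (∀ l : ↥L, π l = (l : G) * (x * (l : G) * x⁻¹)) ∧ π.ker ≤ Subgroup.center ↥L ∧ π.range ≤ Subgroup.centralizer ({x} : Set G) ∧ ⁅(L ⊔ L.map (MulAut.conj x).toMonoidHom) ⊓ Subgroup.centralizer ({x} : Set G), (L ⊔ L.map (MulAut.conj x).toMonoidHom) ⊓ Subgroup.centralizer ({x} : Set G)⁆ = π.range := by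
  have hx2 : x * x = 1 := by
    have := pow_orderOf_eq_one x
    rw [hx, pow_two] at this
    exact this
  have hxinv : x⁻¹ = x := inv_eq_of_mul_eq_one_left hx2
  set Lx := L.map (MulAut.conj x).toMonoidHom with hLx
  have hmem : ∀ l ∈ L, x * l * x⁻¹ ∈ Lx := fun l hl => ⟨l, hl, by simp⟩
  have hmem' : ∀ m ∈ Lx, x * m * x⁻¹ ∈ L := by
    rintro _ ⟨l, hl, rfl⟩
    have : x * (x * l * x⁻¹) * x⁻¹ = l := by
      rw [hxinv]
      calc x * (x * l * x) * x = (x * x) * l * (x * x) := by group
        _ = l := by rw [hx2]; group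
    simpa [this] using hl
  have hc : L ≤ Subgroup.centralizer (Lx : Set G) := le_centralizer_iff_commutator.mpr hcomm
  have hcm : ∀ l ∈ L, ∀ m ∈ Lx, m * l = l * m := fun l hl m hm =>
    Subgroup.mem_centralizer_iff.mp (hc hl) m hm
  let π : ↥L →* G :=
    { toFun := fun l => (l : G) * (x * (l : G) * x⁻¹)
      map_one' := by simp
      map_mul' := by
        intro a b
        have h1 := hcm b b.2 (x * a * x⁻¹) (hmem a a.2)
        calc ((a * b : ↥L) : G) * (x * ((a * b : ↥L) : G) * x⁻¹)
            = (a : G) * ((b : G) * (x * a * x⁻¹)) * (x * b * x⁻¹) := by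
              rw [Subgroup.coe_mul]; group
          _ = (a : G) * ((x * a * x⁻¹) * b) * (x * b * x⁻¹) := by rw [h1]
          _ = _ := by group }
  have hπ : ∀ l : ↥L, π l = (l : G) * (x * (l : G) * x⁻¹) := fun l => rfl
  have hrange : π.range ≤ Subgroup.centralizer ({x} : Set G) := by
    rintro _ ⟨l, rfl⟩
    rw [Subgroup.mem_centralizer_singleton_iff, hπ]
    have h1 := hcm l l.2 (x * l * x⁻¹) (hmem l l.2)
    calc (l : G) * (x * l * x⁻¹) * x = (l : G) * x * l := by group
      _ = (x * x) * ((l : G) * x * l) := by rw [hx2, one_mul]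
      _ = x * ((x * l * x⁻¹) * (x * x) * l) := by group
      _ = x * ((x * l * x⁻¹) * l) := by rw [hx2, mul_one]
      _ = x * ((l : G) * (x * l * x⁻¹)) := by rw [h1]
  have hrsup : π.range ≤ L ⊔ Lx := by
    rintro _ ⟨l, rfl⟩
    rw [hπ]
    exact mul_mem (Subgroup.mem_sup_left l.2) (Subgroup.mem_sup_right (hmem l l.2))
  have hrperf : ⁅π.range, π.range⁆ = π.range := by
    have h1 : Group.IsPerfect ↥L := isPerfect_iff'.mpr hperf
    exact isPerfect_iff'.mp (Group.IsPerfect.range π)
  refine ⟨π, hπ, ?_, hrange, ?_⟩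
  · intro l hl
    rw [MonoidHom.mem_ker, hπ] at hl
    rw [Subgroup.mem_center_iff]
    intro m
    ext
    have h1 : (l : G) = (x * (l : G) * x⁻¹)⁻¹ := eq_inv_of_mul_eq_one_left hl
    have h2 : (l : G) ∈ Lx := by rw [h1]; exact inv_mem (hmem l l.2)
    exact (hcm m m.2 l h2).symm
  · apply le_antisymm
    · set Z := L ⊓ Lx with hZ
      have hLLx : L ⊔ Lx ≤ Subgroup.centralizer (Z : Set G) := by
        apply sup_le
        · exact hc.trans (Subgroup.centralizer_le inf_le_right)
        · exact (le_centralizer_comm hc).trans (Subgroup.centralizer_le inf_le_left)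
      have hsub : (L ⊔ Lx) ⊓ Subgroup.centralizer ({x} : Set G) ≤ π.range ⊔ Z := by
        intro c hcc
        rw [Subgroup.mem_inf] at hcc
        obtain ⟨hc1, hc2⟩ := hcc
        rw [mem_sup_of_commute hc] at hc1
        obtain ⟨a, ha, b, hb, rfl⟩ := hc1
        rw [Subgroup.mem_centralizer_singleton_iff] at hc2
        -- `x a b x⁻¹ = a b`
        have h1 : (x * b * x⁻¹) * (x * a * x⁻¹) = a * b := by
          have h3 := hcm (x * b * x⁻¹) (hmem' b hb) (x * a * x⁻¹) (hmem a ha)
          rw [← h3]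
          calc x * a * x⁻¹ * (x * b * x⁻¹) = x * (a * b) * x⁻¹ := by group
            _ = (a * b) * x * x⁻¹ := by rw [hc2]
            _ = a * b := by group
        have h2 : a⁻¹ * (x * b * x⁻¹) = b * (x * a * x⁻¹)⁻¹ := by
          rw [eq_mul_inv_iff_mul_eq, mul_assoc, h1]; group
        set z := b * (x * a * x⁻¹)⁻¹ with hz
        have hzL : z ∈ L := by rw [← h2]; exact mul_mem (inv_mem ha) (hmem' b hb)
        have hzLx : z ∈ Lx := mul_mem hb (inv_mem (hmem a ha))
        have h4 : a * b = π ⟨a, ha⟩ * z := by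
          rw [hπ]
          have h5 : z * (x * a * x⁻¹) = b := by rw [hz]; group
          have h6 := hcm z hzL (x * a * x⁻¹) (hmem a ha)
          calc a * b = a * (z * (x * a * x⁻¹)) := by rw [h5]
            _ = a * ((x * a * x⁻¹) * z) := by rw [h6]
            _ = _ := by group
        rw [h4]
        exact mul_mem (Subgroup.mem_sup_left ⟨⟨a, ha⟩, rfl⟩) (Subgroup.mem_sup_right ⟨hzL, hzLx⟩)
      calc _ ≤ ⁅π.range ⊔ Z, π.range ⊔ Z⁆ := Subgroup.commutator_mono hsub hsub
        _ = ⁅π.range, π.range⁆ := by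
          apply commutator_sup_central
          exact (sup_le hrsup (inf_le_left.trans le_sup_left)).trans hLLx
        _ ≤ π.range := Subgroup.commutator_le_self _
    · calc π.range = ⁅π.range, π.range⁆ := hrperf.symm
        _ ≤ _ := Subgroup.commutator_mono (le_inf hrsup hrange) (le_inf hrsup hrange)

end Cfsg.Agent.S1314
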