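import Cfsg.Statements.S1316
import Cfsg.Agent.Lib.CompRel

set_option autoImplicit false
open Cfsg Cfsg.Agent.Lib.Components Cfsg.Agent.Lib.Layer Cfsg.Agent.Lib.CompRel

namespace Cfsg.Agent.S1316

/-- For a finite group X, E(X) equals the intersection of the derived series of F*(X) (its last term). -/
theorem result {X : Type*} [Group X] [Finite X] : (⨅ n : ℕ, (derivedSeries ↥(Cfsg.generalizedFittingSubgroup X) n).map (Cfsg.generalizedFittingSubgroup X).subtype) = Cfsg.layer X := by
  set F := Cfsg.generalizedFittingSubgroup X with hF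
  have hEF : Cfsg.layer X ≤ F := le_sup_left
  set E : Subgroup ↥F := (Cfsg.layer X).subgroupOf F with hE
  have hEn : E.Normal := inferInstance
  have hEmap : E.map F.subtype = Cfsg.layer X := Subgroup.map_subgroupOf_eq_of_le hEF
  have hEperf : ⁅E, E⁆ = E := by
    rw [← Subgroup.map_subtype_inj, Subgroup.map_commutator, hEmap]
    exact layer_perfect X
  apply le_antisymm
  · -- the quotient by the layer is solvable
    have hsolv : Group.IsSolvable (↥F ⧸ E) := by
      have h1 : Group.IsSolvable ↥(Cfsg.fittingSubgroup X) := isSolvable_fittingSubgroup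
      have hle : Cfsg.fittingSubgroup X ≤ F := le_sup_right
      have hsurj : Function.Surjective
          ((QuotientGroup.mk' E).comp (Subgroup.inclusion hle)) := by
        intro q
        obtain ⟨x, rfl⟩ := QuotientGroup.mk'_surjective E q
        have hx : (x : X) ∈ Cfsg.layer X ⊔ Cfsg.fittingSubgroup X := x.2
        rw [mem_sup_of_commute layer_le_centralizer_fitting] at hx
        obtain ⟨e, he, f, hf, hef⟩ := hx
        refine ⟨⟨f, hf⟩, ?_⟩
        simp only [MonoidHom.comp_apply, QuotientGroup.mk'_apply]
        rw [QuotientGroup.eq]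
        rw [hE, Subgroup.mem_subgroupOf]
        have : ((((Subgroup.inclusion hle) ⟨f, hf⟩)⁻¹ * x : ↥F) : X) = f⁻¹ * e * f := by
          rw [Subgroup.coe_mul, ← hef]
          simp [mul_assoc]
        rw [this]
        have h2 := (layer_normal X).conj_mem e he f⁻¹
        simpa using h2
      exact Group.isSolvable_of_surjective hsurj
    obtain ⟨n, hn⟩ := hsolv
    refine (iInf_le _ n).trans ?_
    rw [← hEmap]
    apply Subgroup.map_mono
    have h3 : (derivedSeries ↥F n).map (QuotientGroup.mk' E) ≤ derivedSeries (↥F ⧸ E) n :=
      map_derivedSeries_le_derivedSeries _ n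
    rw [hn, le_bot_iff, Subgroup.map_eq_bot_iff, QuotientGroup.ker_mk'] at h3
    exact h3
  · apply le_iInf
    intro n
    rw [← hEmap]
    apply Subgroup.map_mono
    induction n with
    | zero => exact le_top
    | succ n ih =>
      rw [derivedSeries_succ, ← hEperf]
      exact Subgroup.commutator_mono ih ih

end Cfsg.Agent.S1316
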