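import Cfsg.Statements.S1317
import Cfsg.Agent.Lib.Layer

set_option autoImplicit false
open Cfsg Cfsg.Agent.Lib.Components Cfsg.Agent.Lib.Layer

namespace Cfsg.Agent.S1317

/-- For a finite group X, the centre of the layer E(X) is F(X) ∩ E(X). -/
theorem result {X : Type*} [Group X] [Finite X] : (Subgroup.center ↥(Cfsg.layer X)).map (Cfsg.layer X).subtype = Cfsg.fittingSubgroup X ⊓ Cfsg.layer X := by
  apply le_antisymm
  · apply le_inf _ (Subgroup.map_subtype_le _)
    have hn : ((Subgroup.center ↥(Cfsg.layer X)).map (Cfsg.layer X).subtype).Normal :=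
      map_subtype_normal inferInstance
    refine le_sSup ⟨hn, ?_⟩
    apply isNilpotent_of_le_centralizer
    rintro _ ⟨x, hx, rfl⟩
    rw [Subgroup.mem_centralizer_iff]
    rintro _ ⟨y, hy, rfl⟩
    exact congrArg Subtype.val (Subgroup.mem_center_iff.mp hx y)
  · rintro x ⟨hx1, hx2⟩
    refine ⟨⟨x, hx2⟩, ?_, rfl⟩
    apply Subgroup.mem_center_iff.mpr
    intro y
    ext
    exact ((Subgroup.mem_centralizer_iff.mp (layer_le_centralizer_fitting y.2)) x hx1).symm

end Cfsg.Agent.S1317
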