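import Cfsg.Statements.S1319
import Cfsg.Agent.Lib.Layer

set_option autoImplicit false
open Cfsg Cfsg.Agent.Lib.Components Cfsg.Agent.Lib.Layer

namespace Cfsg.Agent.S1319

/-- Let A be a subnormal subgroup of the finite group X with E(A) = A. Then A ≤ E(X) and A is normal in E(X). -/
theorem result {X : Type*} [Group X] [Finite X] (A : Subgroup X) (hsn : A.IsSubnormal) (hA : Cfsg.layer ↥A = ⊤) : A ≤ Cfsg.layer X ∧ (A.subgroupOf (Cfsg.layer X)).Normal := by
  have h1 : A = (Cfsg.layer ↥A).map A.subtype := by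
    rw [hA, ← MonoidHom.range_eq_map, Subgroup.range_subtype]
  have h2 : A ≤ Cfsg.layer X := by
    rw [h1]; exact map_layer_le_of_subnormal hsn
  refine ⟨h2, ?_⟩
  apply Subgroup.normal_subgroupOf_of_le_normalizer
  have h3 : A = sSup {K : Subgroup X | Cfsg.IsComponent K ∧ K ≤ A} :=
    h1.trans (map_layer_eq_of_subnormal hsn)
  rw [h3, sSup_eq_iSup']
  refine le_trans ?_ (Subgroup.iInf_normalizer_le_normalizer_iSup _)
  exact le_iInf fun K => layer_le_normalizer_component K.2.1

end Cfsg.Agent.S1319
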