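import Cfsg.Statements.S1320
import Cfsg.Agent.Lib.Layer

set_option autoImplicit false
open Cfsg Cfsg.Agent.Lib.Components Cfsg.Agent.Lib.Layer

namespace Cfsg.Agent.S1320

/-- Let B be a normal subgroup of the finite group A. Then F*(A) ∩ B = F*(B). -/
theorem result {A : Type*} [Group A] [Finite A] (B : Subgroup A) [B.Normal] : Cfsg.generalizedFittingSubgroup A ⊓ B = (Cfsg.generalizedFittingSubgroup ↥B).map B.subtype := by
  have hB : B.IsSubnormal := (inferInstance : B.Normal).isSubnormal
  apply le_antisymm
  · set S := Cfsg.generalizedFittingSubgroup A ⊓ B with hSdef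
    have hS : S.IsSubnormal := (generalizedFittingSubgroup_normal A).isSubnormal.inf hB
    have hSB : S ≤ B := inf_le_right
    have h1 := subnormal_le_genFitting hS inf_le_left
    have h2 : (S.subgroupOf B).IsSubnormal := hS.subgroupOf
    rw [h1]
    unfold Cfsg.generalizedFittingSubgroup
    rw [Subgroup.map_sup]
    apply sup_le_sup
    · rw [map_layer_eq_of_subnormal hS, map_layer_eq_of_subnormal hB]
      apply sSup_le_sSup
      rintro K ⟨hK, hKS⟩
      exact ⟨hK, hKS.trans hSB⟩
    · rw [map_fitting_eq_of_subnormal hB]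
      exact inf_le_inf_left _ hSB
  · apply le_inf _ (Subgroup.map_subtype_le _)
    unfold Cfsg.generalizedFittingSubgroup
    rw [Subgroup.map_sup]
    exact sup_le_sup (map_layer_le_of_subnormal hB) (map_fitting_le_of_subnormal hB)

end Cfsg.Agent.S1320
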