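import Cfsg.Statements.S1321
import Cfsg.Agent.Lib.Layer

set_option autoImplicit false
open Cfsg Cfsg.Agent.Lib.Components Cfsg.Agent.Lib.Layer

namespace Cfsg.Agent.S1321

/-- Let X be finite and U ≤ X. Then E(X) is generated by C_{E(X)}(U) together with ⁅E(X), U⁆ (indeed it is their product, ⁅E(X), U⁆ being normal in E(X)). -/
theorem result {X : Type*} [Group X] [Finite X] (U : Subgroup X) : Cfsg.layer X = (Cfsg.layer X ⊓ Subgroup.centralizer (U : Set X)) ⊔ ⁅Cfsg.layer X, U⁆ ∧ ⁅Cfsg.layer X, U⁆ ≤ Cfsg.layer X := by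
  have hle : ⁅Cfsg.layer X, U⁆ ≤ Cfsg.layer X :=
    (Subgroup.commutator_mono le_rfl le_top).trans (Subgroup.commutator_le_left _ _)
  refine ⟨?_, hle⟩
  apply le_antisymm _ (sup_le inf_le_left hle)
  apply sSup_le
  intro K hK
  -- `[E(X), U]` is normal in `E(X)`, hence subnormal in `X`
  have hsn : (⁅Cfsg.layer X, U⁆ : Subgroup X).IsSubnormal := by
    refine Subgroup.IsSubnormal.step _ (Cfsg.layer X) hle (layer_normal X).isSubnormal ?_
    exact Subgroup.normal_subgroupOf_of_le_normalizer
      (Subgroup.normalizer_commutator_ge_left _ _)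
  rcases component_le_or_le_centralizer hK hsn with h | h
  · exact le_sup_of_le_right h
  · apply le_sup_of_le_left
    apply le_inf (component_le_layer hK)
    apply le_centralizer_of_perfect (component_perfect hK) (Z := ⁅Cfsg.layer X, U⁆)
    · exact Subgroup.commutator_mono (component_le_layer hK) le_rfl
    · exact le_centralizer_comm h

end Cfsg.Agent.S1321
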