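import Cfsg.Statements.S1324
import Cfsg.Agent.Lib.CoprimeHyper

set_option autoImplicit false
open Cfsg

namespace Cfsg.Agent.S1324

/-- Let A be a noncyclic elementary abelian p-subgroup of a finite group H normalizing a subgroup X of order prime to p. Then X is generated by the subgroups X ∩ C_H(B), B ranging over the subgroups of A of index at most p. -/
theorem result {H : Type*} [Group H] [Finite H] (p : ℕ) [Fact p.Prime] (A X : Subgroup H) (hA : Cfsg.IsElementaryAbelian p A) (hA2 : p ^ 2 ≤ Nat.card ↥A) (hX : ¬ p ∣ Nat.card ↥X) (hAX : A ≤ Subgroup.normalizer (X : Set H)) : X = ⨆ B : {B : Subgroup H // B ≤ A ∧ B.relIndex A ≤ p}, X ⊓ Subgroup.centralizer ((B : Subgroup H) : Set H) := by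
  apply le_antisymm
  · have hA1 : A ≠ ⊥ := by
      rintro rfl
      rw [Subgroup.card_bot] at hA2
      have h1 : 1 < p ^ 2 := Nat.one_lt_pow (by norm_num) (Fact.out : p.Prime).one_lt
      omega
    apply Lib.CoprimeHyper.le_of_hyper hA hX hAX
    intro B hB hidx
    exact le_iSup (fun B : {B : Subgroup H // B ≤ A ∧ B.relIndex A ≤ p} =>
      X ⊓ Subgroup.centralizer ((B : Subgroup H) : Set H)) ⟨B, hB, hidx⟩
  · exact iSup_le fun B => inf_le_left

end Cfsg.Agent.S1324
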