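import Cfsg.Statements.S1326
import Cfsg.Agent.Lib.Layer

set_option autoImplicit false
open Cfsg Cfsg.Agent.Lib.Components Cfsg.Agent.Lib.Layer

namespace Cfsg.Agent.S1326

/-- For a finite group X: the Fitting subgroup contains its centralizer if and only if the layer of X is trivial. -/
theorem result {X : Type*} [Group X] [Finite X] : Subgroup.centralizer (Cfsg.fittingSubgroup X : Set X) ≤ Cfsg.fittingSubgroup X ↔ Cfsg.layer X = ⊥ := by
  constructor
  · intro h
    have h1 : Cfsg.layer X ≤ Cfsg.fittingSubgroup X := layer_le_centralizer_fitting.trans h
    rw [eq_bot_iff]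
    apply sSup_le
    intro K hK
    exact absurd ((component_le_layer hK).trans h1)
      (component_not_le_solvable hK isSolvable_fittingSubgroup)
  · intro h
    have h1 := centralizer_genFitting_le (G := X)
    unfold Cfsg.generalizedFittingSubgroup at h1
    rwa [h, bot_sup_eq] at h1

end Cfsg.Agent.S1326
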