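import Cfsg.Statements.S1327
import Cfsg.Agent.Lib.PConstrained

set_option autoImplicit false
open Cfsg Cfsg.Agent.Lib.Components Cfsg.Agent.Lib.Layer Cfsg.Agent.Lib.CompRel Cfsg.Agent.Lib.PComponents Cfsg.Agent.Lib.PConstrained

namespace Cfsg.Agent.S1327

/-- A finite group X is p-constrained if and only if its p-layer L_{p'}(X) is trivial (equivalently X / O_{p'}(X) has trivial layer). -/
theorem result {X : Type*} [Group X] [Finite X] (p : ℕ) [Fact p.Prime] : Cfsg.IsPConstrained p X ↔ Cfsg.pLayer p X = ⊥ := by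
  exact isPConstrained_iff_pLayer

end Cfsg.Agent.S1327
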