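import Cfsg.Statements.S1328
import Cfsg.Agent.Lib.H22Unbal
import Cfsg.Agent.Lib.Balance

set_option autoImplicit false
open Cfsg Cfsg.Agent.Lib Cfsg.Agent.Lib.Components Cfsg.Agent.Lib.CompRel Cfsg.Agent.Lib.Balance

namespace Cfsg.Agent.S1328

/-- Let G be finite, H ≤ G with O(H) = 1, t an involution of G normalizing H, and Y a nontrivial subgroup of O(C_H(t)). Then some component E of H is normalized by t and by Y and centralized by neither t nor Y. -/
theorem result {G : Type*} [Group G] [Finite G] (H : Subgroup G) (hO : Cfsg.oddCore ↥H = ⊥) (t : G) (ht : orderOf t = 2) (htH : t ∈ Subgroup.normalizer (H : Set G)) (Y : Subgroup G) (hY1 : Y ≠ ⊥) (hY : Y ≤ (Cfsg.oddCore ↥(H ⊓ Subgroup.centralizer ({t} : Set G))).map (H ⊓ Subgroup.centralizer ({t} : Set G)).subtype) : ∃ E : Subgroup ↥H, Cfsg.IsComponent E ∧ (E.map H.subtype).map (MulAut.conj t).toMonoidHom = E.map H.subtype ∧ Y ≤ Subgroup.normalizer ((E.map H.subtype : Subgroup G) : Set G) ∧ ¬ (t ∈ Subgroup.centralizer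 ((E.map H.subtype : Subgroup G) : Set G)) ∧ ¬ (Y ≤ Subgroup.centralizer ((E.map H.subtype : Subgroup G) : Set G)) := by
  have : Fact (Nat.Prime 2) := ⟨Nat.prime_two⟩
  set N := Subgroup.normalizer (H : Set G) with hN
  have hHN : H ≤ N := Subgroup.le_normalizer
  set H' : Subgroup N := H.subgroupOf N with hH'
  have hH'n : H'.Normal := Subgroup.normal_subgroupOf_of_le_normalizer le_rfl
  set C := H ⊓ Subgroup.centralizer ({t} : Set G) with hC
  set D := (Cfsg.oddCore ↥C).map C.subtype with hD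
  have hDC : D ≤ C := Subgroup.map_subtype_le _
  have hDN : D ≤ N := (hDC.trans inf_le_left).trans hHN
  have hYN : Y ≤ N := hY.trans hDN
  have hDodd : ¬ 2 ∣ Nat.card ↥D := not_dvd_card_map_pPrimeCore C
  have hCD : C ≤ Subgroup.normalizer (D : Set G) := le_normalizer_map_of_normal _
  let e : ↥H' ≃* ↥H := Subgroup.subgroupOfEquivOfLe hHN
  have hcoreH' : pPrimeCore 2 ↥H' = ⊥ := by
    have h1 := Cores.map_pPrimeCore_equiv 2 e
    have h2 : pPrimeCore 2 ↥H = ⊥ := hO
    rw [h2] at h1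
    rwa [Subgroup.map_eq_bot_iff_of_injective _ e.injective] at h1
  have hset : H22Unbal.Setting 2 H' (⟨t, htH⟩ : N) (D.subgroupOf N) :=
    { core := by
        have h1 : ((pPrimeCore 2 ↥N ⊓ H').subgroupOf H') ≤ pPrimeCore 2 ↥H' := by
          apply H23Basic.le_pPrimeCore
          · infer_instance
          · rw [Nat.card_congr (Subgroup.subgroupOfEquivOfLe inf_le_right).toEquiv]
            exact (Cores.coprime_card_pPrimeCore 2 ↥N).coprime_dvd_left
              (Subgroup.card_dvd_of_le inf_le_left)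
        rw [hcoreH', le_bot_iff, Subgroup.subgroupOf_eq_bot, disjoint_iff, inf_assoc, inf_idem] at h1
        exact h1
      ord := by rw [Subgroup.orderOf_mk]; exact ht
      norm := by rw [Subgroup.normalizer_eq_top]; trivial
      le := fun x hx => (hDC hx).1
      cent := fun x hx => by
        rw [Subgroup.mem_centralizer_singleton_iff]
        exact Subtype.ext (Subgroup.mem_centralizer_singleton_iff.mp (hDC hx).2)
      nor := by
        rintro x hx
        obtain ⟨hx1, hx2⟩ := Subgroup.mem_inf.mp hx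
        have h1 : (x : G) ∈ C := Subgroup.mem_inf.mpr ⟨hx1, by
          rw [Subgroup.mem_centralizer_singleton_iff] at hx2 ⊢
          exact congrArg Subtype.val hx2⟩
        have h2 := Subgroup.mem_normalizer_iff.mp (hCD h1)
        rw [Subgroup.mem_normalizer_iff]
        intro y
        exact h2 y
      card := by
        rw [Nat.card_congr (Subgroup.subgroupOfEquivOfLe hDN).toEquiv]; exact hDodd }
  obtain ⟨K, hK, hKH, haN, haC, hYK, hYC⟩ := hset.exists_component hH'n.isSubnormal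
    (Y := Y.subgroupOf N) (Subgroup.subgroupOf_mono _ hY) (by
      intro h
      rw [Subgroup.subgroupOf_eq_bot, disjoint_iff, inf_eq_left.mpr hYN] at h
      exact hY1 h)
  set K₀ := K.map N.subtype with hK₀
  have hK₀H : K₀ ≤ H := by
    rintro _ ⟨k, hk, rfl⟩
    exact hKH hk
  have hE : IsComponent (K₀.subgroupOf H) := by
    have h1 : IsComponent (K.subgroupOf H') := isComponent_subgroupOf hKH hK
    have h2 := (isComponent_map_equiv e).mpr h1
    convert h2 using 1
    ext x
    constructor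
    · rintro ⟨k, hk, hkx⟩
      exact ⟨⟨k, hKH hk⟩, hk, Subtype.ext hkx⟩
    · rintro ⟨k, hk, rfl⟩
      exact ⟨(k : N), hk, rfl⟩
  have hEm : (K₀.subgroupOf H).map H.subtype = K₀ := Subgroup.map_subgroupOf_eq_of_le hK₀H
  refine ⟨K₀.subgroupOf H, hE, ?_, ?_, ?_, ?_⟩
  · rw [hEm, map_conj_eq_iff, Subgroup.mem_normalizer_iff]
    intro x
    have h3 := Subgroup.mem_normalizer_iff.mp haN
    constructor
    · rintro ⟨k, hk, rfl⟩
      exact ⟨_, (h3 k).mp hk, rfl⟩
    · rintro ⟨k, hk, hkx⟩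
      refine ⟨(⟨t, htH⟩ : N)⁻¹ * k * ⟨t, htH⟩, ?_, ?_⟩
      · apply (h3 _).mpr
        have : (⟨t, htH⟩ : N) * ((⟨t, htH⟩ : N)⁻¹ * k * ⟨t, htH⟩) * (⟨t, htH⟩ : N)⁻¹ = k := by group
        rwa [this]
      · change t⁻¹ * (k : G) * t = x
        have h4 : (k : G) = t * x * t⁻¹ := hkx
        rw [h4]; group
  · rw [hEm]
    intro y hy
    have h3 := Subgroup.mem_normalizer_iff.mp (hYK (show (⟨y, hYN hy⟩ : N) ∈ Y.subgroupOf N from hy))
    rw [Subgroup.mem_normalizer_iff]
    intro x
    constructor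
    · rintro ⟨k, hk, rfl⟩
      exact ⟨_, (h3 k).mp hk, rfl⟩
    · rintro ⟨k, hk, hkx⟩
      refine ⟨(⟨y, hYN hy⟩ : N)⁻¹ * k * ⟨y, hYN hy⟩, ?_, ?_⟩
      · apply (h3 _).mpr
        have : (⟨y, hYN hy⟩ : N) * ((⟨y, hYN hy⟩ : N)⁻¹ * k * ⟨y, hYN hy⟩) * (⟨y, hYN hy⟩ : N)⁻¹ = k := by group
        rwa [this]
      · change y⁻¹ * (k : G) * y = x
        have h4 : (k : G) = y * x * y⁻¹ := hkx
        rw [h4]; group
  · rw [hEm]
    intro hc
    apply haC
    rw [Subgroup.mem_centralizer_iff] at hc ⊢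
    intro k hk
    exact Subtype.ext (hc k ⟨k, hk, rfl⟩)
  · rw [hEm]
    intro hc
    apply hYC
    intro y hy
    have h3 := Subgroup.mem_centralizer_iff.mp (hc hy)
    rw [Subgroup.mem_centralizer_iff]
    intro k hk
    exact Subtype.ext (h3 k ⟨k, hk, rfl⟩)

end Cfsg.Agent.S1328
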