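import Cfsg.Statements.S1331
import Cfsg.Agent.Lib.Signalizer2

set_option autoImplicit false
open Cfsg Cfsg.Agent.Lib.Signalizer

namespace Cfsg.Agent.S1331

/-- Let θ be a solvable A-signalizer functor on the finite group G for the prime p, A elementary abelian of rank at least 3, X a member of the family of θ, and B ≤ A with |B| ≥ p². Then X is generated by the subgroups X ∩ ⋂_{d ∈ D, d ≠ 1} θ d, D ranging over the subgroups of index p in B. -/
theorem result {G : Type*} [Group G] [Finite G] (p : ℕ) [Fact p.Prime] (A : Subgroup G) (hA : Cfsg.IsElementaryAbelian p A) (hA3 : p ^ 3 ≤ Nat.card ↥A) (θ : G → Subgroup G) (hθ : Cfsg.IsSolvableSignalizerFunctor p A θ) (X : Subgroup G) (hX : X ∈ Cfsg.signalizerFamily p A θ) (B : Subgroup G) (hB : B ≤ A) (hB2 : p ^ 2 ≤ Nat.card ↥B) : X = ⨆ D : {D : Subgroup G // D ≤ B ∧ D.relIndex B = p}, X ⊓ Cfsg.signalizerInf (D : Subgroup G) θ := by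
  have hB1 : B ≠ ⊥ := by
    rintro rfl
    rw [Subgroup.card_bot] at hB2
    have h1 : 1 < p ^ 2 := Nat.one_lt_pow (by norm_num) (Fact.out : p.Prime).one_lt
    omega
  apply le_antisymm
  · apply Lib.CoprimeHyper.le_of_hyper_eq (Lib.CoprimeHyper.elemAb_mono hA hB) hB1 hX.2.1
      (hB.trans (fam_normalizer hX))
    intro D hD hidx
    have hD1 : D ≠ ⊥ := by
      rintro rfl
      rw [Subgroup.relIndex_bot_left] at hidx
      rw [hidx] at hB2
      have h1 : p ^ 1 < p ^ 2 := Nat.pow_lt_pow_right (Fact.out : p.Prime).one_lt (by norm_num)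
      rw [pow_one] at h1
      omega
    rw [fam_inf_centralizer hθ.1 hX (hD.trans hB) hD1]
    exact le_iSup (fun D : {D : Subgroup G // D ≤ B ∧ D.relIndex B = p} =>
      X ⊓ Cfsg.signalizerInf (D : Subgroup G) θ) ⟨D, hD, hidx⟩
  · exact iSup_le fun D => inf_le_left

end Cfsg.Agent.S1331
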