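import Cfsg.Statements.S1335

set_option autoImplicit false
open Cfsg

namespace Cfsg.Agent.S1335

theorem prankLE_of_equiv {G G' : Type*} [Group G] [Group G'] (e : G ≃* G') {p k : ℕ}
    (h : Cfsg.PRankLE p k G) : Cfsg.PRankLE p k G' := by
  intro A hA hAp
  have h1 := h (A.comap e.toMonoidHom) ?_ ?_
  · have : Nat.card ↥(A.comap e.toMonoidHom) = Nat.card A := by
      apply Nat.card_congr
      exact (e.symm.toEquiv.subtypeEquiv (by intro a; simp)).symm
    rwa [this] at h1
  · constructor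
    constructor
    rintro ⟨a, ha⟩ ⟨b, hb⟩
    have ha' : e a ∈ A := ha
    have hb' : e b ∈ A := hb
    have := hA.is_comm.comm ⟨e a, ha'⟩ ⟨e b, hb'⟩
    rw [Subtype.ext_iff] at this ⊢
    have h2 : e a * e b = e b * e a := this
    rw [← map_mul, ← map_mul] at h2
    exact e.injective h2
  · intro a ha
    have := hAp (e a) ha
    rw [← map_pow] at this
    exact (map_eq_one_iff e e.injective).mp this

/-- Let H be a subgroup of the finite group G, p a prime, k ≥ 1, P a Sylow p-subgroup of H of p-rank at least k, and suppose N_G(X) ≤ H for every subgroup X ≤ P of p-rank at least k. Then P is a Sylow p-subgroup of G. -/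
theorem result {G : Type*} [Group G] [Finite G] {p : ℕ} [Fact p.Prime] (k : ℕ) (hk : 1 ≤ k) (H : Subgroup G) (P : Sylow p ↥H) (hP : ¬ Cfsg.PRankLE p (k - 1) ↥(P : Subgroup ↥H)) (hΓ : (∀ X : Subgroup G, X ≤ (P : Subgroup ↥H).map H.subtype → ¬ Cfsg.PRankLE p (k - 1) ↥X → Subgroup.normalizer (X : Set G) ≤ H)) : ∃ Q : Sylow p G, (Q : Subgroup G) = (P : Subgroup ↥H).map H.subtype := by
  set P' : Subgroup G := (P : Subgroup ↥H).map H.subtype with hP'
  have hPp : IsPGroup p P' := P.isPGroup'.map _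
  have hN : Subgroup.normalizer (P' : Set G) ≤ H := by
    apply hΓ P' le_rfl
    intro h
    apply hP
    exact prankLE_of_equiv ((P : Subgroup ↥H).equivMapOfInjective H.subtype H.subtype_injective).symm h
  obtain ⟨Q, hQ⟩ := hPp.exists_le_sylow
  refine ⟨Q, ?_⟩
  by_contra hne
  have hlt : P' < Q := lt_of_le_of_ne hQ (Ne.symm hne)
  have hnil : Group.IsNilpotent (Q : Subgroup G) := Q.isPGroup'.isNilpotent
  have hncond := Group.normalizerCondition_of_isNilpotent (G := ↥(Q : Subgroup G))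
  have h1 : P'.subgroupOf Q < ⊤ := by
    rw [lt_top_iff_ne_top]
    intro h
    rw [Subgroup.subgroupOf_eq_top] at h
    exact absurd (le_antisymm hQ h) (Ne.symm hne)
  obtain ⟨x, hx, hxn⟩ := Set.exists_of_ssubset (hncond _ h1)
  have hxN : (x : G) ∈ Subgroup.normalizer (P' : Set G) := by
    apply Subgroup.mem_normalizer_fintype
    intro n hn
    have hnQ : n ∈ (Q : Subgroup G) := hQ hn
    have := (Subgroup.mem_normalizer_iff.mp hx ⟨n, hnQ⟩).mp (by simpa [Subgroup.mem_subgroupOf] using hn)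
    simpa [Subgroup.mem_subgroupOf] using this
  -- R = P' ⊔ ⟨x⟩
  have hxH : (x : G) ∈ H := hN hxN
  set R : Subgroup G := P' ⊔ Subgroup.zpowers (x : G) with hR
  have hRQ : R ≤ Q := sup_le hQ (by simp)
  have hRH : R ≤ H := sup_le (Subgroup.map_subtype_le _) (by simpa using hxH)
  have hRp : IsPGroup p R := Q.isPGroup'.to_le hRQ
  have hRHp : IsPGroup p (R.subgroupOf H) := hRp.of_equiv (Subgroup.subgroupOfEquivOfLe hRH).symm
  have hle : (P : Subgroup ↥H) ≤ R.subgroupOf H := by
    intro y hy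
    rw [Subgroup.mem_subgroupOf]
    exact le_sup_left (a := P') (Subgroup.mem_map_of_mem _ hy)
  have heq := P.is_maximal' hRHp hle
  apply hxn
  have hx2 : (⟨x, hxH⟩ : ↥H) ∈ R.subgroupOf H := by
    rw [Subgroup.mem_subgroupOf]
    exact le_sup_right (a := P') (Subgroup.mem_zpowers _)
  rw [heq] at hx2
  show x ∈ P'.subgroupOf Q
  rw [Subgroup.mem_subgroupOf]
  exact ⟨_, hx2, rfl⟩

end Cfsg.Agent.S1335
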