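import Cfsg.Statements.S1336
import Cfsg.Agent.Lib.H32Basic

set_option autoImplicit false
open Cfsg

namespace Cfsg.Agent.S1336

open Subgroup

variable {G : Type*} [Group G]

/-- vertices of the commuting graph -/
def V (p : ℕ) (E : Subgroup G) : Prop := IsElementaryAbelian p E ∧ p ^ 1 ≤ Nat.card ↥E

def R (p : ℕ) (A B : Subgroup G) : Prop :=
  IsElementaryAbelian p A ∧ p ^ 1 ≤ Nat.card ↥A ∧ IsElementaryAbelian p B ∧
        p ^ 1 ≤ Nat.card ↥B ∧ ∀ a ∈ A, ∀ b ∈ B, a * b = b * a

def Conn (p : ℕ) (A B : Subgroup G) : Prop := Relation.ReflTransGen (R p) A B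

theorem R_symm {p : ℕ} {A B : Subgroup G} (h : R p A B) : R p B A :=
  ⟨h.2.2.1, h.2.2.2.1, h.1, h.2.1, fun a ha b hb => (h.2.2.2.2 b hb a ha).symm⟩

theorem Conn_symm {p : ℕ} {A B : Subgroup G} (h : Conn p A B) : Conn p B A := by
  induction h with
  | refl => exact Relation.ReflTransGen.refl
  | tail _ h2 ih => exact Relation.ReflTransGen.head (R_symm h2) ih

theorem card_map_conj (g : G) (A : Subgroup G) :
    Nat.card ↥(A.map (MulAut.conj g).toMonoidHom) = Nat.card A :=
  Subgroup.card_map_of_injective (MulAut.conj g).injective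

theorem elemAb_map {p : ℕ} (g : G) {A : Subgroup G} (h : IsElementaryAbelian p A) :
    IsElementaryAbelian p (A.map (MulAut.conj g).toMonoidHom) := by
  obtain ⟨h1, h2⟩ := h
  refine ⟨?_, ?_⟩
  · constructor
    constructor
    rintro ⟨_, a, ha, rfl⟩ ⟨_, b, hb, rfl⟩
    have := congrArg Subtype.val (h1.is_comm.comm ⟨a, ha⟩ ⟨b, hb⟩)
    apply Subtype.ext
    change (MulAut.conj g) a * (MulAut.conj g) b = (MulAut.conj g) b * (MulAut.conj g) a
    rw [← map_mul, ← map_mul]
    exact congrArg _ this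
  · rintro _ ⟨a, ha, rfl⟩
    change ((MulAut.conj g) a) ^ p = 1
    rw [← map_pow, h2 a ha, map_one]

theorem R_map {p : ℕ} (g : G) {A B : Subgroup G} (h : R p A B) :
    R p (A.map (MulAut.conj g).toMonoidHom) (B.map (MulAut.conj g).toMonoidHom) := by
  obtain ⟨h1, h2, h3, h4, h5⟩ := h
  refine ⟨elemAb_map g h1, by rw [card_map_conj]; exact h2, elemAb_map g h3, by rw [card_map_conj]; exact h4, ?_⟩
  rintro _ ⟨a, ha, rfl⟩ _ ⟨b, hb, rfl⟩
  change (MulAut.conj g) a * (MulAut.conj g) b = (MulAut.conj g) b * (MulAut.conj g) a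
  rw [← map_mul, ← map_mul, h5 a ha b hb]

theorem Conn_map {p : ℕ} (g : G) {A B : Subgroup G} (h : Conn p A B) :
    Conn p (A.map (MulAut.conj g).toMonoidHom) (B.map (MulAut.conj g).toMonoidHom) := by
  induction h with
  | refl => exact Relation.ReflTransGen.refl
  | tail _ h2 ih => exact Relation.ReflTransGen.tail ih (R_map g h2)

theorem map_conj_mul (g h : G) (A : Subgroup G) :
    (A.map (MulAut.conj h).toMonoidHom).map (MulAut.conj g).toMonoidHom =
      A.map (MulAut.conj (g * h)).toMonoidHom := by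
  rw [Subgroup.map_map]
  congr 1
  ext x
  simp [mul_assoc]

theorem map_conj_one (A : Subgroup G) : A.map (MulAut.conj (1 : G)).toMonoidHom = A := by
  have : (MulAut.conj (1 : G)).toMonoidHom = MonoidHom.id G := by ext; simp
  rw [this, Subgroup.map_id]

theorem V_zpowers [Finite G] {p : ℕ} {x : G} (hx : orderOf x = p) : V p (zpowers x) := by
  refine ⟨⟨inferInstance, ?_⟩, ?_⟩
  · rintro _ ⟨k, rfl⟩
    change (x ^ k) ^ p = 1
    rw [← zpow_natCast, ← zpow_mul, mul_comm, zpow_mul, zpow_natCast, ← hx, pow_orderOf_eq_one, one_zpow]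
  · rw [Nat.card_zpowers, hx, pow_one]

theorem R_of_V {p : ℕ} {A B : Subgroup G} (hA : V p A) (hB : V p B) (h : ∀ a ∈ A, ∀ b ∈ B, a * b = b * a) :
    R p A B := ⟨hA.1, hA.2, hB.1, hB.2, h⟩

/-- every vertex contains an element of order p. -/
theorem V_exists [Finite G] {p : ℕ} [hp : Fact p.Prime] {A : Subgroup G} (hA : V p A) :
    ∃ x ∈ A, orderOf x = p := by
  obtain ⟨⟨_, h2⟩, h3⟩ := hA
  have h4 : 1 < Nat.card A := lt_of_lt_of_le hp.out.one_lt (by simpa using h3)
  have : Nontrivial A := Finite.one_lt_card_iff_nontrivial.mp h4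
  obtain ⟨x, hx⟩ := exists_ne (1 : A)
  refine ⟨x, x.2, orderOf_eq_prime (h2 x x.2) ?_⟩
  intro h
  exact hx (Subtype.ext h)

theorem V_conn_zpowers [Finite G] {p : ℕ} {A : Subgroup G} (hA : V p A) {x : G} (hxA : x ∈ A)
    (hx : orderOf x = p) : Conn p A (zpowers x) := by
  apply Relation.ReflTransGen.single
  apply R_of_V hA (V_zpowers hx)
  intro a ha b hb
  have hb' : b ∈ A := (zpowers_le.mpr hxA) hb
  exact congrArg Subtype.val (hA.1.1.is_comm.comm ⟨a, ha⟩ ⟨b, hb'⟩)

/-- two elements of order p of a p-subgroup generate connected vertices -/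
theorem conn_of_pgroup [Finite G] {p : ℕ} [hp : Fact p.Prime] {P : Subgroup G} (hP : IsPGroup p P)
    {x y : G} (hxP : x ∈ P) (hyP : y ∈ P) (hx : orderOf x = p) (hy : orderOf y = p) :
    Conn p (zpowers x) (zpowers y) := by
  have hPn : Nontrivial P := by
    refine ⟨⟨x, hxP⟩, 1, ?_⟩
    intro h
    have : x = 1 := congrArg Subtype.val h
    rw [this, orderOf_one] at hx
    exact hp.out.one_lt.ne hx
  have hc := hP.center_nontrivial
  obtain ⟨z, hz⟩ := exists_ne (1 : center P)
  -- element of order p in the centre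
  have hcp : IsPGroup p (center P) := hP.to_subgroup _
  obtain ⟨k, hk0, hk⟩ := hcp.nontrivial_iff_card.mp hc
  have hd : p ∣ Nat.card (center P) := by rw [hk]; exact dvd_pow_self p hk0.ne'
  obtain ⟨w, hw⟩ := exists_prime_orderOf_dvd_card' (G := center P) p hd
  have hw1 : orderOf ((w : P) : G) = p := by
    rw [Subgroup.orderOf_coe, Subgroup.orderOf_coe]; exact hw
  have hwc : ∀ y : G, y ∈ P → y * ((w : P) : G) = ((w : P) : G) * y := by
    intro y hy
    exact congrArg Subtype.val ((mem_center_iff.mp w.2) ⟨y, hy⟩)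
  have key : ∀ y : G, y ∈ P → orderOf y = p → R p (zpowers y) (zpowers ((w : P) : G)) := by
    intro y hy hyo
    apply R_of_V (V_zpowers hyo) (V_zpowers hw1)
    rintro _ ⟨i, rfl⟩ _ ⟨j, rfl⟩
    have : Commute y ((w : P) : G) := hwc y hy
    exact (this.zpow_zpow i j).eq
  exact (Relation.ReflTransGen.single (key x hxP hx)).trans
    (Relation.ReflTransGen.single (R_symm (key y hyP hy)))

/-- Let G be finite and p prime. Then G has a proper subgroup H with p ∣ |H| and p ∤ |H ∩ gHg⁻¹| for every g ∉ H (a strongly p-embedded subgroup) if and only if G is not 1-connected for p. -/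
theorem result {G : Type*} [Group G] [Finite G] (p : ℕ) [Fact p.Prime] : (∃ H : Subgroup G, H ≠ ⊤ ∧ p ∣ Nat.card ↥H ∧ ∀ g : G, g ∉ H → ¬ p ∣ Nat.card ↥(H ⊓ H.map (MulAut.conj g).toMonoidHom)) ↔ ¬ Cfsg.IsKConnected p 1 G := by
  have hpp : p.Prime := Fact.out
  constructor
  · rintro ⟨H, hH, hpH, hHg⟩ hconn
    obtain ⟨x, hx⟩ := exists_prime_orderOf_dvd_card' (G := H) p hpH
    have hx' : orderOf (x : G) = p := by rw [← hx]; simp
    obtain ⟨g, hg⟩ : ∃ g, g ∉ H := by
      by_contra h
      push Not at h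
      exact hH (eq_top_iff.mpr fun a _ => h a)
    have hE := V_zpowers (G := G) hx'
    have hE' : V p ((zpowers (x : G)).map (MulAut.conj g).toMonoidHom) :=
      ⟨elemAb_map g hE.1, by rw [card_map_conj]; exact hE.2⟩
    have h1 := hconn _ _ hE.1 hE.2 hE'.1 hE'.2
    have key : ∀ B, Relation.ReflTransGen (R p) (zpowers (x : G)) B → B ≤ H := by
      intro B hB
      induction hB with
      | refl => exact zpowers_le.mpr x.2
      | @tail A B _ h2 ih =>
        intro b hb
        by_contra hbH
        apply hHg b hbH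
        have hA : A ≤ H ⊓ H.map (MulAut.conj b).toMonoidHom := by
          intro a ha
          refine mem_inf.mpr ⟨ih ha, ⟨a, ih ha, ?_⟩⟩
          change b * a * b⁻¹ = a
          rw [← h2.2.2.2.2 a ha b hb]; group
        have hpA : p ∣ Nat.card A := by
          obtain ⟨y, hyA, hy⟩ := V_exists (⟨h2.1, h2.2.1⟩ : V p A)
          rw [← hy, ← Subgroup.orderOf_mk y hyA]
          exact orderOf_dvd_natCard _
        exact hpA.trans (card_dvd_of_le hA)
    have h2 := key _ h1
    apply hHg g hg
    have h3 : (zpowers (x : G)).map (MulAut.conj g).toMonoidHom ≤ H ⊓ H.map (MulAut.conj g).toMonoidHom :=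
      le_inf h2 (Subgroup.map_mono (zpowers_le.mpr x.2))
    refine dvd_trans ?_ (card_dvd_of_le h3)
    rw [card_map_conj, Nat.card_zpowers, hx']
  · intro hnc
    -- pick a vertex
    unfold IsKConnected at hnc
    push Not at hnc
    obtain ⟨E0, E1, hE0, hE0c, hE1, hE1c, hn⟩ := hnc
    have hV0 : V p E0 := ⟨hE0, hE0c⟩
    have hV1 : V p E1 := ⟨hE1, hE1c⟩
    obtain ⟨x0, hx0E, hx0⟩ := V_exists hV0
    obtain ⟨x1, hx1E, hx1⟩ := V_exists hV1
    -- the stabiliser of the component of ⟨x0⟩
    let H : Subgroup G :=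
      { carrier := {g | Conn p ((zpowers x0).map (MulAut.conj g).toMonoidHom) (zpowers x0)}
        one_mem' := by
          change Conn p _ _
          rw [map_conj_one]
          exact Relation.ReflTransGen.refl
        mul_mem' := by
          intro a b ha hb
          change Conn p _ _
          rw [← map_conj_mul]
          exact (Conn_map a hb).trans ha
        inv_mem' := by
          intro a ha
          change Conn p _ _
          have h := Conn_map a⁻¹ (Conn_symm ha)
          rw [map_conj_mul, inv_mul_cancel, map_conj_one] at h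
          exact h }
    have hHmem : ∀ g, g ∈ H ↔ Conn p ((zpowers x0).map (MulAut.conj g).toMonoidHom) (zpowers x0) := fun g => Iff.rfl
    -- Sylow containing x0
    have hpx0 : IsPGroup p (zpowers x0) := by
      apply IsPGroup.of_card (n := 1)
      rw [Nat.card_zpowers, hx0, pow_one]
    obtain ⟨P, hP⟩ := hpx0.exists_le_sylow
    have hx0P : x0 ∈ (P : Subgroup G) := hP (mem_zpowers x0)
    have zpmap : ∀ (g x : G), (zpowers x).map (MulAut.conj g).toMonoidHom = zpowers (g * x * g⁻¹) := by
      intro g x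
      rw [MonoidHom.map_zpowers]
      rfl
    have oconj : ∀ (g x : G), orderOf (g * x * g⁻¹) = orderOf x := by
      intro g x
      exact (MulAut.conj g).orderOf_eq x
    have hPH : (P : Subgroup G) ≤ H := by
      intro g hg
      rw [hHmem, zpmap]
      exact conn_of_pgroup P.isPGroup' (mul_mem (mul_mem hg hx0P) (inv_mem hg)) hx0P (by rw [oconj, hx0]) hx0
    -- every element of order p in H is connected to x0
    have hHconn : ∀ y ∈ H, orderOf y = p → Conn p (zpowers y) (zpowers x0) := by
      intro y hy hyo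
      -- P is Sylow in H; y is in an H-conjugate of P
      let PH : Sylow p H := P.subtype hPH
      have hpy : IsPGroup p (zpowers (⟨y, hy⟩ : H)) := by
        apply IsPGroup.of_card (n := 1)
        rw [Nat.card_zpowers, Subgroup.orderOf_mk, hyo, pow_one]
      obtain ⟨Q, hQ⟩ := hpy.exists_le_sylow
      obtain ⟨h, hh⟩ := MulAction.exists_smul_eq H PH Q
      have hyQ : (⟨y, hy⟩ : H) ∈ (Q : Subgroup H) := hQ (mem_zpowers _)
      rw [← hh] at hyQ
      have h1 : (h : G)⁻¹ * y * (h : G) ∈ (P : Subgroup G) := by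
        rw [Cfsg.Agent.Lib.H32Basic.mem_sylow_smul_iff] at hyQ
        exact hyQ
      have h2 : Conn p (zpowers ((h : G)⁻¹ * y * (h : G))) (zpowers x0) := by
        apply conn_of_pgroup P.isPGroup' h1 hx0P _ hx0
        have := oconj (h : G)⁻¹ y
        rw [inv_inv] at this
        rw [this, hyo]
      have h3 := Conn_map (h : G) h2
      rw [zpmap] at h3
      have h4 : (h : G) * ((h : G)⁻¹ * y * (h : G)) * (h : G)⁻¹ = y := by group
      rw [h4] at h3
      exact h3.trans h.2
    refine ⟨H, ?_, ?_, ?_⟩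
    · intro hHtop
      apply hn
      have hx1H : x1 ∈ H := by rw [hHtop]; trivial
      exact ((V_conn_zpowers hV0 hx0E hx0).trans (Conn_symm (hHconn x1 hx1H hx1))).trans
        (Conn_symm (V_conn_zpowers hV1 hx1E hx1))
    · have : x0 ∈ H := hPH hx0P
      rw [← hx0, ← Subgroup.orderOf_mk x0 this]
      exact orderOf_dvd_natCard _
    · intro g hg hdvd
      apply hg
      obtain ⟨y, hy⟩ := exists_prime_orderOf_dvd_card' (G := ↥(H ⊓ H.map (MulAut.conj g).toMonoidHom)) p hdvd
      have hy' : orderOf (y : G) = p := by rw [← hy]; simp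
      have hyH : (y : G) ∈ H := (mem_inf.mp y.2).1
      obtain ⟨z, hzH, hz⟩ := (mem_inf.mp y.2).2
      have hz' : g * z * g⁻¹ = (y : G) := hz
      have h1 := hHconn _ hyH hy'
      have hzo : orderOf z = p := by rw [← oconj g z, hz', hy']
      have h2 := Conn_map g (hHconn z hzH hzo)
      rw [zpmap, hz'] at h2
      rw [hHmem]
      exact (Conn_symm h2).trans h1

end Cfsg.Agent.S1336
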