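import Cfsg.Statements.S1337
import Cfsg.Agent.Lib.NormalE2

set_option autoImplicit false
open Cfsg

namespace Cfsg.Agent.S1337

open Cfsg.Agent.Lib.NormalE2 Cfsg.Agent.Lib.SubgroupTools Subgroup

theorem not_prankLE_iff {P : Type*} [Group P] {p k : ℕ} :
    ¬ PRankLE p k P ↔ ∃ A : Subgroup P, IsElementaryAbelian p A ∧ p ^ k < Nat.card A := by
  unfold PRankLE
  push Not
  constructor
  · rintro ⟨A, h1, h2, h3⟩
    exact ⟨A, ⟨h1, h2⟩, h3⟩
  · rintro ⟨A, ⟨h1, h2⟩, h3⟩
    exact ⟨A, h1, h2, h3⟩

theorem exists_card_eq {P : Type*} [Group P] [Finite P] {p k : ℕ} [hp : Fact p.Prime] (hP : IsPGroup p P)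
    {A : Subgroup P} (hA : IsElementaryAbelian p A) (h : p ^ k ≤ Nat.card A) :
    ∃ B : Subgroup P, B ≤ A ∧ IsElementaryAbelian p B ∧ Nat.card B = p ^ k := by
  obtain ⟨B, hB, hBc⟩ := Sylow.exists_subgroup_le_card_pow_prime_of_le_card hp.out hP h
  exact ⟨B, hB, elemAb_mono hB hA, hBc⟩

/-- `[P : C_P(U)] ≤ p` for a normal subgroup of order `p ^ 2`, in the form used here. -/
theorem card_inf_centralizer {P : Type*} [Group P] [Finite P] {p : ℕ} [hp : Fact p.Prime] (hP : IsPGroup p P)
    {U : Subgroup P} (hUn : U.Normal) (hU : IsElementaryAbelian p U) (hUc : Nat.card U = p ^ 2)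
    {A : Subgroup P} {k : ℕ} (hA : Nat.card A = p ^ (k + 1)) :
    p ^ k ≤ Nat.card ↥(A ⊓ centralizer (U : Set P)) := by
  -- central element in U
  have hUnt : Nontrivial U := by
    apply Finite.one_lt_card_iff_nontrivial.mp
    rw [hUc]; exact Nat.one_lt_pow (by norm_num) hp.out.one_lt
  have hPn : Nontrivial P := Function.Injective.nontrivial (Subtype.val_injective (p := fun x => x ∈ U))
  have hzc : U ⊓ center P ≠ ⊥ := by
    intro h
    have := hP.bot_lt_center
    have h2 := IsPGroup.isNilpotent hP
    have h3 : (⊥ : Subgroup P) < U ⊓ center P := by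
      -- the number of fixed points of P on U is divisible by p
      let _ : MulAction P U := MulAction.compHom U (MulAut.conjNormal (H := U))
      have h4 := hP.card_modEq_card_fixedPoints (α := U)
      have h5 : p ∣ Nat.card (MulAction.fixedPoints P U) := by
        have : p ∣ Nat.card U := by rw [hUc]; exact dvd_pow_self p (by norm_num)
        exact (Nat.modEq_zero_iff_dvd.mp (h4.symm.trans (Nat.modEq_zero_iff_dvd.mpr this)))
      have h6 : 1 < Nat.card (MulAction.fixedPoints P U) := by
        have h7 : 0 < Nat.card (MulAction.fixedPoints P U) := by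
          apply Nat.card_pos_iff.mpr
          refine ⟨⟨⟨1, ?_⟩⟩, inferInstance⟩
          intro g
          exact map_one (MulAut.conjNormal (H := U) g)
        exact lt_of_lt_of_le hp.out.one_lt (Nat.le_of_dvd h7 h5)
      have := Finite.one_lt_card_iff_nontrivial.mp h6
      obtain ⟨⟨x, hx⟩, ⟨y, hy⟩, hxy⟩ := this
      rw [bot_lt_iff_ne_bot]
      intro hb
      have key : ∀ x : U, x ∈ MulAction.fixedPoints P U → x = 1 := by
        intro x hx
        have : (x : P) ∈ U ⊓ center P := by
          refine mem_inf.mpr ⟨x.2, mem_center_iff.mpr ?_⟩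
          intro g
          have h8 : g * x * g⁻¹ = (x : P) := congrArg Subtype.val (hx g)
          calc g * x = (g * x * g⁻¹) * g := by group
            _ = x * g := by rw [h8]
        rw [hb] at this
        exact Subtype.ext (mem_bot.mp this)
      apply hxy
      rw [Subtype.mk.injEq, key x hx, key y hy]
    exact h3.ne' h
  obtain ⟨z, hz, hz1⟩ := (Subgroup.ne_bot_iff_exists_ne_one).mp hzc |> fun ⟨x, hx⟩ => (⟨x.1, x.2, fun h => hx (Subtype.ext h)⟩ : ∃ x, x ∈ U ⊓ center P ∧ x ≠ 1)
  obtain ⟨hzU, hzC⟩ := mem_inf.mp hz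
  have hzo : orderOf z = p := orderOf_eq_prime (hU.2 z hzU) hz1
  have hZlt : ∃ u ∈ U, u ∉ zpowers z := by
    by_contra h
    push Not at h
    have : U ≤ zpowers z := h
    have h1 := card_le_of_le this
    rw [Nat.card_zpowers, hzo, hUc] at h1
    nlinarith [hp.out.one_lt]
  obtain ⟨u, huU, huz⟩ := hZlt
  -- C(u) ≤ C(U)
  have hUeq : zpowers z ⊔ zpowers u = U := by
    apply eq_of_le_of_card_ge (sup_le (zpowers_le.mpr hzU) (zpowers_le.mpr huU))
    rw [hUc]
    have h1 : zpowers z < zpowers z ⊔ zpowers u := by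
      refine lt_of_le_of_ne le_sup_left ?_
      intro h
      apply huz
      rw [h]; exact mem_sup_right (mem_zpowers u)
    obtain ⟨m, hm⟩ := IsPGroup.iff_card.mp (hP.to_subgroup (zpowers z ⊔ zpowers u))
    have h2 : p ^ 1 < p ^ m := by
      rw [← hm, pow_one, ← hzo, ← Nat.card_zpowers]
      exact Set.Finite.card_lt_card (Set.toFinite _) h1
    have h3 : 1 < m := (Nat.pow_lt_pow_iff_right hp.out.one_lt).mp h2
    rw [hm]
    exact Nat.pow_le_pow_right hp.out.pos h3
  have hCu : centralizer ({u} : Set P) ≤ centralizer (U : Set P) := by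
    intro g hg
    rw [mem_centralizer_singleton_iff] at hg
    have : U ≤ centralizer ({g} : Set P) := by
      rw [← hUeq]
      apply sup_le
      · rw [zpowers_le, mem_centralizer_singleton_iff]
        exact ((mem_center_iff.mp hzC) g).symm
      · rw [zpowers_le, mem_centralizer_singleton_iff]
        exact hg.symm
    rw [mem_centralizer_iff]
    intro x hx
    exact (mem_centralizer_singleton_iff.mp (this hx))
  -- A acts on U: orbit of u has size ≤ p
  have hidx : (centralizer ({u} : Set P)).relIndex A ≤ p := by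
    -- index = number of conjugates a u a⁻¹, contained in U \ {1}, and a power of p
    obtain ⟨m, hm⟩ : ∃ m, (centralizer ({u} : Set P)).relIndex A = p ^ m := by
      have h1 : (centralizer ({u} : Set P)).relIndex A ∣ Nat.card A := relIndex_dvd_card _ _
      rw [hA] at h1
      obtain ⟨m, _, hm⟩ := (Nat.dvd_prime_pow hp.out).mp h1
      exact ⟨m, hm⟩
    have h2 : (centralizer ({u} : Set P)).relIndex A < p ^ 2 := by
      -- injection from A ⧸ C_A(u) into U \ {1}
      have h3 : (centralizer ({u} : Set P)).relIndex A ≤ Nat.card {x : U // x ≠ 1} := by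
        rw [Subgroup.relIndex, Subgroup.index]
        have hu1 : u ≠ 1 := fun h => huz (by rw [h]; exact one_mem _)
        let f : A ⧸ (centralizer ({u} : Set P)).subgroupOf A → {x : U // x ≠ 1} :=
          Quotient.lift (fun a : A => (⟨⟨a * u * (a : P)⁻¹, hUn.conj_mem u huU a⟩, by
            intro h
            apply hu1
            have h4 : (a : P) * u * (a : P)⁻¹ = 1 := congrArg Subtype.val h
            calc u = (a : P)⁻¹ * (a * u * (a : P)⁻¹) * a := by group
              _ = 1 := by rw [h4]; group⟩ : {x : U // x ≠ 1})) (by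
            intro a b hab
            have h5 : (a : P)⁻¹ * b ∈ centralizer ({u} : Set P) := by
              have := QuotientGroup.leftRel_apply.mp hab
              simpa [mem_subgroupOf] using this
            rw [mem_centralizer_singleton_iff] at h5
            apply Subtype.ext
            apply Subtype.ext
            change (a : P) * u * (a : P)⁻¹ = b * u * (b : P)⁻¹
            calc (a : P) * u * (a : P)⁻¹ = a * (u * ((a : P)⁻¹ * b)) * (b : P)⁻¹ := by group
              _ = a * (((a : P)⁻¹ * b) * u) * (b : P)⁻¹ := by rw [h5]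
              _ = _ := by group)
        apply Nat.card_le_card_of_injective f
        intro a b
        induction a using Quotient.inductionOn with | _ a
        induction b using Quotient.inductionOn with | _ b
        intro h
        have h6 : (a : P) * u * (a : P)⁻¹ = b * u * (b : P)⁻¹ := congrArg (fun x => ((x.1 : U) : P)) h
        apply Quotient.sound
        apply QuotientGroup.leftRel_apply.mpr
        rw [mem_subgroupOf, mem_centralizer_singleton_iff]
        push_cast
        calc (a : P)⁻¹ * b * u = (a : P)⁻¹ * (b * u * (b : P)⁻¹) * b := by group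
          _ = (a : P)⁻¹ * (a * u * (a : P)⁻¹) * b := by rw [h6]
          _ = _ := by group
      refine lt_of_le_of_lt h3 ?_
      rw [← hUc]
      have h7 : Nat.card {x : U // x ≠ 1} < Nat.card U := by
        have := Fintype.ofFinite U
        classical
        rw [Nat.card_eq_fintype_card, Nat.card_eq_fintype_card]
        exact Fintype.card_subtype_lt (x := 1) (by simp)
      exact h7
    rw [hm] at h2 ⊢
    have h3 : m < 2 := (Nat.pow_lt_pow_iff_right hp.out.one_lt).mp h2
    calc p ^ m ≤ p ^ 1 := Nat.pow_le_pow_right hp.out.pos (by omega)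
      _ = p := pow_one p
  have h8 := card_mul_relIndex (centralizer ({u} : Set P)) A
  rw [hA, pow_succ] at h8
  have h9 : p ^ k ≤ Nat.card ↥(centralizer ({u} : Set P) ⊓ A) := by
    by_contra hlt
    push Not at hlt
    have h10 : Nat.card ↥(centralizer ({u} : Set P) ⊓ A) * (centralizer ({u} : Set P)).relIndex A < p ^ k * p := by
      calc _ ≤ Nat.card ↥(centralizer ({u} : Set P) ⊓ A) * p := Nat.mul_le_mul_left _ hidx
        _ < p ^ k * p := Nat.mul_lt_mul_of_pos_right hlt hp.out.pos
    rw [h8] at h10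
    exact lt_irrefl _ h10
  refine h9.trans (card_le_of_le ?_)
  exact le_inf inf_le_right (inf_le_left.trans hCu)

/-- Let P be a finite p-group of p-rank greater than 2. Then P has a normal elementary abelian subgroup U of order p², and for every elementary abelian X ≤ P with |X| ≥ p²: X is joined to U by a chain of pairwise commuting elementary abelian subgroups of order ≥ p² if and only if C_P(X) has p-rank greater than 2. -/
theorem result {P : Type*} [Group P] [Finite P] (p : ℕ) [Fact p.Prime] (hP : IsPGroup p P) (hrk : ¬ Cfsg.PRankLE p 2 P) : ∃ U : Subgroup P, U.Normal ∧ Cfsg.IsElementaryAbelian p U ∧ Nat.card ↥U = p ^ 2 ∧ ∀ X : Subgroup P, Cfsg.IsElementaryAbelian p X → p ^ 2 ≤ Nat.card ↥X → (Relation.ReflTransGen (fun A B : Subgroup P => Cfsg.IsElementaryAbelian p A ∧ p ^ 2 ≤ Nat.card ↥A ∧ Cfsg.IsElementaryAbelian p B ∧ p ^ 2 ≤ Nat.card ↥B ∧ ∀ a ∈ A, ∀ b ∈ B, a * b = b * a) X U ↔ ¬ Cfsg.PRankLE p 2 ↥(Subgroup.centralizer (X : Set P))) := by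
  have hp : p.Prime := Fact.out
  obtain ⟨A, hA, hAc⟩ := not_prankLE_iff.mp hrk
  obtain ⟨kA, hkA⟩ := IsPGroup.iff_card.mp (hP.to_subgroup A)
  have hpow : ∀ B : Subgroup P, p ^ 2 < Nat.card B → p ^ 3 ≤ Nat.card B := by
    intro B hB
    obtain ⟨k, hk⟩ := IsPGroup.iff_card.mp (hP.to_subgroup B)
    rw [hk] at hB ⊢
    exact Nat.pow_le_pow_right hp.pos ((Nat.pow_lt_pow_iff_right hp.one_lt).mp hB)
  obtain ⟨E, _, hE, hE3⟩ := exists_card_eq (k := 3) hP hA (hpow A hAc)
  obtain ⟨U, hUn, hU, hUc⟩ := exists_normal_of_card hP hE hE3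
  refine ⟨U, hUn, hU, hUc, ?_⟩
  -- rank of C_P(X) in terms of subgroups of P
  have hrank : ∀ X : Subgroup P, ¬ PRankLE p 2 ↥(centralizer (X : Set P)) ↔
      ∃ B : Subgroup P, B ≤ centralizer (X : Set P) ∧ IsElementaryAbelian p B ∧ p ^ 2 < Nat.card B := by
    intro X
    rw [not_prankLE_iff]
    constructor
    · rintro ⟨B, hB, hBc⟩
      refine ⟨B.map (centralizer (X : Set P)).subtype, map_subtype_le _, ?_, ?_⟩
      · refine ⟨?_, ?_⟩
        · constructor
          constructor
          rintro ⟨_, a, ha, rfl⟩ ⟨_, b, hb, rfl⟩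
          apply Subtype.ext
          have h1 : a * b = b * a := congrArg Subtype.val (hB.1.is_comm.comm ⟨a, ha⟩ ⟨b, hb⟩)
          have h2 : (a : P) * b = b * a := congrArg Subtype.val h1
          exact h2
        · rintro _ ⟨a, ha, rfl⟩
          exact congrArg Subtype.val (hB.2 a ha)
      · rw [card_map_of_injective (subtype_injective _)]; exact hBc
    · rintro ⟨B, hBle, hB, hBc⟩
      refine ⟨B.subgroupOf (centralizer (X : Set P)), ⟨?_, ?_⟩, ?_⟩
      · constructor
        constructor
        rintro ⟨a, ha⟩ ⟨b, hb⟩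
        apply Subtype.ext
        apply Subtype.ext
        have h1 : (a : P) * b = b * a := congrArg Subtype.val (hB.1.is_comm.comm ⟨a, ha⟩ ⟨b, hb⟩)
        exact h1
      · intro a ha
        exact Subtype.ext (hB.2 a ha)
      · rw [card_subgroupOf_of_le hBle]; exact hBc
  have hUrank : ¬ PRankLE p 2 ↥(centralizer (U : Set P)) := by
    rw [hrank]
    have h1 : p ^ 2 ≤ Nat.card ↥(E ⊓ centralizer (U : Set P)) := card_inf_centralizer hP hUn hU hUc hE3
    set F := E ⊓ centralizer (U : Set P) with hF
    have hFe : IsElementaryAbelian p F := elemAb_mono inf_le_left hE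
    have hcomm : ∀ a ∈ U, ∀ b ∈ F, a * b = b * a := by
      intro a ha b hb
      exact (mem_centralizer_iff.mp (mem_inf.mp hb).2) a ha
    refine ⟨U ⊔ F, ?_, (elemAb_sup hU hFe hcomm).1, ?_⟩
    · apply sup_le
      · intro x hx
        rw [mem_centralizer_iff]
        intro y hy
        exact congrArg Subtype.val (hU.1.is_comm.comm ⟨y, hy⟩ ⟨x, hx⟩)
      · exact inf_le_right
    · by_contra hle
      push Not at hle
      have h2 : U = U ⊔ F := eq_of_le_of_card_ge le_sup_left (by rw [hUc]; exact hle)
      have h3 : F ≤ U := by rw [h2]; exact le_sup_right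
      have h4 : F = U := eq_of_le_of_card_ge h3 (by rw [hUc]; exact h1)
      have h5 : U ≤ E := by rw [← h4]; exact inf_le_left
      have h6 : E ≤ centralizer (U : Set P) := by
        intro x hx
        rw [mem_centralizer_iff]
        intro y hy
        exact congrArg Subtype.val (hE.1.is_comm.comm ⟨y, h5 hy⟩ ⟨x, hx⟩)
      have h7 : F = E := by rw [hF]; exact inf_eq_left.mpr h6
      rw [← h7, h4, hUc] at hE3
      have := Nat.pow_right_injective hp.two_le hE3
      omega
  intro X hX hXc
  constructor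
  · intro hchain hr
    have hXcard : ∀ B : Subgroup P, IsElementaryAbelian p B → p ^ 2 ≤ Nat.card B →
        (∀ a ∈ X, ∀ b ∈ B, a * b = b * a) → B = X := by
      intro B hB hBc hcomm
      have h1 := (elemAb_sup hX hB hcomm).1
      have h2 : X ⊔ B ≤ centralizer (X : Set P) := by
        intro x hx
        rw [mem_centralizer_iff]
        intro y hy
        exact congrArg Subtype.val (h1.1.is_comm.comm ⟨y, mem_sup_left hy⟩ ⟨x, hx⟩)
      have h3 : ¬ p ^ 2 < Nat.card ↥(X ⊔ B) := by
        intro h
        exact ((hrank X).mpr ⟨X ⊔ B, h2, h1, h⟩) hr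
      push Not at h3
      have h4 : X = X ⊔ B := eq_of_le_of_card_ge le_sup_left (h3.trans hXc)
      have h5 : B = X ⊔ B := eq_of_le_of_card_ge le_sup_right (h3.trans hBc)
      rw [h5, ← h4]
    have h1 : U = X := by
      have key : ∀ B, Relation.ReflTransGen (fun A B : Subgroup P => Cfsg.IsElementaryAbelian p A ∧ p ^ 2 ≤ Nat.card ↥A ∧ Cfsg.IsElementaryAbelian p B ∧ p ^ 2 ≤ Nat.card ↥B ∧ ∀ a ∈ A, ∀ b ∈ B, a * b = b * a) X B → B = X := by
        intro B hB
        induction hB with
        | refl => rfl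
        | tail _ h2 ih =>
          subst ih
          exact hXcard _ h2.2.2.1 h2.2.2.2.1 h2.2.2.2.2
      exact key U hchain
    rw [← h1] at hr
    exact hUrank hr
  · intro hr
    obtain ⟨B, hBle, hB, hBc⟩ := (hrank X).mp hr
    obtain ⟨Y, hYB, hY, hYc⟩ := exists_card_eq (k := 3) hP hB (hpow B hBc)
    have h1 : p ^ 2 ≤ Nat.card ↥(Y ⊓ centralizer (U : Set P)) := card_inf_centralizer hP hUn hU hUc hYc
    have hF : IsElementaryAbelian p (Y ⊓ centralizer (U : Set P)) := elemAb_mono inf_le_left hY
    have hYc2 : p ^ 2 ≤ Nat.card Y := by rw [hYc]; exact Nat.pow_le_pow_right hp.pos (by norm_num)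
    refine Relation.ReflTransGen.tail (Relation.ReflTransGen.tail (Relation.ReflTransGen.single (b := Y) ?_)
      (c := Y ⊓ centralizer (U : Set P)) ?_) ?_
    · refine ⟨hX, hXc, hY, hYc2, ?_⟩
      intro a ha b hb
      exact (mem_centralizer_iff.mp (hBle (hYB hb))) a ha
    · refine ⟨hY, hYc2, hF, h1, ?_⟩
      intro a ha b hb
      exact congrArg Subtype.val (hY.1.is_comm.comm ⟨a, ha⟩ ⟨b, (mem_inf.mp hb).1⟩)
    · refine ⟨hF, h1, hU, hUc.ge, ?_⟩
      intro a ha b hb
      exact ((mem_centralizer_iff.mp (mem_inf.mp ha).2) b hb).symm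

end Cfsg.Agent.S1337
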