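import Cfsg.Statements.S1338
import Cfsg.Agent.Lib.ThreeConn
import Cfsg.Agent.Lib.NormalE2

set_option autoImplicit false
open Cfsg

namespace Cfsg.Agent.S1338

open Subgroup Lib.ThreeConn

def R {P : Type*} [Group P] (A B : Subgroup P) : Prop :=
  IsElementaryAbelian 3 A ∧ 3 ^ 2 ≤ Nat.card ↥A ∧ IsElementaryAbelian 3 B ∧
        3 ^ 2 ≤ Nat.card ↥B ∧ ∀ a ∈ A, ∀ b ∈ B, a * b = b * a

theorem R_symm {P : Type*} [Group P] {A B : Subgroup P} (h : R A B) : R B A :=
  ⟨h.2.2.1, h.2.2.2.1, h.1, h.2.1, fun a ha b hb => (h.2.2.2.2 b hb a ha).symm⟩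

theorem conn_symm {P : Type*} [Group P] {A B : Subgroup P} (h : Relation.ReflTransGen R A B) :
    Relation.ReflTransGen R B A := by
  induction h with
  | refl => exact Relation.ReflTransGen.refl
  | tail _ h2 ih => exact Relation.ReflTransGen.head (R_symm h2) ih

theorem result {P : Type*} [Group P] [Finite P] (hP : IsPGroup 3 P) (hrk : ¬ Cfsg.PRankLE 3 3 P) : Cfsg.IsKConnected 3 2 P := by
  have hp : Fact (Nat.Prime 3) := ⟨Nat.prime_three⟩
  have hpow : ∀ H : Subgroup P, ∃ k, Nat.card H = 3 ^ k := fun H =>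
    IsPGroup.iff_card.1 (hP.to_subgroup H)
  have hbig : ∀ (H : Subgroup P) (j : ℕ), 3 ^ j < Nat.card H → 3 ^ (j + 1) ∣ Nat.card H := by
    intro H j h
    obtain ⟨k, hk⟩ := hpow H
    rw [hk] at h ⊢
    exact pow_dvd_pow 3 (Nat.pow_lt_pow_iff_right (by norm_num) |>.1 h)
  have hsub : ∀ (H : Subgroup P) (j : ℕ), 3 ^ j ∣ Nat.card H → ∃ K : Subgroup P, K ≤ H ∧
      Nat.card K = 3 ^ j := by
    intro H j h
    obtain ⟨K, hK⟩ := Sylow.exists_subgroup_card_pow_prime (G := H) 3 h
    refine ⟨K.map H.subtype, ?_, ?_⟩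
    · rintro _ ⟨x, -, rfl⟩
      exact x.2
    · rw [Subgroup.card_map_of_injective H.subtype_injective, hK]
  have hmono : ∀ {A B : Subgroup P}, A ≤ B → IsElementaryAbelian 3 B → IsElementaryAbelian 3 A :=
    fun h hB => Lib.NormalE2.elemAb_mono h hB
  have hcomm : ∀ {B : Subgroup P}, IsElementaryAbelian 3 B → ∀ x ∈ B, ∀ y ∈ B, x * y = y * x :=
    fun hB x hx y hy => congrArg Subtype.val (hB.1.is_comm.comm ⟨x, hx⟩ ⟨y, hy⟩)
  -- a subgroup of order 81
  unfold PRankLE at hrk
  push Not at hrk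
  obtain ⟨A0, hA0c, hA0e, hA0⟩ := hrk
  have hA0' : IsElementaryAbelian 3 A0 := ⟨hA0c, hA0e⟩
  obtain ⟨A, hAA0, hA81⟩ := hsub A0 4 (hbig A0 3 hA0)
  have hA : IsElementaryAbelian 3 A := hmono hAA0 hA0'
  obtain ⟨A3, hA3A, hA3⟩ := hsub A 3 (by rw [hA81]; norm_num)
  obtain ⟨U, hUn, hU, hUc⟩ := Lib.NormalE2.exists_normal_of_card hP (hmono hA3A hA) hA3
  -- chain in U
  have hU1 : (⊥ : Subgroup P) < U := by
    rw [bot_lt_iff_ne_bot]
    rintro rfl
    rw [Subgroup.card_bot] at hUc
    norm_num at hUc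
  obtain ⟨L1, hL1n, -, hL1U, hL1c, w1, hw1L, hw1M, -, hw1g, hL1e⟩ :=
    Lib.PGroupOdd.exists_normal_step hP inferInstance hUn hU1
  rw [Subgroup.card_bot, mul_one] at hL1c
  have hL1cen : ∀ v ∈ L1, ∀ g : P, g * v = v * g := by
    have h1 : L1 ≤ center P := by
      rw [hL1e, bot_sup_eq, zpowers_le, mem_center_iff]
      intro g
      have := hw1g g
      rw [mem_bot, commutatorElement_def, mul_inv_eq_one, mul_inv_eq_iff_eq_mul] at this
      exact this
    intro v hv g
    exact mem_center_iff.1 (h1 hv) g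
  have hL1U' : L1 < U := by
    refine lt_of_le_of_ne hL1U ?_
    rintro rfl
    rw [hL1c] at hUc
    norm_num at hUc
  obtain ⟨L2, hL2n, hL12, hL2U, hL2c, w2, hw2L, hw2M, -, hw2g, hL2e⟩ :=
    Lib.PGroupOdd.exists_normal_step hP hL1n hUn hL1U'
  rw [hL1c] at hL2c
  have hL2 : L2 = U := Subgroup.eq_of_le_of_card_ge hL2U (by rw [hUc, hL2c]; norm_num)
  have hCU : ∀ x : P, x * w2 = w2 * x → ∀ v ∈ U, x * v = v * x := by
    intro x hx v hv
    have h1 : U ≤ centralizer {x} := by
      rw [← hL2, hL2e]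
      refine sup_le (fun u hu => mem_centralizer_singleton_iff.2 (hL1cen u hu x).symm) ?_
      rw [zpowers_le]
      exact mem_centralizer_singleton_iff.2 hx.symm
    exact (mem_centralizer_singleton_iff.1 (h1 hv)).symm
  have hconn : ∀ E : Subgroup P, IsElementaryAbelian 3 E → 3 ^ 2 ≤ Nat.card E →
      Relation.ReflTransGen R E U := by
    intro E hE hE9
    -- enlarge
    obtain ⟨E', hEE', hE', hE27⟩ : ∃ E' : Subgroup P, E ≤ E' ∧ IsElementaryAbelian 3 E' ∧
        27 ≤ Nat.card E' := by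
      by_cases h27 : 27 ≤ Nat.card E
      · exact ⟨E, le_rfl, hE, h27⟩
      · have hE9' : Nat.card E = 9 := by
          obtain ⟨k, hk⟩ := hpow E
          rw [hk] at hE9 h27 ⊢
          have h1 : 2 ≤ k := (Nat.pow_le_pow_iff_right (by norm_num)).1 hE9
          have h2 : k < 3 := by
            by_contra h
            exact h27 (by
              calc 27 = 3 ^ 3 := by norm_num
                _ ≤ 3 ^ k := Nat.pow_le_pow_right (by norm_num) (by omega))
          have : k = 2 := by omega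
          rw [this]; norm_num
        by_contra hcon
        apply main hP hE hE9' _ hA (by rw [hA81]; norm_num)
        intro x hx hx3
        by_contra hxE
        apply hcon
        have hE2 : IsElementaryAbelian 3 (E ⊔ zpowers x) := by
          refine (Lib.NormalE2.elemAb_sup hE (Lib.NormalE2.elemAb_zpowers hx3) ?_).1
          intro a ha b hb
          obtain ⟨k, rfl⟩ := mem_zpowers_iff.1 hb
          exact ((show Commute x a from hx a ha).zpow_left k).symm.eq
        refine ⟨E ⊔ zpowers x, le_sup_left, hE2, ?_⟩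
        have h1 : Nat.card E < Nat.card ↥(E ⊔ zpowers x) := by
          by_contra hlt
          push Not at hlt
          have := Subgroup.eq_of_le_of_card_ge le_sup_left hlt
          exact hxE (this ▸ mem_sup_right (mem_zpowers x))
        rw [hE9'] at h1
        exact Nat.le_of_dvd Nat.card_pos (hbig _ 2 h1)
    -- the centralizer of U in E'
    have hD : 9 ≤ Nat.card ↥(E' ⊓ centralizer {w2}) := by
      have := card_le_delta E' L1 w2 (fun x hx y hy => hcomm hU x (hL1U hx) y (hL1U hy))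
        (fun x _ v hv => hL1cen v hv x) (fun x _ => hw2g x)
      rw [hL1c] at this
      omega
    have hDe : IsElementaryAbelian 3 (E' ⊓ centralizer {w2}) := hmono inf_le_left hE'
    have r1 : R E E' := ⟨hE, hE9, hE', by norm_num; omega, fun a ha b hb =>
      hcomm hE' a (hEE' ha) b hb⟩
    have r2 : R E' (E' ⊓ centralizer {w2}) := ⟨hE', by norm_num; omega, hDe, by norm_num; exact hD,
      fun a ha b hb => hcomm hE' a ha b hb.1⟩
    have r3 : R (E' ⊓ centralizer {w2}) U := ⟨hDe, by norm_num; exact hD, hU, by rw [hUc],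
      fun a ha b hb => hCU a (mem_centralizer_singleton_iff.1 ha.2) b hb⟩
    exact ((Relation.ReflTransGen.single r1).tail r2).tail r3
  intro E E' hE hE9 hE' hE'9
  exact (hconn E hE hE9).trans (conn_symm (hconn E' hE' hE'9))

end Cfsg.Agent.S1338
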