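import Cfsg.Statements.S1343
import Cfsg.Agent.Lib.H23Basic

set_option autoImplicit false
open Cfsg

namespace Cfsg.Agent.S1343

open Cfsg.Agent.Lib.H23Basic

/-- Let X be finite. Then L*_{2'}(X) = L_{2'}(X) ⊔ F for some subgroup F of odd order normalized by a Sylow 2-subgroup of X. -/
theorem result {X : Type*} [Group X] [Finite X] : ∃ F : Subgroup X, Odd (Nat.card ↥F) ∧ (∃ S : Sylow 2 X, (S : Subgroup X) ≤ Subgroup.normalizer (F : Set X)) ∧ Cfsg.extendedTwoLayer X = Cfsg.pLayer 2 X ⊔ F := by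
  have hNn : (pLayer 2 X ⊔ pPrimePCore 2 X).Normal := layerN_normal 2
  obtain ⟨T⟩ : Nonempty (Sylow 2 ↥(pLayer 2 X ⊔ pPrimePCore 2 X)) := inferInstance
  have hE := extendedTwoLayer_eq_of_sylow T
  generalize hN : pLayer 2 X ⊔ pPrimePCore 2 X = N at *
  obtain ⟨Q, hQ⟩ := T.exists_comap_subtype_eq
  set Tm := (T : Subgroup ↥N).map N.subtype with hTm
  have hTQ : Tm = (Q : Subgroup X) ⊓ N := by
    have h1 : (T : Subgroup ↥N) = (Q : Subgroup X).comap N.subtype := hQ.symm
    rw [hTm, h1, ← Subgroup.subgroupOf, Subgroup.subgroupOf_map_subtype]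
  refine ⟨oddCore X ⊔ OC Tm, ?_, ⟨Q, ?_⟩, ?_⟩
  · have h1 : Odd (Nat.card ↥(OC Tm)) := by
      unfold OC
      rw [Subgroup.card_map_of_injective (Subgroup.subtype_injective _)]
      exact odd_card_oddCore
    have h2 := card_sup_dvd (OC Tm) (oddCore X)
    rw [sup_comm] at h2
    exact Odd.of_dvd_nat (odd_card_oddCore.mul h1) h2
  · intro q hq
    apply Subgroup.mem_normalizer_fintype
    intro n hn
    have hle : (oddCore X ⊔ OC Tm).map (MulAut.conj q : X →* X) ≤ oddCore X ⊔ OC Tm := by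
      rw [Subgroup.map_sup]
      apply sup_le_sup
      · exact pPrimeCore_map_le 2 (MulAut.conj q)
      · rw [OC_map]
        have : Tm.map (MulAut.conj q : X →* X) = Tm := by
          rw [hTQ, Subgroup.map_inf _ _ _ (MulAut.conj q).injective]
          congr 1
          · exact Subgroup.mem_normalizer_iff_map_conj_eq.mp (Subgroup.le_normalizer hq)
          · exact Subgroup.mem_normalizer_iff_map_conj_eq.mp (by rw [Subgroup.normalizer_eq_top]; trivial)
        rw [this]
    exact hle ⟨n, hn, rfl⟩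
  · rw [hE, sup_assoc]

end Cfsg.Agent.S1343
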