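import Cfsg.Statements.S1348
import Cfsg.Agent.Lib.SLQuasi

set_option autoImplicit false
open Cfsg

namespace Cfsg.Agent.S1348

open Subgroup Lib.SLQuasi Lib.Components Matrix

theorem result {F : Type*} [Field F] [Fintype F] [DecidableEq F] (hF : Odd (Fintype.card F)) (n : ℕ) (hn : 7 ≤ n) (hodd : Odd n) (t : Matrix.SpecialLinearGroup (Fin n) F) (ht : (t : Matrix (Fin n) (Fin n) F) = Matrix.diagonal (fun i : Fin n => if (i : ℕ) + 1 = n then (1 : F) else -1)) : Cfsg.IsStandardSubgroup ((Cfsg.layer ↥(Subgroup.centralizer ({t} : Set (Matrix.SpecialLinearGroup (Fin n) F)))).map (Subgroup.centralizer ({t} : Set (Matrix.SpecialLinearGroup (Fin n) F))).subtype) := by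
  obtain ⟨m, rfl⟩ : ∃ m, n = m + 1 := ⟨n - 1, by omega⟩
  have hm : 6 ≤ m := by omega
  have hme : Even m := by
    rcases Nat.even_or_odd m with h | h
    · exact h
    · exact absurd hodd (Nat.not_odd_iff_even.2 h.add_one)
  have h2 : (2 : F) ≠ 0 := two_ne_zero_of_odd hF
  have hq : IsQuasisimple (SpecialLinearGroup (Fin m) F) :=
    quasisimple_SL (by omega) (fun h => by omega)
  have htv : t.1 = blk (-1) 1 := by
    rw [ht]
    apply ext_fin
    · intro i j
      by_cases hij : i = j
      · subst hij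
        have : (i : ℕ) + 1 ≠ m + 1 := by have := i.2; omega
        simp [this]
        intro h
        omega
      · simp [Matrix.one_apply, hij, diagonal_apply]
    · intro i; simp [Fin.castSucc_ne_last]
    · intro i; simp [(Fin.castSucc_ne_last i).symm]
    · simp
  set K₀ : Subgroup (SpecialLinearGroup (Fin (m + 1)) F) := (embS (F := F) (m := m)).range with hK₀
  set C := centralizer ({t} : Set (SpecialLinearGroup (Fin (m + 1)) F)) with hC
  have hcent : ∀ g : SpecialLinearGroup (Fin (m + 1)) F, g ∈ C ↔ ∃ A μ, g.1 = blk A μ := by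
    intro g
    rw [hC, mem_centralizer_singleton_iff]
    constructor
    · intro h
      have h1 : g.1 * t.1 = t.1 * g.1 := congrArg (fun x : SpecialLinearGroup (Fin (m + 1)) F => x.1) h
      rw [htv] at h1
      exact exists_blk_of_commute h2 h1
    · rintro ⟨A, μ, h⟩
      apply Subtype.ext
      change g.1 * t.1 = t.1 * g.1
      rw [h, htv]
      exact blk_commute_neg A μ
  have hmemK : ∀ g : SpecialLinearGroup (Fin (m + 1)) F, g ∈ K₀ ↔ ∃ A, g.1 = blk A 1 := by
    intro g
    constructor
    · rintro ⟨A, rfl⟩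
      exact ⟨A.1, rfl⟩
    · rintro ⟨A, hA⟩
      have hdA : A.det = 1 := by
        have := g.2
        rw [hA, det_blk] at this; simpa using this
      exact ⟨(⟨A, hdA⟩ : SpecialLinearGroup (Fin m) F), Subtype.ext hA.symm⟩
  have hK₀C : K₀ ≤ C := by
    intro x hx
    obtain ⟨A, hA⟩ := (hmemK x).1 hx
    exact (hcent x).2 ⟨A, 1, hA⟩
  have hqK : IsQuasisimple ↥K₀ := quasisimple_congr (MonoidHom.ofInjective embS_injective) hq
  -- the map `g ↦ g_nn` on C
  let χ : ↥C →* F :=
    { toFun := fun g => g.1.1 (Fin.last m) (Fin.last m)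
      map_one' := by simp
      map_mul' := by
        intro g h
        obtain ⟨A, μ, hA⟩ := (hcent _).1 g.2
        obtain ⟨B, ν, hB⟩ := (hcent _).1 h.2
        change (g.1.1 * h.1.1) _ _ = g.1.1 _ _ * h.1.1 _ _
        rw [hA, hB, blk_mul]
        simp }
  have hχ : ∀ g : ↥C, g.1 ∈ K₀ ↔ χ g = 1 := by
    intro g
    obtain ⟨A, μ, hA⟩ := (hcent _).1 g.2
    have h1 : χ g = μ := by
      change g.1.1 (Fin.last m) (Fin.last m) = μ
      rw [hA, blk_ll]
    rw [hmemK, h1]
    constructor
    · rintro ⟨B, hB⟩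
      rw [hA] at hB
      exact (blk_ext hB).2
    · rintro rfl
      exact ⟨A, hA⟩
  have hKn : (K₀.subgroupOf C).Normal := by
    refine ⟨fun k hk g => ?_⟩
    rw [mem_subgroupOf, hχ] at hk ⊢
    rw [map_mul, map_mul, hk, mul_one, ← map_mul, mul_inv_cancel, map_one]
  have hlayer : layer ↥C = K₀.subgroupOf C := by
    apply le_antisymm
    · apply sSup_le
      intro L hL
      have h1 := component_perfect hL
      rw [← h1, commutator_le]
      intro x _ y _
      rw [mem_subgroupOf, hχ, commutatorElement_def, map_mul, map_mul, map_mul, mul_comm (χ x),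
        mul_assoc (χ y), ← map_mul χ x, mul_inv_cancel, map_one, mul_one, ← map_mul,
        mul_inv_cancel, map_one]
    · exact le_sSup ⟨hKn.isSubnormal, (quasisimple_subgroupOf hK₀C).2 hqK⟩
  have hmap : (layer ↥C).map C.subtype = K₀ := by
    rw [hlayer, map_subgroupOf_eq_of_le hK₀C]
  rw [hmap]
  -- centralizer of `K₀`
  have htK : t ∈ K₀ := (hmemK t).2 ⟨_, htv⟩
  have hCK : ∀ g, g ∈ centralizer (K₀ : Set (SpecialLinearGroup (Fin (m + 1)) F)) ↔
      ∃ a μ : F, g.1 = blk (a • (1 : Matrix (Fin m) (Fin m) F)) μ := by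
    intro g
    rw [mem_centralizer_iff]
    constructor
    · intro h
      have hgC : g ∈ C := mem_centralizer_singleton_iff.2 (h t htK).symm
      obtain ⟨A, μ, hA⟩ := (hcent g).1 hgC
      have h3 : A ∈ Set.range (Matrix.scalar (Fin m) : F → _) := by
        apply Matrix.mem_range_scalar_of_commute_transvectionStruct
        intro s
        have h4 := h (embS ⟨s.toMatrix, s.det⟩) ⟨_, rfl⟩
        have h5 : blk s.toMatrix 1 * g.1 = g.1 * blk s.toMatrix 1 :=
          congrArg (fun x : SpecialLinearGroup (Fin (m + 1)) F => x.1) h4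
        rw [hA, blk_mul, blk_mul] at h5
        exact (blk_ext h5).1
      obtain ⟨a, rfl⟩ := h3
      refine ⟨a, μ, ?_⟩
      rw [hA, Matrix.scalar_apply, Matrix.smul_one_eq_diagonal]
    · rintro ⟨a, μ, hA⟩ k hk
      obtain ⟨B, hB⟩ := (hmemK k).1 hk
      apply Subtype.ext
      change k.1 * g.1 = g.1 * k.1
      rw [hA, hB, blk_mul, blk_mul]
      simp
  -- unique involution
  have huniq : ∀ u ∈ centralizer (K₀ : Set (SpecialLinearGroup (Fin (m + 1)) F)),
      orderOf u = 2 → u = t := by
    intro u hu ho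
    obtain ⟨a, μ, hA⟩ := (hCK u).1 hu
    have h3 : u.1 * u.1 = 1 := by
      have h4 : u * u = 1 := by rw [← pow_two, ← ho]; exact pow_orderOf_eq_one u
      exact congrArg (fun x : SpecialLinearGroup (Fin (m + 1)) F => x.1) h4
    rw [hA, blk_mul, ← blk_one] at h3
    obtain ⟨h4, h5⟩ := blk_ext h3
    have h6 : a * a = 1 := by
      have := congrFun (congrFun h4 ⟨0, by omega⟩) ⟨0, by omega⟩
      simpa using this
    have h7 : a ^ m * μ = 1 := by
      have := u.2
      rw [hA, det_blk, det_smul, det_one, Fintype.card_fin, mul_one] at this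
      exact this
    have h8 : a ^ m = 1 := by
      obtain ⟨k, rfl⟩ := hme
      rw [← two_mul, pow_mul, pow_two, h6, one_pow]
    rw [h8, one_mul] at h7
    subst h7
    have h9 : (a - 1) * (a + 1) = 0 := by linear_combination h6
    rcases mul_eq_zero.1 h9 with h10 | h10
    · exfalso
      have h11 : a = 1 := sub_eq_zero.1 h10
      rw [h11, one_smul, blk_one] at hA
      have : u = 1 := Subtype.ext hA
      rw [this, orderOf_one] at ho
      omega
    · have h11 : a = -1 := eq_neg_of_add_eq_zero_left h10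
      apply Subtype.ext
      rw [hA, htv, h11]
      simp
  have hto : orderOf t = 2 := by
    apply orderOf_eq_prime
    · rw [pow_two]
      apply Subtype.ext
      change t.1 * t.1 = 1
      rw [htv, blk_mul]; simpa using blk_one (m := m) (F := F)
    · intro h
      have h1 : t.1 = 1 := congrArg (fun x : SpecialLinearGroup (Fin (m + 1)) F => x.1) h
      rw [htv, ← blk_one] at h1
      have h3 := congrFun (congrFun (blk_ext h1).1 ⟨0, by omega⟩) ⟨0, by omega⟩
      simp at h3
      exact h2 (by linear_combination -h3)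
  have htCK : t ∈ centralizer (K₀ : Set (SpecialLinearGroup (Fin (m + 1)) F)) :=
    (hCK t).2 ⟨-1, 1, by rw [htv]; simp⟩
  have hab : ∀ x ∈ centralizer (K₀ : Set (SpecialLinearGroup (Fin (m + 1)) F)),
      ∀ y ∈ centralizer (K₀ : Set (SpecialLinearGroup (Fin (m + 1)) F)), x * y = y * x := by
    intro x hx y hy
    obtain ⟨a, μ, hA⟩ := (hCK x).1 hx
    obtain ⟨b, ν, hB⟩ := (hCK y).1 hy
    apply Subtype.ext
    change x.1 * y.1 = y.1 * x.1
    rw [hA, hB, blk_mul, blk_mul]
    simp [smul_smul, mul_comm]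
  have hCN : C ≤ normalizer (K₀ : Set (SpecialLinearGroup (Fin (m + 1)) F)) :=
    (Subgroup.normal_subgroupOf_iff_le_normalizer hK₀C).1 hKn
  have hNsub : normalizer (K₀ : Set (SpecialLinearGroup (Fin (m + 1)) F)) ≤
      normalizer (centralizer (K₀ : Set (SpecialLinearGroup (Fin (m + 1)) F)) : Set
        (SpecialLinearGroup (Fin (m + 1)) F)) := by
    intro g hg
    rw [mem_normalizer_iff] at hg ⊢
    intro x
    rw [mem_centralizer_iff, mem_centralizer_iff]
    constructor
    · intro h k hk
      have h3 : g⁻¹ * k * g ∈ K₀ := by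
        rw [hg]; group; exact hk
      have h4 := h _ h3
      calc k * (g * x * g⁻¹) = g * ((g⁻¹ * k * g) * x) * g⁻¹ := by group
        _ = g * (x * (g⁻¹ * k * g)) * g⁻¹ := by rw [h4]
        _ = g * x * g⁻¹ * k := by group
    · intro h k hk
      have h4 := h _ ((hg k).1 hk)
      have h5 : g * (k * x) * g⁻¹ = g * (x * k) * g⁻¹ := by
        calc g * (k * x) * g⁻¹ = (g * k * g⁻¹) * (g * x * g⁻¹) := by group
          _ = g * x * g⁻¹ * (g * k * g⁻¹) := h4
          _ = _ := by group
      exact mul_left_cancel (mul_right_cancel h5)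
  -- elements which conjugate t into the centralizer of K₀ are in C
  have hkey : ∀ g : SpecialLinearGroup (Fin (m + 1)) F,
      g * t * g⁻¹ ∈ centralizer (K₀ : Set (SpecialLinearGroup (Fin (m + 1)) F)) → g ∈ C := by
    intro g hg
    have h3 : orderOf (g * t * g⁻¹) = 2 := by
      have := orderOf_injective (MulAut.conj g).toMonoidHom (MulAut.conj g).injective t
      rw [hto] at this
      exact this
    have h4 := huniq _ hg h3
    rw [hC, mem_centralizer_singleton_iff]
    calc g * t = g * t * g⁻¹ * g := by group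
      _ = t * g := by rw [h4]
  refine ⟨hqK, ⟨?_, ?_⟩, ?_, ?_⟩
  · rw [even_iff_two_dvd, ← hto]
    rw [← Subgroup.orderOf_mk t htCK]
    exact orderOf_dvd_natCard _
  · intro g hg
    by_contra hne
    rw [Nat.not_odd_iff_even, even_iff_two_dvd] at hne
    obtain ⟨u, hu⟩ := exists_prime_orderOf_dvd_card' 2 hne
    have hu1 := u.2.1
    have hu2 := u.2.2
    have hu3 : orderOf (u : SpecialLinearGroup (Fin (m + 1)) F) = 2 := by
      rw [Subgroup.orderOf_coe]; exact hu
    have h4 := huniq _ hu1 hu3
    obtain ⟨v, hv, hv2⟩ := hu2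
    have h5 : orderOf v = 2 := by
      rw [← hu3, ← hv2]
      exact (orderOf_injective (MulAut.conj g).toMonoidHom (MulAut.conj g).injective v).symm
    have h6 := huniq v hv h5
    apply hg
    apply hNsub
    apply hCN
    apply hkey
    have h7 : g * t * g⁻¹ = u := by rw [← hv2, h6]; rfl
    rw [h7]
    exact hu1
  · intro g hne hc
    rw [commutator_eq_bot_iff_le_centralizer] at hc
    have h3 : K₀.map (MulAut.conj g).toMonoidHom ≤
        centralizer (K₀ : Set (SpecialLinearGroup (Fin (m + 1)) F)) := by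
      exact le_centralizer_comm hc
    have hq3 : IsQuasisimple ↥(K₀.map (MulAut.conj g).toMonoidHom) :=
      (quasisimple_map_of_injective (MulAut.conj g).injective).2 hqK
    apply not_isMulCommutative_of_quasisimple hq3
    refine ⟨⟨fun x y => ?_⟩⟩
    apply Subtype.ext
    exact hab x (h3 x.2) y (h3 y.2)
  · apply le_antisymm hNsub
    intro g hg
    apply hCN
    apply hkey
    exact (mem_normalizer_iff.1 hg t).1 htCK

end Cfsg.Agent.S1348
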