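import Cfsg.Statements.S1441
import Cfsg.Agent.Lib.CopElem

set_option autoImplicit false
open Cfsg

namespace Cfsg.Agent.S1441

open Subgroup
open scoped commutatorElement

theorem result {G : Type*} [Group G] [Finite G] (H A : Subgroup G) (hH : Group.IsSolvable H) (hA : (A ≤ Subgroup.normalizer (H : Set G)))
    (n : ℕ) (c : Fin (n + 1) → Subgroup G) (hc0 : c 0 = H) (hcn : c (Fin.last n) = ⊥) (hanti : Antitone c)
    (hcN : ∀ i, H ≤ Subgroup.normalizer ((c i : Subgroup G) : Set G)) (hcA : ∀ i, A ≤ Subgroup.normalizer ((c i : Subgroup G) : Set G))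
    (htriv : ∀ i : Fin n, ⁅c i.castSucc, A⁆ ≤ c i.succ) :
    ∀ p : ℕ, p.Prime → p ∣ (A ⊓ Subgroup.centralizer (H : Set G)).relIndex A → p ∣ Nat.card H := by
  intro p hp hdvd
  by_contra hpH
  haveI : Fact p.Prime := ⟨hp⟩
  -- a Sylow p-subgroup of A
  obtain ⟨P⟩ := (inferInstance : Nonempty (Sylow p A))
  set Q : Subgroup G := (P : Subgroup A).map A.subtype with hQ
  have hQA : Q ≤ A := map_subtype_le _
  have hQp : IsPGroup p Q := P.isPGroup'.map _
  obtain ⟨m, hm⟩ := IsPGroup.iff_card.mp hQp
  have hcop : (Nat.card Q).Coprime (Nat.card H) := by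
    rw [hm]
    exact Nat.Coprime.pow_left _ ((Nat.Prime.coprime_iff_not_dvd hp).mpr hpH)
  have key : ∀ i : Fin (n + 1), Q ≤ centralizer (c i : Set G) := by
    intro i
    induction i using Fin.reverseInduction with
    | last =>
      rw [hcn]
      intro x _
      rw [mem_centralizer_iff]
      intro y hy
      have : y = 1 := by simpa using hy
      subst this
      simp
    | cast i ih =>
      have hle : c i.castSucc ≤ H := by
        rw [← hc0]; exact hanti (Fin.zero_le _)
      apply Cfsg.Agent.Lib.CopElem.le_centralizer_of_chain (L := c i.succ)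
      · exact Nat.Coprime.coprime_dvd_right (Subgroup.card_dvd_of_le hle) hcop
      · exact hanti (Fin.castSucc_lt_succ).le
      · exact (commutator_mono le_rfl hQA).trans (htriv i)
      · exact ih
  have hQC : Q ≤ A ⊓ centralizer (H : Set G) := le_inf hQA (by rw [← hc0]; exact key 0)
  -- the index of Q in A is prime to p
  have h1 : ¬ p ∣ Q.relIndex A := by
    have : Q.relIndex A = (P : Subgroup A).index := by
      rw [Subgroup.relIndex, hQ, Subgroup.subgroupOf,
        Subgroup.comap_map_eq_self_of_injective A.subtype_injective]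
    rw [this]
    exact P.not_dvd_index
  apply h1
  exact hdvd.trans (Subgroup.relIndex_dvd_of_le_left A hQC)

end Cfsg.Agent.S1441
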