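import Cfsg.Statements.S1463
import Cfsg.Agent.Lib.BG02b

set_option autoImplicit false
open scoped MatrixGroups
open Cfsg

namespace Cfsg.Agent.S1463


/-- Let F be a field of odd characteristic p and H a finite subgroup of odd order of GL(2, F) that leaves no 1-dimensional subspace of F² invariant. Then p does not divide the order of H. -/
theorem result {F : Type*} [Field F] (p : ℕ) [Fact p.Prime] [CharP F p] (hp : p ≠ 2)
    (H : Subgroup (GL (Fin 2) F)) [Finite H] (hodd : Odd (Nat.card H))
    (hirr : ∀ v : Fin 2 → F, v ≠ 0 → ∃ g ∈ H, (g : Matrix (Fin 2) (Fin 2) F).mulVec v ∉ Submodule.span F {v}) :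
    ¬ p ∣ Nat.card H := by
  intro hdvd
  let V := Fin 2 → F
  let ρ : H →* Module.End F V :=
    { toFun := fun g => Matrix.toLin' ((g : GL (Fin 2) F) : Matrix (Fin 2) (Fin 2) F)
      map_one' := by
        simp only [Subgroup.coe_one, Units.val_one]
        exact Matrix.toLin'_one
      map_mul' := by
        intro a b
        simp only [Subgroup.coe_mul, Units.val_mul]
        exact Matrix.toLin'_mul _ _ }
  have hρ : Function.Injective ρ := by
    intro a b hab
    apply Subtype.ext
    apply Units.ext
    exact Matrix.toLin'.injective hab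
  have hV : Module.finrank F V = 2 := by simp [V]
  obtain ⟨v, hv, h⟩ := Cfsg.Agent.Lib.BG02.exists_invariant_line hodd hV ρ hρ p hdvd
  obtain ⟨g, hg, hgv⟩ := hirr v hv
  apply hgv
  obtain ⟨s, hs⟩ := h ⟨g, hg⟩
  rw [Submodule.mem_span_singleton]
  exact ⟨s, hs.symm⟩

end Cfsg.Agent.S1463
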