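import Cfsg.Statements.S1474
import Cfsg.Agent.Lib.CN3

set_option autoImplicit false
open Cfsg

namespace Cfsg.Agent.S1474

theorem result {G : Type*} [Group G] [Finite G] (hCN : Cfsg.IsCNGroup G) (hnn : ¬ Group.IsNilpotent G) (p : ℕ) [Fact p.Prime] (P : Sylow p G)
    (hP1 : (P : Subgroup G) ≠ ⊥) (hPn : (P : Subgroup G).Normal) :
    Cfsg.fittingHall G ≠ ⊥ ∧ Cfsg.fittingHall G ≠ ⊤ ∧
      (∃ E : Subgroup G, Subgroup.IsComplement' (Cfsg.fittingHall G) E ∧ Cfsg.IsFrobeniusComplement E ∧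
        ∀ e ∈ E, e ≠ 1 → Cfsg.fittingHall G ⊓ Subgroup.centralizer ({e} : Set G) = ⊥) ∧
      Group.IsNilpotent (G ⧸ Cfsg.fittingHall G) := by
  have h1 : (P : Subgroup G) ≤ fittingHall G :=
    Cfsg.Agent.Lib.H23Nilp.le_fittingHall hPn P.2.isNilpotent P.card_coprime_index
  have h2 : fittingHall G ≠ ⊥ := by
    intro h
    rw [h, le_bot_iff] at h1
    exact hP1 h1
  obtain ⟨h3, ⟨E, hE, hF, hfpf, -⟩, h4⟩ := Cfsg.Agent.Lib.CN.frobenius_of_normal_sylow hCN hnn h2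
  exact ⟨h2, h3, ⟨E, hE, hF, hfpf⟩, h4⟩

end Cfsg.Agent.S1474
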