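import Cfsg.Statements.S1475
import Cfsg.Agent.Lib.FrobAction2
import Cfsg.Agent.Lib.FrobAction3
import Cfsg.Agent.Lib.HallPi
import Cfsg.Agent.Lib.SubgroupTools

set_option autoImplicit false
open Cfsg

namespace Cfsg.Agent.S1475

open Subgroup Cfsg.Agent.Lib.HallPi

theorem not_coprime_mul {a b : ℕ} (ha : a ≠ 1) (hb : b ≠ 1) (hc : a.Coprime b)
    (h : IsPrimePow (a * b)) : False := by
  obtain ⟨p, k, hp, hk, hpk⟩ := (isPrimePow_nat_iff _).mp h
  have hpa : p ∣ a := by
    obtain ⟨q, hq, hqa⟩ := Nat.exists_prime_and_dvd ha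
    have h1 : q ∣ p ^ k := hpk ▸ hqa.mul_right b
    rwa [← (Nat.prime_dvd_prime_iff_eq hq hp).mp (hq.dvd_of_dvd_pow h1)]
  have hpb : p ∣ b := by
    obtain ⟨q, hq, hqa⟩ := Nat.exists_prime_and_dvd hb
    have h1 : q ∣ p ^ k := hpk ▸ hqa.mul_left a
    rwa [← (Nat.prime_dvd_prime_iff_eq hq hp).mp (hq.dvd_of_dvd_pow h1)]
  exact Nat.Prime.not_coprime_iff_dvd.mpr ⟨p, hp, hpa, hpb⟩ hc

theorem result {G : Type*} [Group G] [Finite G] [Group.IsSolvable G] (h : ∀ g : G, IsPrimePow (orderOf g) ∨ g = 1) :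
    (Nat.card G).primeFactors.card ≤ 2 := by
  classical
  -- products of commuting elements of coprime order
  have key : ∀ x y : G, x * y = y * x → (orderOf x).Coprime (orderOf y) → x ≠ 1 → y ≠ 1 → False := by
    intro x y hxy hc hx hy
    have h1 : orderOf (x * y) = orderOf x * orderOf y :=
      Commute.orderOf_mul_eq_mul_orderOf_of_coprime hxy hc
    have hx1 : orderOf x ≠ 1 := fun h => hx (orderOf_eq_one_iff.mp h)
    have hy1 : orderOf y ≠ 1 := fun h => hy (orderOf_eq_one_iff.mp h)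
    rcases h (x * y) with h2 | h2
    · rw [h1] at h2
      exact not_coprime_mul hx1 hy1 hc h2
    · rw [h2, orderOf_one] at h1
      exact hx1 (Nat.eq_one_of_mul_eq_one_right h1.symm)
  by_contra hcon
  push Not at hcon
  have hnt : Nontrivial G := by
    rw [← Finite.one_lt_card_iff_nontrivial]
    by_contra hle
    have h0 : Nat.card G = 1 := le_antisymm (not_lt.mp hle) Nat.card_pos
    rw [h0] at hcon
    simp at hcon
  obtain ⟨p, E, hp, hE1, hEc, hEab, hEp⟩ := Cfsg.Agent.Lib.SubgroupTools.exists_characteristic_elementary G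
  have hEn : E.Normal := Subgroup.normal_of_characteristic E
  have := Fact.mk hp
  have h2 : 1 < ((Nat.card G).primeFactors.erase p).card := by
    have := Finset.pred_card_le_card_erase (s := (Nat.card G).primeFactors) (a := p)
    omega
  obtain ⟨q, hq, r, hr, hqr⟩ := Finset.one_lt_card.mp h2
  rw [Finset.mem_erase, Nat.mem_primeFactors] at hq hr
  obtain ⟨H, hH⟩ := exists_isPiHall (G := G) ({q, r} : Set ℕ)
  rw [isPiHall_iff] at hH
  have hHN : H ≤ Subgroup.normalizer (E : Set G) := by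
    rw [Subgroup.normalizer_eq_top]; exact le_top
  have hdvd : ∀ s ∈ ({q, r} : Set ℕ), s.Prime ∧ s ∣ Nat.card H := by
    intro s hs
    have hs' : s.Prime ∧ s ∣ Nat.card G := by
      rcases hs with rfl | hs
      · exact ⟨hq.2.1, hq.2.2.1⟩
      · rw [Set.mem_singleton_iff] at hs
        subst hs
        exact ⟨hr.2.1, hr.2.2.1⟩
    refine ⟨hs'.1, ?_⟩
    have h3 : s ∣ Nat.card H * H.index := by rw [Subgroup.card_mul_index]; exact hs'.2
    rcases hs'.1.dvd_mul.mp h3 with h4 | h4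
    · exact h4
    · exact absurd hs (hH.2 s hs'.1 h4)
  have hHnt : Nontrivial H := by
    rw [← Finite.one_lt_card_iff_nontrivial]
    have := Nat.le_of_dvd Nat.card_pos (hdvd q (by simp)).2
    have := hq.2.1.two_le
    omega
  have hfpf : ∀ a ∈ H, a ≠ 1 → E ⊓ Subgroup.centralizer {a} = ⊥ := by
    intro a ha ha1
    rw [eq_bot_iff]
    rintro v ⟨hv, hva⟩
    rw [Subgroup.mem_bot]
    by_contra hv1
    have hvo : orderOf v = p := orderOf_eq_prime (hEp v hv) hv1
    refine key a v ?_ ?_ ha1 hv1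
    · exact Subgroup.mem_centralizer_singleton_iff.mp hva |>.symm
    · rw [hvo]
      refine (Nat.Coprime.symm ((Nat.Prime.coprime_iff_not_dvd hp).mpr ?_))
      intro h5
      have h6 : p ∣ Nat.card H := h5.trans (by
        have := orderOf_dvd_natCard (⟨a, ha⟩ : H)
        rwa [Subgroup.orderOf_mk] at this)
      rcases hH.1 p hp h6 with h7 | h7
      · exact hq.1 h7.symm
      · exact hr.1 h7.symm
  have : Nontrivial E := (Subgroup.nontrivial_iff_ne_bot E).2 hE1
  let _ : CommGroup E := { (inferInstance : Group E) with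
    mul_comm := fun a b => hEab.is_comm.comm a b }
  have hf := Cfsg.Agent.Lib.FrobAction2.isFPF_conjAct hHN hfpf
  obtain ⟨z, hz1, hz⟩ := Cfsg.Agent.Lib.FrobAction3.exists_central hf
  -- a prime dividing the order of z
  have hzo : orderOf z ≠ 1 := fun h => hz1 (orderOf_eq_one_iff.mp h)
  obtain ⟨s, hs, hsz⟩ := Nat.exists_prime_and_dvd hzo
  have hsπ : s ∈ ({q, r} : Set ℕ) := hH.1 s hs (hsz.trans (orderOf_dvd_natCard z))
  obtain ⟨t, ht, hts⟩ : ∃ t ∈ ({q, r} : Set ℕ), t ≠ s := by
    by_cases h8 : q = s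
    · exact ⟨r, by simp, fun h => hqr (h8.trans h.symm)⟩
    · exact ⟨q, by simp, h8⟩
  obtain ⟨htp, htd⟩ := hdvd t ht
  have := Fact.mk htp
  obtain ⟨y, hy⟩ := exists_prime_orderOf_dvd_card' (G := H) t htd
  have hy1 : y ≠ 1 := by
    rintro rfl
    rw [orderOf_one] at hy
    exact htp.one_lt.ne hy
  set z' := z ^ (orderOf z / s) with hz'
  have hz'o : orderOf z' = s := orderOf_pow_orderOf_div (orderOf_pos z).ne' hsz
  have hz'1 : z' ≠ 1 := by
    intro h
    rw [h, orderOf_one] at hz'o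
    exact hs.one_lt.ne hz'o
  refine key (z' : G) (y : G) ?_ ?_ ?_ ?_
  · have h9 : Commute y z' := Commute.pow_right (hz y) _
    exact (congrArg Subtype.val h9.eq).symm
  · rw [Subgroup.orderOf_coe, Subgroup.orderOf_coe, hz'o, hy]
    exact (Nat.coprime_primes hs htp).mpr (Ne.symm hts)
  · exact fun h => hz'1 (Subtype.ext h)
  · exact fun h => hy1 (Subtype.ext h)

end Cfsg.Agent.S1475
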