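import Cfsg.Statements.S1476
import Cfsg.Agent.Lib.CN5

set_option autoImplicit false
open Cfsg

namespace Cfsg.Agent.S1476

open Subgroup Cfsg.Agent.Lib Cfsg.Agent.Lib.CN

theorem result {G : Type*} [Group G] [Finite G] [Group.IsSolvable G] (hCN : Cfsg.IsCNGroup G) :
    Group.IsNilpotent G ∨
      (∃ K E : Subgroup G, K.Normal ∧ Subgroup.IsComplement' K E ∧ Cfsg.IsFrobeniusComplement E ∧
        (IsCyclic E ∨ ∃ C Q : Subgroup G, C ⊔ Q = E ∧ (∀ a ∈ C, ∀ b ∈ Q, a * b = b * a) ∧ IsCyclic C ∧ Odd (Nat.card C) ∧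
          ∃ n : ℕ, Nonempty (↥Q ≃* QuaternionGroup (2 ^ n)))) ∨
      ∃ p : ℕ, p.Prime ∧ Cfsg.IsThreeStepGroup p G := by
  classical
  by_cases hnil : Group.IsNilpotent G
  · exact Or.inl hnil
  right
  have hnt : Nontrivial G := by
    by_contra h
    rw [not_nontrivial_iff_subsingleton] at h
    exact hnil inferInstance
  by_cases h0 : fittingHall G = ⊥
  · exact Or.inr (isThreeStep_of_fittingHall_eq_bot hCN h0)
  left
  obtain ⟨hHtop, ⟨E, hE, hF, hfpf, hEnil⟩, -⟩ := frobenius_of_normal_sylow hCN hnil h0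
  refine ⟨fittingHall G, E, inferInstance, hE, hF, ?_⟩
  obtain ⟨V, act, -, hV1, hVab, hact⟩ := FrobAction2.exists_fpf_action hE h0 hfpf
  let _ : CommGroup V := { (inferInstance : Group V) with
    mul_comm := fun a b => Subtype.ext (hVab a a.2 b b.2) }
  have : Nontrivial V := (Subgroup.nontrivial_iff_ne_bot V).2 hV1
  rcases nilpotent_fpf_structure (act := act) hact hEnil with h | ⟨C, Q, hCQ, hcomm, hCc, hCo, n, ⟨e⟩⟩
  · exact Or.inl h
  right
  refine ⟨C.map E.subtype, Q.map E.subtype, ?_, ?_, ?_, ?_, n, ?_⟩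
  · rw [← Subgroup.map_sup, hCQ, ← MonoidHom.range_eq_map, Subgroup.range_subtype]
  · rintro _ ⟨a, ha, rfl⟩ _ ⟨b, hb, rfl⟩
    exact congrArg Subtype.val (hcomm a ha b hb)
  · exact isCyclic_of_surjective (E.subtype.subgroupMap C) (E.subtype.subgroupMap_surjective C)
  · rw [Cores.card_map_subtype]; exact hCo
  · exact ⟨(Q.equivMapOfInjective E.subtype E.subtype_injective).symm.trans e⟩

end Cfsg.Agent.S1476
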