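import Cfsg.Statements.S1478
import Cfsg.Agent.Lib.CN9

set_option autoImplicit false
open Cfsg

namespace Cfsg.Agent.S1478

open Cfsg.Agent.Lib Cfsg.Agent.Lib.CN

theorem result {G : Type*} [Group G] [Finite G] (hG : Cfsg.IsMinSimpleOddOrder G) (hCN : Cfsg.IsCNGroup G) :
    ∀ (H : Subgroup G) (p : ℕ), ¬ Cfsg.IsThreeStepGroup p ↥H := by
  intro H p hT
  have hT' := hT
  obtain ⟨hF1, A, hA1, hAcyc, hAodd, hAp, hKn, hKtop, -⟩ := hT'
  have hFn : (pCore p H).Normal := Subgroup.normal_of_characteristic _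
  -- H is proper
  have hHtop : H ≠ ⊤ := by
    rintro rfl
    have := MinSimpleOdd.isSimple hG
    have h1 : IsSimpleGroup (⊤ : Subgroup G) := by
      exact MulEquiv.isSimpleGroup Subgroup.topEquiv
    rcases h1.eq_bot_or_eq_top_of_normal (pCore p (⊤ : Subgroup G)) hFn with h | h
    · exact hF1 h
    · apply hKtop
      rw [h, top_sup_eq]
  have hs : Group.IsSolvable H := MinSimpleOdd.solvable_of_ne_top hG hHtop
  have hnt : Nontrivial H := by
    by_contra h
    rw [not_nontrivial_iff_subsingleton] at h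
    exact hF1 (Subsingleton.elim _ _)
  by_cases h0 : fittingHall H = ⊥
  · obtain ⟨r, hr, hT2⟩ := isThreeStep_of_fittingHall_eq_bot (subgroup hCN H) h0
    have := Fact.mk hr
    exact no_threeStep hG hCN H r hT2
  · exact not_threeStep_of_fittingHall (MinSimpleOdd.odd_card_subgroup hG H) (subgroup hCN H) h0 p hT

end Cfsg.Agent.S1478
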