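import Cfsg.Statements.S1479
import Cfsg.Agent.Lib.CN10

set_option autoImplicit false
open Cfsg

namespace Cfsg.Agent.S1479

open Cfsg.Agent.Lib Cfsg.Agent.Lib.CN

theorem result {G : Type*} [Group G] [Finite G] (hG : Cfsg.IsMinSimpleOddOrder G) (hCN : Cfsg.IsCNGroup G)  :
    (∀ H : Subgroup G, Group.IsNilpotent H → (∀ L : Subgroup G, Group.IsNilpotent L → H ≤ L → L = H) →
        (Nat.card H).Coprime H.index ∧ (∀ g : G, H.map (MulAut.conj g).toMonoidHom ≠ H → H ⊓ H.map (MulAut.conj g).toMonoidHom = ⊥) ∧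
        IsCoatom (Subgroup.normalizer (H : Set G)) ∧
        ∃ E : Subgroup G, Cfsg.IsComplIn H E (Subgroup.normalizer (H : Set G)) ∧ E ≠ ⊥ ∧
          ∀ e ∈ E, e ≠ 1 → H ⊓ Subgroup.centralizer ({e} : Set G) = ⊥) ∧
      ∀ M : Subgroup G, IsCoatom M → ∃ H E : Subgroup G, Group.IsNilpotent H ∧ (∀ L : Subgroup G, Group.IsNilpotent L → H ≤ L → L = H) ∧
        M ≤ Subgroup.normalizer (H : Set G) ∧ Cfsg.IsComplIn H E M ∧ H ≠ ⊥ ∧ E ≠ ⊥ ∧
        ∀ e ∈ E, e ≠ 1 → H ⊓ Subgroup.centralizer ({e} : Set G) = ⊥ := by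
  refine ⟨fun H h1 h2 => ?_, fun M hM => ?_⟩
  · have hH : IsMaxNilp H := ⟨h1, h2⟩
    exact ⟨hH.coprime_index hCN, mns_ti hG hCN hH, mns_isCoatom_normalizer hG hCN hH,
      mns_complement hG hCN hH⟩
  · obtain ⟨hK, hN⟩ := mns_isMaxNilp_of_coatom hG hCN hM
    obtain ⟨E, hE, hE1, hfpf⟩ := mns_complement hG hCN hK
    rw [hN] at hE
    exact ⟨fittingHallOf M, E, hK.1, hK.2, hN.ge, hE, mns_ne_bot hG hK, hE1, hfpf⟩

end Cfsg.Agent.S1479
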