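import Cfsg.Statements.S1481
import Cfsg.Agent.Lib.BG08e

set_option autoImplicit false
open Cfsg

namespace Cfsg.Agent.S1481

open Subgroup Cfsg.Agent.Lib Cfsg.Agent.Lib.BG08 in
theorem key {G : Type*} [Group G] [Finite G] (H : Subgroup G) (hH : Cfsg.IsLocalSubgroup H)
    (hHmax : ∀ L : Subgroup G, Cfsg.IsLocalSubgroup L → H ≤ L → L = H) (p : ℕ) (hp : p.Prime)
    (h0 : Cfsg.pCoreOf p H ≠ ⊥) : centralizer (ZO p H : Set G) ≤ H := by
  have : Fact p.Prime := ⟨hp⟩
  have h1 : normalizer (ZO p H : Set G) = H :=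
    hHmax _ ⟨p, ZO p H, hp, isPGroup_ZO p H, ZO_ne_bot h0, rfl⟩ (le_normalizer_ZO p H)
  exact (centralizer_le_normalizer _).trans h1.le

/-- Let G be a finite group and H a local subgroup (the normalizer of a nontrivial subgroup of prime-power order) not properly contained in any local subgroup; let F = F(H), suppose at least two primes divide #F, put X = H ∩ C_G(F), let M ≤ F with F ∩ C_G(M) ≤ M, and let R be a solvable subgroup normalized by M and by X. Then for every prime q not dividing #F there is exactly one maximal M-invariant q-subgroup of R, and it is a Sylow q-subgroup of the largest normal subgroup of R of order coprime to #F. -/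
theorem result {G : Type*} [Group G] [Finite G] (H : Subgroup G) (hH : Cfsg.IsLocalSubgroup H) (hHmax : ∀ L : Subgroup G, Cfsg.IsLocalSubgroup L → H ≤ L → L = H)
    (hF2 : 2 ≤ (Nat.card (Cfsg.fittingOf H)).primeFactors.card)
    (M : Subgroup G) (hM : M ≤ Cfsg.fittingOf H) (hCM : Cfsg.fittingOf H ⊓ Subgroup.centralizer (M : Set G) ≤ M)
    (R : Subgroup G) (hR : Group.IsSolvable R) (hMR : M ≤ Subgroup.normalizer (R : Set G))
    (hXR : H ⊓ Subgroup.centralizer (Cfsg.fittingOf H : Set G) ≤ Subgroup.normalizer (R : Set G))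
    (q : ℕ) [Fact q.Prime] (hq : ¬ q ∣ Nat.card (Cfsg.fittingOf H)) :
    ∃! Q : Subgroup G, Q ∈ Cfsg.maxInvSubgroups R M {q} ∧
      (∀ Q' : Subgroup G, Q' ∈ Cfsg.maxInvSubgroups R M {q} →
        Q' ≤ Cfsg.piCoreOf (Cfsg.primesNotDvd (Nat.card (Cfsg.fittingOf H))) R ∧
        ¬ q ∣ Q'.relIndex (Cfsg.piCoreOf (Cfsg.primesNotDvd (Nat.card (Cfsg.fittingOf H))) R)) := by
  open Subgroup Cfsg.Agent.Lib Cfsg.Agent.Lib.BG08 in
  have hqp : q.Prime := Fact.out
  have hcen : ∀ p : ℕ, p.Prime → Cfsg.pCoreOf p H ≠ ⊥ → centralizer (ZO p H : Set G) ≤ H := key H hH hHmax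
  have h2 := two_primes_of_card hF2
  have hRX := inf_le_fittingOf hR hXR
  set F := Cfsg.fittingOf H with hF
  set K := Cfsg.piCoreOf (Cfsg.primesNotDvd (Nat.card F)) R with hK
  have hKR : K ≤ R := PiCoreOf.piCoreOf_le _ R
  have hMK : M ≤ normalizer (K : Set G) := hMR.trans (PiCoreOf.normalizer_le_normalizer_piCoreOf _ R)
  have hFK : (Nat.card F).Coprime (Nat.card K) :=
    PiCoreOf.isPi_primesNotDvd_iff.1 (PiCoreOf.isPi_piCoreOf _ R)
  have hMKc : (Nat.card M).Coprime (Nat.card K) :=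
    Nat.Coprime.coprime_dvd_left (Subgroup.card_dvd_of_le hM) hFK
  have hKs : Group.IsSolvable K := SubgroupTools.isSolvable_of_le hKR hR
  -- `C_K(M) = 1`
  have hCK : K ⊓ centralizer (M : Set G) = ⊥ := by
    obtain ⟨r, -, hr, -, -, hr0, -⟩ := h2
    have : Fact r.Prime := ⟨hr⟩
    have hZM : ZO r H ≤ M := (ZO_le_center H).trans ((inf_le_inf_left _ (centralizer_le hM)).trans hCM)
    refine eq_bot_of_centralizes (R := R) ?_ hM hCM hRX (inf_le_left.trans hKR) ?_ inf_le_right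
    · exact (inf_le_right.trans (centralizer_le hZM)).trans (hcen r hr hr0)
    · exact Nat.Coprime.coprime_dvd_right (Subgroup.card_dvd_of_le inf_le_left) hFK
  -- the invariant Sylow subgroup
  obtain ⟨Q, hQK, hQp, hQi, hMQ⟩ := CoprimeAction.exists_invariant_sylow hMK hMKc (Or.inr hKs) q
  have huniq : ∀ P : Subgroup G, P ≤ K → IsPGroup q P → ¬ q ∣ P.relIndex K → M ≤ normalizer (P : Set G) → P = Q := by
    intro P h1 h2 h3 h4
    obtain ⟨c, hc, hcP⟩ := CoprimeAction.invariant_sylow_conj hMK hMKc (Or.inr hKs) h1 hQK h2 hQp h3 hQi h4 hMQ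
    rw [hCK, mem_bot] at hc
    rw [← hcP, hc, map_one, one_smul]
  have hall : ∀ Y : Subgroup G, Y ∈ Cfsg.invSubgroups R M {q} → Y ≤ Q := by
    intro Y hY
    obtain ⟨hYR, hYq, hMY⟩ := hY
    have hYp : IsPGroup q Y := (PiCoreOf.isPi_singleton_iff hqp).1 hYq
    have hYc : (Nat.card F).Coprime (Nat.card Y) := by
      obtain ⟨k, hk⟩ := IsPGroup.iff_card.mp hYp
      rw [hk]
      exact Nat.Coprime.pow_right k ((Nat.Prime.coprime_iff_not_dvd hqp).2 hq).symm
    have hYK : Y ≤ K := inv_le_core hcen h2 hM hCM hR hMR hRX hYR hYc hMY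
    obtain ⟨P, h1, h3, h4, h5, h6⟩ := CoprimeAction.exists_invariant_sylow_ge hMK hMKc (Or.inr hKs) hYK hYp hMY
    rw [← huniq P h3 h4 h5 h6]
    exact h1
  have hQinv : Q ∈ Cfsg.invSubgroups R M {q} :=
    ⟨hQK.trans hKR, (PiCoreOf.isPi_singleton_iff hqp).2 hQp, hMQ⟩
  have hQmax : Q ∈ Cfsg.maxInvSubgroups R M {q} :=
    ⟨hQinv, fun P hP hQP => le_antisymm (hall P hP) hQP⟩
  have heq : ∀ P : Subgroup G, P ∈ Cfsg.maxInvSubgroups R M {q} → P = Q := by
    intro P hP
    exact (hP.2 Q hQinv (hall P hP.1)).symm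
  refine ⟨Q, ⟨hQmax, ?_⟩, ?_⟩
  · intro Q' hQ'
    rw [heq Q' hQ']
    exact ⟨hQK, hQi⟩
  · intro P hP
    exact heq P hP.1

end Cfsg.Agent.S1481
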