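import Cfsg.Statements.S1483
import Cfsg.Agent.Lib.CN11

set_option autoImplicit false
open Cfsg

namespace Cfsg.Agent.S1483

open Cfsg.Agent.Lib Cfsg.Agent.Lib.CN

theorem result {G : Type*} [Group G] [Finite G] (hG : Cfsg.IsMinSimpleOddOrder G) (hCN : Cfsg.IsCNGroup G) :
    (∀ H₁ H₂ : Subgroup G, (Group.IsNilpotent ↥H₁ ∧ ∀ L : Subgroup G, Group.IsNilpotent L → H₁ ≤ L → L = H₁) → (Group.IsNilpotent ↥H₂ ∧ ∀ L : Subgroup G, Group.IsNilpotent L → H₂ ≤ L → L = H₂) → (∃ g : G, H₂ = H₁.map (MulAut.conj g).toMonoidHom) ∨ (Nat.card H₁).Coprime (Nat.card H₂)) ∧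
      ∀ (p q r : ℕ), p.Prime → q.Prime → r.Prime → ∀ (x y y' z : G), x ≠ 1 → y ≠ 1 → y' ≠ 1 → z ≠ 1 →
        IsPGroup p (Subgroup.zpowers x) → IsPGroup q (Subgroup.zpowers y) → IsPGroup q (Subgroup.zpowers y') → IsPGroup r (Subgroup.zpowers z) →
        x * y = y * x → y' * z = z * y' →
        ∃ x' z' : G, x' ≠ 1 ∧ z' ≠ 1 ∧ IsPGroup p (Subgroup.zpowers x') ∧ IsPGroup r (Subgroup.zpowers z') ∧ x' * z' = z' * x' := by
  classical
  refine ⟨fun H₁ H₂ h1 h2 => IsMaxNilp.conj_or_coprime hCN h1 h2, ?_⟩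
  intro p q r hp hq hr x y y' z hx1 hy1 hy'1 hz1 hx hy hy' hz hxy hyz
  have := Fact.mk hp
  have := Fact.mk hr
  obtain ⟨H, hH, hxH, hyH⟩ := exists_isMaxNilp_of_comm hxy
  obtain ⟨K, hK, hyK, hzK⟩ := exists_isMaxNilp_of_comm hyz
  obtain ⟨g, hg⟩ := hH.conj_of_dvd hCN hK hq (dvd_card_of_pElement hq hyH hy1 hy)
    (dvd_card_of_pElement hq hyK hy'1 hy')
  have hcard : Nat.card K = Nat.card H := by rw [hg, RelSylow.card_conj]
  have hpK : p ∣ Nat.card K := by rw [hcard]; exact dvd_card_of_pElement hp hxH hx1 hx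
  obtain ⟨w, hw, hwo, hwc⟩ := exists_central_of_dvd hK.1 hpK
  refine ⟨w, z, ?_, hz1, ?_, hz, (hwc z hzK).symm⟩
  · rintro rfl
    rw [orderOf_one] at hwo
    exact hp.one_lt.ne hwo
  · exact IsPGroup.of_card (n := 1) (by rw [Nat.card_zpowers, hwo, pow_one])

end Cfsg.Agent.S1483
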