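import Cfsg.Statements.S1484
import Cfsg.Agent.Lib.CN11

set_option autoImplicit false
open Cfsg

namespace Cfsg.Agent.S1484

open Cfsg.Agent.Lib Cfsg.Agent.Lib.CN

theorem eq_of_normalizer_eq {G : Type*} [Group G] [Finite G] (hCN : IsCNGroup G) {H K M : Subgroup G}
    (hH : IsMaxNilp H) (hK : IsMaxNilp K)
    (h1 : Subgroup.normalizer (H : Set G) = M) (h2 : Subgroup.normalizer (K : Set G) = M) : H = K := by
  have key : ∀ L : Subgroup G, IsMaxNilp L → Subgroup.normalizer (L : Set G) = M → fittingHallOf M = L := by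
    intro L hL hM
    apply hL.2 _ (H23Nilp.fittingHallOf_isNilpotent M)
    have hLM : L ≤ M := by rw [← hM]; exact Subgroup.le_normalizer
    apply H23Nilp.le_fittingHallOf hLM hM.ge hL.1
    exact Nat.Coprime.coprime_dvd_right (Subgroup.relIndex_dvd_index_of_le hLM) (hL.coprime_index hCN)
  rw [← key H hH h1, ← key K hK h2]

theorem result {G : Type*} [Group G] [Finite G] (hG : Cfsg.IsMinSimpleOddOrder G) (hCN : Cfsg.IsCNGroup G) (k : ℕ) (Mrep : Fin k → Subgroup G) (hmax : ∀ i, IsCoatom (Mrep i))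
    (hnc : ∀ i j, i ≠ j → ∀ g : G, Mrep j ≠ (Mrep i).map (MulAut.conj g).toMonoidHom) (hall : ∀ M : Subgroup G, IsCoatom M → ∃ i, ∃ g : G, M = (Mrep i).map (MulAut.conj g).toMonoidHom) :
    (∀ i j, i ≠ j → (Nat.card (Cfsg.fittingHallOf (Mrep i))).Coprime (Nat.card (Cfsg.fittingHallOf (Mrep j)))) ∧
      ∏ i, Nat.card (Cfsg.fittingHallOf (Mrep i)) = Nat.card G ∧
      ∀ x : G, ∃ i, ∃ g : G, g * x * g⁻¹ ∈ Cfsg.fittingHallOf (Mrep i) := by
  classical
  have hmn : ∀ i, IsMaxNilp (fittingHallOf (Mrep i)) ∧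
      Subgroup.normalizer (fittingHallOf (Mrep i) : Set G) = Mrep i := fun i =>
    mns_isMaxNilp_of_coatom hG hCN (hmax i)
  have h1 : ∀ i j, i ≠ j → (Nat.card (Cfsg.fittingHallOf (Mrep i))).Coprime
      (Nat.card (Cfsg.fittingHallOf (Mrep j))) := by
    intro i j hij
    rcases (hmn i).1.conj_or_coprime hCN (hmn j).1 with ⟨g, hg⟩ | h
    · exfalso
      apply hnc i j hij g
      rw [← (hmn j).2, hg, ← RelSylow.normalizer_conj, (hmn i).2]
    · exact h
  -- every maximal nilpotent subgroup is conjugate to one of the H_i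
  have h2 : ∀ H : Subgroup G, IsMaxNilp H → ∃ i, ∃ g : G,
      H = (fittingHallOf (Mrep i)).map (MulAut.conj g).toMonoidHom := by
    intro H hH
    obtain ⟨i, g, hg⟩ := hall _ (mns_isCoatom_normalizer hG hCN hH)
    refine ⟨i, g, eq_of_normalizer_eq hCN hH ((hmn i).1.map_conj g) hg ?_⟩
    rw [← RelSylow.normalizer_conj, (hmn i).2]
  refine ⟨h1, ?_, ?_⟩
  · apply Nat.dvd_antisymm
    · have key : ∀ s : Finset (Fin k), ∏ i ∈ s, Nat.card (fittingHallOf (Mrep i)) ∣ Nat.card G := by
        intro s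
        induction s using Finset.induction_on with
        | empty => simp
        | insert a s ha ih =>
          rw [Finset.prod_insert ha]
          refine Nat.Coprime.mul_dvd_of_dvd_of_dvd ?_ (Subgroup.card_subgroup_dvd_card _) ih
          apply Nat.Coprime.prod_right
          intro i hi
          apply h1
          rintro rfl
          exact ha hi
      exact key Finset.univ
    · rw [Nat.dvd_iff_prime_pow_dvd_dvd]
      intro p n hp hpn
      have := Fact.mk hp
      obtain ⟨Q, hQ⟩ := Sylow.exists_subgroup_card_pow_prime p hpn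
      have hQp : IsPGroup p Q := IsPGroup.of_card hQ
      obtain ⟨H, hH, hQH⟩ := exists_isMaxNilp_ge hQp.isNilpotent
      obtain ⟨i, g, hg⟩ := h2 H hH
      have h3 : p ^ n ∣ Nat.card (fittingHallOf (Mrep i)) := by
        have hc : Nat.card H = Nat.card (fittingHallOf (Mrep i)) := by rw [hg, RelSylow.card_conj]
        rw [← hQ, ← hc]
        exact Subgroup.card_dvd_of_le hQH
      exact h3.trans (Finset.dvd_prod_of_mem _ (Finset.mem_univ i))
  · intro x
    obtain ⟨H, hH, hxH, -⟩ := exists_isMaxNilp_of_comm (x := x) (y := x) rfl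
    obtain ⟨i, g, hg⟩ := h2 H hH
    refine ⟨i, g⁻¹, ?_⟩
    rw [hg, RelSylow.mem_conj_iff] at hxH
    rwa [inv_inv]

end Cfsg.Agent.S1484
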