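import Cfsg.Statements.S1485
-- import your own Cfsg.Agent.* helpers here

set_option autoImplicit false
open Cfsg

namespace Cfsg.Agent.S1485


/-- Let H be a normal subgroup of the finite group G and θ an irreducible character of H. On H, the function induced from θ equals r times the sum of the distinct G-conjugates of θ, where r is the number of elements of G fixing θ under conjugation divided by the order of H (the index of H in the inertia group). -/
theorem result {G : Type*} [Group G] [Fintype G] (H : Subgroup G) [hN : H.Normal] (θ : H → ℂ) (hθ : Cfsg.IsIrrCharacter H θ) : (fun h : H => Cfsg.indFun H θ h) = ((Nat.card {g : G // ∀ h : H, θ ⟨g * h * g⁻¹, hN.conj_mem h h.2 g⟩ = θ h} : ℂ) / (Nat.card H : ℂ)) • ∑ᶠ ψ ∈ {ψ : H → ℂ | ∃ g : G, ψ = fun h : H => θ ⟨g * h * g⁻¹, hN.conj_mem h h.2 g⟩}, ψ := by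
  classical
  set c : G → H → ℂ := fun g h => θ ⟨g * h * g⁻¹, hN.conj_mem h h.2 g⟩ with hc
  have hcc : ∀ g g0 : G, ∀ h : H, c (g * g0) h = c g ⟨g0 * h * g0⁻¹, hN.conj_mem h h.2 g0⟩ := by
    intro g g0 h
    simp only [hc]
    congr 1
    apply Subtype.ext
    simp only
    group
  have hset : {ψ : H → ℂ | ∃ g : G, ψ = fun h : H => θ ⟨g * h * g⁻¹, hN.conj_mem h h.2 g⟩} =
      ↑(Finset.univ.image c) := by
    ext ψ
    simp only [Set.mem_setOf_eq, Finset.coe_image, Finset.coe_univ, Set.image_univ, Set.mem_range, hc]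
    exact ⟨fun ⟨g, hg⟩ => ⟨g, hg.symm⟩, fun ⟨g, hg⟩ => ⟨g, hg.symm⟩⟩
  rw [hset, finsum_mem_coe_finset]
  have hfib : ∀ ψ ∈ Finset.univ.image c, (Finset.univ.filter (fun g : G => c g = ψ)).card =
      Nat.card {g : G // ∀ h : H, θ ⟨g * h * g⁻¹, hN.conj_mem h h.2 g⟩ = θ h} := by
    intro ψ hψ
    rw [Finset.mem_image] at hψ
    obtain ⟨g0, _, rfl⟩ := hψ
    rw [Nat.card_eq_fintype_card, Fintype.card_subtype]
    apply Finset.card_bij' (fun g _ => g * g0⁻¹) (fun g _ => g * g0)
    · intro g hg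
      simp only [Finset.mem_filter, Finset.mem_univ, true_and] at hg ⊢
      intro h
      have h1 := hcc g g0⁻¹ h
      simp only [hc] at h1 ⊢
      rw [h1]
      have h2 := congrFun hg ⟨g0⁻¹ * h * g0⁻¹⁻¹, hN.conj_mem h h.2 g0⁻¹⟩
      simp only [hc] at h2
      rw [h2]
      congr 1
      apply Subtype.ext
      simp only
      group
    · intro g hg
      simp only [Finset.mem_filter, Finset.mem_univ, true_and] at hg ⊢
      funext h
      rw [hcc]
      exact hg _
    · intro g _
      simp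
    · intro g _
      simp
  have hL : (fun h : H => Cfsg.indFun H θ h) = (Nat.card H : ℂ)⁻¹ • ∑ g : G, c g := by
    funext h
    simp only [Cfsg.indFun, Pi.smul_apply, Finset.sum_apply, smul_eq_mul]
    congr 1
    rw [← Equiv.sum_comp (Equiv.inv G)]
    refine Finset.sum_congr rfl fun x _ => ?_
    have := Subtype.val_injective.extend_apply θ 0 ⟨x * h * x⁻¹, hN.conj_mem h h.2 x⟩
    simp only [hc, Equiv.inv_apply, inv_inv, Cfsg.extendByZero]
    exact this
  rw [hL, Finset.sum_congr rfl (fun ψ hψ => rfl)]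
  rw [← Finset.sum_fiberwise_of_maps_to (s := Finset.univ) (t := Finset.univ.image c) (g := c)
    (fun g _ => Finset.mem_image_of_mem c (Finset.mem_univ g)) c]
  rw [div_eq_mul_inv, mul_comm, mul_smul]
  congr 1
  rw [Finset.smul_sum]
  refine Finset.sum_congr rfl fun ψ hψ => ?_
  rw [Finset.sum_congr rfl (g := fun _ => ψ) (fun g hg => (Finset.mem_filter.mp hg).2), Finset.sum_const,
    hfib ψ hψ]
  exact (Nat.cast_smul_eq_nsmul ℂ _ _).symm

end Cfsg.Agent.S1485
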