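import Cfsg.Statements.S1488
import Mathlib.GroupTheory.Sylow
-- import your own Cfsg.Agent.* helpers here

set_option autoImplicit false
open Cfsg

namespace Cfsg.Agent.S1488

theorem sum_quot {G : Type*} [Group G] [Fintype G] (A : Subgroup G) [A.Normal] [Fintype (G ⧸ A)]
    (F : G ⧸ A → ℂ) : ∑ x : G, F (QuotientGroup.mk' A x) = (Nat.card A : ℂ) * ∑ z : G ⧸ A, F z := by
  classical
  rw [← Finset.sum_fiberwise' Finset.univ (fun x : G => QuotientGroup.mk' A x) F, Finset.mul_sum]
  refine Finset.sum_congr rfl fun z _ => ?_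
  rw [Finset.sum_const, nsmul_eq_mul]
  congr 1
  have h := QuotientGroup.card_preimage_mk A ({z} : Set (G ⧸ A))
  rw [show Nat.card ({z} : Set (G ⧸ A)) = 1 from Nat.card_unique, mul_one] at h
  rw [← h, Nat.card_eq_fintype_card, Fintype.card_subtype]
  congr 2
  ext x
  simp only [Finset.mem_filter, Finset.mem_univ, true_and, Set.mem_preimage, Set.mem_singleton_iff]
  rfl


/-- Let A be a normal subgroup of the finite group G contained in the subgroup H, let θ be a function on H and θ₁ a function on the image of H in G ⧸ A whose composite with the projection is θ. Then the function induced from θ₁ to G ⧸ A, composed with the projection G → G ⧸ A, equals the function induced from θ to G. -/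
theorem result {G : Type*} [Group G] [Fintype G] (A H : Subgroup G) [A.Normal] (hAH : A ≤ H) [Fintype (G ⧸ A)] [Fintype ↥(H.map (QuotientGroup.mk' A))] (θ : H → ℂ) (θ₁ : ↥(H.map (QuotientGroup.mk' A)) → ℂ) (hθ : ∀ x : H, θ₁ ⟨QuotientGroup.mk' A x, Subgroup.mem_map_of_mem _ x.2⟩ = θ x) (g : G) : Cfsg.indFun (H.map (QuotientGroup.mk' A)) θ₁ (QuotientGroup.mk' A g) = Cfsg.indFun H θ g := by
  classical
  have hmem : ∀ y : G, QuotientGroup.mk' A y ∈ H.map (QuotientGroup.mk' A) ↔ y ∈ H := by
    intro y
    constructor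
    · rintro ⟨z, hz, hzy⟩
      have : z⁻¹ * y ∈ A := (QuotientGroup.eq (s := A)).mp hzy
      have h2 := H.mul_mem hz (hAH this)
      simpa using h2
    · intro hy
      exact Subgroup.mem_map_of_mem _ hy
  have hval : ∀ y : G, Cfsg.extendByZero (H.map (QuotientGroup.mk' A)) θ₁ (QuotientGroup.mk' A y) =
      Cfsg.extendByZero H θ y := by
    intro y
    unfold Cfsg.extendByZero
    by_cases hy : y ∈ H
    · have hy2 := (hmem y).mpr hy
      have e1 := Subtype.val_injective.extend_apply θ₁ 0 ⟨QuotientGroup.mk' A y, hy2⟩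
      have e2 := Subtype.val_injective.extend_apply θ 0 ⟨y, hy⟩
      simp only at e1 e2
      rw [e1, e2]
      exact hθ ⟨y, hy⟩
    · have hy2 : ¬ QuotientGroup.mk' A y ∈ H.map (QuotientGroup.mk' A) := fun h => hy ((hmem y).mp h)
      rw [Function.extend_apply', Function.extend_apply']
      · rfl
      · rintro ⟨z, hz⟩
        exact hy (hz ▸ z.2)
      · rintro ⟨z, hz⟩
        exact hy2 (hz ▸ z.2)
  have hcard : Nat.card H = Nat.card A * Nat.card ↥(H.map (QuotientGroup.mk' A)) := by
    have h1 : A.relIndex H = Nat.card (H.map (QuotientGroup.mk' A)) := by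
      have := Subgroup.relIndex_ker (K := H) (QuotientGroup.mk' A)
      rwa [QuotientGroup.ker_mk'] at this
    rw [← h1, ← Subgroup.relIndex_bot_left A, ← Subgroup.relIndex_bot_left H]
    exact (Subgroup.relIndex_mul_relIndex _ _ _ bot_le hAH).symm
  unfold Cfsg.indFun
  have hsum : ∑ x : G, Cfsg.extendByZero H θ (x⁻¹ * g * x) =
      (Nat.card A : ℂ) * ∑ z : G ⧸ A, Cfsg.extendByZero (H.map (QuotientGroup.mk' A)) θ₁
        (z⁻¹ * QuotientGroup.mk' A g * z) := by
    rw [← sum_quot A (fun z => Cfsg.extendByZero (H.map (QuotientGroup.mk' A)) θ₁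
        (z⁻¹ * QuotientGroup.mk' A g * z))]
    refine Finset.sum_congr rfl fun x _ => ?_
    rw [← hval]
    simp only [map_mul, map_inv]
  rw [hsum, hcard]
  have hA0 : (Nat.card A : ℂ) ≠ 0 := by
    exact_mod_cast Nat.card_pos.ne'
  push_cast
  rw [mul_inv, mul_comm (Nat.card A : ℂ)⁻¹, mul_assoc, inv_mul_cancel_left₀ hA0]

end Cfsg.Agent.S1488
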