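import Cfsg.Statements.S1490
import Cfsg.Agent.Lib.CliffordAb
-- import your own Cfsg.Agent.* helpers here

set_option autoImplicit false
open Cfsg

namespace Cfsg.Agent.S1490


/-- Let H be a normal subgroup of the finite group G, θ an irreducible character of H with inertia group T, and suppose the commutator of any two elements of T lies in H (T/H abelian). Then there are a positive integer e and a finite set C of irreducible characters of G with e ^ 2 * |C| * |H| = |T|, such that the function induced from θ is e times the sum of the members of C and every member of C has degree [G:T] * e * θ(1). -/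
theorem result {G : Type*} [Group G] [Fintype G] (H T : Subgroup G) [hN : H.Normal] (θ : H → ℂ) (hθ : Cfsg.IsIrrCharacter H θ) (hT : ∀ g : G, g ∈ T ↔ ∀ h : H, θ ⟨g * h * g⁻¹, hN.conj_mem h h.2 g⟩ = θ h) (hab : ∀ x ∈ T, ∀ y ∈ T, x * y * x⁻¹ * y⁻¹ ∈ H) : ∃ (e : ℕ) (C : Finset (G → ℂ)), 0 < e ∧ (∀ χ ∈ C, Cfsg.IsIrrCharacter G χ) ∧ e ^ 2 * C.card * Nat.card H = Nat.card T ∧ Cfsg.indFun H θ = (e : ℂ) • ∑ χ ∈ C, χ ∧ ∀ χ ∈ C, χ 1 = (T.index : ℂ) * e * θ 1 := by
  classical
  have hfH : Fintype H := Fintype.ofFinite H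
  have hfT : Fintype T := Fintype.ofFinite T
  have hfHT : Fintype (H.subgroupOf T) := Fintype.ofFinite _
  have hT' : ∀ g : G, g ∈ T ↔ Lib.Clifford.cj H g θ = θ := by
    intro g
    rw [hT g, funext_iff]
    rfl
  have hHT : H ≤ T := fun g hg => (hT' g).mpr (Lib.Clifford.cj_of_mem hθ.isClassFunction hg)
  -- a character of `T` over `θ`
  set θ' : H.subgroupOf T → ℂ := fun x => θ ⟨(x : T), Subgroup.mem_subgroupOf.mp x.2⟩ with hθ'
  have hθ'irr : Cfsg.IsIrrCharacter (H.subgroupOf T) θ' :=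
    (Lib.CharBasic.isIrrCharacter_comp_mulEquiv_iff (Lib.CliffordCorr.subEquiv H T hHT)).mpr hθ
  have hind : Cfsg.IsCharacter T (Cfsg.indFun (H.subgroupOf T) θ') := hθ'irr.isCharacter.indFun _
  have hne : Cfsg.indFun (H.subgroupOf T) θ' ≠ 0 := by
    intro h
    have h1 := congrFun h 1
    rw [Lib.IndFun.indFun_one] at h1
    simp only [Pi.zero_apply, mul_eq_zero, Nat.cast_eq_zero] at h1
    rcases h1 with h1 | h1
    · exact Subgroup.index_ne_zero_of_finite h1
    · exact hθ'irr.one_ne_zero h1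
  obtain ⟨ψ, hψ, hψ1⟩ := hind.exists_constituent hne
  rw [Lib.IndFun.frobenius_reciprocity _ _ _ hψ.isClassFunction] at hψ1
  have hψ2 : Cfsg.classInner (Lib.CliffordCorr.resTo H T hHT ψ) θ ≠ 0 := by
    rw [← Lib.CliffordCorr.classInner_resTo T hHT ψ θ]
    exact Lib.CliffordCorr.classInner_res_ne_zero_comm (N := H.subgroupOf T) hψ1
  have hres := Lib.CliffordCorr.resTo_eq_smul hHT hψ hθ (fun g hg => (hT' g).mp hg) hψ2
  obtain ⟨e, he⟩ := (Lib.CliffordCorr.isCharacter_resTo hHT hψ.isCharacter).classInner_nat hθ.isCharacter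
  rw [he] at hres hψ2
  have he0 : 0 < e := Nat.pos_of_ne_zero (fun h => hψ2 (by rw [h]; simp))
  obtain ⟨C, h1, h2, h3, h4⟩ := Lib.CliffordAb.ramification_inertia hθ hT' hab he0 hψ hHT hres
  exact ⟨e, C, he0, h1, h2, h3, h4⟩

end Cfsg.Agent.S1490
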