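import Cfsg.Statements.S1493
import Cfsg.Agent.Lib.CharGalois
-- import your own Cfsg.Agent.* helpers here

set_option autoImplicit false
open Cfsg

namespace Cfsg.Agent.S1493

open Lib.CharBasic Lib.CharGalois


/-- Let G be a finite group of order a * b with a and b coprime, let k be coprime to a, and let χ be a character of G. Then there is a character χ' of G such that χ'(g) = χ(g ^ k) whenever the order of g divides a and χ'(g) = χ(g) whenever the order of g is coprime to a; moreover χ' is irreducible if χ is. -/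
theorem result {G : Type*} [Group G] [Finite G] (a b k : ℕ) (hab : Nat.card G = a * b) (hcop : Nat.Coprime a b) (hk : Nat.Coprime k a) (χ : G → ℂ) (hχ : Cfsg.IsCharacter G χ) : ∃ χ' : G → ℂ, Cfsg.IsCharacter G χ' ∧ (Cfsg.IsIrrCharacter G χ → Cfsg.IsIrrCharacter G χ') ∧ (∀ g : G, orderOf g ∣ a → χ' g = χ (g ^ k)) ∧ (∀ g : G, Nat.Coprime (orderOf g) a → χ' g = χ g) := by
  obtain ⟨k₀, hk1, hk2⟩ := Nat.chineseRemainder hcop k 1
  have hcop' : k₀.Coprime (Nat.card G) := by
    rw [hab]
    apply Nat.Coprime.mul_right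
    · have := hk1.gcd_eq
      rw [Nat.Coprime, this]
      exact hk
    · have := hk2.gcd_eq
      rw [Nat.Coprime, this]
      exact Nat.gcd_one_left _
  obtain ⟨σ, hσ⟩ := exists_ringHom_pow (n := Nat.card G) Nat.card_pos hcop'
  have hval : ∀ g : G, σ (χ g) = χ (g ^ k₀) := by
    intro g
    apply map_apply_eq hχ σ k₀ g
    intro μ hμ
    apply hσ
    obtain ⟨m, hm⟩ := orderOf_dvd_natCard g
    rw [hm, pow_mul, hμ, one_pow]
  refine ⟨fun g => σ (χ g), isCharacter_map hχ σ, fun h => isIrrCharacter_map h σ, ?_, ?_⟩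
  · intro g hg
    change σ (χ g) = _
    rw [hval]
    congr 1
    rw [pow_eq_pow_iff_modEq]
    exact Nat.ModEq.of_dvd hg hk1
  · intro g hg
    change σ (χ g) = _
    rw [hval]
    congr 1
    conv_rhs => rw [← pow_one g]
    rw [pow_eq_pow_iff_modEq]
    have h1 : orderOf g ∣ a * b := hab ▸ orderOf_dvd_natCard g
    exact Nat.ModEq.of_dvd (hg.dvd_of_dvd_mul_left h1) hk2

end Cfsg.Agent.S1493
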