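import Cfsg.Statements.S1504
import Cfsg.Agent.Lib.CyclicTI
-- import your own Cfsg.Agent.* helpers here

set_option autoImplicit false
open Cfsg

namespace Cfsg.Agent.S1504

open Lib.CyclicTI Lib.CharBasic


/-- Let W₁, W₂ be subgroups of a finite group with W₁ ⊓ W₂ = ⊥ whose elements commute, and W = W₁ ⊔ W₂. For linear characters φ, ψ of W with φ trivial on W₂ and ψ trivial on W₁, the function (1 − φ)(1 − ψ) vanishes on W₁ ∪ W₂; and the family of these functions, indexed by pairs (φ, ψ) with φ ≠ 1 ≠ ψ, is linearly independent over ℂ. -/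
theorem result {G : Type*} [Group G] [Finite G] (W₁ W₂ : Subgroup G) (hdisj : W₁ ⊓ W₂ = ⊥) (hcomm : ∀ a ∈ W₁, ∀ b ∈ W₂, a * b = b * a) : (∀ φ ψ : ↥(W₁ ⊔ W₂) →* ℂˣ, (∀ w : ↥(W₁ ⊔ W₂), (w : G) ∈ W₂ → φ w = 1) → (∀ w : ↥(W₁ ⊔ W₂), (w : G) ∈ W₁ → ψ w = 1) → ∀ w : ↥(W₁ ⊔ W₂), ((w : G) ∈ W₁ ∨ (w : G) ∈ W₂) → (1 - (φ w : ℂ) - (ψ w : ℂ) + (φ w : ℂ) * (ψ w : ℂ)) = 0) ∧ LinearIndependent ℂ (fun p : {p : (↥(W₁ ⊔ W₂) →* ℂˣ) × (↥(W₁ ⊔ W₂) →* ℂˣ) // p.1 ≠ 1 ∧ p.2 ≠ 1 ∧ (∀ w : ↥(W₁ ⊔ W₂), (w : G) ∈ W₂ → p.1 w = 1) ∧ (∀ w : ↥(W₁ ⊔ W₂), (w : G) ∈ W₁ → p.2 w = 1)} => fun w : ↥(W₁ ⊔ W₂) => 1 - (p.1.1 w : ℂ) - (p.1.2 w : ℂ) + (p.1.1 w : ℂ) * (p.1.2 w : ℂ)) := by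
  refine ⟨fun φ ψ hφ hψ w hw => alpha_eq_zero (W₁ := W₁) (W₂ := W₂) hφ hψ hw, ?_⟩
  classical
  have : Fintype ↥(W₁ ⊔ W₂) := Fintype.ofFinite _
  have key : ∀ p q : {p : (↥(W₁ ⊔ W₂) →* ℂˣ) × (↥(W₁ ⊔ W₂) →* ℂˣ) // p.1 ≠ 1 ∧ p.2 ≠ 1 ∧
      (∀ w : ↥(W₁ ⊔ W₂), (w : G) ∈ W₂ → p.1 w = 1) ∧
      (∀ w : ↥(W₁ ⊔ W₂), (w : G) ∈ W₁ → p.2 w = 1)},
      Cfsg.classInner (Lib.CyclicTI.alpha p.1.1 p.1.2) (lc (q.1.1 * q.1.2)) =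
        if p = q then 1 else 0 := by
    rintro ⟨⟨φ, ψ⟩, n1, n2, hφ, hψ⟩ ⟨⟨φ', ψ'⟩, n3, n4, hφ', hψ'⟩
    change φ ∈ ann W₁ W₂ W₂ at hφ
    change ψ ∈ ann W₁ W₂ W₁ at hψ
    change φ' ∈ ann W₁ W₂ W₂ at hφ'
    change ψ' ∈ ann W₁ W₂ W₁ at hψ'
    have h1 : (1 : ↥(W₁ ⊔ W₂) →* ℂˣ) ∈ ann W₁ W₂ W₂ := Subgroup.one_mem _
    have h2 : (1 : ↥(W₁ ⊔ W₂) →* ℂˣ) ∈ ann W₁ W₂ W₁ := Subgroup.one_mem _
    simp only [alpha_eq, classInner_add_left, classInner_sub_left, classInner_lc]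
    have e3 : (1 : ↥(W₁ ⊔ W₂) →* ℂˣ) ≠ φ' * ψ' := by
      intro e
      have := (mul_inj hdisj hcomm h1 h2 hφ' hψ').mp ((hom_mul_one 1).trans e)
      exact n3 this.1.symm
    have e5 : φ ≠ φ' * ψ' := by
      intro e
      have := (mul_inj hdisj hcomm hφ h2 hφ' hψ').mp ((hom_mul_one φ).trans e)
      exact n4 this.2.symm
    have e7 : ψ ≠ φ' * ψ' := by
      intro e
      have := (mul_inj hdisj hcomm h1 hψ hφ' hψ').mp ((hom_one_mul ψ).trans e)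
      exact n3 this.1.symm
    have e11 : (φ * ψ = φ' * ψ') ↔ (φ = φ' ∧ ψ = ψ') := mul_inj hdisj hcomm hφ hψ hφ' hψ'
    rw [if_neg e3, if_neg e5, if_neg e7]
    simp [e11, Subtype.ext_iff, Prod.ext_iff]
  rw [linearIndependent_iff']
  intro s g hg i hi
  have h0 : Cfsg.classInner (∑ p ∈ s, g p • Lib.CyclicTI.alpha p.1.1 p.1.2)
      (lc (i.1.1 * i.1.2)) = 0 := by
    change Cfsg.classInner (∑ p ∈ s, g p • fun w : ↥(W₁ ⊔ W₂) =>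
      1 - (p.1.1 w : ℂ) - (p.1.2 w : ℂ) + (p.1.1 w : ℂ) * (p.1.2 w : ℂ)) _ = 0
    rw [hg]
    exact classInner_zero_left _
  rw [classInner_sum_left] at h0
  simp only [classInner_smul_left, key] at h0
  rw [Finset.sum_eq_single i] at h0
  · simpa using h0
  · intro b _ hb
    rw [if_neg hb, mul_zero]
  · intro h; exact absurd hi h

end Cfsg.Agent.S1504
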