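import Cfsg.Statements.S1509
import Cfsg.Agent.Lib.CoherenceSys

set_option autoImplicit false
open Cfsg

namespace Cfsg.Agent.S1509

/-- Let α, β, γ, δ be functions on a finite group X each of which is an irreducible character or the negative of one, and u, v nonzero real numbers. Suppose ⟨α, β⟩ = ⟨γ, δ⟩ = 0, ⟨α − β, uγ − vδ⟩ = 0, α 1 = β 1 and u γ 1 = v δ 1. Then also ⟨α, γ⟩ = ⟨α, δ⟩ = ⟨β, γ⟩ = ⟨β, δ⟩ = 0. -/
theorem result {X : Type*} [Group X] [Fintype X] (α β γ δ : X → ℂ) (hα : Cfsg.IsIrrCharacter X α ∨ Cfsg.IsIrrCharacter X (-α)) (hβ : Cfsg.IsIrrCharacter X β ∨ Cfsg.IsIrrCharacter X (-β)) (hγ : Cfsg.IsIrrCharacter X γ ∨ Cfsg.IsIrrCharacter X (-γ)) (hδ : Cfsg.IsIrrCharacter X δ ∨ Cfsg.IsIrrCharacter X (-δ)) (u v : ℝ) (hu : u ≠ 0) (hv : v ≠ 0) (hab : Cfsg.classInner α β = 0) (hcd : Cfsg.classInner γ δ = 0) (hmix : Cfsg.classInner (α - β) ((u : ℂ) •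 γ - (v : ℂ) • δ) = 0) (h1 : α 1 = β 1) (h2 : (u : ℂ) * γ 1 = (v : ℂ) * δ 1) : Cfsg.classInner α γ = 0 ∧ Cfsg.classInner α δ = 0 ∧ Cfsg.classInner β γ = 0 ∧ Cfsg.classInner β δ = 0 := by
  exact Cfsg.Agent.Lib.CoherenceSys.four_orth hα hβ hγ hδ (a := 1) (b := 1) one_ne_zero
    one_ne_zero hu hv hab hcd (by simpa using hmix) (by simpa using h1) h2

end Cfsg.Agent.S1509
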