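import Cfsg.Statements.S1510
import Cfsg.Agent.Lib.CyclicTI
-- import your own Cfsg.Agent.* helpers here

set_option autoImplicit false
open Cfsg

namespace Cfsg.Agent.S1510

open Lib.CyclicTI


/-- Let L be a finite group with a normal subgroup K and a nontrivial cyclic subgroup W₁ of order coprime to its index, K ⊓ W₁ = ⊥ and K ⊔ W₁ = ⊤; let W₂ ≠ ⊥ be a cyclic subgroup of K with K ⊓ C_L(x) = W₂ for every non-identity x ∈ W₁, and suppose W₁ ⊔ W₂ has odd order. Then (W₁, W₂) is a self-normalising cyclic pair in L. -/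
theorem result {L : Type*} [Group L] [Fintype L] (K W₁ W₂ : Subgroup L) [hK : K.Normal] (hKW₁ : K ⊓ W₁ = ⊥) (hKW₁' : K ⊔ W₁ = ⊤) (hW₁ : W₁ ≠ ⊥) (hW₁c : IsCyclic W₁) (hHall : Nat.Coprime (Nat.card W₁) W₁.index) (hW₂ : W₂ ≠ ⊥) (hW₂c : IsCyclic W₂) (hW₂K : W₂ ≤ K) (hC : ∀ x ∈ W₁, x ≠ 1 → K ⊓ Subgroup.centralizer ({x} : Set L) = W₂) (hodd : Odd (Nat.card ↥(W₁ ⊔ W₂))) : Cfsg.IsSelfNormalizingCyclic W₁ W₂ := by
  have hdisj : W₁ ⊓ W₂ = ⊥ := by
    rw [eq_bot_iff, ← hKW₁]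
    exact fun x hx => ⟨hW₂K hx.2, hx.1⟩
  have hcomm : ∀ a ∈ W₁, ∀ b ∈ W₂, a * b = b * a := by
    intro a ha b hb
    by_cases h1 : a = 1
    · rw [h1, one_mul, mul_one]
    · rw [← hC a ha h1] at hb
      exact (Subgroup.mem_centralizer_singleton_iff.mp hb.2).symm
  have hidx : W₁.index = Nat.card K := by
    have h1 : Subgroup.IsComplement' K W₁ :=
      Subgroup.isComplement'_of_disjoint_and_mul_eq_univ (disjoint_iff.mpr hKW₁) (by
        rw [← Subgroup.normal_mul, hKW₁']; rfl)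
    exact h1.index_eq_card
  have hcop : (Nat.card W₁).Coprime (Nat.card W₂) := by
    rw [hidx] at hHall
    exact hHall.coprime_dvd_right (Subgroup.card_dvd_of_le hW₂K)
  have hcyc : IsCyclic ↥(W₁ ⊔ W₂) := by
    rw [← (prodEquiv hdisj hcomm).isCyclic]
    exact Group.isCyclic_prod_iff.mpr ⟨hW₁c, hW₂c, hcop⟩
  have hWc : ∀ a ∈ W₁ ⊔ W₂, ∀ b ∈ W₁ ⊔ W₂, a * b = b * a := by
    intro a ha b hb
    have := IsCyclic.isMulCommutative (α := ↥(W₁ ⊔ W₂))
    exact congrArg Subtype.val (mul_comm' (⟨a, ha⟩ : ↥(W₁ ⊔ W₂)) ⟨b, hb⟩)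
  refine ⟨hW₁, hW₂, hdisj, hcomm, hcyc, ?_⟩
  intro X hX hne
  apply le_antisymm
  · intro g hg
    rw [Subgroup.mem_set_normalizer_iff] at hg
    obtain ⟨w, hw⟩ := hne
    have hw' := (hg w).mp hw
    obtain ⟨hwW, hwn⟩ := hX hw
    obtain ⟨hwW', hwn'⟩ := hX hw'
    obtain ⟨m, hm1, hm2⟩ := Nat.chineseRemainder hcop 1 0
    have key : ∀ v (hv : v ∈ W₁ ⊔ W₂), v ^ m = (pr₁ hdisj hcomm ⟨v, hv⟩ : L) := by
      intro v hv
      have h1 := pr_mul_pr_coe hdisj hcomm ⟨v, hv⟩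
      have h2 : Commute ((pr₁ hdisj hcomm ⟨v, hv⟩ : W₁) : L)
        ((pr₂ hdisj hcomm ⟨v, hv⟩ : W₂) : L) := hcomm _ (Subtype.mem _) _ (Subtype.mem _)
      have h3 : ((pr₁ hdisj hcomm ⟨v, hv⟩ : W₁) : L) ^ m =
          ((pr₁ hdisj hcomm ⟨v, hv⟩ : W₁) : L) := by
        have : (pr₁ hdisj hcomm ⟨v, hv⟩) ^ m = (pr₁ hdisj hcomm ⟨v, hv⟩) ^ 1 := by
          rw [pow_eq_pow_iff_modEq]
          exact Nat.ModEq.of_dvd (orderOf_dvd_natCard _) hm1
        rw [pow_one] at this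
        exact congrArg Subtype.val this
      have h4 : ((pr₂ hdisj hcomm ⟨v, hv⟩ : W₂) : L) ^ m = 1 := by
        have : (pr₂ hdisj hcomm ⟨v, hv⟩) ^ m = (pr₂ hdisj hcomm ⟨v, hv⟩) ^ 0 := by
          rw [pow_eq_pow_iff_modEq]
          exact Nat.ModEq.of_dvd (orderOf_dvd_natCard _) hm2
        rw [pow_zero] at this
        exact congrArg Subtype.val this
      conv_lhs => rw [show v = ((⟨v, hv⟩ : ↥(W₁ ⊔ W₂)) : L) from rfl, ← h1]
      rw [h2.mul_pow, h3, h4, mul_one]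
    set x : L := (pr₁ hdisj hcomm ⟨w, hwW⟩ : L) with hx
    set x' : L := (pr₁ hdisj hcomm ⟨g * w * g⁻¹, hwW'⟩ : L) with hx'
    have hxx' : g * x * g⁻¹ = x' := by
      rw [hx, hx', ← key w hwW, ← key _ hwW', conj_pow]
    have hx1 : x ≠ 1 := by
      intro h
      have : pr₁ hdisj hcomm ⟨w, hwW⟩ = 1 := Subtype.ext h
      rw [pr₁_eq_one_iff] at this
      exact hwn (Or.inr this)
    have hxW : x ∈ W₁ := Subtype.mem _
    have hxW' : x' ∈ W₁ := Subtype.mem _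
    have hg2 : g ∈ K ⊔ W₁ := by rw [hKW₁']; exact Subgroup.mem_top g
    obtain ⟨k, hk, a, ha, hka⟩ := Subgroup.mem_sup_of_normal_left.mp hg2
    have hax : a * x = x * a :=
      hWc a (Subgroup.mem_sup_left ha) x (Subgroup.mem_sup_left hxW)
    have hkx : k * x * k⁻¹ = x' := by
      rw [← hxx', ← hka]
      calc k * x * k⁻¹ = k * (x * a * a⁻¹) * k⁻¹ := by group
        _ = k * (a * x * a⁻¹) * k⁻¹ := by rw [hax]
        _ = _ := by group
    have hxeq : x' = x := by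
      have h1 : x' * x⁻¹ ∈ K := by
        rw [← hkx]
        have : k * x * k⁻¹ * x⁻¹ = k * (x * k⁻¹ * x⁻¹) := by group
        rw [this]
        exact K.mul_mem hk (hK.conj_mem _ (K.inv_mem hk) x)
      have h2 : x' * x⁻¹ ∈ K ⊓ W₁ := ⟨h1, W₁.mul_mem hxW' (W₁.inv_mem hxW)⟩
      rw [hKW₁, Subgroup.mem_bot] at h2
      exact mul_inv_eq_one.mp h2
    have hkW₂ : k ∈ W₂ := by
      rw [← hC x hxW hx1]
      rw [hxeq] at hkx
      have hkx' : k * x = x * k := by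
        calc k * x = k * x * k⁻¹ * k := by group
          _ = x * k := by rw [hkx]
      exact ⟨hk, Subgroup.mem_centralizer_singleton_iff.mpr hkx'⟩
    rw [← hka]
    exact (W₁ ⊔ W₂).mul_mem (Subgroup.mem_sup_right hkW₂) (Subgroup.mem_sup_left ha)
  · intro g hg
    rw [Subgroup.mem_set_normalizer_iff]
    intro y
    constructor
    · intro hy
      have := hWc g hg y (hX hy).1
      rw [this, mul_inv_cancel_right]
      exact hy
    · intro hy
      have h1 := (hX hy).1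
      have h2 : g⁻¹ * (g * y * g⁻¹) * g = y := by group
      have h3 : y ∈ W₁ ⊔ W₂ := by
        rw [← h2]
        exact (W₁ ⊔ W₂).mul_mem ((W₁ ⊔ W₂).mul_mem ((W₁ ⊔ W₂).inv_mem hg) h1) hg
      have := hWc g hg y h3
      rw [this, mul_inv_cancel_right] at hy
      exact hy

end Cfsg.Agent.S1510
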