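import Cfsg.Statements.S1528
import Cfsg.Agent.Lib.FrobInd

set_option autoImplicit false
open Cfsg

namespace Cfsg.Agent.S1528

/-- Let N be a normal subgroup of the finite group G such that every element of G commuting with a non-identity element of N lies in N. If χ is an irreducible character of G with χ n ≠ χ 1 for some n ∈ N, then χ is the function induced from some irreducible character of N. -/
theorem result {G : Type*} [Group G] [Fintype G] (N : Subgroup G) [N.Normal] (hC : ∀ n ∈ N, n ≠ 1 → Subgroup.centralizer ({n} : Set G) ≤ N) (χ : G → ℂ) (hχ : Cfsg.IsIrrCharacter G χ) (hker : ∃ n ∈ N, χ n ≠ χ 1) : ∃ φ : N → ℂ, Cfsg.IsIrrCharacter N φ ∧ χ = Cfsg.indFun N φ := by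
  obtain ⟨φ, h1, -, h2⟩ := Lib.FrobInd.exists_indFun_eq N hC hχ hker
  exact ⟨φ, h1, h2⟩

end Cfsg.Agent.S1528
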