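import Cfsg.Statements.S1529
import Cfsg.Agent.Lib.CoherenceIrr

set_option autoImplicit false
open Cfsg
open Cfsg.Agent.Lib.CharBasic Cfsg.Agent.Lib.Coherence Cfsg.Agent.Lib.CoherenceSys
open Cfsg.Agent.Lib.CoherenceIrr

namespace Cfsg.Agent.S1529

/-- Let N be a subgroup of the finite group G, S a set of irreducible characters of N with at least two members, and τ₁ a linear isometry on the integer combinations of S with virtual-character values such that τ₁ α vanishes at 1 whenever α ∈ ℤ[S] does. Then there is ε ∈ {1, −1} such that ε • τ₁ χ is an irreducible character of G for every χ ∈ S, and distinct members of S give distinct characters. -/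
theorem result {G : Type*} [Group G] [Fintype G] (N : Subgroup G) [Fintype N] (S : Set (N → ℂ)) (hirr : ∀ χ ∈ S, Cfsg.IsIrrCharacter N χ) (htwo : ∃ χ ∈ S, ∃ ψ ∈ S, χ ≠ ψ) (τ₁ : (N → ℂ) → (G → ℂ)) (hτ₁ : Cfsg.IsLinearIsometryOn (Cfsg.zspan S) τ₁) (h0 : ∀ α ∈ Cfsg.zspan S, α 1 = 0 → τ₁ α 1 = 0) : ∃ ε : ℂ, (ε = 1 ∨ ε = -1) ∧ (∀ χ ∈ S, Cfsg.IsIrrCharacter G (ε • τ₁ χ)) ∧ (∀ χ ∈ S, ∀ ψ ∈ S, τ₁ χ = τ₁ ψ → χ = ψ) := by
  obtain ⟨χ₀, hχ₀, -⟩ := htwo
  have h0' : ∀ α ∈ zspanOn S {1}ᶜ, τ₁ α 1 = 0 := fun α hα =>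
    h0 α (mem_zspanOn.mp hα).1 (mem_zspanOn.mp hα).2
  obtain ⟨a, ha, ha'⟩ := (hirr χ₀ hχ₀).exists_degree
  have hinj : ∀ χ ∈ S, ∀ ψ ∈ S, τ₁ χ = τ₁ ψ → χ = ψ := by
    intro χ hχ ψ hψ h
    by_contra hne
    have h1 := hτ₁.2.2.1 _ (subset_zspan hχ) _ (subset_zspan hψ)
    rw [(hirr χ hχ).classInner_eq_zero (hirr ψ hψ) hne, h,
      (sirr_image hirr hτ₁ hψ).self] at h1
    exact one_ne_zero h1
  have key : ∀ ε : ℂ, (ε = 1 ∨ ε = -1) → IsIrrCharacter G (ε • τ₁ χ₀) →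
      ∀ χ ∈ S, IsIrrCharacter G (ε • τ₁ χ) := by
    intro ε hε h χ hχ
    obtain ⟨b, hb, hb'⟩ := (hirr χ hχ).exists_degree
    obtain ⟨m, hm, hm'⟩ := h.exists_degree
    have h1 := cross_values hτ₁ h0' hχ hχ₀ hb' ha'
    have h2 : (ε • τ₁ χ) 1 = ((b * m / a : ℝ) : ℂ) := by
      have h3 : (a : ℂ) * (ε • τ₁ χ) 1 = b * m := by
        rw [← hm']
        simp only [Pi.smul_apply, smul_eq_mul]
        linear_combination ε * h1
      have ha0 : (a : ℂ) ≠ 0 := by exact_mod_cast ha.ne'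
      push_cast
      field_simp
      linear_combination h3
    refine irr_of_sirr_pos ?_ (r := b * m / a) (by positivity) h2
    rcases hε with rfl | rfl
    · rw [one_smul]; exact sirr_image hirr hτ₁ hχ
    · rw [neg_one_smul]; exact (sirr_image hirr hτ₁ hχ).neg
  rcases sirr_image hirr hτ₁ hχ₀ with h | h
  · exact ⟨1, Or.inl rfl, key 1 (Or.inl rfl) (by rwa [one_smul]), hinj⟩
  · exact ⟨-1, Or.inr rfl, key (-1) (Or.inr rfl) (by rwa [neg_one_smul]), hinj⟩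

end Cfsg.Agent.S1529
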