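import Cfsg.Statements.S1530
import Cfsg.Agent.Lib.CoherenceIrr

set_option autoImplicit false
open Cfsg
open Cfsg.Agent.Lib.CharBasic Cfsg.Agent.Lib.Coherence Cfsg.Agent.Lib.CoherenceSys
open Cfsg.Agent.Lib.CoherenceIrr

namespace Cfsg.Agent.S1530

/-- Let N be a subgroup of the finite group G and S₀ a finite set of irreducible characters of N, χ an irreducible character of N not in S₀, with degrees ξ 1 = d ξ. Let τ be a linear isometry on the integer combinations of S₀ ∪ {χ} vanishing at 1, with values virtual characters of G vanishing at 1, such that (S₀, N minus 1, τ) is coherent. If some ψ ∈ S₀ has d ψ dividing d χ and 2 · d ψ · d χ < Σ_{ξ ∈ S₀} (d ξ)², then (S₀ ∪ {χ}, N minus 1, τ) is coherent. -/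
theorem result {G : Type*} [Group G] [Fintype G] (N : Subgroup G) [Fintype N] (S₀ : Finset (N → ℂ)) (χ : N → ℂ) (hirr : ∀ ξ ∈ S₀, Cfsg.IsIrrCharacter N ξ) (hχ : Cfsg.IsIrrCharacter N χ) (hχS : χ ∉ S₀) (d : (N → ℂ) → ℕ) (hd : ∀ ξ ∈ insert χ S₀, ξ 1 = (d ξ : ℂ)) (τ : (N → ℂ) → (G → ℂ)) (hτ : Cfsg.IsLinearIsometryOn (Cfsg.zspanOn (↑(insert χ S₀) : Set (N → ℂ)) {1}ᶜ) τ) (hτ1 : ∀ α ∈ Cfsg.zspanOn (↑(insert χ S₀) : Set (N → ℂ)) {1}ᶜ, τ α 1 = 0) (hcoh : Cfsg.IsCoherent (↑S₀ : Set (N → ℂ)) {1}ᶜ τ) (ψ : N → ℂ) (hψ : ψ ∈ S₀) (hdvd : d ψ ∣ d χ) (hlt : 2 * d ψ * d χ < ∑ ξ ∈ S₀, d ξ ^ 2) : Cfsg.IsCoherent (↑(insert χ S₀) : Set (N → ℂ)) {1}ᶜ τ := by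
  classical
  obtain ⟨⟨α₀, hα₀, hα₀'⟩, τ₁, hτ₁, hag⟩ := hcoh
  obtain ⟨a, ha⟩ := hdvd
  have hsub0 : (↑S₀ : Set (N → ℂ)) ⊆ ↑(insert χ S₀) := by
    intro x hx; simp only [Finset.coe_insert]; right; exact hx
  have hunion : (↑(insert χ S₀) : Set (N → ℂ)) = ↑S₀ ∪ {χ} := by
    ext x; simp [or_comm]
  have hdS : ∀ ξ ∈ S₀, ξ 1 = (d ξ : ℂ) := fun ξ hξ => hd ξ (Finset.mem_insert_of_mem hξ)
  have hdχ : χ 1 = (d χ : ℂ) := hd χ (Finset.mem_insert_self _ _)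
  have dpos : ∀ ξ ∈ S₀, 0 < d ξ := by
    intro ξ hξ
    obtain ⟨m, hm, hm'⟩ := (hirr ξ hξ).exists_degree
    have : (m : ℂ) = d ξ := by rw [← hm', hdS ξ hξ]
    have : m = d ξ := by exact_mod_cast this
    omega
  have dχpos : 0 < d χ := by
    obtain ⟨m, hm, hm'⟩ := hχ.exists_degree
    have : (m : ℂ) = d χ := by rw [← hm', hdχ]
    have : m = d χ := by exact_mod_cast this
    omega
  have hirr' : ∀ ξ ∈ (↑S₀ : Set (N → ℂ)), IsIrrCharacter N ξ := hirr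
  have hχne : ∀ ξ ∈ S₀, ξ ≠ χ := fun ξ hξ h => hχS (h ▸ hξ)
  have horth : ∀ ξ ∈ S₀, classInner χ ξ = 0 := fun ξ hξ =>
    hχ.classInner_eq_zero (hirr ξ hξ) (hχne ξ hξ).symm
  have horth' : ∀ ξ ∈ S₀, classInner ξ χ = 0 := fun ξ hξ =>
    (hirr ξ hξ).classInner_eq_zero hχ (hχne ξ hξ)
  have h0 : ∀ θ ∈ zspanOn (↑S₀ : Set (N → ℂ)) {1}ᶜ, τ₁ θ 1 = 0 := fun θ hθ => by
    rw [hag θ hθ]; exact hτ1 θ (zspanOn_mono hsub0 hθ)
  have hθ : χ - (a : ℤ) • ψ ∈ zspanOn (↑(insert χ S₀) : Set (N → ℂ)) {1}ᶜ := by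
    rw [mem_zspanOn]
    constructor
    · exact zspan_sub (subset_zspan (by simp)) (zspan_zsmul _ (subset_zspan (hsub0 hψ)))
    · rw [Pi.sub_apply, Pi.smul_apply, zsmul_eq_mul, hdχ, hdS ψ hψ, ha]
      push_cast; ring
  set β := τ (χ - (a : ℤ) • ψ) with hβdef
  have hβgc : IsGeneralizedCharacter G β := hτ.2.2.2 _ hθ
  have hτ₁gc : ∀ φ ∈ S₀, IsGeneralizedCharacter G (τ₁ φ) := fun φ hφ =>
    hτ₁.2.2.2 _ (subset_zspan hφ)
  have hcint : ∀ φ ∈ S₀, ∃ c : ℤ, classInner β (τ₁ φ) = c := fun φ hφ =>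
    gc_inner_int hβgc (hτ₁gc φ hφ)
  choose! c hc using hcint
  have hrel : ∀ φ ∈ S₀, (d ψ : ℤ) * c φ = d φ * (c ψ + a) -
      (if φ = ψ then (a : ℤ) * d ψ else 0) := by
    intro φ hφ
    have hm : (d φ : ℤ) • ψ - (d ψ : ℤ) • φ ∈ zspanOn (↑S₀ : Set (N → ℂ)) {1}ᶜ :=
      cross_mem hψ hφ (hdS ψ hψ) (hdS φ hφ)
    have hmS := zspanOn_mono hsub0 hm
    have h1 : classInner β (τ₁ ((d φ : ℤ) • ψ - (d ψ : ℤ) • φ)) =
        classInner (χ - (a : ℤ) • ψ) ((d φ : ℤ) • ψ - (d ψ : ℤ) • φ) := by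
      rw [hag _ hm, hτ.2.2.1 _ hθ _ hmS]
    rw [li_sub (isZMod_zspan _) hτ₁ (zspan_zsmul _ (subset_zspan hψ))
      (zspan_zsmul _ (subset_zspan hφ)), hτ₁.2.1 _ (subset_zspan hψ),
      hτ₁.2.1 _ (subset_zspan hφ), classInner_sub_right, classInner_zsmul_right,
      classInner_zsmul_right, hc φ hφ, hc ψ hψ, classInner_sub_right, classInner_sub_left,
      classInner_sub_left, classInner_zsmul_right, classInner_zsmul_right,
      classInner_zsmul_right, classInner_zsmul_right, classInner_zsmul_left,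
      classInner_zsmul_left, horth ψ hψ, horth φ hφ, (hirr ψ hψ).classInner_self] at h1
    have h2 : classInner ψ φ = if φ = ψ then (1 : ℂ) else 0 := by
      split_ifs with h
      · rw [h, (hirr ψ hψ).classInner_self]
      · exact (hirr ψ hψ).classInner_eq_zero (hirr φ hφ) (Ne.symm h)
    rw [h2] at h1
    have h3 : ((d ψ : ℤ) * c φ : ℂ) = d φ * (c ψ + a) -
      (if φ = ψ then (a : ℂ) * d ψ else 0) := by
      split_ifs at h1 ⊢ with h
      · push_cast at h1 ⊢; linear_combination -h1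
      · push_cast at h1 ⊢; linear_combination -h1
    split_ifs at h3 ⊢ with h
    · exact_mod_cast h3
    · exact_mod_cast h3
  set m : ℤ := c ψ + a with hm
  have hd1 : (0 : ℝ) < d ψ := by exact_mod_cast dpos ψ hψ
  have hβn : classInner β β = 1 + (a : ℂ) ^ 2 := by
    rw [hβdef, hτ.2.2.1 _ hθ _ hθ, classInner_sub_left, classInner_sub_right,
      classInner_sub_right, classInner_zsmul_left, classInner_zsmul_right,
      classInner_zsmul_left, classInner_zsmul_right, horth ψ hψ, horth' ψ hψ,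
      hχ.classInner_self, (hirr ψ hψ).classInner_self]
    push_cast; ring
  have horthn : ∀ φ ∈ S₀, ∀ ξ ∈ S₀, φ ≠ ξ → classInner (τ₁ φ) (τ₁ ξ) = 0 := by
    intro φ hφ ξ hξ hne
    rw [hτ₁.2.2.1 _ (subset_zspan hφ) _ (subset_zspan hξ)]
    exact (hirr φ hφ).classInner_eq_zero (hirr ξ hξ) hne
  have hselfn : ∀ φ ∈ S₀, classInner (τ₁ φ) (τ₁ φ) = 1 := fun φ hφ =>
    (sirr_image hirr' hτ₁ hφ).self
  -- Z₀ = β - Σ c τ₁
  have hbi := bessel_identity S₀ τ₁ (fun _ => (1 : ℝ)) (fun _ _ => one_ne_zero)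
    (fun φ hφ => by rw [hselfn φ hφ]; simp) horthn β
  set Z₀ := β - ∑ φ ∈ S₀, (classInner β (τ₁ φ) / ((1 : ℝ) : ℂ)) • τ₁ φ with hZ₀
  have hZ₀' : Z₀ = β - ∑ φ ∈ S₀, c φ • τ₁ φ := by
    rw [hZ₀]
    congr 1
    apply Finset.sum_congr rfl
    intro φ hφ
    rw [hc φ hφ, Complex.ofReal_one, div_one, Int.cast_smul_eq_zsmul]
  have hZ₀gc : IsGeneralizedCharacter G Z₀ := by
    rw [hZ₀']
    exact gc_sub hβgc (gc_sum _ _ fun φ hφ => gc_zsmul (hτ₁gc φ hφ) _)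
  have hsumc : ∑ φ ∈ S₀, ‖classInner β (τ₁ φ)‖ ^ 2 / (1 : ℝ) = ∑ φ ∈ S₀, (c φ : ℝ) ^ 2 := by
    apply Finset.sum_congr rfl
    intro φ hφ
    rw [hc φ hφ, Complex.norm_intCast, sq_abs, div_one]
  have hnβ : nsq β = 1 + (a : ℝ) ^ 2 := by
    rw [classInner_self_nsq] at hβn
    exact_mod_cast hβn
  rw [hsumc, hnβ] at hbi
  have hcr : ∀ φ ∈ S₀, (c φ : ℝ) = d φ * m / d ψ - (if φ = ψ then (a : ℝ) else 0) := by
    intro φ hφ
    have h1 := hrel φ hφ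
    have h2 : (d ψ : ℝ) * c φ = d φ * m - (if φ = ψ then (a : ℝ) * d ψ else 0) := by
      split_ifs at h1 ⊢ with h
      · exact_mod_cast h1
      · exact_mod_cast h1
    split_ifs at h2 ⊢ with h
    · field_simp; linear_combination h2
    · field_simp; linear_combination h2
  have hsum : ∑ φ ∈ S₀, (c φ : ℝ) ^ 2 =
      (m : ℝ) ^ 2 / (d ψ : ℝ) ^ 2 * ∑ φ ∈ S₀, ((d φ : ℝ) ^ 2) - 2 * a * m + (a : ℝ) ^ 2 := by
    have h1 : ∀ φ ∈ S₀, (c φ : ℝ) ^ 2 =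
        (m : ℝ) ^ 2 / (d ψ : ℝ) ^ 2 * ((d φ : ℝ) ^ 2) +
          (if φ = ψ then (- 2 * a * m + (a : ℝ) ^ 2) else 0) := by
      intro φ hφ
      rw [hcr φ hφ]
      split_ifs with h
      · subst h
        field_simp
        ring
      · field_simp
        ring
    rw [Finset.sum_congr rfl h1, Finset.sum_add_distrib, ← Finset.mul_sum,
      Finset.sum_ite_eq' S₀ ψ, if_pos hψ]
    ring
  set T : ℝ := ∑ φ ∈ S₀, ((d φ : ℝ) ^ 2) with hT
  have hTlt : 2 * a * (d ψ : ℝ) ^ 2 < T := by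
    have h1 : (2 * d ψ * d χ : ℝ) < ∑ ξ ∈ S₀, (d ξ : ℝ) ^ 2 := by exact_mod_cast hlt
    have h2 : (d χ : ℝ) = d ψ * a := by exact_mod_cast ha
    rw [h2] at h1
    rw [hT]; linarith
  have hapos : 0 < a := by
    rcases Nat.eq_zero_or_pos a with h | h
    · rw [h, mul_zero] at ha; omega
    · exact h
  have hm0 : m = 0 := by
    by_contra hne
    have hmpos : (0 : ℝ) < (m : ℝ) ^ 2 := by
      have : (m : ℝ) ≠ 0 := by exact_mod_cast hne
      positivity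
    have h2 : (m : ℝ) ^ 2 / (d ψ : ℝ) ^ 2 * (2 * a * (d ψ : ℝ) ^ 2) <
        (m : ℝ) ^ 2 / (d ψ : ℝ) ^ 2 * T := mul_lt_mul_of_pos_left hTlt (by positivity)
    have h3 : (m : ℝ) ^ 2 / (d ψ : ℝ) ^ 2 * (2 * a * (d ψ : ℝ) ^ 2) = 2 * a * (m : ℝ) ^ 2 := by
      field_simp
    have h4 : (m : ℝ) ≤ (m : ℝ) ^ 2 := by
      have : m ≤ m ^ 2 := Int.le_self_sq m
      exact_mod_cast this
    have h5 : (2 * a : ℝ) * m ≤ 2 * a * (m : ℝ) ^ 2 :=
      mul_le_mul_of_nonneg_left h4 (by positivity)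
    have h6 : nsq Z₀ < 1 := by rw [hbi, hsum]; linarith
    -- hence Z₀ = 0
    obtain ⟨z, hz⟩ := gc_inner_int hZ₀gc hZ₀gc
    have hz' : nsq Z₀ = z := by
      rw [classInner_self_nsq] at hz
      exact_mod_cast hz
    have hz0 : z = 0 := by
      have h7 := nsq_nonneg Z₀
      rw [hz'] at h6 h7
      have h8 : z < 1 := by exact_mod_cast h6
      have h9 : 0 ≤ z := by exact_mod_cast h7
      omega
    have hZ0 : Z₀ = 0 := nsq_eq_zero.mp (by rw [hz', hz0]; simp)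
    have hβsum : β = ∑ φ ∈ S₀, c φ • τ₁ φ := by
      rw [hZ₀'] at hZ0
      exact sub_eq_zero.mp hZ0
    have hβ1 : β 1 = 0 := hτ1 _ hθ
    obtain ⟨e, he⟩ := gc_one_int (hτ₁gc ψ hψ)
    have he0 : (e : ℂ) ≠ 0 := by
      rw [← he]; exact (sirr_image hirr' hτ₁ hψ).one_ne_zero
    have hval : ∀ φ ∈ S₀, τ₁ φ 1 = d φ * e / d ψ := by
      intro φ hφ
      have h1 := cross_values hτ₁ h0 hφ hψ (hdS φ hφ) (hdS ψ hψ)
      rw [he] at h1
      have : (d ψ : ℂ) ≠ 0 := by exact_mod_cast (dpos ψ hψ).ne'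
      field_simp
      linear_combination h1
    have h10 : (∑ φ ∈ S₀, (c φ : ℝ) * d φ) = 0 := by
      have h11 : (∑ φ ∈ S₀, (c φ : ℂ) * (d φ * e / d ψ)) = 0 := by
        rw [← hβ1, hβsum, Finset.sum_apply]
        apply Finset.sum_congr rfl
        intro φ hφ
        rw [Pi.smul_apply, zsmul_eq_mul, hval φ hφ]
      have h12 : (∑ φ ∈ S₀, (c φ : ℂ) * d φ) * (e / d ψ) = 0 := by
        rw [Finset.sum_mul, ← h11]
        apply Finset.sum_congr rfl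
        intro φ _
        ring
      have h13 : (d ψ : ℂ) ≠ 0 := by exact_mod_cast (dpos ψ hψ).ne'
      have h14 := (mul_eq_zero.mp h12).resolve_right (div_ne_zero he0 h13)
      exact_mod_cast h14
    have h15 : (∑ φ ∈ S₀, (c φ : ℝ) * d φ) = m / d ψ * T - a * d ψ := by
      have h1 : ∀ φ ∈ S₀, (c φ : ℝ) * d φ =
          (m : ℝ) / d ψ * ((d φ : ℝ) ^ 2) + (if φ = ψ then (- a * d ψ : ℝ) else 0) := by
        intro φ hφ
        rw [hcr φ hφ]
        split_ifs with h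
        · subst h
          field_simp
          ring
        · field_simp
          ring
      rw [Finset.sum_congr rfl h1, Finset.sum_add_distrib, ← Finset.mul_sum,
        Finset.sum_ite_eq' S₀ ψ, if_pos hψ]
      ring
    rw [h10] at h15
    have h16 : (m : ℝ) * T = a * (d ψ : ℝ) ^ 2 := by
      field_simp at h15
      linear_combination -h15
    have haR : (0 : ℝ) < a := by exact_mod_cast hapos
    have hTpos : 0 < T := lt_trans (by positivity) hTlt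
    have hmp : (0 : ℝ) < m := by
      by_contra hcon
      push Not at hcon
      have : (m : ℝ) * T ≤ 0 := mul_nonpos_of_nonpos_of_nonneg hcon hTpos.le
      have h17 : 0 < (a : ℝ) * (d ψ : ℝ) ^ 2 := by positivity
      linarith
    have hm1 : (1 : ℝ) ≤ m := by
      have : 0 < m := by exact_mod_cast hmp
      exact_mod_cast this
    have h18 : T ≤ m * T := le_mul_of_one_le_left hTpos.le hm1
    have h19 : 0 < (a : ℝ) * (d ψ : ℝ) ^ 2 := by positivity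
    linarith
  -- the new image
  have hc1 : c ψ = - a := by rw [hm0] at hm; linarith
  have hc0 : ∀ φ ∈ S₀, φ ≠ ψ → c φ = 0 := by
    intro φ hφ hne
    have h1 := hrel φ hφ
    rw [if_neg hne, hm0] at h1
    have h2 : (d ψ : ℤ) ≠ 0 := by exact_mod_cast (dpos ψ hψ).ne'
    have h3 : (d ψ : ℤ) * c φ = 0 := by linarith
    exact (mul_eq_zero.mp h3).resolve_left h2
  set Z : G → ℂ := β + (a : ℤ) • τ₁ ψ with hZ
  have hZgc : IsGeneralizedCharacter G Z := gc_add hβgc (gc_zsmul (hτ₁gc ψ hψ) a)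
  have hZφ : ∀ φ ∈ S₀, classInner (τ₁ φ) Z = 0 := by
    intro φ hφ
    rw [gc_inner_comm (hτ₁gc φ hφ) hZgc, hZ, classInner_add_left, classInner_zsmul_left, hc φ hφ]
    by_cases h : φ = ψ
    · subst h
      rw [hc1, hselfn φ hφ]; push_cast; ring
    · rw [hc0 φ hφ h, horthn ψ hψ φ hφ (Ne.symm h)]; simp
  have hZn : classInner Z Z = classInner χ χ := by
    have h1 : classInner Z Z = classInner Z β + ((a : ℤ) : ℂ) * classInner Z (τ₁ ψ) := by
      conv_lhs => arg 2; rw [hZ]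
      rw [classInner_add_right, classInner_zsmul_right]
    have h2 : classInner Z (τ₁ ψ) = 0 := by
      rw [gc_inner_comm hZgc (hτ₁gc ψ hψ), hZφ ψ hψ]
    rw [h1, h2, hZ, classInner_add_left, classInner_zsmul_left,
      gc_inner_comm (hτ₁gc ψ hψ) hβgc, hc ψ hψ, hc1, hβn, hχ.classInner_self]
    push_cast; ring
  have hsubχ : ({χ} : Set (N → ℂ)) ⊆ ↑(insert χ S₀) := by simp
  have hτB : IsLinearIsometryOn (zspanOn ({χ} : Set (N → ℂ)) {1}ᶜ) τ :=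
    li_mono (fun α hα => zspanOn_mono hsubχ hα) hτ
  have hχ10 : χ 1 ≠ 0 := hχ.one_ne_zero
  have hpi := pivot_inner hτB (χ₁ := χ) (by simp) hχ10 (X₁ := Z) (by
    intro θ hθ'
    rw [Set.mem_singleton_iff.mp hθ']
    refine ⟨1, by simp, ?_⟩
    rw [one_smul, sub_self, li_zero (isZMod_zspanOn _) hτ]; simp)
  obtain ⟨ρ, hρ, hρτ, hρχ⟩ := pivot_extension hτB (χ₁ := χ) (by simp) hχ10 (by
    intro θ hθ'
    rw [Set.mem_singleton_iff.mp hθ']
    exact ⟨1, by simp⟩) hZgc hZn hpi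
  obtain ⟨υ, hυ, hυτ, -⟩ := bridge_extension (A := (↑S₀ : Set (N → ℂ))) (B := {χ})
    (σ := τ₁) (ρ := ρ) (τ := τ)
    (by
      intro φ hφ x hx
      rw [Set.mem_singleton_iff.mp hx]
      exact horth' φ hφ)
    (fun φ hφ => ⟨d φ, by rw [hdS φ hφ]; simp⟩)
    (by
      intro x hx
      exact ⟨d χ, by rw [Set.mem_singleton_iff.mp hx, hdχ]; simp⟩)
    hτ₁ hρ (by
      intro φ hφ x hx
      rw [Set.mem_singleton_iff.mp hx, hρχ, hZφ φ hφ]) (by rw [← hunion]; exact hτ) hag hρτ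
    (x₀ := (a : ℤ) • ψ) (y₀ := χ)
    (zspan_zsmul _ (subset_zspan hψ))
    (subset_zspan (by simp))
    (by
      rw [Pi.smul_apply, zsmul_eq_mul, hdχ, hdS ψ hψ, ha]; push_cast; ring)
    (by
      have : ((a : ℤ) • ψ) 1 = χ 1 := by
        rw [Pi.smul_apply, zsmul_eq_mul, hdχ, hdS ψ hψ, ha]; push_cast; ring
      rw [this]; exact hχ10)
    (by
      rw [← neg_sub, li_neg hτ hθ, ← hβdef, hρχ,
        hτ₁.2.1 _ (subset_zspan hψ), hZ]
      abel)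
  rw [hunion]
  exact ⟨⟨α₀, zspanOn_mono Set.subset_union_left hα₀, hα₀'⟩, υ, hυ, hυτ⟩

end Cfsg.Agent.S1530
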