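import Cfsg.Statements.S1531
import Cfsg.Agent.Lib.CoherenceIrr

set_option autoImplicit false
open Cfsg
open Cfsg.Agent.Lib.CharBasic Cfsg.Agent.Lib.Coherence Cfsg.Agent.Lib.CoherenceSys
open Cfsg.Agent.Lib.CoherenceIrr

namespace Cfsg.Agent.S1531

/-- Let N be a subgroup of the finite group G, S a set of irreducible characters of N, and α a linear isometry on the integer combinations of S vanishing at 1 with values virtual characters of G vanishing at 1. Let X, Y ⊆ S be disjoint, each with at least two members, and σ, τ linear isometries on ℤ[X], ℤ[Y] into virtual characters agreeing with α on the members vanishing at 1. Then ⟨σ χ, τ η⟩ = 0 for χ ∈ X, η ∈ Y; and if for some χ₀ ∈ X, η₀ ∈ Y with degrees c = χ₀ 1, e = η₀ 1 one has α (c • η₀ − e • χ₀) = c • τ η₀ − e • σ χ₀, then (X ∪ Y, N minus 1, α) is coherent. -/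
theorem result {G : Type*} [Group G] [Fintype G] (N : Subgroup G) [Fintype N] (S X Y : Set (N → ℂ)) (hirr : ∀ ξ ∈ S, Cfsg.IsIrrCharacter N ξ) (hXS : X ⊆ S) (hYS : Y ⊆ S) (hXY : Disjoint X Y) (hX2 : ∃ a ∈ X, ∃ b ∈ X, a ≠ b) (hY2 : ∃ a ∈ Y, ∃ b ∈ Y, a ≠ b) (α : (N → ℂ) → (G → ℂ)) (hα : Cfsg.IsLinearIsometryOn (Cfsg.zspanOn S {1}ᶜ) α) (hα1 : ∀ θ ∈ Cfsg.zspanOn S {1}ᶜ, α θ 1 = 0) (σ τ : (N → ℂ) → (G → ℂ)) (hσ : Cfsg.IsLinearIsometryOn (Cfsg.zspan X) σ) (hσα : ∀ θ ∈ Cfsg.zspanOn X {1}ᶜ, σ θ = α θ) (hτ : Cfsg.IsLinearIsometryOn (Cfsg.zspan Y) τ) (hτα : ∀ θ ∈ Cfsg.zspanOn Y {1}ᶜ, τ θ = α θ) : (∀ χ ∈ X, ∀ η ∈ Y, Cfsg.classInner (σ χ) (τ η) = 0) ∧ ((∃ χ₀ ∈ X, ∃ η₀ ∈ Y, α (χ₀ 1 • η₀ - η₀ 1 • χ₀) = χ₀ 1 • τ η₀ - η₀ 1 • σ χ₀) → Cfsg.IsCoherent (X ∪ Y) {1}ᶜ α) := by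
  have hne : ∀ x ∈ X, ∀ y ∈ Y, x ≠ y := fun x hx y hy h =>
    (Set.disjoint_left.mp hXY hx) (h ▸ hy)
  have horth : ∀ x ∈ X, ∀ y ∈ Y, classInner x y = 0 := fun x hx y hy =>
    (hirr x (hXS hx)).classInner_eq_zero (hirr y (hYS hy)) (hne x hx y hy)
  have other : ∀ (Z : Set (N → ℂ)), (∃ a ∈ Z, ∃ b ∈ Z, a ≠ b) → ∀ x ∈ Z, ∃ x' ∈ Z, x' ≠ x := by
    rintro Z ⟨a, ha, b, hb, hab⟩ x hx
    by_cases h : a = x
    · exact ⟨b, hb, fun h' => hab (by rw [h, h'])⟩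
    · exact ⟨a, ha, h⟩
  have hirrX : ∀ x ∈ X, IsIrrCharacter N x := fun x hx => hirr x (hXS hx)
  have hirrY : ∀ y ∈ Y, IsIrrCharacter N y := fun y hy => hirr y (hYS hy)
  have h0X : ∀ θ ∈ zspanOn X {1}ᶜ, σ θ 1 = 0 := fun θ hθ => by
    rw [hσα θ hθ]; exact hα1 θ (zspanOn_mono hXS hθ)
  have h0Y : ∀ θ ∈ zspanOn Y {1}ᶜ, τ θ 1 = 0 := fun θ hθ => by
    rw [hτα θ hθ]; exact hα1 θ (zspanOn_mono hYS hθ)
  have part1 : ∀ χ ∈ X, ∀ η ∈ Y, classInner (σ χ) (τ η) = 0 := by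
    intro χ hχ η hη
    obtain ⟨χ', hχ', hχne⟩ := other X hX2 χ hχ
    obtain ⟨η', hη', hηne⟩ := other Y hY2 η hη
    obtain ⟨a, ha, ha'⟩ := (hirrX χ hχ).exists_degree
    obtain ⟨b, hb, hb'⟩ := (hirrX χ' hχ').exists_degree
    obtain ⟨c, hc, hc'⟩ := (hirrY η hη).exists_degree
    obtain ⟨d, hd, hd'⟩ := (hirrY η' hη').exists_degree
    have m1 := cross_mem hχ hχ' ha' hb'
    have m2 := cross_mem hη hη' hc' hd'
    have e1 := cross_values hσ h0X hχ hχ' ha' hb'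
    have e2 := cross_values hτ h0Y hη hη' hc' hd'
    have i1 : classInner (σ ((b : ℤ) • χ - (a : ℤ) • χ')) (τ ((d : ℤ) • η - (c : ℤ) • η')) = 0 := by
      rw [hσα _ m1, hτα _ m2, hα.2.2.1 _ (zspanOn_mono hXS m1) _ (zspanOn_mono hYS m2)]
      exact zspan_orthogonal horth _ (mem_zspanOn.mp m1).1 _ (mem_zspanOn.mp m2).1
    rw [li_sub (isZMod_zspan _) hσ (zspan_zsmul _ (subset_zspan hχ))
      (zspan_zsmul _ (subset_zspan hχ')), hσ.2.1 _ (subset_zspan hχ),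
      hσ.2.1 _ (subset_zspan hχ'), li_sub (isZMod_zspan _) hτ (zspan_zsmul _ (subset_zspan hη))
      (zspan_zsmul _ (subset_zspan hη')), hτ.2.1 _ (subset_zspan hη),
      hτ.2.1 _ (subset_zspan hη')] at i1
    refine (four_orth (sirr_image hirrX hσ hχ) (sirr_image hirrX hσ hχ')
      (sirr_image hirrY hτ hη) (sirr_image hirrY hτ hη') (a := b) (b := a) (u := d) (v := c)
      (by exact_mod_cast hb.ne') (by exact_mod_cast ha.ne') (by exact_mod_cast hd.ne')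
      (by exact_mod_cast hc.ne') ?_ ?_ ?_ ?_ ?_).1
    · rw [hσ.2.2.1 _ (subset_zspan hχ) _ (subset_zspan hχ')]
      exact (hirrX χ hχ).classInner_eq_zero (hirrX χ' hχ') hχne.symm
    · rw [hτ.2.2.1 _ (subset_zspan hη) _ (subset_zspan hη')]
      exact (hirrY η hη).classInner_eq_zero (hirrY η' hη') hηne.symm
    · simp only [← Int.cast_smul_eq_zsmul ℂ, Int.cast_natCast] at i1
      exact_mod_cast i1
    · exact_mod_cast e1
    · exact_mod_cast e2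
  refine ⟨part1, ?_⟩
  rintro ⟨χ₀, hχ₀, η₀, hη₀, hbr⟩
  obtain ⟨c, hc, hc'⟩ := (hirrX χ₀ hχ₀).exists_degree
  obtain ⟨e, he, he'⟩ := (hirrY η₀ hη₀).exists_degree
  have hXYS : X ∪ Y ⊆ S := Set.union_subset hXS hYS
  rw [hc', he'] at hbr
  have z1 : (c : ℂ) • η₀ = (c : ℤ) • η₀ := by
    rw [← Int.cast_smul_eq_zsmul ℂ]; simp
  have z2 : (e : ℂ) • χ₀ = (e : ℤ) • χ₀ := by
    rw [← Int.cast_smul_eq_zsmul ℂ]; simp
  have z3 : (c : ℂ) • τ η₀ = (c : ℤ) • τ η₀ := by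
    rw [← Int.cast_smul_eq_zsmul ℂ]; simp
  have z4 : (e : ℂ) • σ χ₀ = (e : ℤ) • σ χ₀ := by
    rw [← Int.cast_smul_eq_zsmul ℂ]; simp
  rw [z1, z2, z3, z4] at hbr
  have hm : (c : ℤ) • η₀ - (e : ℤ) • χ₀ ∈ zspanOn S {1}ᶜ :=
    cross_mem (hYS hη₀) (hXS hχ₀) he' hc'
  obtain ⟨υ, hυ, hυα, -⟩ := bridge_extension (A := X) (B := Y) (σ := σ) (ρ := τ) (τ := α) horth
    (fun x hx => by
      obtain ⟨n, -, hn⟩ := (hirrX x hx).exists_degree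
      exact ⟨n, by rw [hn]; simp⟩)
    (fun x hx => by
      obtain ⟨n, -, hn⟩ := (hirrY x hx).exists_degree
      exact ⟨n, by rw [hn]; simp⟩)
    hσ hτ part1 (li_mono (fun θ hθ => zspanOn_mono hXYS hθ) hα) hσα hτα
    (x₀ := (e : ℤ) • χ₀) (y₀ := (c : ℤ) • η₀) (zspan_zsmul _ (subset_zspan hχ₀))
    (zspan_zsmul _ (subset_zspan hη₀)) (by simp [hc', he', mul_comm])
    (by
      simp only [Pi.smul_apply, zsmul_eq_mul, hc']
      have h1 : (c : ℂ) ≠ 0 := by exact_mod_cast hc.ne'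
      have h2 : (e : ℂ) ≠ 0 := by exact_mod_cast he.ne'
      push_cast
      exact mul_ne_zero h2 h1)
    (by
      rw [← neg_sub, li_neg hα hm, hbr, hσ.2.1 _ (subset_zspan hχ₀),
        hτ.2.1 _ (subset_zspan hη₀)]
      abel)
  obtain ⟨a, ha, b, hb, hab⟩ := hX2
  obtain ⟨a', ha0, ha'⟩ := (hirrX a ha).exists_degree
  obtain ⟨b', hb0, hb'⟩ := (hirrX b hb).exists_degree
  exact ⟨⟨_, zspanOn_mono Set.subset_union_left (cross_mem ha hb ha' hb'),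
    cross_ne (hirrX a ha) (hirrX b hb) hab hb0⟩, υ, hυ, hυα⟩

end Cfsg.Agent.S1531
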