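import Cfsg.Statements.S1532
import Cfsg.Agent.Lib.IrrCoh3
import Cfsg.Agent.S1522
import Cfsg.Agent.S1514

set_option autoImplicit false
open Cfsg

namespace Cfsg.Agent.S1532

open Cfsg.Agent.Lib.CharBasic Cfsg.Agent.Lib.Coherence Cfsg.Agent.Lib.SeqInd
open Cfsg.Agent.Lib.Sibley Cfsg.Agent.Lib.IrrCoh

theorem aux {G : Type*} [Group G] [Fintype G] (p : ℕ) [Fact p.Prime] (hp : p ≠ 2) (P : Sylow p G)
    (hna : ¬ IsMulCommutative (P : Subgroup G)) (hTI : IsTISubset ((P : Subgroup G) : Set G))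
    (N : Subgroup G) [Fintype N] (hN : Subgroup.normalizer ((P : Subgroup G) : Set G) = N)
    (hlt : (P : Subgroup G) < N)
    (hC : ∀ k ∈ (P : Subgroup G), k ≠ 1 → Subgroup.centralizer ({k} : Set G) ≤ (P : Subgroup G))
    (Z : Subgroup G) (hZ1 : Z ≠ ⊥)
    (hZP : ∀ z ∈ Z, z ∈ (P : Subgroup G) ∧ ∀ y ∈ (P : Subgroup G), z * y = y * z)
    (hZn : ∀ x ∈ N, ∀ z ∈ Z, x * z * x⁻¹ ∈ Z) :
    IsCoherent {χ : N → ℂ | IsIrrCharacter N χ ∧ ∃ z : N, (z : G) ∈ Z ∧ χ z ≠ χ 1} {1}ᶜ
      (fun α => indFun N α) := by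
  classical
  set K : Subgroup N := (P : Subgroup G).subgroupOf N with hK
  have hPN : (P : Subgroup G) ≤ N := by rw [← hN]; exact Subgroup.le_normalizer
  have hKn : K.Normal := by
    constructor
    intro k hk x
    have hx : (x : G) ∈ Subgroup.normalizer ((P : Subgroup G) : Set G) := by rw [hN]; exact x.2
    exact (Subgroup.mem_normalizer_iff.mp hx k).mp hk
  have hC' : ∀ k ∈ K, k ≠ 1 → Subgroup.centralizer ({k} : Set N) ≤ K := by
    intro k hk hk1 x hx
    apply hC (k : G) hk (fun h => hk1 (Subtype.ext h))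
    have := Subgroup.mem_centralizer_singleton_iff.mp hx
    exact Subgroup.mem_centralizer_singleton_iff.mpr (congrArg Subtype.val this)
  have hP1 : (P : Subgroup G) ≠ ⊥ := by
    intro h
    apply hZ1
    rw [eq_bot_iff]
    intro z hz
    rw [← h]; exact (hZP z hz).1
  have hKbot : K ≠ ⊥ := by
    intro h
    rw [hK, Subgroup.subgroupOf_eq_bot] at h
    apply hP1
    rw [eq_bot_iff]
    intro x hx
    exact h.le_bot ⟨hx, hPN hx⟩
  have hKtop : K ≠ ⊤ := by
    intro h
    rw [hK, Subgroup.subgroupOf_eq_top] at h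
    exact absurd h (not_le_of_gt hlt)
  have hcardP : Nat.card K = Nat.card P :=
    Nat.card_congr (Subgroup.subgroupOfEquivOfLe hPN).toEquiv
  have hpodd : Odd p := by
    rcases (Fact.out : p.Prime).eq_two_or_odd' with h | h
    · exact absurd h hp
    · exact h
  have hKodd : Odd (Nat.card K) := by
    rw [hcardP, P.card_eq_multiplicity]
    exact hpodd.pow
  have hidx : Odd K.index := by
    rw [← Nat.not_even_iff_odd, even_iff_two_dvd]
    intro h
    apply hna
    have h1 := comm_of_even_index K hC' h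
    constructor
    constructor
    rintro ⟨a, ha⟩ ⟨b, hb⟩
    apply Subtype.ext
    have := h1 ⟨a, hPN ha⟩ ha ⟨b, hPN hb⟩ hb
    exact congrArg (Subtype.val : N → G) this
  have hodd : Odd (Nat.card N) := by
    rw [← K.card_mul_index]; exact hKodd.mul hidx
  have hKnil : Group.IsNilpotent K := by
    have : Group.IsNilpotent (P : Subgroup G) := P.isPGroup'.isNilpotent
    exact (Group.isNilpotent_congr (Subgroup.subgroupOfEquivOfLe hPN)).mpr this
  have hKsolv : Group.IsSolvable K := inferInstance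
  have hKnt : Nontrivial K := (Subgroup.nontrivial_iff_ne_bot K).mpr hKbot
  have hKK : ⁅K, K⁆ < K := by
    have e1 : (commutator K).map K.subtype = ⁅K, K⁆ := by
      rw [commutator_def, Subgroup.map_commutator, ← MonoidHom.range_eq_map,
        Subgroup.range_subtype]
    rw [lt_iff_le_not_ge]
    refine ⟨Subgroup.commutator_le_left K K, ?_⟩
    intro h
    have h1 := Group.IsSolvable.commutator_lt_top_of_nontrivial K
    apply h1.ne
    rw [eq_top_iff]
    intro x _
    have hx : (x : N) ∈ ⁅K, K⁆ := h x.2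
    rw [← e1] at hx
    obtain ⟨y, hy, hy2⟩ := hx
    have : y = x := Subtype.ext hy2
    rw [← this]; exact hy
  -- the coherence system
  have hirr : ∀ χ ∈ inducedIrrAbove K (⊥ : Subgroup N), IsIrrCharacter N χ := by
    rintro χ ⟨θ, hθ, h1, -, rfl⟩
    exact Lib.FrobInd.indFun_irr K hC' hθ h1
  have hconj := Cfsg.Agent.S1524.conj_ne_of_odd K hodd hKtop hC'
  obtain ⟨χe, hχe, -⟩ := above_nonempty K (⊥ : Subgroup N) (bot_lt_iff_ne_bot.mpr hKbot) hKsolv
  have hτ := ti_isometry (P : Subgroup G) N hTI hN (inducedIrrAbove K (⊥ : Subgroup N))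
    (fun φ h => gc_of_irr (hirr φ h)) (by
      rintro φ ⟨θ, hθ, h1, -, rfl⟩ x hx
      exact Lib.DadeAdj.indFun_off K _ hx)
  obtain ⟨R, hS⟩ := Cfsg.Agent.S1514.result (inducedIrrAbove K (⊥ : Subgroup N)) ⟨χe, hχe⟩ hirr
    (fun χ h => ⟨above_conj K h, hconj χ h⟩) (fun α : N → ℂ => indFun N α) hτ.1 hτ.2
  set Z' : Subgroup N := Z.subgroupOf N with hZ'
  have hZN : Z ≤ N := fun z hz => hPN (hZP z hz).1
  have hZ'n : Z'.Normal := ⟨fun z hz x => hZn x x.2 z hz⟩
  have h1 := Cfsg.Agent.S1522.result K hKsolv _ R hS hodd hKnil hKK (lt_top_iff_ne_top.mpr hKtop)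
    (frob_quot K ⁅K, K⁆ hKK.le hC') Z' (by
      intro h
      rw [hZ', Subgroup.subgroupOf_eq_bot] at h
      apply hZ1
      rw [eq_bot_iff]
      intro x hx
      exact h.le_bot ⟨hx, hZN hx⟩)
    (fun z hz => (hZP z hz).1) (fun z hz k hk => Subtype.ext ((hZP z hz).2 k hk))
    (fun χ hχ => hirr χ hχ.1)
  rw [h1.1] at h1
  exact h1.2

/-- Let G be a finite group, p an odd prime and P a Sylow p-subgroup that is non-abelian, whose underlying set is a TI-subset of G, with P properly contained in its set normaliser N and C_G(x) ≤ P for every non-identity x ∈ P. Let Z be a nontrivial subgroup of the centre of P normalised by N. Then the set of irreducible characters χ of N with χ z ≠ χ 1 for some z ∈ Z is coherent for the map induced by induction from N to G. -/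
theorem result {G : Type*} [Group G] [Fintype G] (p : ℕ) [Fact p.Prime] (hp : p ≠ 2) (P : Sylow p G) (hna : ¬ IsMulCommutative (P : Subgroup G)) (hTI : Cfsg.IsTISubset ((P : Subgroup G) : Set G)) (hlt : (P : Subgroup G) < Subgroup.normalizer ((P : Subgroup G) : Set G)) (hC : ∀ k ∈ (P : Subgroup G), k ≠ 1 → Subgroup.centralizer ({k} : Set G) ≤ (P : Subgroup G)) [Fintype ↥(Subgroup.normalizer ((P : Subgroup G) : Set G))] (Z : Subgroup G) (hZ1 : Z ≠ ⊥) (hZP : ∀ z ∈ Z, z ∈ (P : Subgroup G) ∧ ∀ y ∈ (P : Subgroup G), z * y = y * z) (hZn : ∀ x ∈ Subgroup.normalizer ((P : Subgroup G) : Set G), ∀ z ∈ Z, x * z * x⁻¹ ∈ Z) : Cfsg.IsCoherent {χ : ↥(Subgroup.normalizer ((P : Subgroup G) : Set G)) → ℂ | Cfsg.IsIrrCharacter ↥(Subgroup.normalizer ((P : Subgroup G) : Set G)) χ ∧ ∃ z : ↥(Subgroup.normalizer ((P : Subgroup G) : Set G)), (z : G) ∈ Z ∧ χ z ≠ χ 1} {1}ᶜ (fun α => Cfsg.indFun (Subgroup.normalizer ((P : Subgroup G) : Set G)) α) := by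
  exact aux p hp P hna hTI _ rfl hlt hC Z hZ1 hZP hZn

end Cfsg.Agent.S1532
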