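import Cfsg.Statements.S1533
import Cfsg.Agent.Lib.IrrCoh4

set_option autoImplicit false
open Cfsg

namespace Cfsg.Agent.S1533

/-- Let G be a finite group, p an odd prime, and P a nontrivial Sylow p-subgroup whose underlying set is a TI-subset of G, with P properly contained in its set normaliser N and C_G(x) ≤ P for every non-identity x ∈ P. Let S be the set of irreducible characters χ of N with χ x ≠ χ 1 for some x ∈ P. Then either S has exactly one member, P is elementary abelian and Nat.card P = [N:P] + 1; or (S, N minus 1, induction to G) is coherent. -/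
theorem result {G : Type*} [Group G] [Fintype G] (p : ℕ) [Fact p.Prime] (hp : p ≠ 2) (P : Sylow p G) (hP1 : (P : Subgroup G) ≠ ⊥) (hTI : Cfsg.IsTISubset ((P : Subgroup G) : Set G)) (hlt : (P : Subgroup G) < Subgroup.normalizer ((P : Subgroup G) : Set G)) (hC : ∀ k ∈ (P : Subgroup G), k ≠ 1 → Subgroup.centralizer ({k} : Set G) ≤ (P : Subgroup G)) [Fintype ↥(Subgroup.normalizer ((P : Subgroup G) : Set G))] : (Nat.card {χ : ↥(Subgroup.normalizer ((P : Subgroup G) : Set G)) → ℂ // Cfsg.IsIrrCharacter ↥(Subgroup.normalizer ((P : Subgroup G) : Set G)) χ ∧ ∃ x : ↥(Subgroup.normalizer ((P : Subgroup G) : Set G)), (x : G) ∈ (P : Subgroup G) ∧ χ x ≠ χ 1} = 1 ∧ Cfsg.IsElementaryAbelian p (P : Subgroup G) ∧ Nat.card (P : Subgroup G) = ((P : Subgroup G).subgroupOf (Subgroup.normalizer ((P : Subgroup G) : Set G))).index + 1) ∨ Cfsg.IsCoherent {χ : ↥(Subgroup.normalizer ((P : Subgroup G) : Set G)) → ℂ | Cfsg.IsIrrCharacter ↥(Subgroup.normalizer ((P : Subgroup G) : Set G)) χ ∧ ∃ x :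 ↥(Subgroup.normalizer ((P : Subgroup G) : Set G)), (x : G) ∈ (P : Subgroup G) ∧ χ x ≠ χ 1} {1}ᶜ (fun α => Cfsg.indFun (Subgroup.normalizer ((P : Subgroup G) : Set G)) α) := by
  have hpp : p.Prime := Fact.out
  have hcard : Nat.card (P : Subgroup G) = p ^ (Nat.card G).factorization p := P.card_eq_multiplicity
  have hf : (Nat.card G).factorization p ≠ 0 := by
    intro h
    rw [h, pow_zero, Subgroup.card_eq_one] at hcard
    exact hP1 hcard
  rcases Lib.IrrCoh.ti_feit (P : Subgroup G) _ hP1 P.isPGroup'.isNilpotent hTI rfl hlt hC with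
    h | ⟨h1, h2, h3⟩ | ⟨m, hm, -⟩
  · exact Or.inr h
  · exact Or.inl ⟨h1, h3 p hpp (by rw [hcard]; exact dvd_pow_self p hf), h2⟩
  · exfalso
    rw [hcard] at hm
    have h1 : p ∣ 2 ^ m := by rw [← hm]; exact dvd_pow_self p hf
    exact hp ((Nat.prime_dvd_prime_iff_eq hpp Nat.prime_two).mp (hpp.dvd_of_dvd_pow h1))

end Cfsg.Agent.S1533
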