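import Cfsg.Statements.S1534
import Cfsg.Agent.Lib.IrrCoh4

set_option autoImplicit false
open Cfsg

namespace Cfsg.Agent.S1534

/-- Let G be a finite group and K a nontrivial nilpotent subgroup whose underlying set is a TI-subset of G, properly contained in its set normaliser N, with C_G(k) ≤ K for every non-identity k ∈ K; let e be the index of K in N and S the set of irreducible characters χ of N with χ k ≠ χ 1 for some k ∈ K. Then one of: S has exactly one member, Nat.card K = e + 1 and K is an elementary abelian p-group for some prime p; or K is a Sylow 2-subgroup of G (Nat.card K is the largest power of 2 dividing Nat.card G) and [K : [K,K]] < 4e²; or (S, N minus 1, induction to G) is coherent. -/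
theorem result {G : Type*} [Group G] [Fintype G] (K : Subgroup G) (hK1 : K ≠ ⊥) (hnil : Group.IsNilpotent K) (hTI : Cfsg.IsTISubset (K : Set G)) (hlt : K < Subgroup.normalizer (K : Set G)) (hC : ∀ k ∈ K, k ≠ 1 → Subgroup.centralizer ({k} : Set G) ≤ K) [Fintype ↥(Subgroup.normalizer (K : Set G))] : (Nat.card {χ : ↥(Subgroup.normalizer (K : Set G)) → ℂ // Cfsg.IsIrrCharacter ↥(Subgroup.normalizer (K : Set G)) χ ∧ ∃ k : ↥(Subgroup.normalizer (K : Set G)), (k : G) ∈ K ∧ χ k ≠ χ 1} = 1 ∧ Nat.card K = (K.subgroupOf (Subgroup.normalizer (K : Set G))).index + 1 ∧ ∃ p : ℕ, p.Prime ∧ Cfsg.IsElementaryAbelian p K) ∨ (Nat.card K = 2 ^ (Nat.card G).factorization 2 ∧ (⁅K, K⁆.subgroupOf K).index < 4 * (K.subgroupOf (Subgroup.normalizer (K : Set G))).index ^ 2) ∨ Cfsg.IsCoherent {χ : ↥(Subgroup.normalizer (K : Set G)) → ℂ | Cfsg.IsIrrCharacter ↥(Subgroup.normalizer (K : Set G)) χ ∧ ∃ k : ↥(Subgroup.normalizer (K : Set G)), (k : G) ∈ K ∧ χ k ≠ χ 1} {1}ᶜ (fun α => Cfsg.indFun (Subgroup.normalizer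 (K : Set G)) α) := by
  rcases Lib.IrrCoh.ti_feit K _ hK1 hnil hTI rfl hlt hC with h | ⟨h1, h2, h3⟩ | ⟨m, hm, hidx, hlt'⟩
  · exact Or.inr (Or.inr h)
  · left
    refine ⟨h1, h2, ?_⟩
    have h4 : Nat.card K ≠ 1 := by rw [Ne, Subgroup.card_eq_one]; exact hK1
    obtain ⟨p, hp, hpd⟩ := Nat.exists_prime_and_dvd h4
    exact ⟨p, hp, h3 p hp hpd⟩
  · right; left
    refine ⟨?_, hlt'⟩
    have : Fact (Nat.Prime 2) := ⟨Nat.prime_two⟩
    have h0 : Nat.card G ≠ 0 := Nat.card_pos.ne'
    have h5 : 2 ^ m ∣ Nat.card G := by rw [← hm]; exact Subgroup.card_subgroup_dvd_card K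
    have h6 : ¬ 2 ^ (m + 1) ∣ Nat.card G := by
      intro h
      exact hidx (Sylow.prime_dvd_card_quotient_normalizer h hm)
    have h7 : m ≤ (Nat.card G).factorization 2 :=
      (Nat.Prime.pow_dvd_iff_le_factorization Nat.prime_two h0).mp h5
    have h8 : ¬ m + 1 ≤ (Nat.card G).factorization 2 := fun h =>
      h6 ((Nat.Prime.pow_dvd_iff_le_factorization Nat.prime_two h0).mpr h)
    have h9 : m = (Nat.card G).factorization 2 := by omega
    rw [hm, ← h9]

end Cfsg.Agent.S1534
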