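import Cfsg.Statements.S1554
import Cfsg.Agent.Lib.GolayOctadA8

set_option autoImplicit false
open scoped Pointwise
open Cfsg

namespace Cfsg.Agent.S1554

/-- An octad stabiliser is a split extension: the joint stabiliser of the octad and a point outside it is a complement to the pointwise stabiliser of the octad, and is isomorphic to the alternating group of degree 8. -/
theorem result (o : Finset Cfsg.GolayPt) (ho : o ∈ Cfsg.octads) (p : Cfsg.GolayPt) (hp : p ∉ o) : (Cfsg.M24 ⊓ fixingSubgroup (Equiv.Perm Cfsg.GolayPt) (o : Set Cfsg.GolayPt)) ⊓ (Cfsg.M24 ⊓ MulAction.stabilizer (Equiv.Perm Cfsg.GolayPt) o ⊓ MulAction.stabilizer (Equiv.Perm Cfsg.GolayPt) p) = ⊥ ∧ (Cfsg.M24 ⊓ fixingSubgroup (Equiv.Perm Cfsg.GolayPt) (o : Set Cfsg.GolayPt)) ⊔ (Cfsg.M24 ⊓ MulAction.stabilizer (Equiv.Perm Cfsg.GolayPt) o ⊓ MulAction.stabilizer (Equiv.Perm Cfsg.GolayPt) p) = (Cfsg.M24 ⊓ MulAction.stabilizer (Equiv.Perm Cfsg.GolayPt)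 o) ∧ Nonempty (↥(Cfsg.M24 ⊓ MulAction.stabilizer (Equiv.Perm Cfsg.GolayPt) o ⊓ MulAction.stabilizer (Equiv.Perm Cfsg.GolayPt) p) ≃* alternatingGroup (Fin 8)) := by
  exact Cfsg.Agent.Lib.Golay.octad_complement o ho p hp

end Cfsg.Agent.S1554
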