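import Cfsg.Statements.S1557
import Cfsg.Agent.Lib.GolayTrioEnum

set_option autoImplicit false
open scoped Pointwise
open Cfsg

namespace Cfsg.Agent.S1557

/-- The complement of the union of two disjoint octads is an octad, and the code has exactly 3795 trios of pairwise disjoint octads. -/
theorem result : (∀ o o' : Finset Cfsg.GolayPt, o ∈ Cfsg.octads → o' ∈ Cfsg.octads → Disjoint o o' → (o ∪ o')ᶜ ∈ Cfsg.octads) ∧ Cfsg.trios.ncard = 3795 := by
  exact ⟨fun o o' ho ho' h => Cfsg.Agent.Lib.Golay.compl_octad ho ho' h, Cfsg.Agent.Lib.Golay.ncard_trios⟩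

end Cfsg.Agent.S1557
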