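import Cfsg.Statements.S1568
import Cfsg.Agent.Lib.LeechCount2
import Cfsg.Agent.Lib.LeechXi

set_option autoImplicit false
open Cfsg

namespace Cfsg.Agent.S1568

open Cfsg Cfsg.Agent.Lib.Golay Cfsg.Agent.Lib.LeechMin Cfsg.Agent.Lib.LeechCount Cfsg.Agent.Lib.LeechXi

theorem cnt_a : cnt {0, 2, -2} 1024 (2 ^ 62) 48 = 5275648 := by decide +kernel
theorem cnt_b : 16773120 - cnt ((box 6).filter fun v => v ≠ 3 ∧ v ≠ -3) 1024 (2 ^ 62) 48 = 8290304 := by decide +kernel
theorem cnt_c : 16773120 - cnt ((box 6).filter fun v => v ≠ 4 ∧ v ≠ -4) 1024 (2 ^ 62) 48 = 3108864 := by decide +kernel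
theorem cnt_d : 16773120 - cnt ((box 6).filter fun v => v ≠ 5 ∧ v ≠ -5) 1024 (2 ^ 62) 48 = 98304 := by decide +kernel

theorem one (x : GolayPt → ℤ) (hn : sqNorm x = 48) (s : ℕ) :
    (∃ i, |x i| = (s : ℤ)) ↔ ∃ i, x i ∉ (box 6).filter fun v => v ≠ (s : ℤ) ∧ v ≠ -(s : ℤ) := by
  have hbox := mem_box_of_norm (b := 6) (N := 48) hn (by norm_num)
  apply exists_congr
  intro i
  rw [Finset.mem_filter]
  rw [abs_eq (Int.natCast_nonneg s)]
  constructor
  · intro h hh
    omega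
  · intro hi
    have := hbox i
    by_contra hcon
    exact hi ⟨this, by omega, by omega⟩

theorem three (x : GolayPt → ℤ) (hx : x ∈ leechLattice) (hn : sqNorm x = 48) {i : GolayPt} (h3 : |x i| = 3) :
    ∃ i j k, i ≠ j ∧ j ≠ k ∧ i ≠ k ∧ |x i| = 3 ∧ |x j| = 3 ∧ |x k| = 3 := by
  classical
  have hodd : ∀ j, x j % 2 = 1 := by
    intro j
    obtain ⟨m, A, k, w, hA, hk, hw⟩ := exists_rep hx
    have h1 := hk i
    have h2 := hk j
    have h4 := chi_cases A i
    have h5 := chi_cases A j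
    rcases (abs_eq (by norm_num : (0 : ℤ) ≤ 3)).1 h3 with h | h <;> omega
  have hge : ∀ j, |x j| ≠ 3 → x j ^ 2 - 1 = 0 ∨ 24 ≤ x j ^ 2 - 1 := by
    intro j hj
    have h1 := hodd j
    have h2 : |x j| = 1 ∨ 5 ≤ |x j| := by
      rcases abs_cases (x j) with ⟨h, h'⟩ | ⟨h, h'⟩ <;> rw [h] at hj ⊢ <;> omega
    rcases h2 with h2 | h2
    · left; rw [← sq_abs, h2]; norm_num
    · right; rw [← sq_abs]; nlinarith
  have hsum : ∑ j, (x j ^ 2 - 1) = 24 := by
    rw [Finset.sum_sub_distrib]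
    have : ∑ j, x j ^ 2 = 48 := hn
    rw [this, Finset.sum_const, Finset.card_univ, card_pt]; norm_num
  have hnn : ∀ j, 0 ≤ x j ^ 2 - 1 := by
    intro j
    by_cases h : |x j| = 3
    · rw [← sq_abs, h]; norm_num
    · rcases hge j h with h | h <;> omega
  have h33 : x i ^ 2 - 1 = 8 := by rw [← sq_abs, h3]; norm_num
  have hz : ∀ j, |x j| ≠ 3 → x j ^ 2 - 1 = 0 := by
    intro j hj
    rcases hge j hj with h | h
    · exact h
    · exfalso
      have hij : i ≠ j := by rintro rfl; exact hj h3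
      have h5 : ∑ l ∈ ({i, j} : Finset GolayPt), (x l ^ 2 - 1) ≤ ∑ l, (x l ^ 2 - 1) :=
        Finset.sum_le_sum_of_subset_of_nonneg (Finset.subset_univ _) fun l _ _ => hnn l
      rw [Finset.sum_pair hij] at h5
      omega
  have hcard : (Finset.univ.filter fun j => |x j| = 3).card = 3 := by
    have h6 : ∑ j, (x j ^ 2 - 1) = ∑ j ∈ Finset.univ.filter (fun j => |x j| = 3), (8 : ℤ) := by
      rw [Finset.sum_filter]
      apply Finset.sum_congr rfl
      intro j _
      split_ifs with h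
      · rw [← sq_abs, h]; norm_num
      · exact hz j h
    rw [hsum, Finset.sum_const, nsmul_eq_mul] at h6
    omega
  obtain ⟨a, b, c, hab, hac, hbc, h⟩ := Finset.card_eq_three.1 hcard
  have hm : ∀ l ∈ ({a, b, c} : Finset GolayPt), |x l| = 3 := by
    intro l hl
    rw [← h, Finset.mem_filter] at hl
    exact hl.2
  exact ⟨a, b, c, hab, hbc, hac, hm a (by simp), hm b (by simp), hm c (by simp)⟩


/-- Shape census of the lattice vectors of sum of squares 48 (customary norm 6): the four families (2^12, 0^12), (±3^3, ±1^21), (±4, ±2^8, 0^15) and (±5, ±1^23) have 5275648, 8290304, 3108864 and 98304 members. -/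
theorem result : {x : Cfsg.GolayPt → ℤ | x ∈ Cfsg.leechLattice ∧ Cfsg.sqNorm x = 48 ∧ ∀ i, x i = 0 ∨ x i = 2 ∨ x i = -2}.ncard = 5275648 ∧ {x : Cfsg.GolayPt → ℤ | x ∈ Cfsg.leechLattice ∧ Cfsg.sqNorm x = 48 ∧ ∃ i j k, i ≠ j ∧ j ≠ k ∧ i ≠ k ∧ |x i| = 3 ∧ |x j| = 3 ∧ |x k| = 3}.ncard = 8290304 ∧ {x : Cfsg.GolayPt → ℤ | x ∈ Cfsg.leechLattice ∧ Cfsg.sqNorm x = 48 ∧ ∃ i, |x i| = 4}.ncard = 3108864 ∧ {x : Cfsg.GolayPt → ℤ | x ∈ Cfsg.leechLattice ∧ Cfsg.sqNorm x = 48 ∧ ∃ i, |x i| = 5}.ncard = 98304 := by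
  refine ⟨?_, ?_, ?_, ?_⟩
  · rw [← cnt_a]
    rw [← ncard_norm_box (N := 48) (b := 6) (by norm_num) (by norm_num) (by norm_num) card_box6 (by norm_num)
      (bx := {0, 2, -2}) (by decide +kernel)]
    congr 1
    ext x
    simp only [Set.mem_ofPred_eq, Finset.mem_insert, Finset.mem_singleton, Nat.cast_ofNat]
  · rw [ncard_norm48_exists ((box 6).filter fun v => v ≠ 3 ∧ v ≠ -3) (Finset.filter_subset _ _), cnt_b]
    intro x hx hn
    have hbox := mem_box_of_norm (b := 6) (N := 48) hn (by norm_num)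
    constructor
    · rintro ⟨i, j, k, -, -, -, h, -, -⟩
      refine ⟨i, fun hh => ?_⟩
      rw [Finset.mem_filter] at hh
      rw [abs_eq (by norm_num)] at h
      omega
    · rintro ⟨i, hi⟩
      have h3 : |x i| = 3 := by
        rw [Finset.mem_filter] at hi
        rw [abs_eq (by norm_num)]
        have := hbox i
        by_contra hcon
        exact hi ⟨this, by omega, by omega⟩
      exact three x hx hn h3
  · rw [ncard_norm48_exists ((box 6).filter fun v => v ≠ 4 ∧ v ≠ -4) (Finset.filter_subset _ _), cnt_c]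
    intro x hx hn
    exact one x hn 4
  · rw [ncard_norm48_exists ((box 6).filter fun v => v ≠ 5 ∧ v ≠ -5) (Finset.filter_subset _ _), cnt_d]
    intro x hx hn
    exact one x hn 5

end Cfsg.Agent.S1568
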