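import Cfsg.Statements.S1577
import Cfsg.Agent.Lib.H8LU62M

set_option autoImplicit false
open Cfsg

namespace Cfsg.Agent.S1577

/-- The joint stabiliser of two minimal vectors of customary inner product −2 is isomorphic to PSU(6, 2). -/
theorem result (v w : ↥Cfsg.leechLattice) (hv : Cfsg.sqNorm (v : Cfsg.GolayPt → ℤ) = 32) (hw : Cfsg.sqNorm (w : Cfsg.GolayPt → ℤ) = 32) (hd : Cfsg.dotInt (v : Cfsg.GolayPt → ℤ) (w : Cfsg.GolayPt → ℤ) = -16) (F : Type) [Field F] [Fintype F] (hF : Fintype.card F = 4) : Nonempty (↥(MulAction.stabilizer ↥Cfsg.Co0 v ⊓ MulAction.stabilizer ↥Cfsg.Co0 w) ≃* Cfsg.PSU 6 F 2) := by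
  open Cfsg Cfsg.Agent.Lib Cfsg.Agent.Lib.LeechChain Cfsg.Agent.Lib.LeechCount Cfsg.Agent.Lib.H8LU in
  obtain ⟨k, h1, h2⟩ := H8LU62.std222 hv hw hd
  obtain ⟨e1⟩ := smul_fix_congr (k := k) [H8LU62.w0, X hab]
    (MulAction.stabilizer ↥Cfsg.Co0 v ⊓ MulAction.stabilizer ↥Cfsg.Co0 w) (by
      intro g
      rw [mem_fix2, conj_fix h1, conj_fix h2, Subgroup.mem_inf,
        MulAction.mem_stabilizer_iff, MulAction.mem_stabilizer_iff]
      tauto)
  obtain ⟨e2⟩ := H8LU62.main'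
  obtain ⟨e3⟩ := fieldEquiv (F := F) (E := K4.K4) (by rw [hF, H3F4.hF4]; norm_num)
  exact ⟨(e1.trans e2).trans ((H3Prj.equivPSU (n := 6) (F := K4.K4) (q := 2) H3F4.hF4 (by norm_num)).trans
    (SUTransport.psuEquiv e3 6 2).symm)⟩

end Cfsg.Agent.S1577
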