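import Cfsg.Statements.S1579
import Cfsg.Agent.Lib.LeechCo2b

set_option autoImplicit false
open Cfsg

namespace Cfsg.Agent.S1579

/-- The stabiliser of a vector of customary norm 6 is transitive on the 552 minimal vectors that complete it to a sum of two minimal vectors. -/
theorem result (u v v' : ↥Cfsg.leechLattice) (hu : Cfsg.sqNorm (u : Cfsg.GolayPt → ℤ) = 48) (hv : Cfsg.sqNorm (v : Cfsg.GolayPt → ℤ) = 32 ∧ Cfsg.sqNorm ((u - v) : Cfsg.GolayPt → ℤ) = 32) (hv' : Cfsg.sqNorm (v' : Cfsg.GolayPt → ℤ) = 32 ∧ Cfsg.sqNorm ((u - v') : Cfsg.GolayPt → ℤ) = 32) : ∃ g : ↥Cfsg.Co0, g • u = u ∧ g • v = v' := by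
  open Cfsg.Agent.Lib Cfsg.Agent.Lib.LeechCo2 in
  have key : ∀ x : leechLattice, sqNorm (x : GolayPt → ℤ) = 32 → sqNorm ((u - x : leechLattice) : GolayPt → ℤ) = 32 →
      dotInt (x : GolayPt → ℤ) ((u - x : leechLattice) : GolayPt → ℤ) = -8 := by
    intro x hx hx'
    have h := LeechMin.sqNorm_add (x : GolayPt → ℤ) ((u - x : leechLattice) : GolayPt → ℤ)
    have h2 : (x : GolayPt → ℤ) + ((u - x : leechLattice) : GolayPt → ℤ) = u := by
      rw [AddSubgroup.coe_sub]; abel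
    rw [h2, hx, hx', hu] at h
    linarith
  obtain ⟨k, hk⟩ := Cfsg.Agent.Lib.LeechTrans.transitive (v := v) (w := v') (by
    rintro rfl; simp [Cfsg.sqNorm] at hv) (by rw [hv.1]; norm_num) (hv.1.trans hv'.1.symm)
  have hk2 : sqNorm ((k • (u - v) : leechLattice) : GolayPt → ℤ) = 32 := by
    rw [Cfsg.Agent.Lib.LeechCo2.sqNorm_smul]; exact hv.2
  obtain ⟨h, h1, h2⟩ := Cfsg.Agent.Lib.LeechCo2.stab_trans8 (v := v') (w := k • (u - v)) (w' := u - v') hv'.1 hk2 hv'.2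
    (by rw [← hk, Cfsg.Agent.Lib.LeechCo2.dot_smul]; exact key v hv.1 hv.2) (key v' hv'.1 hv'.2)
  refine ⟨h * k, ?_, ?_⟩
  · have e : u = v + (u - v) := by abel
    conv_lhs => rw [e]
    rw [mul_smul, Cfsg.Agent.Lib.LeechTrans.smul_add', Cfsg.Agent.Lib.LeechTrans.smul_add', hk, h1, h2]
    abel
  · rw [mul_smul, hk, h1]

end Cfsg.Agent.S1579
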