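import Cfsg.Statements.S1580
import Cfsg.Agent.Lib.LeechChain3

set_option autoImplicit false
open Cfsg

namespace Cfsg.Agent.S1580

/-- The McLaughlin configuration: for u of customary norm 6 and v minimal with u − v minimal, there are 275 further such summands x of customary inner product 2 with v, permuted transitively by the stabiliser of u and v. -/
theorem result (u v : ↥Cfsg.leechLattice) (hu : Cfsg.sqNorm (u : Cfsg.GolayPt → ℤ) = 48) (hv : Cfsg.sqNorm (v : Cfsg.GolayPt → ℤ) = 32 ∧ Cfsg.sqNorm ((u - v) : Cfsg.GolayPt → ℤ) = 32) : {x : ↥Cfsg.leechLattice | Cfsg.sqNorm (x : Cfsg.GolayPt → ℤ) = 32 ∧ Cfsg.sqNorm ((u - x) : Cfsg.GolayPt → ℤ) = 32 ∧ Cfsg.dotInt (v : Cfsg.GolayPt → ℤ) (x : Cfsg.GolayPt → ℤ) = 16}.ncard = 275 ∧ ∀ x ∈ {x : ↥Cfsg.leechLattice | Cfsg.sqNorm (x : Cfsg.GolayPt → ℤ) = 32 ∧ Cfsg.sqNorm ((u - x) : Cfsg.GolayPt →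 ℤ) = 32 ∧ Cfsg.dotInt (v : Cfsg.GolayPt → ℤ) (x : Cfsg.GolayPt → ℤ) = 16}, ∀ x' ∈ {x : ↥Cfsg.leechLattice | Cfsg.sqNorm (x : Cfsg.GolayPt → ℤ) = 32 ∧ Cfsg.sqNorm ((u - x) : Cfsg.GolayPt → ℤ) = 32 ∧ Cfsg.dotInt (v : Cfsg.GolayPt → ℤ) (x : Cfsg.GolayPt → ℤ) = 16}, ∃ g : ↥Cfsg.Co0, g • u = u ∧ g • v = v ∧ g • x = x' := by
  open Cfsg Cfsg.Agent.Lib.LeechChain in
  have hv' : v ∈ cls [(u, 24)] 32 := by
    rw [← set552 hu]; exact hv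
  have hset : {x : ↥Cfsg.leechLattice | Cfsg.sqNorm (x : Cfsg.GolayPt → ℤ) = 32 ∧ Cfsg.sqNorm ((u - x) : Cfsg.GolayPt → ℤ) = 32 ∧ Cfsg.dotInt (v : Cfsg.GolayPt → ℤ) (x : Cfsg.GolayPt → ℤ) = 16} = cls [(v, 16), (u, 24)] 32 := by
    ext x
    rw [Set.mem_ofPred_eq, mem_cls2]
    refine and_congr_right fun hx => ?_
    rw [norm_sub_iff hu hx]
    constructor
    · rintro ⟨h1, h2⟩; exact ⟨h2, by omega⟩
    · rintro ⟨h1, h2⟩; exact ⟨by omega, h1⟩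
  rw [hset]
  exact ⟨count275 hu hv', fun x hx x' hx' => trans275 hu hv' hx hx'⟩

end Cfsg.Agent.S1580
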