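import Cfsg.Statements.S1581
import Cfsg.Agent.Lib.LeechChain3

set_option autoImplicit false
open Cfsg

namespace Cfsg.Agent.S1581

/-- The McLaughlin group acts with rank 3 and subdegrees 1, 112, 162 on its 275 points: the point stabiliser has two orbits on the remaining points, distinguished by customary inner product 1 or 2 with the fixed point. -/
theorem result (u v x : ↥Cfsg.leechLattice) (hu : Cfsg.sqNorm (u : Cfsg.GolayPt → ℤ) = 48) (hv : Cfsg.sqNorm (v : Cfsg.GolayPt → ℤ) = 32 ∧ Cfsg.sqNorm ((u - v) : Cfsg.GolayPt → ℤ) = 32) (hx : x ∈ {x : ↥Cfsg.leechLattice | Cfsg.sqNorm (x : Cfsg.GolayPt → ℤ) = 32 ∧ Cfsg.sqNorm ((u - x) : Cfsg.GolayPt → ℤ) = 32 ∧ Cfsg.dotInt (v : Cfsg.GolayPt → ℤ) (x : Cfsg.GolayPt → ℤ) = 16}) : {y : ↥Cfsg.leechLattice | y ∈ {x : ↥Cfsg.leechLattice | Cfsg.sqNorm (x : Cfsg.GolayPt → ℤ) = 32 ∧ Cfsg.sqNorm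 ((u - x) : Cfsg.GolayPt → ℤ) = 32 ∧ Cfsg.dotInt (v : Cfsg.GolayPt → ℤ) (x : Cfsg.GolayPt → ℤ) = 16} ∧ Cfsg.dotInt (x : Cfsg.GolayPt → ℤ) (y : Cfsg.GolayPt → ℤ) = 8}.ncard = 112 ∧ {y : ↥Cfsg.leechLattice | y ∈ {x : ↥Cfsg.leechLattice | Cfsg.sqNorm (x : Cfsg.GolayPt → ℤ) = 32 ∧ Cfsg.sqNorm ((u - x) : Cfsg.GolayPt → ℤ) = 32 ∧ Cfsg.dotInt (v : Cfsg.GolayPt → ℤ) (x : Cfsg.GolayPt → ℤ) = 16} ∧ y ≠ x ∧ Cfsg.dotInt (x : Cfsg.GolayPt → ℤ) (y : Cfsg.GolayPt → ℤ) = 16}.ncard = 162 ∧ ∀ y ∈ {x : ↥Cfsg.leechLattice | Cfsg.sqNorm (x : Cfsg.GolayPt → ℤ) = 32 ∧ Cfsg.sqNorm ((u - x) : Cfsg.GolayPt → ℤ) = 32 ∧ Cfsg.dotInt (v : Cfsg.GolayPt → ℤ) (x : Cfsg.GolayPt → ℤ) = 16}, ∀ y' ∈ {x : ↥Cfsg.leechLattice | Cfsg.sqNorm (x : Cfsg.GolayPt → ℤ) = 32 ∧ Cfsg.sqNorm ((u - x) : Cfsg.GolayPt → ℤ) = 32 ∧ Cfsg.dotInt (v : Cfsg.GolayPt → ℤ) (x : Cfsg.GolayPt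 → ℤ) = 16}, y ≠ x → y' ≠ x → Cfsg.dotInt (x : Cfsg.GolayPt → ℤ) (y : Cfsg.GolayPt → ℤ) = Cfsg.dotInt (x : Cfsg.GolayPt → ℤ) (y' : Cfsg.GolayPt → ℤ) → ∃ g : ↥Cfsg.Co0, g • u = u ∧ g • v = v ∧ g • x = x ∧ g • y = y' := by
  open Cfsg Cfsg.Agent.Lib.LeechChain in
  have hv' : v ∈ cls [(u, 24)] 32 := by
    rw [← set552 hu]; exact hv
  have hset : {x : ↥Cfsg.leechLattice | Cfsg.sqNorm (x : Cfsg.GolayPt → ℤ) = 32 ∧ Cfsg.sqNorm ((u - x) : Cfsg.GolayPt → ℤ) = 32 ∧ Cfsg.dotInt (v : Cfsg.GolayPt → ℤ) (x : Cfsg.GolayPt → ℤ) = 16} = cls [(v, 16), (u, 24)] 32 := by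
    ext x
    rw [Set.mem_ofPred_eq, mem_cls2]
    refine and_congr_right fun hx => ?_
    rw [norm_sub_iff hu hx]
    constructor
    · rintro ⟨h1, h2⟩; exact ⟨h2, by omega⟩
    · rintro ⟨h1, h2⟩; exact ⟨by omega, h1⟩
  rw [hset] at hx ⊢
  refine ⟨?_, ?_, ?_⟩
  · rw [← (count_rank3 hu hv' hx).1]
    congr 1
    ext y
    rw [Set.mem_ofPred_eq, mem_cls2, mem_cls3]
    tauto
  · rw [← (count_rank3 hu hv' hx).2]
    congr 1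
    ext y
    rw [Set.mem_ofPred_eq, mem_cls2, mem_cls3]
    constructor
    · rintro ⟨⟨h1, h2⟩, -, h3⟩; exact ⟨h1, h3, h2⟩
    · rintro ⟨h1, h3, h2⟩
      refine ⟨⟨h1, h2⟩, ?_, h3⟩
      rintro rfl
      rw [show dotInt (y : GolayPt → ℤ) (y : GolayPt → ℤ) = sqNorm (y : GolayPt → ℤ) by
        unfold dotInt sqNorm; exact Finset.sum_congr rfl fun i _ => by ring, h1] at h3
      norm_num at h3
  · intro y hy y' hy' hne hne' hd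
    rcases dots275 hu hv' hx hy hne with h | h
    · have h' : y' ∈ cls [(x, 8), (v, 16), (u, 24)] 32 := by
        rw [mem_cls3] at h ⊢
        rw [mem_cls2] at hy'
        exact ⟨hy'.1, by rw [← hd]; exact h.2.1, hy'.2⟩
      exact trans112 hu hv' hx h h'
    · have h' : y' ∈ cls [(x, 16), (v, 16), (u, 24)] 32 := by
        rw [mem_cls3] at h ⊢
        rw [mem_cls2] at hy'
        exact ⟨hy'.1, by rw [← hd]; exact h.2.1, hy'.2⟩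
      exact trans162 hu hv' hx h h'

end Cfsg.Agent.S1581
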