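import Cfsg.Statements.S1582
import Cfsg.Agent.Lib.H8LU43

set_option autoImplicit false
open Cfsg

namespace Cfsg.Agent.S1582

/-- The point stabiliser in the rank-3 action of the McLaughlin group on 275 points is isomorphic to PSU(4, 3). -/
theorem result (u v x : ↥Cfsg.leechLattice) (hu : Cfsg.sqNorm (u : Cfsg.GolayPt → ℤ) = 48) (hv : Cfsg.sqNorm (v : Cfsg.GolayPt → ℤ) = 32 ∧ Cfsg.sqNorm ((u - v) : Cfsg.GolayPt → ℤ) = 32) (hx : x ∈ {x : ↥Cfsg.leechLattice | Cfsg.sqNorm (x : Cfsg.GolayPt → ℤ) = 32 ∧ Cfsg.sqNorm ((u - x) : Cfsg.GolayPt → ℤ) = 32 ∧ Cfsg.dotInt (v : Cfsg.GolayPt → ℤ) (x : Cfsg.GolayPt → ℤ) = 16}) (F : Type) [Field F] [Fintype F] (hF : Fintype.card F = 9) : Nonempty (↥(MulAction.stabilizer ↥Cfsg.Co0 u ⊓ MulAction.stabilizer ↥Cfsg.Co0 v ⊓ MulAction.stabilizer ↥Cfsg.Co0 x) ≃* Cfsg.PSU 4 F 3) := by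
  open Cfsg Cfsg.Agent.Lib Cfsg.Agent.Lib.LeechChain Cfsg.Agent.Lib.H8LU in
  have hv' : v ∈ cls [(u, 24)] 32 := by
    rw [← set552 hu]; exact hv
  have hx' : x ∈ cls [(v, 16), (u, 24)] 32 := by
    rw [mem_cls2]
    obtain ⟨h1, h2, h3⟩ := hx
    rw [norm_sub_iff hu h1] at h2
    exact ⟨h1, h3, by omega⟩
  obtain ⟨k, h1, h2, h3⟩ := std223 hu hv' hx'
  obtain ⟨e1⟩ := smul_fix_congr (k := k) [X hac, X hab, U none]
    (MulAction.stabilizer ↥Cfsg.Co0 u ⊓ MulAction.stabilizer ↥Cfsg.Co0 v ⊓ MulAction.stabilizer ↥Cfsg.Co0 x) (by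
      intro g
      rw [mem_fix3, conj_fix h1, conj_fix h2, conj_fix h3, Subgroup.mem_inf, Subgroup.mem_inf,
        MulAction.mem_stabilizer_iff, MulAction.mem_stabilizer_iff, MulAction.mem_stabilizer_iff]
      tauto)
  obtain ⟨e2⟩ := H8LU43.iso
  obtain ⟨e3⟩ := fieldEquiv (F := F) (E := H58F9.F9) (by rw [hF, H8LU43.cF9]; norm_num)
  exact ⟨(e1.trans e2).trans ((H3Prj.equivPSU (n := 4) (F := H58F9.F9) (q := 3) H8LU43.cF9 (by norm_num)).trans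
    (SUTransport.psuEquiv e3 4 3).symm)⟩

end Cfsg.Agent.S1582
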