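import Cfsg.Statements.S1585
import Cfsg.Agent.Lib.LeechChain3

set_option autoImplicit false
open Cfsg

namespace Cfsg.Agent.S1585

/-- Two vectors of customary norm 6 with inner product −4 are exchanged by some automorphism of the lattice. -/
theorem result (v w : ↥Cfsg.leechLattice) (hv : Cfsg.sqNorm (v : Cfsg.GolayPt → ℤ) = 48) (hw : Cfsg.sqNorm (w : Cfsg.GolayPt → ℤ) = 48) (hvw : Cfsg.dotInt (v : Cfsg.GolayPt → ℤ) (w : Cfsg.GolayPt → ℤ) = -32) : ∃ g : ↥Cfsg.Co0, g • v = w ∧ g • w = v := by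
  open Cfsg Cfsg.Agent.Lib.LeechChain in
  exact hs_swap hv hw hvw

end Cfsg.Agent.S1585
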