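import Cfsg.Statements.S1587

set_option autoImplicit false
open Matrix
open Cfsg
namespace Cfsg.Agent.S1587

theorem symm_form (B : Matrix (Fin 24) (Fin 24) ℤ) (hsymm : B.IsSymm) (x y : Fin 24 → ℤ) :
    x ⬝ᵥ (B *ᵥ y) = y ⬝ᵥ (B *ᵥ x) := by
  rw [Matrix.dotProduct_mulVec, ← Matrix.mulVec_transpose, hsymm.eq, dotProduct_comm]

/-- First step of the characterisation of the rank-24 lattice: in an even lattice without roots, norm-8 vectors congruent modulo 2 are equal, opposite or orthogonal. -/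
theorem result (B : Matrix (Fin 24) (Fin 24) ℤ) (hsymm : B.IsSymm) (hpos : ∀ x : Fin 24 → ℤ, x ≠ 0 → 0 < x ⬝ᵥ (B *ᵥ x)) (heven : ∀ x : Fin 24 → ℤ, (2 : ℤ) ∣ x ⬝ᵥ (B *ᵥ x)) (h2 : ∀ x : Fin 24 → ℤ, x ⬝ᵥ (B *ᵥ x) ≠ 2) (x y : Fin 24 → ℤ) (hx : x ⬝ᵥ (B *ᵥ x) = 8) (hy : y ⬝ᵥ (B *ᵥ y) = 8) (hc : ∀ i, (2 : ℤ) ∣ (x - y) i) : y = x ∨ y = -x ∨ x ⬝ᵥ (B *ᵥ y) = 0 := by
  choose u hu using hc
  have hu' : x - y = (2 : ℤ) • u := by
    funext i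
    simpa using hu i
  set w : Fin 24 → ℤ := y + u with hw
  have hxe : x = u + w := by
    have : x = y + (2 : ℤ) • u := by rw [← hu']; abel
    rw [this, hw, two_smul]; abel
  have hye : y = w - u := by rw [hw]; abel
  have hs := symm_form B hsymm u w
  have e1 : u ⬝ᵥ (B *ᵥ u) + w ⬝ᵥ (B *ᵥ w) + 2 * (u ⬝ᵥ (B *ᵥ w)) = 8 := by
    rw [← hx, hxe]
    simp only [Matrix.mulVec_add, dotProduct_add, add_dotProduct]
    rw [symm_form B hsymm w u]; ring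
  have e2 : u ⬝ᵥ (B *ᵥ u) + w ⬝ᵥ (B *ᵥ w) - 2 * (u ⬝ᵥ (B *ᵥ w)) = 8 := by
    rw [← hy, hye]
    simp only [Matrix.mulVec_sub, dotProduct_sub, sub_dotProduct]
    rw [symm_form B hsymm w u]; ring
  have e3 : x ⬝ᵥ (B *ᵥ y) = w ⬝ᵥ (B *ᵥ w) - u ⬝ᵥ (B *ᵥ u) := by
    rw [hxe, hye]
    simp only [Matrix.mulVec_sub, dotProduct_sub, add_dotProduct]
    rw [symm_form B hsymm w u]; ring
  by_cases hu0 : u = 0
  · left; rw [hxe, hye, hu0]; abel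
  by_cases hw0 : w = 0
  · right; left; rw [hxe, hye, hw0]; abel
  right; right
  have p1 := hpos u hu0
  have p2 := hpos w hw0
  have n1 := h2 u
  have n2 := h2 w
  obtain ⟨a, ha⟩ := heven u
  obtain ⟨b, hb⟩ := heven w
  rw [e3]
  omega

end Cfsg.Agent.S1587
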