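import Cfsg.Statements.S1588

set_option autoImplicit false
open Matrix
open Cfsg
namespace Cfsg.Agent.S1588

theorem symm_form (B : Matrix (Fin 24) (Fin 24) ℤ) (hsymm : B.IsSymm) (x y : Fin 24 → ℤ) :
    x ⬝ᵥ (B *ᵥ y) = y ⬝ᵥ (B *ᵥ x) := by
  rw [Matrix.dotProduct_mulVec, ← Matrix.mulVec_transpose, hsymm.eq, dotProduct_comm]

/-- reduction modulo 2 -/
def red (y : Fin 24 → ℤ) : Fin 24 → ZMod 2 := fun i => (y i : ZMod 2)

theorem red_eq_iff (x y : Fin 24 → ℤ) : red x = red y ↔ ∀ i, (2 : ℤ) ∣ (x - y) i := by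
  unfold red
  rw [funext_iff]
  refine forall_congr' fun i => ?_
  rw [← sub_eq_zero, ← Int.cast_sub, ZMod.intCast_zmod_eq_zero_iff_dvd]
  rfl

section
variable (B : Matrix (Fin 24) (Fin 24) ℤ) (hsymm : B.IsSymm)
  (hpos : ∀ x : Fin 24 → ℤ, x ≠ 0 → 0 < x ⬝ᵥ (B *ᵥ x))
  (heven : ∀ x : Fin 24 → ℤ, (2 : ℤ) ∣ x ⬝ᵥ (B *ᵥ x))
  (h2 : ∀ x : Fin 24 → ℤ, x ⬝ᵥ (B *ᵥ x) ≠ 2)

include hsymm hpos heven h2 in
theorem key (x y : Fin 24 → ℤ) (hc : red x = red y) :
    y = x ∨ y = -x ∨ (16 ≤ x ⬝ᵥ (B *ᵥ x) + y ⬝ᵥ (B *ᵥ y) ∧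
      (x ⬝ᵥ (B *ᵥ x) + y ⬝ᵥ (B *ᵥ y) = 16 → x ⬝ᵥ (B *ᵥ y) = 0)) := by
  rw [red_eq_iff] at hc
  choose u hu using hc
  have hu' : x - y = (2 : ℤ) • u := by
    funext i
    simpa using hu i
  set w : Fin 24 → ℤ := y + u with hw
  have hxe : x = u + w := by
    have : x = y + (2 : ℤ) • u := by rw [← hu']; abel
    rw [this, hw, two_smul]; abel
  have hye : y = w - u := by rw [hw]; abel
  have e1 : x ⬝ᵥ (B *ᵥ x) = u ⬝ᵥ (B *ᵥ u) + w ⬝ᵥ (B *ᵥ w) + 2 * (u ⬝ᵥ (B *ᵥ w)) := by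
    rw [hxe]
    simp only [Matrix.mulVec_add, dotProduct_add, add_dotProduct]
    rw [symm_form B hsymm w u]; ring
  have e2 : y ⬝ᵥ (B *ᵥ y) = u ⬝ᵥ (B *ᵥ u) + w ⬝ᵥ (B *ᵥ w) - 2 * (u ⬝ᵥ (B *ᵥ w)) := by
    rw [hye]
    simp only [Matrix.mulVec_sub, dotProduct_sub, sub_dotProduct]
    rw [symm_form B hsymm w u]; ring
  have e3 : x ⬝ᵥ (B *ᵥ y) = w ⬝ᵥ (B *ᵥ w) - u ⬝ᵥ (B *ᵥ u) := by
    rw [hxe, hye]
    simp only [Matrix.mulVec_sub, dotProduct_sub, add_dotProduct]
    rw [symm_form B hsymm w u]; ring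
  by_cases hu0 : u = 0
  · left; rw [hxe, hye, hu0]; abel
  by_cases hw0 : w = 0
  · right; left; rw [hxe, hye, hw0]; abel
  right; right
  have p1 := hpos u hu0
  have p2 := hpos w hw0
  have n1 := h2 u
  have n2 := h2 w
  obtain ⟨a, ha⟩ := heven u
  obtain ⟨b, hb⟩ := heven w
  rw [e3]
  constructor
  · omega
  · intro h; omega

include hsymm hpos in
/-- pairwise orthogonal nonzero vectors: at most 24 -/
theorem orth_card_le (T : Finset (Fin 24 → ℤ)) (h0 : ∀ y ∈ T, y ≠ 0)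
    (ho : ∀ y ∈ T, ∀ z ∈ T, y ≠ z → y ⬝ᵥ (B *ᵥ z) = 0) : T.card ≤ 24 := by
  have hli : LinearIndependent ℤ (fun y : T => (y : Fin 24 → ℤ)) := by
    rw [Fintype.linearIndependent_iff]
    intro g hg j
    have h1 : (j : Fin 24 → ℤ) ⬝ᵥ (B *ᵥ (∑ i, g i • (i : Fin 24 → ℤ))) = 0 := by
      rw [hg]; simp
    rw [Matrix.mulVec_sum, dotProduct_sum] at h1
    rw [Finset.sum_eq_single j] at h1
    · rw [Matrix.mulVec_smul, dotProduct_smul, smul_eq_mul] at h1
      rcases mul_eq_zero.mp h1 with h | h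
      · exact h
      · exact absurd h (ne_of_gt (hpos _ (h0 _ j.2)))
    · intro b _ hb
      rw [Matrix.mulVec_smul, dotProduct_smul, ho _ j.2 _ b.2 (fun h => hb (Subtype.ext h.symm))]
      simp
    · intro h; exact absurd (Finset.mem_univ j) h
  have := hli.fintype_card_le_finrank
  simpa using this

include hsymm hpos heven h2 in
theorem class_card_le (K : Finset (Fin 24 → ℤ)) (hK : ∀ y ∈ K, y ⬝ᵥ (B *ᵥ y) = 8)
    (hc : ∀ y ∈ K, ∀ z ∈ K, red y = red z) : K.card ≤ 48 := by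
  classical
  set T := K.filter (fun y => 0 < toLex y) with hT
  have hne : ∀ y ∈ K, y ≠ 0 := by
    intro y hy h
    have := hK y hy
    rw [h] at this
    simp at this
  have hsub : K ⊆ T ∪ T.image (fun y => -y) ∪ K.filter (fun y => toLex y < 0 ∧ -y ∉ K) := by
    intro y hy
    rcases lt_trichotomy (0 : Lex (Fin 24 → ℤ)) (toLex y) with h | h | h
    · exact Finset.mem_union_left _ (Finset.mem_union_left _ (Finset.mem_filter.mpr ⟨hy, h⟩))
    · exact absurd h.symm (fun h' => hne y hy (by simpa using h'))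
    · by_cases hm : -y ∈ K
      · refine Finset.mem_union_left _ (Finset.mem_union_right _ ?_)
        rw [Finset.mem_image]
        refine ⟨-y, ?_, neg_neg y⟩
        rw [hT, Finset.mem_filter]
        refine ⟨hm, ?_⟩
        have : toLex (-y) = - toLex y := rfl
        rw [this]
        exact neg_pos.mpr h
      · refine Finset.mem_union_right _ ?_
        rw [Finset.mem_filter]
        exact ⟨hy, h, hm⟩
  -- combine T and the rest into an orthogonal family
  set R := K.filter (fun y => toLex y < 0 ∧ -y ∉ K) with hR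
  have horth : (T ∪ R).card ≤ 24 := by
    refine orth_card_le B hsymm hpos _ ?_ ?_
    · intro y hy
      rw [Finset.mem_union, hT, hR, Finset.mem_filter, Finset.mem_filter] at hy
      rcases hy with hy | hy <;> exact hne y hy.1
    · intro y hy z hz hyz
      have hyK : y ∈ K := by
        rw [Finset.mem_union, hT, hR, Finset.mem_filter, Finset.mem_filter] at hy
        rcases hy with hy | hy <;> exact hy.1
      have hzK : z ∈ K := by
        rw [Finset.mem_union, hT, hR, Finset.mem_filter, Finset.mem_filter] at hz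
        rcases hz with hz | hz <;> exact hz.1
      rcases key B hsymm hpos heven h2 y z (hc y hyK z hzK) with h | h | h
      · exact absurd h.symm hyz
      · exfalso
        rw [Finset.mem_union, hT, hR, Finset.mem_filter, Finset.mem_filter] at hy hz
        have hnl : toLex z = - toLex y := by rw [h]; rfl
        have hny : -y = z := h.symm
        have hnz : -z = y := by rw [h, neg_neg]
        rcases hy with hy | hy <;> rcases hz with hz | hz
        · have h3 := hz.2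
          rw [hnl] at h3
          exact absurd hy.2 (not_lt.mpr (le_of_lt (neg_pos.mp h3)))
        · exact hz.2.2 (hnz ▸ hyK)
        · exact hy.2.2 (hny ▸ hzK)
        · exact hy.2.2 (hny ▸ hzK)
      · exact h.2 (by rw [hK y hyK, hK z hzK]; norm_num)
  have hsub2 : K ⊆ (T ∪ R) ∪ (T ∪ R).image (fun y => -y) := by
    intro y hy
    have := hsub hy
    simp only [Finset.mem_union, Finset.mem_image] at this ⊢
    rcases this with (h | ⟨z, hz, rfl⟩) | h
    · left; left; exact h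
    · right; exact ⟨z, Or.inl hz, rfl⟩
    · left; right; exact h
  calc K.card ≤ ((T ∪ R) ∪ (T ∪ R).image (fun y => -y)).card := Finset.card_le_card hsub2
    _ ≤ (T ∪ R).card + ((T ∪ R).image (fun y => -y)).card := Finset.card_union_le _ _
    _ ≤ (T ∪ R).card + (T ∪ R).card := Nat.add_le_add_left Finset.card_image_le _
    _ ≤ 48 := by omega

end

theorem neg_norm (B : Matrix (Fin 24) (Fin 24) ℤ) (x : Fin 24 → ℤ) :
    (-x) ⬝ᵥ (B *ᵥ (-x)) = x ⬝ᵥ (B *ᵥ x) := by
  rw [Matrix.mulVec_neg, dotProduct_neg, neg_dotProduct, neg_neg]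

/-- Second step of the characterisation: under the vector counts of the rank-24 lattice, the norm-8 vectors fall into congruence classes of exactly 48 modulo twice the lattice. -/
theorem result (B : Matrix (Fin 24) (Fin 24) ℤ) (hsymm : B.IsSymm) (hpos : ∀ x : Fin 24 → ℤ, x ≠ 0 → 0 < x ⬝ᵥ (B *ᵥ x)) (heven : ∀ x : Fin 24 → ℤ, (2 : ℤ) ∣ x ⬝ᵥ (B *ᵥ x)) (h2 : ∀ x : Fin 24 → ℤ, x ⬝ᵥ (B *ᵥ x) ≠ 2) (h4 : {x : Fin 24 → ℤ | x ⬝ᵥ (B *ᵥ x) = 4}.ncard = 196560) (h6 : {x : Fin 24 → ℤ | x ⬝ᵥ (B *ᵥ x) = 6}.ncard = 16773120) (h8 : {x : Fin 24 → ℤ | x ⬝ᵥ (B *ᵥ x) = 8}.ncard = 398034000) (x : Fin 24 → ℤ) (hx : x ⬝ᵥ (B *ᵥ x) = 8) : {y : Fin 24 → ℤ | y ⬝ᵥ (B *ᵥ y) = 8 ∧ ∀ i, (2 : ℤ) ∣ (x - y) i}.ncard = 48 := by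
  classical
  have key := key B hsymm hpos heven h2
  have f4 : {x : Fin 24 → ℤ | x ⬝ᵥ (B *ᵥ x) = 4}.Finite := Set.finite_of_ncard_ne_zero (by rw [h4]; norm_num)
  have f6 : {x : Fin 24 → ℤ | x ⬝ᵥ (B *ᵥ x) = 6}.Finite := Set.finite_of_ncard_ne_zero (by rw [h6]; norm_num)
  have f8 : {x : Fin 24 → ℤ | x ⬝ᵥ (B *ᵥ x) = 8}.Finite := Set.finite_of_ncard_ne_zero (by rw [h8]; norm_num)
  rw [Set.ncard_eq_toFinset_card _ f4] at h4
  rw [Set.ncard_eq_toFinset_card _ f6] at h6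
  rw [Set.ncard_eq_toFinset_card _ f8] at h8
  set M4 := f4.toFinset with hM4
  set M6 := f6.toFinset with hM6
  set M8 := f8.toFinset with hM8
  have m4 : ∀ y, y ∈ M4 ↔ y ⬝ᵥ (B *ᵥ y) = 4 := fun y => by rw [hM4, Set.Finite.mem_toFinset]; rfl
  have m6 : ∀ y, y ∈ M6 ↔ y ⬝ᵥ (B *ᵥ y) = 6 := fun y => by rw [hM6, Set.Finite.mem_toFinset]; rfl
  have m8 : ∀ y, y ∈ M8 ↔ y ⬝ᵥ (B *ᵥ y) = 8 := fun y => by rw [hM8, Set.Finite.mem_toFinset]; rfl
  have pair : ∀ (M : Finset (Fin 24 → ℤ)) (n : ℤ), n < 8 → (∀ y ∈ M, y ⬝ᵥ (B *ᵥ y) = n) →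
      M.card ≤ 2 * (M.image red).card := by
    intro M n hn hM
    refine Finset.card_le_mul_card_image _ _ ?_
    intro a ha
    obtain ⟨y0, hy0, rfl⟩ := Finset.mem_image.mp ha
    have : M.filter (fun y => red y = red y0) ⊆ {y0, -y0} := by
      intro y hy
      rw [Finset.mem_filter] at hy
      rcases key y0 y hy.2.symm with h | h | h
      · simp [h]
      · simp [h]
      · have := h.1
        rw [hM y0 hy0, hM y hy.1] at this
        omega
    exact (Finset.card_le_card this).trans (Finset.card_le_two)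
  have c4 := pair M4 4 (by norm_num) (fun y hy => (m4 y).1 hy)
  have c6 := pair M6 6 (by norm_num) (fun y hy => (m6 y).1 hy)
  have hfib : ∀ b ∈ M8.image red, (M8.filter (fun y => red y = b)).card ≤ 48 := by
    intro b _
    refine class_card_le B hsymm hpos heven h2 _ ?_ ?_
    · intro y hy
      rw [Finset.mem_filter] at hy
      exact (m8 y).1 hy.1
    · intro y hy z hz
      rw [Finset.mem_filter] at hy hz
      rw [hy.2, hz.2]
  -- disjointness
  have dis : ∀ (y z : Fin 24 → ℤ) (n m : ℤ), y ⬝ᵥ (B *ᵥ y) = n → z ⬝ᵥ (B *ᵥ z) = m → n + m < 16 → n ≠ m →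
      red y ≠ red z := by
    intro y z n m hy hz hnm hne hr
    rcases key y z hr with h | h | h
    · rw [h] at hz; exact hne (hy.symm.trans hz)
    · rw [h, neg_norm] at hz; exact hne (hy.symm.trans hz)
    · have := h.1
      rw [hy, hz] at this
      omega
  have d46 : Disjoint (M4.image red) (M6.image red) := by
    rw [Finset.disjoint_left]
    intro a ha hb
    obtain ⟨y, hy, rfl⟩ := Finset.mem_image.mp ha
    obtain ⟨z, hz, hz2⟩ := Finset.mem_image.mp hb
    exact dis y z 4 6 ((m4 y).1 hy) ((m6 z).1 hz) (by norm_num) (by norm_num) hz2.symm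
  have d48 : Disjoint (M4.image red) (M8.image red) := by
    rw [Finset.disjoint_left]
    intro a ha hb
    obtain ⟨y, hy, rfl⟩ := Finset.mem_image.mp ha
    obtain ⟨z, hz, hz2⟩ := Finset.mem_image.mp hb
    exact dis y z 4 8 ((m4 y).1 hy) ((m8 z).1 hz) (by norm_num) (by norm_num) hz2.symm
  have d68 : Disjoint (M6.image red) (M8.image red) := by
    rw [Finset.disjoint_left]
    intro a ha hb
    obtain ⟨y, hy, rfl⟩ := Finset.mem_image.mp ha
    obtain ⟨z, hz, hz2⟩ := Finset.mem_image.mp hb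
    exact dis y z 6 8 ((m6 y).1 hy) ((m8 z).1 hz) (by norm_num) (by norm_num) hz2.symm
  have z0 : (0 : Fin 24 → ℤ) ⬝ᵥ (B *ᵥ (0 : Fin 24 → ℤ)) = 0 := by simp
  have hz0 : red 0 ∉ M4.image red ∪ M6.image red ∪ M8.image red := by
    intro h
    simp only [Finset.mem_union, Finset.mem_image] at h
    rcases h with (⟨y, hy, h⟩ | ⟨y, hy, h⟩) | ⟨y, hy, h⟩
    · exact dis 0 y 0 4 z0 ((m4 y).1 hy) (by norm_num) (by norm_num) h.symm
    · exact dis 0 y 0 6 z0 ((m6 y).1 hy) (by norm_num) (by norm_num) h.symm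
    · exact dis 0 y 0 8 z0 ((m8 y).1 hy) (by norm_num) (by norm_num) h.symm
  have hcard : (insert (red 0) (M4.image red ∪ M6.image red ∪ M8.image red)).card ≤ 16777216 := by
    refine (Finset.card_le_univ _).trans ?_
    rw [Fintype.card_fun, ZMod.card, Fintype.card_fin]
    norm_num
  rw [Finset.card_insert_of_notMem hz0,
    Finset.card_union_of_disjoint (Finset.disjoint_union_left.mpr ⟨d48, d68⟩),
    Finset.card_union_of_disjoint d46] at hcard
  have hsum : M8.card = ∑ b ∈ M8.image red, (M8.filter (fun y => red y = b)).card :=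
    Finset.card_eq_sum_card_image red M8
  have hxM : x ∈ M8 := (m8 x).2 hx
  have hxfib : (M8.filter (fun y => red y = red x)).card = 48 := by
    by_contra hne
    have hlt : (M8.filter (fun y => red y = red x)).card < 48 :=
      lt_of_le_of_ne (hfib _ (Finset.mem_image_of_mem _ hxM)) hne
    have : M8.card < ∑ b ∈ M8.image red, 48 := by
      rw [hsum]
      exact Finset.sum_lt_sum hfib ⟨red x, Finset.mem_image_of_mem _ hxM, hlt⟩
    rw [Finset.sum_const, smul_eq_mul] at this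
    omega
  rw [← hxfib, ← Set.ncard_coe_finset]
  congr 1
  ext y
  simp only [Set.mem_ofPred_eq, Finset.coe_filter]
  rw [← red_eq_iff, m8]
  constructor
  · rintro ⟨h1, h2⟩; exact ⟨h1, h2.symm⟩
  · rintro ⟨h1, h2⟩; exact ⟨h1, h2.symm⟩

end Cfsg.Agent.S1588
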