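import Cfsg.Statements.S1589
import Cfsg.Agent.Lib.SubIdxD

set_option autoImplicit false
open scoped Pointwise
open Cfsg

namespace Cfsg.Agent.S1589

/-- Subgroups of the group of the length-24 code of index 759, 276 and 1771 are exactly the octad, duad and sextet stabilisers, and no subgroup has index 253. -/
theorem result : (∀ H : Subgroup ↥Cfsg.M24, H.index = 759 → ∃ o ∈ Cfsg.octads, H = MulAction.stabilizer Cfsg.M24 o) ∧ (∀ H : Subgroup ↥Cfsg.M24, H.index = 276 → ∃ s : Finset Cfsg.GolayPt, s.card = 2 ∧ H = MulAction.stabilizer Cfsg.M24 s) ∧ (∀ H : Subgroup ↥Cfsg.M24, H.index = 1771 → ∃ S ∈ Cfsg.sextets, H = MulAction.stabilizer Cfsg.M24 S) ∧ ∀ H : Subgroup ↥Cfsg.M24, H.index ≠ 253 := by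
  have hcard : ∀ (H : Subgroup ↥Cfsg.M24) (n k : ℕ), H.index = n → n * k = 244823040 → 0 < n →
      Nat.card (H.map (Cfsg.M24).subtype) = k := by
    intro H n k hH hnk hn
    rw [Subgroup.card_map_of_injective (Cfsg.M24.subtype_injective)]
    have h1 := Subgroup.index_mul_card H
    rw [Cfsg.Agent.Lib.Golay.natCard_M24, hH, ← hnk] at h1
    exact Nat.eq_of_mul_eq_mul_left hn h1
  have hle : ∀ (H : Subgroup ↥Cfsg.M24), H.map (Cfsg.M24).subtype ≤ Cfsg.M24 := by
    rintro H _ ⟨g, -, rfl⟩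
    exact g.2
  have heq : ∀ (H : Subgroup ↥Cfsg.M24) {α : Type} [MulAction (Equiv.Perm Cfsg.GolayPt) α] (a : α) (n : ℕ),
      Nat.card (H.map (Cfsg.M24).subtype) = n → (∀ h ∈ H.map (Cfsg.M24).subtype, h • a = a) →
      Nat.card (MulAction.stabilizer Cfsg.M24 a) ≤ n → H = MulAction.stabilizer Cfsg.M24 a := by
    intro H α _ a n hn ha hc
    apply Subgroup.eq_of_le_of_card_ge
    · intro g hg
      exact ha g.1 ⟨g, hg, rfl⟩
    · rw [Subgroup.card_map_of_injective (Cfsg.M24.subtype_injective)] at hn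
      rw [hn]; exact hc
  refine ⟨?_, ?_, ?_, ?_⟩
  · intro H hH
    have hc := hcard H 759 322560 hH (by norm_num) (by norm_num)
    obtain ⟨o, ho, h⟩ := Cfsg.Agent.Lib.SubIdxC.case_759 (hle H) hc
    exact ⟨o, ho, heq H o _ hc h (le_of_eq (Cfsg.Agent.Lib.Golay.card_stab_octad ho))⟩
  · intro H hH
    have hc := hcard H 276 887040 hH (by norm_num) (by norm_num)
    obtain ⟨s, hs, h⟩ := Cfsg.Agent.Lib.SubIdxC.case_276 (hle H) hc
    refine ⟨s, hs, heq H s _ hc h (le_of_eq ?_)⟩
    have h1 := Cfsg.Agent.Lib.Golay.card_eq_mul_inf_stabilizer (⊤ : Subgroup Cfsg.M24) s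
      (((Finset.univ : Finset Cfsg.GolayPt).powersetCard 2 : Finset (Finset Cfsg.GolayPt)) : Set (Finset Cfsg.GolayPt))
      (fun g _ => by
        rw [Finset.mem_coe, Finset.mem_powersetCard]
        refine ⟨Finset.subset_univ _, ?_⟩
        show (g.1 • s).card = 2
        rw [Finset.card_smul_finset, hs])
      (fun t ht => by
        rw [Finset.mem_coe, Finset.mem_powersetCard] at ht
        obtain ⟨g, hg, h⟩ := Cfsg.Agent.Lib.Golay.exists_smul_eq_of_card (s := s) (t := t) (by omega) (by omega)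
        exact ⟨⟨g, hg⟩, Subgroup.mem_top _, h⟩)
    rw [Subgroup.card_top, Cfsg.Agent.Lib.Golay.natCard_M24, Set.ncard_coe_finset, Finset.card_powersetCard,
      Finset.card_univ, Cfsg.Agent.Lib.Golay.card_pt, top_inf_eq] at h1
    have h2 : Nat.choose 24 2 = 276 := by decide
    rw [h2] at h1
    omega
  · intro H hH
    have hc := hcard H 1771 138240 hH (by norm_num) (by norm_num)
    obtain ⟨S, hS, h⟩ := Cfsg.Agent.Lib.SubIdxD.case_1771 (hle H) hc
    exact ⟨S, hS, heq H S _ hc h (le_of_eq (Cfsg.Agent.Lib.Golay.card_stab_sextet hS))⟩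
  · intro H hH
    have hc := hcard H 253 967680 hH (by norm_num) (by norm_num)
    exact Cfsg.Agent.Lib.SubIdxC.case_253 (hle H) hc
end Cfsg.Agent.S1589
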