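import Cfsg.Statements.S1591
import Cfsg.Agent.Lib.TernGolay

set_option autoImplicit false
open Cfsg
namespace Cfsg.Agent.S1591

open Cfsg.Agent.Lib.TernGolay

/-- dot product over the twelve positions -/
def dot (x y : ArrayPt → ZMod 3) : ZMod 3 := ∑ p, x p * y p

theorem dot_add_left (x y z : ArrayPt → ZMod 3) : dot (x + y) z = dot x z + dot y z := by
  simp [dot, add_mul, Finset.sum_add_distrib]

theorem dot_smul_left (c : ZMod 3) (x y : ArrayPt → ZMod 3) : dot (c • x) y = c * dot x y := by
  simp [dot, Finset.mul_sum, mul_assoc]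

theorem dot_comm (x y : ArrayPt → ZMod 3) : dot x y = dot y x := by
  simp [dot, mul_comm]

theorem dot_add_right (x y z : ArrayPt → ZMod 3) : dot x (y + z) = dot x y + dot x z := by
  rw [dot_comm, dot_add_left, dot_comm y, dot_comm z]

theorem dot_smul_right (c : ZMod 3) (x y : ArrayPt → ZMod 3) : dot x (c • y) = c * dot x y := by
  rw [dot_comm, dot_smul_left, dot_comm y]

/-- the basis words -/
def gl : Fin 6 → ℕ := ![9765889, 9077764, 5784592, 1673280, 9586944, 11096064]

theorem basis_dot : ∀ i j : Fin 6, dot (gw (gl i)) (gw (gl j)) = 0 := by decide +kernel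

/-- Any two words of the length-12 ternary code have dot product zero. -/
theorem result (x y : Cfsg.ArrayPt → ZMod 3) (hx : x ∈ Cfsg.ternaryGolayCode) (hy : y ∈ Cfsg.ternaryGolayCode) : ∑ p, x p * y p = 0 := by
  obtain ⟨a, _, rfl⟩ := mem_iff.mp hx
  obtain ⟨b, _, rfl⟩ := mem_iff.mp hy
  show dot (word a) (word b) = 0
  have h : ∀ i : Fin 6, dot (gw (gl i)) (word b) = 0 := by
    intro i
    rw [word_eq]
    have h0 := basis_dot i 0
    have h1 := basis_dot i 1
    have h2 := basis_dot i 2
    have h3 := basis_dot i 3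
    have h4 := basis_dot i 4
    have h5 := basis_dot i 5
    simp only [gl, Matrix.cons_val] at h0 h1 h2 h3 h4 h5 ⊢
    simp only [dot_add_right, dot_smul_right, h0, h1, h2, h3, h4, h5, mul_zero, add_zero]
  rw [word_eq a]
  have h0 := h 0
  have h1 := h 1
  have h2 := h 2
  have h3 := h 3
  have h4 := h 4
  have h5 := h 5
  simp only [gl, Matrix.cons_val] at h0 h1 h2 h3 h4 h5
  simp only [dot_add_left, dot_smul_left, h0, h1, h2, h3, h4, h5, mul_zero, add_zero]

end Cfsg.Agent.S1591
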