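import Cfsg.Statements.S1593
import Cfsg.Agent.Lib.TernHexads

set_option autoImplicit false
open Cfsg
namespace Cfsg.Agent.S1593

open Cfsg.Agent.Lib.TernHexads

/-- The only sign changes preserving the length-12 ternary code are the identity and negation of all coordinates. -/
theorem result (c : Cfsg.ArrayPt → (ZMod 3)ˣ) (h : (∀ x ∈ Cfsg.ternaryGolayCode, Cfsg.monomialMap 1 c x ∈ Cfsg.ternaryGolayCode)) : (∀ p, c p = 1) ∨ (∀ p, c p = -1) := by
  have hc := diag_const c h
  have h2 : ∀ a : (ZMod 3)ˣ, a = 1 ∨ a = -1 := by decide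
  rcases h2 (c (0, 0)) with h3 | h3
  · left; intro p; rw [hc p (0, 0), h3]
  · right; intro p; rw [hc p (0, 0), h3]

end Cfsg.Agent.S1593
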