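import Cfsg.Statements.S1594
import Cfsg.Agent.Lib.TernAut
-- import your own Cfsg.Agent.* helpers here

set_option autoImplicit false
open Cfsg

namespace Cfsg.Agent.S1594

/-- The monomial automorphism group of the length-12 ternary code has order 190080 and its permutation parts are exactly the automorphisms of its hexad system. -/
theorem result : Nat.card {f : Equiv.Perm Cfsg.ArrayPt × (Cfsg.ArrayPt → (ZMod 3)ˣ) // (∀ x ∈ Cfsg.ternaryGolayCode, Cfsg.monomialMap f.1 f.2 x ∈ Cfsg.ternaryGolayCode)} = 190080 ∧ {σ : Equiv.Perm Cfsg.ArrayPt | ∃ c : Cfsg.ArrayPt → (ZMod 3)ˣ, (∀ x ∈ Cfsg.ternaryGolayCode, Cfsg.monomialMap σ c x ∈ Cfsg.ternaryGolayCode)} = (Cfsg.setSystemAut {h : Finset Cfsg.ArrayPt | ∃ x ∈ Cfsg.ternaryGolayCode, Cfsg.ternarySupport x = h ∧ h.card = 6} : Set (Equiv.Perm Cfsg.ArrayPt)) := ⟨Lib.TernAut.card_pres, congrArg (fun K : Subgroup (Equiv.Perm Cfsg.ArrayPt) => (K : Set (Equiv.Perm Cfsg.ArrayPt)))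 Lib.TernAut.HG_eq⟩

end Cfsg.Agent.S1594
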