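import Cfsg.Statements.S1595
import Cfsg.Agent.Lib.Steiner

set_option autoImplicit false
open Cfsg
namespace Cfsg.Agent.S1595

open Finset Cfsg.Agent.Lib.Steiner

section
variable {α : Type*} [Fintype α] [DecidableEq α] {B : Set (Finset α)}

/-- number of blocks meeting `b` exactly in `s` -/
noncomputable def ee (B : Set (Finset α)) (b s : Finset α) : ℕ :=
  ((bl B).filter fun c => b ∩ c = s).card

theorem ncard_ee (b s : Finset α) : {c : Finset α | c ∈ B ∧ b ∩ c = s}.ncard = ee B b s := by
  unfold ee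
  rw [← Set.ncard_coe_finset]
  congr 1
  ext c
  simp

theorem split (b s : Finset α) (hb : b.card = 6) (hs : s ⊆ b) :
    ((bl B).filter fun c => s ⊆ c).card =
      ∑ j ∈ range 7, ∑ T ∈ (powersetCard j (univ : Finset α)).filter (fun T => s ⊆ T ∧ T ⊆ b), ee B b T := by
  rw [Finset.card_eq_sum_card_fiberwise (f := fun c => (b ∩ c).card) (t := range 7)]
  · apply sum_congr rfl
    intro j _
    rw [Finset.card_eq_sum_card_fiberwise (f := fun c => b ∩ c)
      (t := (powersetCard j (univ : Finset α)).filter (fun T => s ⊆ T ∧ T ⊆ b))]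
    · apply sum_congr rfl
      intro T hT
      rw [mem_filter, mem_powersetCard] at hT
      unfold ee
      congr 1
      ext c
      simp only [mem_filter]
      constructor
      · rintro ⟨⟨⟨h1, h2⟩, h3⟩, h4⟩
        exact ⟨h1, h4⟩
      · rintro ⟨h1, h2⟩
        refine ⟨⟨⟨h1, ?_⟩, ?_⟩, h2⟩
        · exact (hT.2.1.trans (h2 ▸ inter_subset_right))
        · rw [h2]; exact hT.1.2
    · intro c hc
      simp only [coe_filter, mem_filter, mem_bl, Set.mem_ofPred_eq, mem_powersetCard, subset_univ, true_and] at hc ⊢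
      exact ⟨hc.2, subset_inter hs hc.1.2, inter_subset_left⟩
  · intro c _
    rw [coe_range, Set.mem_Iio]
    have := card_le_card (inter_subset_left (s₁ := b) (s₂ := c))
    show (b ∩ c).card < 7
    omega

theorem ee_self (hB : IsSteinerSystem 5 6 B) {b : Finset α} (hb : b ∈ B) : ee B b b = 1 := by
  unfold ee
  rw [card_eq_one]
  refine ⟨b, ?_⟩
  ext c
  simp only [mem_filter, mem_bl, mem_singleton]
  constructor
  · rintro ⟨h1, h2⟩
    exact (eq_of_le_card_inter hB hb h1 (by rw [h2, hB.1 b hb]; norm_num)).symm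
  · rintro rfl
    exact ⟨hb, inter_self _⟩

theorem ee_five (hB : IsSteinerSystem 5 6 B) {b : Finset α} (hb : b ∈ B) {T : Finset α}
    (hT : T.card = 5) : ee B b T = 0 := by
  unfold ee
  rw [card_eq_zero, filter_eq_empty_iff]
  intro c hc h
  have h1 := eq_of_le_card_inter hB hb ((mem_bl c).1 hc) (by rw [h, hT])
  subst h1
  rw [inter_self] at h
  have := hB.1 b hb
  rw [h, hT] at this
  omega

theorem inner_sum (b s : Finset α) (hs : s ⊆ b) (hb : b.card = 6) (j v : ℕ) (hj : s.card ≤ j)
    (h : ∀ T, T.card = j → s ⊆ T → T ⊆ b → ee B b T = v) :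
    ∑ T ∈ (powersetCard j (univ : Finset α)).filter (fun T => s ⊆ T ∧ T ⊆ b), ee B b T =
      Nat.choose (6 - s.card) (j - s.card) * v := by
  rw [← hb, ← card_between s b hs j hj, ← smul_eq_mul, ← sum_const]
  apply sum_congr rfl
  intro T hT
  rw [mem_filter, mem_powersetCard] at hT
  exact h T hT.1.2 hT.2.1 hT.2.2

theorem inner_zero (b s : Finset α) (j : ℕ) (hj : j < s.card) :
    ∑ T ∈ (powersetCard j (univ : Finset α)).filter (fun T => s ⊆ T ∧ T ⊆ b), ee B b T = 0 := by
  apply sum_eq_zero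
  intro T hT
  rw [mem_filter, mem_powersetCard] at hT
  have := card_le_card hT.2.1
  omega

end

/-- Leech triangle of S(5, 6, 12): blocks meet in 0, 2, 3 or 4 points, and a block is met exactly in a given 2-, 3- or 4-subset by 3, 2, 3 blocks respectively. -/
theorem result {α : Type*} [Fintype α] [DecidableEq α] (hα : Fintype.card α = 12) {B : Set (Finset α)} (hB : Cfsg.IsSteinerSystem 5 6 B) (b : Finset α) (hb : b ∈ B) : (∀ c ∈ B, c ≠ b → (b ∩ c).card = 0 ∨ (b ∩ c).card = 2 ∨ (b ∩ c).card = 3 ∨ (b ∩ c).card = 4) ∧ ∀ s ⊆ b, (s.card = 2 → {c : Finset α | c ∈ B ∧ b ∩ c = s}.ncard = 3) ∧ (s.card = 3 → {c : Finset α | c ∈ B ∧ b ∩ c = s}.ncard = 2) ∧ (s.card = 4 → {c : Finset α | c ∈ B ∧ b ∩ c = s}.ncard = 3) := by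
  have hb6 := hB.1 b hb
  have hnum := hexad12_numbers hα hB hb
  refine ⟨?_, ?_⟩
  · intro c hc hne
    have h1 := ne_of_nn_zero hnum.2.1 hc
    rw [inter_comm] at h1
    have h2 : ¬ 5 ≤ (b ∩ c).card := fun h => hne (eq_of_le_card_inter hB hb hc h).symm
    omega
  have h5 : ∀ T : Finset α, T.card = 5 → ee B b T = 0 := fun T hT => ee_five hB hb hT
  have h6 : ∀ T : Finset α, T.card = 6 → T ⊆ b → ee B b T = 1 := by
    intro T hT hTb
    rw [eq_of_subset_of_card_le hTb (by omega)]
    exact ee_self hB hb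
  have h4 : ∀ T : Finset α, T.card = 4 → T ⊆ b → ee B b T = 3 := by
    intro s hs hsb
    have h := card_containing hB s (by omega)
    rw [split b s hb6 hsb] at h
    simp only [sum_range_succ, sum_range_zero] at h
    rw [inner_zero b s 0 (by omega), inner_zero b s 1 (by omega), inner_zero b s 2 (by omega),
      inner_zero b s 3 (by omega),
      inner_sum b s hsb hb6 4 (ee B b s) (by omega) (fun T h1 h2 _ => by
        rw [eq_of_subset_of_card_le h2 (by omega)]),
      inner_sum b s hsb hb6 5 0 (by omega) (fun T h1 _ _ => h5 T h1),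
      inner_sum b s hsb hb6 6 1 (by omega) (fun T h1 _ h3 => h6 T h1 h3), hs, hα] at h
    simp [Nat.choose] at h
    omega
  have h3 : ∀ T : Finset α, T.card = 3 → T ⊆ b → ee B b T = 2 := by
    intro s hs hsb
    have h := card_containing hB s (by omega)
    rw [split b s hb6 hsb] at h
    simp only [sum_range_succ, sum_range_zero] at h
    rw [inner_zero b s 0 (by omega), inner_zero b s 1 (by omega), inner_zero b s 2 (by omega),
      inner_sum b s hsb hb6 3 (ee B b s) (by omega) (fun T h1 h2 _ => by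
        rw [eq_of_subset_of_card_le h2 (by omega)]),
      inner_sum b s hsb hb6 4 3 (by omega) (fun T h1 _ h3 => h4 T h1 h3),
      inner_sum b s hsb hb6 5 0 (by omega) (fun T h1 _ _ => h5 T h1),
      inner_sum b s hsb hb6 6 1 (by omega) (fun T h1 _ h3 => h6 T h1 h3), hs, hα] at h
    simp [Nat.choose] at h
    omega
  have h2 : ∀ T : Finset α, T.card = 2 → T ⊆ b → ee B b T = 3 := by
    intro s hs hsb
    have h := card_containing hB s (by omega)
    rw [split b s hb6 hsb] at h
    simp only [sum_range_succ, sum_range_zero] at h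
    rw [inner_zero b s 0 (by omega), inner_zero b s 1 (by omega),
      inner_sum b s hsb hb6 2 (ee B b s) (by omega) (fun T h1 h2 _ => by
        rw [eq_of_subset_of_card_le h2 (by omega)]),
      inner_sum b s hsb hb6 3 2 (by omega) (fun T h1 _ h4 => h3 T h1 h4),
      inner_sum b s hsb hb6 4 3 (by omega) (fun T h1 _ h3 => h4 T h1 h3),
      inner_sum b s hsb hb6 5 0 (by omega) (fun T h1 _ _ => h5 T h1),
      inner_sum b s hsb hb6 6 1 (by omega) (fun T h1 _ h3 => h6 T h1 h3), hs, hα] at h
    simp [Nat.choose] at h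
    omega
  intro s hsb
  refine ⟨fun h => ?_, fun h => ?_, fun h => ?_⟩
  · rw [ncard_ee]; exact h2 s h hsb
  · rw [ncard_ee]; exact h3 s h hsb
  · rw [ncard_ee]; exact h4 s h hsb

end Cfsg.Agent.S1595
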