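import Cfsg.Statements.S1602
import Cfsg.Agent.Lib.DodStab
-- import your own Cfsg.Agent.* helpers here

set_option autoImplicit false
open scoped Pointwise
open Cfsg

namespace Cfsg.Agent.S1602

/-- In the 12-point action of the smallest Mathieu group the setwise stabiliser of a pair is isomorphic to the symmetric group of degree 5. -/
theorem result (d : Finset Cfsg.GolayPt) (hd : d ∈ Cfsg.dodecads) (p q q' : Cfsg.GolayPt) (hp : p ∈ d) (hq : q ∉ d) (hq' : q' ∉ d) (hqq' : q ≠ q') : Nonempty (↥(MulAction.stabilizer Cfsg.M24 d ⊓ MulAction.stabilizer Cfsg.M24 p ⊓ MulAction.stabilizer Cfsg.M24 ({q, q'} : Finset Cfsg.GolayPt)) ≃* Equiv.Perm (Fin 5)) := Lib.DodStab.pair_stab_equiv hd hp hq hq' hqq'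

end Cfsg.Agent.S1602
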