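import Cfsg.Statements.S1605
import Cfsg.Agent.Lib.GolayOrbOct

set_option autoImplicit false
open scoped Pointwise
open Cfsg

namespace Cfsg.Agent.S1605

/-- The two-point stabiliser acts on the 176 octads through the first point avoiding the second with rank 3 and subdegrees 1, 70, 105 (intersections 8, 2, 4). -/
theorem result (p q : Cfsg.GolayPt) (hpq : p ≠ q) : {x : Finset Cfsg.GolayPt | (x ∈ Cfsg.octads ∧ p ∈ x ∧ q ∉ x)}.ncard = 176 ∧ (∀ o o' : Finset Cfsg.GolayPt, (o ∈ Cfsg.octads ∧ p ∈ o ∧ q ∉ o) → (o' ∈ Cfsg.octads ∧ p ∈ o' ∧ q ∉ o') → ∃ g : Equiv.Perm Cfsg.GolayPt, g ∈ Cfsg.M24 ∧ g p = p ∧ g q = q ∧ g • o = o') ∧ ∀ o : Finset Cfsg.GolayPt, (o ∈ Cfsg.octads ∧ p ∈ o ∧ q ∉ o) → {x : Finset Cfsg.GolayPt | (x ∈ Cfsg.octads ∧ p ∈ x ∧ q ∉ x) ∧ (o ∩ x).card = 2}.ncard = 70 ∧ {x : Finset Cfsg.GolayPt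 | (x ∈ Cfsg.octads ∧ p ∈ x ∧ q ∉ x) ∧ (o ∩ x).card = 4}.ncard = 105 ∧ ∀ o' o'' : Finset Cfsg.GolayPt, (o' ∈ Cfsg.octads ∧ p ∈ o' ∧ q ∉ o') → (o'' ∈ Cfsg.octads ∧ p ∈ o'' ∧ q ∉ o'') → (o ∩ o').card = (o ∩ o'').card → ∃ g : Equiv.Perm Cfsg.GolayPt, g ∈ Cfsg.M24 ∧ g p = p ∧ g q = q ∧ g • o = o ∧ g • o' = o'' := by
  exact Cfsg.Agent.Lib.Golay.orbits_inout p q hpq

end Cfsg.Agent.S1605
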