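import Cfsg.Statements.S1606
import Cfsg.Agent.Lib.M22Index
-- import your own Cfsg.Agent.* helpers here

set_option autoImplicit false
open scoped Pointwise
open Cfsg

namespace Cfsg.Agent.S1606

/-- The stabiliser of two points in the group of the length-24 code has no subgroups of index 56 or 210. -/
theorem result (p q : Cfsg.GolayPt) (hpq : p ≠ q) (H : Subgroup ↥(MulAction.stabilizer Cfsg.M24 p ⊓ MulAction.stabilizer Cfsg.M24 q)) : H.index ≠ 56 ∧ H.index ≠ 210 := Lib.M22Index.S1606_main hpq H

end Cfsg.Agent.S1606
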