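import Cfsg.Statements.S1612
import Cfsg.Agent.Lib.FischerHyp

set_option autoImplicit false
open Cfsg

namespace Cfsg.Agent.S1612

/-- In a 3-transposition group (no solvable normal subgroup, perfect derived group), the normaliser of a commuting set of transpositions of maximum size contains a Sylow 2-subgroup and is doubly transitive on the set. -/
theorem result {G : Type*} [Group G] [Finite G] (hsol : ∀ N : Subgroup G, N.Normal → Group.IsSolvable ↥N → N = ⊥) (hperf : ⁅commutator G, commutator G⁆ = commutator G) {D : Set G} (hD : Cfsg.IsThreeTranspositionClass D) {E : Set G} (hE : E ⊆ D) (hc : ∀ a ∈ E, ∀ b ∈ E, Commute a b) (hmax : ∀ E' : Set G, E' ⊆ D → (∀ a ∈ E', ∀ b ∈ E', Commute a b) → E'.ncard ≤ E.ncard) : (∃ P : Sylow 2 G, (P : Subgroup G) ≤ Subgroup.normalizer E) ∧ ∀ a ∈ E, ∀ b ∈ E, ∀ c ∈ E, ∀ d ∈ E, a ≠ b → c ≠ d → ∃ g ∈ Subgroup.normalizer E, g * a * g⁻¹ = c ∧ g * b * g⁻¹ = d := by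
  refine Lib.FischerMax.main hD.1 (fun g d hd => Lib.FischerHyp.class_conj hD g hd)
    (fun a ha b hb => Lib.FischerHyp.class_trans hD ha hb) ?_ hE hc hmax
  intro x hx y hy y' hy'
  obtain ⟨g, hg, hgy⟩ := Lib.FischerHyp.one_class hsol hperf hD x hx y hy y' hy'
  exact ⟨g, Lib.ThreeRank3.commute_of_mem_closure (fun z hz => hz.2.2) hg, hgy⟩

end Cfsg.Agent.S1612
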