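import Cfsg.Statements.S1616
import Cfsg.Agent.Lib.FsCore42

set_option autoImplicit false
open Cfsg

namespace Cfsg.Agent.S1616

/-- If O₂(⟨D_x⟩) is not central in ⟨D_x⟩ for some transposition x, the 3-transposition group is some Sp(2n, 2) or PSU(n, 2). -/
theorem result {G : Type*} [Group G] [Finite G] (hsol : ∀ N : Subgroup G, N.Normal → Group.IsSolvable ↥N → N = ⊥) (hperf : ⁅commutator G, commutator G⁆ = commutator G) {D : Set G} (hD : Cfsg.IsThreeTranspositionClass D) (x : G) (hx : x ∈ D) (h : ¬ Cfsg.pCore 2 ↥(Subgroup.closure {y : G | y ∈ D ∧ y ≠ x ∧ Commute x y}) ≤ Subgroup.center ↥(Subgroup.closure {y : G | y ∈ D ∧ y ≠ x ∧ Commute x y})) : (∃ n : ℕ, Nonempty (G ≃* Matrix.symplecticGroup (Fin n) (ZMod 2))) ∨ ∃ (F : Type) (_ : Field F) (_ : Fintype F) (n : ℕ), Fintype.card F = 4 ∧ Nonempty (G ≃* Cfsg.PSU n F 2) := by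
  have hG : IsThreeTranspositionGroup D := ⟨hD.1, fun g d hd => Lib.FischerHyp.class_conj hD g hd, hD.2.2⟩
  have hne : ∃ y, y ∈ Lib.ThreeRank3.Dd D x := by
    by_contra hcon
    push Not at hcon
    apply h
    have hempty : {y : G | y ∈ D ∧ y ≠ x ∧ Commute x y} = ∅ := Set.eq_empty_of_forall_notMem hcon
    intro g _
    rw [Subgroup.mem_center_iff]
    intro k
    have hone : ∀ k : ↥(Subgroup.closure {y : G | y ∈ D ∧ y ≠ x ∧ Commute x y}), k = 1 := by
      intro k
      apply Subtype.ext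
      have hb : Subgroup.closure {y : G | y ∈ D ∧ y ≠ x ∧ Commute x y} = ⊥ := by
        rw [hempty, Subgroup.closure_empty]
      exact Subgroup.mem_bot.1 (hb.le k.2)
    rw [hone k, hone g]
  obtain ⟨y, hy⟩ := hne
  have hprim := Lib.FischerHyp.primitive hsol hperf hD ⟨x, hx, y, hy.1, hy.2.1.symm⟩
  have hZ : Subgroup.center G = ⊥ := hsol _ inferInstance
    (Group.isSolvable_of_comm (fun a b => Subtype.ext (Subgroup.mem_center_iff.1 a.2 b.1).symm))
  exact Lib.FsPol.final hG hprim hZ hx h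

end Cfsg.Agent.S1616
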