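import Cfsg.Statements.S1620
import Cfsg.Agent.Lib.H58J2Simp

set_option autoImplicit false
open Quaternion
open Cfsg

namespace Cfsg.Agent.S1620

open Cfsg.Agent.Lib.H58J2

/-- The Hall–Janko group is simple and non-abelian. -/
theorem result : IsSimpleGroup Cfsg.Spor.J2 ∧ ∃ a b : Cfsg.Spor.J2, a * b ≠ b * a := by
  refine ⟨simple_J2, ?_⟩
  by_contra hcon
  push Not at hcon
  have := simple_J2
  have hc : ∀ a b : Cfsg.Spor.J2, Commute a b := hcon
  have hp : Nat.Prime (Nat.card Cfsg.Spor.J2) := by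
    letI : CommGroup Cfsg.Spor.J2 := { (inferInstance : Group Cfsg.Spor.J2) with mul_comm := hcon }
    have : Finite Cfsg.Spor.J2 := Nat.finite_of_card_ne_zero (by rw [card_J2]; norm_num)
    exact IsSimpleGroup.prime_card
  rw [card_J2] at hp
  norm_num at hp

end Cfsg.Agent.S1620
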