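import Cfsg.Statements.S1621
import Cfsg.Agent.Lib.H58J2Main

set_option autoImplicit false
open Quaternion
open Cfsg

namespace Cfsg.Agent.S1621

open Cfsg.Agent.Lib.H58J2 Quaternion Cfsg.Spor

theorem UT_nodup : UT.Nodup := by decide +kernel

theorem UT_len : UT.length = 120 := by decide +kernel

theorem UT_code : UT.all (fun n => Nat.beq (eI (dI n)) n) = true := by decide +kernel

theorem UT_norm : UT.all (fun n => decide (nmF (dI n) = ⟨1, 0⟩)) = true := by decide +kernel

/-- all roots -/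
noncomputable def F (x : Fin 315 × {n // n ∈ UT}) : E := Ico.io (dI x.2) • (Rt x.1 : E)

theorem nm_unit (n : {n // n ∈ UT}) : Ico.nm (dI n) = ⟨1, 0⟩ := by
  have h := UT_norm
  rw [List.all_eq_true] at h
  have h := h n n.2
  rw [decide_eq_true_eq] at h
  rw [nm_eq]
  exact h

theorem F_injective : Function.Injective F := by
  rintro ⟨i, n⟩ ⟨j, m⟩ h
  have h' : Ico.io (dI n) • (Rt i : E) = Ico.io (dI m) • (Rt j : E) := h
  have hn := nm_unit n
  have hm := nm_unit m
  have hmem : Ico.io (dI n) • (Rt i : E) ∈ Cfsg.Spor.icoLeech := L_smul (io_mem _) (Rt i).2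
  have hq : qip (Ico.io (dI n) • (Rt i : E)) (Ico.io (dI n) • (Rt i : E)) = 4 := by
    rw [qip_smul_left, qip_smul_right, Rt_four]
    have : Ico.io (dI n) * (4 * star (Ico.io (dI n))) = 4 * (Ico.io (dI n) * star (Ico.io (dI n))) := by
      rw [← mul_assoc, ← mul_assoc, ← coe_four, Quaternion.coe_commutes]
    rw [this, unit_star' hn, mul_one]
  have e1 := rho_eq_rf ⟨_, hmem⟩ hq (u := dI n) (i := i) hn rfl
  have e2 := rho_eq_rf ⟨_, hmem⟩ hq (u := dI m) (i := j) hm h'
  have hij : i = j := rf_injective (e1.symm.trans e2)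
  subst hij
  rw [Prod.mk.injEq]
  refine ⟨rfl, ?_⟩
  -- cancel a nonzero coordinate
  have hne : ∃ t, (Rt i : E) t ≠ 0 := by
    by_contra hcon
    push Not at hcon
    have h4 := Rt_four i
    rw [qip_def, hcon 0, hcon 1, hcon 2] at h4
    simp only [zero_mul, add_zero] at h4
    exact four_ne h4.symm
  obtain ⟨t, ht⟩ := hne
  have h1 := congrFun h' t
  simp only [Pi.smul_apply, smul_eq_mul] at h1
  have h2 : dI n = dI m := Ico.io_injective (mul_right_cancel₀ ht h1)
  have hc := UT_code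
  rw [List.all_eq_true] at hc
  have c1 := hc n n.2
  have c2 := hc m m.2
  rw [Nat.beq_eq] at c1 c2
  apply Subtype.ext
  rw [← c1, ← c2, h2]

theorem roots_eq : {r : Fin 3 → ℍ[ℝ] | r ∈ Cfsg.Spor.icoLeech ∧ Cfsg.Spor.qip r r = 4} = Set.range F := by
  ext r
  constructor
  · rintro ⟨hr, h4⟩
    obtain ⟨u, i, hu, h⟩ := root_cases ⟨r, hr⟩ h4
    have hU := unit_mem hu
    unfold UL at hU
    rw [List.mem_map] at hU
    obtain ⟨n, hn, rfl⟩ := hU
    exact ⟨(i, ⟨n, hn⟩), h.symm⟩
  · rintro ⟨⟨i, n⟩, rfl⟩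
    refine ⟨L_smul (io_mem _) (Rt i).2, ?_⟩
    show qip (Ico.io (dI n) • (Rt i : E)) (Ico.io (dI n) • (Rt i : E)) = 4
    rw [qip_smul_left, qip_smul_right, Rt_four]
    have : Ico.io (dI n) * (4 * star (Ico.io (dI n))) = 4 * (Ico.io (dI n) * star (Ico.io (dI n))) := by
      rw [← mul_assoc, ← mul_assoc, ← coe_four, Quaternion.coe_commutes]
    rw [this, unit_star' (nm_unit n), mul_one]

/-- The icosian Leech lattice has 37800 minimal vectors giving 315 distinct reflections. -/
theorem result : {r : Fin 3 → ℍ[ℝ] | r ∈ Cfsg.Spor.icoLeech ∧ Cfsg.Spor.qip r r = 4}.ncard = 37800 ∧ {f : Equiv.Perm ↥Cfsg.Spor.icoLeech | Cfsg.Spor.IsIcoReflection f}.ncard = 315 := by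
  constructor
  · have : Fintype.card {n // n ∈ UT} = 120 := by
      rw [← UT_len]
      exact Fintype.card_of_subtype UT.toFinset (by simp) |>.trans (List.toFinset_card_of_nodup UT_nodup)
    rw [roots_eq, ← Set.image_univ, Set.ncard_image_of_injective _ F_injective, Set.ncard_univ,
      Nat.card_prod, Nat.card_eq_fintype_card, Fintype.card_fin, Nat.card_eq_fintype_card, this]
  · have h : {f : Equiv.Perm ↥Cfsg.Spor.icoLeech | Cfsg.Spor.IsIcoReflection f} = Set.range rf := by
      ext f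
      rw [Set.mem_ofPred_eq, isRefl_iff_rf]
      constructor
      · rintro ⟨i, rfl⟩; exact ⟨i, rfl⟩
      · rintro ⟨i, rfl⟩; exact ⟨i, rfl⟩
    rw [h, ← Set.image_univ, Set.ncard_image_of_injective _ rf_injective, Set.ncard_univ,
      Nat.card_eq_fintype_card, Fintype.card_fin]

end Cfsg.Agent.S1621
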