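import Cfsg.Statements.S1623
import Cfsg.Agent.Lib.H58J2CentQ

set_option autoImplicit false
open Cfsg

namespace Cfsg.Agent.S1623

open Cfsg.Agent.Lib.H58J2 Cfsg.Spor

/-- A reflection centraliser in the Hall–Janko group is an extension of an extraspecial group of order 32 by the alternating group of degree 5. -/
theorem result (f : Equiv.Perm ↥Cfsg.Spor.icoLeech) (hf : Cfsg.Spor.IsIcoReflection f) (hfm : f ∈ Cfsg.Spor.twoJ2) : ∃ (Q : Subgroup ↥(Subgroup.centralizer {(QuotientGroup.mk ⟨f, hfm⟩ : Cfsg.Spor.J2)})) (_ : Q.Normal), Nat.card Q = 32 ∧ Cfsg.IsExtraspecial 2 Q ∧ Nonempty (↥(Subgroup.centralizer {(QuotientGroup.mk ⟨f, hfm⟩ : Cfsg.Spor.J2)}) ⧸ Q ≃* alternatingGroup (Fin 5)) := by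
  rw [isRefl_iff_rf] at hf
  obtain ⟨i, rfl⟩ := hf
  obtain ⟨g, hg, _⟩ := Tr_trans i
  let e0 : AG 5 ≃* J2 := (MulEquiv.subgroupCongr AG_five).trans equivP.symm
  have h1 : e0 (Tr i) = (QuotientGroup.mk ⟨rf i, hfm⟩ : J2) := by
    show equivP.symm _ = _
    rw [MulEquiv.symm_apply_eq]
    apply Subtype.ext
    rw [equivP_mk]
    rfl
  refine centOK_map ((MulAut.conj g).trans e0) ?_ cent_main
  show e0 (g * sg 0 * g⁻¹) = _
  rw [← Tr_zero, hg, h1]

end Cfsg.Agent.S1623
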