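import Cfsg.Statements.S1624
import Cfsg.Agent.Lib.H58J2U3c

set_option autoImplicit false
open Cfsg

namespace Cfsg.Agent.S1624

open Cfsg.Agent.Lib.H58J2 Cfsg.Spor Cfsg.Agent.Lib.H58F9

theorem inv36 : (O36.map Prod.fst).all (fun x => (List.range 4).all fun k => (O36.map Prod.fst).contains (ap (bC k) x)) = true := by
  decide +kernel

theorem inv63 : (O63.map Prod.fst).all (fun x => (List.range 4).all fun k => (O63.map Prod.fst).contains (ap (bC k) x)) = true := by
  decide +kernel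

theorem stable {l : List ℕ} (h : l.all (fun x => (List.range 4).all fun k => l.contains (ap (bC k) x)) = true)
    {a : Pm} (ha : a ∈ AG 4) : ∀ x : Fin 100, (x : ℕ) ∈ l → ((a x : Fin 100) : ℕ) ∈ l := by
  unfold AG at ha
  have key : ∀ k : Fin 5, (k : ℕ) < 4 → ∀ x : Fin 100, (x : ℕ) ∈ l → ((beP k x : Fin 100) : ℕ) ∈ l := by
    intro k hk x hx
    rw [List.all_eq_true] at h
    have h := h x hx
    rw [List.all_eq_true] at h
    have h := h k (List.mem_range.mpr hk)
    rw [List.contains_iff_mem] at h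
    rw [Is_gen]
    exact h
  induction ha using Subgroup.closure_induction_left with
  | one => intro x hx; exact hx
  | mul_left a ha b hb ih =>
    obtain ⟨k, hk, rfl⟩ := ha
    intro x hx
    exact key k hk _ (ih x hx)
  | inv_mul_cancel a ha b hb ih =>
    obtain ⟨k, hk, rfl⟩ := ha
    intro x hx
    rw [gen_inv]
    exact key k hk _ (ih x hx)

theorem card36 : {x : Fin 100 | (x : ℕ) ∈ O36.map Prod.fst}.ncard = 36 := by
  have : {x : Fin 100 | (x : ℕ) ∈ O36.map Prod.fst} = ((Finset.univ.filter fun x : Fin 100 => (x : ℕ) ∈ O36.map Prod.fst : Finset (Fin 100)) : Set (Fin 100)) := by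
    ext x; simp
  rw [this, Set.ncard_coe_finset]
  decide +kernel

theorem card63 : {x : Fin 100 | (x : ℕ) ∈ O63.map Prod.fst}.ncard = 63 := by
  have : {x : Fin 100 | (x : ℕ) ∈ O63.map Prod.fst} = ((Finset.univ.filter fun x : Fin 100 => (x : ℕ) ∈ O63.map Prod.fst : Finset (Fin 100)) : Set (Fin 100)) := by
    ext x; simp
  rw [this, Set.ncard_coe_finset]
  decide +kernel

/-- the isomorphism -/
noncomputable def e0 : AG 5 ≃* J2 := (MulEquiv.subgroupCongr AG_five).trans equivP.symm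

/-- the point stabilizer -/
noncomputable def HH : Subgroup J2 := ((AG 4).subgroupOf (AG 5)).map e0.toMonoidHom

theorem mem_HH {g : J2} : g ∈ HH ↔ ((e0.symm g : AG 5) : Pm) ∈ AG 4 := by
  unfold HH
  rw [Subgroup.mem_map_equiv, Subgroup.mem_subgroupOf]

noncomputable def eH : AG 4 ≃* HH :=
  (Subgroup.subgroupOfEquivOfLe AG45).symm.trans (e0.subgroupMap _)

theorem card_HH : Nat.card HH = 6048 := by
  rw [← Nat.card_congr eH.toEquiv, card4]

theorem index_HH : HH.index = 100 := by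
  have h := HH.card_mul_index
  rw [card_HH, card_J2] at h
  exact Nat.eq_of_mul_eq_mul_left (by norm_num : 0 < 6048) (h.trans (by norm_num))

/-- cosets to points -/
noncomputable def Phi : J2 ⧸ HH → Fin 100 :=
  Quotient.lift (s := QuotientGroup.leftRel HH) (fun g => ((e0.symm g : AG 5) : Pm) 0) (by
    intro a b h
    have h1 : a⁻¹ * b ∈ HH := QuotientGroup.leftRel_apply.mp h
    rw [mem_HH, map_mul, map_inv] at h1
    have h2 := fix0 h1
    show ((e0.symm a : AG 5) : Pm) 0 = ((e0.symm b : AG 5) : Pm) 0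
    have h3 : ((e0.symm b : AG 5) : Pm) = ((e0.symm a : AG 5) : Pm) * (((e0.symm a)⁻¹ * e0.symm b : AG 5) : Pm) := by
      rw [Subgroup.coe_mul, Subgroup.coe_inv, mul_inv_cancel_left]
    rw [h3, Equiv.Perm.mul_apply, h2])

theorem Phi_mk (g : J2) : Phi (QuotientGroup.mk g) = ((e0.symm g : AG 5) : Pm) 0 := rfl

theorem Phi_inj : Function.Injective Phi := by
  intro a b h
  induction a using QuotientGroup.induction_on with
  | H a =>
  induction b using QuotientGroup.induction_on with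
  | H b =>
  rw [Phi_mk, Phi_mk] at h
  rw [QuotientGroup.eq, mem_HH]
  apply mem_AG4 (e0.symm (a⁻¹ * b)).2
  rw [map_mul, map_inv, Subgroup.coe_mul, Subgroup.coe_inv, Equiv.Perm.mul_apply, ← h]
  exact inv_app _ _

theorem orbit_ncard {x : Fin 100} {l : List ℕ} (hl : ∀ y : Fin 100, (y : ℕ) ∈ l → ∃ a ∈ AG 4, a x = y)
    (hst : l.all (fun x => (List.range 4).all fun k => l.contains (ap (bC k) x)) = true) (hx : (x : ℕ) ∈ l)
    {g : Pm} (hg : g ∈ AG 5) (hgx : g 0 = x) :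
    (MulAction.orbit HH (QuotientGroup.mk (e0 ⟨g, hg⟩) : J2 ⧸ HH)).ncard = {y : Fin 100 | (y : ℕ) ∈ l}.ncard := by
  rw [← Set.ncard_image_of_injective _ Phi_inj]
  congr 1
  ext y
  constructor
  · rintro ⟨_, ⟨h, rfl⟩, rfl⟩
    show ((Phi (QuotientGroup.mk ((h : J2) * e0 ⟨g, hg⟩)) : Fin 100) : ℕ) ∈ l
    rw [Phi_mk, map_mul, MulEquiv.symm_apply_apply, Subgroup.coe_mul, Equiv.Perm.mul_apply]
    show ((((e0.symm (h : J2) : AG 5) : Pm) (g 0) : Fin 100) : ℕ) ∈ l
    rw [hgx]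
    exact stable hst (mem_HH.mp h.2) x hx
  · intro hy
    obtain ⟨a, ha, rfl⟩ := hl y hy
    have hm : e0 ⟨a, AG45 ha⟩ ∈ HH := by
      rw [mem_HH, MulEquiv.symm_apply_apply]; exact ha
    refine ⟨_, ⟨⟨e0 ⟨a, AG45 ha⟩, hm⟩, rfl⟩, ?_⟩
    show Phi (QuotientGroup.mk (e0 ⟨a, AG45 ha⟩ * e0 ⟨g, hg⟩)) = _
    rw [Phi_mk, map_mul, MulEquiv.symm_apply_apply, MulEquiv.symm_apply_apply]
    show a (g 0) = a x
    rw [hgx]

/-- The Hall–Janko group contains PSU(3, 3) with index 100 and acts on the 100 cosets with rank 3 and subdegrees 1, 36, 63. -/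
theorem result : ∃ H : Subgroup Cfsg.Spor.J2, H.index = 100 ∧ (∃ (F : Type) (_ : Field F) (_ : Fintype F), Fintype.card F = 9 ∧ Nonempty (↥H ≃* Cfsg.PSU 3 F 3)) ∧ ∃ c₁ c₂ : Cfsg.Spor.J2 ⧸ H, (MulAction.orbit ↥H c₁).ncard = 36 ∧ (MulAction.orbit ↥H c₂).ncard = 63 := by
  refine ⟨HH, index_HH, ⟨F9, inferInstance, inferInstance, F9.card, ⟨eH.symm.trans equivPSU⟩⟩,
    QuotientGroup.mk (e0 ⟨R1 40, R1_mem 40⟩), QuotientGroup.mk (e0 ⟨R1 80, R1_mem 80⟩), ?_, ?_⟩
  · rw [orbit_ncard (x := 1) (l := O36.map Prod.fst) (fun y hy => in36 hy) inv36 (by decide +kernel) (R1_mem 40) R40, card36]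
  · rw [orbit_ncard (x := 2) (l := O63.map Prod.fst) (fun y hy => in63 hy) inv63 (by decide +kernel) (R1_mem 80) R80, card63]

end Cfsg.Agent.S1624
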