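import Cfsg.Statements.S1626
import Cfsg.Agent.Lib.JThreeOrb

set_option autoImplicit false
open scoped MatrixGroups
open Matrix
open Cfsg

namespace Cfsg.Agent.S1626

open Cfsg.Agent.Lib.JThreeOrb Cfsg.Agent.Lib.K4

/-- coordinates in the computable field -/
def cv {F : Type} [Field F] (φ : F ≃+* K4) (v : Cfsg.Spor.F9 → F) : V := fun z => φ (v z)

theorem cv_smul {F : Type} [Field F] (φ : F ≃+* K4) (c : F) (v : Cfsg.Spor.F9 → F) : cv φ (c • v) = φ c • cv φ v := by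
  funext z
  exact map_mul φ _ _

theorem cv_mulVec {F : Type} [Field F] (φ : F ≃+* K4) (g : GL Cfsg.Spor.F9 F) (v : Cfsg.Spor.F9 → F) :
    cv φ ((g : Matrix Cfsg.Spor.F9 Cfsg.Spor.F9 F) *ᵥ v) =
      ((Cfsg.Agent.Lib.JThree.gl φ g : GL Cfsg.Spor.F9 K4) : Matrix Cfsg.Spor.F9 Cfsg.Spor.F9 K4) *ᵥ cv φ v := by
  rw [Cfsg.Agent.Lib.JThree.gl_val]
  funext z
  exact RingHom.map_mulVec φ.toRingHom _ _ _

theorem cv_single {F : Type} [Field F] (φ : F ≃+* K4) : cv φ (Pi.single (0 : Cfsg.Spor.F9) (1 : F)) = dec 1 := by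
  have h1 : (Pi.single (0 : Cfsg.Spor.F9) (1 : K4) : V) = dec 1 := by decide +kernel
  rw [← h1]
  funext z
  by_cases hz : z = 0
  · subst hz
    simp [cv]
  · simp [cv, Pi.single_eq_of_ne hz]

/-- Orbits of the triple cover of the third Janko group on lines of its 9-space over the field with 4 elements: the line through the first basis vector has exactly 23256 images, and the isotropic lines (nonzero v with Σ v_z³ = 0) form a single orbit. -/
theorem result (F : Type) [Field F] [Fintype F] (hF : Fintype.card F = 4) (ω : F) (hω : ω ^ 2 + ω + 1 = 0) : {L : Submodule F (Cfsg.Spor.F9 → F) | ∃ g ∈ Cfsg.Spor.threeJ3 F ω, L = F ∙ ((g : Matrix Cfsg.Spor.F9 Cfsg.Spor.F9 F) *ᵥ (Pi.single (0 : Cfsg.Spor.F9) (1 : F) : Cfsg.Spor.F9 → F))}.ncard = 23256 ∧ ∀ v w : Cfsg.Spor.F9 → F, v ≠ 0 → w ≠ 0 → ∑ z, (v z) ^ 3 = 0 → ∑ z, (w z) ^ 3 = 0 → ∃ g ∈ Cfsg.Spor.threeJ3 F ω, ∃ c : F, c ≠ 0 ∧ (g : Matrix Cfsg.Spor.F9 Cfsg.Spor.F9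 F) *ᵥ v = c • w := by
  obtain ⟨φ, h⟩ := Cfsg.Agent.Lib.JThree.exists_iso F hF ω hω
  have hpull : ∀ g ∈ Cfsg.Agent.Lib.JThree.H, ∃ g0 ∈ Cfsg.Spor.threeJ3 F ω, Cfsg.Agent.Lib.JThree.gl φ g0 = g := by
    intro g hg
    rw [← Cfsg.Agent.Lib.JThree.map_H h] at hg
    obtain ⟨g0, hg0, e⟩ := hg
    exact ⟨g0, hg0, e⟩
  have hpush : ∀ g0 ∈ Cfsg.Spor.threeJ3 F ω, Cfsg.Agent.Lib.JThree.gl φ g0 ∈ Cfsg.Agent.Lib.JThree.H := by
    intro g0 hg0
    rw [← Cfsg.Agent.Lib.JThree.map_H h]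
    exact ⟨g0, hg0, rfl⟩
  have hinj : ∀ v w : Cfsg.Spor.F9 → F, cv φ v = cv φ w → v = w := by
    intro v w e
    funext z
    exact φ.injective (congrFun e z)
  constructor
  · have hset : {L : Submodule F (Cfsg.Spor.F9 → F) | ∃ g ∈ Cfsg.Spor.threeJ3 F ω, L = F ∙ ((g : Matrix Cfsg.Spor.F9 Cfsg.Spor.F9 F) *ᵥ (Pi.single (0 : Cfsg.Spor.F9) (1 : F) : Cfsg.Spor.F9 → F))} =
        (fun n => F ∙ (fun z => φ.symm (dec n z) : Cfsg.Spor.F9 → F)) '' (((Finset.range 262144).filter fun n => cntF n = true : Finset ℕ) : Set ℕ) := by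
      ext L
      constructor
      · rintro ⟨g, hg, rfl⟩
        obtain ⟨n, hn, hn1, hn2⟩ := orbit_one (hpush g hg)
        obtain ⟨m, hm, c, hc, hc2⟩ := exists_rep hn hn1
        refine ⟨m, Finset.mem_coe.2 (Finset.mem_filter.2 ⟨Finset.mem_range.2 hm.1, hm.2⟩), ?_⟩
        show F ∙ (fun z => φ.symm (dec m z) : Cfsg.Spor.F9 → F) = _
        refine (Submodule.span_singleton_eq_span_singleton.2 ⟨Units.mk0 (φ.symm c) (by simpa using hc), ?_⟩).symm
        apply hinj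
        rw [Units.smul_def, Units.val_mk0, cv_smul, cv_mulVec, cv_single, hn2, φ.apply_symm_apply, hc2]
        funext z
        exact (φ.apply_symm_apply _).symm
      · rintro ⟨n, hn, rfl⟩
        obtain ⟨hn1, hn2⟩ := Finset.mem_filter.1 (Finset.mem_coe.1 hn)
        obtain ⟨g, hg, hg2⟩ := one_orbit (Finset.mem_range.1 hn1) ((cntF_iff n).1 hn2).1
        obtain ⟨g0, hg0, rfl⟩ := hpull g hg
        refine ⟨g0, hg0, ?_⟩
        show F ∙ (fun z => φ.symm (dec n z) : Cfsg.Spor.F9 → F) = _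
        congr 2
        apply hinj
        rw [cv_mulVec, cv_single, hg2]
        funext z
        exact φ.apply_symm_apply _
    rw [hset, Set.ncard_image_of_injOn, Set.ncard_coe_finset, card_rep]
    intro n hn m hm e
    obtain ⟨hn1, hn2⟩ := Finset.mem_filter.1 (Finset.mem_coe.1 hn)
    obtain ⟨hm1, hm2⟩ := Finset.mem_filter.1 (Finset.mem_coe.1 hm)
    obtain ⟨c, hc⟩ := Submodule.span_singleton_eq_span_singleton.1 e
    refine rep_inj ⟨Finset.mem_range.1 hn1, hn2⟩ ⟨Finset.mem_range.1 hm1, hm2⟩ (c := φ c) ?_ ?_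
    · rw [Ne, map_eq_zero_iff φ φ.injective]
      exact c.ne_zero
    · have h1 := congrArg (cv φ) hc
      rw [Units.smul_def, cv_smul] at h1
      have h2 : ∀ k, cv φ (fun z => φ.symm (dec k z)) = dec k := fun k => funext fun z => φ.apply_symm_apply _
      rw [h2, h2] at h1
      exact h1
  · intro v w hv hw hv2 hw2
    have hcs : ∀ u : Cfsg.Spor.F9 → F, ∑ z, (u z) ^ 3 = 0 → cs (cv φ u) = 0 := by
      intro u hu
      have h1 := congrArg φ hu
      rw [map_sum, map_zero] at h1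
      rw [← h1]
      exact Finset.sum_congr rfl fun z _ => (map_pow φ _ _).symm
    have hne : ∀ u : Cfsg.Spor.F9 → F, u ≠ 0 → cv φ u ≠ 0 := by
      intro u hu hc
      apply hu
      apply hinj
      rw [hc]
      funext z
      exact (map_zero φ).symm
    obtain ⟨g, hg, hg2⟩ := iso_orbit (hne v hv) (hne w hw) (hcs v hv2) (hcs w hw2)
    obtain ⟨g0, hg0, rfl⟩ := hpull g hg
    refine ⟨g0, hg0, 1, one_ne_zero, ?_⟩
    apply hinj
    rw [one_smul, cv_mulVec, hg2]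

end Cfsg.Agent.S1626
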