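import Cfsg.Statements.S1629
import Cfsg.Agent.Lib.ClThreeTrans
import Cfsg.Agent.Lib.ClOmega

set_option autoImplicit false
open scoped MatrixGroups
open Cfsg

namespace Cfsg.Agent.S1629

open Cfsg.Agent.Lib Cfsg.Agent.Lib.Quad

theorem exists_nonsingular {V : Type*} [AddCommGroup V] [Module (ZMod 2) V] {Q : QuadraticForm (ZMod 2) V} (hQ : Nd Q)
    (x : V) (hx : x ≠ 0) : ∃ v, Q v ≠ 0 := by
  by_contra h
  push Not at h
  apply hx
  apply hQ.eq_zero
  intro y
  simp only [QuadraticMap.polar, h, sub_zero]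

/-- The orthogonal transvections of the plus-type orthogonal group in dimension 2m ≥ 6 over the field with two elements form a generating conjugacy class of 3-transpositions. -/
theorem result (m : ℕ) (hm : 3 ≤ m) : Cfsg.IsThreeTranspositionClass {g : ↥(Cfsg.isometryGroup (ZMod 2) (Cfsg.quadFormPlus m (ZMod 2))) | (((g : GL (Fin m ⊕ Fin m) (ZMod 2)) : Matrix (Fin m ⊕ Fin m) (Fin m ⊕ Fin m) (ZMod 2)) - 1).rank = 1} := by
  rw [← coe_quadPlus]
  refine ClThreeTrans.main_matrix (quadPlus m (ZMod 2)) nd_quadPlus (ClOmega.genHyp_plus m hm) ?_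
  exact exists_nonsingular nd_quadPlus (fun _ => 1) (fun h => one_ne_zero (congrFun h (Sum.inl ⟨0, by omega⟩)))

end Cfsg.Agent.S1629
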