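import Cfsg.Statements.S1632
import Cfsg.Agent.Lib.ThForm

set_option autoImplicit false
open Matrix
open Cfsg

namespace Cfsg.Agent.S1632

/-- An even unimodular lattice of rank 24 without roots has 196560, 16773120 and 398034000 vectors of norms 4, 6 and 8. -/
theorem result (B : Matrix (Fin 24) (Fin 24) ℤ) (hsymm : B.IsSymm) (hpos : ∀ x : Fin 24 → ℤ, x ≠ 0 → 0 < x ⬝ᵥ (B *ᵥ x)) (heven : ∀ x : Fin 24 → ℤ, (2 : ℤ) ∣ x ⬝ᵥ (B *ᵥ x)) (hdet : B.det = 1) (h2 : ∀ x : Fin 24 → ℤ, x ⬝ᵥ (B *ᵥ x) ≠ 2) : {x : Fin 24 → ℤ | x ⬝ᵥ (B *ᵥ x) = 4}.ncard = 196560 ∧ {x : Fin 24 → ℤ | x ⬝ᵥ (B *ᵥ x) = 6}.ncard = 16773120 ∧ {x : Fin 24 → ℤ | x ⬝ᵥ (B *ᵥ x) = 8}.ncard = 398034000 := by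
  obtain ⟨h4, h6, h8⟩ := Cfsg.Agent.Lib.ThForm.counts hsymm hpos hdet heven h2
  refine ⟨?_, ?_, ?_⟩
  · rw [← h4]; norm_num [Cfsg.Agent.Lib.ThForm.rr, Cfsg.Agent.Lib.ThLat.qf]
  · rw [← h6]; norm_num [Cfsg.Agent.Lib.ThForm.rr, Cfsg.Agent.Lib.ThLat.qf]
  · rw [← h8]; norm_num [Cfsg.Agent.Lib.ThForm.rr, Cfsg.Agent.Lib.ThLat.qf]

end Cfsg.Agent.S1632
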