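import Cfsg.Statements.S1633
import Cfsg.Agent.Lib.H8LU35

set_option autoImplicit false
open Cfsg

namespace Cfsg.Agent.S1633

section
open Cfsg Cfsg.Agent.Lib Cfsg.Agent.Lib.Golay Cfsg.Agent.Lib.LeechChain Cfsg.Agent.Lib.LeechCount Cfsg.Agent.Lib.LeechCo2 Cfsg.Agent.Lib.LeechXi Cfsg.Agent.Lib.LeechMin
open Cfsg.Agent.Lib.H8LU Cfsg.Agent.Lib.H8LUHS Cfsg.Agent.Lib.GolayCoset Cfsg.Agent.Lib.LeechTrans Cfsg.Agent.Lib.LeechFrame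
  Cfsg.Agent.Lib.LeechOrder Cfsg.Agent.Lib.LeechMod Cfsg.Agent.Lib.LeechQuot

theorem std352 {v u x : leechLattice} (hu : sqNorm (u : GolayPt → ℤ) = 32) (hv : v ∈ cls [(u, 16)] 48)
    (hx : x ∈ cls [(v, 16), (u, -8)] 32) :
    ∃ k : Co0, k • v = U none ∧ k • u = S hab ∧ k • x = O2 (mset 5279) octP_mem := by
  obtain ⟨k, hk1, hk2⟩ := stdHS hu hv
  have h1 : k • x ∈ cls [(U none, 16), (S hab, -8)] 32 := by
    have := (mem_cls_smul k).1 hx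
    simp only [List.map_cons, List.map_nil, hk1, hk2] at this
    exact this
  obtain ⟨h, hh, h2⟩ := chain352.1 _ h1
  rw [mem_fix2] at hh
  refine ⟨h⁻¹ * k, ?_, ?_, ?_⟩
  · rw [mul_smul, hk1, inv_smul_eq_iff, hh.1]
  · rw [mul_smul, hk2, inv_smul_eq_iff, hh.2]
  · rw [mul_smul, inv_smul_eq_iff, h2]

theorem count352 {v u : leechLattice} (hu : sqNorm (u : GolayPt → ℤ) = 32) (hv : v ∈ cls [(u, 16)] 48) :
    (cls [(v, 16), (u, -8)] 32).ncard = 352 := by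
  obtain ⟨k, hk1, hk2⟩ := stdHS hu hv
  rw [ncard_cls_smul k]
  simp only [List.map_cons, List.map_nil, hk1, hk2]
  exact cls352

theorem set352 {v w : leechLattice} :
    {x : leechLattice | sqNorm (x : GolayPt → ℤ) = 32 ∧ dotInt (v : GolayPt → ℤ) (x : GolayPt → ℤ) = 16 ∧
      dotInt (w : GolayPt → ℤ) (x : GolayPt → ℤ) = -24} = cls [(v, 16), (v + w, -8)] 32 := by
  ext x
  rw [Set.mem_ofPred_eq, mem_cls2, AddSubgroup.coe_add, dot_add_left]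
  constructor
  · rintro ⟨h1, h2, h3⟩; exact ⟨h1, h2, by omega⟩
  · rintro ⟨h1, h2, h3⟩; exact ⟨h1, h2, by omega⟩

theorem closed352 {v w x : leechLattice} (hw : sqNorm (w : GolayPt → ℤ) = 48)
    (hvw : dotInt (v : GolayPt → ℤ) (w : GolayPt → ℤ) = -32)
    (h1 : sqNorm (x : GolayPt → ℤ) = 32) (h2 : dotInt (v : GolayPt → ℤ) (x : GolayPt → ℤ) = 16)
    (h3 : dotInt (w : GolayPt → ℤ) (x : GolayPt → ℤ) = -24) :
    sqNorm ((-w - x : leechLattice) : GolayPt → ℤ) = 32 ∧ dotInt (v : GolayPt → ℤ) ((-w - x : leechLattice) : GolayPt → ℤ) = 16 ∧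
      dotInt (w : GolayPt → ℤ) ((-w - x : leechLattice) : GolayPt → ℤ) = -24 := by
  have e : ((-w - x : leechLattice) : GolayPt → ℤ) = -((w : GolayPt → ℤ) + (x : GolayPt → ℤ)) := by
    rw [AddSubgroup.coe_sub, coe_neg']; abel
  have hww : dotInt (w : GolayPt → ℤ) (w : GolayPt → ℤ) = sqNorm (w : GolayPt → ℤ) := by
    unfold dotInt sqNorm; exact Finset.sum_congr rfl fun i _ => by ring
  have hr : ∀ y z t : GolayPt → ℤ, dotInt y (z + t) = dotInt y z + dotInt y t := by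
    intro y z t
    rw [dot_comm y, dot_add_left, dot_comm z, dot_comm t]
  rw [e]
  refine ⟨?_, ?_, ?_⟩
  · rw [sqNorm_neg, sqNorm_add, hw, h1, h3]; norm_num
  · rw [dot_neg_right, hr, hvw, h2]; norm_num
  · rw [dot_neg_right, hr, hww, hw, h3]; norm_num

theorem stab352 {v w x : leechLattice} (hv : sqNorm (v : GolayPt → ℤ) = 48) (hw : sqNorm (w : GolayPt → ℤ) = 48)
    (hvw : dotInt (v : GolayPt → ℤ) (w : GolayPt → ℤ) = -32) (hx : x ∈ cls [(v, 16), (v + w, -8)] 32)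
    (F : Type) [Field F] [Fintype F] (hF : Fintype.card F = 25) :
    Nonempty (↥(MulAction.stabilizer Co0 v ⊓ MulAction.stabilizer Co0 w ⊓ MulAction.stabilizer Co0 x) ≃* PSU 3 F 5) := by
  obtain ⟨hu, hv'⟩ := hs_sum hv hw hvw
  obtain ⟨k, h1, h2, h3⟩ := std352 hu hv' hx
  obtain ⟨e1⟩ := smul_fix_congr (k := k) [O2 (mset 5279) octP_mem, U none, S hab]
    (MulAction.stabilizer Co0 v ⊓ MulAction.stabilizer Co0 w ⊓ MulAction.stabilizer Co0 x) (by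
      intro g
      rw [mem_fix3, conj_fix h1, conj_fix h2, conj_fix h3, Subgroup.mem_inf, Subgroup.mem_inf,
        MulAction.mem_stabilizer_iff, MulAction.mem_stabilizer_iff, MulAction.mem_stabilizer_iff]
      constructor
      · rintro ⟨⟨a, b⟩, c⟩
        exact ⟨c, a, by rw [smul_add', a, b]⟩
      · rintro ⟨c, a, b⟩
        rw [smul_add', a] at b
        exact ⟨⟨a, add_left_cancel b⟩, c⟩)
  obtain ⟨e2⟩ := H8LU35.iso
  obtain ⟨e3⟩ := fieldEquiv (F := F) (E := H10U35.K25) (by rw [hF, H10U35.card_K25]; norm_num)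
  exact ⟨(e1.trans e2).trans ((H3Prj.equivPSU (n := 3) (F := H10U35.K25) (q := 5) H10U35.card_K25 (by norm_num)).trans
    (SUTransport.psuEquiv e3 3 5).symm)⟩

end

/-- The Higman–Sims group acts transitively on 352 vectors, a set closed under x ↦ −w − x, with vector stabiliser isomorphic to PSU(3, 5). -/
theorem result (v w : ↥Cfsg.leechLattice) (hv : Cfsg.sqNorm (v : Cfsg.GolayPt → ℤ) = 48) (hw : Cfsg.sqNorm (w : Cfsg.GolayPt → ℤ) = 48) (hvw : Cfsg.dotInt (v : Cfsg.GolayPt → ℤ) (w : Cfsg.GolayPt → ℤ) = -32) (F : Type) [Field F] [Fintype F] (hF : Fintype.card F = 25) : {x : ↥Cfsg.leechLattice | Cfsg.sqNorm (x : Cfsg.GolayPt → ℤ) = 32 ∧ Cfsg.dotInt (v : Cfsg.GolayPt → ℤ) (x : Cfsg.GolayPt → ℤ) = 16 ∧ Cfsg.dotInt (w : Cfsg.GolayPt → ℤ) (x : Cfsg.GolayPt → ℤ) = -24}.ncard = 352 ∧ (∀ x ∈ {x : ↥Cfsg.leechLattice | Cfsg.sqNorm (x : Cfsg.GolayPt →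 ℤ) = 32 ∧ Cfsg.dotInt (v : Cfsg.GolayPt → ℤ) (x : Cfsg.GolayPt → ℤ) = 16 ∧ Cfsg.dotInt (w : Cfsg.GolayPt → ℤ) (x : Cfsg.GolayPt → ℤ) = -24}, -w - x ∈ {x : ↥Cfsg.leechLattice | Cfsg.sqNorm (x : Cfsg.GolayPt → ℤ) = 32 ∧ Cfsg.dotInt (v : Cfsg.GolayPt → ℤ) (x : Cfsg.GolayPt → ℤ) = 16 ∧ Cfsg.dotInt (w : Cfsg.GolayPt → ℤ) (x : Cfsg.GolayPt → ℤ) = -24}) ∧ (∀ x ∈ {x : ↥Cfsg.leechLattice | Cfsg.sqNorm (x : Cfsg.GolayPt → ℤ) = 32 ∧ Cfsg.dotInt (v : Cfsg.GolayPt → ℤ) (x : Cfsg.GolayPt → ℤ) = 16 ∧ Cfsg.dotInt (w : Cfsg.GolayPt → ℤ) (x : Cfsg.GolayPt → ℤ) = -24}, ∀ x' ∈ {x : ↥Cfsg.leechLattice | Cfsg.sqNorm (x : Cfsg.GolayPt → ℤ) = 32 ∧ Cfsg.dotInt (v : Cfsg.GolayPt → ℤ) (x : Cfsg.GolayPt → ℤ) = 16 ∧ Cfsg.dotInt (w : Cfsg.GolayPt → ℤ) (x : Cfsg.GolayPt → ℤ) = -24}, ∃ g : ↥Cfsg.Co0, g • v = v ∧ g • w = w ∧ g • x = x') ∧ ∀ x ∈ {x : ↥Cfsg.leechLattice | Cfsg.sqNorm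 (x : Cfsg.GolayPt → ℤ) = 32 ∧ Cfsg.dotInt (v : Cfsg.GolayPt → ℤ) (x : Cfsg.GolayPt → ℤ) = 16 ∧ Cfsg.dotInt (w : Cfsg.GolayPt → ℤ) (x : Cfsg.GolayPt → ℤ) = -24}, Nonempty (↥(MulAction.stabilizer ↥Cfsg.Co0 v ⊓ MulAction.stabilizer ↥Cfsg.Co0 w ⊓ MulAction.stabilizer ↥Cfsg.Co0 x) ≃* Cfsg.PSU 3 F 5) := by
  obtain ⟨hu, hv'⟩ := Cfsg.Agent.Lib.LeechChain.hs_sum hv hw hvw
  refine ⟨?_, ?_, ?_, ?_⟩
  · rw [set352]
    exact count352 hu hv'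
  · rintro x ⟨h1, h2, h3⟩
    exact closed352 hw hvw h1 h2 h3
  · intro x hx x' hx'
    rw [set352] at hx hx'
    obtain ⟨k, h1, h2, h3⟩ := std352 hu hv' hx
    obtain ⟨k', h1', h2', h3'⟩ := std352 hu hv' hx'
    have e1 := Cfsg.Agent.Lib.LeechChain.comp_std h1 h1'
    have e2 := Cfsg.Agent.Lib.LeechChain.comp_std h2 h2'
    refine ⟨k'⁻¹ * k, e1, ?_, Cfsg.Agent.Lib.LeechChain.comp_std h3 h3'⟩
    rw [Cfsg.Agent.Lib.LeechTrans.smul_add', e1] at e2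
    exact add_left_cancel e2
  · intro x hx
    rw [set352] at hx
    exact stab352 hv hw hvw hx F hF

end Cfsg.Agent.S1633
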