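import Cfsg.Statements.S1634
import Cfsg.Agent.Lib.LeechRank2

set_option autoImplicit false
open Cfsg

namespace Cfsg.Agent.S1634

/-- The McLaughlin group acts on 2025 points (minimal vectors orthogonal to v with customary inner product 2 with w) transitively with rank 4 and subdegrees 1, 330, 462, 1232. -/
theorem result (v w : ↥Cfsg.leechLattice) (hv : Cfsg.sqNorm (v : Cfsg.GolayPt → ℤ) = 32) (hw : Cfsg.sqNorm (w : Cfsg.GolayPt → ℤ) = 32) (hvw : Cfsg.dotInt (v : Cfsg.GolayPt → ℤ) (w : Cfsg.GolayPt → ℤ) = -8) : {x : ↥Cfsg.leechLattice | Cfsg.sqNorm (x : Cfsg.GolayPt → ℤ) = 32 ∧ Cfsg.dotInt (v : Cfsg.GolayPt → ℤ) (x : Cfsg.GolayPt → ℤ) = 0 ∧ Cfsg.dotInt (w : Cfsg.GolayPt → ℤ) (x : Cfsg.GolayPt → ℤ) = 16}.ncard = 2025 ∧ (∀ x ∈ {x : ↥Cfsg.leechLattice | Cfsg.sqNorm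 (x : Cfsg.GolayPt → ℤ) = 32 ∧ Cfsg.dotInt (v : Cfsg.GolayPt → ℤ) (x : Cfsg.GolayPt → ℤ) = 0 ∧ Cfsg.dotInt (w : Cfsg.GolayPt → ℤ) (x : Cfsg.GolayPt → ℤ) = 16}, ∀ x' ∈ {x : ↥Cfsg.leechLattice | Cfsg.sqNorm (x : Cfsg.GolayPt → ℤ) = 32 ∧ Cfsg.dotInt (v : Cfsg.GolayPt → ℤ) (x : Cfsg.GolayPt → ℤ) = 0 ∧ Cfsg.dotInt (w : Cfsg.GolayPt → ℤ) (x : Cfsg.GolayPt → ℤ) = 16}, ∃ g : ↥Cfsg.Co0, g • v = v ∧ g • w = w ∧ g • x = x') ∧ ∀ x ∈ {x : ↥Cfsg.leechLattice | Cfsg.sqNorm (x : Cfsg.GolayPt → ℤ) = 32 ∧ Cfsg.dotInt (v : Cfsg.GolayPt → ℤ) (x : Cfsg.GolayPt → ℤ) = 0 ∧ Cfsg.dotInt (w : Cfsg.GolayPt → ℤ) (x : Cfsg.GolayPt → ℤ) = 16}, ∃ y₁ ∈ {x : ↥Cfsg.leechLattice | Cfsg.sqNorm (x : Cfsg.GolayPt → ℤ) = 32 ∧ Cfsg.dotInt (v : Cfsg.GolayPt → ℤ) (x : Cfsg.GolayPt → ℤ) = 0 ∧ Cfsg.dotInt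 (w : Cfsg.GolayPt → ℤ) (x : Cfsg.GolayPt → ℤ) = 16}, ∃ y₂ ∈ {x : ↥Cfsg.leechLattice | Cfsg.sqNorm (x : Cfsg.GolayPt → ℤ) = 32 ∧ Cfsg.dotInt (v : Cfsg.GolayPt → ℤ) (x : Cfsg.GolayPt → ℤ) = 0 ∧ Cfsg.dotInt (w : Cfsg.GolayPt → ℤ) (x : Cfsg.GolayPt → ℤ) = 16}, ∃ y₃ ∈ {x : ↥Cfsg.leechLattice | Cfsg.sqNorm (x : Cfsg.GolayPt → ℤ) = 32 ∧ Cfsg.dotInt (v : Cfsg.GolayPt → ℤ) (x : Cfsg.GolayPt → ℤ) = 0 ∧ Cfsg.dotInt (w : Cfsg.GolayPt → ℤ) (x : Cfsg.GolayPt → ℤ) = 16}, (MulAction.orbit ↥(MulAction.stabilizer ↥Cfsg.Co0 v ⊓ MulAction.stabilizer ↥Cfsg.Co0 w ⊓ MulAction.stabilizer ↥Cfsg.Co0 x) y₁).ncard = 330 ∧ (MulAction.orbit ↥(MulAction.stabilizer ↥Cfsg.Co0 v ⊓ MulAction.stabilizer ↥Cfsg.Co0 w ⊓ MulAction.stabilizer ↥Cfsg.Co0 x) y₂).ncard = 462 ∧ (MulAction.orbit ↥(MulAction.stabilizer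 ↥Cfsg.Co0 v ⊓ MulAction.stabilizer ↥Cfsg.Co0 w ⊓ MulAction.stabilizer ↥Cfsg.Co0 x) y₃).ncard = 1232 := by
  open Cfsg Cfsg.Agent.Lib.LeechChain in
  obtain ⟨h1, h2⟩ := mcl_sum hv hw hvw
  rw [set2025]
  refine ⟨count2025 h1 h2, fun x hx x' hx' => ?_, fun x hx => ?_⟩
  · obtain ⟨g, e1, e2, e3⟩ := trans2025 h1 h2 hx hx'
    refine ⟨g, e2, ?_, e3⟩
    rw [Cfsg.Agent.Lib.LeechTrans.smul_add', e2] at e1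
    exact add_left_cancel e1
  · obtain ⟨y1, m1, n1⟩ := orbit_mcl _ rfl h1 h2 hx mem330 chain330 cls330
    obtain ⟨y2, m2, n2⟩ := orbit_mcl _ rfl h1 h2 hx mem462 chain462 cls462
    obtain ⟨y3, m3, n3⟩ := orbit_mcl _ rfl h1 h2 hx mem1232 chain1232 cls1232
    exact ⟨y1, m1, y2, m2, y3, m3, n1, n2, n3⟩

end Cfsg.Agent.S1634
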