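import Cfsg.Statements.S1635
import Cfsg.Agent.Lib.GolayCoset

set_option autoImplicit false
open Cfsg
namespace Cfsg.Agent.S1635

open Cfsg.Agent.Lib.Golay Cfsg.Agent.Lib.GolayCoset

/-- Coset leaders of the length-24 code: a coset contains a unique word of weight ≤ 3, or else exactly six words of weight 4 and none lighter. -/
theorem result (w : Cfsg.GolayPt → ZMod 2) : ({v : Cfsg.GolayPt → ZMod 2 | hammingNorm v ≤ 4 ∧ w - v ∈ Cfsg.golayCode}.ncard = 1 ∧ ∃ v : Cfsg.GolayPt → ZMod 2, hammingNorm v ≤ 3 ∧ w - v ∈ Cfsg.golayCode) ∨ ({v : Cfsg.GolayPt → ZMod 2 | hammingNorm v ≤ 4 ∧ w - v ∈ Cfsg.golayCode}.ncard = 6 ∧ ∀ v : Cfsg.GolayPt → ZMod 2, w - v ∈ Cfsg.golayCode → hammingNorm v ≤ 4 → hammingNorm v = 4) := by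
  by_cases h3 : ∃ v : GolayPt → ZMod 2, hammingNorm v ≤ 3 ∧ w - v ∈ golayCode
  · left
    refine ⟨?_, h3⟩
    obtain ⟨v, hv, hvw⟩ := h3
    rw [Set.ncard_eq_one]
    refine ⟨v, ?_⟩
    ext v'
    rw [Set.mem_singleton_iff]
    constructor
    · rintro ⟨h1, h2⟩
      apply support₂_injective
      rw [sub_mem_iff] at h2 hvw
      apply eq_of_small
      · refine trans_mem ?_ hvw
        rw [symmDiff_comm]; exact h2
      · rw [← hammingNorm_eq, ← hammingNorm_eq]; omega
    · rintro rfl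
      exact ⟨by omega, hvw⟩
  · right
    have h4 : ∀ v : GolayPt → ZMod 2, w - v ∈ golayCode → hammingNorm v ≤ 4 → hammingNorm v = 4 := by
      intro v h1 h2
      by_contra h5
      exact h3 ⟨v, by omega, h1⟩
    refine ⟨?_, h4⟩
    obtain ⟨t, ht4, ht⟩ := exists_leader (support₂ w)
    have hwt : w - wordOf t ∈ golayCode := by
      rw [sub_mem_iff, support₂_wordOf]; exact ht
    have htc : t.card = 4 := by
      have := h4 _ hwt (by rw [hammingNorm_eq, support₂_wordOf]; exact ht4)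
      rwa [hammingNorm_eq, support₂_wordOf] at this
    rw [← card_sextetOf htc, ← Set.ncard_coe_finset]
    refine Set.ncard_congr (fun v _ => support₂ v) ?_ ?_ ?_
    · rintro v ⟨h1, h2⟩
      rw [Finset.mem_coe, mem_sextetOf]
      refine ⟨h4 v h2 h1, ?_⟩
      rw [sub_mem_iff] at h2
      refine trans_mem ?_ h2
      rw [symmDiff_comm]; exact ht
    · intro v v' _ _ h
      exact support₂_injective h
    · intro s hs
      rw [Finset.mem_coe, mem_sextetOf] at hs
      refine ⟨wordOf s, ⟨?_, ?_⟩, support₂_wordOf s⟩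
      · rw [hammingNorm_eq, support₂_wordOf, hs.1]
      · rw [sub_mem_iff, support₂_wordOf]
        exact trans_mem ht hs.2

end Cfsg.Agent.S1635
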