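import Cfsg.Statements.S1637
import Cfsg.Agent.Lib.GolayPunct

set_option autoImplicit false
open Cfsg
namespace Cfsg.Agent.S1637

open Cfsg.Agent.Lib.Golay Cfsg.Agent.Lib.GolayCoset Cfsg.Agent.Lib.GolayPunct

theorem code_even {w : GolayPt → ZMod 2} (hw : w ∈ golayCode) : ∑ p, w p = 0 := by
  have := golay_dot w 1 hw (Submodule.subset_span (Set.mem_union_right _ rfl))
  simpa using this

theorem sum_eq_card (v : GolayPt → ZMod 2) : ∑ p, v p = ((hammingNorm v : ℕ) : ZMod 2) := by
  rw [hammingNorm, Finset.card_filter, Nat.cast_sum]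
  apply Finset.sum_congr rfl
  intro p _
  generalize v p = a
  revert a
  decide

/-- The punctured length-23 code is a perfect 3-error-correcting code: each word of length 23 is within distance 3 of exactly one codeword. -/
theorem result (u : ZMod 23 → ZMod 2) : ∃! c : ZMod 23 → ZMod 2, c ∈ {u : ZMod 23 → ZMod 2 | ∃ w ∈ Cfsg.golayCode, ∀ x : ZMod 23, u x = w (some x)} ∧ hammingDist u c ≤ 3 := by
  -- extend `u` to a word of odd weight
  set s : ZMod 2 := ∑ x, u x with hs
  let w : GolayPt → ZMod 2 := fun p => match p with
    | none => s + 1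
    | some x => u x
  have hw : ∑ p, w p = 1 := by
    rw [Fintype.sum_option]
    show s + 1 + ∑ x, u x = 1
    rw [← hs]
    generalize s = a
    revert a
    decide
  obtain ⟨t, ht4, ht⟩ := exists_leader (support₂ w)
  set v := wordOf t with hv
  have hwv : w - v ∈ golayCode := by
    rw [sub_mem_iff, hv, support₂_wordOf]; exact ht
  have hvn : hammingNorm v ≤ 4 := by
    rw [hammingNorm_eq, hv, support₂_wordOf]; exact ht4
  have hodd : ((hammingNorm v : ℕ) : ZMod 2) = 1 := by
    rw [← sum_eq_card]
    have h1 := code_even hwv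
    simp only [Pi.sub_apply, Finset.sum_sub_distrib, hw] at h1
    exact (sub_eq_zero.mp h1).symm
  have hv3 : hammingNorm v ≤ 3 := by
    have : hammingNorm v ≠ 4 := by
      intro h
      rw [h] at hodd
      exact absurd hodd (by decide)
    omega
  refine ⟨fun x => (w - v) (some x), ⟨⟨w - v, hwv, fun x => rfl⟩, ?_⟩, ?_⟩
  · refine le_trans ?_ hv3
    rw [hammingDist, hammingNorm]
    have : (Finset.univ.filter fun x => u x ≠ (w - v) (some x)).map ⟨some, Option.some_injective _⟩ ⊆
        Finset.univ.filter fun p => v p ≠ 0 := by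
      intro p hp
      rw [Finset.mem_map] at hp
      obtain ⟨x, hx, rfl⟩ := hp
      rw [Finset.mem_filter] at hx ⊢
      refine ⟨Finset.mem_univ _, fun h => hx.2 ?_⟩
      show u x = w (some x) - v (some x)
      rw [show v (some x) = 0 from h, sub_zero]
    calc _ = ((Finset.univ.filter fun x => u x ≠ (w - v) (some x)).map
          ⟨some, Option.some_injective _⟩).card := (Finset.card_map _).symm
      _ ≤ _ := Finset.card_le_card this
  · rintro c ⟨hc, hd⟩
    set c₀ : ZMod 23 → ZMod 2 := fun x => (w - v) (some x) with hc₀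
    have hc₀m : c₀ ∈ C23 := ⟨w - v, hwv, fun x => rfl⟩
    by_contra hne
    have h1 := seven_le (sub_mem_C23 hc hc₀m) (sub_ne_zero.mpr hne)
    have h1' : hammingNorm (c - c₀) = hammingDist c c₀ := by
      unfold hammingNorm hammingDist
      congr 1
      ext x
      simp only [Finset.mem_filter, Finset.mem_univ, true_and, Pi.sub_apply, sub_ne_zero]
    rw [h1'] at h1
    have h2 : hammingDist u c₀ ≤ 3 := by
      refine le_trans ?_ hv3
      rw [hammingDist, hammingNorm]
      have : (Finset.univ.filter fun x => u x ≠ (w - v) (some x)).map ⟨some, Option.some_injective _⟩ ⊆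
          Finset.univ.filter fun p => v p ≠ 0 := by
        intro p hp
        rw [Finset.mem_map] at hp
        obtain ⟨x, hx, rfl⟩ := hp
        rw [Finset.mem_filter] at hx ⊢
        refine ⟨Finset.mem_univ _, fun h => hx.2 ?_⟩
        show u x = w (some x) - v (some x)
        rw [show v (some x) = 0 from h, sub_zero]
      calc _ = ((Finset.univ.filter fun x => u x ≠ (w - v) (some x)).map
            ⟨some, Option.some_injective _⟩).card := (Finset.card_map _).symm
        _ ≤ _ := Finset.card_le_card this
    have h3 := hammingDist_triangle c u c₀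
    rw [hammingDist_comm c u] at h3
    omega

end Cfsg.Agent.S1637
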