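import Cfsg.Statements.S1638
import Cfsg.Agent.Lib.GolayPairs93
import Cfsg.Agent.Lib.GolayElts

set_option autoImplicit false
open scoped Pointwise
open Cfsg

namespace Cfsg.Agent.S1638

/-- Fix two points p ≠ q and a pair s of two further points. Among the pairs avoiding p, q and disjoint from s, exactly 30 lie in an octad together with p, q and s and exactly 160 do not; and any two pairs other than s that meet s in equally many points and agree on that octad property are carried to one another by an element of the group of the length-24 code fixing p, q and s. -/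
theorem result (p q : Cfsg.GolayPt) (hpq : p ≠ q) (s : Finset Cfsg.GolayPt) (hs : (s.card = 2 ∧ p ∉ s ∧ q ∉ s)) : {t : Finset Cfsg.GolayPt | (t.card = 2 ∧ p ∉ t ∧ q ∉ t) ∧ Disjoint s t ∧ (∃ o ∈ Cfsg.octads, p ∈ o ∧ q ∈ o ∧ s ∪ t ⊆ o)}.ncard = 30 ∧ {t : Finset Cfsg.GolayPt | (t.card = 2 ∧ p ∉ t ∧ q ∉ t) ∧ Disjoint s t ∧ ¬ (∃ o ∈ Cfsg.octads, p ∈ o ∧ q ∈ o ∧ s ∪ t ⊆ o)}.ncard = 160 ∧ ∀ t t' : Finset Cfsg.GolayPt, (t.card = 2 ∧ p ∉ t ∧ q ∉ t) → (t'.card = 2 ∧ p ∉ t' ∧ q ∉ t') → t ≠ s → t' ≠ s → (s ∩ t).card = (s ∩ t').card → ((∃ o ∈ Cfsg.octads, p ∈ o ∧ q ∈ o ∧ s ∪ t ⊆ o) ↔ (∃ o ∈ Cfsg.octads, p ∈ o ∧ q ∈ o ∧ s ∪ t' ⊆ o)) → ∃ g : Equiv.Perm Cfsg.GolayPt, g ∈ Cfsg.M24 ∧ g p = p ∧ g q = q ∧ g • s = s ∧ g • t = t' := by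
  classical
  obtain ⟨a, b, hab, rfl⟩ := Finset.card_eq_two.mp hs.1
  obtain ⟨-, hps, hqs⟩ := hs
  simp only [Finset.mem_insert, Finset.mem_singleton, not_or] at hps hqs
  obtain ⟨hpa, hpb⟩ := hps
  obtain ⟨hqa, hqb⟩ := hqs
  have hpn : ∀ i < 24, ∀ j < 24, i ≠ j → Lib.Golay.pt i ≠ Lib.Golay.pt j := fun i hi j hj h => Lib.Golay.pt_ne hi hj h
  obtain ⟨k, hk, k1, k2, k3, k4⟩ := Lib.Golay.exists_four (a := Lib.Golay.pt 23) (b := Lib.Golay.pt 0)
    (c := Lib.Golay.pt 1) (d := Lib.Golay.pt 2) (a' := p) (b' := q) (c' := a) (d' := b)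
    (hpn _ (by norm_num) _ (by norm_num) (by norm_num)) (hpn _ (by norm_num) _ (by norm_num) (by norm_num))
    (hpn _ (by norm_num) _ (by norm_num) (by norm_num)) (hpn _ (by norm_num) _ (by norm_num) (by norm_num))
    (hpn _ (by norm_num) _ (by norm_num) (by norm_num)) (hpn _ (by norm_num) _ (by norm_num) (by norm_num))
    hpq hpa hqa hpb hqb hab
  have hks : k • ({Lib.Golay.pt 1, Lib.Golay.pt 2} : Finset Cfsg.GolayPt) = {a, b} := by
    rw [Finset.smul_finset_insert, Finset.smul_finset_singleton]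
    show ({k (Lib.Golay.pt 1), k (Lib.Golay.pt 2)} : Finset Cfsg.GolayPt) = _
    rw [k3, k4]
  refine ⟨?_, ?_, ?_⟩
  · have h := Lib.Golay.count_transport hk (Lib.Golay.pt 23) (Lib.Golay.pt 0) {Lib.Golay.pt 1, Lib.Golay.pt 2} (fun P => P)
    rw [k1, k2, hks, Lib.Golay.std30] at h
    exact h
  · have h := Lib.Golay.count_transport hk (Lib.Golay.pt 23) (Lib.Golay.pt 0) {Lib.Golay.pt 1, Lib.Golay.pt 2} (fun P => ¬ P)
    rw [k1, k2, hks, Lib.Golay.std160] at h
    exact h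
  · rintro t t' ⟨ht2, hpt, hqt⟩ ⟨ht2', hpt', hqt'⟩ hts hts' hcard hoct
    have hle : (({a, b} : Finset Cfsg.GolayPt) ∩ t).card ≤ 1 := by
      by_contra hcon
      push Not at hcon
      have h1 : ({a, b} : Finset Cfsg.GolayPt) ∩ t = {a, b} := Finset.eq_of_subset_of_card_le Finset.inter_subset_left
        (by rw [Finset.card_pair hab]; exact hcon)
      have h2 : ({a, b} : Finset Cfsg.GolayPt) ∩ t = t := Finset.eq_of_subset_of_card_le Finset.inter_subset_right
        (by rw [ht2]; exact hcon)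
      exact hts (h2.symm.trans h1)
    -- decompositions of pairs
    have one : ∀ t : Finset Cfsg.GolayPt, t.card = 2 → (({a, b} : Finset Cfsg.GolayPt) ∩ t).card = 1 →
        ∃ x y c, ({a, b} : Finset Cfsg.GolayPt) = {x, y} ∧ x ≠ y ∧ t = {x, c} ∧ c ≠ x ∧ c ≠ y := by
      intro t ht h
      obtain ⟨x, hx⟩ := Finset.card_eq_one.mp h
      have hx' : x ∈ ({a, b} : Finset Cfsg.GolayPt) ∩ t := by rw [hx]; simp
      obtain ⟨hx1, hx2⟩ := Finset.mem_inter.mp hx'
      obtain ⟨c, hc⟩ : ∃ c, t = {x, c} ∧ c ≠ x := by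
        obtain ⟨u, v, huv, rfl⟩ := Finset.card_eq_two.mp ht
        simp only [Finset.mem_insert, Finset.mem_singleton] at hx2
        rcases hx2 with rfl | rfl
        · exact ⟨v, rfl, huv.symm⟩
        · exact ⟨u, Finset.pair_comm _ _, huv⟩
      have hnot : ∀ y, y ∈ ({a, b} : Finset Cfsg.GolayPt) → y ≠ x → c ≠ y := by
        intro y hy hyx hcy
        have : y ∈ ({a, b} : Finset Cfsg.GolayPt) ∩ t := Finset.mem_inter.mpr ⟨hy, by rw [hc.1, hcy]; simp⟩
        rw [hx, Finset.mem_singleton] at this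
        exact hyx this
      simp only [Finset.mem_insert, Finset.mem_singleton] at hx1
      rcases hx1 with rfl | rfl
      · exact ⟨x, b, c, rfl, hab, hc.1, hc.2, hnot b (by simp) hab.symm⟩
      · exact ⟨x, a, c, Finset.pair_comm _ _, hab.symm, hc.1, hc.2, hnot a (by simp) hab⟩
    have hsm : ∀ (g : Equiv.Perm Cfsg.GolayPt) (x y : Cfsg.GolayPt), g • ({x, y} : Finset Cfsg.GolayPt) = {g x, g y} := by
      intro g x y
      rw [Finset.smul_finset_insert, Finset.smul_finset_singleton]; rfl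
    have hmem : ∀ x, x ∈ ({a, b} : Finset Cfsg.GolayPt) → p ≠ x ∧ q ≠ x := by
      intro x hx
      simp only [Finset.mem_insert, Finset.mem_singleton] at hx
      rcases hx with rfl | rfl
      · exact ⟨hpa, hqa⟩
      · exact ⟨hpb, hqb⟩
    have hmt : ∀ t : Finset Cfsg.GolayPt, p ∉ t → q ∉ t → ∀ x ∈ t, p ≠ x ∧ q ≠ x := fun t h1 h2 x hx =>
      ⟨fun e => h1 (e ▸ hx), fun e => h2 (e ▸ hx)⟩
    rcases Nat.le_one_iff_eq_zero_or_eq_one.mp hle with h0 | h1
    · -- disjoint case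
      have hd : Disjoint ({a, b} : Finset Cfsg.GolayPt) t := Finset.disjoint_iff_inter_eq_empty.mpr (Finset.card_eq_zero.mp h0)
      have hd' : Disjoint ({a, b} : Finset Cfsg.GolayPt) t' := Finset.disjoint_iff_inter_eq_empty.mpr
        (Finset.card_eq_zero.mp (hcard ▸ h0))
      obtain ⟨c, e, hce, rfl⟩ := Finset.card_eq_two.mp ht2
      obtain ⟨c', e', hce', rfl⟩ := Finset.card_eq_two.mp ht2'
      have inj : ∀ c e : Cfsg.GolayPt, c ≠ e → p ∉ ({c, e} : Finset Cfsg.GolayPt) → q ∉ ({c, e} : Finset Cfsg.GolayPt) →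
          Disjoint ({a, b} : Finset Cfsg.GolayPt) {c, e} → Function.Injective ![p, q, a, b, c, e] := by
        intro c e hce h1 h2 h3
        apply Lib.Golay.inj6
        rw [Finset.disjoint_left] at h3
        simp only [Finset.mem_insert, Finset.mem_singleton, not_or, forall_eq_or_imp, forall_eq] at h1 h2 h3
        simp only [List.nodup_cons, List.mem_cons, List.not_mem_nil, or_false, not_or, not_false_eq_true, List.nodup_nil,
          and_true]
        exact ⟨⟨hpq, hpa, hpb, h1.1, h1.2⟩, ⟨hqa, hqb, h2.1, h2.2⟩, ⟨hab, h3.1.1, h3.1.2⟩, ⟨h3.2.1, h3.2.2⟩, hce⟩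
      have hO : ∀ c e : Cfsg.GolayPt, Lib.Golay.InOct ![p, q, a, b, c, e] ↔
          (∃ o ∈ Cfsg.octads, p ∈ o ∧ q ∈ o ∧ ({a, b} : Finset Cfsg.GolayPt) ∪ {c, e} ⊆ o) := by
        intro c e
        constructor
        · rintro ⟨o, ho, h⟩
          refine ⟨o, ho, h 0, h 1, ?_⟩
          intro x hx
          simp only [Finset.mem_union, Finset.mem_insert, Finset.mem_singleton] at hx
          rcases hx with (rfl | rfl) | (rfl | rfl)
          exacts [h 2, h 3, h 4, h 5]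
        · rintro ⟨o, ho, h1, h2, h3⟩
          refine ⟨o, ho, fun i => ?_⟩
          fin_cases i
          exacts [h1, h2, h3 (by simp), h3 (by simp), h3 (by simp), h3 (by simp)]
      obtain ⟨g, hg, hgx⟩ := Lib.Golay.exists_six (inj c e hce hpt hqt hd) (inj c' e' hce' hpt' hqt' hd')
        (by rw [hO, hO]; exact hoct)
      refine ⟨g, hg, hgx 0, hgx 1, ?_, ?_⟩
      · rw [hsm, show g a = a from hgx 2, show g b = b from hgx 3]
      · rw [hsm, show g c = c' from hgx 4, show g e = e' from hgx 5]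
    · obtain ⟨x, y, c, e1, hxy, rfl, hcx, hcy⟩ := one t ht2 h1
      obtain ⟨x', y', c', e1', hxy', rfl, hcx', hcy'⟩ := one t' ht2' (hcard ▸ h1)
      obtain ⟨m1, m2⟩ := hmem x (by rw [e1]; simp)
      obtain ⟨m3, m4⟩ := hmem y (by rw [e1]; simp)
      obtain ⟨m1', m2'⟩ := hmem x' (by rw [e1']; simp)
      obtain ⟨m3', m4'⟩ := hmem y' (by rw [e1']; simp)
      obtain ⟨m5, m6⟩ := hmt _ hpt hqt c (by simp)
      obtain ⟨m5', m6'⟩ := hmt _ hpt' hqt' c' (by simp)
      obtain ⟨g, hg, g1, g2, g3, g4, g5⟩ := Lib.Golay.exists_five (a := p) (b := q) (c := x) (d := y) (e := c) (a' := p)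
        (b' := q) (c' := x') (d' := y') (e' := c') hpq m1 m3 m5 m2 m4 m6 hxy (Ne.symm hcx) (Ne.symm hcy)
        hpq m1' m3' m5' m2' m4' m6' hxy' (Ne.symm hcx') (Ne.symm hcy')
      refine ⟨g, hg, g1, g2, ?_, ?_⟩
      · rw [e1, hsm, g3, g4, ← e1, e1']
      · rw [hsm, g3, g5]

end Cfsg.Agent.S1638
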