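import Cfsg.Statements.S1639
import Cfsg.Agent.Lib.GolayDod4

set_option autoImplicit false
open scoped Pointwise
open Cfsg

namespace Cfsg.Agent.S1639

/-- The point stabiliser acts on the 1288 dodecads through the point with rank 4 and subdegrees 1, 165, 330, 792, distinguished by intersection 4, 8, 6 with the fixed dodecad. -/
theorem result (x : Cfsg.GolayPt) (d : Finset Cfsg.GolayPt) (hd : d ∈ Cfsg.dodecads) (hx : x ∈ d) : {d' : Finset Cfsg.GolayPt | d' ∈ Cfsg.dodecads ∧ x ∈ d' ∧ (d ∩ d').card = 4}.ncard = 165 ∧ {d' : Finset Cfsg.GolayPt | d' ∈ Cfsg.dodecads ∧ x ∈ d' ∧ (d ∩ d').card = 8}.ncard = 330 ∧ {d' : Finset Cfsg.GolayPt | d' ∈ Cfsg.dodecads ∧ x ∈ d' ∧ (d ∩ d').card = 6}.ncard = 792 ∧ ∀ d' d'' : Finset Cfsg.GolayPt, d' ∈ Cfsg.dodecads → d'' ∈ Cfsg.dodecads → x ∈ d' → x ∈ d'' → (d ∩ d').card = (d ∩ d'').card → ∃ g : Equiv.Perm Cfsg.GolayPt, g ∈ Cfsg.M24 ∧ g x = x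 ∧ g • d = d ∧ g • d' = d'' := by
  obtain ⟨k, hk, hkd, hkx⟩ := Lib.Golay.frame_dodecad_one hd hx
  have hdod : Lib.Golay.mset Lib.Golay.dod0 = Lib.Golay.mset 340831 := rfl
  rw [hdod] at hkd
  refine ⟨?_, ?_, ?_, ?_⟩
  · have h := Lib.Golay.transport8 hk (Lib.Golay.pt 0) (Lib.Golay.mset 340831) 4
    rw [hkd, hkx, Lib.Golay.std8, Lib.Golay.count8.1] at h
    exact h
  · have h := Lib.Golay.transport8 hk (Lib.Golay.pt 0) (Lib.Golay.mset 340831) 8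
    rw [hkd, hkx, Lib.Golay.std8, Lib.Golay.count8.2.1] at h
    exact h
  · have h := Lib.Golay.transport8 hk (Lib.Golay.pt 0) (Lib.Golay.mset 340831) 6
    rw [hkd, hkx, Lib.Golay.std8, Lib.Golay.count8.2.2] at h
    exact h
  · intro d' d'' h1 h2 h3 h4 hc
    have hm : ∀ e ∈ Cfsg.dodecads, x ∈ e → k⁻¹ • e ∈ Lib.Golay.A8 := by
      intro e he hxe
      refine ⟨(Lib.Golay.smul_mem_dodecads (Cfsg.M24.inv_mem hk)).mpr he, ?_⟩
      have : Lib.Golay.pt 0 = k⁻¹ x := by rw [← hkx, Lib.Golay.perm_inv_apply]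
      rw [this, Lib.Golay.smul_mem_smul]; exact hxe
    have hcc : ∀ e : Finset Cfsg.GolayPt, (Lib.Golay.mset 340831 ∩ k⁻¹ • e).card = (d ∩ e).card := by
      intro e
      rw [← hkd, ← Finset.card_smul_finset k, Lib.Golay.smul_inter', smul_inv_smul]
    obtain ⟨g, hg, g1, g2, g3⟩ := Lib.Golay.K8_trans (hm _ h1 h3) (hm _ h2 h4) (by rw [hcc, hcc, hc])
    refine ⟨k * g * k⁻¹, Cfsg.M24.mul_mem (Cfsg.M24.mul_mem hk hg) (Cfsg.M24.inv_mem hk), ?_, ?_, ?_⟩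
    · rw [Equiv.Perm.mul_apply, Equiv.Perm.mul_apply, ← hkx, Lib.Golay.perm_inv_apply, g2]
    · rw [mul_smul, mul_smul, ← hkd, inv_smul_smul, g1]
    · rw [mul_smul, mul_smul, g3, smul_inv_smul]

end Cfsg.Agent.S1639
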