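import Cfsg.Statements.S1642
import Cfsg.Agent.Lib.LeechChain3
import Cfsg.Agent.Lib.LeechCo2b
import Cfsg.Agent.Lib.LeechGen

set_option autoImplicit false
open Cfsg

namespace Cfsg.Agent.S1642

open Cfsg.Agent.Lib.LeechMin Cfsg.Agent.Lib.LeechTrans Cfsg.Agent.Lib.LeechChain Cfsg.Agent.Lib Cfsg.Agent.Lib.Golay Cfsg.Agent.Lib.GolayCoset

def cm : ℕ := bas 0 ^^^ bas 8
def dm : ℕ := 16777215 ^^^ cm

theorem c_mem : mset cm ∈ Sup := by
  rw [cm, mset_xor]
  exact symmDiff_mem_supports (bas_octad 0 (by norm_num)).1 (bas_octad 8 (by norm_num)).1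

theorem d_mem : mset dm ∈ Sup := by
  rw [dm, mset_xor]
  refine symmDiff_mem_supports ?_ c_mem
  have : mset 16777215 = Finset.univ := by decide +kernel
  rw [this]; exact univ_mem

theorem exists_ij : ∃ i j : GolayPt, i ≠ j ∧ i ∈ mset dm ∧ j ∈ mset dm := by
  have h : 1 < (mset dm).card := by rw [card_mset]; decide +kernel
  obtain ⟨i, hi, j, hj, hij⟩ := Finset.one_lt_card.1 h
  exact ⟨i, j, hij, hi, hj⟩

theorem exists_p : ∃ p : GolayPt, p ∈ mset cm := by
  have h : 0 < (mset cm).card := by rw [card_mset]; decide +kernel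
  obtain ⟨i, hi⟩ := Finset.card_pos.1 h
  exact ⟨i, hi⟩

theorem cd (i : GolayPt) : chi (mset dm) i = 1 - chi (mset cm) i := by
  have h : mset dm = (mset cm)ᶜ := by decide +kernel
  rw [h]
  unfold chi
  by_cases h : i ∈ mset cm <;> simp [h]

def V0 : leechLattice := ⟨fun i => 2 * chi (mset dm) i, LeechFrame.two_chi_mem d_mem⟩

theorem norm_V0 : sqNorm (V0 : GolayPt → ℤ) = 48 := by
  show sqNorm (fun i => 2 * chi (mset dm) i) = 48
  decide +kernel

def g0 : Co0 := ⟨mono 1 M24.one_mem (mset cm) c_mem, mono_mem _ _ _ _⟩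

theorem g0_apply (v : leechLattice) (i : GolayPt) :
    ((g0 • v : leechLattice) : GolayPt → ℤ) i = (1 - 2 * chi (mset cm) i) * (v : GolayPt → ℤ) i := by
  show signedPerm 1 (mset cm) v i = _
  rw [signedPerm_apply]; rfl

theorem chi_sq (A : Finset GolayPt) (i : GolayPt) : chi A i * chi A i = chi A i := by
  rcases chi_cases A i with ⟨-, h⟩ | ⟨-, h⟩ <;> rw [h] <;> norm_num

theorem g0_sq (v : leechLattice) : g0 • g0 • v = v := by
  apply Subtype.ext
  funext i
  rw [g0_apply, g0_apply]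
  have := chi_sq (mset cm) i
  linear_combination (4 * (v : GolayPt → ℤ) i) * this

/-- a sum `u + g0 u` -/
theorem g0_V0 : g0 • V0 = V0 := by
  apply Subtype.ext
  funext i
  rw [g0_apply]
  show _ * (2 * chi (mset dm) i) = 2 * chi (mset dm) i
  rw [cd]
  have := chi_sq (mset cm) i
  linear_combination 4 * this

theorem exists_u : ∃ u : leechLattice, V0 = u + g0 • u ∧ g0 • u ≠ u := by
  obtain ⟨p, hp⟩ := exists_p
  have hp1 : chi (mset cm) p = 1 := by simp [chi, hp]
  refine ⟨⟨cv {p} ∅, LeechFrame.cv_single_mem p⟩, ?_, ?_⟩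
  · apply Subtype.ext
    funext i
    show 2 * chi (mset dm) i = cv {p} ∅ i + ((g0 • (⟨cv {p} ∅, LeechFrame.cv_single_mem p⟩ : leechLattice) : leechLattice) : GolayPt → ℤ) i
    rw [g0_apply]
    show 2 * chi (mset dm) i = cv {p} ∅ i + (1 - 2 * chi (mset cm) i) * cv {p} ∅ i
    rw [cd, cv, chi_empty]
    by_cases hi : i = p
    · subst hi; rw [hp1]; ring
    · have : chi {p} i = 0 := by simp [chi, hi]
      rw [this]; ring
  · intro h
    have h1 := congrFun (congrArg Subtype.val h) p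
    rw [g0_apply, hp1] at h1
    have h2 : cv {p} ∅ p = -3 := by simp [cv, chi]
    have h3 : ((⟨cv {p} ∅, LeechFrame.cv_single_mem p⟩ : leechLattice) : GolayPt → ℤ) p = -3 := h2
    rw [h3] at h1
    norm_num at h1

theorem exists_w0 : ∃ W0 : leechLattice, sqNorm ((V0 + W0 : leechLattice) : GolayPt → ℤ) = 32 ∧
    V0 ∈ cls [(V0 + W0, 16)] 48 ∧ g0 • W0 = W0 := by
  obtain ⟨i, j, hij, hi, hj⟩ := exists_ij
  have hi1 : chi (mset dm) i = 1 := by simp [chi, hi]
  have hj1 : chi (mset dm) j = 1 := by simp [chi, hj]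
  have hX : g0 • X hij = X hij := by
    apply Subtype.ext
    funext t
    rw [g0_apply, coe_X, Pi.add_apply]
    by_cases ht : t = i
    · subst ht
      have := cd t
      rw [hi1] at this
      have h0 : chi (mset cm) t = 0 := by linarith
      rw [h0]; ring
    · by_cases ht' : t = j
      · subst ht'
        have := cd t
        rw [hj1] at this
        have h0 : chi (mset cm) t = 0 := by linarith
        rw [h0]; ring
      · rw [Pi.single_eq_of_ne ht, Pi.single_eq_of_ne ht']; ring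
  refine ⟨X hij - V0, ?_, ?_, ?_⟩
  · rw [add_sub_cancel]; exact sqNorm_X hij
  · rw [add_sub_cancel]
    refine mem_cls1.2 ⟨norm_V0, ?_⟩
    rw [dot_X]
    show 4 * (2 * chi (mset dm) i) + 4 * (2 * chi (mset dm) j) = 16
    rw [hi1, hj1]; norm_num
  · have h : g0 • (X hij - V0) + V0 = X hij := by
      nth_rw 2 [← g0_V0]
      rw [← smul_add', sub_add_cancel, hX]
    exact eq_sub_of_add_eq h

theorem no_fix {x : leechLattice} (hx : g0 • x = x) (h : dotInt (V0 : GolayPt → ℤ) (x : GolayPt → ℤ) = 24) : False := by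
  obtain ⟨u, hu, -⟩ := exists_u
  rw [hu, AddSubgroup.coe_add, dot_add_left] at h
  have h1 : dotInt ((g0 • u : leechLattice) : GolayPt → ℤ) (x : GolayPt → ℤ) = dotInt (u : GolayPt → ℤ) (x : GolayPt → ℤ) := by
    conv_lhs => rw [← hx]
    exact LeechCo2.dot_smul g0 u x
  rw [h1] at h
  obtain ⟨c, hc⟩ := LeechGen.eight_dvd_dot u.2 x.2
  omega

/-- Some involution of the Higman–Sims group acts without fixed points on its 100 points. -/
theorem result (v w : ↥Cfsg.leechLattice) (hv : Cfsg.sqNorm (v : Cfsg.GolayPt → ℤ) = 48) (hw : Cfsg.sqNorm (w : Cfsg.GolayPt → ℤ) = 48) (hvw : Cfsg.dotInt (v : Cfsg.GolayPt → ℤ) (w : Cfsg.GolayPt → ℤ) = -32) : ∃ g : ↥Cfsg.Co0, g • v = v ∧ g • w = w ∧ orderOf g = 2 ∧ ∀ x ∈ {x : ↥Cfsg.leechLattice | Cfsg.sqNorm (x : Cfsg.GolayPt → ℤ) = 32 ∧ Cfsg.dotInt (v : Cfsg.GolayPt → ℤ) (x : Cfsg.GolayPt → ℤ) = 24 ∧ Cfsg.dotInt (w : Cfsg.GolayPt → ℤ) (x : Cfsg.GolayPt → ℤ) = -24}, g • x ≠ x := by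
  obtain ⟨h1, h2⟩ := hs_sum hv hw hvw
  obtain ⟨W0, e1, e2, e3⟩ := exists_w0
  obtain ⟨k, hk1, hk2⟩ := stdHS h1 h2
  obtain ⟨k', hk1', hk2'⟩ := stdHS e1 e2
  have hV : (k⁻¹ * k') • V0 = v := comp_std hk1' hk1
  have hVW : (k⁻¹ * k') • (V0 + W0) = v + w := comp_std hk2' hk2
  set h := k⁻¹ * k' with hh
  have hW : h • W0 = w := by
    rw [smul_add', hV] at hVW
    exact add_left_cancel hVW
  have hV' : h⁻¹ • v = V0 := by rw [inv_smul_eq_iff, hV]
  have hW' : h⁻¹ • w = W0 := by rw [inv_smul_eq_iff, hW]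
  refine ⟨h * g0 * h⁻¹, ?_, ?_, ?_, ?_⟩
  · rw [mul_smul, mul_smul, hV', g0_V0, hV]
  · rw [mul_smul, mul_smul, hW', e3, hW]
  · have h5 : orderOf (h * g0 * h⁻¹) = orderOf g0 := by
      have := orderOf_injective (MulAut.conj h).toMonoidHom (MulAut.conj h).injective g0
      simpa using this
    rw [h5]
    refine orderOf_eq_prime ?_ ?_
    · apply Subtype.ext
      apply Equiv.ext
      intro x
      have := g0_sq x
      rw [← mul_smul, ← pow_two] at this
      exact this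
    · intro h6
      obtain ⟨u, -, hu⟩ := exists_u
      rw [h6, one_smul] at hu
      exact hu rfl
  · rintro x ⟨-, hx, -⟩ hgx
    have h7 : g0 • (h⁻¹ • x) = h⁻¹ • x := by
      rw [mul_smul, mul_smul] at hgx
      rw [eq_inv_smul_iff, hgx]
    refine no_fix h7 ?_
    rw [← LeechCo2.dot_smul h, hV, smul_inv_smul]
    exact hx

end Cfsg.Agent.S1642
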