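import Cfsg.Statements.S1643
import Cfsg.Agent.Lib.PSL23

set_option autoImplicit false
open scoped Pointwise
open Cfsg

namespace Cfsg.Agent.S1643

/-- PSL(2, 23) = ⟨t ↦ t+1, t ↦ u t (u square), t ↦ −1/t⟩ is maximal of order 6072 in the group of the length-24 code, and its point stabiliser 23:11 (order 253) is maximal in the Mathieu group of degree 23. -/
theorem result : (Subgroup.closure ({Equiv.optionCongr (Equiv.addRight (1 : ZMod 23)), Cfsg.projInv} ∪ {g : Equiv.Perm Cfsg.GolayPt | ∃ u : (ZMod 23)ˣ, IsSquare u ∧ g = Equiv.optionCongr (Units.mulLeft u)}) ≤ Cfsg.M24 ∧ Nat.card ↥(Subgroup.closure ({Equiv.optionCongr (Equiv.addRight (1 : ZMod 23)), Cfsg.projInv} ∪ {g : Equiv.Perm Cfsg.GolayPt | ∃ u : (ZMod 23)ˣ, IsSquare u ∧ g = Equiv.optionCongr (Units.mulLeft u)})) = 6072 ∧ IsCoatom ((Subgroup.closure ({Equiv.optionCongr (Equiv.addRight (1 : ZMod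 23)), Cfsg.projInv} ∪ {g : Equiv.Perm Cfsg.GolayPt | ∃ u : (ZMod 23)ˣ, IsSquare u ∧ g = Equiv.optionCongr (Units.mulLeft u)})).subgroupOf Cfsg.M24)) ∧ (Subgroup.closure ({Equiv.optionCongr (Equiv.addRight (1 : ZMod 23))} ∪ {g : Equiv.Perm Cfsg.GolayPt | ∃ u : (ZMod 23)ˣ, IsSquare u ∧ g = Equiv.optionCongr (Units.mulLeft u)}) ≤ Cfsg.M24 ⊓ MulAction.stabilizer (Equiv.Perm Cfsg.GolayPt) (none : Cfsg.GolayPt) ∧ Nat.card ↥(Subgroup.closure ({Equiv.optionCongr (Equiv.addRight (1 : ZMod 23))} ∪ {g : Equiv.Perm Cfsg.GolayPt | ∃ u : (ZMod 23)ˣ, IsSquare u ∧ g = Equiv.optionCongr (Units.mulLeft u)})) = 253 ∧ IsCoatom (((Subgroup.closure ({Equiv.optionCongr (Equiv.addRight (1 : ZMod 23))} ∪ {g : Equiv.Perm Cfsg.GolayPt | ∃ u : (ZMod 23)ˣ, IsSquare u ∧ g = Equiv.optionCongr (Units.mulLeft u)})).subgroupOf Cfsg.M24).subgroupOf (MulAction.stabilizer Cfsg.M24 (none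 : Cfsg.GolayPt)))) :=
  ⟨⟨Cfsg.Agent.Lib.PSL23.Xg_le, Cfsg.Agent.Lib.PSL23.card_Xg, Cfsg.Agent.Lib.PSL23.coatom_Xg⟩,
    ⟨Cfsg.Agent.Lib.PSL23.Fg_le, Cfsg.Agent.Lib.PSL23.card_Fg, Cfsg.Agent.Lib.PSL23.coatom_Fg⟩⟩

end Cfsg.Agent.S1643
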