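import Cfsg.Statements.S1679
import Cfsg.Agent.Lib.SuzG2
import Cfsg.Agent.Lib.CosetStmt

set_option autoImplicit false
open Cfsg

namespace Cfsg.Agent.S1679

/-- In the presented sporadic Suzuki group (generators a, …, g), the subgroup generated by the images of a, …, f is isomorphic to the adjoint Chevalley group of type G₂ over a field with four elements. -/
theorem result : ∃ (K : Type) (_ : Field K) (_ : Fintype K), Fintype.card K = 4 ∧ Nonempty ((((Subgroup.closure ({Cfsg.Spor.Suz.a, Cfsg.Spor.Suz.b, Cfsg.Spor.Suz.c, Cfsg.Spor.Suz.d, Cfsg.Spor.Suz.e, Cfsg.Spor.Suz.f} : Set (FreeGroup Cfsg.Spor.Suz.Gen))).map (PresentedGroup.mk (Cfsg.Spor.coxRelators Cfsg.Spor.Suz.edges ∪ {r | r ∈ Cfsg.Spor.Suz.extra})))) ≃* Cfsg.Lie.chevG2.group K) := by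
  refine ⟨Cfsg.Agent.Lib.K4.K4, inferInstance, inferInstance, Cfsg.Agent.Lib.K4.card_K4, ?_⟩
  refine Cfsg.Agent.Lib.SuzG2.main _ (Cfsg.Agent.Lib.CosetStmt.map_closure_eq Cfsg.Agent.Lib.SuzRel.C _
    Cfsg.Agent.Lib.SuzA.WS Cfsg.Agent.Lib.SuzA.HL ?_ (by decide))
  intro w
  simp only [Cfsg.Agent.Lib.SuzA.WS, Set.mem_insert_iff, Set.mem_singleton_iff, List.mem_cons, List.not_mem_nil,
    or_false, exists_eq_or_imp, exists_eq_left]
  rfl

end Cfsg.Agent.S1679
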