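import Cfsg.Statements.S1680
import Cfsg.Agent.Lib.SuzAIdx
import Cfsg.Agent.Lib.CosetStmt

set_option autoImplicit false
open Cfsg

namespace Cfsg.Agent.S1680

/-- In the presented sporadic Suzuki group, let H be the subgroup generated by the images of a, …, f. Then H has index 1782, H has orbits of sizes 416 and 1365 on the cosets of H other than H itself (with the index 1782 this makes the action rank 3). -/
theorem result : (((Subgroup.closure ({Cfsg.Spor.Suz.a, Cfsg.Spor.Suz.b, Cfsg.Spor.Suz.c, Cfsg.Spor.Suz.d, Cfsg.Spor.Suz.e, Cfsg.Spor.Suz.f} : Set (FreeGroup Cfsg.Spor.Suz.Gen))).map (PresentedGroup.mk (Cfsg.Spor.coxRelators Cfsg.Spor.Suz.edges ∪ {r | r ∈ Cfsg.Spor.Suz.extra})))).index = 1782 ∧ ∃ q₁ q₂ : Cfsg.Spor.Suz ⧸ (((Subgroup.closure ({Cfsg.Spor.Suz.a, Cfsg.Spor.Suz.b, Cfsg.Spor.Suz.c, Cfsg.Spor.Suz.d, Cfsg.Spor.Suz.e, Cfsg.Spor.Suz.f}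 : Set (FreeGroup Cfsg.Spor.Suz.Gen))).map (PresentedGroup.mk (Cfsg.Spor.coxRelators Cfsg.Spor.Suz.edges ∪ {r | r ∈ Cfsg.Spor.Suz.extra})))), (MulAction.orbit (((Subgroup.closure ({Cfsg.Spor.Suz.a, Cfsg.Spor.Suz.b, Cfsg.Spor.Suz.c, Cfsg.Spor.Suz.d, Cfsg.Spor.Suz.e, Cfsg.Spor.Suz.f} : Set (FreeGroup Cfsg.Spor.Suz.Gen))).map (PresentedGroup.mk (Cfsg.Spor.coxRelators Cfsg.Spor.Suz.edges ∪ {r | r ∈ Cfsg.Spor.Suz.extra})))) q₁).ncard = 416 ∧ (MulAction.orbit (((Subgroup.closure ({Cfsg.Spor.Suz.a, Cfsg.Spor.Suz.b, Cfsg.Spor.Suz.c, Cfsg.Spor.Suz.d, Cfsg.Spor.Suz.e, Cfsg.Spor.Suz.f} : Set (FreeGroup Cfsg.Spor.Suz.Gen))).map (PresentedGroup.mk (Cfsg.Spor.coxRelators Cfsg.Spor.Suz.edges ∪ {r | r ∈ Cfsg.Spor.Suz.extra})))) q₂).ncard = 1365 := by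
  refine Cfsg.Agent.Lib.SuzAIdx.main _ (Cfsg.Agent.Lib.CosetStmt.map_closure_eq Cfsg.Agent.Lib.SuzRel.C _
    Cfsg.Agent.Lib.SuzA.WS Cfsg.Agent.Lib.SuzA.HL ?_ (by decide))
  intro w
  simp only [Cfsg.Agent.Lib.SuzA.WS, Set.mem_insert_iff, Set.mem_singleton_iff, List.mem_cons, List.not_mem_nil,
    or_false, exists_eq_or_imp, exists_eq_left]
  rfl

end Cfsg.Agent.S1680
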