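import Cfsg.Statements.S1681
import Cfsg.Agent.Lib.SuzBIdx
import Cfsg.Agent.Lib.CosetStmt

set_option autoImplicit false
open Cfsg

namespace Cfsg.Agent.S1681

theorem H_eq : (Subgroup.closure ({Cfsg.Spor.Suz.a, Cfsg.Spor.Suz.b, Cfsg.Spor.Suz.c, Cfsg.Spor.Suz.d, Cfsg.Spor.Suz.f, Cfsg.Spor.Suz.g} : Set (FreeGroup Cfsg.Spor.Suz.Gen))).map
    (PresentedGroup.mk (Cfsg.Spor.coxRelators Cfsg.Spor.Suz.edges ∪ {r | r ∈ Cfsg.Spor.Suz.extra})) =
    Subgroup.closure (Cfsg.Agent.Lib.CoxBridge.wset (Cfsg.Agent.Lib.CosetGroup.CoxData.x Cfsg.Agent.Lib.SuzRel.C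
      Cfsg.Agent.Lib.SuzB.L0) Cfsg.Agent.Lib.SuzB.WS) := by
  apply Cfsg.Agent.Lib.CosetStmt.map_closure_eq
  · intro w
    simp only [Cfsg.Agent.Lib.SuzB.WS, Set.mem_insert_iff, Set.mem_singleton_iff, List.mem_cons, List.not_mem_nil,
      or_false, exists_eq_or_imp, exists_eq_left]
    rfl
  · decide

/-- In the presented sporadic Suzuki group (generators a, …, g), the subgroup generated by the images of a, b, c, d, f, g has index 22880. -/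
theorem result : (((Subgroup.closure ({Cfsg.Spor.Suz.a, Cfsg.Spor.Suz.b, Cfsg.Spor.Suz.c, Cfsg.Spor.Suz.d, Cfsg.Spor.Suz.f, Cfsg.Spor.Suz.g} : Set (FreeGroup Cfsg.Spor.Suz.Gen))).map (PresentedGroup.mk (Cfsg.Spor.coxRelators Cfsg.Spor.Suz.edges ∪ {r | r ∈ Cfsg.Spor.Suz.extra})))).index = 22880 := by
  obtain ⟨φ, f, hφ, hf0, hf, hpres, hinj, horb, hfix, hsurj, hidx, h1, h2, h3, h4⟩ :=
    Cfsg.Agent.Lib.SuzBIdx.main _ H_eq
  exact hidx

end Cfsg.Agent.S1681
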