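import Cfsg.Statements.S1682
import Cfsg.Agent.Lib.HeSp
import Cfsg.Agent.Lib.CosetStmt

set_option autoImplicit false
open Cfsg

namespace Cfsg.Agent.S1682

theorem H_eq : (Subgroup.closure ({Cfsg.Spor.He.a, Cfsg.Spor.He.c, Cfsg.Spor.He.d, Cfsg.Spor.He.e, Cfsg.Spor.He.f, (Cfsg.Spor.He.a * Cfsg.Spor.He.b) ^ 2, (Cfsg.Spor.He.b * Cfsg.Spor.He.c * Cfsg.Spor.He.d * Cfsg.Spor.He.e) ^ 7} : Set (FreeGroup Cfsg.Spor.He.Gen))).map
    (PresentedGroup.mk (Cfsg.Spor.coxRelators Cfsg.Spor.He.edges ∪ {r | r ∈ Cfsg.Spor.He.extra})) =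
    Subgroup.closure (Cfsg.Agent.Lib.CoxBridge.wset (Cfsg.Agent.Lib.CosetGroup.CoxData.x Cfsg.Agent.Lib.HeRel.C
      Cfsg.Agent.Lib.HeA.L0) Cfsg.Agent.Lib.HeA.WS) := by
  apply Cfsg.Agent.Lib.CosetStmt.map_closure_eq
  · intro w
    simp only [Cfsg.Agent.Lib.HeA.WS, Set.mem_insert_iff, Set.mem_singleton_iff, List.mem_cons, List.not_mem_nil,
      or_false, exists_eq_or_imp, exists_eq_left]
    rfl
  · decide

/-- In the presented Held group, the subgroup H generated by the images of a, c, d, e, f, (ab)^2 and (bcde)^7 has a normal subgroup of index 2 isomorphic to the 4-dimensional symplectic group over a field with four elements. -/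
theorem result : ∃ (N : Subgroup (((Subgroup.closure ({Cfsg.Spor.He.a, Cfsg.Spor.He.c, Cfsg.Spor.He.d, Cfsg.Spor.He.e, Cfsg.Spor.He.f, (Cfsg.Spor.He.a * Cfsg.Spor.He.b) ^ 2, (Cfsg.Spor.He.b * Cfsg.Spor.He.c * Cfsg.Spor.He.d * Cfsg.Spor.He.e) ^ 7} : Set (FreeGroup Cfsg.Spor.He.Gen))).map (PresentedGroup.mk (Cfsg.Spor.coxRelators Cfsg.Spor.He.edges ∪ {r | r ∈ Cfsg.Spor.He.extra}))))) (K : Type) (_ : Field K) (_ : Fintype K), N.Normal ∧ N.index = 2 ∧ Fintype.card K = 4 ∧ Nonempty (N ≃* Matrix.symplecticGroup (Fin 2) K) := by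
  obtain ⟨N, h1, h2, h3⟩ := Cfsg.Agent.Lib.HeSp.main _ H_eq
  exact ⟨N, Cfsg.Agent.Lib.K4.K4, inferInstance, inferInstance, h1, h2, Cfsg.Agent.Lib.K4.card_K4, h3⟩

end Cfsg.Agent.S1682
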