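import Cfsg.Statements.S1683
import Cfsg.Agent.Lib.HeAIdx
import Cfsg.Agent.Lib.CosetStmt

set_option autoImplicit false
open Cfsg

namespace Cfsg.Agent.S1683

theorem H_eq : (Subgroup.closure ({Cfsg.Spor.He.a, Cfsg.Spor.He.c, Cfsg.Spor.He.d, Cfsg.Spor.He.e, Cfsg.Spor.He.f, (Cfsg.Spor.He.a * Cfsg.Spor.He.b) ^ 2, (Cfsg.Spor.He.b * Cfsg.Spor.He.c * Cfsg.Spor.He.d * Cfsg.Spor.He.e) ^ 7} : Set (FreeGroup Cfsg.Spor.He.Gen))).map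
    (PresentedGroup.mk (Cfsg.Spor.coxRelators Cfsg.Spor.He.edges ∪ {r | r ∈ Cfsg.Spor.He.extra})) =
    Subgroup.closure (Cfsg.Agent.Lib.CoxBridge.wset (Cfsg.Agent.Lib.CosetGroup.CoxData.x Cfsg.Agent.Lib.HeRel.C
      Cfsg.Agent.Lib.HeA.L0) Cfsg.Agent.Lib.HeA.WS) := by
  apply Cfsg.Agent.Lib.CosetStmt.map_closure_eq
  · intro w
    simp only [Cfsg.Agent.Lib.HeA.WS, Set.mem_insert_iff, Set.mem_singleton_iff, List.mem_cons, List.not_mem_nil,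
      or_false, exists_eq_or_imp, exists_eq_left]
    rfl
  · decide

/-- In the presented Held group, let H be the subgroup generated by the images of a, c, d, e, f, (ab)^2 and (bcde)^7. Then H has index 2058, there are four distinct H-orbits on the cosets of H other than H itself, of sizes 136, 136, 425 and 1360. -/
theorem result : (((Subgroup.closure ({Cfsg.Spor.He.a, Cfsg.Spor.He.c, Cfsg.Spor.He.d, Cfsg.Spor.He.e, Cfsg.Spor.He.f, (Cfsg.Spor.He.a * Cfsg.Spor.He.b) ^ 2, (Cfsg.Spor.He.b * Cfsg.Spor.He.c * Cfsg.Spor.He.d * Cfsg.Spor.He.e) ^ 7} : Set (FreeGroup Cfsg.Spor.He.Gen))).map (PresentedGroup.mk (Cfsg.Spor.coxRelators Cfsg.Spor.He.edges ∪ {r | r ∈ Cfsg.Spor.He.extra})))).index = 2058 ∧ ∃ q₁ q₂ q₃ q₄ : Cfsg.Spor.He ⧸ (((Subgroup.closure ({Cfsg.Spor.He.a, Cfsg.Spor.He.c, Cfsg.Spor.He.d, Cfsg.Spor.He.e, Cfsg.Spor.He.f,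 (Cfsg.Spor.He.a * Cfsg.Spor.He.b) ^ 2, (Cfsg.Spor.He.b * Cfsg.Spor.He.c * Cfsg.Spor.He.d * Cfsg.Spor.He.e) ^ 7} : Set (FreeGroup Cfsg.Spor.He.Gen))).map (PresentedGroup.mk (Cfsg.Spor.coxRelators Cfsg.Spor.He.edges ∪ {r | r ∈ Cfsg.Spor.He.extra})))), MulAction.orbit (((Subgroup.closure ({Cfsg.Spor.He.a, Cfsg.Spor.He.c, Cfsg.Spor.He.d, Cfsg.Spor.He.e, Cfsg.Spor.He.f, (Cfsg.Spor.He.a * Cfsg.Spor.He.b) ^ 2, (Cfsg.Spor.He.b * Cfsg.Spor.He.c * Cfsg.Spor.He.d * Cfsg.Spor.He.e) ^ 7} : Set (FreeGroup Cfsg.Spor.He.Gen))).map (PresentedGroup.mk (Cfsg.Spor.coxRelators Cfsg.Spor.He.edges ∪ {r | r ∈ Cfsg.Spor.He.extra})))) q₁ ≠ MulAction.orbit (((Subgroup.closure ({Cfsg.Spor.He.a, Cfsg.Spor.He.c, Cfsg.Spor.He.d, Cfsg.Spor.He.e, Cfsg.Spor.He.f, (Cfsg.Spor.He.a * Cfsg.Spor.He.b) ^ 2, (Cfsg.Spor.He.b * Cfsg.Spor.He.c * Cfsg.Spor.He.d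 * Cfsg.Spor.He.e) ^ 7} : Set (FreeGroup Cfsg.Spor.He.Gen))).map (PresentedGroup.mk (Cfsg.Spor.coxRelators Cfsg.Spor.He.edges ∪ {r | r ∈ Cfsg.Spor.He.extra})))) q₂ ∧ (MulAction.orbit (((Subgroup.closure ({Cfsg.Spor.He.a, Cfsg.Spor.He.c, Cfsg.Spor.He.d, Cfsg.Spor.He.e, Cfsg.Spor.He.f, (Cfsg.Spor.He.a * Cfsg.Spor.He.b) ^ 2, (Cfsg.Spor.He.b * Cfsg.Spor.He.c * Cfsg.Spor.He.d * Cfsg.Spor.He.e) ^ 7} : Set (FreeGroup Cfsg.Spor.He.Gen))).map (PresentedGroup.mk (Cfsg.Spor.coxRelators Cfsg.Spor.He.edges ∪ {r | r ∈ Cfsg.Spor.He.extra})))) q₁).ncard = 136 ∧ (MulAction.orbit (((Subgroup.closure ({Cfsg.Spor.He.a, Cfsg.Spor.He.c, Cfsg.Spor.He.d, Cfsg.Spor.He.e, Cfsg.Spor.He.f, (Cfsg.Spor.He.a * Cfsg.Spor.He.b) ^ 2, (Cfsg.Spor.He.b * Cfsg.Spor.He.c * Cfsg.Spor.He.d * Cfsg.Spor.He.e) ^ 7} : Set (FreeGroup Cfsg.Spor.He.Gen))).map (PresentedGroup.mk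 (Cfsg.Spor.coxRelators Cfsg.Spor.He.edges ∪ {r | r ∈ Cfsg.Spor.He.extra})))) q₂).ncard = 136 ∧ (MulAction.orbit (((Subgroup.closure ({Cfsg.Spor.He.a, Cfsg.Spor.He.c, Cfsg.Spor.He.d, Cfsg.Spor.He.e, Cfsg.Spor.He.f, (Cfsg.Spor.He.a * Cfsg.Spor.He.b) ^ 2, (Cfsg.Spor.He.b * Cfsg.Spor.He.c * Cfsg.Spor.He.d * Cfsg.Spor.He.e) ^ 7} : Set (FreeGroup Cfsg.Spor.He.Gen))).map (PresentedGroup.mk (Cfsg.Spor.coxRelators Cfsg.Spor.He.edges ∪ {r | r ∈ Cfsg.Spor.He.extra})))) q₃).ncard = 425 ∧ (MulAction.orbit (((Subgroup.closure ({Cfsg.Spor.He.a, Cfsg.Spor.He.c, Cfsg.Spor.He.d, Cfsg.Spor.He.e, Cfsg.Spor.He.f, (Cfsg.Spor.He.a * Cfsg.Spor.He.b) ^ 2, (Cfsg.Spor.He.b * Cfsg.Spor.He.c * Cfsg.Spor.He.d * Cfsg.Spor.He.e) ^ 7} : Set (FreeGroup Cfsg.Spor.He.Gen))).map (PresentedGroup.mk (Cfsg.Spor.coxRelators Cfsg.Spor.He.edges ∪ {r | r ∈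 Cfsg.Spor.He.extra})))) q₄).ncard = 1360 := by
  obtain ⟨φ, f, hφ, hf0, hf, hpres, hinj, horb, hfix, hsurj, hidx, h1, h2, h3, h4⟩ :=
    Cfsg.Agent.Lib.HeAIdx.main _ H_eq
  refine ⟨hidx, f 46, f 65, f 2, f 1, ?_, h3.2, h4.2, h2.2, h1.2⟩
  intro he
  have hm : f 65 ∈ f '' {i | Nat.testBit Cfsg.Agent.Lib.HeAIdx.M2 i = true} := by
    rw [← h3.1, he]
    exact MulAction.mem_orbit_self _
  obtain ⟨j, hj, hj'⟩ := hm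
  have hlt : j < 2058 := by
    by_contra hc
    push Not at hc
    have hb : Nat.testBit Cfsg.Agent.Lib.HeAIdx.M2 j = false :=
      Nat.testBit_lt_two_pow (lt_of_lt_of_le (show Cfsg.Agent.Lib.HeAIdx.M2 < 2 ^ 2058 by decide +kernel)
        (Nat.pow_le_pow_right (by norm_num) hc))
    rw [Set.mem_ofPred_eq, hb] at hj
    exact absurd hj (by decide)
  have := hinj j 65 hlt (by norm_num) hj'
  subst this
  exact absurd hj (by decide +kernel)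

end Cfsg.Agent.S1683
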