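import Cfsg.Statements.S1685
import Cfsg.Agent.Lib.Fi22BIdx
import Cfsg.Agent.Lib.CosetStmt

set_option autoImplicit false
open Cfsg

namespace Cfsg.Agent.S1685

theorem H_eq : (Subgroup.closure ({Cfsg.Spor.Fi22.b, Cfsg.Spor.Fi22.c, Cfsg.Spor.Fi22.d, Cfsg.Spor.Fi22.e, Cfsg.Spor.Fi22.f, Cfsg.Spor.Fi22.g, Cfsg.Spor.Fi22.h, Cfsg.Spor.Fi22.i} : Set (FreeGroup Cfsg.Spor.Fi22.Gen))).map
    (PresentedGroup.mk (Cfsg.Spor.coxRelators Cfsg.Spor.Fi22.edges ∪ {r | r ∈ Cfsg.Spor.Fi22.extra})) =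
    Subgroup.closure (Cfsg.Agent.Lib.CoxBridge.wset (Cfsg.Agent.Lib.CosetGroup.CoxData.x Cfsg.Agent.Lib.Fi22Rel.C
      Cfsg.Agent.Lib.Fi22B.L0) Cfsg.Agent.Lib.Fi22B.WS) := by
  apply Cfsg.Agent.Lib.CosetStmt.map_closure_eq
  · intro w
    simp only [Cfsg.Agent.Lib.Fi22B.WS, Set.mem_insert_iff, Set.mem_singleton_iff, List.mem_cons, List.not_mem_nil,
      or_false, exists_eq_or_imp, exists_eq_left]
    rfl
  · decide

/-- In the presented Fischer group Fi₂₂ (generators a, …, i), the subgroup generated by the images of b, c, d, e, f, g, h, i has index 14080. -/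
theorem result : (((Subgroup.closure ({Cfsg.Spor.Fi22.b, Cfsg.Spor.Fi22.c, Cfsg.Spor.Fi22.d, Cfsg.Spor.Fi22.e, Cfsg.Spor.Fi22.f, Cfsg.Spor.Fi22.g, Cfsg.Spor.Fi22.h, Cfsg.Spor.Fi22.i} : Set (FreeGroup Cfsg.Spor.Fi22.Gen))).map (PresentedGroup.mk (Cfsg.Spor.coxRelators Cfsg.Spor.Fi22.edges ∪ {r | r ∈ Cfsg.Spor.Fi22.extra})))).index = 14080 := by
  obtain ⟨φ, f, hφ, hf0, hf, hpres, hinj, horb, hfix, hsurj, hidx, h1, h2⟩ :=
    Cfsg.Agent.Lib.Fi22BIdx.main _ H_eq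
  exact hidx

end Cfsg.Agent.S1685
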