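import Cfsg.Statements.S1688
import Cfsg.Agent.Lib.Fi23Dbl
import Cfsg.Agent.Lib.CosetStmt

set_option autoImplicit false
open Cfsg

namespace Cfsg.Agent.S1688

theorem H_eq : (Subgroup.closure ({Cfsg.Spor.Fi23.a, Cfsg.Spor.Fi23.b, Cfsg.Spor.Fi23.c, Cfsg.Spor.Fi23.d, Cfsg.Spor.Fi23.e, Cfsg.Spor.Fi23.f, Cfsg.Spor.Fi23.g, Cfsg.Spor.Fi23.h, Cfsg.Spor.Fi23.i} : Set (FreeGroup Cfsg.Spor.Fi23.Gen))).map
    (PresentedGroup.mk (Cfsg.Spor.coxRelators Cfsg.Spor.Fi23.edges ∪ {r | r ∈ Cfsg.Spor.Fi23.extra})) =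
    Subgroup.closure (Cfsg.Agent.Lib.CoxBridge.wset (Cfsg.Agent.Lib.CosetGroup.CoxData.x Cfsg.Agent.Lib.Fi23Rel.C
      Cfsg.Agent.Lib.Fi23A.L0) Cfsg.Agent.Lib.Fi23A.WS) := by
  apply Cfsg.Agent.Lib.CosetStmt.map_closure_eq
  · intro w
    simp only [Cfsg.Agent.Lib.Fi23A.WS, Set.mem_insert_iff, Set.mem_singleton_iff, List.mem_cons, List.not_mem_nil,
      or_false, exists_eq_or_imp, exists_eq_left]
    rfl
  · decide

/-- In the presented Fischer group Fi₂₃, the subgroup generated by the images of a, …, i is a non-split double cover of the presented Fischer group Fi₂₂. -/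
theorem result : Cfsg.IsNonsplitDoubleCover (((Subgroup.closure ({Cfsg.Spor.Fi23.a, Cfsg.Spor.Fi23.b, Cfsg.Spor.Fi23.c, Cfsg.Spor.Fi23.d, Cfsg.Spor.Fi23.e, Cfsg.Spor.Fi23.f, Cfsg.Spor.Fi23.g, Cfsg.Spor.Fi23.h, Cfsg.Spor.Fi23.i} : Set (FreeGroup Cfsg.Spor.Fi23.Gen))).map (PresentedGroup.mk (Cfsg.Spor.coxRelators Cfsg.Spor.Fi23.edges ∪ {r | r ∈ Cfsg.Spor.Fi23.extra})))) Cfsg.Spor.Fi22 :=
  Cfsg.Agent.Lib.Fi23Dbl.main _ H_eq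

end Cfsg.Agent.S1688
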