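import Cfsg.Statements.S1690
import Cfsg.Agent.Lib.Fi24WIdx
import Cfsg.Agent.Lib.CosetStmt

set_option autoImplicit false
open Cfsg

namespace Cfsg.Agent.S1690

theorem H_eq : (Subgroup.closure ({Cfsg.Spor.Fi24.a, Cfsg.Spor.Fi24.b, Cfsg.Spor.Fi24.c, Cfsg.Spor.Fi24.d, Cfsg.Spor.Fi24.e, Cfsg.Spor.Fi24.f, Cfsg.Spor.Fi24.g, Cfsg.Spor.Fi24.h, Cfsg.Spor.Fi24.i, Cfsg.Spor.Fi24.j, Cfsg.Spor.Fi24.l} : Set (FreeGroup Cfsg.Spor.Fi24.Gen))).map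
    (PresentedGroup.mk (Cfsg.Spor.coxRelators Cfsg.Spor.Fi24.edges ∪ {r | r ∈ Cfsg.Spor.Fi24.extra})) =
    Subgroup.closure (Cfsg.Agent.Lib.CoxBridge.wset (Cfsg.Agent.Lib.CosetGroup.CoxData.x Cfsg.Agent.Lib.Fi24Rel.C
      Cfsg.Agent.Lib.Fi24W.L0) Cfsg.Agent.Lib.Fi24WB.WS) := by
  apply Cfsg.Agent.Lib.CosetStmt.map_closure_eq
  · intro w
    simp only [Cfsg.Agent.Lib.Fi24WB.WS, Set.mem_insert_iff, Set.mem_singleton_iff, List.mem_cons, List.not_mem_nil,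
      or_false, exists_eq_or_imp, exists_eq_left]
    rfl
  · decide

/-- In the presented group Fi₂₄ = Fi₂₄′:2, the subgroup generated by the images of a, b, c, d, e, f, g, h, i, j and l (every generator but k) has index 306936. -/
theorem result : (((Subgroup.closure ({Cfsg.Spor.Fi24.a, Cfsg.Spor.Fi24.b, Cfsg.Spor.Fi24.c, Cfsg.Spor.Fi24.d, Cfsg.Spor.Fi24.e, Cfsg.Spor.Fi24.f, Cfsg.Spor.Fi24.g, Cfsg.Spor.Fi24.h, Cfsg.Spor.Fi24.i, Cfsg.Spor.Fi24.j, Cfsg.Spor.Fi24.l} : Set (FreeGroup Cfsg.Spor.Fi24.Gen))).map (PresentedGroup.mk (Cfsg.Spor.coxRelators Cfsg.Spor.Fi24.edges ∪ {r | r ∈ Cfsg.Spor.Fi24.extra})))).index = 306936 := by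
  obtain ⟨φ, f, _, _, _, _, _, _, _, _, hidx, _⟩ := Cfsg.Agent.Lib.Fi24WIdx.main _ H_eq
  exact hidx

end Cfsg.Agent.S1690
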