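import Cfsg.Statements.S1703
import Cfsg.Agent.Lib.J4Final

set_option autoImplicit false
open Cfsg

namespace Cfsg.Agent.S1703

/-- The presented fourth Janko group is simple of the expected order (that is, it is a simple group of the order of the fourth Janko group). -/
theorem result : Cfsg.IsJ4 Cfsg.Spor.J4 := by
  exact Cfsg.Agent.Lib.J4E.hyp.isJ4

end Cfsg.Agent.S1703
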