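import Cfsg.Agent.S0283
import Cfsg.Agent.Lib.H89FC3
import Cfsg.Statements.S1713

set_option autoImplicit false
open Cfsg

namespace Cfsg.Agent.S1713

theorem psu62 : Cfsg.Agent.Lib.ThreeTypes.PSU62Simple := by
  intro F _ _ hF
  exact Cfsg.Agent.S0283.result (by rw [hF]; norm_num) 6 (by norm_num) (by norm_num)


/-- The Fischer group Fi₂₂ from a transposition centraliser: let G be a finite group with an involution d such that the centraliser C of d is quasisimple, C modulo the subgroup generated by d is isomorphic to PSU(6, 2) (over a field with four elements), and d is not weakly closed in C, i.e. some conjugate of d different from d commutes with d. Then G is isomorphic to the presented Fischer group Fi₂₂. -/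
theorem result {G : Type*} [Group G] [Finite G] (d : G) (hd : orderOf d = 2) (hq : Cfsg.IsQuasisimple (Subgroup.centralizer ({d} : Set G))) [((Subgroup.zpowers d).subgroupOf (Subgroup.centralizer ({d} : Set G))).Normal] (K : Type) [Field K] [Fintype K] (hK : Fintype.card K = 4) (e : (Subgroup.centralizer ({d} : Set G)) ⧸ (Subgroup.zpowers d).subgroupOf (Subgroup.centralizer ({d} : Set G)) ≃* Cfsg.PSU 6 K 2) (hnwc : ∃ g : G, g * d * g⁻¹ ∈ Subgroup.centralizer ({d} : Set G) ∧ g * d * g⁻¹ ≠ d) : Cfsg.Spor.IsoFi22 G := by
  obtain ⟨hT, hcl, i, hi⟩ := Cfsg.Agent.Lib.H89FC.main psu62 hd hq K hK e hnwc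
  exact ⟨i.symm⟩

end Cfsg.Agent.S1713
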