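import Cfsg.Statements.S1714
import Cfsg.Agent.S0283
import Cfsg.Agent.Lib.M23J73
-- import your own Cfsg.Agent.* helpers here

set_option autoImplicit false
open Cfsg

namespace Cfsg.Agent.S1714

open Cfsg.Agent.Lib.ThreeTypes Cfsg.Agent.Lib.FiMu Cfsg.Agent.Lib.DC22 Cfsg.Agent.Lib.M23G

theorem psu62 : PSU62Simple := by
  intro F _ _ hF
  exact Cfsg.Agent.S0283.result (by rw [hF]; norm_num) 6 (by norm_num) (by norm_num)

/-- The Fischer group Fi₂₃ from a transposition centraliser: let G be a finite group with an involution d such that the centraliser C of d is quasisimple, C modulo the subgroup generated by d is isomorphic to the presented Fischer group Fi₂₂, and some conjugate of d different from d commutes with d. Then G is isomorphic to the presented Fischer group Fi₂₃. -/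
theorem result {G : Type*} [Group G] [Finite G] (d : G) (hd : orderOf d = 2) (hq : Cfsg.IsQuasisimple (Subgroup.centralizer ({d} : Set G))) [((Subgroup.zpowers d).subgroupOf (Subgroup.centralizer ({d} : Set G))).Normal] (e : Cfsg.Spor.IsoFi22 ((Subgroup.centralizer ({d} : Set G)) ⧸ (Subgroup.zpowers d).subgroupOf (Subgroup.centralizer ({d} : Set G)))) (hnwc : ∃ g : G, g * d * g⁻¹ ∈ Subgroup.centralizer ({d} : Set G) ∧ g * d * g⁻¹ ≠ d) : Cfsg.Spor.IsoFi23 G := by
  obtain ⟨e⟩ := e
  obtain ⟨hT, hcl, e, he⟩ := main23 psu62 hd hq (type22_of_iso e.symm) hnwc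
  exact ⟨e.symm⟩

end Cfsg.Agent.S1714
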