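import Cfsg.Statements.S1717

set_option autoImplicit false
open Cfsg

namespace Cfsg.Agent.S1717

abbrev SL5 := Matrix.SpecialLinearGroup (Fin 5) (ZMod 2)
abbrev M5 := Matrix (Fin 5) (Fin 5) (ZMod 2)

/-- the elementary matrix E_{01} -/
def E : M5 := Matrix.single 0 1 1

theorem EE : E * E = 0 := by
  unfold E
  rw [Matrix.single_mul_single_of_ne]
  decide

/-- the predicate describing the normal extraspecial subgroup of order 2^7 -/
def P (N : M5) : Prop := (∃ X Y : M5, N = E * X + Y * E) ∧ E * N = 0 ∧ N * E = 0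

theorem P_cube {N : M5} (h : P N) : N * N * N = 0 := by
  obtain ⟨⟨X, Y, hXY⟩, h1, h2⟩ := h
  have h3 : E * Y * E = 0 := by
    have : E * N = E * E * X + E * Y * E := by rw [hXY]; noncomm_ring
    rw [EE, h1, zero_mul, zero_add] at this
    exact this.symm
  have h4 : N * N = N * Y * E := by
    have : N * N = N * (E * X + Y * E) := by rw [← hXY]
    rw [this, mul_add, ← mul_assoc, h2, zero_mul, zero_add, mul_assoc]
  rw [h4]
  have : N * Y * E * N = N * Y * (E * N) := by noncomm_ring
  rw [this, h1, mul_zero]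

theorem P_add {N N' : M5} (h : P N) (h' : P N') : P (N + N' + N * N') := by
  obtain ⟨⟨X, Y, hXY⟩, h1, h2⟩ := h
  obtain ⟨⟨X', Y', hXY'⟩, h1', h2'⟩ := h'
  refine ⟨⟨X + X' + X * N', Y + Y', ?_⟩, ?_, ?_⟩
  · have h5 : N * N' = E * X * N' := by
      have : N * N' = (E * X + Y * E) * N' := by rw [← hXY]
      rw [this, add_mul, mul_assoc Y E N', h1', mul_zero, add_zero]
    rw [h5]
    nth_rewrite 1 [hXY]
    nth_rewrite 1 [hXY']
    noncomm_ring
  · rw [mul_add, mul_add, ← mul_assoc, h1, h1']; simp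
  · rw [add_mul, add_mul, mul_assoc, h2', h2]; simp

theorem two_zero (A : M5) : A + A = 0 := by
  ext i j
  simp only [Matrix.add_apply, Matrix.zero_apply]
  exact CharTwo.add_self_eq_zero _

/-- the subgroup -/
def Q : Subgroup SL5 where
  carrier := {g | P ((g : M5) + 1)}
  one_mem' := by
    show P ((1 : M5) + 1)
    rw [two_zero]
    exact ⟨⟨0, 0, by simp⟩, by simp, by simp⟩
  mul_mem' := by
    intro a b ha hb
    show P (((a * b : SL5) : M5) + 1)
    have := P_add ha hb
    have h : ((a * b : SL5) : M5) + 1 = ((a : M5) + 1) + ((b : M5) + 1) + ((a : M5) + 1) * ((b : M5) + 1) := by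
      rw [Matrix.SpecialLinearGroup.coe_mul]
      have : ((a : M5) + 1) + ((b : M5) + 1) + ((a : M5) + 1) * ((b : M5) + 1) =
        (a : M5) * (b : M5) + 1 + (((a : M5) + (a : M5)) + ((b : M5) + (b : M5)) + (1 + 1)) := by noncomm_ring
      rw [this, two_zero (a : M5), two_zero (b : M5), two_zero (1 : M5)]; simp
    rw [h]; exact this
  inv_mem' := by
    intro a ha
    show P (((a⁻¹ : SL5) : M5) + 1)
    have ha' : P ((a : M5) + 1) := ha
    have hc := P_cube ha'
    -- a⁻¹ = 1 + N + N²,  N = a + 1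
    have hinv : ((a⁻¹ : SL5) : M5) = 1 + (((a : M5) + 1) + ((a : M5) + 1) * ((a : M5) + 1)) := by
      set N := (a : M5) + 1 with hN
      have haN : (a : M5) = 1 + N := by
        rw [hN, add_comm (a : M5) 1, ← add_assoc, two_zero, zero_add]
      have h1 : (a : M5) * (1 + (N + N * N)) = 1 := by
        rw [haN]
        have : (1 + N) * (1 + (N + N * N)) = 1 + (N + N) + (N * N + N * N) + N * N * N := by noncomm_ring
        rw [this, two_zero, two_zero, hc]; simp
      have h2 : ((a⁻¹ : SL5) : M5) * (a : M5) = 1 := by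
        rw [← Matrix.SpecialLinearGroup.coe_mul]; simp
      calc ((a⁻¹ : SL5) : M5) = ((a⁻¹ : SL5) : M5) * ((a : M5) * (1 + (N + N * N))) := by rw [h1, mul_one]
        _ = (((a⁻¹ : SL5) : M5) * (a : M5)) * (1 + (N + N * N)) := by rw [mul_assoc]
        _ = _ := by rw [h2, one_mul]
    rw [hinv]
    have h3 : (1 : M5) + (((a : M5) + 1) + ((a : M5) + 1) * ((a : M5) + 1)) + 1 = ((a : M5) + 1) + ((a : M5) + 1) * ((a : M5) + 1) := by
      have : (1 : M5) + (((a : M5) + 1) + ((a : M5) + 1) * ((a : M5) + 1)) + 1 = (((a : M5) + 1) + ((a : M5) + 1) * ((a : M5) + 1)) + (1 + 1) := by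
        noncomm_ring
      rw [this, two_zero, add_zero]
    rw [h3]
    set N := (a : M5) + 1
    obtain ⟨⟨X, Y, hXY⟩, h1, h2⟩ := ha'
    refine ⟨⟨X + X * N, Y, ?_⟩, ?_, ?_⟩
    · have h5 : N * N = E * X * N := by
        have : N * N = (E * X + Y * E) * N := by rw [← hXY]
        rw [this, add_mul, mul_assoc Y E N, h1, mul_zero, add_zero]
      rw [h5]
      nth_rewrite 1 [hXY]
      noncomm_ring
    · rw [mul_add, ← mul_assoc, h1]; simp
    · rw [add_mul, mul_assoc, h2]; simp

theorem mem_Q (g : SL5) : g ∈ Q ↔ P ((g : M5) + 1) := Iff.rfl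

/-- Q is a 2-group -/
theorem Q_pow {g : SL5} (hg : g ∈ Q) : g ^ 4 = 1 := by
  have hc := P_cube hg
  apply Subtype.ext
  set N := (g : M5) + 1 with hN
  have haN : (g : M5) = 1 + N := by
    rw [hN, add_comm (g : M5) 1, ← add_assoc, two_zero, zero_add]
  show ((g ^ 4 : SL5) : M5) = 1
  rw [Matrix.SpecialLinearGroup.coe_pow, haN]
  have h2 : (1 + N) * (1 + N) = 1 + N * N := by
    have : (1 + N) * (1 + N) = 1 + N * N + (N + N) := by noncomm_ring
    rw [this, two_zero, add_zero]
  have h4 : (1 + N) ^ 4 = (1 + N * N) * (1 + N * N) := by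
    rw [← h2]; noncomm_ring
  rw [h4]
  have : (1 + N * N) * (1 + N * N) = 1 + (N * N + N * N) + N * N * N * N := by noncomm_ring
  rw [this, two_zero, hc]; simp

/-- elements commuting with s commute with E -/
theorem comm_E (s g : SL5) (hs : (s : M5) = Matrix.transvection 0 1 1) (h : g * s = s * g) :
    (g : M5) * E = E * (g : M5) := by
  have h1 : (g : M5) * (s : M5) = (s : M5) * (g : M5) := by
    rw [← Matrix.SpecialLinearGroup.coe_mul, ← Matrix.SpecialLinearGroup.coe_mul, h]
  rw [hs] at h1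
  have h2 : (Matrix.transvection 0 1 1 : M5) = 1 + E := rfl
  rw [h2, mul_add, add_mul, mul_one, one_mul] at h1
  exact add_left_cancel h1

theorem Q_conj (s g x : SL5) (hs : (s : M5) = Matrix.transvection 0 1 1) (h : g * s = s * g)
    (hx : x ∈ Q) : g * x * g⁻¹ ∈ Q := by
  have hg := comm_E s g hs h
  have hg' : ((g⁻¹ : SL5) : M5) * E = E * ((g⁻¹ : SL5) : M5) := by
    apply comm_E s g⁻¹ hs
    calc g⁻¹ * s = g⁻¹ * (s * g) * g⁻¹ := by group
      _ = g⁻¹ * (g * s) * g⁻¹ := by rw [h]
      _ = s * g⁻¹ := by group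
  rw [mem_Q] at hx ⊢
  obtain ⟨⟨X, Y, hXY⟩, h1, h2⟩ := hx
  have hgg : (g : M5) * ((g⁻¹ : SL5) : M5) = 1 := by
    rw [← Matrix.SpecialLinearGroup.coe_mul]; simp
  have e1 : ((g * x * g⁻¹ : SL5) : M5) + 1 = (g : M5) * ((x : M5) + 1) * ((g⁻¹ : SL5) : M5) := by
    rw [Matrix.SpecialLinearGroup.coe_mul, Matrix.SpecialLinearGroup.coe_mul, mul_add, add_mul, mul_one, hgg]
  rw [e1]
  set N := (x : M5) + 1
  refine ⟨⟨(g : M5) * X * ((g⁻¹ : SL5) : M5), (g : M5) * Y * ((g⁻¹ : SL5) : M5), ?_⟩, ?_, ?_⟩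
  · rw [hXY]
    calc (g : M5) * (E * X + Y * E) * ((g⁻¹ : SL5) : M5)
        = ((g : M5) * E) * X * ((g⁻¹ : SL5) : M5) + (g : M5) * Y * (E * ((g⁻¹ : SL5) : M5)) := by noncomm_ring
      _ = (E * (g : M5)) * X * ((g⁻¹ : SL5) : M5) + (g : M5) * Y * (((g⁻¹ : SL5) : M5) * E) := by rw [hg, hg']
      _ = _ := by noncomm_ring
  · calc E * ((g : M5) * N * ((g⁻¹ : SL5) : M5)) = (E * (g : M5)) * N * ((g⁻¹ : SL5) : M5) := by noncomm_ring
      _ = ((g : M5) * E) * N * ((g⁻¹ : SL5) : M5) := by rw [hg]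
      _ = (g : M5) * (E * N) * ((g⁻¹ : SL5) : M5) := by noncomm_ring
      _ = 0 := by rw [h1]; simp
  · calc ((g : M5) * N * ((g⁻¹ : SL5) : M5)) * E = (g : M5) * N * (((g⁻¹ : SL5) : M5) * E) := by noncomm_ring
      _ = (g : M5) * N * (E * ((g⁻¹ : SL5) : M5)) := by rw [hg']
      _ = (g : M5) * (N * E) * ((g⁻¹ : SL5) : M5) := by noncomm_ring
      _ = 0 := by rw [h2]; simp

/-- elementary transvections -/
def tv (i j : Fin 5) (h : i ≠ j) : SL5 := ⟨Matrix.transvection i j 1, Matrix.det_transvection_of_ne i j h 1⟩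

theorem tv_add_one (i j : Fin 5) (h : i ≠ j) : ((tv i j h : SL5) : M5) + 1 = Matrix.single i j 1 := by
  show (1 + Matrix.single i j 1 : M5) + 1 = _
  rw [add_comm (1 : M5), add_assoc, two_zero, add_zero]

theorem tv0_mem (j : Fin 5) (h : 0 ≠ j) : tv 0 j h ∈ Q := by
  rw [mem_Q, tv_add_one]
  refine ⟨⟨Matrix.single 1 j 1, 0, ?_⟩, ?_, ?_⟩
  · unfold E; rw [Matrix.single_mul_single_same]; simp
  · unfold E; rw [Matrix.single_mul_single_of_ne]; decide
  · unfold E; rw [Matrix.single_mul_single_of_ne]; exact h.symm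

theorem tv1_mem (i : Fin 5) (h : i ≠ 1) : tv i 1 h ∈ Q := by
  rw [mem_Q, tv_add_one]
  refine ⟨⟨0, Matrix.single i 0 1, ?_⟩, ?_, ?_⟩
  · unfold E; rw [Matrix.single_mul_single_same]; simp
  · unfold E; rw [Matrix.single_mul_single_of_ne]; exact h.symm
  · unfold E; rw [Matrix.single_mul_single_of_ne]; decide

theorem comm_single (g : SL5) (i j : Fin 5) (h : i ≠ j) (hc : g * tv i j h = tv i j h * g) :
    Commute (Matrix.single i j 1 : M5) (g : M5) := by
  have h1 : (g : M5) * (tv i j h : M5) = (tv i j h : M5) * (g : M5) := by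
    rw [← Matrix.SpecialLinearGroup.coe_mul, ← Matrix.SpecialLinearGroup.coe_mul, hc]
  have h2 : (tv i j h : M5) = 1 + Matrix.single i j 1 := rfl
  rw [h2, mul_add, add_mul, mul_one, one_mul] at h1
  exact (add_left_cancel h1).symm

/-- an element centralizing Q is 1 or s -/
theorem cent_Q (s g : SL5) (hs : (s : M5) = Matrix.transvection 0 1 1) (h : ∀ x ∈ Q, g * x = x * g)
    (hg1 : g ≠ 1) : g = s := by
  have c0 : ∀ (j : Fin 5) (hj : 0 ≠ j), Commute (Matrix.single 0 j 1 : M5) (g : M5) :=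
    fun j hj => comm_single g 0 j hj (h _ (tv0_mem j hj))
  have c1 : ∀ (i : Fin 5) (hi : i ≠ 1), Commute (Matrix.single i 1 1 : M5) (g : M5) :=
    fun i hi => comm_single g i 1 hi (h _ (tv1_mem i hi))
  -- rows j ≥ 1 are diagonal
  have r : ∀ j k : Fin 5, 0 ≠ j → k ≠ j → (g : M5) j k = 0 :=
    fun j k hj hk => Matrix.row_eq_zero_of_commute_single (c0 j hj) hk
  -- columns i ≠ 1 are diagonal
  have c : ∀ i k : Fin 5, i ≠ 1 → k ≠ i → (g : M5) k i = 0 :=
    fun i k hi hk => Matrix.col_eq_zero_of_commute_single (c1 i hi) hk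
  have d : ∀ j : Fin 5, 0 ≠ j → (g : M5) 0 0 = (g : M5) j j :=
    fun j hj => Matrix.diag_eq_of_commute_single (c0 j hj)
  have h00 : (g : M5) 0 0 = 1 := by
    by_contra hne
    have h0 : (g : M5) 0 0 = 0 := by
      generalize (g : M5) 0 0 = a at hne
      revert a; decide
    have hz : ∀ k, (g : M5) k 0 = 0 := by
      intro k
      by_cases hk : k = 0
      · rw [hk, h0]
      · exact c 0 k (by decide) hk
    have hdet : (g : M5).det = 0 := Matrix.det_eq_zero_of_column_eq_zero 0 hz
    have := g.2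
    rw [hdet] at this
    exact absurd this (by decide)
  have hmat : ∀ a b : Fin 5, (g : M5) a b = if a = b then 1 else if a = 0 ∧ b = 1 then (g : M5) 0 1 else 0 := by
    intro a b
    by_cases hab : a = b
    · rw [if_pos hab, ← hab]
      by_cases ha : a = 0
      · rw [ha, h00]
      · rw [← d a (Ne.symm ha), h00]
    · rw [if_neg hab]
      by_cases hh : a = 0 ∧ b = 1
      · rw [if_pos hh, hh.1, hh.2]
      · rw [if_neg hh]
        by_cases ha : a = 0
        · have hb : b ≠ 1 := fun hb => hh ⟨ha, hb⟩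
          exact c b a hb hab
        · exact r a b (Ne.symm ha) (Ne.symm hab)
  by_cases h01 : (g : M5) 0 1 = 0
  · exfalso
    apply hg1
    apply Subtype.ext
    ext a b
    show (g : M5) a b = (1 : M5) a b
    rw [hmat a b, h01, Matrix.one_apply]
    split_ifs <;> rfl
  · have h01' : (g : M5) 0 1 = 1 := by
      generalize (g : M5) 0 1 = a at h01
      revert a; decide
    apply Subtype.ext
    ext a b
    show (g : M5) a b = (s : M5) a b
    rw [hmat a b, h01', hs]
    fin_cases a <;> fin_cases b <;> simp [Matrix.transvection, Matrix.single_apply, Matrix.one_apply]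

theorem aux {G : Type*} [Group G] [Finite G] (s : SL5) (hs : (s : M5) = Matrix.transvection 0 1 1) (z : G)
    (hz : orderOf z = 2) (C : Subgroup G) (hCdef : ∀ g, g ∈ C ↔ g * z = z * g)
    (e : C ≃* Subgroup.centralizer ({s} : Set SL5)) (T : Sylow 2 C) :
    ¬ 2 ∣ ((T : Subgroup C).map (Subgroup.subtype C)).index := by
  have hzC : z ∈ C := (hCdef z).mpr rfl
  have hsD : ∀ g : ↥(Subgroup.centralizer ({s} : Set SL5)), (g : SL5) * s = s * g := fun g =>
    (Subgroup.mem_centralizer_singleton_iff.mp g.2)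
  -- the normal 2-subgroup of C
  let QD : Subgroup ↥(Subgroup.centralizer ({s} : Set SL5)) := Q.subgroupOf _
  have hQDn : QD.Normal := ⟨fun x hx g => by
    rw [Subgroup.mem_subgroupOf] at hx ⊢
    exact Q_conj s g x hs (hsD g) hx⟩
  let QC : Subgroup ↥C := QD.comap e.toMonoidHom
  have hQCn : QC.Normal := hQDn.comap _
  have hQCp : IsPGroup 2 ↥QC := by
    intro g
    refine ⟨2, ?_⟩
    apply Subtype.ext
    apply e.injective
    have hg : ((e g : ↥(Subgroup.centralizer ({s} : Set SL5))) : SL5) ∈ Q := g.2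
    have h4 := Q_pow hg
    apply Subtype.ext
    simpa using h4
  have hQT : QC ≤ (T : Subgroup _) := hQCp.le_sylow_of_normal T
  -- elements of Q lie in the centralizer of s
  have hQs : ∀ x ∈ Q, x * s = s * x := by
    intro x hx
    obtain ⟨-, h1, h2⟩ := (mem_Q x).mp hx
    apply Subtype.ext
    show ((x * s : SL5) : M5) = ((s * x : SL5) : M5)
    rw [Matrix.SpecialLinearGroup.coe_mul, Matrix.SpecialLinearGroup.coe_mul, hs]
    have h3 : (Matrix.transvection 0 1 1 : M5) = 1 + E := rfl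
    rw [h3, mul_add, add_mul, mul_one, one_mul]
    have h4 : (x : M5) * E = E := by
      rw [add_mul, one_mul] at h2
      have := eq_neg_of_add_eq_zero_left h2
      rw [this, neg_eq_iff_add_eq_zero, two_zero]
    have h5 : E * (x : M5) = E := by
      rw [mul_add, mul_one] at h1
      have := eq_neg_of_add_eq_zero_left h1
      rw [this, neg_eq_iff_add_eq_zero, two_zero]
    rw [h4, h5]
  -- any nontrivial element of C commuting with T maps to s
  have hcen : ∀ x : ↥C, x ≠ 1 → (∀ y ∈ (T : Subgroup _), x * y = y * x) →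
      ((e x : ↥(Subgroup.centralizer ({s} : Set SL5))) : SL5) = s := by
    intro x hx1 hx
    apply cent_Q s _ hs
    · intro q hq
      have hqD : q ∈ Subgroup.centralizer ({s} : Set SL5) :=
        Subgroup.mem_centralizer_singleton_iff.mpr (hQs q hq)
      have hqC : e.symm ⟨q, hqD⟩ ∈ QC := by
        show e (e.symm ⟨q, hqD⟩) ∈ QD
        rw [MulEquiv.apply_symm_apply]
        exact hq
      have h1 := hx _ (hQT hqC)
      have h2 := congrArg e h1
      rw [map_mul, map_mul, MulEquiv.apply_symm_apply] at h2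
      exact congrArg Subtype.val h2
    · intro h
      apply hx1
      apply e.injective
      rw [map_one]
      exact Subtype.ext h
  set That : Subgroup G := (T : Subgroup ↥C).map C.subtype with hThat
  have hzT : ∀ y ∈ (T : Subgroup ↥C), (⟨z, hzC⟩ : ↥C) * y = y * ⟨z, hzC⟩ := by
    intro y _
    apply Subtype.ext
    exact ((hCdef y).mp y.2).symm
  have hz1 : (⟨z, hzC⟩ : ↥C) ≠ 1 := by
    intro h
    have : z = 1 := congrArg Subtype.val h
    rw [this] at hz; simp at hz
  have hez := hcen ⟨z, hzC⟩ hz1 hzT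
  -- z ∈ T
  have hzmem : (⟨z, hzC⟩ : ↥C) ∈ (T : Subgroup ↥C) := by
    have hn : (Subgroup.zpowers (⟨z, hzC⟩ : ↥C)).Normal := by
      refine ⟨fun x hx g => ?_⟩
      obtain ⟨k, rfl⟩ := Subgroup.mem_zpowers_iff.mp hx
      have hc : g * (⟨z, hzC⟩ : ↥C) = ⟨z, hzC⟩ * g := by
        apply Subtype.ext
        exact (hCdef g).mp g.2
      have hc' : Commute g ((⟨z, hzC⟩ : ↥C) ^ k) := (show Commute g (⟨z, hzC⟩ : ↥C) from hc).zpow_right k
      rw [hc'.eq, mul_inv_cancel_right]
      exact hx
    have hp : IsPGroup 2 ↥(Subgroup.zpowers (⟨z, hzC⟩ : ↥C)) := by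
      apply IsPGroup.of_card (n := 1)
      rw [Nat.card_zpowers, Subgroup.orderOf_mk, hz]; rfl
    exact hp.le_sylow_of_normal T (Subgroup.mem_zpowers _)
  -- normalizer of That lies in C
  have hN : Subgroup.normalizer (That : Set G) ≤ C := by
    intro g hg
    have hzThat : z ∈ That := ⟨⟨z, hzC⟩, hzmem, rfl⟩
    have hgz : g * z * g⁻¹ ∈ That := (Subgroup.mem_normalizer_iff.mp hg z).mp hzThat
    obtain ⟨w, hw, hwz⟩ := hgz
    have hwz' : (w : G) = g * z * g⁻¹ := hwz
    have hw1 : w ≠ 1 := by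
      rintro rfl
      have h2 : g * z * g⁻¹ = 1 := hwz'.symm
      have h3 : z = 1 := by
        have : z = g⁻¹ * (g * z * g⁻¹) * g := by group
        rw [this, h2]; group
      rw [h3] at hz; simp at hz
    have hwT : ∀ y ∈ (T : Subgroup ↥C), w * y = y * w := by
      intro y hy
      have hyT : (y : G) ∈ That := ⟨y, hy, rfl⟩
      have hy' : g⁻¹ * y * g ∈ That := by
        have := (Subgroup.mem_normalizer_iff.mp (Subgroup.inv_mem _ hg) (y : G)).mp hyT
        simpa using this
      obtain ⟨v, hv, hvy⟩ := hy'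
      have hvy' : (v : G) = g⁻¹ * y * g := hvy
      have hcomm := congrArg Subtype.val (hzT v hv)
      have hcomm' : z * (v : G) = v * z := hcomm
      apply Subtype.ext
      show (w : G) * y = y * w
      rw [hwz']
      have hyv : (y : G) = g * v * g⁻¹ := by rw [hvy']; group
      rw [hyv]
      calc g * z * g⁻¹ * (g * v * g⁻¹) = g * (z * v) * g⁻¹ := by group
        _ = g * (v * z) * g⁻¹ := by rw [hcomm']
        _ = _ := by group
    have hew := hcen w hw1 hwT
    have h4 : w = ⟨z, hzC⟩ := by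
      apply e.injective
      apply Subtype.ext
      rw [hew, hez]
    have h5 : g * z * g⁻¹ = z := by rw [← hwz', h4]
    rw [hCdef]
    exact mul_inv_eq_iff_eq_mul.mp h5
  intro hdvd
  obtain ⟨n, hn⟩ := IsPGroup.iff_card.mp T.2
  have hThatcard : Nat.card ↥That = 2 ^ n := by
    rw [← hn]
    exact (Nat.card_congr ((T : Subgroup ↥C).equivMapOfInjective C.subtype C.subtype_injective).toEquiv).symm
  have h6 : 2 ^ (n + 1) ∣ Nat.card G := by
    rw [← Subgroup.card_mul_index That, hThatcard, pow_succ]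
    exact Nat.mul_dvd_mul_left _ hdvd
  have h7 := Sylow.prime_dvd_card_quotient_normalizer h6 hThatcard
  have h8 : That.relIndex (Subgroup.normalizer (That : Set G)) * (Subgroup.normalizer (That : Set G)).relIndex C = That.relIndex C :=
    Subgroup.relIndex_mul_relIndex _ _ _ Subgroup.le_normalizer hN
  have h9 : That.relIndex C = (T : Subgroup ↥C).index := by
    rw [Subgroup.relIndex, hThat]
    congr 1
    exact Subgroup.comap_map_eq_self_of_injective C.subtype_injective _
  have h10 : 2 ∣ That.relIndex C := by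
    rw [← h8]
    exact Dvd.dvd.mul_right h7 _
  rw [h9] at h10
  exact T.not_dvd_index h10


/-- Let G be a finite group with an involution z whose centraliser C is isomorphic to the centraliser of a transvection of SL(5, 2). Then a Sylow 2-subgroup of C, viewed in G, is a Sylow 2-subgroup of G (its index in G is odd). -/
theorem result {G : Type*} [Group G] [Finite G] (s : Matrix.SpecialLinearGroup (Fin 5) (ZMod 2)) (hs : (s : Matrix (Fin 5) (Fin 5) (ZMod 2)) = Matrix.transvection 0 1 1) (z : G) (hz : orderOf z = 2) (e : (Subgroup.centralizer ({z} : Set G)) ≃* Subgroup.centralizer ({s} : Set (Matrix.SpecialLinearGroup (Fin 5) (ZMod 2)))) (T : Sylow 2 (Subgroup.centralizer ({z} : Set G))) : ¬ 2 ∣ ((T : Subgroup (Subgroup.centralizer ({z} : Set G))).map (Subgroup.subtype (Subgroup.centralizer ({z} : Set G)))).index := by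
  exact aux s hs z hz _ (fun g => Subgroup.mem_centralizer_singleton_iff) e T

end Cfsg.Agent.S1717
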