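import Cfsg.Statements.S1722
import Cfsg.Agent.Lib.JTw14
-- import your own Cfsg.Agent.* helpers here

set_option autoImplicit false
open Cfsg

namespace Cfsg.Agent.S1722

/-- Sylow 5-structure of a group of Hall–Janko type (large-extraspecial hypothesis with Q of order 32, quotient Ω⁻(4, 2), z not weakly closed in Q, more than one class of involutions): a Sylow 5-subgroup P is its own centraliser, has order 25, its normaliser has order 300, and the subgroups of order 5 fall into exactly two conjugacy classes. -/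
theorem result {G : Type*} [Group G] [Finite G] (z : G) (hz : orderOf z = 2) (Q : Subgroup (Subgroup.centralizer ({z} : Set G))) [Q.Normal] (hF : Cfsg.generalizedFittingSubgroup (Subgroup.centralizer ({z} : Set G)) = Q) (hQ : Cfsg.IsExtraspecial 2 Q) (hcard : Nat.card Q = 2 ^ 5) (e : (Subgroup.centralizer ({z} : Set G)) ⧸ Q ≃* Cfsg.Omega (ZMod 2) (Cfsg.quadFormMinus 1 (ZMod 2) 1 1)) (hnwc : ∃ g : G, (∃ hq : g * z * g⁻¹ ∈ Subgroup.centralizer ({z} : Set G), (⟨g * z * g⁻¹, hq⟩ : Subgroup.centralizer ({z} : Set G)) ∈ Q) ∧ g * z * g⁻¹ ≠ z) (hcl : ∃ x y : G, orderOf x = 2 ∧ orderOf y = 2 ∧ ¬ IsConj x y) (P : Sylow 5 G) : Subgroup.centralizer ((P : Subgroup G) : Set G) = P ∧ Nat.card P = 25 ∧ Nat.card (Subgroup.normalizer ((P : Subgroup G) : Set G)) = 300 ∧ ∃ X Y : Subgroup G, Nat.card X = 5 ∧ Nat.card Y = 5 ∧ (∀ g : G, X.map (MulAut.conj g).toMonoidHom ≠ Y) ∧ ∀ W : Subgroup G, Nat.card W = 5 → ∃ g : G, W.map (MulAut.conj g).toMonoidHom = X ∨ W.map (MulAut.conj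 g).toMonoidHom = Y := by
  obtain ⟨S, _⟩ := Lib.JTw.exists_setup z hz Q hF hQ hcard e hnwc
  exact Lib.JTw.sylow_five S hcl P

end Cfsg.Agent.S1722
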