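import Cfsg.Statements.S1753

set_option autoImplicit false
open Cfsg

namespace Cfsg.Agent.S1753

universe u

/-- Let K be any property of groups. -/
theorem result (K : ∀ (X : Type u) [Group X], Prop) :
    (∀ (G : Type u) [Group G], Cfsg.IsMinCounterexampleWith K G → Cfsg.IsKProperWith K G) ∧
      ((∀ (X : Type u) [Group X] [Finite X], IsSimpleGroup X → ¬ IsMulCommutative X → Cfsg.IsKProperWith K X → K X) →
        ∀ (G : Type u) [Group G] [Finite G], IsSimpleGroup G → ¬ IsMulCommutative G → K G) := by
  have key : ∀ (G : Type u) [Group G] [Finite G],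
      (∀ (X : Type u) [Group X] [Finite X],
        IsSimpleGroup X → ¬ IsMulCommutative X → Nat.card X < Nat.card G → K X) →
      Cfsg.IsKProperWith K G := by
    intro G _ _ h H hH L N _ hs hc
    refine h _ hs hc ?_
    have hH' : Nat.card H < Nat.card G := by
      have h1 := H.card_mul_index
      have h2 : H.index ≠ 1 := fun h => hH (Subgroup.index_eq_one.mp h)
      have h3 : H.index ≠ 0 := Subgroup.index_ne_zero_of_finite
      have h4 : 0 < Nat.card H := Nat.card_pos
      have h5 : 2 ≤ H.index := by omega
      nlinarith
    have h1 : Nat.card (L ⧸ N) ≤ Nat.card L := by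
      have := N.card_mul_index
      rw [Subgroup.index] at this
      have h4 : 0 < Nat.card N := Nat.card_pos
      nlinarith
    have h2 : Nat.card L ≤ Nat.card H := Subgroup.card_le_card_group L
    omega
  refine ⟨fun G _ h => ?_, fun h => ?_⟩
  · obtain ⟨hf, hs, hc, hK, hmin⟩ := h
    haveI := hf
    exact key G hmin
  · intro G _ _
    induction hn : Nat.card G using Nat.strong_induction_on generalizing G with
    | _ n ih =>
      intro hs hc
      refine h G hs hc (key G ?_)
      intro X _ _ hsX hcX hlt
      exact ih (Nat.card X) (hn ▸ hlt) X rfl hsX hcX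

end Cfsg.Agent.S1753
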