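import Cfsg.Statements.S1754

set_option autoImplicit false
open Cfsg

namespace Cfsg.Agent.S1754

theorem quasisimple_congr {H K : Type*} [Group H] [Group K] (e : H ≃* K) (h : Cfsg.IsQuasisimple H) :
    Cfsg.IsQuasisimple K := by
  obtain ⟨hp, hs⟩ := h
  have hmap : (Subgroup.center H).map e.toMonoidHom = Subgroup.center K := by
    ext k
    simp only [Subgroup.mem_map, Subgroup.mem_center_iff]
    constructor
    · rintro ⟨h, hh, rfl⟩ g
      have := hh (e.symm g)
      have h2 := congrArg e this
      simpa using h2
    · intro hk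
      refine ⟨e.symm k, fun g => ?_, by simp⟩
      apply e.injective
      simpa using hk (e g)
  refine ⟨?_, ?_⟩
  · exact Group.IsPerfect.ofSurjective (f := e.toMonoidHom) e.surjective
  · have e2 : H ⧸ Subgroup.center H ≃* K ⧸ Subgroup.center K := QuotientGroup.congr _ _ e hmap
    exact e2.isSimpleGroup_congr.mp hs

/-- Let A be a standard subgroup of the finite group G (A quasisimple, C_G(A) tightly embedded of even order, A commuting elementwise with no other conjugate of itself, and N_G(A) = N_G(C_G(A))), and let t be an involution of G centralizing A. Then the centralizer of t lies in the normalizer of A; in particular A, viewed inside C_G(t), is a component of C_G(t). -/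
theorem result {G : Type*} [Group G] [Finite G]
    (A : Subgroup G) (hA : Cfsg.IsStandardSubgroup A) (t : G) (ht : orderOf t = 2) (htA : t ∈ Subgroup.centralizer (A : Set G)) :
    Subgroup.centralizer ({t} : Set G) ≤ Subgroup.normalizer (A : Set G) ∧
      Cfsg.IsComponent (A.subgroupOf (Subgroup.centralizer ({t} : Set G))) := by
  obtain ⟨hq, ⟨hev, htight⟩, hcomm, hN⟩ := hA
  have h1 : Subgroup.centralizer ({t} : Set G) ≤ Subgroup.normalizer (A : Set G) := by
    intro g hg
    rw [hN]
    by_contra hgn
    have hodd := htight g hgn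
    have hgt : g * t * g⁻¹ = t := by
      rw [Subgroup.mem_centralizer_singleton_iff] at hg
      rw [hg]; simp
    have hmem : t ∈ (Subgroup.centralizer (A : Set G)) ⊓ (Subgroup.centralizer (A : Set G)).map (MulAut.conj g).toMonoidHom := by
      refine ⟨htA, ⟨t, htA, ?_⟩⟩
      simpa using hgt
    have h2 : orderOf (⟨t, hmem⟩ : ↥((Subgroup.centralizer (A : Set G)) ⊓ (Subgroup.centralizer (A : Set G)).map (MulAut.conj g).toMonoidHom)) = 2 := by
      rw [← ht]
      exact Subgroup.orderOf_mk _ _
    have h3 := orderOf_dvd_natCard (⟨t, hmem⟩ : ↥((Subgroup.centralizer (A : Set G)) ⊓ (Subgroup.centralizer (A : Set G)).map (MulAut.conj g).toMonoidHom))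
    rw [h2] at h3
    exact (Nat.not_even_iff_odd.mpr hodd) (even_iff_two_dvd.mpr h3)
  refine ⟨h1, ?_⟩
  have hle : A ≤ Subgroup.centralizer ({t} : Set G) := by
    intro a ha
    rw [Subgroup.mem_centralizer_singleton_iff]
    exact (htA a ha)
  have hnorm : (A.subgroupOf (Subgroup.centralizer ({t} : Set G))).Normal :=
    Subgroup.normal_subgroupOf_iff_le_normalizer hle |>.mpr h1
  refine ⟨hnorm.isSubnormal, ?_⟩
  exact quasisimple_congr (Subgroup.subgroupOfEquivOfLe hle).symm hq

end Cfsg.Agent.S1754
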