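import Cfsg.Statements.S1755

set_option autoImplicit false
open Cfsg

namespace Cfsg.Agent.S1755

theorem quasisimple_congr {H K : Type*} [Group H] [Group K] (e : H ≃* K) (h : Cfsg.IsQuasisimple H) :
    Cfsg.IsQuasisimple K := by
  obtain ⟨hp, hs⟩ := h
  have hmap : (Subgroup.center H).map e.toMonoidHom = Subgroup.center K := by
    ext k
    simp only [Subgroup.mem_map, Subgroup.mem_center_iff]
    constructor
    · rintro ⟨h, hh, rfl⟩ g
      have := hh (e.symm g)
      have h2 := congrArg e this
      simpa using h2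
    · intro hk
      refine ⟨e.symm k, fun g => ?_, by simp⟩
      apply e.injective
      simpa using hk (e g)
  refine ⟨?_, ?_⟩
  · exact Group.IsPerfect.ofSurjective (f := e.toMonoidHom) e.surjective
  · have e2 : H ⧸ Subgroup.center H ≃* K ⧸ Subgroup.center K := QuotientGroup.congr _ _ e hmap
    exact e2.isSimpleGroup_congr.mp hs

theorem component_map {C : Type*} [Group C] (e : C ≃* C) (K : Subgroup C) (h : Cfsg.IsComponent K) :
    Cfsg.IsComponent (K.map e.toMonoidHom) := by
  refine ⟨h.1.map e.surjective, ?_⟩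
  exact quasisimple_congr (K.equivMapOfInjective e.toMonoidHom e.injective) h.2

theorem layer_map_le {C : Type*} [Group C] (e : C ≃* C) : (Cfsg.layer C).map e.toMonoidHom ≤ Cfsg.layer C := by
  rw [Subgroup.map_le_iff_le_comap, Cfsg.layer]
  refine sSup_le fun K hK => ?_
  rw [← Subgroup.map_le_iff_le_comap]
  exact le_sSup (component_map e K hK)

theorem fitting_map_le {C : Type*} [Group C] (e : C ≃* C) :
    (Cfsg.fittingSubgroup C).map e.toMonoidHom ≤ Cfsg.fittingSubgroup C := by
  rw [Subgroup.map_le_iff_le_comap, Cfsg.fittingSubgroup]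
  refine sSup_le fun K hK => ?_
  rw [← Subgroup.map_le_iff_le_comap]
  refine le_sSup ⟨hK.1.map _ e.surjective, ?_⟩
  haveI := hK.2
  exact Group.nilpotent_of_mulEquiv (K.equivMapOfInjective e.toMonoidHom e.injective)

theorem gfs_map_le {C : Type*} [Group C] (e : C ≃* C) :
    (Cfsg.generalizedFittingSubgroup C).map e.toMonoidHom ≤ Cfsg.generalizedFittingSubgroup C := by
  rw [Cfsg.generalizedFittingSubgroup, Subgroup.map_sup]
  exact sup_le_sup (layer_map_le e) (fitting_map_le e)

instance gfs_char (C : Type*) [Group C] : (Cfsg.generalizedFittingSubgroup C).Characteristic :=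
  Subgroup.characteristic_iff_map_le.mpr gfs_map_le

theorem center_le_gfs (C : Type*) [Group C] : Subgroup.center C ≤ Cfsg.generalizedFittingSubgroup C := by
  refine le_trans ?_ le_sup_right
  refine le_sSup ⟨inferInstance, ?_⟩
  rw [Group.isNilpotent_iff]
  refine ⟨1, ?_⟩
  exact (Subgroup.upperCentralSeries_one_eq_top_iff).mpr inferInstance

theorem cyclic_unique_two {A : Type*} [Group A] [Finite A] [IsCyclic A] (a b : A) (ha : orderOf a = 2)
    (hb : orderOf b = 2) : a = b := by
  classical
  haveI := Fintype.ofFinite A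
  by_contra hab
  have h1 := IsCyclic.card_pow_eq_one_le (α := A) (n := 2) (by norm_num)
  have h2 : ({1, a, b} : Finset A) ⊆ Finset.univ.filter (fun x : A => x ^ 2 = 1) := by
    intro x hx
    simp only [Finset.mem_insert, Finset.mem_singleton] at hx
    simp only [Finset.mem_filter, Finset.mem_univ, true_and]
    rcases hx with rfl | rfl | rfl
    · simp
    · rw [← ha]; exact pow_orderOf_eq_one _
    · rw [← hb]; exact pow_orderOf_eq_one _
  have h3 : ({1, a, b} : Finset A).card = 3 := by
    have h1a : (1 : A) ≠ a := by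
      rintro rfl
      simp at ha
    have h1b : (1 : A) ≠ b := by
      rintro rfl
      simp at hb
    rw [Finset.card_insert_of_notMem, Finset.card_insert_of_notMem, Finset.card_singleton]
    · simpa using hab
    · simp [h1a, h1b]
  have := Finset.card_le_card h2
  omega

theorem aux {G : Type*} [Group G] [Finite G] (z : G) (hz : orderOf z = 2) (C : Subgroup G)
    (hC : ∀ x : G, x ∈ C ↔ x * z = z * x) (hzC : z ∈ C) (F : Subgroup ↥C) (hFc : F.Characteristic)
    (hcF : Subgroup.center ↥C ≤ F) (hQ : Cfsg.IsOfSymplecticType ↥F)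
    (B : Subgroup ↥F) (hBc : B.Characteristic) (hBa : IsMulCommutative ↥B) (g : G) :
    ((B.map F.subtype).map C.subtype).map (MulAut.conj g).toMonoidHom =
        (B.map F.subtype).map C.subtype ∨
      ((B.map F.subtype).map C.subtype).map (MulAut.conj g).toMonoidHom ⊓
        (B.map F.subtype).map C.subtype = ⊥ := by
  classical
  have hzcen : (⟨z, hzC⟩ : ↥C) ∈ Subgroup.center ↥C := by
    rw [Subgroup.mem_center_iff]
    intro c
    apply Subtype.ext
    exact (hC c).mp c.2
  have hzF : (⟨z, hzC⟩ : ↥C) ∈ F := hcF hzcen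
  let zF : ↥F := ⟨⟨z, hzC⟩, hzF⟩
  have hzFcen : zF ∈ Subgroup.center ↥F := by
    rw [Subgroup.mem_center_iff]
    intro f
    apply Subtype.ext
    exact Subgroup.mem_center_iff.mp hzcen f
  have hzFord : orderOf zF = 2 := by
    rw [← hz, ← Subgroup.orderOf_coe zF, ← Subgroup.orderOf_coe (zF : ↥C)]
  haveI hcyc : IsCyclic ↥B := hQ.2 B hBc hBa
  haveI hcyc2 : IsCyclic ↥(Subgroup.center ↥F) := hQ.2 _ inferInstance inferInstance
  -- any element of B of order 2 equals zF
  have huniq : ∀ u : ↥F, u ∈ B → orderOf u = 2 → u = zF := by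
    intro u huB hu
    have hucen : u ∈ Subgroup.center ↥F := by
      rw [Subgroup.mem_center_iff]
      intro f
      haveI : B.Normal := inferInstance
      have h1 : f * u * f⁻¹ ∈ B := Subgroup.Normal.conj_mem inferInstance u huB f
      have h2 : orderOf (f * u * f⁻¹) = 2 := by
        rw [← hu]
        have := orderOf_injective (MulAut.conj f).toMonoidHom (MulAut.conj f).injective u
        simpa using this
      have h3 : (⟨f * u * f⁻¹, h1⟩ : ↥B) = ⟨u, huB⟩ := by
        apply cyclic_unique_two
        · rw [Subgroup.orderOf_mk, h2]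
        · rw [Subgroup.orderOf_mk, hu]
      have h4 : f * u * f⁻¹ = u := congrArg Subtype.val h3
      exact mul_inv_eq_iff_eq_mul.mp h4
    have h5 : (⟨u, hucen⟩ : ↥(Subgroup.center ↥F)) = ⟨zF, hzFcen⟩ := by
      apply cyclic_unique_two
      · rw [Subgroup.orderOf_mk, hu]
      · rw [Subgroup.orderOf_mk, hzFord]
    exact congrArg Subtype.val h5
  by_cases hgz : g * z * g⁻¹ = z
  · left
    have hgC : g ∈ C := by
      rw [hC]
      exact mul_inv_eq_iff_eq_mul.mp hgz
    have hincl : ∀ h : G, ∀ hh : h ∈ C, ∀ x ∈ ((B.map F.subtype).map C.subtype), h * x * h⁻¹ ∈ ((B.map F.subtype).map C.subtype) := by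
      rintro h hh _ ⟨_, ⟨b, hb, rfl⟩, rfl⟩
      let hc : ↥C := ⟨h, hh⟩
      -- automorphism of F induced by conjugation
      let φ : ↥F ≃* ↥F := MulAut.conjNormal hc
      have hφ : φ b ∈ B := by
        have := Subgroup.characteristic_iff_map_le.mp hBc φ
        exact this ⟨b, hb, rfl⟩
      refine ⟨_, ⟨φ b, hφ, rfl⟩, ?_⟩
      simp [φ, hc]
    apply le_antisymm
    · rintro _ ⟨x, hx, rfl⟩
      exact hincl g hgC x hx
    · intro x hx
      refine ⟨g⁻¹ * x * g, ?_, by simp [mul_assoc]⟩
      have := hincl g⁻¹ (C.inv_mem hgC) x hx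
      simpa using this
  · right
    rw [eq_bot_iff]
    intro w hw
    rw [Subgroup.mem_bot]
    by_contra hw1
    -- the intersection is a 2-group; take an involution
    set I : Subgroup G := ((B.map F.subtype).map C.subtype).map (MulAut.conj g).toMonoidHom ⊓ ((B.map F.subtype).map C.subtype) with hI
    have hBp : IsPGroup 2 ↥((B.map F.subtype).map C.subtype) :=
      ((hQ.1.to_subgroup B).map F.subtype).map C.subtype
    have hIp : IsPGroup 2 ↥I := hBp.to_inf_right
    obtain ⟨k, hk⟩ := IsPGroup.iff_orderOf.mp hIp ⟨w, hw⟩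
    have hne : (⟨w, hw⟩ : ↥I) ≠ 1 := by
      intro h
      exact hw1 (congrArg Subtype.val h)
    have h2dvd : 2 ∣ Nat.card ↥I := hIp.dvd_orderOf hne |>.trans (orderOf_dvd_natCard _)
    obtain ⟨v, hv⟩ := exists_prime_orderOf_dvd_card' 2 h2dvd
    obtain ⟨hv1, hv2⟩ := v.2
    have hvord : orderOf (v : G) = 2 := by rw [Subgroup.orderOf_coe, hv]
    have key : ∀ y ∈ ((B.map F.subtype).map C.subtype), orderOf y = 2 → y = z := by
      rintro _ ⟨_, ⟨b, hb, rfl⟩, rfl⟩ hy
      have hb2 : orderOf b = 2 := by
        rw [← hy]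
        show orderOf b = orderOf ((b : ↥C) : G)
        rw [Subgroup.orderOf_coe, Subgroup.orderOf_coe]
      have := huniq b hb hb2
      rw [this]
      rfl
    have hvz : (v : G) = z := key _ hv2 hvord
    obtain ⟨y, hy, hyv⟩ := hv1
    have hyv' : g * y * g⁻¹ = (v : G) := by simpa using hyv
    have hyord : orderOf y = 2 := by
      rw [← hvord, ← hyv']
      have := orderOf_injective (MulAut.conj g).toMonoidHom (MulAut.conj g).injective y
      simpa using this.symm
    have hyz : y = z := key y hy hyord
    rw [hyz, hvz] at hyv'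
    exact hgz hyv'


/-- Let G be a finite group and let z be an involution of G such that Q, the generalized Fitting subgroup of the centralizer C of z, is a 2-group of symplectic type (every characteristic abelian subgroup of Q is cyclic). Let B be a characteristic abelian subgroup of Q, viewed as a subgroup of G. Then for every g in G, the conjugate of B by g either equals B or meets B trivially. -/
theorem result {G : Type*} [Group G] [Finite G] (z : G) (hz : orderOf z = 2) (hQ : Cfsg.IsOfSymplecticType ↥(Cfsg.generalizedFittingSubgroup ↥(Subgroup.centralizer ({z} : Set G))))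
    (B : Subgroup ↥(Cfsg.generalizedFittingSubgroup ↥(Subgroup.centralizer ({z} : Set G)))) (hBc : B.Characteristic) (hBa : IsMulCommutative ↥B) (g : G) :
    ((B.map (Cfsg.generalizedFittingSubgroup ↥(Subgroup.centralizer ({z} : Set G))).subtype).map (Subgroup.centralizer ({z} : Set G)).subtype).map (MulAut.conj g).toMonoidHom =
        (B.map (Cfsg.generalizedFittingSubgroup ↥(Subgroup.centralizer ({z} : Set G))).subtype).map (Subgroup.centralizer ({z} : Set G)).subtype ∨
      ((B.map (Cfsg.generalizedFittingSubgroup ↥(Subgroup.centralizer ({z} : Set G))).subtype).map (Subgroup.centralizer ({z} : Set G)).subtype).map (MulAut.conj g).toMonoidHom ⊓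
        (B.map (Cfsg.generalizedFittingSubgroup ↥(Subgroup.centralizer ({z} : Set G))).subtype).map (Subgroup.centralizer ({z} : Set G)).subtype = ⊥ := by
  refine aux z hz _ (fun x => ?_) ?_ _ inferInstance (center_le_gfs _) hQ B hBc hBa g
  · rw [Subgroup.mem_centralizer_singleton_iff]
  · rw [Subgroup.mem_centralizer_singleton_iff]

end Cfsg.Agent.S1755
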