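import Cfsg.Statements.S1756
import Mathlib.GroupTheory.FiniteAbelian.Duality
import Mathlib.GroupTheory.IndexNormal

set_option autoImplicit false
open Cfsg

namespace Cfsg.Agent.S1756

section
variable {Q : Type*} [Group Q] [Finite Q]

/-- commuting sign character -/
noncomputable def sgn (Q : Type*) [Group Q] (x y : Q) : ℤˣ := by
  classical exact if x * y = y * x then 1 else -1

theorem mem_of_card_two {Q : Type*} [Group Q] (Z : Subgroup Q) (hZ : Nat.card Z = 2) {a b : Q} (ha : a ∈ Z) (hb : b ∈ Z)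
    (ha1 : a ≠ 1) (hb1 : b ≠ 1) : a = b := by
  haveI : Finite Z := Nat.finite_of_card_ne_zero (by omega)
  haveI := Fintype.ofFinite Z
  have hZ' : Fintype.card Z = 2 := by rw [← Nat.card_eq_fintype_card]; exact hZ
  by_contra hab
  have h3 : 2 < Fintype.card Z := by
    rw [Fintype.two_lt_card_iff]
    refine ⟨1, ⟨a, ha⟩, ⟨b, hb⟩, ?_, ?_, ?_⟩
    · intro h; exact ha1 (congrArg Subtype.val h).symm
    · intro h; exact hb1 (congrArg Subtype.val h).symm
    · intro h; exact hab (congrArg Subtype.val h)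
  omega

theorem key (hQ : Cfsg.IsExtraspecial 2 Q) (τ : Q → Q) (hτm : ∀ a b, τ (a * b) = τ a * τ b)
    (hττ : ∀ a, τ (τ a) = a) (M : Subgroup Q) (hM : ∀ q, q ∈ M ↔ τ q = q) (hi : M.index ≤ 2) :
    ∃ x : Q, ∀ q, τ q = x * q * x⁻¹ := by
  classical
  obtain ⟨⟨hp, hfr, hcomm⟩, hcard⟩ := hQ
  have hτ1 : τ 1 = 1 := by
    have := hτm 1 1
    rw [mul_one] at this
    exact (left_eq_mul.mp this)
  have hτinv : ∀ a, τ a⁻¹ = (τ a)⁻¹ := by
    intro a
    apply eq_inv_of_mul_eq_one_left
    rw [← hτm]; simp [hτ1]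
  have hidx0 : M.index ≠ 0 := Subgroup.index_ne_zero_of_finite
  have hZ : ∀ x y : Q, x * y * x⁻¹ * y⁻¹ ∈ Subgroup.center Q := by
    intro x y
    rw [← hcomm]
    exact Subgroup.commutator_mem_commutator (Subgroup.mem_top x) (Subgroup.mem_top y)
  have huniq : ∀ a b : Q, a ∈ Subgroup.center Q → b ∈ Subgroup.center Q → a ≠ 1 → b ≠ 1 → a = b :=
    fun a b ha hb ha1 hb1 => mem_of_card_two _ hcard ha hb ha1 hb1
  -- every commutator is central; describe the product rule
  have hdef : ∀ x y : Q, x * y * x⁻¹ = (x * y * x⁻¹ * y⁻¹) * y := by intro x y; group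
  by_cases h1 : M.index = 1
  · refine ⟨1, fun q => ?_⟩
    have : M = ⊤ := Subgroup.index_eq_one.mp h1
    have hq : q ∈ M := by rw [this]; trivial
    rw [(hM q).mp hq]; simp
  have h2 : M.index = 2 := by omega
  -- the center is fixed by τ
  have hτcen : ∀ z ∈ Subgroup.center Q, τ z = z := by
    intro z hz
    by_cases hz1 : z = 1
    · rw [hz1, hτ1]
    apply huniq _ _ _ hz _ hz1
    · rw [Subgroup.mem_center_iff] at hz ⊢
      intro g
      have := hz (τ g)
      have h3 := congrArg τ this
      rw [hτm, hτm, hττ] at h3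
      exact h3
    · intro h
      apply hz1
      rw [← hττ z, h, hτ1]
  have hZM : Subgroup.center Q ≤ M := fun z hz => (hM z).mpr (hτcen z hz)
  -- squares of elements of the center are trivial
  have hsq1 : ∀ z ∈ Subgroup.center Q, z * z = 1 := by
    intro z hz
    by_contra h
    have hz1 : z ≠ 1 := by rintro rfl; simp at h
    have := huniq (z * z) z (Subgroup.mul_mem _ hz hz) hz h hz1
    have h4 : z = 1 := by simpa using this
    exact hz1 h4
  -- commutator sign is a homomorphism in each variable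
  have hbil : ∀ x y y' : Q, x * (y * y') * x⁻¹ * (y * y')⁻¹ = (x * y * x⁻¹ * y⁻¹) * (x * y' * x⁻¹ * y'⁻¹) := by
    intro x y y'
    have hc := Subgroup.mem_center_iff.mp (hZ x y') y
    calc x * (y * y') * x⁻¹ * (y * y')⁻¹ = (x * y * x⁻¹) * (x * y' * x⁻¹ * y'⁻¹) * y⁻¹ := by group
      _ = (x * y * x⁻¹ * y⁻¹) * (y * (x * y' * x⁻¹ * y'⁻¹)) * y⁻¹ := by group
      _ = (x * y * x⁻¹ * y⁻¹) * ((x * y' * x⁻¹ * y'⁻¹) * y) * y⁻¹ := by rw [hc]
      _ = _ := by group
  have hbil2 : ∀ x x' y : Q, (x * x') * y * (x * x')⁻¹ * y⁻¹ = (x * y * x⁻¹ * y⁻¹) * (x' * y * x'⁻¹ * y⁻¹) := by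
    intro x x' y
    have hc := Subgroup.mem_center_iff.mp (hZ x' y) x
    calc (x * x') * y * (x * x')⁻¹ * y⁻¹ = (x * (x' * y * x'⁻¹ * y⁻¹)) * y * x⁻¹ * y⁻¹ := by group
      _ = ((x' * y * x'⁻¹ * y⁻¹) * x) * y * x⁻¹ * y⁻¹ := by rw [hc]
      _ = (x' * y * x'⁻¹ * y⁻¹) * (x * y * x⁻¹ * y⁻¹) := by group
      _ = _ := by
        have := Subgroup.mem_center_iff.mp (hZ x' y) (x * y * x⁻¹ * y⁻¹)
        rw [this]
  have hcommiff : ∀ x y : Q, x * y = y * x ↔ x * y * x⁻¹ * y⁻¹ = 1 := by
    intro x y
    constructor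
    · intro h; rw [h]; group
    · intro h
      have h5 := mul_inv_eq_one.mp h
      exact mul_inv_eq_iff_eq_mul.mp h5
  -- sign function on Z
  have hs : ∀ a b : Q, a ∈ Subgroup.center Q → b ∈ Subgroup.center Q →
      (if a * b = 1 then (1 : ℤˣ) else -1) = (if a = 1 then (1 : ℤˣ) else -1) * (if b = 1 then (1 : ℤˣ) else -1) := by
    intro a b ha hb
    by_cases ha1 : a = 1
    · simp [ha1]
    · by_cases hb1 : b = 1
      · simp [hb1]
      · have := huniq a b ha hb ha1 hb1
        rw [← this]
        rw [if_pos (hsq1 a ha), if_neg ha1]; simp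
  -- the map
  let χ : Q → (Q →* ℤˣ) := fun x => MonoidHom.mk' (fun y => if x * y * x⁻¹ * y⁻¹ = 1 then (1 : ℤˣ) else -1)
    (by
      intro y y'
      rw [hbil x y y', hs _ _ (hZ x y) (hZ x y')])
  let Φ : Q →* (Q →* ℤˣ) := MonoidHom.mk' χ
    (by
      intro x x'
      ext y
      simp only [χ, MonoidHom.mk'_apply, MonoidHom.mul_apply]
      rw [hbil2 x x' y, hs _ _ (hZ x y) (hZ x' y)])
  have hker : Φ.ker = Subgroup.center Q := by
    ext x
    rw [MonoidHom.mem_ker, Subgroup.mem_center_iff]
    constructor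
    · intro h g
      have h6 : (Φ x) g = 1 := by rw [h]; rfl
      simp only [Φ, χ, MonoidHom.mk'_apply] at h6
      by_contra hne
      have h7 : ¬ (x * g * x⁻¹ * g⁻¹ = 1) := fun h8 => hne ((hcommiff x g).mpr h8).symm
      rw [if_neg h7] at h6
      exact absurd h6 (by decide)
    · intro h
      ext g
      simp only [Φ, χ, MonoidHom.mk'_apply]
      rw [if_pos ((hcommiff x g).mp (h g).symm)]
      rfl
  -- there is q0 outside M
  have hMtop : M ≠ ⊤ := fun h => h1 (Subgroup.index_eq_one.mpr h)
  obtain ⟨q0, hq0⟩ : ∃ q0, q0 ∉ M := by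
    by_contra h
    push Not at h
    exact hMtop (eq_top_iff.mpr fun x _ => h x)
  -- squares are central
  have hsq : ∀ x : Q, x * x ∈ Subgroup.center Q := by
    intro x
    rw [Subgroup.mem_center_iff]
    intro g
    have := hbil2 x x g
    rw [hsq1 _ (hZ x g)] at this
    exact ((hcommiff (x * x) g).mpr this).symm
  -- cardinalities
  have hcardE : Nat.card (Abelianization Q) = (Subgroup.center Q).index := by
    rw [← hcomm]; rfl
  have hexp : Monoid.exponent (Abelianization Q) = 2 := by
    have hdvd : Monoid.exponent (Abelianization Q) ∣ 2 := by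
      apply Monoid.exponent_dvd_of_forall_pow_eq_one
      intro a
      obtain ⟨x, rfl⟩ := QuotientGroup.mk_surjective (s := commutator Q) a
      have h9 : x ^ 2 ∈ commutator Q := by rw [hcomm, pow_two]; exact hsq x
      exact (QuotientGroup.eq_one_iff (x ^ 2)).mpr h9
    rcases (Nat.dvd_prime Nat.prime_two).mp hdvd with h | h
    · exfalso
      have h10 := Monoid.pow_exponent_eq_one (Abelianization.of q0)
      rw [h, pow_one] at h10
      have h11 : q0 ∈ commutator Q := (QuotientGroup.eq_one_iff q0).mp h10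
      rw [hcomm] at h11
      exact hq0 (hZM h11)
    · exact h
  haveI hroots : HasEnoughRootsOfUnity ℤ (Monoid.exponent (Abelianization Q)) := by
    rw [hexp]
    refine ⟨⟨-1, ?_⟩, ?_⟩
    · exact IsPrimitiveRoot.neg_one 0 (by norm_num)
    · infer_instance
  haveI : Finite (Abelianization Q) := inferInstanceAs (Finite (Q ⧸ commutator Q))
  have hcardhom : Nat.card (Q →* ℤˣ) = (Subgroup.center Q).index := by
    rw [Nat.card_congr (Abelianization.lift (G := Q) (A := ℤˣ)), CommGroup.card_monoidHom_of_hasEnoughRootsOfUnity, hcardE]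
  haveI : Finite (Q →* ℤˣ) := by
    apply Nat.finite_of_card_ne_zero
    rw [hcardhom]
    exact Subgroup.index_ne_zero_of_finite
  have hrange : Φ.range = ⊤ := by
    apply Subgroup.eq_top_of_card_eq
    rw [hcardhom, ← hker, Subgroup.index_ker]
  -- the character with kernel M
  let χ0 : Q →* ℤˣ := MonoidHom.mk' (fun y => if y ∈ M then (1 : ℤˣ) else -1)
    (by
      intro a b
      have := Subgroup.mul_mem_iff_of_index_two h2 (a := a) (b := b)
      by_cases ha : a ∈ M <;> by_cases hb : b ∈ M <;> simp [this, ha, hb])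
  obtain ⟨x, hx⟩ : χ0 ∈ Φ.range := by rw [hrange]; trivial
  have hxM : ∀ y, y ∈ M ↔ x * y * x⁻¹ * y⁻¹ = 1 := by
    intro y
    have h12 : (Φ x) y = χ0 y := by rw [hx]
    simp only [Φ, χ, χ0, MonoidHom.mk'_apply] at h12
    by_cases hy : y ∈ M
    · rw [if_pos hy] at h12
      refine ⟨fun _ => ?_, fun _ => hy⟩
      by_contra h13
      rw [if_neg h13] at h12
      exact absurd h12 (by decide)
    · rw [if_neg hy] at h12
      refine ⟨fun h => absurd h hy, fun h13 => ?_⟩
      rw [if_pos h13] at h12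
      exact absurd h12 (by decide)
  refine ⟨x, fun q => ?_⟩
  by_cases hq : q ∈ M
  · rw [(hM q).mp hq]
    have := (hxM q).mp hq
    exact (mul_inv_eq_one.mp this).symm
  · -- c = q⁻¹ τ(q)
    let c : Q := q⁻¹ * τ q
    have hcτ : τ q = q * c := by simp [c]
    have hcM : ∀ m ∈ M, c * m = m * c := by
      intro m hm
      have hn : M.Normal := Subgroup.normal_of_index_eq_two h2
      have h14 : q * m * q⁻¹ ∈ M := hn.conj_mem m hm q
      have h15 := (hM _).mp h14
      rw [hτm, hτm, hτinv, (hM m).mp hm] at h15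
      -- τ q * m * (τ q)⁻¹ = q * m * q⁻¹
      have h16 : q⁻¹ * (τ q * m * (τ q)⁻¹) * τ q = q⁻¹ * (q * m * q⁻¹) * τ q := by rw [h15]
      have h17 : q⁻¹ * (τ q * m * (τ q)⁻¹) * τ q = c * m := by simp [c, mul_assoc]
      have h18 : q⁻¹ * (q * m * q⁻¹) * τ q = m * c := by simp [c, mul_assoc]
      rw [← h17, ← h18, h16]
    have hcmem : c ∈ M := by
      by_contra hc
      -- then every element is in M or in M c, all commute with c
      have hccen : c ∈ Subgroup.center Q := by
        rw [Subgroup.mem_center_iff]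
        intro g
        by_cases hg : g ∈ M
        · exact (hcM g hg).symm
        · have h19 : g * c⁻¹ ∈ M := by
            rw [Subgroup.mul_mem_iff_of_index_two h2]
            constructor
            · intro h; exact absurd h hg
            · intro h; exact absurd (by simpa using M.inv_mem h) hc
          have h20 := hcM _ h19
          have h21 : g = (g * c⁻¹) * c := by simp
          calc g * c = ((g * c⁻¹) * c) * c := by rw [← h21]
            _ = (c * (g * c⁻¹)) * c := by rw [h20]
            _ = c * g := by group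
      exact hc (hZM hccen)
    have hcc : c * c = 1 := by
      have h22 : τ (τ q) = q := hττ q
      rw [hcτ, hτm, (hM c).mp hcmem, hcτ, mul_assoc] at h22
      simpa using h22
    have hcq : c * q = q * c := by
      have h23 := hτcen _ (hsq q)
      rw [hτm, hcτ] at h23
      -- q * c * (q * c) = q * q
      have h24 : c * (q * c) = q := by
        have : q * (c * (q * c)) = q * q := by rw [← h23]; group
        exact mul_left_cancel this
      calc c * q = c * (c * (q * c)) := by rw [h24]
        _ = (c * c) * (q * c) := by group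
        _ = q * c := by rw [hcc, one_mul]
    have hccen : c ∈ Subgroup.center Q := by
      rw [Subgroup.mem_center_iff]
      intro g
      by_cases hg : g ∈ M
      · exact (hcM g hg).symm
      · have h19 : g * q⁻¹ ∈ M := by
          rw [Subgroup.mul_mem_iff_of_index_two h2]
          constructor
          · intro h; exact absurd h hg
          · intro h; exact absurd (by simpa using M.inv_mem h) hq
        have h20 := hcM _ h19
        have h21 : g = (g * q⁻¹) * q := by simp
        calc g * c = (g * q⁻¹) * (q * c) := by group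
          _ = (g * q⁻¹) * (c * q) := by rw [hcq]
          _ = ((g * q⁻¹) * c) * q := by group
          _ = (c * (g * q⁻¹)) * q := by rw [h20]
          _ = c * g := by group
    have hc1 : c ≠ 1 := by
      intro h
      apply hq
      rw [hM, hcτ, h, mul_one]
    have hx1 : x * q * x⁻¹ * q⁻¹ ≠ 1 := fun h => hq ((hxM q).mpr h)
    have hfin := huniq _ _ hccen (hZ x q) hc1 hx1
    rw [hcτ, hdef x q, ← hfin]
    exact Subgroup.mem_center_iff.mp hccen q

end

/-- Let Q be an extraspecial 2-subgroup of the finite group G (special with centre of order 2) and t an involution of G normalizing Q such that the centralizer of t in Q has index at most 2 in Q. Then t lies in the product of Q with the centralizer of Q. -/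
theorem result {G : Type*} [Group G] [Finite G] (Q : Subgroup G)
    (hQ : Cfsg.IsExtraspecial 2 ↥Q) (t : G) (ht : orderOf t = 2) (htN : t ∈ Subgroup.normalizer (Q : Set G))
    (hi : (Subgroup.centralizer ({t} : Set G) ⊓ Q).relIndex Q ≤ 2) :
    t ∈ Q ⊔ Subgroup.centralizer (Q : Set G) := by
  have htt : t * t = 1 := by rw [← pow_two, ← ht]; exact pow_orderOf_eq_one t
  have htinv : t⁻¹ = t := inv_eq_of_mul_eq_one_left htt
  have hmem : ∀ q : ↥Q, t * q * t⁻¹ ∈ Q := fun q => (Subgroup.mem_normalizer_iff.mp htN q).mp q.2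
  let τ : ↥Q → ↥Q := fun q => ⟨t * q * t⁻¹, hmem q⟩
  have hM : ∀ q : ↥Q, q ∈ (Subgroup.centralizer ({t} : Set G) ⊓ Q).subgroupOf Q ↔ τ q = q := by
    intro q
    rw [Subgroup.mem_subgroupOf, Subgroup.mem_inf, Subgroup.mem_centralizer_singleton_iff]
    constructor
    · rintro ⟨h, -⟩
      apply Subtype.ext
      show t * q * t⁻¹ = q
      rw [← h]; simp
    · intro h
      refine ⟨?_, q.2⟩
      have h2 : t * (q : G) * t⁻¹ = q := congrArg Subtype.val h
      exact (mul_inv_eq_iff_eq_mul.mp h2).symm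
  obtain ⟨x, hx⟩ := key hQ τ (fun a b => by apply Subtype.ext; simp [τ]) (fun a => by
    apply Subtype.ext
    show t * (t * a * t⁻¹) * t⁻¹ = a
    rw [htinv]
    calc t * (t * (a : G) * t) * t = (t * t) * a * (t * t) := by group
      _ = a := by rw [htt]; simp) _ hM hi
  have h3 : (x : G)⁻¹ * t ∈ Subgroup.centralizer (Q : Set G) := by
    rw [Subgroup.mem_centralizer_iff]
    intro q hq
    have h4 : t * q * t⁻¹ = x * q * (x : G)⁻¹ := congrArg Subtype.val (hx ⟨q, hq⟩)
    have h5 : t * q = x * q * (x : G)⁻¹ * t := mul_inv_eq_iff_eq_mul.mp h4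
    calc q * ((x : G)⁻¹ * t) = (x : G)⁻¹ * (x * q * (x : G)⁻¹ * t) := by group
      _ = (x : G)⁻¹ * (t * q) := by rw [h5]
      _ = _ := by group
  have h6 : t = (x : G) * ((x : G)⁻¹ * t) := by simp
  rw [h6]
  exact Subgroup.mul_mem _ (Subgroup.mem_sup_left x.2) (Subgroup.mem_sup_right h3)

end Cfsg.Agent.S1756
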