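import Cfsg.Statements.S1757

set_option autoImplicit false
open Cfsg
open scoped Pointwise

namespace Cfsg.Agent.S1757

/-- Let p be a prime and A, B p-subgroups of the finite group G, each of which meets every conjugate of itself other than itself trivially. Suppose the order of A is at most that of B, A and B intersect trivially, and B normalizes A. Then A and B commute elementwise. -/
theorem result {G : Type*} [Group G] [Finite G] (p : ℕ) [Fact p.Prime] (A B : Subgroup G)
    (hA : IsPGroup p ↥A) (hB : IsPGroup p ↥B)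
    (hAti : ∀ g : G, A.map (MulAut.conj g).toMonoidHom = A ∨ A.map (MulAut.conj g).toMonoidHom ⊓ A = ⊥)
    (hBti : ∀ g : G, B.map (MulAut.conj g).toMonoidHom = B ∨ B.map (MulAut.conj g).toMonoidHom ⊓ B = ⊥)
    (hle : Nat.card ↥A ≤ Nat.card ↥B) (hAB : A ⊓ B = ⊥) (hN : B ≤ Subgroup.normalizer (A : Set G)) : ⁅A, B⁆ = ⊥ := by
  classical
  -- the product as a p-group
  have hP : IsPGroup p ↥(B ⊔ A) := IsPGroup.to_sup_of_normal_right' hB hA hN
  -- commutator bound
  have hcommA : ∀ a ∈ A, ∀ b ∈ B, a * b * a⁻¹ * b⁻¹ ∈ A := by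
    intro a ha b hb
    have h1 : b * a⁻¹ * b⁻¹ ∈ A := by
      have := (Subgroup.mem_normalizer_iff.mp (hN hb) a⁻¹).mp (A.inv_mem ha)
      exact this
    have : a * (b * a⁻¹ * b⁻¹) ∈ A := A.mul_mem ha h1
    simpa [mul_assoc] using this
  -- elements of A that normalize B centralize B
  have hcent : ∀ a ∈ A, a ∈ Subgroup.normalizer (B : Set G) → ∀ b ∈ B, a * b = b * a := by
    intro a ha han b hb
    have h1 : a * b * a⁻¹ ∈ B := (Subgroup.mem_normalizer_iff.mp han b).mp hb
    have h2 : a * b * a⁻¹ * b⁻¹ ∈ B := B.mul_mem h1 (B.inv_mem hb)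
    have h3 : a * b * a⁻¹ * b⁻¹ ∈ A ⊓ B := ⟨hcommA a ha b hb, h2⟩
    rw [hAB, Subgroup.mem_bot] at h3
    have h4 : a * b * a⁻¹ = b := by
      have := mul_inv_eq_one.mp h3
      exact this
    have h5 := mul_inv_eq_iff_eq_mul.mp h4
    exact h5
  by_cases hAN : A ≤ Subgroup.normalizer (B : Set G)
  · rw [Subgroup.commutator_eq_bot_iff_le_centralizer]
    intro a ha
    rw [Subgroup.mem_centralizer_iff]
    intro b hb
    exact (hcent a ha (hAN ha) b hb).symm
  · exfalso
    -- normalizer of N' in P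
    set P : Subgroup G := B ⊔ A with hPdef
    haveI : Group.IsNilpotent ↥P := hP.isNilpotent
    let N' : Subgroup ↥P := (Subgroup.normalizer (B : Set G)).subgroupOf P
    have hN'top : N' ≠ ⊤ := by
      intro h
      apply hAN
      have : P ≤ Subgroup.normalizer (B : Set G) := Subgroup.subgroupOf_eq_top.mp h
      exact le_sup_right.trans this
    have hlt : N' < Subgroup.normalizer (N' : Set ↥P) :=
      (Group.normalizerCondition_of_isNilpotent (G := ↥P)) N' (lt_top_iff_ne_top.mpr hN'top)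
    obtain ⟨g, hg, hgN⟩ := SetLike.exists_of_lt hlt
    have hgN' : (g : G) ∉ Subgroup.normalizer (B : Set G) := fun h => hgN (Subgroup.mem_subgroupOf.mpr h)
    -- B^g ∩ B = 1
    have hBg : B.map (MulAut.conj (g : G)).toMonoidHom ≠ B := by
      intro h
      apply hgN'
      rw [Subgroup.mem_normalizer_iff]
      intro x
      constructor
      · intro hx
        rw [← h]
        exact ⟨x, hx, by simp⟩
      · intro hx
        have hx' : (g : G) * x * (g : G)⁻¹ ∈ B.map (MulAut.conj (g : G)).toMonoidHom := by rw [h]; exact hx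
        obtain ⟨y, hy, hyx⟩ := hx'
        have : y = x := by
          simp at hyx
          exact hyx
        rw [← this]; exact hy
    have hBgi : B.map (MulAut.conj (g : G)).toMonoidHom ⊓ B = ⊥ := (hBti g).resolve_left hBg
    -- B ≤ N_P(B)
    have hBP : B ≤ P := le_sup_left
    have hBN : B ≤ Subgroup.normalizer (B : Set G) := Subgroup.le_normalizer
    -- decomposition of elements
    have hdec : ∀ x ∈ B, ∃ c : ↥(A ⊓ Subgroup.normalizer (B : Set G)), ∃ b ∈ B, (g : G) * x * (g : G)⁻¹ = c * b := by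
      intro x hx
      have h1 : (⟨x, hBP hx⟩ : ↥P) ∈ N' := Subgroup.mem_subgroupOf.mpr (hBN hx)
      have h2 := (Subgroup.mem_normalizer_iff.mp hg ⟨x, hBP hx⟩).mp h1
      have h3 : (g : G) * x * (g : G)⁻¹ ∈ Subgroup.normalizer (B : Set G) := Subgroup.mem_subgroupOf.mp h2
      have h4 : (g : G) * x * (g : G)⁻¹ ∈ P := P.mul_mem (P.mul_mem g.2 (hBP hx)) (P.inv_mem g.2)
      have h5 : (g : G) * x * (g : G)⁻¹ ∈ ((A : Set G) * (B : Set G)) := by
        rw [← Subgroup.coe_mul_of_right_le_normalizer_left A B hN]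
        rw [sup_comm]
        exact h4
      obtain ⟨a, ha, b, hb, hab⟩ := h5
      refine ⟨⟨a, ha, ?_⟩, b, hb, hab.symm⟩
      have : a = (g : G) * x * (g : G)⁻¹ * b⁻¹ := by
        rw [← hab]; simp
      rw [this]
      exact Subgroup.mul_mem _ h3 (Subgroup.inv_mem _ (hBN hb))
    choose f b hb hf using hdec
    have hinj : Function.Injective (fun x : ↥B => f x.1 x.2) := by
      intro x y hxy
      simp only at hxy
      have hx := hf x.1 x.2
      have hy := hf y.1 y.2
      rw [hxy] at hx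
      have h1 : ((g : G) * x.1 * (g : G)⁻¹)⁻¹ * ((g : G) * y.1 * (g : G)⁻¹) ∈ B := by
        rw [hx, hy]
        have : (↑(f y.1 y.2) * b x.1 x.2)⁻¹ * (↑(f y.1 y.2) * b y.1 y.2) = (b x.1 x.2)⁻¹ * b y.1 y.2 := by
          rw [mul_inv_rev, mul_assoc, inv_mul_cancel_left]
        rw [this]
        exact B.mul_mem (B.inv_mem (hb _ _)) (hb _ _)
      have h2 : ((g : G) * x.1 * (g : G)⁻¹)⁻¹ * ((g : G) * y.1 * (g : G)⁻¹) ∈ B.map (MulAut.conj (g : G)).toMonoidHom := by
        refine ⟨x.1⁻¹ * y.1, B.mul_mem (B.inv_mem x.2) y.2, ?_⟩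
        simp [mul_assoc]
      have h3 : ((g : G) * x.1 * (g : G)⁻¹)⁻¹ * ((g : G) * y.1 * (g : G)⁻¹) ∈ B.map (MulAut.conj (g : G)).toMonoidHom ⊓ B := ⟨h2, h1⟩
      rw [hBgi, Subgroup.mem_bot] at h3
      have h4 := inv_mul_eq_one.mp h3
      have h5 : x.1 = y.1 := by
        have := mul_right_cancel h4
        exact mul_left_cancel this
      exact Subtype.ext h5
    have hcard1 : Nat.card ↥B ≤ Nat.card ↥(A ⊓ Subgroup.normalizer (B : Set G)) :=
      Nat.card_le_card_of_injective _ hinj
    have hlt2 : A ⊓ Subgroup.normalizer (B : Set G) < A := by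
      refine lt_of_le_of_ne inf_le_left ?_
      intro h
      exact hAN (inf_eq_left.mp h)
    have hcard2 : Nat.card ↥(A ⊓ Subgroup.normalizer (B : Set G)) < Nat.card ↥A := by
      have h1 : Nat.card ↥(A ⊓ Subgroup.normalizer (B : Set G)) ≤ Nat.card ↥A := Subgroup.card_le_of_le hlt2.le
      refine lt_of_le_of_ne h1 ?_
      intro h
      exact hlt2.ne (Subgroup.eq_of_le_of_card_ge hlt2.le h.ge)
    omega

end Cfsg.Agent.S1757
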