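import Cfsg.Statements.S1775
import Cfsg.Agent.Lib.H46BProp

set_option autoImplicit false
open Cfsg

namespace Cfsg.Agent.S1775

open Cfsg.Agent.Lib.H46BProp Cfsg.Agent.Lib.H31BBal Cfsg.Agent.Lib.PComponents in
theorem aux {G : Type*} [Group G] [Finite G]
    (hF : IsSimpleGroup ↥(Cfsg.generalizedFittingSubgroup G)) (hF' : ¬ IsMulCommutative ↥(Cfsg.generalizedFittingSubgroup G))
    (hsec : ∀ (H : Subgroup G) (N : Subgroup ↥H) [N.Normal], (H ≠ ⊤ ∨ N ≠ ⊥) → Cfsg.HasBProperty (↥H ⧸ N))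
    (x y : G) (hx : orderOf x = 2) (hy : orderOf y = 2) (hxy : x * y = y * x) (J₀ : Subgroup G)
    (hJ : PC 2 J₀ (Subgroup.centralizer ({x} : Set G) ⊓ Subgroup.centralizer ({y} : Set G))) :
    Cfsg.IsComponent
        (((J₀.subgroupOf (Subgroup.centralizer ({y} : Set G))).map (QuotientGroup.mk' (Cfsg.oddCore ↥(Subgroup.centralizer ({y} : Set G))))).subgroupOf
          (Subgroup.centralizer ({(QuotientGroup.mk' (Cfsg.oddCore ↥(Subgroup.centralizer ({y} : Set G))) ⟨x, Subgroup.mem_centralizer_singleton_iff.mpr hxy⟩ : ↥(Subgroup.centralizer ({y} : Set G)) ⧸ Cfsg.oddCore ↥(Subgroup.centralizer ({y} : Set G)))} : Set _))) ∧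
      ∀ E : Subgroup G, E ≤ Subgroup.centralizer ({x} : Set G) ⊓ Subgroup.centralizer ({y} : Set G) → Odd (Nat.card ↥E) →
        (∀ j ∈ J₀, ∀ e ∈ E, j * e * j⁻¹ ∈ E) →
          ⁅J₀, E⁆ ≤ (Cfsg.oddCore ↥(Subgroup.centralizer ({y} : Set G))).map (Subgroup.centralizer ({y} : Set G)).subtype := by
  set Y := Subgroup.centralizer ({y} : Set G) with hY
  set X := Subgroup.centralizer ({x} : Set G) with hX
  have hp2 : Fact (Nat.Prime 2) := ⟨Nat.prime_two⟩
  have hxY : x ∈ Y := Subgroup.mem_centralizer_singleton_iff.mpr hxy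
  have hne : Y ≠ ⊤ := centralizer_ne_top hF hF' (by rintro rfl; rw [orderOf_one] at hy; norm_num at hy)
  have hB : Cfsg.HasBProperty (↥Y ⧸ Cfsg.oddCore ↥Y) := hsec Y (Cfsg.oddCore ↥Y) (Or.inl hne)
  have hJY : J₀ ≤ Y := hJ.le.trans inf_le_right
  have h1 := hJ.subgroupOf hJY
  have h2 : (X ⊓ Y).subgroupOf Y = Subgroup.centralizer ({(⟨x, hxY⟩ : ↥Y)} : Set ↥Y) := by
    ext ⟨g, hg⟩
    rw [Subgroup.mem_subgroupOf, Subgroup.mem_inf]
    constructor
    · rintro ⟨h, -⟩
      exact Subgroup.mem_centralizer_singleton_iff.2 (Subtype.ext (Subgroup.mem_centralizer_singleton_iff.1 h))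
    · intro h
      exact ⟨Subgroup.mem_centralizer_singleton_iff.2 (congrArg Subtype.val (Subgroup.mem_centralizer_singleton_iff.1 h)), hg⟩
  rw [h2] at h1
  obtain ⟨h3, h4⟩ := main (⟨x, hxY⟩ : ↥Y) ((Subgroup.orderOf_mk x hxY).trans hx) hB h1
  refine ⟨h3, ?_⟩
  intro E hE hodd hinv
  have hEY : E ≤ Y := hE.trans inf_le_right
  have h5 := h4 (E.subgroupOf Y) (by
    rw [← h2]
    exact Subgroup.comap_mono hE) (by
      rw [Nat.card_congr (Subgroup.subgroupOfEquivOfLe hEY).toEquiv]; exact hodd) (by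
      rintro ⟨j, hj⟩ hj' ⟨e, he⟩ he'
      exact hinv j hj' e he')
  have h6 := Subgroup.map_mono (f := Y.subtype) h5
  rwa [Subgroup.map_commutator, Subgroup.map_subgroupOf_eq_of_le hJY, Subgroup.map_subgroupOf_eq_of_le hEY] at h6

/-- Let G be a finite group whose generalized Fitting subgroup is a non-abelian simple group and in which every proper section (every quotient H/N of a proper subgroup H, or of G by a nontrivial normal subgroup) has the B-property. Let x, y be commuting involutions, let D be the intersection of the 2-layer of C_G(x) with C_G(y), and let J be a 2-component of D. Write Q for the quotient of C_G(y) by its largest normal odd-order subgroup. Then (i) the image of J in Q is a component of the centralizer in Q of the image of x; and (ii) for every J-invariant subgroup E of odd order of C_G(x) ∩ C_G(y), the commutator subgroup [J, E] lies in the largest normal odd-order subgroup of C_G(y). -/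
theorem result {G : Type*} [Group G] [Finite G]
    (hF : IsSimpleGroup ↥(Cfsg.generalizedFittingSubgroup G)) (hF' : ¬ IsMulCommutative ↥(Cfsg.generalizedFittingSubgroup G))
    (hsec : ∀ (H : Subgroup G) (N : Subgroup ↥H) [N.Normal], (H ≠ ⊤ ∨ N ≠ ⊥) → Cfsg.HasBProperty (↥H ⧸ N))
    (x y : G) (hx : orderOf x = 2) (hy : orderOf y = 2) (hxy : x * y = y * x)
    (J : Subgroup ↥((Cfsg.pLayer 2 ↥(Subgroup.centralizer ({x} : Set G))).map (Subgroup.centralizer ({x} : Set G)).subtype ⊓ Subgroup.centralizer ({y} : Set G)))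
    (hJ : Cfsg.IsPComponent 2 J) :
    Cfsg.IsComponent
        ((((J.map (Subgroup.subtype _)).subgroupOf (Subgroup.centralizer ({y} : Set G))).map (QuotientGroup.mk' (Cfsg.oddCore ↥(Subgroup.centralizer ({y} : Set G))))).subgroupOf
          (Subgroup.centralizer ({(QuotientGroup.mk' (Cfsg.oddCore ↥(Subgroup.centralizer ({y} : Set G))) ⟨x, Subgroup.mem_centralizer_singleton_iff.mpr hxy⟩ : ↥(Subgroup.centralizer ({y} : Set G)) ⧸ Cfsg.oddCore ↥(Subgroup.centralizer ({y} : Set G)))} : Set _))) ∧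
      ∀ E : Subgroup G, E ≤ Subgroup.centralizer ({x} : Set G) ⊓ Subgroup.centralizer ({y} : Set G) → Odd (Nat.card ↥E) →
        (∀ j ∈ J.map (Subgroup.subtype _), ∀ e ∈ E, j * e * j⁻¹ ∈ E) →
          ⁅J.map (Subgroup.subtype _), E⁆ ≤ (Cfsg.oddCore ↥(Subgroup.centralizer ({y} : Set G))).map (Subgroup.centralizer ({y} : Set G)).subtype := by
  have hp2 : Fact (Nat.Prime 2) := ⟨Nat.prime_two⟩
  exact aux hF hF' hsec x y hx hy hxy _
    (Cfsg.Agent.Lib.H46BProp.pc_step (Subgroup.map_subtype_le _) (Cfsg.Agent.Lib.H46BProp.le_normalizer_pLayer 2 _) J hJ)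

end Cfsg.Agent.S1775
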