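import Cfsg.Statements.S1780

set_option autoImplicit false
open Cfsg

namespace Cfsg.Agent.S1780

/-- if every fixed point of `t²` is fixed by `t`, then an element inverted by `t²` has order at most `2` -/
theorem sq_eq_one_of_inverted {A : Type*} [CommGroup A] (hA : IsPGroup 2 A) (t : MulAut A)
    (hC : ∀ a : A, t (t a) = a → t a = a) (d : A) (hd : t (t d) = d⁻¹) : d ^ 2 = 1 := by
  obtain ⟨m, hm⟩ := hA d
  -- minimal m
  by_contra hne
  have hex : ∃ m, d ^ (2 ^ m) = 1 := ⟨m, hm⟩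
  classical
  let m₀ := Nat.find hex
  have hm₀ : d ^ (2 ^ m₀) = 1 := Nat.find_spec hex
  have hmin : ∀ k < m₀, d ^ (2 ^ k) ≠ 1 := fun k hk => Nat.find_min hex hk
  have h2 : 2 ≤ m₀ := by
    by_contra hlt
    have : m₀ = 0 ∨ m₀ = 1 := by omega
    rcases this with h | h
    · rw [h] at hm₀
      apply hne
      simp at hm₀
      simp [hm₀]
    · rw [h] at hm₀
      exact hne (by simpa using hm₀)
  obtain ⟨n, hn⟩ : ∃ n, m₀ = n + 2 := ⟨m₀ - 2, by omega⟩
  set y := d ^ (2 ^ n) with hy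
  have hy4 : y ^ 4 = 1 := by
    rw [hy, ← pow_mul]
    have : 2 ^ n * 4 = 2 ^ m₀ := by rw [hn, pow_add]; norm_num
    rw [this, hm₀]
  have hy2 : y ^ 2 ≠ 1 := by
    rw [hy, ← pow_mul]
    have : 2 ^ n * 2 = 2 ^ (n + 1) := by rw [pow_succ]
    rw [this]
    exact hmin _ (by omega)
  have hyD : t (t y) = y⁻¹ := by
    rw [hy, map_pow, map_pow, hd, inv_pow]
  have hx : t (y ^ 2) = y ^ 2 := by
    apply hC
    rw [map_pow, map_pow, hyD, inv_pow]
    rw [inv_eq_iff_mul_eq_one, ← pow_add]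
    exact hy4
  set w := t y * y⁻¹ with hw
  have hw2 : w ^ 2 = 1 := by
    rw [hw, mul_pow, ← map_pow, hx, inv_pow, mul_inv_cancel]
  have hwD : t (t w) = w := by
    rw [hw, map_mul, map_mul, hyD, map_inv, map_inv, hyD]
    have h1 : (t y)⁻¹ * y⁻¹⁻¹ = w⁻¹ := by
      rw [hw, mul_inv_rev, mul_comm]
    rw [h1]
    rw [← hw]
    exact (eq_inv_of_mul_eq_one_left (by rw [← pow_two]; exact hw2)).symm
  have htw : t w = w := hC w hwD
  have hty : t y = y * w := by
    rw [hw]; group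
    rw [mul_comm]
    simp
  have : t (t y) = y := by
    rw [hty, map_mul, hty, htw, mul_assoc, ← pow_two, hw2, mul_one]
  rw [this] at hyD
  apply hy2
  rw [pow_two]
  nth_rewrite 2 [hyD]
  exact mul_inv_cancel y

theorem fixed_sq {A : Type*} [CommGroup A] (hA : IsPGroup 2 A) (t : MulAut A)
    (hC : ∀ a : A, t (t a) = a → t a = a) (b : A) (hb : t (t (t (t b))) = b) : t (t b) = b := by
  have hc : t (b * t (t b)) = b * t (t b) := by
    apply hC
    rw [map_mul, map_mul, hb, mul_comm]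
  set d := b * (t b)⁻¹ with hd
  have hdD : t (t d) = d⁻¹ := by
    rw [eq_inv_iff_mul_eq_one]
    rw [map_mul] at hc
    rw [hd, map_mul, map_mul, map_inv, map_inv]
    -- t t b * (t t t b)⁻¹ * (b * (t b)⁻¹) = (b * t t b) * (t b * t t t b)⁻¹
    have : t (t b) * (t (t (t b)))⁻¹ * (b * (t b)⁻¹) = (b * t (t b)) * (t b * t (t (t b)))⁻¹ := by
      rw [mul_inv_rev]
      rw [mul_comm b (t (t b))]
      simp only [mul_assoc]
      congr 1
      rw [← mul_assoc, mul_comm _ b, mul_assoc]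
    rw [this, hc, mul_inv_cancel]
  have hd2 := sq_eq_one_of_inverted hA t hC d hdD
  have hdd : d⁻¹ = d := inv_eq_of_mul_eq_one_left (by rw [← pow_two]; exact hd2)
  have htd : t d = d := hC d (by rw [hdD, hdd])
  have htb : t b = b * d := by
    rw [← hdd, hd, mul_inv_rev, inv_inv]
    rw [mul_comm (t b), mul_inv_cancel_left]
  rw [htb, map_mul, htb, htd, mul_assoc, ← pow_two, hd2, mul_one]

theorem eq_one_of_pow {A : Type*} [CommGroup A] (hA : IsPGroup 2 A) (k : ℕ) :
    ∀ t : MulAut A, t ^ (2 ^ k) = 1 → (∀ a : A, t (t a) = a → t a = a) → ∀ a, t a = a := by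
  induction k with
  | zero =>
    intro t ht _ a
    simp at ht
    simp [ht]
  | succ k ih =>
    intro t ht hC
    have h2 : ∀ a, (t ^ 2) a = a := by
      apply ih (t ^ 2)
      · rw [← pow_mul, mul_comm, ← pow_succ]; exact ht
      · intro a ha
        exact fixed_sq hA t hC a ha
    intro a
    exact hC a (h2 a)

theorem result {A : Type*} [CommGroup A] [Finite A]
    (hA : IsPGroup 2 A) (t : MulAut A) (ht : ∃ k : ℕ, orderOf t = 2 ^ k) (hC : ∀ a : A, t (t a) = a → t a = a) :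
    ∀ a : A, t a = a := by
  obtain ⟨k, hk⟩ := ht
  exact eq_one_of_pow hA k t (by rw [← hk]; exact pow_orderOf_eq_one t) hC

end Cfsg.Agent.S1780
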