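import Cfsg.Statements.S1781
import Cfsg.Agent.S1780
import Cfsg.Agent.Lib.TISub

set_option autoImplicit false
open Cfsg

namespace Cfsg.Agent.S1781

open Lib.TISub
open scoped IsMulCommutative

/-- if `t ∈ A` normalizes the abelian subgroup `B` and `t² ≠ 1`, then `t` centralizes `B` -/
theorem centralizes {G : Type*} [Group G] (A B : Subgroup G)
    (hA2 : IsPGroup 2 ↥A) (hB2 : IsPGroup 2 ↥B) (hBa : IsMulCommutative ↥B)
    (hti : ∀ h : G, cj h A = A ∨ cj h A ⊓ A = ⊥) (hAB : A ⊓ B = ⊥)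
    (t : G) (ht : t ∈ A) (htB : cj t B = B) (ht2 : t ^ 2 ≠ 1) : ∀ b ∈ B, t * b = b * t := by
  have hmem : ∀ b : G, b ∈ B → t * b * t⁻¹ ∈ B := by
    intro b hb
    have := (conj_mem_cj (g := t) (x := b) (H := B)).2 hb
    rwa [htB] at this
  have hmem' : ∀ b : G, b ∈ B → t⁻¹ * b * t ∈ B := by
    intro b hb
    have : b ∈ cj t B := by rw [htB]; exact hb
    rwa [mem_cj] at this
  let φ : MulAut ↥B :=
    { toFun := fun b => ⟨t * b * t⁻¹, hmem b b.2⟩
      invFun := fun b => ⟨t⁻¹ * b * t, hmem' b b.2⟩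
      left_inv := fun b => Subtype.ext (by simp [mul_assoc])
      right_inv := fun b => Subtype.ext (by simp [mul_assoc])
      map_mul' := fun a b => Subtype.ext (by simp [mul_assoc]) }
  have hφ : ∀ b : ↥B, ((φ b : ↥B) : G) = t * b * t⁻¹ := fun b => rfl
  obtain ⟨k, hk⟩ := hA2 ⟨t, ht⟩
  have hk : t ^ (2 ^ k) = 1 := congrArg Subtype.val hk
  have hφpow : ∀ n : ℕ, ∀ b : ↥B, (((φ ^ n) b : ↥B) : G) = t ^ n * b * (t ^ n)⁻¹ := by
    intro n
    induction n with
    | zero => intro b; simp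
    | succ n ih =>
      intro b
      rw [pow_succ', MulAut.mul_apply, hφ, ih, pow_succ']
      simp [mul_assoc]
  have hφk : φ ^ (2 ^ k) = 1 := by
    ext b
    rw [hφpow, hk]; simp
  have := S1780.eq_one_of_pow (A := ↥B) hB2 k φ hφk (by
    intro b hb
    have hb : t * (t * b * t⁻¹) * t⁻¹ = b := congrArg Subtype.val hb
    apply Subtype.ext
    rw [hφ]
    -- b commutes with t ^ 2
    have hc : (b : G) * t ^ 2 = t ^ 2 * b := by
      have : t ^ 2 * b * (t ^ 2)⁻¹ = b := Eq.trans (by rw [pow_two]; simp [mul_assoc]) hb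
      have h2 : t ^ 2 * b = b * t ^ 2 := by
        rw [mul_inv_eq_iff_eq_mul] at this
        exact this
      exact h2.symm
    have hbA : cj (b : G) A = A := cj_eq_of_commute hti (A.pow_mem ht 2) ht2 hc
    have h1 : t * b * t⁻¹ * (b : G)⁻¹ ∈ B := B.mul_mem (hmem b b.2) (B.inv_mem b.2)
    have h2 : t * b * t⁻¹ * (b : G)⁻¹ ∈ A := by
      have := (conj_mem_cj (g := (b : G)) (x := t⁻¹) (H := A)).2 (A.inv_mem ht)
      rw [hbA] at this
      have := A.mul_mem ht this
      simpa [mul_assoc] using this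
    have h3 : t * b * t⁻¹ * (b : G)⁻¹ ∈ A ⊓ B := ⟨h2, h1⟩
    rw [hAB] at h3
    have h3 : t * b * t⁻¹ * (b : G)⁻¹ = 1 := h3
    rw [mul_inv_eq_one] at h3
    exact h3)
  intro b hb
  have h := congrArg Subtype.val (this ⟨b, hb⟩)
  have h : t * b * t⁻¹ = b := h
  rwa [mul_inv_eq_iff_eq_mul] at h

theorem result {G : Type*} [Group G] [Finite G] (A : Subgroup G)
    (hA2 : IsPGroup 2 ↥A) (hAa : IsMulCommutative ↥A)
    (hti : ∀ h : G, A.map (MulAut.conj h).toMonoidHom = A ∨ A.map (MulAut.conj h).toMonoidHom ⊓ A = ⊥)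
    (g : G) (hg : A.map (MulAut.conj g).toMonoidHom ≠ A) :
    Cfsg.IsElementaryAbelian 2 (A ⊓ Subgroup.normalizer ((A.map (MulAut.conj g).toMonoidHom : Subgroup G) : Set G)) ∨
      ⁅A, A.map (MulAut.conj g).toMonoidHom⁆ = ⊥ := by
  replace hti : ∀ h : G, cj h A = A ∨ cj h A ⊓ A = ⊥ := hti
  by_cases hex : ∀ t ∈ A, cj t (cj g A) = cj g A → t ^ 2 = 1
  · left
    refine ⟨?_, ?_⟩
    · refine ⟨⟨?_⟩⟩
      rintro ⟨a, ha⟩ ⟨b, hb⟩
      apply Subtype.ext
      exact setLike_mul_comm ha.1 hb.1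
    · rintro t ⟨ht, htn⟩
      exact hex t ht (cj_eq_iff.2 htn)
  · right
    push Not at hex
    obtain ⟨t, ht, htB, ht2⟩ := hex
    set B := cj g A with hB
    have hAB : A ⊓ B = ⊥ := by rw [inf_comm]; exact (hti g).resolve_left hg
    have hB2 : IsPGroup 2 ↥B := hA2.map _
    have hBa : IsMulCommutative ↥B := inferInstance
    have h1 := centralizes A B hA2 hB2 hBa hti hAB t ht htB ht2
    -- B normalizes A
    have ht1 : t ≠ 1 := by rintro rfl; simp at ht2
    have hBA : ∀ b ∈ B, cj b A = A := fun b hb => cj_eq_of_commute hti ht ht1 (h1 b hb).symm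
    -- an element of B of order > 2
    have htiB : ∀ h : G, cj h B = B ∨ cj h B ⊓ B = ⊥ := by
      intro h
      rcases hti (g⁻¹ * h * g) with h2 | h2
      · left
        rw [hB, ← cj_mul, show h * g = g * (g⁻¹ * h * g) by group, cj_mul, h2]
      · right
        rw [hB, ← cj_mul, show h * g = g * (g⁻¹ * h * g) by group, cj_mul, ← cj_inf, h2, cj_bot]
    have hs : g * t * g⁻¹ ∈ B := conj_mem_cj.2 ht
    have hs2 : (g * t * g⁻¹) ^ 2 ≠ 1 := by
      rw [conj_pow]
      intro h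
      apply ht2
      have := congrArg (fun x => g⁻¹ * x * g) h
      simpa [mul_assoc] using this
    have h2 := centralizes B A hB2 hA2 hAa htiB (by rwa [inf_comm]) (g * t * g⁻¹) hs (hBA _ hs) hs2
    have hs1 : g * t * g⁻¹ ≠ 1 := by intro h; rw [h] at hs2; simp at hs2
    have hABn : ∀ a ∈ A, cj a B = B := fun a ha => cj_eq_of_commute htiB hs hs1 (h2 a ha).symm
    rw [Subgroup.commutator_eq_bot_iff_le_centralizer]
    intro a ha
    rw [Subgroup.mem_centralizer_iff]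
    intro b hb
    have h3 : b * a * b⁻¹ * a⁻¹ ∈ A := by
      have := (conj_mem_cj (g := b) (x := a) (H := A)).2 ha
      rw [hBA b hb] at this
      exact A.mul_mem this (A.inv_mem ha)
    have h4 : b * a * b⁻¹ * a⁻¹ ∈ B := by
      have := (conj_mem_cj (g := a) (x := b⁻¹) (H := B)).2 (B.inv_mem hb)
      rw [hABn a ha] at this
      have := B.mul_mem hb this
      simpa [mul_assoc] using this
    have h5 : b * a * b⁻¹ * a⁻¹ ∈ A ⊓ B := ⟨h3, h4⟩
    rw [hAB] at h5
    have h5 : b * a * b⁻¹ * a⁻¹ = 1 := h5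
    rwa [mul_inv_eq_one, mul_inv_eq_iff_eq_mul] at h5

end Cfsg.Agent.S1781
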