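import Cfsg.Statements.S1782
import Cfsg.Agent.Lib.TISub

set_option autoImplicit false
open Cfsg

namespace Cfsg.Agent.S1782

theorem result {S : Type*} [Group S] [Finite S] (hS : IsPGroup 2 S)
    (Δ : Set (Subgroup S)) (hinv : ∀ s : S, ∀ R ∈ Δ, R.map (MulAut.conj s).toMonoidHom ∈ Δ)
    (hΦ : ∀ R ∈ Δ, frattini ↥R ≠ ⊥) (hord : ∀ R ∈ Δ, ∀ T ∈ Δ, Nat.card ↥R = Nat.card ↥T)
    (hti : ∀ R ∈ Δ, ∀ T ∈ Δ, R = T ∨ R ⊓ T = ⊥) :
    ∀ R ∈ Δ, ∀ T ∈ Δ, R ≠ T → ⁅R, T⁆ = ⊥ := by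
  intro R hR T hT hne
  have hΦ' : ∀ R ∈ Δ, ∃ r ∈ R, r ^ 2 ≠ 1 := by
    intro R hR
    by_contra hno
    push Not at hno
    exact hΦ R hR (Lib.TISub.frattini_eq_bot_of_sq (fun t => Subtype.ext (hno t t.2)))
  have := Lib.TISub.family_commute hS Δ hinv hΦ' hord hti R hR T hT hne
  rw [Subgroup.commutator_eq_bot_iff_le_centralizer]
  intro r hr
  rw [Subgroup.mem_centralizer_iff]
  intro t ht
  exact (this r hr t ht).symm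

end Cfsg.Agent.S1782
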