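import Cfsg.Statements.S1784
import Cfsg.Agent.Lib.GF2Invol

set_option autoImplicit false
open Cfsg Cfsg.Agent.Lib

namespace Cfsg.Agent.S1784

/-- Let G be a finite group and let z be an involution of G such that Q, the generalized Fitting subgroup of the centralizer C of z, is a 2-group of symplectic type (every characteristic abelian subgroup of Q is cyclic); suppose Q is extraspecial, and view Q inside G. Let α be an involution of C that is not in Q, and let Q₀ be the subgroup of those q ∈ Q whose commutator with α lies in the subgroup generated by z. Then (a) the subgroup generated by the commutators α q α⁻¹ q⁻¹, q ∈ Q, equals the centre of Q₀; and (b) if Q₀ is not contained in the product of the centralizer of α in Q with the subgroup generated by z, then some element of Q conjugates α to α z. -/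
theorem result {G : Type*} [Group G] [Finite G] (z : G) (hz : orderOf z = 2) (hQ : Cfsg.IsOfSymplecticType ↥(Cfsg.generalizedFittingSubgroup ↥(Subgroup.centralizer ({z} : Set G)))) (hE : Cfsg.IsExtraspecial 2 ↥(Cfsg.generalizedFittingSubgroup ↥(Subgroup.centralizer ({z} : Set G))))
    (α : G) (hα : orderOf α = 2) (hαC : α ∈ Subgroup.centralizer ({z} : Set G)) (hαQ : α ∉ (Cfsg.generalizedFittingSubgroup ↥(Subgroup.centralizer ({z} : Set G))).map (Subgroup.centralizer ({z} : Set G)).subtype)
    (Q₀ : Subgroup G) (hQ₀ : ∀ q : G, q ∈ Q₀ ↔ (q ∈ (Cfsg.generalizedFittingSubgroup ↥(Subgroup.centralizer ({z} : Set G))).map (Subgroup.centralizer ({z} : Set G)).subtype ∧ α * q * α⁻¹ * q⁻¹ ∈ Subgroup.zpowers z)) :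
    Subgroup.closure ((fun q : G => α * q * α⁻¹ * q⁻¹) '' ((Cfsg.generalizedFittingSubgroup ↥(Subgroup.centralizer ({z} : Set G))).map (Subgroup.centralizer ({z} : Set G)).subtype : Set G)) = (Subgroup.center ↥Q₀).map Q₀.subtype ∧
      (¬ Q₀ ≤ ((Cfsg.generalizedFittingSubgroup ↥(Subgroup.centralizer ({z} : Set G))).map (Subgroup.centralizer ({z} : Set G)).subtype ⊓ Subgroup.centralizer ({α} : Set G)) ⊔ Subgroup.zpowers z →
        ∃ q ∈ (Cfsg.generalizedFittingSubgroup ↥(Subgroup.centralizer ({z} : Set G))).map (Subgroup.centralizer ({z} : Set G)).subtype, q * α * q⁻¹ = α * z) := by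
  have hP := LargeExtra.preLarge_of_setting' hz rfl hE
  have hα2 : α * α = 1 := by rw [← sq, ← hα]; exact pow_orderOf_eq_one α
  have hα1 : α ≠ 1 := by
    rintro rfl
    rw [orderOf_one] at hα
    norm_num at hα
  have hαz : α * z = z * α := Subgroup.mem_centralizer_singleton_iff.1 hαC
  exact GF2Invol.main hP hαz hα2 hα1 hαQ hQ₀

end Cfsg.Agent.S1784
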