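import Cfsg.Statements.S1785
import Mathlib.GroupTheory.Sylow
import Mathlib.GroupTheory.Commutator.Basic

set_option autoImplicit false
open Cfsg

namespace Cfsg.Agent.S1785

/-- For an elementary abelian 2-subgroup `E` normalized by an element `x` with `x² = 1`,
`|E| ≤ |C_E(x)|²`. -/
theorem card_le_sq {X : Type*} [Group X] [Finite X] (E : Subgroup X) (hc : ∀ a ∈ E, ∀ b ∈ E, a * b = b * a)
    (h2 : ∀ a ∈ E, a ^ 2 = 1) (x : X) (hx : x ^ 2 = 1) (hn : ∀ a ∈ E, x * a * x⁻¹ ∈ E) :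
    Nat.card E ≤ Nat.card ↥(E ⊓ Subgroup.centralizer {x}) ^ 2 := by
  have hxi : x⁻¹ = x := inv_eq_of_mul_eq_one_left (by rw [← pow_two]; exact hx)
  have hEi : ∀ a ∈ E, a⁻¹ = a := fun a ha => inv_eq_of_mul_eq_one_left (by rw [← pow_two]; exact h2 a ha)
  let f : E →* E :=
    { toFun := fun e => e * ⟨x * e * x⁻¹, hn e e.2⟩
      map_one' := by simp
      map_mul' := by
        rintro ⟨a, ha⟩ ⟨b, hb⟩
        apply Subtype.ext
        change a * b * (x * (a * b) * x⁻¹) = a * (x * a * x⁻¹) * (b * (x * b * x⁻¹))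
        have h1 := hc (x * a * x⁻¹) (hn a ha) b hb
        calc a * b * (x * (a * b) * x⁻¹) = a * (b * (x * a * x⁻¹)) * (x * b * x⁻¹) := by group
          _ = a * ((x * a * x⁻¹) * b) * (x * b * x⁻¹) := by rw [h1]
          _ = a * (x * a * x⁻¹) * (b * (x * b * x⁻¹)) := by group }
  have hf : ∀ e : E, ((f e : E) : X) = e * (x * e * x⁻¹) := fun e => rfl
  have h1 : Nat.card E = Nat.card f.ker * Nat.card f.range := by
    rw [← Subgroup.index_ker, Subgroup.card_mul_index]
  have hker : Nat.card f.ker ≤ Nat.card ↥(E ⊓ Subgroup.centralizer {x}) := by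
    let g : f.ker → ↥(E ⊓ Subgroup.centralizer {x}) := fun e => ⟨((e : E) : X), by
      refine ⟨(e : E).2, ?_⟩
      change ((e : E) : X) ∈ Subgroup.centralizer {x}
      rw [Subgroup.mem_centralizer_singleton_iff]
      have he : (((e : E) : X)) * (x * ((e : E) : X) * x⁻¹) = 1 := by
        rw [← hf]
        have := e.2
        rw [MonoidHom.mem_ker] at this
        rw [this]; rfl
      have := eq_inv_of_mul_eq_one_right he
      rw [hEi _ (e : E).2, mul_inv_eq_iff_eq_mul] at this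
      exact this.symm⟩
    refine Nat.card_le_card_of_injective g ?_
    intro a b hab
    have hab : ((a : E) : X) = ((b : E) : X) := congrArg (fun z : ↥(E ⊓ Subgroup.centralizer {x}) => (z : X)) hab
    exact Subtype.ext (Subtype.ext hab)
  have hrange : Nat.card f.range ≤ Nat.card ↥(E ⊓ Subgroup.centralizer {x}) := by
    let g : f.range → ↥(E ⊓ Subgroup.centralizer {x}) := fun e => ⟨((e : E) : X), by
      refine ⟨(e : E).2, ?_⟩
      change ((e : E) : X) ∈ Subgroup.centralizer {x}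
      rw [Subgroup.mem_centralizer_singleton_iff]
      obtain ⟨e, ⟨u, rfl⟩⟩ := e
      change (u : X) * (x * u * x⁻¹) * x = x * (u * (x * u * x⁻¹))
      have hh := hc u u.2 (x * u * x⁻¹) (hn u u.2)
      calc (u : X) * (x * u * x⁻¹) * x = (x * u * x⁻¹) * u * x := by rw [hh]
        _ = x * (u * (x⁻¹ * u * x)) := by group
        _ = x * (u * (x * u * x⁻¹)) := by rw [hxi]⟩
    refine Nat.card_le_card_of_injective g ?_
    intro a b hab
    have hab : ((a : E) : X) = ((b : E) : X) := congrArg (fun z : ↥(E ⊓ Subgroup.centralizer {x}) => (z : X)) hab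
    exact Subtype.ext (Subtype.ext hab)
  rw [h1, pow_two]
  exact Nat.mul_le_mul hker hrange

/-- `E` a normal elementary abelian 2-subgroup, `A` an elementary abelian 2-subgroup, `L ≤ A` with
`|A| ≤ 2^k |L|`; then `|C_E(L)| ≤ |C_E(A)| ^ (2 ^ k)`. -/
theorem chain {X : Type*} [Group X] [Finite X] (E : Subgroup X) [hEn : E.Normal]
    (hc : ∀ a ∈ E, ∀ b ∈ E, a * b = b * a) (h2 : ∀ a ∈ E, a ^ 2 = 1)
    (A : Subgroup X) (hAc : ∀ a ∈ A, ∀ b ∈ A, a * b = b * a) (hA2 : ∀ a ∈ A, a ^ 2 = 1) (k : ℕ) :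
    ∀ L : Subgroup X, L ≤ A → Nat.card A ≤ 2 ^ k * Nat.card L →
      Nat.card ↥(E ⊓ Subgroup.centralizer (L : Set X)) ≤
        Nat.card ↥(E ⊓ Subgroup.centralizer (A : Set X)) ^ (2 ^ k) := by
  induction k with
  | zero =>
    intro L hL hcard
    rw [pow_zero, one_mul] at hcard
    rw [Subgroup.eq_of_le_of_card_ge hL hcard]
    simp
  | succ k ih =>
    intro L hL hcard
    by_cases hLA : L = A
    · rw [hLA]
      exact Nat.le_self_pow (by positivity) _
    have hlt : L < A := lt_of_le_of_ne hL hLA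
    obtain ⟨a, haA, haL⟩ := SetLike.exists_of_lt hlt
    set L' := L ⊔ Subgroup.zpowers a with hL'
    have hL'A : L' ≤ A := sup_le hL (by rwa [Subgroup.zpowers_le])
    have hLL' : L < L' := by
      refine lt_of_le_of_ne le_sup_left ?_
      intro h
      apply haL
      rw [h]
      exact (le_sup_right : Subgroup.zpowers a ≤ L') (Subgroup.mem_zpowers a)
    have hcard2 : 2 * Nat.card L ≤ Nat.card L' := by
      have hdvd := Subgroup.card_dvd_of_le hLL'.le
      obtain ⟨m, hm⟩ := hdvd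
      have hm0 : m ≠ 0 := by
        rintro rfl
        have : 0 < Nat.card L' := Nat.card_pos
        omega
      have hm1 : m ≠ 1 := by
        rintro rfl
        have := Subgroup.eq_of_le_of_card_ge hLL'.le (by omega)
        exact hLL'.ne this
      have : 2 ≤ m := by omega
      rw [hm, mul_comm]
      exact Nat.mul_le_mul_left _ this
    have h1 := ih L' hL'A (by
      calc Nat.card A ≤ 2 ^ (k + 1) * Nat.card L := hcard
        _ = 2 ^ k * (2 * Nat.card L) := by rw [pow_succ]; ring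
        _ ≤ 2 ^ k * Nat.card L' := Nat.mul_le_mul_left _ hcard2)
    have h3 : Nat.card ↥(E ⊓ Subgroup.centralizer (L : Set X)) ≤
        Nat.card ↥(E ⊓ Subgroup.centralizer (L' : Set X)) ^ 2 := by
      have h4 := card_le_sq (E ⊓ Subgroup.centralizer (L : Set X))
        (fun a ha b hb => hc a ha.1 b hb.1) (fun a ha => h2 a ha.1) a (hA2 a haA) (by
          rintro e ⟨heE, heC⟩
          refine ⟨hEn.conj_mem e heE a, ?_⟩
          change a * e * a⁻¹ ∈ Subgroup.centralizer (L : Set X)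
          rw [Subgroup.mem_centralizer_iff]
          intro l hl
          have heC : e ∈ Subgroup.centralizer (L : Set X) := heC
          rw [Subgroup.mem_centralizer_iff] at heC
          have e1 := heC l hl
          have e2 := hAc a haA l (hL hl)
          have e3 : l * a⁻¹ = a⁻¹ * l := hAc l (hL hl) a⁻¹ (A.inv_mem haA)
          calc l * (a * e * a⁻¹) = (l * a) * e * a⁻¹ := by group
            _ = a * (l * e) * a⁻¹ := by rw [← e2]; group
            _ = a * e * (l * a⁻¹) := by rw [e1]; group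
            _ = a * e * a⁻¹ * l := by rw [e3]; group)
      refine h4.trans (Nat.pow_le_pow_left (Nat.card_le_card_of_injective
        (Subgroup.inclusion ?_) (Subgroup.inclusion_injective _)) 2)
      rintro e ⟨⟨heE, heL⟩, hea⟩
      refine ⟨heE, ?_⟩
      change e ∈ Subgroup.centralizer (L' : Set X)
      have heL : e ∈ Subgroup.centralizer (L : Set X) := heL
      have hea : e ∈ Subgroup.centralizer {a} := hea
      have : L' ≤ Subgroup.centralizer {e} := by
        rw [hL']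
        refine sup_le ?_ ?_
        · intro l hl
          rw [Subgroup.mem_centralizer_singleton_iff]
          exact Subgroup.mem_centralizer_iff.1 heL l hl
        · rw [Subgroup.zpowers_le]
          rw [Subgroup.mem_centralizer_singleton_iff] at hea ⊢
          exact hea.symm
      rw [Subgroup.mem_centralizer_iff]
      intro l hl
      exact Subgroup.mem_centralizer_singleton_iff.1 (this hl)
    calc Nat.card ↥(E ⊓ Subgroup.centralizer (L : Set X))
        ≤ Nat.card ↥(E ⊓ Subgroup.centralizer (L' : Set X)) ^ 2 := h3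
      _ ≤ (Nat.card ↥(E ⊓ Subgroup.centralizer (A : Set X)) ^ (2 ^ k)) ^ 2 := Nat.pow_le_pow_left h1 2
      _ = Nat.card ↥(E ⊓ Subgroup.centralizer (A : Set X)) ^ (2 ^ (k + 1)) := by
        rw [← pow_mul, ← pow_succ]

theorem exists_between {X : Type*} [Group X] [Finite X] (hX : IsPGroup 2 X) (K L : Subgroup X) (hLK : L ≤ K)
    {n : ℕ} (hK : 2 ^ n ≤ Nat.card K) (hL : Nat.card L ≤ 2 ^ n) :
    ∃ M : Subgroup X, L ≤ M ∧ M ≤ K ∧ Nat.card M = 2 ^ n := by
  have : Fact (Nat.Prime 2) := ⟨Nat.prime_two⟩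
  obtain ⟨k, hk⟩ := (hX.to_subgroup K).exists_card_eq
  obtain ⟨l, hl⟩ := (hX.to_subgroup L).exists_card_eq
  have hnk : n ≤ k := by
    rw [hk] at hK
    exact (Nat.pow_le_pow_iff_right (by norm_num)).1 hK
  have hln : l ≤ n := by
    rw [hl] at hL
    exact (Nat.pow_le_pow_iff_right (by norm_num)).1 hL
  obtain ⟨M, hM, hLM⟩ := Sylow.exists_subgroup_card_pow_prime_le (G := K) 2 (n := l) (m := n)
    (by rw [hk]; exact pow_dvd_pow 2 hnk) (L.subgroupOf K) (by
      rw [Nat.card_congr (Subgroup.subgroupOfEquivOfLe hLK).toEquiv, hl]) hln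
  refine ⟨M.map K.subtype, ?_, Subgroup.map_subtype_le M, ?_⟩
  · intro x hx
    exact ⟨⟨x, hLK hx⟩, hLM hx, rfl⟩
  · rw [Subgroup.card_map_of_injective K.subtype_injective, hM]

/-- lower bounds round up to powers of two -/
theorem card_ge_of_lt {X : Type*} [Group X] [Finite X] (hX : IsPGroup 2 X) (K : Subgroup X) {n : ℕ}
    (h : 2 ^ n < Nat.card K) : 2 ^ (n + 1) ≤ Nat.card K := by
  have : Fact (Nat.Prime 2) := ⟨Nat.prime_two⟩
  obtain ⟨k, hk⟩ := (hX.to_subgroup K).exists_card_eq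
  rw [hk] at h ⊢
  have := (Nat.pow_lt_pow_iff_right (by norm_num : 1 < 2)).1 h
  exact Nat.pow_le_pow_right (by norm_num) this

theorem sup_centralizer_elementary {X : Type*} [Group X] (E A C : Subgroup X)
    (hc : ∀ a ∈ E, ∀ b ∈ E, a * b = b * a) (h2 : ∀ a ∈ E, a ^ 2 = 1)
    (hAc : ∀ a ∈ A, ∀ b ∈ A, a * b = b * a) (hA2 : ∀ a ∈ A, a ^ 2 = 1)
    (hC : C ≤ E ⊓ Subgroup.centralizer (A : Set X)) :
    (∀ a ∈ A ⊔ C, a ^ 2 = 1) ∧ (∀ a ∈ A ⊔ C, ∀ b ∈ A ⊔ C, a * b = b * a) := by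
  have hCA : ∀ c ∈ C, ∀ a ∈ A, a * c = c * a := by
    intro c hcC a ha
    have : c ∈ Subgroup.centralizer (A : Set X) := (hC hcC).2
    exact Subgroup.mem_centralizer_iff.1 this a ha
  have hCE : ∀ c ∈ C, c ∈ E := fun c hcC => (hC hcC).1
  have hcomm : ∀ a ∈ A ⊔ C, ∀ b ∈ A ⊔ C, a * b = b * a := by
    have h1 : A ⊔ C ≤ Subgroup.centralizer (A : Set X) := by
      refine sup_le ?_ (fun c hc => (hC hc).2)
      intro a ha
      rw [Subgroup.mem_centralizer_iff]
      intro b hb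
      exact hAc b hb a ha
    have h2' : A ⊔ C ≤ Subgroup.centralizer (C : Set X) := by
      refine sup_le ?_ ?_
      · intro a ha
        rw [Subgroup.mem_centralizer_iff]
        intro b hb
        exact (hCA b hb a ha).symm
      · intro a ha
        rw [Subgroup.mem_centralizer_iff]
        intro b hb
        exact hc b (hCE b hb) a (hCE a ha)
    intro a ha
    have : A ⊔ C ≤ Subgroup.centralizer {a} := by
      refine sup_le ?_ ?_
      · intro b hb
        rw [Subgroup.mem_centralizer_singleton_iff]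
        exact Subgroup.mem_centralizer_iff.1 (h1 ha) b hb
      · intro b hb
        rw [Subgroup.mem_centralizer_singleton_iff]
        exact Subgroup.mem_centralizer_iff.1 (h2' ha) b hb
    intro b hb
    exact (Subgroup.mem_centralizer_singleton_iff.1 (this hb)).symm
  refine ⟨?_, hcomm⟩
  let K : Subgroup X :=
    { carrier := {a | a ∈ A ⊔ C ∧ a ^ 2 = 1}
      one_mem' := ⟨Subgroup.one_mem _, one_pow 2⟩
      mul_mem' := by
        rintro a b ⟨ha, ha2⟩ ⟨hb, hb2⟩
        refine ⟨Subgroup.mul_mem _ ha hb, ?_⟩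
        have : Commute a b := hcomm a ha b hb
        rw [this.mul_pow, ha2, hb2, one_mul]
      inv_mem' := by
        rintro a ⟨ha, ha2⟩
        exact ⟨Subgroup.inv_mem _ ha, by rw [inv_pow, ha2, inv_one]⟩ }
  have : A ⊔ C ≤ K := sup_le (fun a ha => ⟨(le_sup_left : A ≤ A ⊔ C) ha, hA2 a ha⟩)
    (fun c hcC => ⟨(le_sup_right : C ≤ A ⊔ C) hcC, h2 c (hCE c hcC)⟩)
  exact fun a ha => (this ha).2

theorem num1 (c : ℕ) (h : 32 ≤ c ^ (2 ^ 1)) : 2 ^ 2 < c := by
  by_contra hlt
  have := Nat.pow_le_pow_left (not_lt.1 hlt) (2 ^ 1)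
  exact absurd (h.trans this) (by norm_num)

theorem num2 (c : ℕ) (h : 32 ≤ c ^ (2 ^ 2)) : 2 ^ 1 < c := by
  by_contra hlt
  have := Nat.pow_le_pow_left (not_lt.1 hlt) (2 ^ 2)
  exact absurd (h.trans this) (by norm_num)

theorem num3 (c : ℕ) (h : 32 ≤ c ^ (2 ^ 3)) : 2 ^ 0 < c := by
  by_contra hlt
  have := Nat.pow_le_pow_left (not_lt.1 hlt) (2 ^ 3)
  exact absurd (h.trans this) (by norm_num)

theorem isEA {X : Type*} [Group X] {A : Subgroup X} (h2 : ∀ a ∈ A, a ^ 2 = 1)
    (hc : ∀ a ∈ A, ∀ b ∈ A, a * b = b * a) : Cfsg.IsElementaryAbelian 2 A := by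
  refine ⟨⟨⟨?_⟩⟩, h2⟩
  rintro ⟨a, ha⟩ ⟨b, hb⟩
  exact Subtype.ext (hc a ha b hb)

theorem result {X : Type*} [Group X] [Finite X]
    (hX : IsPGroup 2 X) (E : Subgroup X) [E.Normal] (hE : Cfsg.IsElementaryAbelian 2 E) (hE32 : 32 ≤ Nat.card ↥E) :
    (∀ A B : Subgroup X, Cfsg.IsElementaryAbelian 2 A → Nat.card ↥A = 8 → Cfsg.IsElementaryAbelian 2 B → Nat.card ↥B = 8 →
        Relation.ReflTransGen
          (fun C D : Subgroup X => Cfsg.IsElementaryAbelian 2 C ∧ Nat.card ↥C = 8 ∧ Cfsg.IsElementaryAbelian 2 D ∧ Nat.card ↥D = 8 ∧ ⁅C, D⁆ = ⊥)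
          A B) ∧
      (∀ V : Subgroup X, Cfsg.IsElementaryAbelian 2 V → Nat.card ↥V = 4 →
        ∃ A : Subgroup X, V ≤ A ∧ Cfsg.IsElementaryAbelian 2 A ∧ Nat.card ↥A = 8) := by
  have hcm : ∀ {A : Subgroup X}, Cfsg.IsElementaryAbelian 2 A → ∀ a ∈ A, ∀ b ∈ A, a * b = b * a := by
    intro A hA a ha b hb
    have := hA.1
    exact setLike_mul_comm ha hb
  have hEc := hcm hE
  have hE2 := hE.2
  set rel := (fun C D : Subgroup X => Cfsg.IsElementaryAbelian 2 C ∧ Nat.card ↥C = 8 ∧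
    Cfsg.IsElementaryAbelian 2 D ∧ Nat.card ↥D = 8 ∧ ⁅C, D⁆ = ⊥) with hrel
  have hEL : ∀ L : Subgroup X, L ≤ E → E ⊓ Subgroup.centralizer (L : Set X) = E := by
    intro L hL
    rw [inf_eq_left]
    intro e he
    rw [Subgroup.mem_centralizer_iff]
    intro l hl
    exact hEc l (hL hl) e he
  have mkrel : ∀ A M : Subgroup X, Cfsg.IsElementaryAbelian 2 A → Nat.card A = 8 → Cfsg.IsElementaryAbelian 2 M →
      Nat.card M = 8 → (∀ a ∈ A, ∀ m ∈ M, a * m = m * a) → rel A M := by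
    intro A M hA hA8 hM hM8 h
    refine ⟨hA, hA8, hM, hM8, ?_⟩
    rw [Subgroup.commutator_eq_bot_iff_le_centralizer]
    intro a ha
    rw [Subgroup.mem_centralizer_iff]
    intro m hm
    exact (h a ha m hm).symm
  -- pick `M` between a subgroup of `C_E(A)` of order `2^n` and `A ⊔ C_E(A)`
  have step : ∀ (A : Subgroup X) (n : ℕ), n ≤ 3 → Cfsg.IsElementaryAbelian 2 A → Nat.card A = 8 →
      2 ^ n ≤ Nat.card ↥(E ⊓ Subgroup.centralizer (A : Set X)) →
      ∃ M : Subgroup X, Cfsg.IsElementaryAbelian 2 M ∧ Nat.card M = 8 ∧ rel A M ∧ 2 ^ n ≤ Nat.card ↥(M ⊓ E) := by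
    intro A n hn hA hA8 hCn
    set C := E ⊓ Subgroup.centralizer (A : Set X) with hC
    obtain ⟨D, -, hDC, hD⟩ := exists_between hX C ⊥ bot_le hCn (by
      rw [Subgroup.card_bot]; exact Nat.one_le_two_pow)
    obtain ⟨hK2, hKc⟩ := sup_centralizer_elementary E A C hEc hE2 (hcm hA) hA.2 le_rfl
    have hAK : Nat.card A ≤ Nat.card ↥(A ⊔ C) :=
      Nat.card_le_card_of_injective (Subgroup.inclusion le_sup_left) (Subgroup.inclusion_injective _)
    obtain ⟨M, hDM, hMK, hM8⟩ := exists_between hX (A ⊔ C) D (hDC.trans le_sup_right) (n := 3)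
      (by rw [hA8] at hAK; exact hAK) (by rw [hD]; exact Nat.pow_le_pow_right (by norm_num) hn)
    have hMea : Cfsg.IsElementaryAbelian 2 M :=
      isEA (fun a ha => hK2 a (hMK ha)) (fun a ha b hb => hKc a (hMK ha) b (hMK hb))
    refine ⟨M, hMea, hM8, mkrel A M hA hA8 hMea hM8 (fun a ha m hm => hKc a (le_sup_left (b := C) ha) m (hMK hm)), ?_⟩
    rw [← hD]
    exact Nat.card_le_card_of_injective (Subgroup.inclusion (le_inf hDM (hDC.trans inf_le_left)))
      (Subgroup.inclusion_injective _)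
  have bound : ∀ (A : Subgroup X) (k : ℕ), Cfsg.IsElementaryAbelian 2 A → Nat.card A ≤ 2 ^ k * Nat.card ↥(A ⊓ E) →
      32 ≤ Nat.card ↥(E ⊓ Subgroup.centralizer (A : Set X)) ^ (2 ^ k) := by
    intro A k hA hk
    have := chain E hEc hE2 A (hcm hA) hA.2 k (A ⊓ E) inf_le_left hk
    rw [hEL _ inf_le_right] at this
    omega
  have claim3 : ∀ A : Subgroup X, Cfsg.IsElementaryAbelian 2 A → Nat.card A = 8 → 2 ^ 2 ≤ Nat.card ↥(A ⊓ E) →
      ∃ M : Subgroup X, Cfsg.IsElementaryAbelian 2 M ∧ Nat.card M = 8 ∧ M ≤ E ∧ Relation.ReflTransGen rel A M := by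
    intro A hA hA8 h
    have hb := bound A 1 hA (by omega)
    have h4 : 2 ^ 2 < Nat.card ↥(E ⊓ Subgroup.centralizer (A : Set X)) := num1 _ hb
    have h8 := card_ge_of_lt hX _ h4
    obtain ⟨M, hM, hM8, hr, hMc⟩ := step A 3 le_rfl hA hA8 h8
    refine ⟨M, hM, hM8, ?_, Relation.ReflTransGen.single hr⟩
    have : M ⊓ E = M := Subgroup.eq_of_le_of_card_ge inf_le_left (by rw [hM8]; exact hMc)
    rw [inf_eq_left] at this
    exact this
  have claim2 : ∀ A : Subgroup X, Cfsg.IsElementaryAbelian 2 A → Nat.card A = 8 → 2 ^ 1 ≤ Nat.card ↥(A ⊓ E) →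
      ∃ M : Subgroup X, Cfsg.IsElementaryAbelian 2 M ∧ Nat.card M = 8 ∧ M ≤ E ∧ Relation.ReflTransGen rel A M := by
    intro A hA hA8 h
    have hb := bound A 2 hA (by omega)
    have h4 : 2 ^ 1 < Nat.card ↥(E ⊓ Subgroup.centralizer (A : Set X)) := num2 _ hb
    obtain ⟨M, hM, hM8, hr, hMc⟩ := step A 2 (by norm_num) hA hA8 (card_ge_of_lt hX _ h4)
    obtain ⟨N, hN, hN8, hNE, hNr⟩ := claim3 M hM hM8 hMc
    exact ⟨N, hN, hN8, hNE, Relation.ReflTransGen.head hr hNr⟩
  have claim1 : ∀ A : Subgroup X, Cfsg.IsElementaryAbelian 2 A → Nat.card A = 8 →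
      ∃ M : Subgroup X, Cfsg.IsElementaryAbelian 2 M ∧ Nat.card M = 8 ∧ M ≤ E ∧ Relation.ReflTransGen rel A M := by
    intro A hA hA8
    have hpos : 0 < Nat.card ↥(A ⊓ E) := Nat.card_pos
    have hb := bound A 3 hA (by omega)
    have h4 : 2 ^ 0 < Nat.card ↥(E ⊓ Subgroup.centralizer (A : Set X)) := num3 _ hb
    obtain ⟨M, hM, hM8, hr, hMc⟩ := step A 1 (by norm_num) hA hA8 (card_ge_of_lt hX _ h4)
    obtain ⟨N, hN, hN8, hNE, hNr⟩ := claim2 M hM hM8 hMc
    exact ⟨N, hN, hN8, hNE, Relation.ReflTransGen.head hr hNr⟩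
  have hsymm : Std.Symm rel := ⟨by
    rintro C D ⟨h1, h2, h3, h4, h5⟩
    exact ⟨h3, h4, h1, h2, by rw [Subgroup.commutator_comm]; exact h5⟩⟩
  refine ⟨?_, ?_⟩
  · intro A B hA hA8 hB hB8
    obtain ⟨M, hM, hM8, hME, hAM⟩ := claim1 A hA hA8
    obtain ⟨N, hN, hN8, hNE, hBN⟩ := claim1 B hB hB8
    have hMN : rel M N := mkrel M N hM hM8 hN hN8 (fun a ha m hm => hEc a (hME ha) m (hNE hm))
    exact (hAM.tail hMN).trans (Relation.ReflTransGen.stdSymm.symm _ _ hBN)
  · intro V hV hV4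
    by_cases hVE : V ≤ E
    · obtain ⟨M, hVM, hME, hM8⟩ := exists_between hX E V hVE (n := 3) (by omega) (by omega)
      exact ⟨M, hVM, isEA (fun a ha => hE2 a (hME ha)) (fun a ha b hb => hEc a (hME ha) b (hME hb)), hM8⟩
    · set C := E ⊓ Subgroup.centralizer (V : Set X) with hC
      have hpos : 0 < Nat.card ↥(V ⊓ E) := Nat.card_pos
      have hb := bound V 2 hV (by omega)
      have h4 : 2 ^ 1 < Nat.card ↥C := num2 _ hb
      have h4' := card_ge_of_lt hX _ h4
      obtain ⟨hK2, hKc⟩ := sup_centralizer_elementary E V C hEc hE2 (hcm hV) hV.2 le_rfl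
      have hlt : V < V ⊔ C := by
        refine lt_of_le_of_ne le_sup_left ?_
        intro h
        have hCV : C ≤ V := by rw [h]; exact le_sup_right
        have := Subgroup.eq_of_le_of_card_ge hCV (by omega)
        exact hVE (this ▸ inf_le_left)
      have h8 : 2 ^ 2 < Nat.card ↥(V ⊔ C) := by
        have hle : Nat.card V ≤ Nat.card ↥(V ⊔ C) :=
          Nat.card_le_card_of_injective (Subgroup.inclusion le_sup_left) (Subgroup.inclusion_injective _)
        rcases Nat.lt_or_ge (Nat.card V) (Nat.card ↥(V ⊔ C)) with h | h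
        · omega
        · exact absurd (Subgroup.eq_of_le_of_card_ge hlt.le h) hlt.ne
      obtain ⟨M, hVM, hMK, hM8⟩ := exists_between hX (V ⊔ C) V le_sup_left (card_ge_of_lt hX _ h8) (by omega)
      exact ⟨M, hVM, isEA (fun a ha => hK2 a (hMK ha)) (fun a ha b hb => hKc a (hMK ha) b (hMK hb)), hM8⟩

end Cfsg.Agent.S1785
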