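import Cfsg.Statements.S1786
import Cfsg.Agent.Lib.H32TI8
import Cfsg.Agent.Lib.FrattiniQuot
import Cfsg.Agent.Lib.FratFit
import Cfsg.Agent.Lib.Layer
import Cfsg.Agent.Lib.Fitting

set_option autoImplicit false
open Cfsg

namespace Cfsg.Agent.S1786

open Cfsg.Agent.Lib.H32TI Subgroup
open scoped commutatorElement

theorem mkSetup {G : Type*} [Group G] [Finite G] (V : Subgroup G)
    (hV : Cfsg.IsElementaryAbelian 2 V)
    (h1 : (Cfsg.generalizedFittingSubgroup ↥(Subgroup.normalizer (V : Set G))).map (Subgroup.normalizer (V : Set G)).subtype =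
      (Cfsg.pCore 2 ↥(Subgroup.normalizer (V : Set G))).map (Subgroup.normalizer (V : Set G)).subtype)
    (h2 : ∀ A : Subgroup G, V ≤ A → A ≤ Subgroup.normalizer (V : Set G) → IsMulCommutative ↥A →
      (∀ m ∈ Subgroup.normalizer (V : Set G), ∀ a ∈ A, m * a * m⁻¹ ∈ A) → A = V)
    (hti : ∀ x : G, V.map (MulAut.conj x).toMonoidHom = V ∨ V.map (MulAut.conj x).toMonoidHom ⊓ V = ⊥) :
    Setup V ((Cfsg.pCore 2 ↥(Subgroup.normalizer (V : Set G))).map (Subgroup.normalizer (V : Set G)).subtype) where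
  sq := by
    intro v hv
    rw [← pow_two]; exact hV.2 v hv
  ab := by
    intro v hv w hw
    have := hV.1.is_comm.comm ⟨v, hv⟩ ⟨w, hw⟩
    exact congrArg Subtype.val this
  ti := hti
  Qle := by
    rintro _ ⟨q, hq, rfl⟩
    exact mem_normalizer_iff_cj.mp q.2
  Qn := by
    intro m hm
    have hmN : m ∈ normalizer (V : Set G) := mem_normalizer_iff_cj.mpr hm
    apply cj_eq_of_le
    intro x hx
    obtain ⟨_, ⟨q, hq, rfl⟩, rfl⟩ := exists_of_mem_cj hx
    have hn : (Cfsg.pCore 2 ↥(normalizer (V : Set G))).Normal := Cfsg.Agent.Lib.Fitting.normal_pCore 2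
    exact ⟨_, hn.conj_mem q hq ⟨m, hmN⟩, rfl⟩
  Qp := (Cfsg.Agent.Lib.Fitting.isPGroup_pCore 2).map _
  Qmax := by
    intro D hD1 hD2 hD3
    have hDN : D ≤ normalizer (V : Set G) := fun d hd => mem_normalizer_iff_cj.mpr (hD1 d hd)
    have hn : (D.subgroupOf (normalizer (V : Set G))).Normal := by
      constructor
      intro d hd m
      rw [mem_subgroupOf] at hd ⊢
      exact conj_mem_of_cj (hD2 m (mem_normalizer_iff_cj.mp m.2)) hd
    have hp : IsPGroup 2 (D.subgroupOf (normalizer (V : Set G))) :=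
      hD3.of_equiv (Subgroup.subgroupOfEquivOfLe hDN).symm
    have := Cfsg.Agent.Lib.Fitting.le_pCore 2 hn hp
    intro d hd
    exact ⟨⟨d, hDN hd⟩, this (by rw [mem_subgroupOf]; exact hd), rfl⟩
  Qc := by
    intro x hx hq
    have hxN : x ∈ normalizer (V : Set G) := mem_normalizer_iff_cj.mpr hx
    have heq : Cfsg.generalizedFittingSubgroup ↥(normalizer (V : Set G))
        = Cfsg.pCore 2 ↥(normalizer (V : Set G)) :=
      Subgroup.map_injective (Subgroup.subtype_injective _) h1
    have hc := Cfsg.Agent.Lib.Layer.centralizer_genFitting_le (G := ↥(normalizer (V : Set G)))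
    rw [heq] at hc
    refine ⟨⟨x, hxN⟩, hc ?_, rfl⟩
    rw [mem_centralizer_iff]
    intro y hy
    apply Subtype.ext
    exact (hq y ⟨y, hy, rfl⟩).symm
  mx := by
    intro A hVA hA1 hA2 hA3
    apply h2 A hVA
    · intro a ha; exact mem_normalizer_iff_cj.mpr (hA1 a ha)
    · exact ⟨⟨fun a b => Subtype.ext (hA2 a a.2 b b.2)⟩⟩
    · intro m hm a ha
      exact conj_mem_of_cj (hA3 m (mem_normalizer_iff_cj.mp hm)) ha

/-- Let G be a finite group, V an elementary abelian 2-subgroup of G and M the normalizer of V; write Q for the largest normal 2-subgroup of M. Suppose (1) the generalized Fitting subgroup of M equals Q; (2) V is a maximal abelian normal subgroup of M; (3) every conjugate of V equals V or meets V trivially, and for some g ∈ G the conjugate V' = g V g⁻¹ is different from V and contained in Q. Let P be the centralizer of V in Q, W the subgroup generated by V and V', and H the subgroup generated by P and g P g⁻¹. Then: (a) V is contained in g Q g⁻¹; (b)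 every non-identity element of W lies in exactly one conjugate of V contained in W, H normalizes W, and H modulo the centralizer of W in H is isomorphic to the special linear group of dimension 2 over the field with |V| elements; (c) P = Q, and V equals the Frattini subgroup, the centre and the commutator subgroup of Q. -/
theorem result {G : Type*} [Group G] [Finite G] (V : Subgroup G)
    (hV : Cfsg.IsElementaryAbelian 2 V)
    (h1 : (Cfsg.generalizedFittingSubgroup ↥(Subgroup.normalizer (V : Set G))).map (Subgroup.normalizer (V : Set G)).subtype =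
      (Cfsg.pCore 2 ↥(Subgroup.normalizer (V : Set G))).map (Subgroup.normalizer (V : Set G)).subtype)
    (h2 : ∀ A : Subgroup G, V ≤ A → A ≤ Subgroup.normalizer (V : Set G) → IsMulCommutative ↥A →
      (∀ m ∈ Subgroup.normalizer (V : Set G), ∀ a ∈ A, m * a * m⁻¹ ∈ A) → A = V)
    (hti : ∀ x : G, V.map (MulAut.conj x).toMonoidHom = V ∨ V.map (MulAut.conj x).toMonoidHom ⊓ V = ⊥)
    (g : G) (hg : V.map (MulAut.conj g).toMonoidHom ≠ V)
    (hgQ : V.map (MulAut.conj g).toMonoidHom ≤ (Cfsg.pCore 2 ↥(Subgroup.normalizer (V : Set G))).map (Subgroup.normalizer (V : Set G)).subtype) :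
    let Q : Subgroup G := (Cfsg.pCore 2 ↥(Subgroup.normalizer (V : Set G))).map (Subgroup.normalizer (V : Set G)).subtype
    let P : Subgroup G := Q ⊓ Subgroup.centralizer (V : Set G)
    let W : Subgroup G := V ⊔ V.map (MulAut.conj g).toMonoidHom
    let H : Subgroup G := P ⊔ P.map (MulAut.conj g).toMonoidHom
    V ≤ Q.map (MulAut.conj g).toMonoidHom ∧
      (∀ w ∈ W, w ≠ 1 → ∃! U : Subgroup G, (∃ x : G, U = V.map (MulAut.conj x).toMonoidHom) ∧ U ≤ W ∧ w ∈ U) ∧
      H ≤ Subgroup.normalizer (W : Set G) ∧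
      (∀ hN : ((Subgroup.centralizer (W : Set G)).subgroupOf H).Normal, ∃ (F : Type) (_ : Field F) (_ : Fintype F), Fintype.card F = Nat.card ↥V ∧
        Nonempty (↥H ⧸ (Subgroup.centralizer (W : Set G)).subgroupOf H ≃* Matrix.SpecialLinearGroup (Fin 2) F)) ∧
      P = Q ∧ (frattini ↥Q).map Q.subtype = V ∧ (Subgroup.center ↥Q).map Q.subtype = V ∧ (commutator ↥Q).map Q.subtype = V := by
  classical
  haveI : Fact (Nat.Prime 2) := ⟨Nat.prime_two⟩
  have S := mkSetup V hV h1 h2 hti
  intro Q P W H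
  have hne : cj g V ≠ V := hg
  have hgQ' : cj g V ≤ Q := hgQ
  have hVQ' : V ≤ cj g Q := S.V_le_Q' hgQ' hne
  obtain ⟨F, fF, ftF, hcF, ⟨Θ, hΘs, hΘ⟩, htr⟩ := S.ident hgQ' hne hVQ'
  have hPdef : P = PP V Q := rfl
  -- `P = Q`
  have hPQ : P = Q := by
    apply le_antisymm inf_le_left
    obtain ⟨v0, hv0, hv01⟩ := S.V_ne_bot hne
    have hdvd : 2 ∣ Nat.card V := by
      have ho : orderOf (⟨v0, hv0⟩ : V) = 2 := by
        apply orderOf_eq_prime
        · apply Subtype.ext
          show v0 ^ 2 = 1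
          rw [pow_two]; exact S.sq v0 hv0
        · intro h; exact hv01 (congrArg Subtype.val h)
      rw [← ho]; exact orderOf_dvd_natCard _
    obtain ⟨z, hz, hz1, hzc⟩ := Cfsg.Agent.Lib.H32PGroup.exists_fixed_of_normalizes (A := Q) (N := V) S.Qp
      (fun q hq => mem_normalizer_iff_cj.mpr (S.Qle q hq)) hdvd
    intro q hq
    refine mem_PP.mpr ⟨hq, fun v hv => ?_⟩
    by_cases hv1 : v = 1
    · rw [hv1, one_mul, mul_one]
    obtain ⟨h, hh, hzv⟩ := htr z hz v hv hz1 hv1
    have hq' : h⁻¹ * q * h ∈ Q := by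
      rw [← mem_cj, S.Qn h hh]; exact hq
    have h3 := hzc _ hq'
    rw [← hzv]
    calc h * z * h⁻¹ * q = h * (z * (h⁻¹ * q * h)) * h⁻¹ := by group
      _ = q * (h * z * h⁻¹) := by rw [← h3]; group
  have hQP : ∀ q ∈ Q, q ∈ PP V Q := by
    intro q hq
    have : q ∈ P := by rw [hPQ]; exact hq
    exact this
  have hVQ : V ≤ Q := S.V_le_Q
  -- commutator
  have hcomm1 : (commutator ↥Q).map Q.subtype ≤ V := by
    rw [Subgroup.map_le_iff_le_comap, _root_.commutator_def, Subgroup.commutator_le]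
    intro a _ b _
    show (a : G) * b * (a : G)⁻¹ * (b : G)⁻¹ ∈ V
    exact S.comm_mem (hQP a a.2) (hQP b b.2)
  have hcomm2 : V ≤ (commutator ↥Q).map Q.subtype := by
    intro v hv
    obtain ⟨m, hm, hU⟩ := S.exists_U hgQ' hne
    have hmg := S.cj_mul_le hm hgQ'
    obtain ⟨a0, ha0, ha01⟩ := S.cj_ne_bot hne
    obtain ⟨u, hu, hua⟩ := S.exists_conj (x := g) (y := m * g) hgQ' hmg hU ha0 ha01 hv
    have h3 : ⁅(⟨u, hmg hu⟩ : ↥Q), (⟨a0, hgQ' ha0⟩ : ↥Q)⁆ ∈ commutator ↥Q :=
      Subgroup.commutator_mem_commutator (mem_top _) (mem_top _)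
    refine ⟨_, h3, ?_⟩
    show u * a0 * u⁻¹ * a0⁻¹ = v
    rw [hua]; group
  have hfr1 : (frattini ↥Q).map Q.subtype ≤ V := by
    have := Cfsg.Agent.Lib.FrattiniQuot.frattini_le (P := ↥Q) Nat.prime_two (V.subgroupOf Q)
      (by
        intro a b
        rw [mem_subgroupOf]
        exact S.comm_mem (hQP a a.2) (hQP b b.2))
      (by
        intro a
        rw [mem_subgroupOf]
        show (a : G) ^ 2 ∈ V
        rw [pow_two]; exact S.sq_mem (hQP a a.2))
    rintro _ ⟨x, hx, rfl⟩
    exact this hx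
  have hnil : Group.IsNilpotent ↥Q := S.Qp.isNilpotent
  have hfr2 : V ≤ (frattini ↥Q).map Q.subtype :=
    hcomm2.trans (Subgroup.map_mono (Cfsg.Agent.Lib.FratFit.commutator_le_frattini hnil))
  refine ⟨hVQ', ?_, S.H_le hgQ' hne hVQ', ?_, hPQ, le_antisymm hfr1 hfr2, ?_,
    le_antisymm hcomm1 hcomm2⟩
  · intro w hw hw1
    obtain ⟨x, hx, hxW⟩ := S.exists_X hgQ' hne hw
    refine ⟨cj x V, ⟨⟨x, rfl⟩, hxW, hx⟩, ?_⟩
    rintro _ ⟨⟨y, rfl⟩, -, hy⟩
    exact S.cj_eq_of_mem hy hx hw1
  · intro hN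
    refine ⟨F, fF, ftF, hcF, ?_⟩
    let Θ' : ↥H →* Matrix.SpecialLinearGroup (Fin 2) F := Θ
    have hΘs' : Function.Surjective Θ' := hΘs
    have hΘ' : ∀ h : ↥H, Θ' h = 1 ↔ (h : G) ∈ Subgroup.centralizer (W : Set G) := hΘ
    have hker : (Subgroup.centralizer (W : Set G)).subgroupOf H = Θ'.ker := by
      ext h
      rw [mem_subgroupOf, MonoidHom.mem_ker]
      exact (hΘ' h).symm
    exact ⟨(QuotientGroup.quotientMulEquivOfEq hker).trans
      (QuotientGroup.quotientKerEquivOfSurjective Θ' hΘs')⟩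
  · apply le_antisymm
    · rintro _ ⟨z, hz, rfl⟩
      apply S.center_P (hQP z z.2)
      intro p hp
      have hp' : p ∈ Q := (mem_PP.mp hp).1
      have := (Subgroup.mem_center_iff.mp hz) ⟨p, hp'⟩
      exact (congrArg Subtype.val this).symm
    · intro v hv
      refine ⟨⟨v, hVQ hv⟩, ?_, rfl⟩
      rw [SetLike.mem_coe, Subgroup.mem_center_iff]
      intro q
      apply Subtype.ext
      exact ((mem_PP.mp (hQP q q.2)).2 v hv).symm

end Cfsg.Agent.S1786
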