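import Cfsg.Statements.S1957
import Cfsg.Agent.Lib.FourChar2

set_option autoImplicit false
open Cfsg

namespace Cfsg.Agent.S1957

open Cfsg.Agent.Lib.CFSylow Cfsg.Agent.Lib.CFWeak Cfsg.Agent.Lib.CFWeak3 Cfsg.Agent.Lib.FourChar2

/-- Let `G` be a finite non-abelian simple group in which every local subgroup is solvable and which is of characteristic 2 type. Let `P` be a Sylow 2-subgroup of `G` and `U` a normal subgroup of `P` that is a four-group, with `U` central in `P` if the centre of `P` is not cyclic. Then `U` centralizes every subgroup of odd order of `G` that it normalizes. -/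
theorem result {G : Type*} [Group G] [Finite G]
    [IsSimpleGroup G] (hna : ¬ IsMulCommutative G) (hN : Cfsg.IsNGroup G) (h2 : Cfsg.IsCharacteristicTwoType G)
    (P : Sylow 2 G) (U : Subgroup G) (hUP : U ≤ (P : Subgroup G)) (hUn : (P : Subgroup G) ≤ Subgroup.normalizer (U : Set G))
    (hU4 : IsKleinFour ↥U)
    (hUZ : ¬ IsCyclic ↥((P : Subgroup G) ⊓ Subgroup.centralizer ((P : Subgroup G) : Set G)) →
      U ≤ Subgroup.centralizer ((P : Subgroup G) : Set G))
    (K : Subgroup G) (hK : Odd (Nat.card K)) (hUK : U ≤ Subgroup.normalizer (K : Set G)) :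
    U ≤ Subgroup.centralizer (K : Set G) := by
  have _ : Fact (Nat.Prime 2) := ⟨Nat.prime_two⟩
  have hcop : (Nat.card U).Coprime (Nat.card K) := by
    have h4 : Nat.card U = 4 := IsKleinFour.card_four
    rw [h4]
    have : (4 : ℕ) = 2 ^ 2 := by norm_num
    rw [this]
    exact (Nat.coprime_two_left.2 hK).pow_left 2
  have hgen := Cfsg.Agent.Lib.CoprimeGen.iSup_centralizer_eq (A := U) (K := K)
    (IsKleinFour.isMulCommutative (G := U)) (IsKleinFour.not_isCyclic (G := U)) hUK hcop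
  have hUK' := le_normalizer_iff.1 hUK
  have hle : K ≤ Subgroup.centralizer (U : Set G) := by
    rw [← hgen]
    refine iSup₂_le fun u hu => ?_
    obtain ⟨huU, hu1⟩ := hu
    obtain ⟨S, hS, hSU⟩ := exists_sylow P hU4 hUP hUn hUZ huU hu1
    have hcore := le_core_of_sylow h2 hU4 huU hu1 hS hSU
    have hNR := le_normalizer_iff.1 (le_nz_pCoreOf (p := 2) (Subgroup.centralizer ({u} : Set G)))
    have hRp : IsPGroup 2 (Cfsg.pCoreOf 2 (Subgroup.centralizer ({u} : Set G))) := pCoreOf_isPGroup _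
    rintro k ⟨hkK, hku⟩
    rw [Subgroup.mem_centralizer_iff]
    intro v hv
    have h1 : v * k * v⁻¹ * k⁻¹ ∈ K := mul_mem (hUK' v hv k hkK) (inv_mem hkK)
    have h3 : v * k * v⁻¹ * k⁻¹ ∈ Cfsg.pCoreOf 2 (Subgroup.centralizer ({u} : Set G)) := by
      have := mul_mem (hcore hv) (hNR k hku v⁻¹ (inv_mem (hcore hv)))
      rwa [show v * (k * v⁻¹ * k⁻¹) = v * k * v⁻¹ * k⁻¹ by group] at this
    have h5 : v * k * v⁻¹ * k⁻¹ = 1 := by
      obtain ⟨m, hm⟩ := hRp ⟨_, h3⟩
      have hm' : (v * k * v⁻¹ * k⁻¹) ^ 2 ^ m = 1 := congrArg Subtype.val hm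
      have h6 : orderOf (v * k * v⁻¹ * k⁻¹) ∣ 2 ^ m := orderOf_dvd_of_pow_eq_one hm'
      have h7 : orderOf (v * k * v⁻¹ * k⁻¹) ∣ Nat.card K := by
        have := orderOf_dvd_natCard (⟨_, h1⟩ : K)
        rwa [← Subgroup.orderOf_coe] at this
      have h8 : (2 ^ m).Coprime (Nat.card K) := (Nat.coprime_two_left.2 hK).pow_left m
      exact orderOf_eq_one_iff.1 (Nat.eq_one_of_dvd_coprimes h8 h6 h7)
    calc v * k = (v * k * v⁻¹ * k⁻¹) * (k * v) := by group
      _ = k * v := by rw [h5, one_mul]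
  intro v hv
  rw [Subgroup.mem_centralizer_iff]
  intro k hk
  exact (Subgroup.mem_centralizer_iff.1 (hle hk) v hv).symm

end Cfsg.Agent.S1957
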