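import Cfsg.Statements.S1960
import Cfsg.Agent.Lib.CFLocal

set_option autoImplicit false
open Cfsg

namespace Cfsg.Agent.S1960

open Cfsg.Agent.Lib.CFSylow Cfsg.Agent.Lib.CFFusion Cfsg.Agent.Lib.CFControl Cfsg.Agent.Lib.CFCore Cfsg.Agent.Lib.CFLocal

/-- Let p be a prime, G a finite group with Sylow p-subgroup S, and 𝓦 a set of conjugacy functors for p on G. Suppose that 𝓦 controls transfer in N_G(T) for every nonidentity subgroup T of S for which N_S(T) is a Sylow p-subgroup of N_G(T): for a Sylow p-subgroup T' of N_G(T), the intersection of T' with the derived subgroup of N_G(T) is generated by its intersections with the derived subgroups of the normalizers in N_G(T) of the W(T'), W ∈ 𝓦. Then 𝓦 controls transfer in G: S ∩ G' is generated by the subgroups S ∩ (N_G(W(S)))', W ∈ 𝓦. -/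
theorem result {G : Type*} [Group G] [Finite G] {p : ℕ} [Fact p.Prime] (S : Sylow p G) (𝓦 : Set (Subgroup G → Subgroup G)) (h𝓦 : ∀ W ∈ 𝓦, Cfsg.IsConjugacyFunctor p W) (hloc : ∀ T : Subgroup G, T ≤ (S : Subgroup G) → T ≠ ⊥ → ¬ p ∣ ((S : Subgroup G) ⊓ Subgroup.normalizer ((T : Subgroup G) : Set G)).relIndex (Subgroup.normalizer ((T : Subgroup G) : Set G)) → Cfsg.FamilyControlsTransferIn p 𝓦 (Subgroup.normalizer ((T : Subgroup G) : Set G))) : Cfsg.FamilyControlsTransferIn p 𝓦 ⊤ := by
  have hS := sylIn_sylow S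
  rw [familyControlsTransferIn_iff h𝓦 hS]
  refine le_antisymm ?_ ?_
  · have h := fam_local_to_global_tr h𝓦 hS (fun T hT hne hn =>
      ((familyControlsTransferIn_iff h𝓦 hn).1 (hloc T hT hne hn.not_dvd)).le)
    simpa only [top_inf_eq] using h
  · exact iSup_le fun W => iSup_le fun hW =>
      inf_le_inf_left _ (Subgroup.commutator_mono inf_le_left inf_le_left)

end Cfsg.Agent.S1960
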