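import Cfsg.Statements.S1962
import Cfsg.Agent.Lib.CFLocal

set_option autoImplicit false
open Cfsg

namespace Cfsg.Agent.S1962

open Cfsg.Agent.Lib.CFSylow Cfsg.Agent.Lib.CFFusion Cfsg.Agent.Lib.CFControl Cfsg.Agent.Lib.CFCore Cfsg.Agent.Lib.CFLocal

/-- Local-to-global control of transfer through well-placed subgroups. Let p be a prime, G a finite group with Sylow p-subgroup S, and W a conjugacy functor for p on G. If W controls transfer in N_G(T) for every nonidentity subgroup T of S that is well placed in S with respect to W, then W controls transfer in G: S ∩ G' = S ∩ (N_G(W(S)))'. -/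
theorem result {G : Type*} [Group G] [Finite G] {p : ℕ} [Fact p.Prime] (S : Sylow p G) (W : Subgroup G → Subgroup G) (hW : Cfsg.IsConjugacyFunctor p W) (hloc : ∀ T : Subgroup G, T ≠ ⊥ → Cfsg.IsWellPlaced p W (S : Subgroup G) T → Cfsg.ControlsTransferIn p W (Subgroup.normalizer ((T : Subgroup G) : Set G))) : Cfsg.ControlsTransferIn p W ⊤ := by
  have hS := sylIn_sylow S
  rw [controlsTransferIn_iff hW hS]
  refine le_antisymm ?_ (inf_le_inf_left _ (Subgroup.commutator_mono inf_le_left inf_le_left))
  rw [top_inf_eq]
  refine transfer_of_wellPlaced hW hS (fun T hne hT => ?_)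
  have h := (controlsTransferIn_iff hW (wellPlaced_sylIn hS.isPGroup hT 0)).1 (hloc T hne hT)
  exact h.le.trans inf_le_right

end Cfsg.Agent.S1962
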