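import Cfsg.Statements.S1966
import Cfsg.Agent.Lib.CFControl
import Cfsg.Agent.Lib.CFCore

set_option autoImplicit false
open Cfsg

namespace Cfsg.Agent.S1966

open Cfsg.Agent.Lib.CFSylow Cfsg.Agent.Lib.CFFusion Cfsg.Agent.Lib.CFControl Cfsg.Agent.Lib.CFCore

/-- Let p be a prime, G a finite group with Sylow p-subgroup S and 𝓕 a conjugation family for S in G. Then the members of 𝓕 containing O_p(G) still form a conjugation family for S in G. -/
theorem result {G : Type*} [Group G] [Finite G] {p : ℕ} [Fact p.Prime] (S : Sylow p G) (𝓕 : Set (Subgroup G)) (h : Cfsg.IsConjugationFamily 𝓕 (S : Subgroup G)) : Cfsg.IsConjugationFamily {T : Subgroup G | T ∈ 𝓕 ∧ Cfsg.pCore p G ≤ T} (S : Subgroup G) := by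
  rw [isConjugationFamily_iff] at h ⊢
  have hn := pCore_normal p G
  have hle : Cfsg.pCore p G ≤ (S : Subgroup G) := pCore_le (sylIn_sylow S)
  refine ⟨fun T hT => h.1 T hT.1, fun A g hA hAS hg => ?_⟩
  have h1 : CFChain 𝓕 (A ∪ (Cfsg.pCore p G : Set G)) g := by
    refine h.2 _ g (hA.mono Set.subset_union_left) (Set.union_subset hAS hle) ?_
    rw [Set.image_union]
    refine Set.union_subset hg ?_
    rintro _ ⟨x, hx, rfl⟩
    exact hle (by simpa using hn.conj_mem x hx g⁻¹)
  have key : ∀ (B : Set G) (g : G), CFChain 𝓕 B g → (Cfsg.pCore p G : Set G) ⊆ B →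
      CFChain {T : Subgroup G | T ∈ 𝓕 ∧ Cfsg.pCore p G ≤ T} B g := by
    intro B g hc
    induction hc with
    | nil B => intro _; exact .nil B
    | cons hT hx hB _ ih =>
      intro hQ
      refine .cons ⟨hT, fun y hy => hB (hQ hy)⟩ hx hB (ih ?_)
      intro y hy
      rename_i x _ _
      refine ⟨x * y * x⁻¹, hQ (hn.conj_mem y hy x), by simp [mul_assoc]⟩
  exact (key _ g h1 Set.subset_union_right).mono Set.subset_union_left

end Cfsg.Agent.S1966
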