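import Cfsg.Statements.S1968
import Cfsg.Agent.Lib.CFLocal

set_option autoImplicit false
open Cfsg

namespace Cfsg.Agent.S1968

open Cfsg.Agent.Lib.CFSylow Cfsg.Agent.Lib.CFFusion Cfsg.Agent.Lib.CFControl Cfsg.Agent.Lib.CFCore Cfsg.Agent.Lib.CFLocal

/-- Let p be a prime, G a finite group with Sylow p-subgroup S and W a conjugacy functor for p on G with Z(P) ≤ W(P) for every p-subgroup P. Let A be a subgroup of Z(S) normalized by N_G(W(S)) that is not weakly closed in S with respect to G. Then there is a subgroup T of S, well placed in S with respect to W, such that: A ≤ T; N_G(W(N_S(T))) normalizes A; N_S(T) is a Sylow p-subgroup of N_G(T); A ≤ Z(N_S(T)); and A is not weakly closed in N_S(T) with respect to N_G(T), that is, some N_G(T)-conjugate of A other than A lies in N_S(T). -/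
theorem result {G : Type*} [Group G] [Finite G] {p : ℕ} [Fact p.Prime] (S : Sylow p G) (W : Subgroup G → Subgroup G) (hW : Cfsg.IsConjugacyFunctor p W) (hWZ : ∀ P : Subgroup G, IsPGroup p ↥P → P ⊓ Subgroup.centralizer (P : Set G) ≤ W P) (A : Subgroup G) (hAZ : A ≤ (S : Subgroup G) ⊓ Subgroup.centralizer ((S : Subgroup G) : Set G)) (hAN : Subgroup.normalizer ((W (S : Subgroup G) : Subgroup G) : Set G) ≤ Subgroup.normalizer ((A : Subgroup G) : Set G)) (hnwc : ¬ Cfsg.IsWeaklyClosed A (S : Subgroup G)) : ∃ T : Subgroup G, Cfsg.IsWellPlaced p W (S : Subgroup G) T ∧ A ≤ T ∧ Subgroup.normalizer ((W ((S : Subgroup G) ⊓ Subgroup.normalizer ((T : Subgroup G) : Set G)) : Subgroup G) : Set G) ≤ Subgroup.normalizer ((A : Subgroup G) : Set G) ∧ ¬ p ∣ ((S : Subgroup G) ⊓ Subgroup.normalizer ((T : Subgroup G) : Set G)).relIndex (Subgroup.normalizer ((T : Subgroup G) : Set G)) ∧ A ≤ Subgroup.centralizer (((S : Subgroup G) ⊓ Subgroup.normalizer ((T : Subgroup G) : Set G) : Subgroup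 G) : Set G) ∧ ∃ g ∈ Subgroup.normalizer ((T : Subgroup G) : Set G), A.map (MulAut.conj g).toMonoidHom ≤ (S : Subgroup G) ⊓ Subgroup.normalizer ((T : Subgroup G) : Set G) ∧ A.map (MulAut.conj g).toMonoidHom ≠ A := by
  have hS := sylIn_sylow S
  have hSp := hS.isPGroup
  have hAS : A ≤ (S : Subgroup G) := hAZ.trans inf_le_left
  -- some well-placed `T ≥ A` whose normalizer does not normalize `A`
  have hfam : Cfsg.IsConjugationFamily {T : Subgroup G | Cfsg.IsWellPlaced p W (S : Subgroup G) T}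
      (S : Subgroup G) := by
    refine conjugationFamily_criterion hS _ (fun U hU => hU.1) ?_
    intro T hT
    obtain ⟨g, hg⟩ := exists_wellPlaced hW hS hT
    exact ⟨_, hg, ⟨g, rfl⟩, hg.2 0⟩
  rw [isConjugationFamily_iff] at hfam
  obtain ⟨T₀, hT₀, hAT₀, hn₀⟩ : ∃ T : Subgroup G, Cfsg.IsWellPlaced p W (S : Subgroup G) T ∧ A ≤ T ∧
      ¬ nz T ≤ nz A := by
    by_contra hcon
    push Not at hcon
    apply hnwc
    refine ⟨hAS, fun g hg => ?_⟩
    have key : ∀ (B : Set G) (g : G),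
        CFChain {T : Subgroup G | Cfsg.IsWellPlaced p W (S : Subgroup G) T} B g →
        (A : Set G) = B → g ∈ nz A := by
      intro B g hc
      induction hc with
      | nil B => intro _; exact one_mem _
      | @cons B T x g hT hx hB _ ih =>
        intro hAB
        have hxA : x ∈ nz A := hcon T hT (by rw [← SetLike.coe_subset_coe, hAB]; exact hB) hx
        refine mul_mem hxA (ih ?_)
        rw [← hAB, ← coe_cj_inv, mem_normalizer.1 (inv_mem hxA)]
    have h1 : (fun a => (g⁻¹)⁻¹ * a * g⁻¹) '' (A : Set G) ⊆ ((S : Subgroup G) : Set G) := by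
      rw [← coe_cj_inv, inv_inv]; exact hg
    have h2 := key _ _ (hfam.2 (A : Set G) g⁻¹ ⟨1, A.one_mem⟩ hAS h1) rfl
    exact mem_normalizer.1 (by simpa using inv_mem h2)
  have hAle : ∀ i, A ≤ (S : Subgroup G) ⊓ nz (Cfsg.functorTower W (S : Subgroup G) T₀ i) := fun i =>
    hAT₀.trans (tower_le_norm hW hSp hT₀.1 i)
  have hAcent : ∀ i, A ≤ Subgroup.centralizer
      (((S : Subgroup G) ⊓ nz (Cfsg.functorTower W (S : Subgroup G) T₀ i) : Subgroup G) : Set G) :=
    fun i => (hAZ.trans inf_le_right).trans (Subgroup.centralizer_le inf_le_left)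
  have hAT : ∀ i, A ≤ Cfsg.functorTower W (S : Subgroup G) T₀ i := by
    intro i
    cases i with
    | zero => exact hAT₀
    | succ i =>
      exact (le_inf (hAle i) (hAcent i)).trans (hWZ _ (hSp.to_le inf_le_left))
  have hex : ∃ i, nz (Cfsg.functorTower W (S : Subgroup G) T₀ i) ≤ nz A :=
    ⟨Nat.card (S : Subgroup G) + 1, by rw [tower_eq hW hSp T₀ _ le_rfl]; exact hAN⟩
  classical
  obtain ⟨i, hi⟩ : ∃ i, i + 1 = Nat.find hex := by
    refine ⟨Nat.find hex - 1, Nat.sub_add_cancel (Nat.one_le_iff_ne_zero.2 ?_)⟩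
    intro h0
    have := Nat.find_spec hex
    rw [h0] at this
    exact hn₀ this
  have hi1 : nz (Cfsg.functorTower W (S : Subgroup G) T₀ (i + 1)) ≤ nz A := by
    rw [hi]; exact Nat.find_spec hex
  have hi0 : ¬ nz (Cfsg.functorTower W (S : Subgroup G) T₀ i) ≤ nz A :=
    Nat.find_min hex (by omega)
  have hwp := wellPlaced_tower hW hSp hT₀ i
  refine ⟨_, hwp, hAT i, hi1, (wellPlaced_sylIn hSp hwp 0).not_dvd, hAcent i, ?_⟩
  obtain ⟨g, hg, hgA⟩ := SetLike.not_le_iff_exists.1 hi0
  refine ⟨g, hg, ?_, fun h => hgA (mem_normalizer.2 h)⟩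
  refine le_trans ?_ (le_inf (tower_le hW hSp hT₀.1 i) Subgroup.le_normalizer)
  calc cj g A ≤ cj g (Cfsg.functorTower W (S : Subgroup G) T₀ i) := cj_mono (hAT i)
    _ = _ := mem_normalizer.1 hg

end Cfsg.Agent.S1968
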