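import Cfsg.Statements.S1969
import Cfsg.Agent.Lib.CFStmt

set_option autoImplicit false
universe u
open Cfsg

namespace Cfsg.Agent.S1969

open Cfsg.Agent.Lib.CFSylow Cfsg.Agent.Lib.CFFusion Cfsg.Agent.Lib.CFControl
  Cfsg.Agent.Lib.CFSection Cfsg.Agent.Lib.CFMin Cfsg.Agent.Lib.CFRed Cfsg.Agent.Lib.CFStmt

/-- Let p be a prime, G a finite group and W an isomorphism-invariant p-group functor (W assigns to every group Q a subgroup W(Q), nontrivial whenever Q is a nontrivial finite p-group, and every isomorphism from a finite p-group Q onto a group R carries W(Q) onto W(R)). Suppose that W(S*) is normal in G* whenever G* = K/R is a section of G with C_{G*}(O_p(G*)) ≤ O_p(G*) and S* is a Sylow p-subgroup of G*. Then W controls strong fusion in every section of G: for every section K/R and every Sylow p-subgroup T of K/R, the subgroup W(T) controls strong fusion in K/R. -/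
theorem result {G : Type u} [Group G] [Finite G] {p : ℕ} [Fact p.Prime] (W : ∀ (Q : Type u) [Group Q], Subgroup Q) (hW : Cfsg.IsCharPFunctor.{u} p W) (hloc : ∀ (K R : Subgroup G) [hR : (R.subgroupOf K).Normal], Subgroup.centralizer ((Cfsg.pCore p (↥K ⧸ R.subgroupOf K) : Subgroup (↥K ⧸ R.subgroupOf K)) : Set (↥K ⧸ R.subgroupOf K)) ≤ Cfsg.pCore p (↥K ⧸ R.subgroupOf K) → ∀ T : Sylow p (↥K ⧸ R.subgroupOf K), (Cfsg.inducedFunctor (G := (↥K ⧸ R.subgroupOf K)) W ((T : Subgroup (↥K ⧸ R.subgroupOf K)))).Normal) : ∀ (K R : Subgroup G) [hR : (R.subgroupOf K).Normal], ∀ T : Sylow p (↥K ⧸ R.subgroupOf K), Cfsg.ControlsStrongFusion p (Cfsg.inducedFunctor (G := (↥K ⧸ R.subgroupOf K)) W ((T : Subgroup (↥K ⧸ R.subgroupOf K)))) := by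
  have h𝓦 : ∀ W' ∈ ({W} : Set (∀ (Q : Type u) [Group Q], Subgroup Q)),
      Cfsg.IsCharPFunctor.{u} p W' := by
    intro W' hW'; rw [Set.mem_singleton_iff] at hW'; exact hW' ▸ hW
  have h := sf_all (G := G) h𝓦 ?_
  · intro K R hR T
    exact controlsStrongFusion_of_ctrlSF hW (h _ (isSec_KR K R)) T
  · intro X _ _ hX hC S hS
    obtain ⟨K, R, hR, hC', ⟨e⟩⟩ := exists_KR_constrained hX hC
    obtain ⟨T, rfl⟩ := exists_sylow_transport e hS
    refine famSF_of_normal rfl ?_
    rw [induced_transport hW e (sylIn_sylow T).isPGroup]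
    exact Subgroup.Normal.map (hloc K R hC' T) _ e.surjective

end Cfsg.Agent.S1969
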