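import Cfsg.Statements.S1970
import Cfsg.Agent.Lib.CFStmt

set_option autoImplicit false
universe u
open Cfsg

namespace Cfsg.Agent.S1970

open Cfsg.Agent.Lib.CFSylow Cfsg.Agent.Lib.CFFusion Cfsg.Agent.Lib.CFControl
  Cfsg.Agent.Lib.CFSection Cfsg.Agent.Lib.CFMin Cfsg.Agent.Lib.CFRed Cfsg.Agent.Lib.CFStmt

/-- Let p be a prime, G a finite group and W an isomorphism-invariant p-group functor (W assigns to every group Q a subgroup W(Q), nontrivial whenever Q is a nontrivial finite p-group, and every isomorphism from a finite p-group Q onto a group R carries W(Q) onto W(R)). Suppose that for every section G* = K/R of G with C_{G*}(O_p(G*)) ≤ O_p(G*) and every Sylow p-subgroup S* of G*, one has O_p(G*) ∩ (G*)' = O_p(G*) ∩ (N_{G*}(W(S*)))'. Then W controls transfer in every section G* of G: S* ∩ (G*)' = S* ∩ (N_{G*}(W(S*)))' for a Sylow p-subgroup S* of G*. -/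
theorem result {G : Type u} [Group G] [Finite G] {p : ℕ} [Fact p.Prime] (W : ∀ (Q : Type u) [Group Q], Subgroup Q) (hW : Cfsg.IsCharPFunctor.{u} p W) (hloc : ∀ (K R : Subgroup G) [hR : (R.subgroupOf K).Normal], Subgroup.centralizer ((Cfsg.pCore p (↥K ⧸ R.subgroupOf K) : Subgroup (↥K ⧸ R.subgroupOf K)) : Set (↥K ⧸ R.subgroupOf K)) ≤ Cfsg.pCore p (↥K ⧸ R.subgroupOf K) → ∀ T : Sylow p (↥K ⧸ R.subgroupOf K), Cfsg.pCore p (↥K ⧸ R.subgroupOf K) ⊓ commutator (↥K ⧸ R.subgroupOf K) = Cfsg.pCore p (↥K ⧸ R.subgroupOf K) ⊓ ⁅Subgroup.normalizer ((Cfsg.inducedFunctor (G := (↥K ⧸ R.subgroupOf K)) W ((T : Subgroup (↥K ⧸ R.subgroupOf K))) : Subgroup (↥K ⧸ R.subgroupOf K)) : Set (↥K ⧸ R.subgroupOf K)), Subgroup.normalizer ((Cfsg.inducedFunctor (G := (↥K ⧸ R.subgroupOf K)) W ((T : Subgroup (↥K ⧸ R.subgroupOf K))) : Subgroup (↥K ⧸ R.subgroupOf K)) : Set (↥K ⧸ R.subgroupOf K))⁆) : ∀ (K R : Subgroup G) [hR : (R.subgroupOf K).Normal], Cfsg.ControlsTransferIn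 p (Cfsg.inducedFunctor (G := (↥K ⧸ R.subgroupOf K)) W) ⊤ := by
  have h𝓦 : ∀ W' ∈ ({W} : Set (∀ (Q : Type u) [Group Q], Subgroup Q)),
      Cfsg.IsCharPFunctor.{u} p W' := by
    intro W' hW'; rw [Set.mem_singleton_iff] at hW'; exact hW' ▸ hW
  have h := tr_all (G := G) h𝓦 ?_
  · intro K R hR
    exact (ctrlTr_singleton hW).1 (h _ (isSec_KR K R))
  · intro X _ _ hX hC _ S hS
    obtain ⟨K, R, hR, hC', ⟨e⟩⟩ := exists_KR_constrained hX hC
    obtain ⟨T, rfl⟩ := exists_sylow_transport e hS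
    have h1 := congrArg (Subgroup.map e.toMonoidHom) (hloc K R hC' T)
    rw [Subgroup.map_inf _ _ _ e.injective, Subgroup.map_inf _ _ _ e.injective,
      Cfsg.Agent.Lib.CFCore.pCore_map_equiv, commutator_def, Subgroup.map_commutator,
      Subgroup.map_commutator, map_normalizer_equiv,
      ← induced_transport hW e (sylIn_sylow T).isPGroup,
      Subgroup.map_top_of_surjective _ e.surjective] at h1
    rw [h1, foc_singleton]
    exact inf_le_inf_right _ (Cfsg.Agent.Lib.CFCore.pCore_le hS)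

end Cfsg.Agent.S1970
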