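import Cfsg.Statements.S1972
import Cfsg.Agent.Lib.CFEngel

set_option autoImplicit false
universe u
open Cfsg

namespace Cfsg.Agent.S1972

open Cfsg.Agent.Lib.CFSylow Cfsg.Agent.Lib.CFFusion Cfsg.Agent.Lib.CFControl
  Cfsg.Agent.Lib.CFSection Cfsg.Agent.Lib.CFMin Cfsg.Agent.Lib.CFMain Cfsg.Agent.Lib.CFRed
  Cfsg.Agent.Lib.CFStmt Cfsg.Agent.Lib.CFApps Cfsg.Agent.Lib.CFMinFail Cfsg.Agent.Lib.CFEngel
  Cfsg.Agent.Lib.CFCore

/-- Let p be a prime, G a finite group and W an isomorphism-invariant p-group functor (W assigns to every group Q a subgroup W(Q), nontrivial whenever Q is a nontrivial finite p-group, and every isomorphism from a finite p-group Q onto a group R carries W(Q) onto W(R)). Suppose that whenever G* = K/R is a section of G with C_{G*}(O_p(G*)) ≤ O_p(G*) and S* is a Sylow p-subgroup of G* with W(S*) not normal in G*, there is an element g of S* outside O_p(G*) such that [X, g, …, g] ≤ Y with p − 1 entries g, for every chief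 factor X/Y of G* with X ≤ O_p(G*). Then W controls transfer in every section of G. -/
theorem result {G : Type u} [Group G] [Finite G] {p : ℕ} [Fact p.Prime] (W : ∀ (Q : Type u) [Group Q], Subgroup Q) (hW : Cfsg.IsCharPFunctor.{u} p W) (hloc : ∀ (K R : Subgroup G) [hR : (R.subgroupOf K).Normal], Subgroup.centralizer ((Cfsg.pCore p (↥K ⧸ R.subgroupOf K) : Subgroup (↥K ⧸ R.subgroupOf K)) : Set (↥K ⧸ R.subgroupOf K)) ≤ Cfsg.pCore p (↥K ⧸ R.subgroupOf K) → ∀ T : Sylow p (↥K ⧸ R.subgroupOf K), ¬ (Cfsg.inducedFunctor (G := (↥K ⧸ R.subgroupOf K)) W ((T : Subgroup (↥K ⧸ R.subgroupOf K)))).Normal → ∃ g : (↥K ⧸ R.subgroupOf K), g ∈ (T : Subgroup (↥K ⧸ R.subgroupOf K)) ∧ g ∉ Cfsg.pCore p (↥K ⧸ R.subgroupOf K) ∧ ∀ U V : Subgroup (↥K ⧸ R.subgroupOf K), Cfsg.IsChiefFactor U V → U ≤ Cfsg.pCore p (↥K ⧸ R.subgroupOf K) → Cfsg.iterCommutator U (Subgroup.zpowers g) (p - 1) ≤ V) : ∀ (K R : Subgroup G) [hR : (R.subgroupOf K).Normal], Cfsg.ControlsTransferIn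 p (Cfsg.inducedFunctor (G := (↥K ⧸ R.subgroupOf K)) W) ⊤ := by
  have h𝓦 : ∀ W' ∈ ({W} : Set (∀ (Q : Type u) [Group Q], Subgroup Q)),
      Cfsg.IsCharPFunctor.{u} p W' := by
    intro W' hW'; rw [Set.mem_singleton_iff] at hW'; exact hW' ▸ hW
  have h := tr_of_engel (G := G) h𝓦 (Set.singleton_nonempty W) (by
    intro X _ _ hX hC S hS hn
    obtain ⟨K, R, hR, hC', ⟨e⟩⟩ := exists_KR_constrained hX hC
    obtain ⟨T, rfl⟩ := exists_sylow_transport e hS
    obtain ⟨g, hg, hgQ, hgE⟩ := hloc K R hC' T (by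
      intro h'
      apply hn W rfl
      rw [induced_transport hW e (sylIn_sylow T).isPGroup]
      exact Subgroup.Normal.map h' _ e.surjective)
    have e1 : (Cfsg.pCore p X).comap e.toMonoidHom = Cfsg.pCore p (↥K ⧸ R.subgroupOf K) := by
      rw [← pCore_map_equiv e, Subgroup.comap_map_eq_self_of_injective e.injective]
    refine ⟨e.toMonoidHom g, ⟨g, hg, rfl⟩, ?_, ?_⟩
    · intro h'
      apply hgQ
      rw [← e1]; exact h'
    · exact EngelBelow.map e.surjective e1.le hgE)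
  intro K R hR
  exact (ctrlTr_singleton hW).1 (h _ (isSec_KR K R))

end Cfsg.Agent.S1972
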