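import Cfsg.Statements.S1982
import Cfsg.Agent.Lib.KInf4

set_option autoImplicit false
universe u
open Cfsg

namespace Cfsg.Agent.S1982

open Cfsg.Agent.Lib.CFSylow Cfsg.Agent.Lib.CFFusion Cfsg.Agent.Lib.CFMin Cfsg.Agent.Lib.CFCore
  Cfsg.Agent.Lib.KInf2 Cfsg.Agent.Lib.KInf4

/-- Let p be a prime, G a finite group with Sylow p-subgroup S, T = O_p(G), and A a characteristic subgroup of T with A/Z(A) elementary abelian, [T, A] ≤ Z(A), C_T(A) = Z(A), and such that every automorphism of T of order prime to p fixing A elementwise is trivial (a critical subgroup of T). Suppose that the lower or the upper K-infinity subgroup of S is not normal in G. Then there is an element g of S outside T with [A, g, g, g] ≤ Z(A) and [Z(A), g, g] = 1, and such that if moreover C_G(T) ≤ T then some chief factor X/Y of G with X ≤ A satisfies [X, g, g] ≤ Y but [X, g] ≰ Y. -/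
theorem result {G : Type u} [Group G] [Finite G] {p : ℕ} [Fact p.Prime] (S : Sylow p G) (A : Subgroup G) (hAT : A ≤ (Cfsg.pCore p G)) (hAchar : (A.subgroupOf (Cfsg.pCore p G)).Characteristic) (hA1 : ∀ a ∈ A, a ^ p ∈ A ⊓ Subgroup.centralizer ((A : Subgroup G) : Set G)) (hA2 : ⁅A, A⁆ ≤ Subgroup.centralizer ((A : Subgroup G) : Set G)) (hA3 : ⁅(Cfsg.pCore p G), A⁆ ≤ A ⊓ Subgroup.centralizer ((A : Subgroup G) : Set G)) (hA4 : (Cfsg.pCore p G) ⊓ Subgroup.centralizer ((A : Subgroup G) : Set G) = A ⊓ Subgroup.centralizer ((A : Subgroup G) : Set G)) (hA5 : ∀ φ : MulAut ↥(Cfsg.pCore p G), (orderOf φ).Coprime p → (∀ a : ↥(Cfsg.pCore p G), (a : G) ∈ A → φ a = a) → φ = 1) (hK : ¬ (Cfsg.inducedFunctor Cfsg.kInfLower (S : Subgroup G)).Normal ∨ ¬ (Cfsg.inducedFunctor Cfsg.kInfUpper (S : Subgroup G)).Normal) : ∃ g : G, g ∈ (S : Subgroup G) ∧ g ∉ (Cfsg.pCore p G) ∧ Cfsg.iterCommutator A (Subgroup.zpowers g) 3 ≤ A ⊓ Subgroup.centralizer ((A : Subgroup G) : Set G) ∧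 ⁅⁅A ⊓ Subgroup.centralizer ((A : Subgroup G) : Set G), (Subgroup.zpowers g)⁆, (Subgroup.zpowers g)⁆ = ⊥ ∧ (Subgroup.centralizer (((Cfsg.pCore p G) : Subgroup G) : Set G) ≤ (Cfsg.pCore p G) → ∃ U V : Subgroup G, Cfsg.IsChiefFactor U V ∧ U ≤ A ∧ ⁅⁅U, (Subgroup.zpowers g)⁆, (Subgroup.zpowers g)⁆ ≤ V ∧ ¬ ⁅U, (Subgroup.zpowers g)⁆ ≤ V) := by
  have hS := sylIn_sylow S
  have hTn : (Cfsg.pCore p G).Normal := pCore_normal p G
  have hTS : Cfsg.pCore p G ≤ (S : Subgroup G) := pCore_le hS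
  set T := Cfsg.pCore p G with hT
  have hAn : A.Normal := by
    have h1 : ((A.subgroupOf T).map T.subtype).Normal := inferInstance
    rwa [map_subgroupOf hAT] at h1
  have hK' : ¬ (Cfsg.inducedFunctor Cfsg.kInfLower (S : Subgroup G)).Normal ∨
      ¬ (Cfsg.inducedFunctor Cfsg.kInfUpper (S : Subgroup G)).Normal := hK
  have hfaith : Subgroup.centralizer ((T : Subgroup G) : Set G) ≤ T →
      ∀ N : Subgroup G, N.Normal → ¬ N ≤ T → ⁅A, kres p N⁆ ≠ ⊥ := by
    intro hc N hN hNT hbot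
    apply hNT
    have h1 : kres p N = ⊥ := by
      rw [eq_bot_iff, kres, Subgroup.closure_le]
      rintro x ⟨hxN, hx⟩
      have hxK : x ∈ kres p N := Subgroup.subset_closure ⟨hxN, hx⟩
      rw [Subgroup.commutator_eq_bot_iff_le_centralizer, Subgroup.le_centralizer_iff] at hbot
      have hxA := hbot hxK
      have h2 : (MulAut.conjNormal x : MulAut ↥T) = 1 := by
        apply hA5
        · have : orderOf (MulAut.conjNormal x : MulAut ↥T) ∣ orderOf x := orderOf_map_dvd _ x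
          exact Nat.Coprime.coprime_dvd_left this hx
        · intro a ha
          apply Subtype.ext
          rw [MulAut.conjNormal_apply]
          exact mem_centralizer.1 hxA a ha
      have h3 : x ∈ Subgroup.centralizer ((T : Subgroup G) : Set G) := by
        rw [mem_centralizer]
        intro t ht
        have h4 := congrArg (fun φ : MulAut ↥T => ((φ ⟨t, ht⟩ : ↥T) : G)) h2
        simp only [MulAut.conjNormal_apply, MulAut.one_apply] at h4
        exact h4
      obtain ⟨k, hk⟩ := (pCore_isPGroup (p := p) (G := G)) ⟨x, hc h3⟩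
      have hk' : x ^ p ^ k = 1 := congrArg Subtype.val hk
      have h5 : orderOf x ∣ p ^ k := orderOf_dvd_of_pow_eq_one hk'
      have h6 : orderOf x = 1 := Nat.Coprime.eq_one_of_dvd (Nat.Coprime.pow_right k hx) h5
      rw [SetLike.mem_coe, Subgroup.mem_bot]
      exact orderOf_eq_one_iff.1 h6
    have h2 := le_kres_sup hN hS
    rw [h1, bot_sup_eq] at h2
    exact le_pCore hN (hS.isPGroup.to_le h2)
  obtain ⟨g, hgS, hgT, h1, h2, h3⟩ := kinf_main hS hTn hTS hAn hAT hA2 hA3 hfaith hK'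
  exact ⟨g, hgS, hgT, h1, h2, h3⟩

end Cfsg.Agent.S1982
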