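import Cfsg.Statements.S1988
import Cfsg.Agent.Lib.KInf7

set_option autoImplicit false
universe u
open Cfsg

namespace Cfsg.Agent.S1988

open Cfsg.Agent.Lib.CFSylow Cfsg.Agent.Lib.CFFusion Cfsg.Agent.Lib.CFControl Cfsg.Agent.Lib.CFCore
  Cfsg.Agent.Lib.CFSection Cfsg.Agent.Lib.CFMin Cfsg.Agent.Lib.CFStmt Cfsg.Agent.Lib.KInf6

/-- Let p be an odd prime, G a finite group with Sylow p-subgroup S and K the lower K-infinity subgroup of S. If N_G(K) has a normal p-complement, or if N_G(K)/C_G(K) is a p-group (every element of N_G(K) of order prime to p centralizes K), then G has a normal p-complement. -/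
theorem result {G : Type u} [Group G] [Finite G] {p : ℕ} [Fact p.Prime] (hp : p ≠ 2) (S : Sylow p G) (h : Cfsg.HasNormalPComplement p ↥(Subgroup.normalizer ((Cfsg.inducedFunctor Cfsg.kInfLower (S : Subgroup G) : Subgroup G) : Set G)) ∨ ∀ g ∈ Subgroup.normalizer ((Cfsg.inducedFunctor Cfsg.kInfLower (S : Subgroup G) : Subgroup G) : Set G), (orderOf g).Coprime p → g ∈ Subgroup.centralizer ((Cfsg.inducedFunctor Cfsg.kInfLower (S : Subgroup G) : Subgroup G) : Set G)) : Cfsg.HasNormalPComplement p G := by
  have hW := kLike_lower.{u} p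
  have hS := sylIn_sylow S
  set U := Cfsg.inducedFunctor Cfsg.kInfLower (S : Subgroup G) with hU
  have hSN : (S : Subgroup G) ≤ nz U := le_nz_functor (isConjugacyFunctor_induced hW.1) hS.isPGroup
  have hN : Cfsg.HasNormalPComplement p ↥(nz U) := by
    rcases h with h | h
    · exact h
    · -- `C_G(U)` has a central Sylow subgroup
      have hcU : (S : Subgroup G) ⊓ cz U ≤ U := by
        rintro x ⟨hxS, hxc⟩
        have hnil : Group.IsNilpotent ↥(S : Subgroup G) := hS.isPGroup.isNilpotent
        have h1 : (⟨x, hxS⟩ : ↥(S : Subgroup G)) ∈ cz (Cfsg.kInfLower ↥(S : Subgroup G)) := by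
          rw [mem_centralizer]
          intro a ha
          exact Subtype.ext (mem_centralizer.1 hxc (a : G) ⟨a, ha, rfl⟩)
        have h2 := Cfsg.Agent.Lib.KInf1.cz_kInfLower_le h1
        exact ⟨⟨x, hxS⟩, h2, rfl⟩
      have hCN : cz U ≤ nz U := centralizer_le_normalizer U
      have hSyl : SylIn p (S : Subgroup G) (nz U) := hS.of_le hSN le_top
      have hxC : ∀ x ∈ nz U, ∀ c ∈ cz U, x * c * x⁻¹ ∈ cz U := by
        intro x hx c hc
        have h1 : cj x (cz U) = cz (cj x U) := cj_centralizer x U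
        have h2 : cj x U = U := mem_normalizer.1 hx
        rw [h2] at h1
        rw [← h1]; exact conj_mem_cj hc
      have hcent : ∀ q ∈ cz U, (∃ k : ℕ, q ^ p ^ k = 1) → ∀ c ∈ cz U, c * q * c⁻¹ = q := by
        rintro q hq ⟨k, hk⟩ c hc
        have hQ : IsPGroup p (Subgroup.zpowers q) := by
          refine IsPGroup.of_card (n := (Nat.dvd_prime_pow Fact.out).1
            (orderOf_dvd_of_pow_eq_one hk) |>.choose) ?_
          rw [Nat.card_zpowers]
          exact ((Nat.dvd_prime_pow Fact.out).1 (orderOf_dvd_of_pow_eq_one hk)).choose_spec.2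
        obtain ⟨x, hx, hle⟩ := hSyl.exists_conj_le hQ (by
          rw [Subgroup.zpowers_le]; exact hCN hq)
        have h1 : x * q * x⁻¹ ∈ (S : Subgroup G) := hle (conj_mem_cj (Subgroup.mem_zpowers q))
        have h2 : x * q * x⁻¹ ∈ U := hcU ⟨h1, hxC x hx q hq⟩
        have h3 := mem_centralizer.1 (hxC x hx c hc) _ h2
        have h4 : x * (c * q * c⁻¹) * x⁻¹ = x * q * x⁻¹ := by
          rw [← h3]; group
        exact mul_left_cancel (mul_right_cancel h4)
      have hC : Cfsg.HasNormalPComplement p ↥((cz U).subgroupOf (nz U)) := by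
        rw [Cfsg.Agent.Lib.Transfer.hasNormalPComplement_iff_forall_centralizer]
        intro Q hQ g _ _
        rw [mem_centralizer]
        intro q hq
        obtain ⟨k, hk⟩ := hQ ⟨q, hq⟩
        have hk' : ((q : ↥(nz U)) : G) ^ p ^ k = 1 := by
          have h5 := congrArg (fun z : ↥Q => (((z : ↥((cz U).subgroupOf (nz U))) : ↥(nz U)) : G)) hk
          simpa using h5
        have h6 := hcent ((q : ↥(nz U)) : G) q.2 ⟨k, hk'⟩ ((g : ↥(nz U)) : G) g.2
        exact Subtype.ext (Subtype.ext h6)
      rw [Cfsg.Agent.Lib.PNilp.hasNormalPComplement_iff_pResidual] at hC ⊢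
      have hle : Cfsg.pResidual p ↥(nz U) ≤ (cz U).subgroupOf (nz U) := by
        unfold Cfsg.pResidual
        rw [Subgroup.closure_le]
        intro g hg
        have hg' : Nat.Coprime (orderOf g) p := hg
        rw [← Subgroup.orderOf_coe] at hg'
        exact h g g.2 hg'
      have h7 := Cfsg.Agent.Lib.PNilp.map_pResidual_of_le p _ hle
      rw [← h7, Subgroup.card_map_of_injective (Subgroup.subtype_injective _)]
      exact hC
  refine Cfsg.Agent.Lib.KInf7.npc_main hp hW.1 S hN ?_
  intro K R hR hst T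
  exact controlsStrongFusion_of_ctrlSF hW.1 (sf_kinf hW (stable_sections hst) _ (isSec_refl _)) T

end Cfsg.Agent.S1988
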