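import Cfsg.Statements.S1989
import Cfsg.Agent.Lib.QdNot2
import Cfsg.Agent.S1987

set_option autoImplicit false
universe u
open Cfsg

namespace Cfsg.Agent.S1989

/-- Let p be an odd prime and G a finite group. Then Qd(p) (the natural semidirect product of an elementary abelian group of order p² by SL₂(p)) is not involved in G if and only if, in every section K/R of G and for every Sylow p-subgroup T of K/R, the lower K-infinity subgroup of T controls strong fusion in K/R. -/
theorem result {G : Type u} [Group G] [Finite G] {p : ℕ} [Fact p.Prime] (hp : p ≠ 2) : ¬ Cfsg.Involves ↥(Cfsg.qd p) G ↔ ∀ (K R : Subgroup G) [hR : (R.subgroupOf K).Normal], ∀ T : Sylow p (↥K ⧸ R.subgroupOf K), Cfsg.ControlsStrongFusion p (Cfsg.inducedFunctor (G := (↥K ⧸ R.subgroupOf K)) Cfsg.kInfLower (T : Subgroup (↥K ⧸ R.subgroupOf K))) := by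
  constructor
  · intro h K R hR T
    haveI hfin : Finite (↥K ⧸ R.subgroupOf K) := inferInstance
    have h' : ¬ Cfsg.Involves ↥(Cfsg.qd p) (↥K ⧸ R.subgroupOf K) := fun h' =>
      h (Lib.QdCtrl.involves_trans h' (Lib.QdCtrl.involves_of_isSec (Lib.CFSection.isSec_KR K R)))
    refine S1987.result hp ?_ T
    intro K1 R1 hR1
    haveI : Finite (↥K1 ⧸ R1.subgroupOf K1) := inferInstance
    apply Lib.QdCtrl.normalizerPStable_of_qd_free hp
    exact fun h'' => h' (Lib.QdCtrl.involves_trans h'' (Lib.QdCtrl.involves_of_isSec (Lib.CFSection.isSec_KR K1 R1)))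
  · rintro h ⟨K, R, hR, ⟨e⟩⟩
    obtain ⟨S⟩ : Nonempty (Sylow p (↥K ⧸ R.subgroupOf K)) := inferInstance
    have h1 := h K R S
    exact Lib.QdNot2.not_controls e S (Lib.KInf1.isChar_kInfLower p) h1

end Cfsg.Agent.S1989
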