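import Cfsg.Statements.S1992
import Cfsg.Agent.S1991
import Cfsg.Agent.Lib.Burnside
import Cfsg.Agent.Lib.CFApps
import Cfsg.Agent.Lib.ClsStab

set_option autoImplicit false
open Cfsg

namespace Cfsg.Agent.S1992

theorem pgroup_of_index {G : Type*} [Group G] [Finite G]
    (h : ∀ q : ℕ, q.Prime → q ∣ Nat.card G → ∀ Q : Sylow q G,
      Subgroup.normalizer ((Q : Subgroup G) : Set G) = Q) {p : ℕ} (hp : p.Prime)
    {N : Subgroup G} (hN : N.Normal) (hidx : N.index = p) : IsPGroup p G := by
  have : Fact p.Prime := ⟨hp⟩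
  have hu : ∀ q : ℕ, q.Prime → q ∣ Nat.card G → q = p := by
    intro q hq hqG
    by_contra hne
    have : Fact q.Prime := ⟨hq⟩
    obtain ⟨Q⟩ := (inferInstance : Nonempty (Sylow q G))
    have hQN : (Q : Subgroup G) ≤ N := by
      intro x hx
      obtain ⟨k, hk⟩ := Q.isPGroup' ⟨x, hx⟩
      have hk' : x ^ q ^ k = 1 := congrArg Subtype.val hk
      refine Cfsg.Agent.Lib.ClsStab.mem_of_pow_coprime (m := q ^ k) (n := p)
        (Nat.Coprime.pow_left k ((Nat.coprime_primes hq hp).2 hne)) ?_ ?_
      · rw [hk']; exact one_mem _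
      · rw [← hidx]; exact Subgroup.pow_index_mem N x
    have h1 := Sylow.normalizer_sup_eq_top' Q hQN
    have h2 : Subgroup.normalizer ((Q : Subgroup G) : Set G) ⊔ N = ⊤ := h1
    rw [h q hq hqG Q, sup_eq_right.2 hQN] at h2
    rw [h2, Subgroup.index_top] at hidx
    exact hp.one_lt.ne hidx
  apply IsPGroup.of_card (n := (Nat.card G).primeFactorsList.length)
  exact Nat.eq_prime_pow_of_unique_prime_dvd Nat.card_pos.ne' (fun {q} hq hqG => hu q hq hqG)

/-- Let G be a finite group in which, for every prime q dividing the order of G, every Sylow q-subgroup is its own normalizer. Then the order of G is a power of a single prime (G is a q-group for some prime q; for G trivial any prime works). -/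
theorem result {G : Type*} [Group G] [Finite G] (h : ∀ q : ℕ, q.Prime → q ∣ Nat.card G → ∀ Q : Sylow q G, Subgroup.normalizer ((Q : Subgroup G) : Set G) = Q) : ∃ q : ℕ, q.Prime ∧ IsPGroup q G := by
  by_cases h1 : Nat.card G = 1
  · refine ⟨2, Nat.prime_two, fun x => ⟨0, ?_⟩⟩
    have : Subsingleton G := (Nat.card_eq_one_iff_unique.1 h1).1
    exact Subsingleton.elim _ _
  by_cases h5 : ∃ p, p.Prime ∧ p ∣ Nat.card G ∧ 5 ≤ p
  · obtain ⟨p, hp, hpG, hp5⟩ := h5
    have : Fact p.Prime := ⟨hp⟩
    obtain ⟨S⟩ := (inferInstance : Nonempty (Sylow p G))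
    obtain ⟨N, hN, hidx⟩ := Cfsg.Agent.S1991.result hp5 S (S.ne_bot_of_dvd_card hpG) (by
      intro g hg hord
      rw [h p hp hpG S] at hg
      obtain ⟨k, hk⟩ := S.isPGroup' ⟨g, hg⟩
      have hk' : g ^ p ^ k = 1 := congrArg Subtype.val hk
      have h6 : orderOf g ∣ p ^ k := orderOf_dvd_of_pow_eq_one hk'
      have h7 : orderOf g = 1 := Nat.Coprime.eq_one_of_dvd (Nat.Coprime.pow_right k hord) h6
      rw [orderOf_eq_one_iff.1 h7]; exact one_mem _)
    exact ⟨p, hp, pgroup_of_index h hp hN hidx⟩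
  · push Not at h5
    have hcard : ∃ a b : ℕ, Nat.card G = 2 ^ a * 3 ^ b := by
      obtain ⟨a, m, hm, hGm⟩ := Nat.exists_eq_pow_mul_and_not_dvd (Nat.card_pos (α := G)).ne' 2
        (by norm_num)
      have hm0 : m ≠ 0 := by rintro rfl; simp at hm
      refine ⟨a, m.primeFactorsList.length, ?_⟩
      rw [hGm]
      congr 1
      refine Nat.eq_prime_pow_of_unique_prime_dvd hm0 (fun {q} hq hqm => ?_)
      have h6 := h5 q hq (hGm ▸ Dvd.dvd.mul_left hqm _)
      have h7 := hq.two_le
      interval_cases q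
      · exact absurd hqm hm
      · rfl
      · exact absurd hq (by norm_num)
    obtain ⟨a, b, hab⟩ := hcard
    have hsol := Cfsg.Agent.Lib.Burnside.isSolvable_of_card_eq _ 2 3 a b Nat.prime_two
      Nat.prime_three hab rfl
    have hnt : Nontrivial G := by
      rw [← Finite.one_lt_card_iff_nontrivial]
      have := Nat.card_pos (α := G)
      omega
    have hcomm : commutator G ≠ ⊤ := by
      intro hc
      exact (IsSolvable.commutator_lt_top_of_nontrivial (G := G)).ne hc
    have hidx : (commutator G).index ≠ 1 := fun h' => hcomm (Subgroup.index_eq_one.1 h')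
    obtain ⟨p, hp, hpd⟩ := Nat.exists_prime_and_dvd hidx
    have : Fact p.Prime := ⟨hp⟩
    obtain ⟨S⟩ := (inferInstance : Nonempty (Sylow p G))
    obtain ⟨N, hN, hi⟩ := Cfsg.Agent.Lib.CFApps.exists_normal_index_of_not_le S.isPGroup' (by
      intro hle
      have h8 : (commutator G).index ∣ (S : Subgroup G).index := Subgroup.index_dvd_of_le hle
      exact S.not_dvd_index (hpd.trans h8))
    exact ⟨p, hp, pgroup_of_index h hp hN hi⟩

end Cfsg.Agent.S1992
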