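import Cfsg.Statements.S1996
import Cfsg.Agent.Lib.CFApps

set_option autoImplicit false
universe u
open Cfsg

namespace Cfsg.Agent.S1996

open Cfsg.Agent.Lib.CFSylow Cfsg.Agent.Lib.CFFusion Cfsg.Agent.Lib.CFControl
  Cfsg.Agent.Lib.CFSection Cfsg.Agent.Lib.CFMin Cfsg.Agent.Lib.CFMain Cfsg.Agent.Lib.CFRed
  Cfsg.Agent.Lib.CFStmt Cfsg.Agent.Lib.CFApps

/-- Let p be a prime, G a finite group and W₁, W₂ two isomorphism-invariant p-group functors (W assigns to every group Q a subgroup W(Q), nontrivial whenever Q is a nontrivial finite p-group, and every isomorphism from a finite p-group Q onto a group R carries W(Q) onto W(R)). Suppose that G* = N_{G*}(W₁(S*)) N_{G*}(W₂(S*)) whenever G* = K/R is a section of G with C_{G*}(O_p(G*)) ≤ O_p(G*) and S* is a Sylow p-subgroup of G*. Then the pair {W₁, W₂} controls strong fusion in G. -/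
theorem result {G : Type u} [Group G] [Finite G] {p : ℕ} [Fact p.Prime] (W₁ W₂ : ∀ (Q : Type u) [Group Q], Subgroup Q) (hW₁ : Cfsg.IsCharPFunctor.{u} p W₁) (hW₂ : Cfsg.IsCharPFunctor.{u} p W₂) (hfac : ∀ (K R : Subgroup G) [hR : (R.subgroupOf K).Normal], Subgroup.centralizer ((Cfsg.pCore p (↥K ⧸ R.subgroupOf K) : Subgroup (↥K ⧸ R.subgroupOf K)) : Set (↥K ⧸ R.subgroupOf K)) ≤ Cfsg.pCore p (↥K ⧸ R.subgroupOf K) → ∀ T : Sylow p (↥K ⧸ R.subgroupOf K), ∀ x : (↥K ⧸ R.subgroupOf K), ∃ a ∈ Subgroup.normalizer ((Cfsg.inducedFunctor (G := (↥K ⧸ R.subgroupOf K)) W₁ (T : Subgroup (↥K ⧸ R.subgroupOf K)) : Subgroup (↥K ⧸ R.subgroupOf K)) : Set (↥K ⧸ R.subgroupOf K)), ∃ b ∈ Subgroup.normalizer ((Cfsg.inducedFunctor (G := (↥K ⧸ R.subgroupOf K)) W₂ (T : Subgroup (↥K ⧸ R.subgroupOf K)) : Subgroup (↥K ⧸ R.subgroupOf K)) : Set (↥K ⧸ R.subgroupOf K)), x = a * b) : Cfsg.FamilyControlsStrongFusionIn p {Cfsg.inducedFunctor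 (G := G) W₁, Cfsg.inducedFunctor (G := G) W₂} ⊤ := by
  have h𝓦 : ∀ W' ∈ ({W₁, W₂} : Set (∀ (Q : Type u) [Group Q], Subgroup Q)),
      Cfsg.IsCharPFunctor.{u} p W' := by
    rintro W' (rfl | rfl)
    · exact hW₁
    · exact hW₂
  have h := sf_all (G := G) h𝓦 ?_ G (isSec_refl G)
  · have h1 := (ctrlSF_iff h𝓦).1 h
    rwa [ind, Set.image_pair] at h1
  · intro X _ _ hX hC S hS
    obtain ⟨K, R, hR, hC', ⟨e⟩⟩ := exists_KR_constrained hX hC
    obtain ⟨T, rfl⟩ := exists_sylow_transport e hS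
    refine famSF_pair_of_factor hW₁ hW₂ hS ?_
    intro x
    obtain ⟨a, ha, b, hb, hab⟩ := hfac K R hC' T (e.symm x)
    rw [induced_transport hW₁ e (sylIn_sylow T).isPGroup,
      induced_transport hW₂ e (sylIn_sylow T).isPGroup, ← map_normalizer_equiv,
      ← map_normalizer_equiv]
    refine ⟨e a, ⟨a, ha, rfl⟩, e b, ⟨b, hb, rfl⟩, ?_⟩
    rw [← map_mul, ← hab]; simp

end Cfsg.Agent.S1996
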