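import Cfsg.Statements.S1997
import Cfsg.Agent.Lib.CFTriple

set_option autoImplicit false
universe u
open Cfsg

namespace Cfsg.Agent.S1997

open Cfsg.Agent.Lib.CFSylow Cfsg.Agent.Lib.CFFusion Cfsg.Agent.Lib.CFControl
  Cfsg.Agent.Lib.CFSection Cfsg.Agent.Lib.CFMin Cfsg.Agent.Lib.CFMain Cfsg.Agent.Lib.CFRed
  Cfsg.Agent.Lib.CFStmt Cfsg.Agent.Lib.CFApps Cfsg.Agent.Lib.CFTriple

/-- Let p be a prime, G a finite group with Sylow p-subgroup S, and W₁, W₂ two isomorphism-invariant p-group functors (W assigns to every group Q a subgroup W(Q), nontrivial whenever Q is a nontrivial finite p-group, and every isomorphism from a finite p-group Q onto a group R carries W(Q) onto W(R)). Suppose that G* = C_{G*}(Ω₁Z(S*)) N_{G*}(W₁(S*)) = C_{G*}(Ω₁Z(S*)) N_{G*}(W₂(S*)) = N_{G*}(W₁(S*)) N_{G*}(W₂(S*)) whenever G* = K/R is a section of G with C_{G*}(O_p(G*)) ≤ O_p(G*) and S* is a Sylow p-subgroup of G*, where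 Ω₁Z denotes the subgroup generated by the elements of order dividing p in the centre. Suppose also Ω₁Z(S) ≤ W₁(S) ∩ W₂(S), and let A be the normal closure of Ω₁Z(S) in N_G(W₁(S)). Then A is an elementary abelian subgroup of S, strongly closed in S with respect to G, and A controls strong fusion in G. -/
theorem result {G : Type u} [Group G] [Finite G] {p : ℕ} [Fact p.Prime] (S : Sylow p G) (W₁ W₂ : ∀ (Q : Type u) [Group Q], Subgroup Q) (hW₁ : Cfsg.IsCharPFunctor.{u} p W₁) (hW₂ : Cfsg.IsCharPFunctor.{u} p W₂) (hfac : ∀ (K R : Subgroup G) [hR : (R.subgroupOf K).Normal], Subgroup.centralizer ((Cfsg.pCore p (↥K ⧸ R.subgroupOf K) : Subgroup (↥K ⧸ R.subgroupOf K)) : Set (↥K ⧸ R.subgroupOf K)) ≤ Cfsg.pCore p (↥K ⧸ R.subgroupOf K) → ∀ T : Sylow p (↥K ⧸ R.subgroupOf K), (∀ x : (↥K ⧸ R.subgroupOf K), ∃ a ∈ Subgroup.centralizer ((Cfsg.omegaOne p ((T : Subgroup (↥K ⧸ R.subgroupOf K)) ⊓ Subgroup.centralizer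 (((T : Subgroup (↥K ⧸ R.subgroupOf K)) : Subgroup (↥K ⧸ R.subgroupOf K)) : Set (↥K ⧸ R.subgroupOf K))) : Subgroup (↥K ⧸ R.subgroupOf K)) : Set (↥K ⧸ R.subgroupOf K)), ∃ b ∈ Subgroup.normalizer ((Cfsg.inducedFunctor (G := (↥K ⧸ R.subgroupOf K)) W₁ (T : Subgroup (↥K ⧸ R.subgroupOf K)) : Subgroup (↥K ⧸ R.subgroupOf K)) : Set (↥K ⧸ R.subgroupOf K)), x = a * b) ∧ (∀ x : (↥K ⧸ R.subgroupOf K), ∃ a ∈ Subgroup.centralizer ((Cfsg.omegaOne p ((T : Subgroup (↥K ⧸ R.subgroupOf K)) ⊓ Subgroup.centralizer (((T : Subgroup (↥K ⧸ R.subgroupOf K)) : Subgroup (↥K ⧸ R.subgroupOf K)) : Set (↥K ⧸ R.subgroupOf K))) : Subgroup (↥K ⧸ R.subgroupOf K)) : Set (↥K ⧸ R.subgroupOf K)), ∃ b ∈ Subgroup.normalizer ((Cfsg.inducedFunctor (G := (↥K ⧸ R.subgroupOf K)) W₂ (T : Subgroup (↥K ⧸ R.subgroupOf K)) : Subgroup (↥K ⧸ R.subgroupOf K)) : Set (↥K ⧸ R.subgroupOf K)), x = a * b) ∧ (∀ x : (↥K ⧸ R.subgroupOf K), ∃ a ∈ Subgroup.normalizer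 ((Cfsg.inducedFunctor (G := (↥K ⧸ R.subgroupOf K)) W₁ (T : Subgroup (↥K ⧸ R.subgroupOf K)) : Subgroup (↥K ⧸ R.subgroupOf K)) : Set (↥K ⧸ R.subgroupOf K)), ∃ b ∈ Subgroup.normalizer ((Cfsg.inducedFunctor (G := (↥K ⧸ R.subgroupOf K)) W₂ (T : Subgroup (↥K ⧸ R.subgroupOf K)) : Subgroup (↥K ⧸ R.subgroupOf K)) : Set (↥K ⧸ R.subgroupOf K)), x = a * b)) (hZ : Cfsg.omegaOne p ((S : Subgroup G) ⊓ Subgroup.centralizer (((S : Subgroup G) : Subgroup G) : Set G)) ≤ Cfsg.inducedFunctor (G := G) W₁ (S : Subgroup G) ⊓ Cfsg.inducedFunctor (G := G) W₂ (S : Subgroup G)) (N₁ : Subgroup G) (hN₁ : N₁ = Subgroup.normalizer ((Cfsg.inducedFunctor (G := G) W₁ (S : Subgroup G) : Subgroup G) : Set G)) (A : Subgroup G) (hA : A = (Subgroup.normalClosure (((Cfsg.omegaOne p ((S : Subgroup G) ⊓ Subgroup.centralizer (((S : Subgroup G) : Subgroup G) : Set G))).subgroupOf N₁ : Subgroup ↥N₁) : Set ↥N₁)).map N₁.subtype) : A ≤ (S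 : Subgroup G) ∧ Cfsg.IsElementaryAbelian p A ∧ Cfsg.IsStronglyClosed A (S : Subgroup G) ∧ Cfsg.ControlsStrongFusion p A := by
  have hS := sylIn_sylow S
  have h𝓦 : ∀ W' ∈ ({W₁, W₂} : Set (∀ (Q : Type u) [Group Q], Subgroup Q)),
      Cfsg.IsCharPFunctor.{u} p W' := by
    rintro W' (rfl | rfl)
    · exact hW₁
    · exact hW₂
  -- control by the pair
  have hpair := sf_all (G := G) h𝓦 (by
    intro X _ _ hX hC S hS
    obtain ⟨K, R, hR, hC', ⟨e⟩⟩ := exists_KR_constrained hX hC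
    obtain ⟨T, rfl⟩ := exists_sylow_transport e hS
    refine famSF_pair_of_factor hW₁ hW₂ hS ?_
    intro x
    obtain ⟨a, ha, b, hb, hab⟩ := (hfac K R hC' T).2.2 (e.symm x)
    rw [induced_transport hW₁ e (sylIn_sylow T).isPGroup,
      induced_transport hW₂ e (sylIn_sylow T).isPGroup, ← map_normalizer_equiv,
      ← map_normalizer_equiv]
    refine ⟨e a, ⟨a, ha, rfl⟩, e b, ⟨b, hb, rfl⟩, ?_⟩
    rw [← map_mul, ← hab]; simp) G (isSec_refl G) _ hS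
  -- transport of the other factorizations
  have htr : ∀ (W : ∀ (Q : Type u) [Group Q], Subgroup Q), Cfsg.IsCharPFunctor.{u} p W →
      (∀ (K R : Subgroup G) [hR : (R.subgroupOf K).Normal],
        Subgroup.centralizer ((Cfsg.pCore p (↥K ⧸ R.subgroupOf K) : Subgroup (↥K ⧸ R.subgroupOf K)) :
          Set (↥K ⧸ R.subgroupOf K)) ≤ Cfsg.pCore p (↥K ⧸ R.subgroupOf K) →
        ∀ T : Sylow p (↥K ⧸ R.subgroupOf K), ∀ x : (↥K ⧸ R.subgroupOf K),
          ∃ a ∈ cz (Cfsg.omegaOne p ((T : Subgroup (↥K ⧸ R.subgroupOf K)) ⊓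
            cz (T : Subgroup (↥K ⧸ R.subgroupOf K)))),
          ∃ b ∈ nz (Cfsg.inducedFunctor (G := (↥K ⧸ R.subgroupOf K)) W
            (T : Subgroup (↥K ⧸ R.subgroupOf K))), x = a * b) →
      ∀ (X : Type u) [Group X] [Finite X], IsSec X G →
        cz (Cfsg.pCore p X) ≤ Cfsg.pCore p X → FacC p W X := by
    intro W hW hf X _ _ hX hC S hS x
    obtain ⟨K, R, hR, hC', ⟨e⟩⟩ := exists_KR_constrained hX hC
    obtain ⟨T, rfl⟩ := exists_sylow_transport e hS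
    obtain ⟨a, ha, b, hb, hab⟩ := hf K R hC' T (e.symm x)
    refine ⟨e a, ?_, e b, ?_, ?_⟩
    · rw [mem_cz_omega] at ha ⊢
      intro z hz hzp
      have h1 : e.symm z ∈ (T : Subgroup _) ⊓ cz (T : Subgroup _) := by
        refine Subgroup.mem_inf.2 ⟨?_, ?_⟩
        · obtain ⟨t, ht, rfl⟩ := hz.1
          have e1 : e.symm (e.toMonoidHom t) = t := e.symm_apply_apply t
          rw [e1]; exact ht
        · rw [mem_centralizer]
          intro t ht
          apply e.injective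
          have := mem_centralizer.1 hz.2 (e t) ⟨t, ht, rfl⟩
          simpa using this
      have h2 := ha _ h1 (by rw [← map_pow, hzp, map_one])
      have h3 := congrArg e h2
      simpa using h3
    · rw [induced_transport hW e (sylIn_sylow T).isPGroup, ← map_normalizer_equiv]
      exact ⟨b, hb, rfl⟩
    · rw [← map_mul, ← hab]; simp
  have hf1 := htr W₁ hW₁ (fun K R hR hC T => (hfac K R hC T).1)
  have hf2 := htr W₂ hW₂ (fun K R hR hC T => (hfac K R hC T).2.1)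
  -- notation
  set Z := Cfsg.omegaOne p ((S : Subgroup G) ⊓ Subgroup.centralizer ((S : Subgroup G) : Set G)) with hZdef
  set V₁ := Cfsg.inducedFunctor W₁ (S : Subgroup G) with hV₁
  set V₂ := Cfsg.inducedFunctor W₂ (S : Subgroup G) with hV₂
  have hV₁S : V₁ ≤ (S : Subgroup G) := functor_le (isConjugacyFunctor_induced hW₁) hS.isPGroup
  have hV₂S : V₂ ≤ (S : Subgroup G) := functor_le (isConjugacyFunctor_induced hW₂) hS.isPGroup
  have hSN₁ : (S : Subgroup G) ≤ nz V₁ := le_nz_functor (isConjugacyFunctor_induced hW₁) hS.isPGroup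
  have hSN₂ : (S : Subgroup G) ≤ nz V₂ := le_nz_functor (isConjugacyFunctor_induced hW₂) hS.isPGroup
  have hZS : Z ≤ (S : Subgroup G) := (hZ.trans inf_le_left).trans hV₁S
  have hA₁ : A = ⨆ n ∈ nz V₁, cj n Z := by
    rw [hA, hN₁]; exact map_normalClosure (hZS.trans hSN₁)
  -- `A₁ ≤ A₂`
  have hkey : ∀ (V V' : Subgroup G), (∀ x ∈ nz V, ∃ a ∈ nz V ⊓ cz Z, ∃ b ∈ nz V ⊓ nz V', x = a * b) →
      (⨆ n ∈ nz V, cj n Z) ≤ ⨆ n ∈ nz V', cj n Z := by
    intro V V' h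
    refine iSup₂_le fun n hn => ?_
    obtain ⟨a, ha, b, hb, hab⟩ := h n⁻¹ (inv_mem hn)
    have e : n = b⁻¹ * a⁻¹ := by rw [← mul_inv_rev, ← hab, inv_inv]
    rw [e, ← cj_cj, cj_of_centralizer (inv_mem (Subgroup.mem_inf.1 ha).2)]
    exact le_iSup₂ (f := fun (n : G) (_ : n ∈ nz V') => cj n Z) b⁻¹ (inv_mem (Subgroup.mem_inf.1 hb).2)
  have h12 : (⨆ n ∈ nz V₁, cj n Z) ≤ ⨆ n ∈ nz V₂, cj n Z :=
    hkey V₁ V₂ (fun x hx => facC_subgroup hW₂ (le_refl (nz V₁)) (hS.of_le hSN₁ le_top) hV₁S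
      (hZ.trans inf_le_left) hf2 hx)
  have h21 : (⨆ n ∈ nz V₂, cj n Z) ≤ ⨆ n ∈ nz V₁, cj n Z :=
    hkey V₂ V₁ (fun x hx => facC_subgroup hW₁ (le_refl (nz V₂)) (hS.of_le hSN₂ le_top) hV₂S
      (hZ.trans inf_le_right) hf1 hx)
  have hA₂ : A = ⨆ n ∈ nz V₂, cj n Z := by rw [hA₁]; exact le_antisymm h12 h21
  have hnorm : ∀ V : Subgroup G, nz V ≤ nz (⨆ n ∈ nz V, cj n Z) := by
    intro V x hx
    apply mem_normalizer_of_le
    rw [cj_iSup]
    refine iSup_le fun n => ?_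
    rw [cj_iSup]
    refine iSup_le fun hn => ?_
    rw [cj_cj]
    exact le_iSup₂ (f := fun (n : G) (_ : n ∈ nz V) => cj n Z) (x * n) (mul_mem hx hn)
  have hN1A : nz V₁ ≤ nz A := by rw [hA₁]; exact hnorm V₁
  have hN2A : nz V₂ ≤ nz A := by rw [hA₂]; exact hnorm V₂
  -- `A ≤ V₁ ∩ C(V₁)`
  have hZV : Z ≤ V₁ := hZ.trans inf_le_left
  have hZc : Z ≤ cz V₁ := by
    rw [hZdef, Cfsg.omegaOne, Subgroup.closure_le]
    rintro z ⟨hz, _⟩
    exact Subgroup.centralizer_le hV₁S hz.2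
  have hAV : A ≤ V₁ ⊓ cz V₁ := by
    rw [hA₁]
    refine iSup₂_le fun n hn => le_inf ?_ ?_
    · have := mem_normalizer.1 hn
      rw [← this]; exact cj_mono hZV
    · refine (cj_mono hZc).trans ?_
      rw [cj_centralizer, mem_normalizer.1 hn]
  have hcomm : ∀ x ∈ A, ∀ y ∈ A, x * y = y * x := by
    intro x hx y hy
    have h1 := mem_centralizer.1 (Subgroup.mem_inf.1 (hAV hy)).2 x (Subgroup.mem_inf.1 (hAV hx)).1
    exact (eq_mul_of_mul_inv_eq h1).symm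
  have hpow : ∀ x ∈ A, x ^ p = 1 := by
    let E : Subgroup G :=
      { carrier := {x | x ∈ V₁ ⊓ cz V₁ ∧ x ^ p = 1}
        one_mem' := ⟨one_mem _, one_pow _⟩
        mul_mem' := by
          rintro a b ⟨ha, ha'⟩ ⟨hb, hb'⟩
          refine ⟨mul_mem ha hb, ?_⟩
          have h1 := mem_centralizer.1 (Subgroup.mem_inf.1 hb).2 a (Subgroup.mem_inf.1 ha).1
          have h2 : Commute a b := (eq_mul_of_mul_inv_eq h1).symm
          rw [h2.mul_pow, ha', hb', one_mul]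
        inv_mem' := by
          rintro a ⟨ha, ha'⟩
          exact ⟨inv_mem ha, by rw [inv_pow, ha', inv_one]⟩ }
    have hE : A ≤ E := by
      rw [hA₁]
      refine iSup₂_le fun n hn => ?_
      have h1 : Z ≤ E := by
        rw [hZdef, Cfsg.omegaOne, Subgroup.closure_le]
        intro z hz
        have hzZ : z ∈ Z := Subgroup.subset_closure hz
        exact ⟨Subgroup.mem_inf.2 ⟨hZV hzZ, hZc hzZ⟩, hz.2⟩
      rintro _ ⟨z, hz, rfl⟩
      have h2 := h1 hz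
      refine ⟨?_, ?_⟩
      · apply hAV
        rw [hA₁]
        exact (le_iSup₂ (f := fun (n : G) (_ : n ∈ nz V₁) => cj n Z) n hn) ⟨z, hz, rfl⟩
      · simp only [MulEquiv.coe_toMonoidHom]
        rw [← map_pow, h2.2, map_one]
    intro x hx
    exact (hE hx).2
  -- strong fusion
  have hSF : SF A ⊤ (S : Subgroup G) := by
    rw [sf_iff_reach]
    intro B hB h hh hle
    refine (hpair B hB h hh hle).mono_mem le_rfl ?_
    rintro _ ⟨_, ⟨W', hW', rfl⟩, rfl⟩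
    refine ⟨_, rfl, inf_le_inf_left _ ?_⟩
    rcases hW' with rfl | rfl
    · exact hN1A
    · exact hN2A
  have hAS : A ≤ (S : Subgroup G) := (hAV.trans inf_le_left).trans hV₁S
  refine ⟨hAS, ⟨⟨⟨fun a b => Subtype.ext (hcomm a a.2 b b.2)⟩⟩, hpow⟩, ⟨hAS, ?_⟩, S, hAS, ?_⟩
  · intro x hx g hg
    obtain ⟨y, hy, hyx⟩ := sf_iff_set.1 hSF {x} g (Subgroup.mem_top _)
      (Set.singleton_subset_iff.2 (hAS hx)) (by rintro _ ⟨_, rfl, rfl⟩; exact hg)
    rw [← hyx x rfl]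
    have := mem_normalizer.1 hy.2
    have h1 : y * x * y⁻¹ ∈ cj y A := conj_mem_cj hx
    rwa [this] at h1
  · intro B hB
    refine ⟨hB, fun g hg => ?_⟩
    obtain ⟨x, hx, hx'⟩ := sf_iff_set.1 hSF B g (Subgroup.mem_top _) hB hg
    exact ⟨x, hx.2, fun a ha => (hx' a ha).symm⟩

end Cfsg.Agent.S1997
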