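import Cfsg.Statements.S1998
import Cfsg.Agent.Lib.CFMinFail

set_option autoImplicit false
universe u
open Cfsg

namespace Cfsg.Agent.S1998

open Cfsg.Agent.Lib.CFSylow Cfsg.Agent.Lib.CFFusion Cfsg.Agent.Lib.CFControl
  Cfsg.Agent.Lib.CFSection Cfsg.Agent.Lib.CFMin Cfsg.Agent.Lib.CFMain Cfsg.Agent.Lib.CFRed
  Cfsg.Agent.Lib.CFStmt Cfsg.Agent.Lib.CFApps Cfsg.Agent.Lib.CFMinFail

/-- Let p be a prime, G a finite group with Sylow p-subgroup S, and 𝓦 a nonempty set of isomorphism-invariant p-group functors (W assigns to every group Q a subgroup W(Q), nontrivial whenever Q is a nontrivial finite p-group, and every isomorphism from a finite p-group Q onto a group R carries W(Q) onto W(R)). Suppose the induced conjugacy functors control transfer in every section of G other than G itself, but not in G. Let T be the subgroup generated by the S ∩ (N_G(W(S)))', W ∈ 𝓦, and M = N_G(T ∩ O_p(G)). Then: C_G(O_p(G)) ≤ O_p(G); M is a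 proper subgroup of G containing every proper subgroup of G that contains S (the unique maximal subgroup over S); [O_p(G), M] ≤ O_p(G) ∩ M' ≤ O_p(G) ∩ T; and every element u of S outside O_p(G) satisfies [X, u, …, u] ≰ Y with p − 1 entries u, for some chief factor X/Y of G with X ≤ O_p(G). -/
theorem result {G : Type u} [Group G] [Finite G] {p : ℕ} [Fact p.Prime] (S : Sylow p G) (𝓦 : Set (∀ (Q : Type u) [Group Q], Subgroup Q)) (h𝓦 : ∀ W ∈ 𝓦, Cfsg.IsCharPFunctor.{u} p W) (hne : 𝓦.Nonempty) (hsec : ∀ (K R : Subgroup G) [hR : (R.subgroupOf K).Normal], (K = ⊤ → R ≠ ⊥) → Cfsg.FamilyControlsTransferIn p ((fun W => Cfsg.inducedFunctor (G := (↥K ⧸ R.subgroupOf K)) W) '' 𝓦) ⊤) (hG : ¬ Cfsg.FamilyControlsTransferIn p ((fun W => Cfsg.inducedFunctor (G := G) W) '' 𝓦) ⊤) (T M : Subgroup G) (hT : T = (⨆ W ∈ 𝓦, (S : Subgroup G) ⊓ ⁅Subgroup.normalizer ((Cfsg.inducedFunctor (G := G) W (S : Subgroup G) : Subgroup G) : Set G), Subgroup.normalizer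 ((Cfsg.inducedFunctor (G := G) W (S : Subgroup G) : Subgroup G) : Set G)⁆)) (hM : M = Subgroup.normalizer ((T ⊓ Cfsg.pCore p G : Subgroup G) : Set G)) : Subgroup.centralizer ((Cfsg.pCore p G : Subgroup G) : Set G) ≤ Cfsg.pCore p G ∧ (M ≠ ⊤ ∧ ∀ H : Subgroup G, (S : Subgroup G) ≤ H → H ≠ ⊤ → H ≤ M) ∧ (⁅Cfsg.pCore p G, M⁆ ≤ Cfsg.pCore p G ⊓ ⁅M, M⁆ ∧ Cfsg.pCore p G ⊓ ⁅M, M⁆ ≤ Cfsg.pCore p G ⊓ T) ∧ ∀ u : G, u ∈ (S : Subgroup G) → u ∉ Cfsg.pCore p G → ∃ U V : Subgroup G, Cfsg.IsChiefFactor U V ∧ U ≤ Cfsg.pCore p G ∧ ¬ Cfsg.iterCommutator U (Subgroup.zpowers u) (p - 1) ≤ V := by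
  have hS := sylIn_sylow S
  have hT' : T = Foc (ind 𝓦 G) (S : Subgroup G) := by
    rw [hT, Foc, ind, iSup_image]
  have hsec' : ∀ (Y : Type u) [Group Y], IsSec Y G → Nat.card Y < Nat.card G → CtrlTr p 𝓦 Y := by
    intro Y _ hY hlt
    have hfin := hY.finite
    obtain ⟨K, R, hR, ⟨e⟩⟩ := hY.exists_KR
    refine ctrlTr_equiv h𝓦 e ((ctrlTr_iff h𝓦).2 (hsec K R ?_))
    rintro rfl rfl
    apply hlt.ne
    rw [← Nat.card_congr e.toEquiv]
    have h1 := Subgroup.card_eq_card_quotient_mul_card_subgroup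
      ((⊥ : Subgroup G).subgroupOf (⊤ : Subgroup G))
    rw [Subgroup.bot_subgroupOf, Subgroup.card_bot, mul_one, Subgroup.card_top] at h1
    simp only [Subgroup.bot_subgroupOf]
    exact h1.symm
  have hfail : ¬ ((S : Subgroup G) ⊓ ⁅(⊤ : Subgroup G), ⊤⁆ ≤ Foc (ind 𝓦 G) (S : Subgroup G)) := by
    intro h
    apply hG
    refine (familyControlsTransferIn_iff (ind_isConj h𝓦) hS).2 ?_
    unfold FamTr
    simp only [top_inf_eq]
    exact le_antisymm h (le_inf foc_le_self foc_le_comm)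
  obtain ⟨h1, h2, h3, h4, h5⟩ := minimal_failure h𝓦 hne hsec' hS hfail
  rw [← hT'] at h2 h3 h4
  have hM' : M = nz (T ⊓ Cfsg.pCore p G) := hM
  rw [← hM'] at h2 h3
  have hStop : (S : Subgroup G) ≤ M := by
    by_cases htop : (S : Subgroup G) = ⊤
    · exfalso
      obtain ⟨W, hW⟩ := hne
      apply hfail
      refine le_trans ?_ (le_foc (𝒲 := ind 𝓦 G) ⟨W, hW, rfl⟩)
      have h6 : nz (Cfsg.inducedFunctor W (S : Subgroup G)) = ⊤ := by
        rw [eq_top_iff]
        exact htop.ge.trans (le_nz_functor (isConjugacyFunctor_induced (h𝓦 W hW)) hS.isPGroup)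
      rw [h6]
    · exact h3 _ le_rfl htop
  have hQS : Cfsg.pCore p G ≤ (S : Subgroup G) := Cfsg.Agent.Lib.CFCore.pCore_le hS
  have hQn := Cfsg.Agent.Lib.CFCore.pCore_normal p G
  refine ⟨h1, ⟨h2, h3⟩, ⟨?_, ?_⟩, ?_⟩
  · refine le_inf (Subgroup.commutator_le_left _ _) ?_
    exact Subgroup.commutator_mono (hQS.trans hStop) le_rfl
  · exact le_inf inf_le_left ((inf_le_inf_right _ hQS).trans (h4 M hStop h2))
  · intro u hu huQ
    by_contra hcon
    push Not at hcon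
    exact h5 u hu huQ (fun U V hUV hUQ => hcon U V hUV hUQ)

end Cfsg.Agent.S1998
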