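import Cfsg.Statements.S2003
import Cfsg.Agent.Lib.H34Chief

set_option autoImplicit false
open Cfsg

namespace Cfsg.Agent.S2003



/-- Let p be a prime, G a finite group, P a normal p-subgroup of G and Q a critical subgroup of P: a characteristic subgroup with Q/Z(Q) elementary abelian, [P, Q] ≤ Z(Q), C_P(Q) = Z(Q), and such that every automorphism of P of order prime to p fixing Q elementwise is trivial. Let g ∈ G and i, j ≥ 1, and suppose that [X, g, …, g] ≤ Y with i entries g for every chief factor X/Y of G with X ≤ Q, and with j entries g for every chief factor X/Y of G with X ≤ Z(Q). Then [X, g, …, g] ≤ Y with i + j − 1 entries g for every chief factor X/Y of G with X ≤ P. -/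
theorem result {G : Type*} [Group G] [Finite G] {p : ℕ} [Fact p.Prime] (P : Subgroup G) [P.Normal] (hP : IsPGroup p ↥P) (Q : Subgroup G) (hQP : Q ≤ P) (hQchar : (Q.subgroupOf P).Characteristic) (hQ1 : ∀ a ∈ Q, a ^ p ∈ Q ⊓ Subgroup.centralizer ((Q : Subgroup G) : Set G)) (hQ2 : ⁅Q, Q⁆ ≤ Subgroup.centralizer ((Q : Subgroup G) : Set G)) (hQ3 : ⁅P, Q⁆ ≤ Q ⊓ Subgroup.centralizer ((Q : Subgroup G) : Set G)) (hQ4 : P ⊓ Subgroup.centralizer ((Q : Subgroup G) : Set G) = Q ⊓ Subgroup.centralizer ((Q : Subgroup G) : Set G)) (hQ5 : ∀ φ : MulAut ↥P, (orderOf φ).Coprime p → (∀ a : ↥P, (a : G) ∈ Q → φ a = a) → φ = 1) (g : G) (i j : ℕ) (hi : 1 ≤ i) (hj : 1 ≤ j) (hQi : ∀ U V : Subgroup G, Cfsg.IsChiefFactor U V → U ≤ Q → Cfsg.iterCommutator U (Subgroup.zpowers g) i ≤ V) (hZj : ∀ U V : Subgroup G, Cfsg.IsChiefFactor U V → U ≤ Q ⊓ Subgroup.centralizer ((Q : Subgroup G) : Set G) → Cfsg.iterCommutator U (Subgroup.zpowers g) j ≤ V) : ∀ U V : Subgroup G, Cfsg.IsChiefFactor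 U V → U ≤ P → Cfsg.iterCommutator U (Subgroup.zpowers g) (i + j - 1) ≤ V := by
  have hQn : Q.Normal := by
    have h1 : ((Q.subgroupOf P).map P.subtype).Normal := inferInstance
    rwa [Subgroup.map_subgroupOf_eq_of_le hQP] at h1
  intro U V hc hU
  exact Lib.H34Chief.critical_chief P hP Q hQP hQ3 hQ4.le (Subgroup.zpowers g) i j hi hQi hZj U V hc
    bot_le hU

end Cfsg.Agent.S2003
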