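import Cfsg.Statements.S2007
import Cfsg.Agent.Lib.H34Basic

set_option autoImplicit false
open Cfsg

namespace Cfsg.Agent.S2007



/-- Let p be a prime, G a finite group with Sylow p-subgroup S, and T a normal subgroup of S containing C_S(T). If N_G(T)/C_G(T) is a p-group (every element of N_G(T) of order prime to p centralizes T), then N_G(T) has a normal p-complement. -/
theorem result {G : Type*} [Group G] [Finite G] {p : ℕ} [Fact p.Prime] (S : Sylow p G) (T : Subgroup G) (hTS : T ≤ (S : Subgroup G)) (hTn : (S : Subgroup G) ≤ Subgroup.normalizer ((T : Subgroup G) : Set G)) (hC : (S : Subgroup G) ⊓ Subgroup.centralizer ((T : Subgroup G) : Set G) ≤ T) (hN : ∀ g ∈ Subgroup.normalizer ((T : Subgroup G) : Set G), (orderOf g).Coprime p → g ∈ Subgroup.centralizer ((T : Subgroup G) : Set G)) : Cfsg.HasNormalPComplement p ↥(Subgroup.normalizer ((T : Subgroup G) : Set G)) := by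
  classical
  set N := Subgroup.normalizer ((T : Subgroup G) : Set G) with hNdef
  have hCN : Subgroup.centralizer ((T : Subgroup G) : Set G) ≤ N := Subgroup.centralizer_le_normalizer _
  let C : Subgroup N := (Subgroup.centralizer ((T : Subgroup G) : Set G)).subgroupOf N
  have hCn : C.Normal := Subgroup.normal_subgroupOf_centralizer_normalizer _
  -- T is normal in N
  have hTc : ∀ x ∈ T, ∀ c ∈ Subgroup.centralizer ((T : Subgroup G) : Set G), x * c = c * x := by
    intro x hx c hc
    exact Subgroup.mem_centralizer_iff.1 hc x hx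
  obtain ⟨Q⟩ : Nonempty (Sylow p C) := inferInstance
  have hQc : (Q : Subgroup C) ≤ Subgroup.center C := by
    -- Q mapped to N
    have hQN : IsPGroup p ((Q : Subgroup C).map C.subtype) := Q.2.map _
    obtain ⟨R, hR⟩ := hQN.exists_le_sylow
    let S' : Sylow p N := S.subtype hTn
    obtain ⟨n, hn⟩ := MulAction.exists_smul_eq N R S'
    have hT : ∀ x ∈ (Q : Subgroup C), ((x : N) : G) ∈ T := by
      intro x hx
      have h1 : (x : N) ∈ (R : Subgroup N) := hR ⟨x, hx, rfl⟩
      have h2 : n * (x : N) * n⁻¹ ∈ (S' : Subgroup N) := by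
        rw [← hn]
        exact ⟨x, h1, rfl⟩
      have h3 : ((n * (x : N) * n⁻¹ : N) : G) ∈ (S : Subgroup G) := h2
      have h4 : n * (x : N) * n⁻¹ ∈ C := hCn.conj_mem _ x.2 n
      have h5 : ((n * (x : N) * n⁻¹ : N) : G) ∈ Subgroup.centralizer ((T : Subgroup G) : Set G) := h4
      have h6 : ((n * (x : N) * n⁻¹ : N) : G) ∈ T := hC ⟨h3, h5⟩
      have h7 := (Subgroup.mem_normalizer_iff.1 n.2 ((x : N) : G)).2 h6
      exact h7
    intro x hx
    rw [Subgroup.mem_center_iff]
    intro c
    apply Subtype.ext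
    apply Subtype.ext
    exact (hTc _ (hT x hx) _ c.2).symm
  obtain ⟨K, hKn, hKc, hKp, hKm⟩ := Cfsg.Agent.Lib.H34Basic.exists_compl_of_central_sylow Q hQc
  let K' : Subgroup N := K.map C.subtype
  have hK'm : ∀ x : N, x ∈ K' ↔ x ∈ C ∧ (orderOf x).Coprime p := by
    intro x
    constructor
    · rintro ⟨y, hy, rfl⟩
      refine ⟨y.2, ?_⟩
      have := (hKm y).1 hy
      rwa [← Subgroup.orderOf_coe] at this
    · rintro ⟨hxC, hx⟩
      refine ⟨⟨x, hxC⟩, (hKm _).2 ?_, rfl⟩
      rwa [Subgroup.orderOf_mk]
  haveI hK'n : K'.Normal := by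
    refine ⟨fun x hx g => ?_⟩
    rw [hK'm] at hx ⊢
    refine ⟨hCn.conj_mem _ hx.1 g, ?_⟩
    have : orderOf (g * x * g⁻¹) = orderOf x := by
      have := orderOf_injective (MulAut.conj g).toMonoidHom (MulAut.conj g).injective x
      exact this
    rw [this]; exact hx.2
  apply Cfsg.Agent.Lib.H34Basic.hasNPC_of_normal K'
  · have : Nat.card K' = Nat.card K := Subgroup.card_map_of_injective C.subtype_injective
    rw [this]; exact hKp
  · -- index
    have h1 : K'.relIndex C * C.index = K'.index := by
      apply Subgroup.relIndex_mul_index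
      exact Subgroup.map_subtype_le _
    have h2 : K'.relIndex C = K.index := by
      show (K'.subgroupOf C).index = K.index
      congr 1
      exact Subgroup.comap_map_eq_self_of_injective C.subtype_injective K
    have h3 : K.index = Nat.card Q := by
      have := hKc.symm.index_eq_card
      exact this
    obtain ⟨a, ha⟩ := IsPGroup.iff_card.1 Q.2
    have h4 : IsPGroup p (N ⧸ C) := by
      apply Cfsg.Agent.Lib.H34Basic.isPGroup_quotient_of_forall
      intro x hx
      have := hN x x.2 (by rwa [Subgroup.orderOf_coe])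
      exact this
    obtain ⟨b, hb⟩ := IsPGroup.iff_card.1 h4
    refine ⟨a + b, ?_⟩
    rw [← h1, h2, h3, pow_add]
    have h5 : Nat.card (Q : Subgroup C) = p ^ a := ha
    have h6 : C.index = p ^ b := hb
    rw [h6]
    exact congrArg (· * p ^ b) h5

end Cfsg.Agent.S2007
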