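import Cfsg.Statements.S2008


set_option autoImplicit false
open Cfsg

namespace Cfsg.Agent.S2008


theorem inverts {H : Type*} [Group H] [Finite H] (z : H) (hz : z * z = 1) (N : Subgroup H) (hn : N.Normal)
    (hN : N ⊓ Subgroup.centralizer ({z} : Set H) = ⊥) (n : H) (hnN : n ∈ N) : z * n * z⁻¹ = n⁻¹ := by
  have hzi : z⁻¹ = z := by rw [inv_eq_iff_mul_eq_one]; exact hz
  let f : N → N := fun n => ⟨(n : H)⁻¹ * (z * n * z⁻¹), N.mul_mem (N.inv_mem n.2) (hn.conj_mem _ n.2 z)⟩
  have hf : Function.Injective f := by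
    intro a b hab
    have h1 : (a : H)⁻¹ * (z * a * z⁻¹) = (b : H)⁻¹ * (z * b * z⁻¹) := congrArg Subtype.val hab
    have h2 : (b : H) * (a : H)⁻¹ = z * ((b : H) * (a : H)⁻¹) * z⁻¹ := by
      have : (b : H) * (a : H)⁻¹ * (z * a * z⁻¹) = z * b * z⁻¹ := by
        rw [mul_assoc, h1]; group
      calc (b : H) * (a : H)⁻¹ = (b : H) * (a : H)⁻¹ * (z * a * z⁻¹) * (z * a * z⁻¹)⁻¹ := by group
        _ = z * b * z⁻¹ * (z * a * z⁻¹)⁻¹ := by rw [this]
        _ = _ := by group
    have h3 : (b : H) * (a : H)⁻¹ ∈ N ⊓ Subgroup.centralizer ({z} : Set H) := by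
      refine ⟨N.mul_mem b.2 (N.inv_mem a.2), ?_⟩
      show _ ∈ Subgroup.centralizer ({z} : Set H)
      rw [Subgroup.mem_centralizer_singleton_iff]
      have := congrArg (· * z) h2
      simp only [inv_mul_cancel_right] at this
      first
        | exact this
        | exact this.symm
    rw [hN, Subgroup.mem_bot] at h3
    apply Subtype.ext
    rw [mul_inv_eq_one] at h3
    exact h3.symm
  have hs : Function.Surjective f := Finite.surjective_of_injective hf
  obtain ⟨m, hm⟩ := hs ⟨n, hnN⟩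
  have h4 : (m : H)⁻¹ * (z * m * z⁻¹) = n := congrArg Subtype.val hm
  rw [← h4]
  have hz2 : ∀ x : H, z * (z * x) = x := fun x => by rw [← mul_assoc, hz, one_mul]
  simp only [hzi, mul_inv_rev, inv_inv, mul_assoc, hz, mul_one]

theorem trivial_of {H : Type*} [Group H] [Finite H] (z : H) (hz : orderOf z = 2)
    (E : Subgroup H) (hE : IsKleinFour ↥E) (hzE : z ∈ E) (hc : ∀ e ∈ E, e ≠ 1 → IsConj z e)
    (N : Subgroup H) (hn : N.Normal) (hN : N ⊓ Subgroup.centralizer ({z} : Set H) = ⊥) : N = ⊥ := by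
  have hz2 : z * z = 1 := by have := pow_orderOf_eq_one z; rwa [hz, pow_two] at this
  have hz1 : z ≠ 1 := by rintro rfl; simp at hz
  -- another element
  obtain ⟨e, heE, he1, hez⟩ : ∃ e ∈ E, e ≠ 1 ∧ e ≠ z := by
    by_contra hcon
    push Not at hcon
    have h4 : Nat.card E = 4 := hE.card_four
    have : (E : Set H) ⊆ {1, z} := by
      intro x hx
      by_cases hx1 : x = 1
      · simp [hx1]
      · simp [hcon x hx hx1]
    have h5 : Nat.card E ≤ 2 := by
      have h6 := Set.ncard_le_ncard this (Set.toFinite _)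
      have h7 : ({1, z} : Set H).ncard ≤ 2 := Set.ncard_insert_le _ _ |>.trans (by simp)
      have h8 : Nat.card E = (E : Set H).ncard := rfl
      omega
    omega
  have key : ∀ w ∈ E, w ≠ 1 → ∀ n ∈ N, w * n * w⁻¹ = n⁻¹ := by
    intro w hw hw1 n hnN
    obtain ⟨c, hc'⟩ := isConj_iff.1 (hc w hw hw1)
    have hw2 : w * w = 1 := by
      rw [← hc']
      calc c * z * c⁻¹ * (c * z * c⁻¹) = c * (z * z) * c⁻¹ := by group
        _ = 1 := by rw [hz2]; group
    refine inverts w hw2 N hn ?_ n hnN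
    rw [eq_bot_iff]
    rintro x ⟨hxN, hxw⟩
    have hxw' : x ∈ Subgroup.centralizer ({w} : Set H) := hxw
    rw [Subgroup.mem_centralizer_singleton_iff] at hxw'
    have h9 : c⁻¹ * x * c ∈ N ⊓ Subgroup.centralizer ({z} : Set H) := by
      refine ⟨by simpa using hn.conj_mem x hxN c⁻¹, ?_⟩
      show _ ∈ Subgroup.centralizer ({z} : Set H)
      rw [Subgroup.mem_centralizer_singleton_iff]
      have hzc : z = c⁻¹ * w * c := by rw [← hc']; group
      rw [hzc]
      calc c⁻¹ * x * c * (c⁻¹ * w * c) = c⁻¹ * (x * w) * c := by group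
        _ = c⁻¹ * (w * x) * c := by rw [hxw']
        _ = _ := by group
    rw [hN, Subgroup.mem_bot] at h9
    have : x = c * (c⁻¹ * x * c) * c⁻¹ := by group
    rw [this, h9]; simp
  rw [eq_bot_iff]
  intro n hnN
  have h1 := key z hzE hz1 n hnN
  have h2 := key e heE he1 n⁻¹ (N.inv_mem hnN)
  have hez1 : e * z ≠ 1 := by
    intro h
    have h3 : e = z⁻¹ := eq_inv_of_mul_eq_one_left h
    have h4 : z⁻¹ = z := by rw [inv_eq_iff_mul_eq_one]; exact hz2
    exact hez (h3.trans h4)
  have h3 := key (e * z) (E.mul_mem heE hzE) hez1 n hnN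
  have h4 : e * z * n * (e * z)⁻¹ = n := by
    calc e * z * n * (e * z)⁻¹ = e * (z * n * z⁻¹) * e⁻¹ := by group
      _ = e * n⁻¹ * e⁻¹ := by rw [h1]
      _ = n := by rw [h2, inv_inv]
  have h5 : n⁻¹ = n := h3.symm.trans h4
  have h6 : n ∈ N ⊓ Subgroup.centralizer ({z} : Set H) := by
    refine ⟨hnN, ?_⟩
    show _ ∈ Subgroup.centralizer ({z} : Set H)
    rw [Subgroup.mem_centralizer_singleton_iff]
    rw [h5] at h1
    have := congrArg (· * z) h1
    simp only [inv_mul_cancel_right] at this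
    first
      | exact this
      | exact this.symm
  rw [hN] at h6
  exact h6


/-- Let H be a finite group and z an involution such that every proper normal subgroup of H meets the centralizer of z trivially, and suppose z lies in a Klein four-subgroup E of H all three of whose involutions are conjugate to z in H. Then H has no non-trivial abelian normal subgroup. -/
theorem result {H : Type*} [Group H] [Finite H] (z : H) (hz : orderOf z = 2) (hN : ∀ N : Subgroup H, N.Normal → N ≠ ⊤ → N ⊓ Subgroup.centralizer ({z} : Set H) = ⊥) (E : Subgroup H) (hE : IsKleinFour ↥E) (hzE : z ∈ E) (hc : ∀ e ∈ E, e ≠ 1 → IsConj z e) (N : Subgroup H) [N.Normal] (hab : IsMulCommutative ↥N) : N = ⊥ := by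
  refine trivial_of z hz E hE hzE hc N inferInstance (hN N inferInstance ?_)
  rintro rfl
  have hcomm : ∀ a b : H, a * b = b * a := by
    intro a b
    have := hab.is_comm.comm (⟨a, Subgroup.mem_top a⟩ : (⊤ : Subgroup H)) ⟨b, Subgroup.mem_top b⟩
    exact congrArg Subtype.val this
  have hEz : ∀ e ∈ E, e ≠ 1 → e = z := by
    intro e he he1
    obtain ⟨c, hc'⟩ := isConj_iff.1 (hc e he he1)
    rw [← hc', hcomm c z, mul_inv_cancel_right]
  have h4 : Nat.card E = 4 := hE.card_four
  have : (E : Set H) ⊆ {1, z} := by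
    intro x hx
    by_cases hx1 : x = 1
    · simp [hx1]
    · simp [hEz x hx hx1]
  have h6 := Set.ncard_le_ncard this (Set.toFinite _)
  have h7 : ({1, z} : Set H).ncard ≤ 2 := Set.ncard_insert_le _ _ |>.trans (by simp)
  have h8 : Nat.card E = (E : Set H).ncard := rfl
  omega

end Cfsg.Agent.S2008
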