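import Cfsg.Statements.S2038
import Cfsg.Agent.Lib.H92MathieuSchurB

set_option autoImplicit false
open Cfsg

namespace Cfsg.Agent.S2038

/-- The Schur multiplier of the Mathieu group M₂₄ (the automorphism group of the length-24 binary code) is trivial; here the Schur multiplier is described through stem extensions, as in the definitions: surjective homomorphisms onto the group from a finite group, whose kernel is central in that finite group and contained in that finite group's commutator subgroup. -/
theorem result : Cfsg.HasCyclicSchurMultiplier ↥Cfsg.M24 1 := by
  exact Cfsg.Agent.Lib.SchurSylow.hasTrivial_of_stemDvd Cfsg.Agent.Lib.H92MathieuSchur.m24_stem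

end Cfsg.Agent.S2038
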