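import Cfsg.Statements.S2039
import Cfsg.Agent.Lib.JOneSimple
import Cfsg.Agent.Lib.K8
import Cfsg.Agent.Lib.SchurSL2

set_option autoImplicit false
open Cfsg

namespace Cfsg.Agent.S2039

open Cfsg.Agent.Lib.JOne Cfsg.Agent.Lib.K8 Cfsg.Agent.Lib.SchurSylow
open Cfsg.Agent.Lib.Golay (allLt allLt_iff)

/-- the root subgroup of order eight -/
def U (x : K8) : W := ev (we (x : Fin 8).val)

theorem U_add (x y : K8) : U (x + y) = U x * U y := by
  apply cd_inj
  rw [cd_mul, U, U, U, cd_ev, cd_ev, cd_ev]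
  have h1 := Nat.eq_of_beq_eq_true ((allLt_iff.1 ((allLt_iff.1 we_mul) (x : Fin 8).val (x : Fin 8).2))
    (y : Fin 8).val (y : Fin 8).2)
  rw [h1]
  have h2 : ∀ x y : K8, ((x + y : K8) : Fin 8).val = Nat.xor (x : Fin 8).val (y : Fin 8).val := by decide +kernel
  rw [h2]

/-- discrete logarithm of the square -/
def lg (t : ℕ) : ℕ :=
  match t with
  | 1 => 0
  | 2 => 2
  | 3 => 6
  | 4 => 4
  | 5 => 5
  | 6 => 1
  | _ => 3

theorem tor_ok : allLt 8 (fun t => cond (Nat.beq t 0) true (allLt 8 (fun x =>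
    Nat.beq (mu (pc (evc wz) (lg t)) (evc (we x)))
      (mu (evc (we ((kmul (kmul (⟨t % 8, Nat.mod_lt _ (by decide)⟩ : Fin 8) (⟨t % 8, Nat.mod_lt _ (by decide)⟩ : Fin 8))
        (⟨x % 8, Nat.mod_lt _ (by decide)⟩ : Fin 8) : K8) : Fin 8).val)) (pc (evc wz) (lg t)))))) = true := by
  decide +kernel

theorem U_torus (t : K8) (ht : t ≠ 0) : ∃ h : W, ∀ x, h * U x * h⁻¹ = U (t ^ 2 * x) := by
  refine ⟨ev wz ^ (lg (t : Fin 8).val), fun x => ?_⟩
  rw [mul_inv_eq_iff_eq_mul]
  apply cd_inj
  rw [cd_mul, cd_mul, cd_pow, U, U, cd_ev, cd_ev, cd_ev]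
  have h := (allLt_iff.1 tor_ok) (t : Fin 8).val (t : Fin 8).2
  have h0 : Nat.beq (t : Fin 8).val 0 = false := by
    cases h2 : Nat.beq (t : Fin 8).val 0 with
    | true => exact absurd (Fin.ext (Nat.eq_of_beq_eq_true h2)) ht
    | false => rfl
  rw [h0, cond_false] at h
  have h3 := Nat.eq_of_beq_eq_true ((allLt_iff.1 h) (x : Fin 8).val (x : Fin 8).2)
  rw [h3]
  congr 3
  have h4 : ∀ t x : K8, ((kmul (kmul (⟨(t : Fin 8).val % 8, Nat.mod_lt _ (by decide)⟩ : Fin 8)
      (⟨(t : Fin 8).val % 8, Nat.mod_lt _ (by decide)⟩ : Fin 8))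
        (⟨(x : Fin 8).val % 8, Nat.mod_lt _ (by decide)⟩ : Fin 8) : K8) : Fin 8).val = ((t * t * x : K8) : Fin 8).val := by
    decide +kernel
  rw [h4, pow_two]

theorem pstem_cyclic (p m : ℕ) (hp : p.Prime) (hm : p * m = 175560) (hpm : ¬ p ∣ m) (a : W) (ha : orderOf a = p) :
    PStemDvd p W 1 := by
  have : Fact p.Prime := ⟨hp⟩
  apply PStemDvd.of_index (H := Subgroup.zpowers a)
  · have h1 := (Subgroup.zpowers a).card_mul_index
    rw [Nat.card_zpowers, ha, card_W, ← hm] at h1
    rwa [Nat.eq_of_mul_eq_mul_left hp.pos h1]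
  · exact stemDvd_of_isCyclic.pStemDvd p

/-- The Schur multiplier of the Janko group J₁ (the group generated by two explicit 7 × 7 matrices over the integers modulo 11) is trivial; here the Schur multiplier is described through stem extensions, as in the definitions: surjective homomorphisms onto the group from a finite group, whose kernel is central in that finite group and contained in that finite group's commutator subgroup. -/
theorem result : Cfsg.HasCyclicSchurMultiplier ↥Cfsg.Spor.J1 1 := by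
  apply hasTrivial_of_stemDvd (G := W)
  apply StemDvd.of_forall
  intro p hp
  by_cases hd : p ∣ 175560
  · rcases dvd_cases hp hd with rfl | rfl | rfl | rfl | rfl | rfl
    · have : Fact (Nat.Prime 2) := ⟨Nat.prime_two⟩
      apply Cfsg.Agent.Lib.SchurSL2.pStemDvd_of_root (F := K8) (by rw [card_K8]; norm_num) (by rw [card_K8]; norm_num)
        U U_add U_torus E8
      · rintro g ⟨v, hv, rfl⟩
        exact ⟨(⟨v, hv⟩ : Fin 8), rfl⟩
      · have h1 := E8.card_mul_index
        rw [card_E8, card_W] at h1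
        have h2 : E8.index = 21945 := by omega
        rw [h2]; norm_num
    · exact pstem_cyclic 3 58520 (by norm_num) (by norm_num) (by norm_num) _ order_w3
    · exact pstem_cyclic 5 35112 (by norm_num) (by norm_num) (by norm_num) _ order_y
    · exact pstem_cyclic 7 25080 (by norm_num) (by norm_num) (by norm_num) _ order_x
    · exact pstem_cyclic 11 15960 (by norm_num) (by norm_num) (by norm_num) _ order_w11
    · exact pstem_cyclic 19 9240 (by norm_num) (by norm_num) (by norm_num) _ order_w19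
  · have : Fact p.Prime := ⟨hp⟩
    apply pStemDvd_of_not_dvd
    rwa [card_W]

end Cfsg.Agent.S2039
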