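import Cfsg.Statements.S2040
import Cfsg.Agent.Lib.H58SMJ2

set_option autoImplicit false
open Cfsg

namespace Cfsg.Agent.S2040

open Cfsg.Agent.Lib.SchurSylow Cfsg.Agent.Lib.H58J2

theorem result : Cfsg.HasCyclicSchurMultiplier Cfsg.Spor.J2 2 := by
  have e : AG 5 ≃* Cfsg.Spor.J2 := (MulEquiv.subgroupCongr AG_five).trans equivP.symm
  refine hasCyclic_of_squarefree Nat.prime_two.squarefree (Cfsg.Agent.Lib.H58SM.J2.stem_two.congr e) ?_
  have hfin : Finite Cfsg.Spor.twoJ2 := Nat.finite_of_card_ne_zero (by rw [card_twoJ2]; norm_num)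
  refine ⟨Cfsg.Spor.twoJ2, inferInstance, hfin, QuotientGroup.mk' _, two_J2_stem, ?_⟩
  rw [QuotientGroup.ker_mk', card_center]

end Cfsg.Agent.S2040
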