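import Cfsg.Statements.S2042
import Cfsg.Agent.Lib.J4Final
import Cfsg.Agent.Lib.H3J4P
import Cfsg.Agent.Lib.H58J4S

set_option autoImplicit false
open Cfsg

namespace Cfsg.Agent.S2042

/-- The Schur multiplier of the Janko group J₄ (the finitely presented group of the definitions) is trivial; here the Schur multiplier is described through stem extensions, as in the definitions: surjective homomorphisms onto the group from a finite group, whose kernel is central in that finite group and contained in that finite group's commutator subgroup. -/
theorem result : Cfsg.HasCyclicSchurMultiplier Cfsg.Spor.J4 1 := by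
  haveI : Finite Cfsg.Spor.J4 := Cfsg.Agent.Lib.J4E.hyp.finite
  exact Cfsg.Agent.Lib.SchurSylow.hasTrivial_of_stemDvd (Cfsg.Agent.Lib.H58J4.stem_one Cfsg.Agent.Lib.J4E.hyp.inj
    Cfsg.Agent.Lib.J4Main.PP (Subgroup.subset_closure (by simp)) (Subgroup.subset_closure (by simp)) Cfsg.Agent.Lib.H3J4P.hP)

end Cfsg.Agent.S2042
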