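import Cfsg.Statements.S2044
import Cfsg.Agent.Lib.H58SMC2

set_option autoImplicit false
open Cfsg

namespace Cfsg.Agent.S2044

/-- The Schur multiplier of the Conway group Co₂ (the stabiliser of a minimal vector of the rank-24 lattice) is trivial; here the Schur multiplier is described through stem extensions, as in the definitions: surjective homomorphisms onto the group from a finite group, whose kernel is central in that finite group and contained in that finite group's commutator subgroup. -/
theorem result : Cfsg.HasCyclicSchurMultiplier ↥Cfsg.Spor.Co2 1 := by
  exact Cfsg.Agent.Lib.SchurSylow.hasSchurMultiplier_congr Cfsg.Agent.Lib.H58SM.C2.equivCo2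
    (Cfsg.Agent.Lib.SchurSylow.hasTrivial_of_stemDvd Cfsg.Agent.Lib.H58SM.C2.stem_one)

end Cfsg.Agent.S2044
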