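import Cfsg.Statements.S2047
import Cfsg.Agent.Lib.H58SMMM

set_option autoImplicit false
open Cfsg

namespace Cfsg.Agent.S2047

/-- The Schur multiplier of the McLaughlin group (as a two-vector stabiliser in the automorphism group of the rank-24 lattice) is cyclic of order 3; here the Schur multiplier is described through stem extensions, as in the definitions: surjective homomorphisms onto the group from a finite group, whose kernel is central in that finite group and contained in that finite group's commutator subgroup. -/
theorem result : Cfsg.HasCyclicSchurMultiplier ↥Cfsg.Spor.McL 3 := by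
  exact Cfsg.Agent.Lib.SchurSylow.hasSchurMultiplier_congr Cfsg.Agent.Lib.H58SM.MM.equivMcL (Cfsg.Agent.Lib.SchurSylow.hasCyclic_of_squarefree Nat.prime_three.squarefree Cfsg.Agent.Lib.H58SM.MM.stem_three Cfsg.Agent.Lib.H58SM.MM.exists_stem)

end Cfsg.Agent.S2047
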