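import Cfsg.Statements.S2049
import Cfsg.Agent.Lib.H92SMHeM

set_option autoImplicit false
open Cfsg

namespace Cfsg.Agent.S2049

/-- The Schur multiplier of the Held group (the finitely presented group of the definitions) is trivial; here the Schur multiplier is described through stem extensions, as in the definitions: surjective homomorphisms onto the group from a finite group, whose kernel is central in that finite group and contained in that finite group's commutator subgroup. -/
theorem result : Cfsg.HasCyclicSchurMultiplier Cfsg.Spor.He 1 := by
  have hfin : Finite Cfsg.Spor.He :=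
    Nat.finite_of_card_ne_zero (by
      have h := Cfsg.Agent.Lib.HeOrd.main.2.1
      show Nat.card (Cfsg.Spor.CoxPresented Cfsg.Spor.He.Gen Cfsg.Spor.He.edges Cfsg.Spor.He.extra) ≠ 0
      rw [h]; norm_num)
  exact Cfsg.Agent.Lib.SchurSylow.hasTrivial_of_stemDvd Cfsg.Agent.Lib.H92SMHeM.stem_one

end Cfsg.Agent.S2049
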