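import Cfsg.Statements.S2089
import Cfsg.Agent.Lib.H3MU11
import Cfsg.Agent.Lib.MSUHeis

set_option autoImplicit false
open Cfsg

namespace Cfsg.Agent.S2089

/-- Schur multipliers of the unitary groups: for n ≥ 3 and a field F with q² elements, (n, q) ≠ (3, 2), apart from the exceptional pairs (n, q) = (4, 2), (4, 3), (6, 2), the Schur multiplier of PSU_n(q) is cyclic of order gcd(n, q + 1); here the Schur multiplier is described through stem extensions, as in the definitions. -/
theorem result {F : Type*} [Field F] [Fintype F] (n q : ℕ) (hF : Fintype.card F = q ^ 2) (hn : 3 ≤ n) (h3 : ¬ (n = 3 ∧ q = 2)) (hexc : (n, q) ∉ ({(4, 2), (4, 3), (6, 2)} : Set (ℕ × ℕ))) : Cfsg.HasCyclicSchurMultiplier (Cfsg.PSU n F q) (Nat.gcd n (q + 1)) := by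
  refine Cfsg.Agent.Lib.H3MU.psu_main hF hn h3 (fun r hr => ?_)
  haveI := Fact.mk hr
  refine Cfsg.Agent.Lib.H3MU.su_all hF ?_ ?_ hn h3 hexc
  · intro h; subst h
    exact Cfsg.Agent.Lib.MSUHeis.five_three hF
  · intro h; subst h
    haveI : Fact (Nat.Prime 2) := ⟨Nat.prime_two⟩
    exact Cfsg.Agent.Lib.MSUHeis.seven_two hF (Cfsg.Agent.Lib.H3MU.su52 hF)

end Cfsg.Agent.S2089
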