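import Cfsg.Statements.S2091
import Cfsg.Agent.Lib.H3U62M
import Cfsg.Agent.Lib.SUTransport

set_option autoImplicit false
open Cfsg

namespace Cfsg.Agent.S2091

open Cfsg.Agent.Lib Cfsg.Agent.Lib.H3F4 Cfsg.Agent.Lib.K4 Cfsg.Agent.Lib.H3Prj Cfsg.Agent.Lib.SUTransport Cfsg.Agent.Lib.SchurSylow in
theorem aux {F : Type*} [Field F] [Fintype F] (hF : Fintype.card F = 4) :
    Cfsg.HasSchurMultiplier (Cfsg.PSU 6 F 2) (Multiplicative (ZMod 3 × ZMod 2 × ZMod 2)) :=
  hasSchurMultiplier_congr ((equivPSU (n := 6) (F := K4) (q := 2) hF4 (by norm_num)).trans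
    (psuEquiv (FiniteField.ringEquivOfCardEq (card_K4.trans hF.symm)) 6 2)) H3U62.main


/-- Exceptional Schur multiplier: PSU₆(2), realised over the field with 4 elements, has Schur multiplier isomorphic to the product of cyclic groups of orders 3, 2 and 2 (order 12, not cyclic; here the Schur multiplier is described through stem extensions, as in the definitions). -/
theorem result {F : Type*} [Field F] [Fintype F] (hF : Fintype.card F = 4) : Cfsg.HasSchurMultiplier (Cfsg.PSU 6 F 2) (Multiplicative (ZMod 3 × ZMod 2 × ZMod 2)) := by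
  exact aux hF

end Cfsg.Agent.S2091
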