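import Cfsg.Statements.S2096
import Cfsg.Agent.Lib.MulOrthG

set_option autoImplicit false
open Cfsg

namespace Cfsg.Agent.S2096

/-- Schur multipliers of the even-dimensional orthogonal groups of plus type and odd rank: for odd l ≥ 5 and a field F with q elements, the Schur multiplier of PΩ⁺_2l(F) (for the form Σ xᵢyᵢ) is cyclic of order gcd(4, q^l − 1); here the Schur multiplier is described through stem extensions, as in the definitions. -/
theorem result {F : Type*} [Field F] [Fintype F] {q : ℕ} (hF : Fintype.card F = q) (l : ℕ) (hl : 5 ≤ l) (hodd : Odd l) : Cfsg.HasCyclicSchurMultiplier (Cfsg.POmega F (Cfsg.quadFormPlus l F)) (Nat.gcd 4 (q ^ l - 1)) := (Lib.MulOrthG.multP l hF (by omega) (by omega)).1 hodd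

end Cfsg.Agent.S2096
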