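import Cfsg.Statements.S2101
import Cfsg.Agent.Lib.H3G23M
import Cfsg.Agent.Lib.ChevCongr

set_option autoImplicit false
open Cfsg

namespace Cfsg.Agent.S2101

open Cfsg.Agent.Lib Cfsg.Agent.Lib.SchurSylow in
theorem aux {F : Type*} [Field F] [Fintype F] (hF : Fintype.card F = 3) :
    Cfsg.HasCyclicSchurMultiplier ↥(Cfsg.Lie.chevG2.group F) 3 :=
  hasSchurMultiplier_congr (ChevCongr.congr Cfsg.Agent.Lib.ChevOkG2.good
    (FiniteField.ringEquivOfCardEq ((ZMod.card 3).trans hF.symm))) H3G23.main


/-- Exceptional Schur multiplier: over the field with 3 elements the Chevalley group of type G₂ has Schur multiplier cyclic of order 3 (here the Schur multiplier is described through stem extensions, as in the definitions). -/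
theorem result {F : Type*} [Field F] [Fintype F] (hF : Fintype.card F = 3) : Cfsg.HasCyclicSchurMultiplier ↥(Cfsg.Lie.chevG2.group F) 3 := by
  exact aux hF

end Cfsg.Agent.S2101
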