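import Cfsg.Statements.S2102
import Cfsg.Agent.Lib.H13G4
import Cfsg.Agent.Lib.ChevCongr

set_option autoImplicit false
open Cfsg

namespace Cfsg.Agent.S2102

open Cfsg.Spor Cfsg.Agent.Lib.CosetMain Cfsg.Agent.Lib.CoxBridge Cfsg.Agent.Lib.CosetGroup Cfsg.Agent.Lib.CosetInst Cfsg.Agent.Lib.BenesWord
open Cfsg.Agent.Lib.SuzRel Cfsg.Agent.Lib.SuzA Cfsg.Agent.Lib.SchurSylow

/-- Exceptional Schur multiplier: over the field with 4 elements the Chevalley group of type G₂ has Schur multiplier cyclic of order 2 (here the Schur multiplier is described through stem extensions, as in the definitions). -/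
theorem result {F : Type*} [Field F] [Fintype F] (hF : Fintype.card F = 4) : Cfsg.HasCyclicSchurMultiplier ↥(Cfsg.Lie.chevG2.group F) 2 := by
  obtain ⟨e⟩ := Cfsg.Agent.Lib.K4.exists_equiv F hF
  set H := Subgroup.closure (wset (C.x HL) WS) with hH
  obtain ⟨f⟩ := Cfsg.Agent.Lib.SuzG2.main H hH
  have hs : IsSimpleGroup H := by
    have hs4 : IsSimpleGroup (Cfsg.Lie.chevG2.group Cfsg.Agent.Lib.K4.K4) := Cfsg.Agent.Lib.G2K4.simple.1
    exact f.isSimpleGroup
  have hc : Nat.card H = 251596800 := by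
    rw [Nat.card_congr f.toEquiv]; exact Cfsg.Agent.Lib.G2K4.card
  have : Finite H := Nat.finite_of_card_ne_zero (by rw [hc]; norm_num)
  have hperf : commutator H = ⊤ := Cfsg.Agent.Lib.H58SM.perfect_of_simple hs (by rw [hc]; norm_num)
  have h1 : Cfsg.HasCyclicSchurMultiplier H 2 :=
    hasCyclic_of_squarefree Nat.prime_two.squarefree (Cfsg.Agent.Lib.H13G4.stem_H H hH) (Cfsg.Agent.Lib.H13G4.g4_stem H hH hperf)
  obtain ⟨G⟩ := Cfsg.Agent.Lib.G2K4.good
  exact hasSchurMultiplier_congr (f.trans (Cfsg.Agent.Lib.ChevCongr.congr G e.symm)) h1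

end Cfsg.Agent.S2102
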