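import Cfsg.Statements.S2104
import Cfsg.Agent.Lib.H13F4f
import Cfsg.Agent.Lib.H13F4N
import Cfsg.Agent.Lib.ChevCongr

set_option autoImplicit false
open Cfsg

namespace Cfsg.Agent.S2104

/-- Exceptional Schur multiplier: over the field with 2 elements the Chevalley group of type F₄ has Schur multiplier cyclic of order 2 (here the Schur multiplier is described through stem extensions, as in the definitions). -/
theorem result {F : Type*} [Field F] [Fintype F] (hF : Fintype.card F = 2) : Cfsg.HasCyclicSchurMultiplier ↥(Cfsg.Lie.chevF4.group F) 2 := by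
  have e : F ≃+* ZMod 2 := FiniteField.ringEquivOfCardEq (by rw [hF, ZMod.card])
  have h1 : Cfsg.HasCyclicSchurMultiplier Cfsg.Agent.Lib.H13F4.G 2 :=
    Cfsg.Agent.Lib.SchurSylow.hasCyclic_of_squarefree Nat.prime_two.squarefree Cfsg.Agent.Lib.H13F4.stemDvd
      Cfsg.Agent.Lib.H13F4.exists_stem
  exact Cfsg.Agent.Lib.SchurSylow.hasSchurMultiplier_congr (Cfsg.Agent.Lib.ChevCongr.congr Cfsg.Agent.Lib.H13F4.gd e.symm) h1

end Cfsg.Agent.S2104
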