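import Cfsg.Statements.S2108
import Cfsg.Agent.Lib.H26TwE6A
import Cfsg.Agent.Lib.H26TwE6C
-- import your own Cfsg.Agent.* helpers here

set_option autoImplicit false
open Cfsg

namespace Cfsg.Agent.S2108

/-- Schur multipliers of the twisted groups of type ²E₆: for a prime power q ≠ 2, with the group realised over the field with q² elements, the Schur multiplier of ²E₆(q) is cyclic of order gcd(3, q + 1) (here the Schur multiplier is described through stem extensions, as in the definitions); q = 2 is exceptional. -/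
theorem result {K : Type*} [Field K] [Fintype K] {q : ℕ} (hq : IsPrimePow q) (hK : Fintype.card K = q ^ 2) (h2 : q ≠ 2) : Cfsg.HasCyclicSchurMultiplier ↥(Cfsg.Lie.twistedE6 K q) (Nat.gcd 3 (q + 1)) := by
  have hq3 : 3 ≤ q := by have := hq.two_le; omega
  have hup := Cfsg.Agent.Lib.TwE6.stemDvd hq hK hq3
  by_cases h3 : 3 ∣ q + 1
  · have hg : Nat.gcd 3 (q + 1) = 3 := Nat.gcd_eq_left h3
    rw [hg] at hup ⊢
    have he := Cfsg.Agent.Lib.TwE6.twisted_eq (K := K) (q := q) (Cfsg.Agent.Lib.TwE6.hT hK)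
    refine Cfsg.Agent.Lib.SchurSylow.hasCyclic_of_squarefree (Nat.prime_three.squarefree) hup ?_
    rw [he]
    haveI : Finite (Cfsg.Agent.Lib.TwE6.sgm K q).ker :=
      Nat.finite_of_card_ne_zero (by rw [Cfsg.Agent.Lib.TwE6.card_ker_sgm hK h3]; norm_num)
    haveI : Finite (↥(Cfsg.Agent.Lib.TwE6.PP K q) ⧸ (Cfsg.Agent.Lib.TwE6.sgm K q).ker) :=
      Finite.of_equiv _ (QuotientGroup.quotientKerEquivOfSurjective _ (Cfsg.Agent.Lib.TwE6.sgm_surj)).symm.toEquiv
    exact ⟨↥(Cfsg.Agent.Lib.TwE6.PP K q), inferInstance,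
      Finite.of_subgroup_quotient (Cfsg.Agent.Lib.TwE6.sgm K q).ker, Cfsg.Agent.Lib.TwE6.sgm K q,
      Cfsg.Agent.Lib.TwE6.isStem hq hK h3, Cfsg.Agent.Lib.TwE6.card_ker_sgm hK h3⟩
  · have hg : Nat.gcd 3 (q + 1) = 1 := by
      rcases (Nat.dvd_prime Nat.prime_three).mp (Nat.gcd_dvd_left 3 (q + 1)) with h | h
      · exact h
      · exact absurd (h ▸ Nat.gcd_dvd_right 3 (q + 1)) h3
    rw [hg] at hup ⊢
    exact Cfsg.Agent.Lib.SchurSylow.hasTrivial_of_stemDvd hup

end Cfsg.Agent.S2108
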