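import Cfsg.Statements.S2111
import Cfsg.Agent.Lib.H26SzMult
import Cfsg.Agent.Lib.SuzukiTor
import Cfsg.Agent.Lib.SuzukiLie
import Cfsg.Agent.S1163

set_option autoImplicit false
open Cfsg

namespace Cfsg.Agent.S2111

open Subgroup Cfsg.Agent.Lib.SzLie

section borel

variable {F : Type*} [Field F] [Fintype F] [CharP F 2] {m : ℕ} (hF : Fintype.card F = 2 ^ (2 * m + 1))

theorem swap (t : Fˣ) (a b : F) : ∃ a' b', uS hF a b * hS hF t = hS hF t * uS hF a' b' := by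
  have h1 := hS_conj hF t⁻¹ a b
  have h2 : (hS hF t)⁻¹ = hS hF t⁻¹ := by
    rw [inv_eq_iff_mul_eq_one, hS_mul, mul_inv_cancel, hS_one]
  have h3 : uS hF a b * hS hF t = hS hF t * (hS hF t⁻¹ * uS hF a b * (hS hF t⁻¹)⁻¹) := by
    rw [← h2]; group
  rw [h1] at h3
  exact ⟨_, _, h3⟩

/-- the Borel subgroup -/
def borel : Subgroup (Cfsg.Lie.Sz F (2 ^ (m + 1))) where
  carrier := {g | ∃ t a b, g = hS hF t * uS hF a b}
  one_mem' := ⟨1, 0, 0, by rw [hS_one, uS_zero, mul_one]⟩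
  mul_mem' := by
    rintro _ _ ⟨t, a, b, rfl⟩ ⟨t', a', b', rfl⟩
    obtain ⟨a1, b1, e⟩ := swap hF t' a b
    exact ⟨t * t', _, _, by
      rw [mul_assoc, ← mul_assoc (uS hF a b), e, mul_assoc, uS_mul, ← mul_assoc, hS_mul]⟩
  inv_mem' := by
    rintro _ ⟨t, a, b, rfl⟩
    have h2 : (hS hF t)⁻¹ = hS hF t⁻¹ := by
      rw [inv_eq_iff_mul_eq_one, hS_mul, mul_inv_cancel, hS_one]
    have h3 : (uS hF a b)⁻¹ = uS hF a (b + a * tht F m a) :=
      Lib.H26SzMult.us_inv (uS hF) (fun a b a' b' => uS_mul hF a b a' b') a b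
    obtain ⟨a1, b1, e⟩ := swap hF t⁻¹ a (b + a * tht F m a)
    exact ⟨t⁻¹, a1, b1, by rw [mul_inv_rev, h2, h3, e]⟩

theorem u_mem (a b : F) : uS hF a b ∈ borel hF := ⟨1, a, b, by rw [hS_one, one_mul]⟩
theorem h_mem (t : Fˣ) : hS hF t ∈ borel hF := ⟨t, 0, 0, by rw [uS_zero, mul_one]⟩

/-- the unipotent subgroup -/
def unip : Subgroup (Cfsg.Lie.Sz F (2 ^ (m + 1))) where
  carrier := {g | ∃ a b, g = uS hF a b}
  one_mem' := ⟨0, 0, by rw [uS_zero]⟩
  mul_mem' := by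
    rintro _ _ ⟨a, b, rfl⟩ ⟨a', b', rfl⟩
    exact ⟨_, _, uS_mul _ _ _ _ _⟩
  inv_mem' := by
    rintro _ ⟨a, b, rfl⟩
    exact ⟨_, _, Lib.H26SzMult.us_inv (uS hF) (fun a b a' b' => uS_mul hF a b a' b') a b⟩

theorem card_unip : Nat.card (unip hF) = (2 ^ (2 * m + 1)) ^ 2 := by
  have e : F × F ≃ unip hF := Equiv.ofBijective (fun x => ⟨uS hF x.1 x.2, ⟨_, _, rfl⟩⟩) (by
    constructor
    · rintro ⟨a, b⟩ ⟨a', b'⟩ h
      have h1 := congrArg (fun x : unip hF => x.1.1.1) h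
      have h2 : Um (tht F m) a b = Um (tht F m) a' b' := h1
      have h3 := congrFun (congrFun h2 0) 1
      have h4 := congrFun (congrFun h2 0) 2
      simp [Um] at h3 h4
      rw [h3, h4]
    · rintro ⟨_, a, b, rfl⟩
      exact ⟨(a, b), rfl⟩)
  rw [← Nat.card_congr e, Nat.card_prod, Nat.card_eq_fintype_card, hF, sq]

theorem index_borel (hm : 1 ≤ m) : ¬ 2 ∣ (borel hF).index := by
  have h1 := (S1163.result hm hF).1
  have h2 : unip hF ≤ borel hF := by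
    rintro _ ⟨a, b, rfl⟩; exact u_mem hF a b
  obtain ⟨k, hk⟩ := card_dvd_of_le h2
  have h3 := (borel hF).card_mul_index
  rw [h1, hk, card_unip, mul_assoc, mul_assoc] at h3
  have hq : 0 < ((2 : ℕ) ^ (2 * m + 1)) ^ 2 := by positivity
  have h4 := Nat.eq_of_mul_eq_mul_left hq h3
  intro h5
  have h6 : 2 ∣ (2 ^ (2 * m + 1) - 1) * ((2 ^ (2 * m + 1)) ^ 2 + 1) := by
    rw [← h4]; exact h5.mul_left k
  have hev : Even (2 ^ (2 * m + 1)) := even_two.pow_of_ne_zero (by omega)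
  rcases (Nat.Prime.dvd_mul Nat.prime_two).1 h6 with h7 | h7
  · have : Odd (2 ^ (2 * m + 1) - 1) := Nat.Even.sub_odd Nat.one_le_two_pow hev odd_one
    exact (Nat.not_even_iff_odd.2 this) (even_iff_two_dvd.2 h7)
  · have : Odd ((2 ^ (2 * m + 1)) ^ 2 + 1) := (hev.pow_of_ne_zero two_ne_zero).add_one
    exact (Nat.not_even_iff_odd.2 this) (even_iff_two_dvd.2 h7)

include hF in
theorem two_part (hm : 2 ≤ m) : Lib.SchurSylow.PStemDvd 2 (Cfsg.Lie.Sz F (2 ^ (m + 1))) 1 := by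
  refine Lib.SchurSylow.PStemDvd.of_index (index_borel hF (by omega)) ?_
  intro Γ _ _ σ hσ hp
  have := Lib.H26SzMult.core hm hF (fun a b => (⟨uS hF a b, u_mem hF a b⟩ : borel hF))
    (fun t => ⟨hS hF t, h_mem hF t⟩) (fun a b a' b' => Subtype.ext (uS_mul hF a b a' b'))
    (fun s t => Subtype.ext (hS_mul hF s t)) (fun t a b => Subtype.ext (hS_conj hF t a b)) ?_ σ hσ hp
  · rw [this, card_bot]
  · rintro ⟨_, t, a, b, rfl⟩
    exact ⟨t, a, b, rfl⟩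

end borel

/-- Schur multipliers of the Suzuki groups: for q = 2^(2m+1) with m ≥ 2 the Schur multiplier of Sz(q) is trivial (here the Schur multiplier is described through stem extensions, as in the definitions); q = 8 is exceptional. -/
theorem result {F : Type*} [Field F] [Fintype F] {m : ℕ} (hm : 2 ≤ m) (hF : Fintype.card F = 2 ^ (2 * m + 1)) : Cfsg.HasCyclicSchurMultiplier ↥(Cfsg.Lie.Sz F (2 ^ (m + 1))) 1 := by
  have : CharP F 2 := charP_two hF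
  refine Lib.SchurSylow.hasTrivial_of_stemDvd (Lib.SchurSylow.StemDvd.of_forall fun p hp => ?_)
  by_cases h2 : p = 2
  · subst h2; exact two_part hF hm
  have : Fact p.Prime := ⟨hp⟩
  obtain ⟨P⟩ : Nonempty (Sylow p ↥(Cfsg.Lie.Sz F (2 ^ (m + 1)))) := inferInstance
  have hP : ¬ p ∣ (P : Subgroup ↥(Cfsg.Lie.Sz F (2 ^ (m + 1)))).index := P.not_dvd_index
  refine Lib.SchurSylow.PStemDvd.of_index hP ?_
  have hm1 : 1 ≤ m := by omega
  let e := (Lib.SuzukiLie.szEquiv m hm1 hF).symm.trans (MulEquiv.subgroupCongr (Lib.SuzukiFin.Sz_eq m))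
  have hc := Lib.SuzukiTor.odd_pgroup_cyclic (Lib.SuzukiFin.th F m) (Lib.SuzukiFin.th_sq hF)
    (Lib.SuzukiFin.th_ne hm1 hF) h2 ((P : Subgroup ↥(Cfsg.Lie.Sz F (2 ^ (m + 1)))).map e.toMonoidHom) (P.2.map _)
  have hc' : IsCyclic (P : Subgroup ↥(Cfsg.Lie.Sz F (2 ^ (m + 1)))) :=
    (((P : Subgroup ↥(Cfsg.Lie.Sz F (2 ^ (m + 1)))).equivMapOfInjective e.toMonoidHom e.injective).isCyclic).2 hc
  exact Lib.SchurSylow.stemDvd_of_isCyclic.pStemDvd p

end Cfsg.Agent.S2111
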