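import Cfsg.Statements.S2114
import Cfsg.Agent.Lib.H26F4H
-- import your own Cfsg.Agent.* helpers here

set_option autoImplicit false
open Cfsg

namespace Cfsg.Agent.S2114

/-- Schur multipliers of the large Ree groups: for q = 2^(2m+1) with m ≥ 1 the Schur multiplier of ²F₄(q) is trivial (here the Schur multiplier is described through stem extensions, as in the definitions). -/
theorem result {K : Type*} [Field K] [Fintype K] {m : ℕ} (hm : 1 ≤ m) (hK : Fintype.card K = 2 ^ (2 * m + 1)) : Cfsg.HasCyclicSchurMultiplier ↥(Cfsg.Lie.twistedF4 K (2 ^ m)) 1 := by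
  exact Cfsg.Agent.Lib.SchurSylow.hasTrivial_of_stemDvd (Cfsg.Agent.Lib.SchurSylow.StemDvd.of_forall fun r hr => by
    exact Cfsg.Agent.Lib.TwF4.stem_all hK hm hr)

end Cfsg.Agent.S2114
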