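import Cfsg.Statements.S2124
import Cfsg.Agent.Lib.ChevOut2

set_option autoImplicit false
open Cfsg

namespace Cfsg.Agent.S2124

/-- Outer automorphisms of the (adjoint, simple) Chevalley groups of type E₇: over a field with q = p^f (p prime) elements, the outer automorphism group of E₇(q) has order gcd(2, q − 1) · f (diagonal and field automorphisms). -/
theorem result {F : Type*} [Field F] [Fintype F] (p f : ℕ) [Fact p.Prime] [CharP F p] (hF : Fintype.card F = p ^ f) : Nat.card (Cfsg.Out ↥(Cfsg.Lie.chevE7.group F)) = Nat.gcd 2 (p ^ f - 1) * f := by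
  exact Cfsg.Agent.Lib.ChevStd.out_E7 hF


end Cfsg.Agent.S2124
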