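import Cfsg.Statements.S2141
import Cfsg.Agent.Lib.MSpP
import Cfsg.Agent.Lib.ClSymp3

set_option autoImplicit false
open Cfsg

namespace Cfsg.Agent.S2141

open Cfsg.Agent.Lib.ClIso Cfsg.Agent.Lib.ClSymp Cfsg.Agent.Lib.ClSymp2 Cfsg.Agent.Lib.MSp

open scoped LinearAlgebra.Projectivization

theorem finite_Spg {F : Type*} [Field F] [Fintype F] (m : ℕ) :
    Finite (Spg (Cfsg.Agent.Lib.ClIso.sympForm (Fin m) F)) := by
  have h1 : Finite ((Fin m ⊕ Fin m → F) ≃ₗ[F] (Fin m ⊕ Fin m → F)) :=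
    Finite.of_injective (fun g => (g : (Fin m ⊕ Fin m → F) → (Fin m ⊕ Fin m → F))) DFunLike.coe_injective
  exact Subtype.finite

theorem geom_k (t n : ℕ) : ∃ k, (t + 2) * k = (t + 3) ^ (2 * n) - 1 ∧
    ((t + 3) ^ (2 * (n + 1)) - 1) / (t + 3 - 1) = (t + 3) ^ 2 * k + t + 4 := by
  have h1 : (t + 2) ∣ (t + 3) ^ (2 * n) - 1 := by
    have := Nat.sub_dvd_pow_sub_pow (t + 3) 1 (2 * n)
    rwa [one_pow, show t + 3 - 1 = t + 2 by omega] at this
  obtain ⟨k, hk⟩ := h1
  refine ⟨k, hk.symm, ?_⟩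
  have h2 : 1 ≤ (t + 3) ^ (2 * n) := Nat.one_le_pow _ _ (by omega)
  have h3 : (t + 3) ^ (2 * n) = (t + 2) * k + 1 := by omega
  have h4 : (t + 3) ^ (2 * (n + 1)) = (t + 2) * ((t + 3) ^ 2 * k + t + 4) + 1 := by
    rw [show 2 * (n + 1) = 2 * n + 2 by ring, pow_add, h3]
    ring
  rw [h4, Nat.add_sub_cancel, show t + 3 - 1 = t + 2 by omega, Nat.mul_div_cancel_left _ (by omega)]

theorem lower {F : Type*} [Field F] [Fintype F] {q : ℕ} (hF : Fintype.card F = q) (m : ℕ) (hm : 2 ≤ m) (hq : 3 ≤ q)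
    (hexc : ¬ (m = 2 ∧ q = 3)) (H : Subgroup (Spg (Cfsg.Agent.Lib.ClIso.sympForm (Fin m) F))) (hH : H ≠ ⊤) :
    (q ^ (2 * m) - 1) / (q - 1) ≤ H.index := by
  classical
  haveI := finite_Spg (F := F) m
  obtain ⟨t, rfl⟩ : ∃ t, q = t + 3 := ⟨q - 3, by omega⟩
  obtain ⟨n, rfl⟩ : ∃ n, m = n + 1 := ⟨m - 1, by omega⟩
  obtain ⟨k, hk, hM⟩ := geom_k t n
  rw [hM]
  have hB := isSymp_sympForm (l := Fin (n + 1)) (F := F)
  have hpow : (t + 3) ^ 2 ≤ (t + 3) ^ (2 * n) := Nat.pow_le_pow_right (by omega) (by omega)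
  have hk4 : t + 4 ≤ k := by
    have h1 : (t + 2) * (t + 4) ≤ (t + 2) * k := by
      rw [hk]
      have : (t + 2) * (t + 4) + 1 = (t + 3) ^ 2 := by ring
      omega
    exact Nat.le_of_mul_le_mul_left h1 (by omega)
  have hex : t = 0 → 4 < k := by
    rintro rfl
    have h1 : n ≠ 1 := by
      rintro rfl
      exact hexc ⟨rfl, rfl⟩
    have h2 : (0 + 3) ^ 4 ≤ (0 + 3) ^ (2 * n) := Nat.pow_le_pow_right (by omega) (by omega)
    norm_num at h2 hk
    omega
  -- a frame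
  obtain ⟨v, hv⟩ : ∃ v : Fin (n + 1) ⊕ Fin (n + 1) → F, v ≠ 0 := ⟨fun _ => 1, fun h => by
    have := congrFun h (Sum.inl 0)
    exact one_ne_zero this⟩
  obtain ⟨v', h⟩ := exists_pair hB hv
  have hV : Nat.card (Fin (n + 1) ⊕ Fin (n + 1) → F) = (t + 3) ^ (2 * (n + 1)) := by
    rw [Nat.card_fun, Nat.card_eq_fintype_card, Nat.card_eq_fintype_card, Fintype.card_sum, Fintype.card_fin, hF]
    congr 1
    ring
  have hU : Nat.card ↥(Uc (Cfsg.Agent.Lib.ClIso.sympForm (Fin (n + 1)) F) v v') - 1 = (t + 2) * k := by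
    have h1 := card_V hB h
    rw [hV, hF, show 2 * (n + 1) = 2 + 2 * n by ring, pow_add] at h1
    have h2 := Nat.eq_of_mul_eq_mul_left (pow_pos (by omega) 2) h1
    rw [← h2, hk]
  have hfin : Finite (Spg (Cfsg.Agent.Lib.ClIso.sympForm (Fin (n + 1)) F) ⧸ H) := inferInstance
  have key := bound (X := Spg (Cfsg.Agent.Lib.ClIso.sympForm (Fin (n + 1)) F) ⧸ H) hB h hF hU hk4 hex (by
    by_contra hcon
    push Not at hcon
    apply hH
    rw [eq_top_iff]
    intro g _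
    have h1 : g ∈ TU hB ⊤ := by
      rw [TU_eq_top]; exact Subgroup.mem_top _
    have h2 : ∀ g ∈ TU hB ⊤, g • (QuotientGroup.mk 1 : Spg (Cfsg.Agent.Lib.ClIso.sympForm (Fin (n + 1)) F) ⧸ H) =
        QuotientGroup.mk 1 := by
      intro g hg
      have h3 : TU hB ⊤ ≤ MulAction.stabilizer (Spg (Cfsg.Agent.Lib.ClIso.sympForm (Fin (n + 1)) F))
          (QuotientGroup.mk 1 : Spg (Cfsg.Agent.Lib.ClIso.sympForm (Fin (n + 1)) F) ⧸ H) := by
        rw [TU, Subgroup.closure_le]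
        rintro g ⟨a, w, -, rfl⟩
        exact hcon _ w a
      exact h3 hg
    have h5 := h2 g h1
    have h6 : (QuotientGroup.mk (g * 1) : Spg (Cfsg.Agent.Lib.ClIso.sympForm (Fin (n + 1)) F) ⧸ H) =
      QuotientGroup.mk 1 := h5
    rw [QuotientGroup.eq] at h6
    simpa using h6)
  exact key

theorem upper {F : Type*} [Field F] [Fintype F] {q : ℕ} (hF : Fintype.card F = q) (m : ℕ) (hm : 2 ≤ m) :
    ∃ H : Subgroup (Spg (Cfsg.Agent.Lib.ClIso.sympForm (Fin m) F)), H.index = (q ^ (2 * m) - 1) / (q - 1) ∧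
      Subgroup.center (Spg (Cfsg.Agent.Lib.ClIso.sympForm (Fin m) F)) ≤ H := by
  classical
  haveI := finite_Spg (F := F) m
  have hB := isSymp_sympForm (l := Fin m) (F := F)
  haveI : NeZero m := ⟨by omega⟩
  obtain ⟨v, hv⟩ : ∃ v : Fin m ⊕ Fin m → F, v ≠ 0 := ⟨fun _ => 1, fun h => by
    have := congrFun h (Sum.inl ⟨0, by omega⟩)
    exact one_ne_zero this⟩
  haveI : Nontrivial (Fin m ⊕ Fin m → F) := ⟨⟨v, 0, hv⟩⟩
  have htr : MulAction.IsPretransitive (Spg (Cfsg.Agent.Lib.ClIso.sympForm (Fin m) F)) (ℙ F (Fin m ⊕ Fin m → F)) := by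
    constructor
    intro p q
    obtain ⟨g, hg⟩ := exists_map hB p.rep_nonzero q.rep_nonzero
    exact ⟨g, smul_eq_of_rep (c := 1) (by rw [hg, one_smul])⟩
  refine ⟨MulAction.stabilizer _ (Projectivization.mk F v hv), ?_, ?_⟩
  · rw [MulAction.index_stabilizer_of_transitive, Projectivization.card'', Nat.card_fun, Nat.card_eq_fintype_card,
      Nat.card_eq_fintype_card, Fintype.card_sum, Fintype.card_fin, hF]
    congr 3
    ring
  · intro g hg
    obtain ⟨c, hc⟩ := (mem_center_iff hB g).1 hg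
    rw [MulAction.mem_stabilizer_iff]
    exact smul_eq_of_rep (c := c) (hc _)

/-- Minimal index of a proper subgroup of the symplectic groups over fields with at least 3 elements: for m ≥ 2 and a field F with q ≥ 3 elements, (m, q) ≠ (2, 3), every proper subgroup of PSp_2m(F) has index at least (q^(2m) − 1)/(q − 1), and that index is attained. -/
theorem result {F : Type*} [Field F] [Fintype F] {q : ℕ} (hF : Fintype.card F = q) (m : ℕ) (hm : 2 ≤ m) (hq : 3 ≤ q) (hexc : ¬ (m = 2 ∧ q = 3)) : (∀ H : Subgroup (Cfsg.PSp m F), H ≠ ⊤ → (q ^ (2 * m) - 1) / (q - 1) ≤ H.index) ∧ (∃ H : Subgroup (Cfsg.PSp m F), H.index = (q ^ (2 * m) - 1) / (q - 1)) := by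
  classical
  let E := sympEquiv (Fin m) F
  let π : Matrix.symplecticGroup (Fin m) F →* Cfsg.PSp m F := QuotientGroup.mk' _
  have hπ : Function.Surjective π := QuotientGroup.mk'_surjective _
  let φ : Spg (Cfsg.Agent.Lib.ClIso.sympForm (Fin m) F) →* Cfsg.PSp m F := π.comp E.symm.toMonoidHom
  have hφ : Function.Surjective φ := hπ.comp E.symm.surjective
  have hker : φ.ker ≤ Subgroup.center (Spg (Cfsg.Agent.Lib.ClIso.sympForm (Fin m) F)) := by
    intro g hg
    have h1 : E.symm g ∈ Subgroup.center (Matrix.symplecticGroup (Fin m) F) := by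
      have : π (E.symm g) = 1 := hg
      rwa [QuotientGroup.mk'_apply, QuotientGroup.eq_one_iff] at this
    rw [Subgroup.mem_center_iff] at h1 ⊢
    intro h
    have := h1 (E.symm h)
    rw [← map_mul, ← map_mul] at this
    exact E.symm.injective this
  have hcard : ∀ H : Subgroup (Cfsg.PSp m F), (H.comap φ).index = H.index := fun H =>
    H.index_comap_of_surjective hφ
  constructor
  · intro H hH
    rw [← hcard]
    apply lower hF m hm hq hexc
    intro h
    apply hH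
    rw [← Subgroup.map_comap_eq_self_of_surjective hφ H, h, ← MonoidHom.range_eq_map]
    exact MonoidHom.range_eq_top.2 hφ
  · obtain ⟨H, hH, hc⟩ := upper hF m hm
    refine ⟨H.map φ, ?_⟩
    rw [← hcard, Subgroup.comap_map_eq_self (hker.trans hc), hH]

end Cfsg.Agent.S2141
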