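import Cfsg.Statements.S2142
import Cfsg.Agent.Lib.MinSp2E

set_option autoImplicit false
set_option linter.all false
open Cfsg

namespace Cfsg.Agent.S2142

open Cfsg.Agent.Lib.ClIso Cfsg.Agent.Lib.ClSymp Cfsg.Agent.Lib.ClSymp2 Cfsg.Agent.Lib.MinSp2A
  Cfsg.Agent.Lib.MinSp2D Cfsg.Agent.Lib.MinSp2E

theorem two_of_card {F : Type*} [Field F] [Fintype F] (hF : Fintype.card F = 2) : Two F := by
  intro c
  have := FiniteField.pow_card c
  rw [hF] at this
  have h2 : c * (c - 1) = 0 := by linear_combination this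
  rcases mul_eq_zero.1 h2 with h | h
  · exact Or.inl h
  · exact Or.inr (sub_eq_zero.1 h)

theorem lower {F : Type*} [Field F] [Fintype F] (hF : Fintype.card F = 2) (m : ℕ) (hm : 3 ≤ m)
    (H : Subgroup (Spg (Cfsg.Agent.Lib.ClIso.sympForm (Fin m) F))) (hH : H ≠ ⊤) :
    2 ^ (m - 1) * (2 ^ m - 1) ≤ H.index := by
  classical
  by_contra hlt
  push Not at hlt
  apply hH
  haveI : Finite ((Fin m ⊕ Fin m → F) ≃ₗ[F] (Fin m ⊕ Fin m → F)) :=
    Finite.of_injective (fun g => (g : (Fin m ⊕ Fin m → F) → (Fin m ⊕ Fin m → F))) DFunLike.coe_injective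
  haveI : Finite (Spg (Cfsg.Agent.Lib.ClIso.sympForm (Fin m) F)) := Subtype.finite
  haveI : Fintype (Spg (Cfsg.Agent.Lib.ClIso.sympForm (Fin m) F) ⧸ H) := Fintype.ofFinite _
  obtain ⟨n, rfl⟩ : ∃ n, m = n + 1 := ⟨m - 1, by omega⟩
  have h2 := two_of_card hF
  have hV : Nat.card (Fin (n + 1) ⊕ Fin (n + 1) → F) = (2 ^ (n + 1)) ^ 2 := by
    rw [Nat.card_fun, Nat.card_eq_fintype_card, Nat.card_eq_fintype_card, Fintype.card_sum, Fintype.card_fin,
      hF, ← pow_mul]
    congr 1
    ring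
  have hX : Nat.card (Spg (Cfsg.Agent.Lib.ClIso.sympForm (Fin (n + 1)) F) ⧸ H) + 2 ^ n < 2 * (2 ^ n) ^ 2 := by
    have h3 : Nat.card (Spg (Cfsg.Agent.Lib.ClIso.sympForm (Fin (n + 1)) F) ⧸ H) < 2 ^ n * (2 ^ (n + 1) - 1) := by
      simpa [Subgroup.index] using hlt
    have h4 : 2 ^ n * (2 ^ (n + 1) - 1) + 2 ^ n = 2 * (2 ^ n) ^ 2 := by
      have h5 : 1 ≤ 2 ^ (n + 1) := Nat.one_le_two_pow
      calc 2 ^ n * (2 ^ (n + 1) - 1) + 2 ^ n = 2 ^ n * ((2 ^ (n + 1) - 1) + 1) := by ring
        _ = 2 ^ n * 2 ^ (n + 1) := by rw [Nat.sub_add_cancel h5]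
        _ = 2 * (2 ^ n) ^ 2 := by ring
    omega
  have hfix := fixed (X := Spg (Cfsg.Agent.Lib.ClIso.sympForm (Fin (n + 1)) F) ⧸ H) isSymp_sympForm h2 n
    (by omega) hV TU_eq_top hX ?_
  · rw [Subgroup.eq_top_iff']
    intro g
    have h5 := hfix (QuotientGroup.mk 1) g
    have h6 : (QuotientGroup.mk (g * 1) : Spg (Cfsg.Agent.Lib.ClIso.sympForm (Fin (n + 1)) F) ⧸ H) = QuotientGroup.mk 1 := h5
    rw [QuotientGroup.eq] at h6
    simpa using h6
  · -- the vectors
    have i0 : (⟨0, by omega⟩ : Fin (n + 1)) ≠ ⟨1, by omega⟩ := by simp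
    have i1 : (⟨0, by omega⟩ : Fin (n + 1)) ≠ ⟨2, by omega⟩ := by simp
    have i2 : (⟨1, by omega⟩ : Fin (n + 1)) ≠ ⟨2, by omega⟩ := by simp
    refine ⟨Pi.single (Sum.inl ⟨0, by omega⟩) 1, Pi.single (Sum.inl ⟨1, by omega⟩) 1,
      Pi.single (Sum.inl ⟨2, by omega⟩) 1, Pi.single (Sum.inr ⟨2, by omega⟩) 1, ?_, ?_, ?_, ?_, ?_, ?_, ?_, ?_, ?_⟩
    · intro h
      have := congrFun h (Sum.inl ⟨0, by omega⟩)
      simp at this
    · intro h
      have := congrFun h (Sum.inl ⟨1, by omega⟩)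
      simp at this
    · intro h
      have := congrFun h (Sum.inl ⟨0, by omega⟩)
      rw [Pi.add_apply, Pi.single_eq_same, Pi.single_eq_of_ne (by simpa using i0)] at this
      simp at this
    · rw [sympForm_apply]
      simp
    · rw [sympForm_apply]
      simp
    · rw [sympForm_apply]
      refine Finset.sum_eq_zero fun i _ => ?_
      simp only [Pi.single_apply, Sum.inl.injEq, Sum.inr.injEq, reduceCtorEq, if_false]
      split_ifs with h h'
      · exact absurd (h.symm.trans h') i1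
      · simp
      · simp
      · simp
    · rw [sympForm_apply]
      simp
    · rw [sympForm_apply]
      refine Finset.sum_eq_zero fun i _ => ?_
      simp only [Pi.single_apply, Sum.inl.injEq, Sum.inr.injEq, reduceCtorEq, if_false]
      split_ifs with h h'
      · exact absurd (h.symm.trans h') i2
      · simp
      · simp
      · simp
    · rw [sympForm_apply]
      simp [Pi.single_apply]
      exact h2.neg 1

theorem upper {F : Type*} [Field F] [Fintype F] (hF : Fintype.card F = 2) (m : ℕ) (hm : 3 ≤ m) :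
    ∃ H : Subgroup (Spg (Cfsg.Agent.Lib.ClIso.sympForm (Fin m) F)), H.index = 2 ^ (m - 1) * (2 ^ m - 1) := by
  classical
  have h2 := two_of_card hF
  have hV : Nat.card (Fin m ⊕ Fin m → F) = (2 ^ m) ^ 2 := by
    rw [Nat.card_fun, Nat.card_eq_fintype_card, Nat.card_eq_fintype_card, Fintype.card_sum, Fintype.card_fin,
      hF, ← pow_mul]
    congr 1
    ring
  obtain ⟨H, hH⟩ := exists_index (isSymp_sympForm (l := Fin m) (F := F)) h2 m (by omega) hV
    (fun x => ∑ i : Fin m, x (Sum.inl i) * x (Sum.inr i)) (by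
      intro a b
      rw [sympForm_apply, ← Finset.sum_add_distrib, ← Finset.sum_add_distrib]
      refine Finset.sum_congr rfl fun i _ => ?_
      simp only [Pi.add_apply]
      have := h2.add_self (a (Sum.inl i) * b (Sum.inr i))
      linear_combination this) ⟨fun s => if s = Sum.inl ⟨0, by omega⟩ ∨ s = Sum.inr ⟨0, by omega⟩ then 1 else 0, by
      rw [Finset.sum_eq_single ⟨0, by omega⟩]
      · simp
      · intro i _ hi
        have : ¬ ((Sum.inl i : Fin m ⊕ Fin m) = Sum.inl ⟨0, by omega⟩ ∨ (Sum.inl i : Fin m ⊕ Fin m) = Sum.inr ⟨0, by omega⟩) := by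
          rintro (h | h)
          · exact hi (Sum.inl.inj h)
          · cases h
        simp only
        rw [if_neg this, zero_mul]
      · intro h; exact absurd (Finset.mem_univ _) h⟩
  refine ⟨H, ?_⟩
  obtain ⟨n, rfl⟩ : ∃ n, m = n + 1 := ⟨m - 1, by omega⟩
  have h5 : 1 ≤ 2 ^ (n + 1) := Nat.one_le_two_pow
  have h6 : ((2 ^ (n + 1) - 1 : ℕ) : ℤ) = 2 ^ (n + 1) - 1 := by push_cast [h5]; rfl
  have h7 : (H.index : ℤ) = ((2 ^ n * (2 ^ (n + 1) - 1) : ℕ) : ℤ) := by
    rw [Nat.cast_mul, h6]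
    push_cast
    have h8 : (2 : ℤ) * (H.index) = 2 * (2 ^ n * (2 ^ (n + 1) - 1)) := by rw [hH]; ring
    linarith
  exact_mod_cast h7

/-- Minimal index of a proper subgroup of the symplectic groups over the field with 2 elements: for m ≥ 3, every proper subgroup of Sp_2m(2) has index at least 2^(m−1)(2^m − 1), and that index is attained. -/
theorem result {F : Type*} [Field F] [Fintype F] (hF : Fintype.card F = 2) (m : ℕ) (hm : 3 ≤ m) : (∀ H : Subgroup (Cfsg.PSp m F), H ≠ ⊤ → 2 ^ (m - 1) * (2 ^ m - 1) ≤ H.index) ∧ (∃ H : Subgroup (Cfsg.PSp m F), H.index = 2 ^ (m - 1) * (2 ^ m - 1)) := by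
  classical
  let E := sympEquiv (Fin m) F
  let π : Matrix.symplecticGroup (Fin m) F →* Cfsg.PSp m F := QuotientGroup.mk' _
  have hπ : Function.Surjective π := QuotientGroup.mk'_surjective _
  let φ : Spg (Cfsg.Agent.Lib.ClIso.sympForm (Fin m) F) →* Cfsg.PSp m F := π.comp E.symm.toMonoidHom
  have hφ : Function.Surjective φ := hπ.comp E.symm.surjective
  have hker : Function.Injective φ := by
    rw [injective_iff_map_eq_one]
    intro g hg
    have h1 : E.symm g ∈ Subgroup.center (Matrix.symplecticGroup (Fin m) F) := by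
      have : π (E.symm g) = 1 := hg
      rwa [QuotientGroup.mk'_apply, QuotientGroup.eq_one_iff] at this
    have h2 : g ∈ Subgroup.center (Spg (Cfsg.Agent.Lib.ClIso.sympForm (Fin m) F)) := by
      rw [Subgroup.mem_center_iff] at h1 ⊢
      intro h
      have := h1 (E.symm h)
      rw [← map_mul, ← map_mul] at this
      exact E.symm.injective this
    haveI : NeZero m := ⟨by omega⟩
    haveI : Nontrivial (Fin m ⊕ Fin m → F) := ⟨⟨fun _ => 0, fun _ => 1, fun h => by
      have := congrFun h (Sum.inl ⟨0, by omega⟩)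
      exact zero_ne_one this⟩⟩
    obtain ⟨c, hc⟩ := (mem_center_iff isSymp_sympForm g).1 h2
    have h3 := scalar_sq (isSymp_sympForm (l := Fin m) (F := F)) hc
    have h4 : c = 1 := by
      rcases two_of_card hF c with h | h
      · rw [h] at h3; simp at h3
      · exact h
    apply Spg_ext
    intro x
    rw [hc, h4, one_smul]; rfl
  have hcard : ∀ H : Subgroup (Cfsg.PSp m F), (H.comap φ).index = H.index := fun H =>
    H.index_comap_of_surjective hφ
  constructor
  · intro H hH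
    rw [← hcard]
    apply lower hF m hm
    intro h
    apply hH
    rw [← Subgroup.map_comap_eq_self_of_surjective hφ H, h, ← MonoidHom.range_eq_map]
    exact MonoidHom.range_eq_top.2 hφ
  · obtain ⟨H, hH⟩ := upper hF m hm
    refine ⟨H.map φ, ?_⟩
    rw [← hcard, Subgroup.comap_map_eq_self_of_injective hker, hH]

end Cfsg.Agent.S2142
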