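import Mathlib
import Cfsg.Statements.S2146
import Cfsg.Agent.Lib.TriL

set_option autoImplicit false
open Cfsg

namespace Cfsg.Agent.S2146

/-- Minimal index of a proper subgroup of the even-dimensional orthogonal groups of plus type over the field with 2 elements: for m ≥ 4, every proper subgroup of Ω⁺_2m(2) (for the form Σ xᵢyᵢ) has index at least 2^(m−1)(2^m − 1), and that index is attained. -/
theorem result {F : Type*} [Field F] [Fintype F] (hF : Fintype.card F = 2) (m : ℕ) (hm : 4 ≤ m) : (∀ H : Subgroup (Cfsg.POmega F (Cfsg.quadFormPlus m F)), H ≠ ⊤ → 2 ^ (m - 1) * (2 ^ m - 1) ≤ H.index) ∧ (∃ H : Subgroup (Cfsg.POmega F (Cfsg.quadFormPlus m F)), H.index = 2 ^ (m - 1) * (2 ^ m - 1)) := by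
  exact Cfsg.Agent.Lib.Coop.plus2_main hF hm

end Cfsg.Agent.S2146
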