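import Cfsg.Statements.S2150
import Cfsg.Agent.Lib.MinUQ
import Cfsg.Agent.Lib.MinWL

set_option autoImplicit false
open Cfsg

namespace Cfsg.Agent.S2150

open Cfsg.Agent.Lib.MinU Cfsg.Agent.Lib.UnTrans Cfsg.Agent.Lib.SubfUn Cfsg.Agent.Lib.UnBridge

theorem key {F : Type*} [Field F] [Fintype F] (q : ℕ) (hF : Fintype.card F = q ^ 2) (hq : 2 ≤ q) :
    Nat.card (IPt (F := F) (hermForm 4 F q)) = (q ^ 2 + 1) * (q ^ 3 + 1) := by
  have h1 := card_IPt_formula (F := F) (n := 4) (m := 3) hF rfl
  have h3 : (1 : ℤ) < (q : ℤ) ^ 2 := by exact_mod_cast Nat.one_lt_pow (n := 2) (by norm_num) (by omega)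
  have h4 : ((Nat.card (IPt (F := F) (hermForm 4 F q)) : ℤ)) = (q ^ 2 + 1) * (q ^ 3 + 1) := by
    have h5 : ((q : ℤ) ^ 2 - 1) ≠ 0 := by omega
    apply mul_right_cancel₀ h5
    rw [h1]; ring
  exact_mod_cast h4

/-- Minimal index of a proper subgroup of the four-dimensional unitary groups: for a field F with q² elements, every proper subgroup of PSU₄(q) has index at least (q + 1)(q³ + 1), and that index is attained. -/
theorem result {F : Type*} [Field F] [Fintype F] (q : ℕ) (hF : Fintype.card F = q ^ 2) (hq : 2 ≤ q) : (∀ H : Subgroup (Cfsg.PSU 4 F q), H ≠ ⊤ → (q + 1) * (q ^ 3 + 1) ≤ H.index) ∧ (∃ H : Subgroup (Cfsg.PSU 4 F q), H.index = (q + 1) * (q ^ 3 + 1)) := by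
  have hG : Glob4 (sig hF) (hermForm 4 F q) :=
    ⟨herm_HS 4 hF, herm_nd 4 hF, inferInstance, by rw [Module.finrank_fin_fun]⟩
  have hI := key (F := F) q hF hq
  have hc := card_EE_sig (F := F) hF
  have hL := hG.card_LN (by rw [hc]; exact hI)
  rw [hc] at hL
  constructor
  · intro H hH
    obtain ⟨M, hM, hidx, hne⟩ := psu_pull hH
    rw [SUg_eq hF (by norm_num)] at hM hidx hne
    rw [← hidx]
    have h1 := hG.main (by rw [hc]; exact hI) (by rw [hc]; exact hL) hM hne
    rw [hc] at h1
    exact h1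
  · have hU : 0 < Nat.card (LN (sig hF) (hermForm 4 F q)) := by rw [hL]; positivity
    obtain ⟨⟨_, e, a, T, rfl⟩⟩ := (Nat.card_pos_iff.1 hU).1
    obtain ⟨H, hH⟩ := psu_push (n := 4) hF (by norm_num) (stU (Submodule.span F {e, a})) (by
      rintro g ⟨c, hc⟩
      have hc0 : c ≠ 0 := by
        rintro rfl
        have h2 := hc e
        rw [zero_smul] at h2
        exact T.e0 ((LinearEquiv.map_eq_zero_iff g).1 h2)
      rw [mem_stU, map_pair, hc, hc]
      apply le_antisymm
      · rw [Submodule.span_le]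
        rintro z (rfl | rfl)
        · exact Submodule.smul_mem _ _ (Submodule.subset_span (by simp))
        · exact Submodule.smul_mem _ _ (Submodule.subset_span (by simp))
      · rw [Submodule.span_le]
        have h3 : ∀ z : Fin 4 → F, c • z ∈ Submodule.span F {c • e, c • a} → z ∈ Submodule.span F {c • e, c • a} := by
          intro z hz
          have := Submodule.smul_mem _ c⁻¹ hz
          rwa [smul_smul, inv_mul_cancel₀ hc0, one_smul] at this
        rintro z (rfl | rfl)
        · exact h3 _ (Submodule.subset_span (by simp))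
        · exact h3 _ (Submodule.subset_span (by simp)))
    refine ⟨H, ?_⟩
    rw [hH, SUg_eq hF (by norm_num), hG.relIndex_stU T, hL]

end Cfsg.Agent.S2150
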