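import Cfsg.Statements.S2151
import Cfsg.Agent.Lib.MinUQ
import Cfsg.Agent.Lib.MinVH

set_option autoImplicit false

open Cfsg

namespace Cfsg.Agent.S2151

open Cfsg.Agent.Lib.MinU Cfsg.Agent.Lib.UnTrans Cfsg.Agent.Lib.SubfUn Cfsg.Agent.Lib.UnBridge

theorem key {F : Type*} [Field F] [Fintype F] (q : ℕ) (hF : Fintype.card F = q ^ 2) (hq : 2 ≤ q) (n : ℕ) (hn : 5 ≤ n)
    (hodd : Odd n) : (q ^ n + 1) * (q ^ (n - 1) - 1) = Nat.card (IPt (F := F) (hermForm n F q)) * (q ^ 2 - 1) ∧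
    (q ^ n + 1) * (q ^ (n - 1) - 1) / (q ^ 2 - 1) = Nat.card (IPt (F := F) (hermForm n F q)) := by
  have h1 := card_IPt_formula (F := F) (n := n) (m := n - 1) hF (by omega)
  rw [hodd.neg_one_pow] at h1
  have h2 : 1 ≤ q ^ (n - 1) := Nat.one_le_pow _ _ (by omega)
  have h3 : 1 < q ^ 2 := Nat.one_lt_pow (by norm_num) (by omega)
  have h4 : (q ^ n + 1) * (q ^ (n - 1) - 1) = Nat.card (IPt (F := F) (hermForm n F q)) * (q ^ 2 - 1) := by
    zify [h2, h3.le]
    linear_combination -h1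
  refine ⟨h4, ?_⟩
  rw [h4]
  exact Nat.mul_div_cancel _ (by omega)

theorem result {F : Type*} [Field F] [Fintype F] (q : ℕ) (hF : Fintype.card F = q ^ 2) (hq : 2 ≤ q) (n : ℕ) (hn : 5 ≤ n) (hodd : Odd n) : (∀ H : Subgroup (Cfsg.PSU n F q), H ≠ ⊤ → (q ^ n + 1) * (q ^ (n - 1) - 1) / (q ^ 2 - 1) ≤ H.index) ∧ (∃ H : Subgroup (Cfsg.PSU n F q), H.index = (q ^ n + 1) * (q ^ (n - 1) - 1) / (q ^ 2 - 1)) := by
  obtain ⟨hk1, hk2⟩ := key q hF hq n hn hodd
  rw [hk2]
  by_cases hn5 : n = 5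
  · subst hn5
    have hG : Glob5 (sig hF) (hermForm 5 F q) :=
      ⟨herm_HS 5 hF, herm_nd 5 hF, inferInstance, by rw [Module.finrank_fin_fun]⟩
    constructor
    · intro H hH
      obtain ⟨M, hM, hidx, hne⟩ := psu_pull hH
      rw [SUg_eq hF (by norm_num)] at hM hidx hne
      rw [← hidx]
      exact hG.main hM hne
    · obtain ⟨e, -, -, hee, y, -, -, hey⟩ := hG.hs.exists_hyp hG.nd hG.d4 (Submodule.zero_mem _)
      have he0 : e ≠ 0 := by rintro rfl; rw [hG.hs.zero_left] at hey; exact hey rfl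
      obtain ⟨H, hH⟩ := psu_push (n := 5) hF (by norm_num) (stL e) (fun g hg => scalar_mem_stL e he0 g hg)
      refine ⟨H, ?_⟩
      rw [hH, SUg_eq hF (by norm_num)]
      exact hG.relIndex_stL he0 hee
  · have hn7 : 7 ≤ n := by
      obtain ⟨k, hk⟩ := hodd
      omega
    have hG := glob (n := n) hF (by omega)
    constructor
    · intro H hH
      obtain ⟨M, hM, hidx, hne⟩ := psu_pull hH
      rw [SUg_eq hF (by omega)] at hM hidx hne
      rw [← hidx]
      rcases hG.main hM hne with h | ⟨hq2, V1, hV1, hk, h⟩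
      · exact h
      · rw [card_EE_sig hF] at hq2
        subst hq2
        obtain ⟨m, hm⟩ : ∃ m, n = m + 2 := ⟨n - 2, by omega⟩
        have hfr : Module.finrank F V1 = m := by
          rw [Module.finrank_fin_fun] at hk; omega
        have h1 := (cnt_formula hG.hs m V1 hV1 hfr).1
        have hodd' : Odd m := by
          rw [hm] at hodd
          obtain ⟨k, hk⟩ := hodd
          exact ⟨k - 1, by omega⟩
        rw [hodd'.neg_one_pow, card_EE_sig hF] at h1
        have h2 := card_ON hG.hs V1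
        have h3 : Nat.card V1 = 2 ^ (2 * m) := by
          rw [Module.natCard_eq_pow_finrank (K := F), Nat.card_eq_fintype_card, hF, hfr, pow_mul]
        rw [h3] at h h2
        have h4 : (2 ^ n + 1) * (2 ^ (n - 1) - 1) ≤ 3 * M.relIndex (tgrp hG.hs ⊤) := by
          refine le_trans ?_ h
          have e0 : n - 1 = m + 1 := by omega
          have e00 : (2 ^ n + 1) * (2 ^ (n - 1) - 1) = (2 ^ (m + 2) + 1) * (2 ^ (m + 1) - 1) := by rw [e0, hm]
          rw [e00]
          have e1 : 1 ≤ 2 ^ (m + 1) := Nat.one_le_pow _ _ (by omega)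
          zify [e1]
          have h5 : (Nat.card (ON (hermForm n F 2) V1) : ℤ) + cnt (hermForm n F 2) V1 0 = 2 ^ (2 * m) := by
            exact_mod_cast h2
          have e2 : (2 : ℤ) ^ (2 * m) = 2 ^ m * 2 ^ m := by rw [two_mul, pow_add]
          have e3 : (2 : ℤ) ^ (m + 2) = 4 * 2 ^ m := by rw [pow_add]; ring
          have e4 : (2 : ℤ) ^ (m + 1) = 2 * 2 ^ m := by rw [pow_succ]; ring
          have e5 : (0 : ℤ) < 2 ^ m := by positivity
          push_cast at h1
          rw [e2] at h1 h5 ⊢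
          rw [e3, e4]
          linarith
        rw [hk1] at h4
        omega
    · obtain ⟨e, -, -, hee, y, -, -, hey⟩ := hG.hs.exists_hyp hG.nd hG.d4 (Submodule.zero_mem _)
      have he0 : e ≠ 0 := by rintro rfl; rw [hG.hs.zero_left] at hey; exact hey rfl
      obtain ⟨H, hH⟩ := psu_push (n := n) hF (by omega) (stL e) (fun g hg => scalar_mem_stL e he0 g hg)
      refine ⟨H, ?_⟩
      rw [hH, SUg_eq hF (by omega)]
      exact hG.relIndex_stL he0 hee

end Cfsg.Agent.S2151
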