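import Cfsg.Statements.S2152
import Cfsg.Agent.Lib.MinUQ

set_option autoImplicit false

open Cfsg

namespace Cfsg.Agent.S2152

open Cfsg.Agent.Lib.MinU Cfsg.Agent.Lib.UnTrans Cfsg.Agent.Lib.SubfUn Cfsg.Agent.Lib.UnBridge

theorem key {F : Type*} [Field F] [Fintype F] (q : ℕ) (hF : Fintype.card F = q ^ 2) (hq : 3 ≤ q) (n : ℕ) (hn : 6 ≤ n)
    (heven : Even n) : (q ^ n - 1) * (q ^ (n - 1) + 1) / (q ^ 2 - 1) = Nat.card (IPt (F := F) (hermForm n F q)) := by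
  have h1 := card_IPt_formula (F := F) (n := n) (m := n - 1) hF (by omega)
  rw [heven.neg_one_pow] at h1
  have h2 : 1 ≤ q ^ n := Nat.one_le_pow _ _ (by omega)
  have h3 : 1 < q ^ 2 := Nat.one_lt_pow (by norm_num) (by omega)
  have h4 : (q ^ n - 1) * (q ^ (n - 1) + 1) = Nat.card (IPt (F := F) (hermForm n F q)) * (q ^ 2 - 1) := by
    zify [h2, h3.le]
    exact h1.symm
  rw [h4]
  exact Nat.mul_div_cancel _ (by omega)

theorem result {F : Type*} [Field F] [Fintype F] (q : ℕ) (hF : Fintype.card F = q ^ 2) (hq : 3 ≤ q) (n : ℕ) (hn : 6 ≤ n) (heven : Even n) : (∀ H : Subgroup (Cfsg.PSU n F q), H ≠ ⊤ → (q ^ n - 1) * (q ^ (n - 1) + 1) / (q ^ 2 - 1) ≤ H.index) ∧ (∃ H : Subgroup (Cfsg.PSU n F q), H.index = (q ^ n - 1) * (q ^ (n - 1) + 1) / (q ^ 2 - 1)) := by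
  rw [key q hF hq n hn heven]
  have hG := glob (n := n) hF hn
  constructor
  · intro H hH
    obtain ⟨M, hM, hidx, hne⟩ := psu_pull hH
    rw [SUg_eq hF (by omega)] at hM hidx hne
    rw [← hidx]
    rcases hG.main hM hne with h | ⟨h, -⟩
    · exact h
    · rw [card_EE_sig hF] at h
      omega
  · obtain ⟨e, -, -, hee, y, -, -, hey⟩ := hG.hs.exists_hyp hG.nd hG.d4 (Submodule.zero_mem _)
    have he0 : e ≠ 0 := by rintro rfl; rw [hG.hs.zero_left] at hey; exact hey rfl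
    obtain ⟨H, hH⟩ := psu_push (n := n) hF (by omega) (stL e) (fun g hg => scalar_mem_stL e he0 g hg)
    refine ⟨H, ?_⟩
    rw [hH, SUg_eq hF (by omega)]
    exact hG.relIndex_stL he0 hee

end Cfsg.Agent.S2152
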