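import Cfsg.Statements.S2153
import Cfsg.Agent.Lib.MinUQ

set_option autoImplicit false

open Cfsg

namespace Cfsg.Agent.S2153

open Cfsg.Agent.Lib.MinU Cfsg.Agent.Lib.UnTrans Cfsg.Agent.Lib.SubfUn Cfsg.Agent.Lib.UnBridge

theorem key {F : Type*} [Field F] [Fintype F] (hF : Fintype.card F = 2 ^ 2) (n : ℕ) (hn : 6 ≤ n)
    (heven : Even n) : 3 * Nat.card (PtC F (hermForm n F 2) 1) = 2 ^ (n - 1) * (2 ^ n - 1) := by
  have H := herm_HS n hF
  have h1 := card_PtC_one (F := F) H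
  rw [card_EE_sig hF] at h1
  have h2 := (cnt_top (n := n) hF).2
  rw [heven.neg_one_pow] at h2
  obtain ⟨m, rfl⟩ : ∃ m, n = m + 1 := ⟨n - 1, by omega⟩
  have h3 : 1 ≤ 2 ^ (m + 1) := Nat.one_le_pow _ _ (by omega)
  rw [Nat.add_sub_cancel]
  zify [h3]
  have h4 : (Nat.card (PtC F (hermForm (m + 1) F 2) 1) : ℤ) * (2 + 1) = cnt (hermForm (m + 1) F 2) (⊤ : Submodule F (Fin (m + 1) → F)) 1 := by
    exact_mod_cast h1
  have e1 : (2 : ℤ) ^ (2 * (m + 1)) = 2 ^ (m + 1) * 2 ^ (m + 1) := by rw [two_mul, pow_add]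
  have e2 : (2 : ℤ) ^ (m + 1) = 2 * 2 ^ m := by rw [pow_succ]; ring
  push_cast at h2
  rw [e1, e2] at h2
  rw [e2]
  apply mul_left_cancel₀ (show (2 : ℤ) ≠ 0 by norm_num)
  linear_combination 2 * h4 + h2

theorem result {F : Type*} [Field F] [Fintype F] (hF : Fintype.card F = 4) (n : ℕ) (hn : 6 ∣ n) (hpos : 6 ≤ n) : (∀ H : Subgroup (Cfsg.PSU n F 2), H ≠ ⊤ → 2 ^ (n - 1) * (2 ^ n - 1) / 3 ≤ H.index) ∧ (∃ H : Subgroup (Cfsg.PSU n F 2), H.index = 2 ^ (n - 1) * (2 ^ n - 1) / 3) := by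
  have hF' : Fintype.card F = 2 ^ 2 := by rw [hF]; norm_num
  have heven : Even n := by
    obtain ⟨k, rfl⟩ := hn
    exact ⟨3 * k, by ring⟩
  have hkey := key hF' n hpos heven
  have hG := glob (n := n) hF' hpos
  have hgoal : 2 ^ (n - 1) * (2 ^ n - 1) / 3 = Nat.card (PtC F (hermForm n F 2) 1) := by
    rw [← hkey]; exact Nat.mul_div_cancel_left _ (by norm_num)
  constructor
  · intro H hH
    obtain ⟨M, hM, hidx, hne⟩ := psu_pull hH
    rw [SUg_eq hF' (by omega)] at hM hidx hne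
    rw [← hidx]
    obtain ⟨m, hm⟩ : ∃ m, n = m + 2 := ⟨n - 2, by omega⟩
    rcases hG.main hM hne with h | ⟨-, V1, hV1, hk, h⟩
    · refine le_trans ?_ h
      have h1 := card_IPt_formula (F := F) (n := n) (m := n - 1) hF' (by omega)
      rw [heven.neg_one_pow] at h1
      have h2 : 1 ≤ 2 ^ n := Nat.one_le_pow _ _ (by omega)
      have h4 : (2 ^ n - 1) * (2 ^ (n - 1) + 1) = Nat.card (IPt (F := F) (hermForm n F 2)) * 3 := by
        zify [h2]
        push_cast at h1
        linear_combination -h1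
      have h5 : 2 ^ (n - 1) * (2 ^ n - 1) ≤ Nat.card (IPt (F := F) (hermForm n F 2)) * 3 := by
        rw [← h4, mul_comm]
        exact Nat.mul_le_mul_left _ (by omega)
      omega
    · have hfr : Module.finrank F V1 = m := by
        rw [Module.finrank_fin_fun] at hk; omega
      have h1 := (cnt_formula hG.hs m V1 hV1 hfr).1
      have heven' : Even m := by
        rw [hm] at heven
        exact (Nat.even_add.1 heven).2 (by norm_num)
      rw [heven'.neg_one_pow, card_EE_sig hF'] at h1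
      have h2 := card_ON hG.hs V1
      have h3 : Nat.card V1 = 2 ^ (2 * m) := by
        rw [Module.natCard_eq_pow_finrank (K := F), Nat.card_eq_fintype_card, hF', hfr, pow_mul]
      rw [h3] at h h2
      have h4 : 2 ^ (n - 1) * (2 ^ n - 1) ≤ 3 * M.relIndex (tgrp hG.hs ⊤) := by
        refine le_trans ?_ h
        have e0 : n - 1 = m + 1 := by omega
        have e00 : 2 ^ (n - 1) * (2 ^ n - 1) = 2 ^ (m + 1) * (2 ^ (m + 2) - 1) := by rw [e0, hm]
        rw [e00]
        have e1 : 1 ≤ 2 ^ (m + 2) := Nat.one_le_pow _ _ (by omega)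
        zify [e1]
        have h5 : (Nat.card (ON (hermForm n F 2) V1) : ℤ) + cnt (hermForm n F 2) V1 0 = 2 ^ (2 * m) := by
          exact_mod_cast h2
        have e2 : (2 : ℤ) ^ (2 * m) = 2 ^ m * 2 ^ m := by rw [two_mul, pow_add]
        have e3 : (2 : ℤ) ^ (m + 2) = 4 * 2 ^ m := by rw [pow_add]; ring
        have e4 : (2 : ℤ) ^ (m + 1) = 2 * 2 ^ m := by rw [pow_succ]; ring
        push_cast at h1
        rw [e2] at h1 h5 ⊢
        rw [e3, e4]
        linarith
      omega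
  · obtain ⟨z, -, -, hzz, y, -, -, hzy⟩ := hG.hs.exists_hyp hG.nd hG.d4 (Submodule.zero_mem _)
    obtain ⟨a, ha⟩ := hG.hs.exists_add_norm (u := y) hzz hzy (map_one _)
    set e := y + a • z with he
    have he0 : e ≠ 0 := by intro h; rw [h, hG.hs.zero_left] at ha; exact zero_ne_one ha
    obtain ⟨H, hH⟩ := psu_push (n := n) hF' (by omega) (stL e) (fun g hg => scalar_mem_stL e he0 g hg)
    refine ⟨H, ?_⟩
    rw [hH, SUg_eq hF' (by omega), hgoal, relIndex_pt (herm_HS n hF') (herm_nd n hF')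
      (by rw [Module.finrank_fin_fun]; omega) he0, ha]

end Cfsg.Agent.S2153
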