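import Cfsg.Statements.S2158
import Cfsg.Agent.Lib.ChevStd
import Cfsg.Agent.Lib.ChevChar

set_option autoImplicit false
open Cfsg
open Cfsg.Agent.Lib.ChevRel Cfsg.Agent.Lib.ChevU Cfsg.Agent.Lib.ChevStd Cfsg.Agent.Lib.ChevChar

namespace Cfsg.Agent.S2158

/-- In a Chevalley group of type G₂, B₂, D₄, F₄, E₆, E₇ or E₈ over any field, an element of the group whose matrix is the diagonal matrix `ĥ(χ)` of a character `χ` of the root lattice already lies in the diagonal subgroup H (the non-trivial inclusion of the statement that the group meets the group of all such diagonal matrices in H). -/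
theorem result {F : Type*} [Field F] (D : Cfsg.Lie.ChevalleyDatum) (hD : D ∈ [Cfsg.Lie.chevG2, Cfsg.Lie.chevB2, Cfsg.Lie.chevD4, Cfsg.Lie.chevF4, Cfsg.Lie.chevE6, Cfsg.Lie.chevE7, Cfsg.Lie.chevE8]) (χ : ℕ → Fˣ) (hχ : D.IsRootCharacter χ) (g : GL D.Idx F) (hg : g ∈ D.group F)
    (hgχ : (g : Matrix D.Idx D.Idx F) = D.charDiag F χ) : g ∈ D.diagonalSubgroup F := by
  obtain ⟨G⟩ := Cfsg.Agent.Lib.ChevRel.good_of_mem hD
  have hc : ∀ (r : ℕ), r < D.nroots → ∀ t : F, g * xg D F r t * g⁻¹ = xg D F r ((χ r : F) * t) := by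
    intro r hr t
    rw [mul_inv_eq_iff_eq_mul]
    apply Units.ext
    rw [Units.val_mul, Units.val_mul, coe_xg G, coe_xg G, hgχ]
    exact charDiag_mul_x G hχ hr t
  refine mem_H_of_conj G hg ?_ ?_
  · intro u hu
    rw [posUnipotent_eq G] at hu ⊢
    refine conj_XS_mem (fun s hs u => ?_) hu
    rw [hc s hs.1]
    exact xg_mem_XS hs _
  · intro u hu
    rw [negUnipotent_eq G] at hu ⊢
    refine conj_XS_mem (fun s hs u => ?_) hu
    rw [hc s hs.1]
    exact xg_mem_XS hs _


end Cfsg.Agent.S2158
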