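import Cfsg.Statements.S2160
import Cfsg.Agent.Lib.ChevAuto
import Cfsg.Agent.Lib.ChevU
import Cfsg.Prelude.Def_ChevAutomorphisms

set_option autoImplicit false
open Cfsg
open Cfsg.Agent.Lib Cfsg.Agent.Lib.ChevRel Cfsg.Agent.Lib.ChevU

namespace Cfsg.Agent.S2160

/-- In a Chevalley group of type G₂, B₂, D₄, F₄, E₆, E₇ or E₈ over a finite field, every field automorphism commutes with every graph automorphism. -/
theorem result {F : Type*} [Field F] [Finite F] (D : Cfsg.Lie.ChevalleyDatum) (hD : D ∈ [Cfsg.Lie.chevG2, Cfsg.Lie.chevB2, Cfsg.Lie.chevD4, Cfsg.Lie.chevF4, Cfsg.Lie.chevE6, Cfsg.Lie.chevE7, Cfsg.Lie.chevE8]) (f g : ↥(D.group F) ≃* ↥(D.group F))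
    (hf : D.IsFieldAut f) (hg : D.IsGraphAut g) (y : ↥(D.group F)) : f (g y) = g (f y) := by
  obtain ⟨G⟩ := Cfsg.Agent.Lib.ChevRel.good_of_mem hD
  obtain ⟨σ, hσ⟩ := hf
  obtain ⟨π, hπ, hg⟩ := hg
  have key : (D.group F) ≤ ((MonoidHom.eqLocus (f.toMonoidHom.comp g.toMonoidHom) (g.toMonoidHom.comp f.toMonoidHom)).map
      (D.group F).subtype) := by
    conv_lhs => rw [ChevAuto.group_eq_simple G]
    rw [Subgroup.closure_le]
    rintro y ⟨i, hi, t, hy⟩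
    rcases hy with rfl | rfl
    · refine ⟨⟨xg D F (D.simple i) t, ChevAuto.xg_mem G _ _⟩, ?_, rfl⟩
      show f (g _) = g (f _)
      have h1 := (hg ⟨xg D F (D.simple i) t, ChevAuto.xg_mem G _ _⟩ ⟨i, hi⟩ t).1 (coe_xg G _ _)
      have h2 := hσ ⟨xg D F (D.simple i) t, ChevAuto.xg_mem G _ _⟩ (D.simple i) t (G.simple_lt i hi) (coe_xg G _ _)
      have h3 := hσ _ _ _ (G.simple_lt _ (π ⟨i, hi⟩).2) h1
      have h4 := (hg _ ⟨i, hi⟩ _).1 h2
      apply Subtype.ext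
      apply Units.ext
      rw [h3, h4, map_pow]
    · refine ⟨⟨xg D F (D.neg (D.simple i)) t, ChevAuto.xg_mem G _ _⟩, ?_, rfl⟩
      show f (g _) = g (f _)
      have h1 := (hg ⟨xg D F (D.neg (D.simple i)) t, ChevAuto.xg_mem G _ _⟩ ⟨i, hi⟩ t).2 (coe_xg G _ _)
      have h2 := hσ ⟨xg D F (D.neg (D.simple i)) t, ChevAuto.xg_mem G _ _⟩ (D.neg (D.simple i)) t
        (neg_lt G (G.simple_lt i hi)) (coe_xg G _ _)
      have h3 := hσ _ _ _ (neg_lt G (G.simple_lt _ (π ⟨i, hi⟩).2)) h1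
      have h4 := (hg _ ⟨i, hi⟩ _).2 h2
      apply Subtype.ext
      apply Units.ext
      rw [h3, h4, map_pow]
  obtain ⟨z, hz, hz'⟩ := key y.2
  have : z = y := Subtype.ext hz'
  rw [← this]
  exact hz


end Cfsg.Agent.S2160
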