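import Cfsg.Statements.S2298
import Cfsg.Agent.Lib.GL2Ps

set_option autoImplicit false
open Cfsg

namespace Cfsg.Agent.S2298

open Cfsg.Agent.Lib.GL2Ps

/-- Over a finite field F with q elements, every irreducible complex character of GL₂ has degree 1, q − 1, q or q + 1; and when q ≥ 3 (so that these four numbers are distinct) there are exactly q − 1 irreducible characters of degree 1, exactly q − 1 of degree q, exactly (q − 1)(q − 2)/2 of degree q + 1 and exactly q(q − 1)/2 of degree q − 1. -/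
theorem result {F : Type*} [Field F] [Fintype F] :
    (∀ χ : Matrix.GeneralLinearGroup (Fin 2) F → ℂ, Cfsg.IsIrrCharacter (Matrix.GeneralLinearGroup (Fin 2) F) χ →
      χ 1 = 1 ∨ χ 1 = (Fintype.card F : ℂ) - 1 ∨ χ 1 = (Fintype.card F : ℂ) ∨ χ 1 = (Fintype.card F : ℂ) + 1) ∧
    (3 ≤ Fintype.card F →
      Nat.card {χ : Cfsg.IrrCharacter (Matrix.GeneralLinearGroup (Fin 2) F) // (χ : Matrix.GeneralLinearGroup (Fin 2) F → ℂ) 1 = 1} = Fintype.card F - 1 ∧
      Nat.card {χ : Cfsg.IrrCharacter (Matrix.GeneralLinearGroup (Fin 2) F) // (χ : Matrix.GeneralLinearGroup (Fin 2) F → ℂ) 1 = (Fintype.card F : ℂ)} = Fintype.card F - 1 ∧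
      Nat.card {χ : Cfsg.IrrCharacter (Matrix.GeneralLinearGroup (Fin 2) F) // (χ : Matrix.GeneralLinearGroup (Fin 2) F → ℂ) 1 = (Fintype.card F : ℂ) + 1} = (Fintype.card F - 1) * (Fintype.card F - 2) / 2 ∧
      Nat.card {χ : Cfsg.IrrCharacter (Matrix.GeneralLinearGroup (Fin 2) F) // (χ : Matrix.GeneralLinearGroup (Fin 2) F → ℂ) 1 = (Fintype.card F : ℂ) - 1} = Fintype.card F * (Fintype.card F - 1) / 2) := by
  classical
  have hqn : (Fintype.card F : ℂ) = ((Nat.card F : ℤ) : ℂ) := by rw [Nat.card_eq_fintype_card]; simp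
  have hqn' : Fintype.card F = Nat.card F := by rw [Nat.card_eq_fintype_card]
  rw [hqn, hqn']
  constructor
  · intro χ hχ
    rcases degree_cases hχ with ⟨-, h⟩ | ⟨-, h⟩ | ⟨-, h⟩ | ⟨-, h⟩ <;> rw [h] <;> push_cast
    · exact Or.inl rfl
    · exact Or.inr (Or.inr (Or.inl rfl))
    · exact Or.inr (Or.inr (Or.inr rfl))
    · exact Or.inr (Or.inl rfl)
  · intro hq
    have key : ∀ χ : Cfsg.IrrCharacter (Matrix.GeneralLinearGroup (Fin 2) F),
        ((χ : Matrix.GeneralLinearGroup (Fin 2) F → ℂ) 1 = 1 ↔ PL (χ : Matrix.GeneralLinearGroup (Fin 2) F → ℂ)) ∧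
        ((χ : Matrix.GeneralLinearGroup (Fin 2) F → ℂ) 1 = ((Nat.card F : ℤ) : ℂ) ↔ PS (χ : Matrix.GeneralLinearGroup (Fin 2) F → ℂ)) ∧
        ((χ : Matrix.GeneralLinearGroup (Fin 2) F → ℂ) 1 = ((Nat.card F : ℤ) : ℂ) + 1 ↔ PP (χ : Matrix.GeneralLinearGroup (Fin 2) F → ℂ)) ∧
        ((χ : Matrix.GeneralLinearGroup (Fin 2) F → ℂ) 1 = ((Nat.card F : ℤ) : ℂ) - 1 ↔ PC (χ : Matrix.GeneralLinearGroup (Fin 2) F → ℂ)) := by
      intro χ
      have c1 : (1 : ℂ) = ((1 : ℤ) : ℂ) := by push_cast; rfl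
      have c2 : ((Nat.card F : ℤ) : ℂ) + 1 = (((Nat.card F : ℤ) + 1 : ℤ) : ℂ) := by push_cast; rfl
      have c3 : ((Nat.card F : ℤ) : ℂ) - 1 = (((Nat.card F : ℤ) - 1 : ℤ) : ℂ) := by push_cast; rfl
      have dL : PL (χ : Matrix.GeneralLinearGroup (Fin 2) F → ℂ) →
          (χ : Matrix.GeneralLinearGroup (Fin 2) F → ℂ) 1 = ((1 : ℤ) : ℂ) := by
        rintro ⟨α, h⟩; rw [h, lin_one]; simp
      have dS : PS (χ : Matrix.GeneralLinearGroup (Fin 2) F → ℂ) →
          (χ : Matrix.GeneralLinearGroup (Fin 2) F → ℂ) 1 = ((Nat.card F : ℤ) : ℂ) := by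
        rintro ⟨α, h⟩; rw [h, St_one]; simp
      have dP : PP (χ : Matrix.GeneralLinearGroup (Fin 2) F → ℂ) →
          (χ : Matrix.GeneralLinearGroup (Fin 2) F → ℂ) 1 = (((Nat.card F : ℤ) + 1 : ℤ) : ℂ) := by
        rintro ⟨α, β, -, h⟩; rw [h, ps_one]; simp
      have dC : PC (χ : Matrix.GeneralLinearGroup (Fin 2) F → ℂ) →
          (χ : Matrix.GeneralLinearGroup (Fin 2) F → ℂ) 1 = (((Nat.card F : ℤ) - 1 : ℤ) : ℂ) := by
        intro h; rw [PC_degree χ.2 h]; simp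
      rw [c2, c3]
      rw [show ((1 : ℂ)) = ((1 : ℤ) : ℂ) from c1]
      refine ⟨⟨?_, dL⟩, ⟨?_, dS⟩, ⟨?_, dP⟩, ⟨?_, dC⟩⟩ <;> intro h <;>
        rcases degree_cases χ.2 with ⟨h', h''⟩ | ⟨h', h''⟩ | ⟨h', h''⟩ | ⟨h', h''⟩ <;>
        first
        | exact h'
        | (exfalso; rw [h''] at h; have h3 := Int.cast_injective h; omega)
    refine ⟨?_, ?_, ?_, ?_⟩
    · rw [← card_PL]
      exact Nat.card_congr (Equiv.subtypeEquivRight (fun χ => (key χ).1))
    · rw [← card_PS]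
      exact Nat.card_congr (Equiv.subtypeEquivRight (fun χ => (key χ).2.1))
    · rw [← card_PP, Nat.mul_div_cancel_left _ two_pos]
      exact Nat.card_congr (Equiv.subtypeEquivRight (fun χ => (key χ).2.2.1))
    · have h1 := card_PC_cast (F := F)
      have h2 : 2 * Nat.card {χ : Cfsg.IrrCharacter (Matrix.GeneralLinearGroup (Fin 2) F) //
          PC (χ : Matrix.GeneralLinearGroup (Fin 2) F → ℂ)} = Nat.card F * (Nat.card F - 1) := by
        have h3 : 1 ≤ Nat.card F := by omega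
        have h4 : ((2 * Nat.card {χ : Cfsg.IrrCharacter (Matrix.GeneralLinearGroup (Fin 2) F) //
          PC (χ : Matrix.GeneralLinearGroup (Fin 2) F → ℂ)} : ℕ) : ℂ) = ((Nat.card F * (Nat.card F - 1) : ℕ) : ℂ) := by
          push_cast [Nat.cast_sub h3]
          exact h1
        exact_mod_cast h4
      rw [← h2, Nat.mul_div_cancel_left _ two_pos]
      exact Nat.card_congr (Equiv.subtypeEquivRight (fun χ => (key χ).2.2.2))

end Cfsg.Agent.S2298
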