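import Cfsg.Statements.S2299
import Cfsg.Agent.Lib.SL2Count

set_option autoImplicit false
open Cfsg

namespace Cfsg.Agent.S2299

open Cfsg.Agent.Lib.SL2Basic Cfsg.Agent.Lib.SL2Tori Cfsg.Agent.Lib.SL2Int Cfsg.Agent.Lib.SL2Ind Cfsg.Agent.Lib.SL2Ortho Cfsg.Agent.Lib.SL2Class Cfsg.Agent.Lib.SL2Vals Cfsg.Agent.Lib.SL2Deg Cfsg.Agent.Lib.LinChar Cfsg.Agent.Lib.CharBasic Cfsg.Agent.Lib.SL2Count

/-- Over a finite field F with q elements, q odd, every irreducible complex character of SL₂ has degree 1, q, q + 1, q − 1, (q + 1)/2 or (q − 1)/2; and when q ≥ 5 (so that these six numbers are distinct) there are exactly one irreducible character of degree 1, one of degree q, (q − 3)/2 of degree q + 1, (q − 1)/2 of degree q − 1, two of degree (q + 1)/2 and two of degree (q − 1)/2. -/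
theorem result {F : Type*} [Field F] [Fintype F] (hodd : Odd (Fintype.card F)) :
    (∀ χ : Matrix.SpecialLinearGroup (Fin 2) F → ℂ, Cfsg.IsIrrCharacter (Matrix.SpecialLinearGroup (Fin 2) F) χ →
      χ 1 = 1 ∨ χ 1 = (Fintype.card F : ℂ) ∨ χ 1 = (Fintype.card F : ℂ) + 1 ∨ χ 1 = (Fintype.card F : ℂ) - 1 ∨
        χ 1 = (((Fintype.card F + 1) / 2 : ℕ) : ℂ) ∨ χ 1 = (((Fintype.card F - 1) / 2 : ℕ) : ℂ)) ∧
    (5 ≤ Fintype.card F →
      Nat.card {χ : Cfsg.IrrCharacter (Matrix.SpecialLinearGroup (Fin 2) F) // (χ : Matrix.SpecialLinearGroup (Fin 2) F → ℂ) 1 = 1} = 1 ∧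
      Nat.card {χ : Cfsg.IrrCharacter (Matrix.SpecialLinearGroup (Fin 2) F) // (χ : Matrix.SpecialLinearGroup (Fin 2) F → ℂ) 1 = (Fintype.card F : ℂ)} = 1 ∧
      Nat.card {χ : Cfsg.IrrCharacter (Matrix.SpecialLinearGroup (Fin 2) F) // (χ : Matrix.SpecialLinearGroup (Fin 2) F → ℂ) 1 = (Fintype.card F : ℂ) + 1} = (Fintype.card F - 3) / 2 ∧
      Nat.card {χ : Cfsg.IrrCharacter (Matrix.SpecialLinearGroup (Fin 2) F) // (χ : Matrix.SpecialLinearGroup (Fin 2) F → ℂ) 1 = (Fintype.card F : ℂ) - 1} = (Fintype.card F - 1) / 2 ∧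
      Nat.card {χ : Cfsg.IrrCharacter (Matrix.SpecialLinearGroup (Fin 2) F) // (χ : Matrix.SpecialLinearGroup (Fin 2) F → ℂ) 1 = (((Fintype.card F + 1) / 2 : ℕ) : ℂ)} = 2 ∧
      Nat.card {χ : Cfsg.IrrCharacter (Matrix.SpecialLinearGroup (Fin 2) F) // (χ : Matrix.SpecialLinearGroup (Fin 2) F → ℂ) 1 = (((Fintype.card F - 1) / 2 : ℕ) : ℂ)} = 2) := by
  classical
  have hqn : Nat.card F = Fintype.card F := Nat.card_eq_fintype_card
  have hq' : (Nat.card F : ℂ) = (Fintype.card F : ℂ) := by rw [hqn]
  have hoddn : Odd (Nat.card F) := by rw [hqn]; exact hodd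
  obtain ⟨k, hk⟩ := hodd
  obtain ⟨A₀, h0⟩ := exists_isEll (F := F)
  have hcyc := C_cyclic h0
  -- the two characters of order two
  have hα : ∃ α : MulChar F ℂ, α ^ 2 = 1 ∧ α ≠ 1 ∧ ∀ β : MulChar F ℂ, β ^ 2 = 1 → β ≠ 1 → β = α := by
    have h := card_mulChar_sq_one hoddn
    rw [Nat.card_eq_two_iff] at h
    obtain ⟨⟨a, ha⟩, ⟨b, hb⟩, hab, huniv⟩ := h
    have hall : ∀ β : MulChar F ℂ, β ^ 2 = 1 → β = a ∨ β = b := by
      intro β hβ
      have : (⟨β, hβ⟩ : {α : MulChar F ℂ // α ^ 2 = 1}) ∈ (Set.univ : Set _) := Set.mem_univ _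
      rw [← huniv] at this
      rcases this with h | h
      · exact Or.inl (congrArg Subtype.val h)
      · exact Or.inr (congrArg Subtype.val h)
    have hab' : a ≠ b := fun h => hab (Subtype.ext h)
    rcases hall 1 (by simp) with h1 | h1
    · refine ⟨b, hb, fun h => hab' (by rw [← h1, h]), fun β hβ hβ1 => ?_⟩
      rcases hall β hβ with h | h
      · exact absurd (h.trans h1.symm) hβ1
      · exact h
    · refine ⟨a, ha, fun h => hab' (by rw [← h1, h]), fun β hβ hβ1 => ?_⟩
      rcases hall β hβ with h | h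
      · exact h
      · exact absurd (h.trans h1.symm) hβ1
  obtain ⟨α₀, hα2, hα1, hαu⟩ := hα
  have hθ : ∃ θ : Subgroup.centralizer ({A₀} : Set (Matrix.SpecialLinearGroup (Fin 2) F)) →* ℂˣ,
      θ ^ 2 = 1 ∧ θ ≠ 1 := by
    have h : Nat.card {θ : Subgroup.centralizer ({A₀} : Set (Matrix.SpecialLinearGroup (Fin 2) F)) →* ℂˣ //
      θ ^ 2 = 1} = 2 := by
      apply card_sq_one_even
      rw [C_card h0]
      exact ⟨k + 1, by omega⟩
    rw [Nat.card_eq_two_iff] at h
    obtain ⟨⟨a, ha⟩, ⟨b, hb⟩, hab, _⟩ := h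
    by_cases h1 : a = 1
    · exact ⟨b, hb, fun h => hab (Subtype.ext (h1.trans h.symm))⟩
    · exact ⟨a, ha, h1⟩
  obtain ⟨θ₀, hθ2, hθ1⟩ := hθ
  have hθu : ∀ θ : Subgroup.centralizer ({A₀} : Set (Matrix.SpecialLinearGroup (Fin 2) F)) →* ℂˣ,
      θ ^ 2 = 1 → θ ≠ 1 → θ = θ₀ := fun θ h h1 => sq_one_unique h hθ2 h1 hθ1
  constructor
  · intro χ hχ
    obtain ⟨d, hd, hcases⟩ := classify' h0 hχ
    rw [hd, ← hq']
    rcases hcases with h | h | h | h | h | h
    · left; rw [h.2]; norm_num
    · right; left; rw [h.2]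
    · right; right; left; rw [h.2]; push_cast; ring
    · right; right; right; left
      rw [← h.2]; push_cast; ring
    · right; right; right; right; left
      have : d = (Fintype.card F + 1) / 2 := by omega
      rw [this]
    · right; right; right; right; right
      have : d = (Fintype.card F - 1) / 2 := by omega
      rw [this]
  · intro h5
    refine ⟨?_, ?_, ?_, ?_, ?_, ?_⟩
    · rw [Nat.card_eq_one_iff_unique]
      refine ⟨⟨?_⟩, ⟨⟨⟨1, isIrrCharacter_one⟩, rfl⟩⟩⟩
      have key : ∀ χ : Matrix.SpecialLinearGroup (Fin 2) F → ℂ, IsIrrCharacter _ χ → χ 1 = 1 → χ = 1 := by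
        intro χ hχ h1
        obtain ⟨d, hd, hcases⟩ := classify' h0 hχ
        have hd1 : d = 1 := by rw [hd] at h1; exact_mod_cast h1
        rcases hcases with h | h | h | h | h | h
        · exact h.1
        all_goals omega
      rintro ⟨⟨a, ha⟩, ha1⟩ ⟨⟨b, hb⟩, hb1⟩
      apply Subtype.ext
      apply Subtype.ext
      simp only
      rw [key a ha ha1, key b hb hb1]
    · rw [Nat.card_eq_one_iff_unique]
      refine ⟨⟨?_⟩, ⟨⟨⟨St, St_isIrr⟩, by simp only; rw [St_one, hq']⟩⟩⟩
      rintro ⟨⟨a, ha⟩, ha1⟩ ⟨⟨b, hb⟩, hb1⟩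
      apply Subtype.ext
      apply Subtype.ext
      simp only at ha1 hb1 ⊢
      rw [eq_St_of_deg ha (by rw [ha1, hq']), eq_St_of_deg hb (by rw [hb1, hq'])]
    · have h5 := card_ps (F := F)
      rw [card_alpha_odd hoddn] at h5
      have h6 : Nat.card {χ : IrrCharacter (Matrix.SpecialLinearGroup (Fin 2) F) //
          (χ : Matrix.SpecialLinearGroup (Fin 2) F → ℂ) 1 = (Fintype.card F : ℂ) + 1} =
          Nat.card {χ : IrrCharacter (Matrix.SpecialLinearGroup (Fin 2) F) //
            ∃ α : MulChar F ℂ, α ^ 2 ≠ 1 ∧ (χ : Matrix.SpecialLinearGroup (Fin 2) F → ℂ) = R α} := by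
        apply Nat.card_congr
        apply Equiv.subtypeEquivRight
        rintro ⟨χ, hχ⟩
        simp only
        constructor
        · intro h1
          obtain ⟨d, hd, hcases⟩ := classify' h0 hχ
          have hd1 : d = Nat.card F + 1 := by rw [hd, ← hq'] at h1; exact_mod_cast h1
          rcases hcases with h | h | h | h | h | h
          · omega
          · omega
          · exact h.1
          all_goals omega
        · rintro ⟨α, hα, rfl⟩
          rw [R_one, hq']
      rw [h6]; omega
    · have h5 := card_cusp (F := F) h0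
      rw [card_theta_odd h0 hoddn] at h5
      have h6 : Nat.card {χ : IrrCharacter (Matrix.SpecialLinearGroup (Fin 2) F) //
          (χ : Matrix.SpecialLinearGroup (Fin 2) F → ℂ) 1 = (Fintype.card F : ℂ) - 1} =
          Nat.card {χ : IrrCharacter (Matrix.SpecialLinearGroup (Fin 2) F) //
            ∃ θ : Subgroup.centralizer ({A₀} : Set (Matrix.SpecialLinearGroup (Fin 2) F)) →* ℂˣ,
              θ ^ 2 ≠ 1 ∧ (χ : Matrix.SpecialLinearGroup (Fin 2) F → ℂ) = cusp θ} := by
        apply Nat.card_congr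
        apply Equiv.subtypeEquivRight
        rintro ⟨χ, hχ⟩
        simp only
        constructor
        · intro h1
          obtain ⟨d, hd, hcases⟩ := classify' h0 hχ
          have hd1 : d + 1 = Nat.card F := by
            rw [hd, ← hq'] at h1
            have : (d : ℂ) + 1 = Nat.card F := by linear_combination h1
            exact_mod_cast this
          rcases hcases with h | h | h | h | h | h
          · omega
          · omega
          · omega
          · exact h.1
          · omega
          · omega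
        · rintro ⟨α, hα, rfl⟩
          rw [cusp_one _ h0, hq']
      rw [h6]; omega
    · refine Eq.trans ?_ (card_half_ps hα2)
      apply Nat.card_congr
      apply Equiv.subtypeEquivRight
      rintro ⟨χ, hχ⟩
      simp only
      constructor
      · intro h1
        obtain ⟨d, hd, hcases⟩ := classify' h0 hχ
        have hd1 : d = (Fintype.card F + 1) / 2 := by
          rw [hd] at h1; exact_mod_cast h1
        rcases hcases with h | h | h | h | h | h
        · omega
        · omega
        · omega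
        · omega
        · obtain ⟨⟨α, h1, h2, h3⟩, _⟩ := h
          rw [hαu α h1 h2] at h3
          exact h3
        · omega
      · intro h1
        have h2 := (half_ps h0 hχ hα2 hα1 h1).2.1
        obtain ⟨d, hd0, hd⟩ := hχ.exists_degree
        rw [hd] at h2 ⊢
        have h3 : 2 * d = Nat.card F + 1 := by exact_mod_cast h2
        have h4 : d = (Fintype.card F + 1) / 2 := by omega
        rw [h4]
    · refine Eq.trans ?_ (card_half_cusp h0 hθ2 hθ1)
      apply Nat.card_congr
      apply Equiv.subtypeEquivRight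
      rintro ⟨χ, hχ⟩
      simp only
      constructor
      · intro h1
        obtain ⟨d, hd, hcases⟩ := classify' h0 hχ
        have hd1 : d = (Fintype.card F - 1) / 2 := by
          rw [hd] at h1; exact_mod_cast h1
        rcases hcases with h | h | h | h | h | h
        · omega
        · omega
        · omega
        · omega
        · omega
        · obtain ⟨⟨α, h1, h2, h3⟩, _⟩ := h
          rw [hθu α h1 h2] at h3
          exact h3
      · intro h1
        have h2 := (half_cusp h0 hχ hθ2 hθ1 h1).2.1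
        obtain ⟨d, hd0, hd⟩ := hχ.exists_degree
        rw [hd] at h2 ⊢
        have h3' : 2 * (d : ℂ) + 1 = Nat.card F := by linear_combination h2
        have h3 : 2 * d + 1 = Nat.card F := by exact_mod_cast h3'
        have h4 : d = (Fintype.card F - 1) / 2 := by omega
        rw [h4]

end Cfsg.Agent.S2299
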