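import Cfsg.Statements.S2300
import Cfsg.Agent.Lib.SL2Count

set_option autoImplicit false
open Cfsg

namespace Cfsg.Agent.S2300

open Cfsg.Agent.Lib.SL2Basic Cfsg.Agent.Lib.SL2Tori Cfsg.Agent.Lib.SL2Int Cfsg.Agent.Lib.SL2Ind Cfsg.Agent.Lib.SL2Ortho Cfsg.Agent.Lib.SL2Class Cfsg.Agent.Lib.SL2Vals Cfsg.Agent.Lib.SL2Deg Cfsg.Agent.Lib.LinChar Cfsg.Agent.Lib.CharBasic Cfsg.Agent.Lib.SL2Count

/-- Over a finite field F with q elements, q even, every irreducible complex character of SL₂ has degree 1, q − 1, q or q + 1; and when q ≥ 4 (so that these four numbers are distinct) there are exactly one irreducible character of degree 1, one of degree q, (q − 2)/2 of degree q + 1 and q/2 of degree q − 1. -/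
theorem result {F : Type*} [Field F] [Fintype F] [CharP F 2] :
    (∀ χ : Matrix.SpecialLinearGroup (Fin 2) F → ℂ, Cfsg.IsIrrCharacter (Matrix.SpecialLinearGroup (Fin 2) F) χ →
      χ 1 = 1 ∨ χ 1 = (Fintype.card F : ℂ) - 1 ∨ χ 1 = (Fintype.card F : ℂ) ∨ χ 1 = (Fintype.card F : ℂ) + 1) ∧
    (4 ≤ Fintype.card F →
      Nat.card {χ : Cfsg.IrrCharacter (Matrix.SpecialLinearGroup (Fin 2) F) // (χ : Matrix.SpecialLinearGroup (Fin 2) F → ℂ) 1 = 1} = 1 ∧
      Nat.card {χ : Cfsg.IrrCharacter (Matrix.SpecialLinearGroup (Fin 2) F) // (χ : Matrix.SpecialLinearGroup (Fin 2) F → ℂ) 1 = (Fintype.card F : ℂ)} = 1 ∧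
      Nat.card {χ : Cfsg.IrrCharacter (Matrix.SpecialLinearGroup (Fin 2) F) // (χ : Matrix.SpecialLinearGroup (Fin 2) F → ℂ) 1 = (Fintype.card F : ℂ) + 1} = (Fintype.card F - 2) / 2 ∧
      Nat.card {χ : Cfsg.IrrCharacter (Matrix.SpecialLinearGroup (Fin 2) F) // (χ : Matrix.SpecialLinearGroup (Fin 2) F → ℂ) 1 = (Fintype.card F : ℂ) - 1} = Fintype.card F / 2) := by
  classical
  have hqn : Nat.card F = Fintype.card F := Nat.card_eq_fintype_card
  have hq' : (Nat.card F : ℂ) = (Fintype.card F : ℂ) := by rw [hqn]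
  have h20 : (2 : F) = 0 := CharTwo.two_eq_zero
  have hev : Even (Nat.card F) := by
    rw [hqn]
    by_contra h
    rw [Nat.not_even_iff_odd] at h
    exact two_ne_zero_of_odd h h20
  obtain ⟨A₀, h0⟩ := exists_isEll (F := F)
  have hnoα : ∀ α : MulChar F ℂ, ¬ (α ^ 2 = 1 ∧ α ≠ 1) := fun α h => h.2 (mulChar_sq_one_even hev h.1)
  have hoddC : Odd (Nat.card (Subgroup.centralizer ({A₀} : Set (Matrix.SpecialLinearGroup (Fin 2) F)))) := by
    rw [C_card h0]
    obtain ⟨k, hk⟩ := hev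
    exact ⟨k, by omega⟩
  have hnoθ : ∀ θ : Subgroup.centralizer ({A₀} : Set (Matrix.SpecialLinearGroup (Fin 2) F)) →* ℂˣ,
      ¬ (θ ^ 2 = 1 ∧ θ ≠ 1) := fun θ h => h.2 (sq_eq_one_odd hoddC h.1)
  have hcl : ∀ χ : Matrix.SpecialLinearGroup (Fin 2) F → ℂ, IsIrrCharacter _ χ → ∃ d : ℕ, χ 1 = d ∧
      ((χ = 1 ∧ d = 1) ∨ (χ = St ∧ d = Nat.card F) ∨
    ((∃ α : MulChar F ℂ, α ^ 2 ≠ 1 ∧ χ = R α) ∧ d = Nat.card F + 1) ∨
    ((∃ θ : Subgroup.centralizer ({A₀} : Set (Matrix.SpecialLinearGroup (Fin 2) F)) →* ℂˣ,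
      θ ^ 2 ≠ 1 ∧ χ = cusp θ) ∧ d + 1 = Nat.card F)) := by
    intro χ hχ
    obtain ⟨d, hd, hcases⟩ := classify' h0 hχ
    refine ⟨d, hd, ?_⟩
    rcases hcases with h | h | h | h | h | h
    · exact Or.inl h
    · exact Or.inr (Or.inl h)
    · exact Or.inr (Or.inr (Or.inl h))
    · exact Or.inr (Or.inr (Or.inr h))
    · obtain ⟨⟨α, h1, h2, _⟩, _⟩ := h
      exact absurd ⟨h1, h2⟩ (hnoα α)
    · obtain ⟨⟨α, h1, h2, _⟩, _⟩ := h
      exact absurd ⟨h1, h2⟩ (hnoθ α)
  constructor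
  · intro χ hχ
    obtain ⟨d, hd, hcases⟩ := hcl χ hχ
    rw [hd, ← hq']
    rcases hcases with h | h | h | h
    · left; rw [h.2]; norm_num
    · right; right; left; rw [h.2]
    · right; right; right; rw [h.2]; push_cast; ring
    · right; left
      rw [← h.2]; push_cast; ring
  · intro h4
    rw [← hqn] at h4
    refine ⟨?_, ?_, ?_, ?_⟩
    · rw [Nat.card_eq_one_iff_unique]
      refine ⟨⟨?_⟩, ⟨⟨⟨1, isIrrCharacter_one⟩, rfl⟩⟩⟩
      have key : ∀ χ : Matrix.SpecialLinearGroup (Fin 2) F → ℂ, IsIrrCharacter _ χ → χ 1 = 1 → χ = 1 := by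
        intro χ hχ h1
        obtain ⟨d, hd, hcases⟩ := hcl χ hχ
        have hd1 : d = 1 := by rw [hd] at h1; exact_mod_cast h1
        rcases hcases with h | h | h | h
        · exact h.1
        · omega
        · omega
        · omega
      rintro ⟨⟨a, ha⟩, ha1⟩ ⟨⟨b, hb⟩, hb1⟩
      apply Subtype.ext
      apply Subtype.ext
      simp only
      rw [key a ha ha1, key b hb hb1]
    · rw [Nat.card_eq_one_iff_unique]
      refine ⟨⟨?_⟩, ⟨⟨⟨St, St_isIrr⟩, by simp only; rw [St_one, hq']⟩⟩⟩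
      rintro ⟨⟨a, ha⟩, ha1⟩ ⟨⟨b, hb⟩, hb1⟩
      apply Subtype.ext
      apply Subtype.ext
      simp only at ha1 hb1 ⊢
      rw [eq_St_of_deg ha (by rw [ha1, hq']), eq_St_of_deg hb (by rw [hb1, hq'])]
    · have h5 := card_ps (F := F)
      rw [card_alpha_even hev] at h5
      have h6 : Nat.card {χ : IrrCharacter (Matrix.SpecialLinearGroup (Fin 2) F) //
          (χ : Matrix.SpecialLinearGroup (Fin 2) F → ℂ) 1 = (Fintype.card F : ℂ) + 1} =
          Nat.card {χ : IrrCharacter (Matrix.SpecialLinearGroup (Fin 2) F) //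
            ∃ α : MulChar F ℂ, α ^ 2 ≠ 1 ∧ (χ : Matrix.SpecialLinearGroup (Fin 2) F → ℂ) = R α} := by
        apply Nat.card_congr
        apply Equiv.subtypeEquivRight
        rintro ⟨χ, hχ⟩
        simp only
        constructor
        · intro h1
          obtain ⟨d, hd, hcases⟩ := hcl χ hχ
          have hd1 : d = Nat.card F + 1 := by rw [hd, ← hq'] at h1; exact_mod_cast h1
          rcases hcases with h | h | h | h
          · omega
          · omega
          · exact h.1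
          · omega
        · rintro ⟨α, hα, rfl⟩
          rw [R_one, hq']
      rw [h6, ← hqn]; omega
    · have h5 := card_cusp (F := F) h0
      rw [card_theta_even h0 hev] at h5
      have h6 : Nat.card {χ : IrrCharacter (Matrix.SpecialLinearGroup (Fin 2) F) //
          (χ : Matrix.SpecialLinearGroup (Fin 2) F → ℂ) 1 = (Fintype.card F : ℂ) - 1} =
          Nat.card {χ : IrrCharacter (Matrix.SpecialLinearGroup (Fin 2) F) //
            ∃ θ : Subgroup.centralizer ({A₀} : Set (Matrix.SpecialLinearGroup (Fin 2) F)) →* ℂˣ,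
              θ ^ 2 ≠ 1 ∧ (χ : Matrix.SpecialLinearGroup (Fin 2) F → ℂ) = cusp θ} := by
        apply Nat.card_congr
        apply Equiv.subtypeEquivRight
        rintro ⟨χ, hχ⟩
        simp only
        constructor
        · intro h1
          obtain ⟨d, hd, hcases⟩ := hcl χ hχ
          have hd1 : d + 1 = Nat.card F := by
            rw [hd, ← hq'] at h1
            have : (d : ℂ) + 1 = Nat.card F := by linear_combination h1
            exact_mod_cast this
          rcases hcases with h | h | h | h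
          · omega
          · omega
          · omega
          · exact h.1
        · rintro ⟨α, hα, rfl⟩
          rw [cusp_one _ h0, hq']
      rw [h6, ← hqn]; omega

end Cfsg.Agent.S2300
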