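import Cfsg.Statements.S2301
import Cfsg.Agent.Lib.SL2Unip
import Cfsg.Agent.Lib.ClSL2

set_option autoImplicit false
open Cfsg

namespace Cfsg.Agent.S2301

open Cfsg.Agent.Lib

theorem card_sq_one {F : Type*} [Field F] [Fintype F] (h2 : (2 : F) ≠ 0) :
    Nat.card {s : F // s * s = 1} = 2 := by
  rw [Nat.card_eq_two_iff]
  refine ⟨⟨1, one_mul 1⟩, ⟨-1, by ring⟩, ?_, ?_⟩
  · intro h
    have := congrArg Subtype.val h
    apply h2
    simp only at this
    linear_combination this
  · ext ⟨s, hs⟩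
    simp only [Set.mem_insert_iff, Set.mem_singleton_iff, Set.mem_univ, iff_true, Subtype.mk.injEq]
    have : (s - 1) * (s + 1) = 0 := by linear_combination hs
    rcases mul_eq_zero.1 this with h | h
    · exact Or.inl (sub_eq_zero.1 h)
    · exact Or.inr (eq_neg_of_add_eq_zero_left h)

/-- Over a finite field with q elements of odd characteristic p, the elements of order p of SL₂ (the non-identity unipotent elements) fall into exactly two conjugacy classes, each of size (q² − 1)/2; two upper unitriangular matrices with non-zero off-diagonal entries b and b′ are conjugate exactly when bb′ is a square. -/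
theorem result {F : Type*} [Field F] [Fintype F] (p : ℕ) [Fact p.Prime] [CharP F p] (hp : p ≠ 2) :
    Nat.card {C : ConjClasses (Matrix.SpecialLinearGroup (Fin 2) F) // ∃ g : Matrix.SpecialLinearGroup (Fin 2) F, orderOf g = p ∧ ConjClasses.mk g = C} = 2 ∧
    (∀ g : Matrix.SpecialLinearGroup (Fin 2) F, orderOf g = p → Nat.card (ConjClasses.mk g).carrier = (Fintype.card F ^ 2 - 1) / 2) ∧
    ∀ g h : Matrix.SpecialLinearGroup (Fin 2) F, (g : Matrix (Fin 2) (Fin 2) F) 0 0 = 1 → (g : Matrix (Fin 2) (Fin 2) F) 1 1 = 1 → (g : Matrix (Fin 2) (Fin 2) F) 1 0 = 0 → (g : Matrix (Fin 2) (Fin 2) F) 0 1 ≠ 0 →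
      (h : Matrix (Fin 2) (Fin 2) F) 0 0 = 1 → (h : Matrix (Fin 2) (Fin 2) F) 1 1 = 1 → (h : Matrix (Fin 2) (Fin 2) F) 1 0 = 0 → (h : Matrix (Fin 2) (Fin 2) F) 0 1 ≠ 0 →
      (IsConj g h ↔ IsSquare ((g : Matrix (Fin 2) (Fin 2) F) 0 1 * (h : Matrix (Fin 2) (Fin 2) F) 0 1)) := by
  classical
  have hchar : ringChar F ≠ 2 := by rwa [ringChar.eq F p]
  have h20 : (2 : F) ≠ 0 := Ring.two_ne_zero hchar
  have hord : ∀ b : F, b ≠ 0 → orderOf (SL2Unip.up b) = p := by
    intro b hb
    rw [SL2Unip.orderOf_eq_char_iff p]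
    refine ⟨fun h => hb ?_, ?_⟩
    · rw [← SL2Unip.up_zero] at h
      exact SL2Unip.up_inj h
    · rw [SL2Unip.coe_up]
      simp
      norm_num
  refine ⟨?_, ?_, ?_⟩
  · obtain ⟨ν, hν⟩ := FiniteField.exists_nonsquare (F := F) hchar
    have hν0 : ν ≠ 0 := by
      rintro rfl
      exact hν IsSquare.zero
    rw [Nat.card_eq_two_iff]
    refine ⟨⟨ConjClasses.mk (SL2Unip.up 1), _, hord 1 one_ne_zero, rfl⟩,
      ⟨ConjClasses.mk (SL2Unip.up ν), _, hord ν hν0, rfl⟩, ?_, ?_⟩
    · intro h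
      have := congrArg Subtype.val h
      simp only at this
      rw [ConjClasses.mk_eq_mk_iff_isConj, SL2Unip.isConj_up_iff one_ne_zero hν0, one_mul] at this
      exact hν this
    · ext ⟨C, g, hg, rfl⟩
      simp only [Set.mem_insert_iff, Set.mem_singleton_iff, Set.mem_univ, iff_true, Subtype.mk.injEq]
      obtain ⟨hg1, hg2⟩ := (SL2Unip.orderOf_eq_char_iff p g).1 hg
      obtain ⟨b, hb, hgb⟩ := SL2Unip.exists_conj_up g hg1 hg2
      rw [ConjClasses.mk_eq_mk_iff_isConj, ConjClasses.mk_eq_mk_iff_isConj]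
      by_cases hsq : IsSquare b
      · left
        exact hgb.trans ((SL2Unip.isConj_up_iff hb one_ne_zero).2 (by rwa [mul_one]))
      · right
        refine hgb.trans ((SL2Unip.isConj_up_iff hb hν0).2 ?_)
        rw [← quadraticChar_one_iff_isSquare (mul_ne_zero hb hν0), map_mul,
          (quadraticChar_neg_one_iff_not_isSquare).2 hsq, (quadraticChar_neg_one_iff_not_isSquare).2 hν]
        norm_num
  · intro g hg
    obtain ⟨hg1, hg2⟩ := (SL2Unip.orderOf_eq_char_iff p g).1 hg
    obtain ⟨b, hb, hgb⟩ := SL2Unip.exists_conj_up g hg1 hg2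
    have h1 : ConjClasses.mk g = ConjClasses.mk (SL2Unip.up b) := ConjClasses.mk_eq_mk_iff_isConj.2 hgb
    rw [h1]
    have h2 := SL2Unip.card_carrier_mul_centralizer (SL2Unip.up b)
    rw [SL2Unip.card_centralizer_up hb, ClSL2.card_SL2 rfl, Nat.card_eq_fintype_card (α := F), card_sq_one h20] at h2
    have h3 : Nat.card (ConjClasses.mk (SL2Unip.up b)).carrier * 2 = Fintype.card F ^ 2 - 1 := by
      apply Nat.eq_of_mul_eq_mul_left (Fintype.card_pos (α := F))
      rw [← h2]; ring
    omega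
  · intro g h h00 h11 h10 h01 k00 k11 k10 k01
    have hg := SL2Unip.eq_up h00 h11 h10
    have hh := SL2Unip.eq_up k00 k11 k10
    have := SL2Unip.isConj_up_iff h01 k01
    rw [← hg, ← hh] at this
    exact this

end Cfsg.Agent.S2301
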