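import Cfsg.Statements.S2302
import Cfsg.Agent.Lib.SL2Unip
import Cfsg.Agent.Lib.ClSL2

set_option autoImplicit false
open Cfsg

namespace Cfsg.Agent.S2302

open Cfsg.Agent.Lib

/-- Over a finite field with q elements of characteristic 2, the involutions of SL₂ (the non-identity unipotent elements) form a single conjugacy class, of size q² − 1. -/
theorem result {F : Type*} [Field F] [Fintype F] [CharP F 2] (g h : Matrix.SpecialLinearGroup (Fin 2) F) (hg : orderOf g = 2) (hh : orderOf h = 2) :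
    IsConj g h ∧ Nat.card (ConjClasses.mk g).carrier = Fintype.card F ^ 2 - 1 := by
  have : Fact (Nat.Prime 2) := ⟨Nat.prime_two⟩
  obtain ⟨hg1, hg2⟩ := (SL2Unip.orderOf_eq_char_iff 2 g).1 hg
  obtain ⟨hh1, hh2⟩ := (SL2Unip.orderOf_eq_char_iff 2 h).1 hh
  obtain ⟨b, hb, hgb⟩ := SL2Unip.exists_conj_up g hg1 hg2
  obtain ⟨c, hc, hhc⟩ := SL2Unip.exists_conj_up h hh1 hh2
  have hsq : IsSquare (b * c) := FiniteField.isSquare_of_char_two (ringChar.eq F 2) _
  refine ⟨hgb.trans (((SL2Unip.isConj_up_iff hb hc).2 hsq).trans hhc.symm), ?_⟩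
  have h1 : ConjClasses.mk g = ConjClasses.mk (SL2Unip.up b) := ConjClasses.mk_eq_mk_iff_isConj.2 hgb
  rw [h1]
  have h2 := SL2Unip.card_carrier_mul_centralizer (SL2Unip.up b)
  rw [SL2Unip.card_centralizer_up hb, ClSL2.card_SL2 rfl, Nat.card_eq_fintype_card (α := F)] at h2
  have h3 : Nat.card {s : F // s * s = 1} = 1 := by
    rw [Nat.card_eq_one_iff_unique]
    refine ⟨⟨?_⟩, ⟨⟨1, one_mul 1⟩⟩⟩
    rintro ⟨a, ha⟩ ⟨b, hb⟩
    have key : ∀ x : F, x * x = 1 → x = 1 := by
      intro x hx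
      have h0 : (x - 1) ^ 2 = 0 := by
        have h2 : (2 : F) = 0 := CharTwo.two_eq_zero
        linear_combination hx - (x - 1) * h2
      exact sub_eq_zero.1 (pow_eq_zero_iff two_ne_zero |>.1 h0)
    exact Subtype.ext ((key a ha).trans (key b hb).symm)
  rw [h3, one_mul, mul_comm] at h2
  exact Nat.eq_of_mul_eq_mul_left Fintype.card_pos h2

end Cfsg.Agent.S2302
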