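import Cfsg.Statements.S2303

set_option autoImplicit false
open Cfsg

namespace Cfsg.Agent.S2303

open Matrix

theorem mem_cent {F : Type*} [Field F] (g h : GL (Fin 2) F) :
    h ∈ Subgroup.centralizer ({g} : Set (GL (Fin 2) F)) ↔
      (h : Matrix (Fin 2) (Fin 2) F) * (g : Matrix (Fin 2) (Fin 2) F) = (g : Matrix (Fin 2) (Fin 2) F) * h := by
  rw [Subgroup.mem_centralizer_iff]
  constructor
  · intro H
    have := H g rfl
    have := congrArg Units.val this
    simpa using this.symm
  · intro H y hy
    rw [Set.mem_singleton_iff] at hy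
    subst hy
    apply Units.ext
    simpa using H.symm

theorem first {F : Type*} [Field F] [Fintype F] (g : Matrix.GeneralLinearGroup (Fin 2) F)
    (h01 : (g : Matrix (Fin 2) (Fin 2) F) 0 1 = 0) (h10 : (g : Matrix (Fin 2) (Fin 2) F) 1 0 = 0)
    (hne : (g : Matrix (Fin 2) (Fin 2) F) 0 0 ≠ (g : Matrix (Fin 2) (Fin 2) F) 1 1) :
    Nat.card (Subgroup.centralizer ({g} : Set (Matrix.GeneralLinearGroup (Fin 2) F))) = (Fintype.card F - 1) ^ 2 := by
  classical
  let f : Fˣ × Fˣ → Subgroup.centralizer ({g} : Set (Matrix.GeneralLinearGroup (Fin 2) F)) := fun p =>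
    ⟨Matrix.GeneralLinearGroup.mkOfDetNeZero !![(p.1 : F), 0; 0, (p.2 : F)] (by simp [Matrix.det_fin_two]), by
      rw [mem_cent]
      ext i j
      fin_cases i <;> fin_cases j <;> simp [Matrix.GeneralLinearGroup.mkOfDetNeZero, Matrix.mul_apply, Fin.sum_univ_two, h01, h10, mul_comm]⟩
  have hf : Function.Bijective f := by
    constructor
    · intro p q hpq
      have h1 := congrArg (fun x : Subgroup.centralizer ({g} : Set (Matrix.GeneralLinearGroup (Fin 2) F)) => ((x : GL (Fin 2) F) : Matrix (Fin 2) (Fin 2) F)) hpq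
      have h2 := congrFun (congrFun h1 0) 0
      have h3 := congrFun (congrFun h1 1) 1
      simp [f, Matrix.GeneralLinearGroup.mkOfDetNeZero] at h2 h3
      exact Prod.ext (Units.ext h2) (Units.ext h3)
    · rintro ⟨h, hh⟩
      rw [mem_cent] at hh
      have e01 := congrFun (congrFun hh 0) 1
      have e10 := congrFun (congrFun hh 1) 0
      simp only [Matrix.mul_apply, Fin.sum_univ_two, h01, h10] at e01 e10
      have k01 : (h : Matrix (Fin 2) (Fin 2) F) 0 1 = 0 := by
        have : (h : Matrix (Fin 2) (Fin 2) F) 0 1 * ((g : Matrix (Fin 2) (Fin 2) F) 1 1 - (g : Matrix (Fin 2) (Fin 2) F) 0 0) = 0 := by linear_combination e01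
        exact (mul_eq_zero.1 this).resolve_right (sub_ne_zero.2 hne.symm)
      have k10 : (h : Matrix (Fin 2) (Fin 2) F) 1 0 = 0 := by
        have : (h : Matrix (Fin 2) (Fin 2) F) 1 0 * ((g : Matrix (Fin 2) (Fin 2) F) 0 0 - (g : Matrix (Fin 2) (Fin 2) F) 1 1) = 0 := by linear_combination e10
        exact (mul_eq_zero.1 this).resolve_right (sub_ne_zero.2 hne)
      have hdet : (h : Matrix (Fin 2) (Fin 2) F).det ≠ 0 := by
        have := h.isUnit
        rw [Matrix.isUnit_iff_isUnit_det] at this
        exact this.ne_zero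
      rw [Matrix.det_fin_two, k01, zero_mul, sub_zero] at hdet
      refine ⟨(Units.mk0 _ (left_ne_zero_of_mul hdet), Units.mk0 _ (right_ne_zero_of_mul hdet)), ?_⟩
      apply Subtype.ext
      apply Units.ext
      ext i j
      fin_cases i <;> fin_cases j <;> simp [f, Matrix.GeneralLinearGroup.mkOfDetNeZero, k01, k10]
  rw [← Nat.card_congr (Equiv.ofBijective f hf), Nat.card_eq_fintype_card, Fintype.card_prod, Fintype.card_units, sq]

theorem second {F : Type*} [Field F] [Fintype F] (g : Matrix.GeneralLinearGroup (Fin 2) F)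
    (hno : ∀ (c : F) (v : Fin 2 → F), v ≠ 0 → (g : Matrix (Fin 2) (Fin 2) F).mulVec v ≠ c • v) :
    Nat.card (Subgroup.centralizer ({g} : Set (Matrix.GeneralLinearGroup (Fin 2) F))) = Fintype.card F ^ 2 - 1 := by
  classical
  set M := (g : Matrix (Fin 2) (Fin 2) F) with hM
  have hc : M 1 0 ≠ 0 := by
    intro h
    refine hno (M 0 0) ![1, 0] (fun h0 => by simpa using congrFun h0 0) ?_
    ext i
    fin_cases i <;> simp [Matrix.mulVec, dotProduct, Fin.sum_univ_two, h]
  have hdet : ∀ p : F × F, p ≠ 0 → (p.1 • (1 : Matrix (Fin 2) (Fin 2) F) + p.2 • M).det ≠ 0 := by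
    intro p hp h0
    obtain ⟨v, hv, hv'⟩ := Matrix.exists_mulVec_eq_zero_iff.2 h0
    rw [Matrix.add_mulVec, Matrix.smul_mulVec, Matrix.smul_mulVec, Matrix.one_mulVec] at hv'
    by_cases hb : p.2 = 0
    · rw [hb, zero_smul, add_zero] at hv'
      rcases smul_eq_zero.1 hv' with h | h
      · exact hp (Prod.ext h hb)
      · exact hv h
    · apply hno (-(p.2⁻¹ * p.1)) v hv
      have h1 : p.2 • M.mulVec v = - (p.1 • v) := eq_neg_of_add_eq_zero_right hv'
      have h2 : M.mulVec v = p.2⁻¹ • (p.2 • M.mulVec v) := by rw [smul_smul, inv_mul_cancel₀ hb, one_smul]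
      rw [h2, h1, neg_smul, mul_smul, smul_neg]
  let f : {p : F × F // p ≠ 0} → Subgroup.centralizer ({g} : Set (Matrix.GeneralLinearGroup (Fin 2) F)) := fun p =>
    ⟨Matrix.GeneralLinearGroup.mkOfDetNeZero _ (hdet p.1 p.2), by
      rw [mem_cent]
      change (p.1.1 • (1 : Matrix (Fin 2) (Fin 2) F) + p.1.2 • M) * M = M * (p.1.1 • (1 : Matrix (Fin 2) (Fin 2) F) + p.1.2 • M)
      simp [add_mul, mul_add]⟩
  have hf : Function.Bijective f := by
    constructor
    · intro p q hpq
      have h1 := congrArg (fun x : Subgroup.centralizer ({g} : Set (Matrix.GeneralLinearGroup (Fin 2) F)) => ((x : GL (Fin 2) F) : Matrix (Fin 2) (Fin 2) F)) hpq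
      change (p.1.1 • (1 : Matrix (Fin 2) (Fin 2) F) + p.1.2 • M) = (q.1.1 • (1 : Matrix (Fin 2) (Fin 2) F) + q.1.2 • M) at h1
      have h2 := congrFun (congrFun h1 0) 0
      have h3 := congrFun (congrFun h1 1) 0
      simp at h2 h3
      have h4 : p.1.2 = q.1.2 := by
        rcases h3 with h3 | h3
        · exact h3
        · exact absurd h3 hc
      rw [h4, add_left_inj] at h2
      exact Subtype.ext (Prod.ext h2 h4)
    · rintro ⟨h, hh⟩
      rw [mem_cent] at hh
      set N := (h : Matrix (Fin 2) (Fin 2) F) with hN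
      have e00 := congrFun (congrFun hh 0) 0
      have e10 := congrFun (congrFun hh 1) 0
      simp only [Matrix.mul_apply, Fin.sum_univ_two] at e00 e10
      rw [← hM] at e00 e10
      have hp : ((N 0 0 - N 1 0 / M 1 0 * M 0 0, N 1 0 / M 1 0) : F × F) ≠ 0 := by
        intro h0
        have h1 := congrArg Prod.snd h0
        have h2 := congrArg Prod.fst h0
        simp only [Prod.snd_zero, Prod.fst_zero] at h1 h2
        rw [h1, zero_mul, sub_zero] at h2
        have h3 : N 1 0 = 0 := by
          rcases div_eq_zero_iff.1 h1 with h | h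
          · exact h
          · exact absurd h hc
        have hd : N.det ≠ 0 := by
          have := h.isUnit
          rw [Matrix.isUnit_iff_isUnit_det] at this
          exact this.ne_zero
        rw [Matrix.det_fin_two, h2, h3] at hd
        simp at hd
      refine ⟨⟨_, hp⟩, ?_⟩
      apply Subtype.ext
      apply Units.ext
      change ((N 0 0 - N 1 0 / M 1 0 * M 0 0) • (1 : Matrix (Fin 2) (Fin 2) F) + (N 1 0 / M 1 0) • M) = N
      have hy : N 0 1 = N 1 0 / M 1 0 * M 0 1 := by
        field_simp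
        linear_combination e00
      have hw : N 1 1 = N 0 0 - N 1 0 / M 1 0 * M 0 0 + N 1 0 / M 1 0 * M 1 1 := by
        field_simp
        linear_combination e10
      ext i j
      fin_cases i <;> fin_cases j
      · simp
      · simp [hy]
      · simp [hc]
      · simp [hw]
  rw [← Nat.card_congr (Equiv.ofBijective f hf), Nat.card_eq_fintype_card, Fintype.card_subtype_compl]
  simp [sq]

/-- Over a finite field with q elements: a diagonal element of GL₂ with two distinct diagonal entries has centralizer of order (q − 1)² (so q(q + 1) conjugates), and an element of GL₂ with no eigenvector in F² has centralizer of order q² − 1 (so q(q − 1) conjugates). -/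
theorem result {F : Type*} [Field F] [Fintype F] (g : Matrix.GeneralLinearGroup (Fin 2) F) :
    ((g : Matrix (Fin 2) (Fin 2) F) 0 1 = 0 → (g : Matrix (Fin 2) (Fin 2) F) 1 0 = 0 → (g : Matrix (Fin 2) (Fin 2) F) 0 0 ≠ (g : Matrix (Fin 2) (Fin 2) F) 1 1 →
      Nat.card (Subgroup.centralizer ({g} : Set (Matrix.GeneralLinearGroup (Fin 2) F))) = (Fintype.card F - 1) ^ 2) ∧
    ((∀ (c : F) (v : Fin 2 → F), v ≠ 0 → (g : Matrix (Fin 2) (Fin 2) F).mulVec v ≠ c • v) →
      Nat.card (Subgroup.centralizer ({g} : Set (Matrix.GeneralLinearGroup (Fin 2) F))) = Fintype.card F ^ 2 - 1) :=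
  ⟨first g, second g⟩

end Cfsg.Agent.S2303
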