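import Cfsg.Statements.S2305
import Cfsg.Agent.Lib.ClGL2Cls
import Cfsg.Agent.Lib.ClGL2Pts

set_option autoImplicit false
open Cfsg

namespace Cfsg.Agent.S2305

open Cfsg.Agent.Lib Matrix

section aux
variable {F : Type*} [Field F] [Fintype F] [DecidableEq F]

/-- number of `x` conjugating `g` to `y`. -/
noncomputable def Nn (g y : GL (Fin 2) F) : ℂ := ((Finset.univ.filter (fun x : GL (Fin 2) F => x⁻¹ * g * x = y)).card : ℂ)

theorem Nn_of_isConj {g y y' : GL (Fin 2) F} (h : IsConj y y') : Nn g y = Nn g y' := by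
  obtain ⟨z, hz⟩ := isConj_iff.1 h
  unfold Nn
  congr 1
  apply Finset.card_bij (fun x _ => x * z⁻¹)
  · intro x hx
    rw [Finset.mem_filter] at hx ⊢
    refine ⟨Finset.mem_univ _, ?_⟩
    rw [← hz, ← hx.2]
    group
  · intro a _ b _ hab
    exact mul_right_cancel hab
  · intro x hx
    rw [Finset.mem_filter] at hx
    refine ⟨x * z, ?_, by group⟩
    rw [Finset.mem_filter]
    refine ⟨Finset.mem_univ _, ?_⟩
    have : y = z⁻¹ * y' * z := by rw [← hz]; group
    rw [this, ← hx.2]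
    group

theorem Nn_of_not_isConj {g y : GL (Fin 2) F} (h : ¬ IsConj g y) : Nn g y = 0 := by
  unfold Nn
  rw [Nat.cast_eq_zero, Finset.card_eq_zero, Finset.filter_eq_empty_iff]
  intro x _ hx
  apply h
  rw [isConj_iff]
  exact ⟨x⁻¹, by rw [← hx]; group⟩

theorem Nn_self_ne (g : GL (Fin 2) F) : Nn g g ≠ 0 := by
  unfold Nn
  rw [Nat.cast_ne_zero]
  apply Finset.card_ne_zero_of_mem (a := 1)
  rw [Finset.mem_filter]
  exact ⟨Finset.mem_univ _, by group⟩

/-- upper triangular matrices. -/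
def ut (t : Fˣ × F × Fˣ) : GL (Fin 2) F :=
  GeneralLinearGroup.mkOfDetNeZero !![(t.1 : F), t.2.1; 0, (t.2.2 : F)] (by simp [det_fin_two])

theorem coe_ut (t : Fˣ × F × Fˣ) : (ut t : Matrix (Fin 2) (Fin 2) F) = !![(t.1 : F), t.2.1; 0, (t.2.2 : F)] := rfl

theorem ut_inj : Function.Injective (ut (F := F)) := by
  intro s t h
  have h' : (ut s : Matrix (Fin 2) (Fin 2) F) = (ut t : Matrix (Fin 2) (Fin 2) F) := by rw [h]
  rw [coe_ut, coe_ut] at h'
  have h0 := congrFun (congrFun h' 0) 0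
  have h1 := congrFun (congrFun h' 0) 1
  have h2 := congrFun (congrFun h' 1) 1
  simp at h0 h1 h2
  exact Prod.ext (Units.ext h0) (Prod.ext h1 (Units.ext h2))

theorem ut_mem (t : Fˣ × F × Fˣ) : ut t ∈ Cfsg.upperTriangularGL 2 F := by
  rw [ClGL2Pts.mem_upper, coe_ut]
  simp

theorem exists_ut {g : GL (Fin 2) F} (h : g ∈ Cfsg.upperTriangularGL 2 F) : ∃ t, ut t = g := by
  rw [ClGL2Pts.mem_upper] at h
  have hd : (g : Matrix (Fin 2) (Fin 2) F).det ≠ 0 := g.det_ne_zero
  rw [det_fin_two, h, mul_zero, sub_zero] at hd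
  refine ⟨⟨Units.mk0 _ (left_ne_zero_of_mul hd), (g : Matrix (Fin 2) (Fin 2) F) 0 1, Units.mk0 _ (right_ne_zero_of_mul hd)⟩, ?_⟩
  apply Units.ext
  rw [coe_ut]
  ext i j
  fin_cases i <;> fin_cases j <;> simp [h]

/-- the linear character. -/
noncomputable def lam (α β : MulChar F ℂ) : Cfsg.upperTriangularGL 2 F → ℂ :=
  fun b => α (((b : Matrix.GeneralLinearGroup (Fin 2) F) : Matrix (Fin 2) (Fin 2) F) 0 0) * β (((b : Matrix.GeneralLinearGroup (Fin 2) F) : Matrix (Fin 2) (Fin 2) F) 1 1)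

theorem ext_ut (α β : MulChar F ℂ) (t : Fˣ × F × Fˣ) :
    Cfsg.extendByZero (Cfsg.upperTriangularGL 2 F) (lam α β) (ut t) = α t.1 * β t.2.2 := by
  unfold Cfsg.extendByZero
  have : ut t = (⟨ut t, ut_mem t⟩ : Cfsg.upperTriangularGL 2 F).1 := rfl
  rw [this, Function.Injective.extend_apply Subtype.val_injective]
  rfl

theorem ext_not (α β : MulChar F ℂ) (y : GL (Fin 2) F) (h : ∀ t, ut t ≠ y) :
    Cfsg.extendByZero (Cfsg.upperTriangularGL 2 F) (lam α β) y = 0 := by
  unfold Cfsg.extendByZero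
  rw [Function.extend_apply']
  · rfl
  · rintro ⟨b, hb⟩
    obtain ⟨t, ht⟩ := exists_ut b.2
    exact h t (ht.trans hb)

theorem ind_eq (α β : MulChar F ℂ) (g : GL (Fin 2) F) :
    Cfsg.indFun (Cfsg.upperTriangularGL 2 F) (lam α β) g =
      (Nat.card (Cfsg.upperTriangularGL 2 F) : ℂ)⁻¹ * ∑ t : Fˣ × F × Fˣ, Nn g (ut t) * (α t.1 * β t.2.2) := by
  unfold Cfsg.indFun
  congr 1
  set f := Cfsg.extendByZero (Cfsg.upperTriangularGL 2 F) (lam α β) with hf
  have h1 : ∑ x : GL (Fin 2) F, f (x⁻¹ * g * x) = ∑ y : GL (Fin 2) F, Nn g y * f y := by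
    rw [← Finset.sum_fiberwise (s := Finset.univ) (g := fun x : GL (Fin 2) F => x⁻¹ * g * x)]
    apply Finset.sum_congr rfl
    intro y _
    rw [Finset.sum_congr rfl (g := fun _ => f y)]
    · rw [Finset.sum_const, nsmul_eq_mul]
      rfl
    · intro x hx
      rw [Finset.mem_filter] at hx
      rw [hx.2]
  rw [h1]
  have h2 : ∑ y : GL (Fin 2) F, Nn g y * f y = ∑ y ∈ Finset.univ.image (ut (F := F)), Nn g y * f y := by
    symm
    apply Finset.sum_subset (Finset.subset_univ _)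
    intro y _ hy
    rw [hf, ext_not, mul_zero]
    intro t ht
    exact hy (Finset.mem_image.2 ⟨t, Finset.mem_univ _, ht⟩)
  rw [h2, Finset.sum_image (fun _ _ _ _ h => ut_inj h)]
  apply Finset.sum_congr rfl
  intro t _
  rw [hf, ext_ut]

theorem ut_isSc {t : Fˣ × F × Fˣ} (h : t.1 ≠ t.2.2) : ¬ ClGL2Cls.IsSc (ut t : Matrix (Fin 2) (Fin 2) F) := by
  rw [ClGL2Cls.isSc_iff, coe_ut]
  rintro ⟨_, _, h3⟩
  exact h (Units.ext (by simpa using h3))

theorem ut_isConj {s t : Fˣ × F × Fˣ} (hs : s.1 ≠ s.2.2) (ht : t.1 ≠ t.2.2) :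
    IsConj (ut s) (ut t) ↔ (s.1 = t.1 ∧ s.2.2 = t.2.2) ∨ (s.1 = t.2.2 ∧ s.2.2 = t.1) := by
  constructor
  · intro h
    have h1 := ClGL2Cls.trace_of_isConj h
    have h2 := congrArg Units.val (ClGL2Cls.det_of_isConj h)
    change (ut s : Matrix (Fin 2) (Fin 2) F).det = (ut t : Matrix (Fin 2) (Fin 2) F).det at h2
    rw [coe_ut, coe_ut, trace_fin_two_of, trace_fin_two_of] at h1
    rw [coe_ut, coe_ut, det_fin_two_of, det_fin_two_of] at h2
    have h3 : ((s.1 : F) - t.1) * (s.1 - t.2.2) = 0 := by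
      linear_combination (s.1 : F) * h1 - h2
    rcases mul_eq_zero.1 h3 with h | h
    · left
      have e := sub_eq_zero.1 h
      exact ⟨Units.ext e, Units.ext (by linear_combination h1 - e)⟩
    · right
      have e := sub_eq_zero.1 h
      exact ⟨Units.ext e, Units.ext (by linear_combination h1 - e)⟩
  · intro h
    apply ClGL2Cls.isConj_of_trace_det (ut_isSc hs) (ut_isSc ht)
    · rw [coe_ut, coe_ut, trace_fin_two_of, trace_fin_two_of]
      rcases h with ⟨h1, h2⟩ | ⟨h1, h2⟩ <;> rw [h1, h2]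
      ring
    · rw [coe_ut, coe_ut, det_fin_two_of, det_fin_two_of]
      rcases h with ⟨h1, h2⟩ | ⟨h1, h2⟩ <;> rw [h1, h2] <;> ring

theorem Nn_swap (g : GL (Fin 2) F) (a d : Fˣ) (c : F) : Nn g (ut (a, c, d)) = Nn g (ut (d, c, a)) := by
  by_cases h : a = d
  · rw [h]
  · apply Nn_of_isConj
    rw [ut_isConj h (Ne.symm h)]
    exact Or.inr ⟨rfl, rfl⟩

theorem ind_swap (α β : MulChar F ℂ) : Cfsg.indFun (Cfsg.upperTriangularGL 2 F) (lam α β) =
    Cfsg.indFun (Cfsg.upperTriangularGL 2 F) (lam β α) := by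
  funext g
  rw [ind_eq, ind_eq]
  congr 1
  let e : Fˣ × F × Fˣ ≃ Fˣ × F × Fˣ :=
    ⟨fun t => (t.2.2, t.2.1, t.1), fun t => (t.2.2, t.2.1, t.1), fun _ => rfl, fun _ => rfl⟩
  rw [← Equiv.sum_comp e]
  apply Finset.sum_congr rfl
  rintro ⟨a, c, d⟩ _
  change Nn g (ut (d, c, a)) * (α d * β a) = Nn g (ut (a, c, d)) * (β a * α d)
  rw [Nn_swap g a d c]
  ring

theorem sum_diag (α β : MulChar F ℂ) (a d : Fˣ) (had : a ≠ d) :
    ∑ t : Fˣ × F × Fˣ, Nn (ut (a, 0, d)) (ut t) * (α t.1 * β t.2.2) =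
      (Fintype.card F : ℂ) * Nn (ut (a, 0, d)) (ut (a, 0, d)) * (α a * β d + α d * β a) := by
  have h1 : ∀ t : Fˣ × F × Fˣ, Nn (ut (a, 0, d)) (ut t) * (α t.1 * β t.2.2) =
      if t.1 = a ∧ t.2.2 = d then Nn (ut (a, 0, d)) (ut (a, 0, d)) * (α a * β d) else
        if t.1 = d ∧ t.2.2 = a then Nn (ut (a, 0, d)) (ut (a, 0, d)) * (α d * β a) else 0 := by
    rintro ⟨a', c', d'⟩
    by_cases h : a' = a ∧ d' = d
    · obtain ⟨rfl, rfl⟩ := h
      rw [if_pos ⟨rfl, rfl⟩]
      rw [Nn_of_isConj (y := ut (a', c', d')) (y' := ut (a', 0, d'))]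
      rw [ut_isConj had had]
      exact Or.inl ⟨rfl, rfl⟩
    · rw [if_neg h]
      by_cases h2 : a' = d ∧ d' = a
      · obtain ⟨rfl, rfl⟩ := h2
        rw [if_pos ⟨rfl, rfl⟩]
        rw [Nn_of_isConj (y := ut (a', c', d')) (y' := ut (d', 0, a'))]
        rw [ut_isConj (Ne.symm had) had]
        exact Or.inr ⟨rfl, rfl⟩
      · rw [if_neg h2]
        rw [Nn_of_not_isConj, zero_mul]
        intro hc
        by_cases h3 : a' = d'
        · subst h3
          have h1 := ClGL2Cls.trace_of_isConj hc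
          have h2 := congrArg Units.val (ClGL2Cls.det_of_isConj hc)
          change (ut (a, 0, d) : Matrix (Fin 2) (Fin 2) F).det = (ut (a', c', a') : Matrix (Fin 2) (Fin 2) F).det at h2
          rw [coe_ut, coe_ut, trace_fin_two_of, trace_fin_two_of] at h1
          rw [coe_ut, coe_ut, det_fin_two_of, det_fin_two_of] at h2
          simp only at h1 h2
          apply had
          apply Units.ext
          have h3 : ((a : F) - d) * (a - d) = 0 := by
            linear_combination ((a : F) + d + a' + a') * h1 - 4 * h2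
          rcases mul_eq_zero.1 h3 with h | h <;> exact sub_eq_zero.1 h
        · rw [ut_isConj had h3] at hc
          rcases hc with ⟨h4, h5⟩ | ⟨h4, h5⟩
          · exact h ⟨h4.symm, h5.symm⟩
          · exact h2 ⟨h5.symm, h4.symm⟩
  rw [Finset.sum_congr rfl (fun t _ => h1 t)]
  rw [Fintype.sum_prod_type]
  simp_rw [Fintype.sum_prod_type]
  have h2 : ∀ x : Fˣ, ∀ y : Fˣ,
      (if x = a ∧ y = d then Nn (ut (a, 0, d)) (ut (a, 0, d)) * (α a * β d) else
        if x = d ∧ y = a then Nn (ut (a, 0, d)) (ut (a, 0, d)) * (α d * β a) else 0) =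
      (if x = a then (if y = d then Nn (ut (a, 0, d)) (ut (a, 0, d)) * (α a * β d) else 0) else 0) +
      (if x = d then (if y = a then Nn (ut (a, 0, d)) (ut (a, 0, d)) * (α d * β a) else 0) else 0) := by
    intro x y
    by_cases hx : x = a
    · subst hx
      by_cases hy : y = d
      · subst hy
        simp [had]
      · simp [hy, had]
    · simp [hx]
      by_cases hx2 : x = d <;> simp [hx2]
  simp_rw [h2, Finset.sum_add_distrib]
  simp
  ring

theorem lam_inj (α β α' β' : MulChar F ℂ) (h : Cfsg.indFun (Cfsg.upperTriangularGL 2 F) (lam α β) =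
    Cfsg.indFun (Cfsg.upperTriangularGL 2 F) (lam α' β')) (a d : Fˣ) :
    α a * β d + α d * β a = α' a * β' d + α' d * β' a := by
  have hB : ((Nat.card (Cfsg.upperTriangularGL 2 F) : ℂ)⁻¹) ≠ 0 :=
    inv_ne_zero (Nat.cast_ne_zero.2 Nat.card_pos.ne')
  by_cases had : a = d
  · subst had
    have h1 := congrFun h (ClGL2Cls.sc a)
    unfold Cfsg.indFun at h1
    have h2 : ∀ x : GL (Fin 2) F, x⁻¹ * ClGL2Cls.sc a * x = ut (a, 0, a) := by
      intro x
      have h3 : ClGL2Cls.sc a = ut (a, 0, a) := by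
        apply Units.ext
        rw [ClGL2Cls.coe_sc, coe_ut]
        ext i j
        fin_cases i <;> fin_cases j <;> simp
      rw [← h3]
      have h4 : ClGL2Cls.sc a * x = x * ClGL2Cls.sc a := by
        apply Units.ext
        rw [Units.val_mul, Units.val_mul, ClGL2Cls.coe_sc]
        simp
      rw [mul_assoc, h4, inv_mul_cancel_left]
    simp_rw [h2, ext_ut] at h1
    have h3 := mul_left_cancel₀ hB h1
    rw [Finset.sum_const, Finset.sum_const, nsmul_eq_mul, nsmul_eq_mul] at h3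
    have h4 := mul_left_cancel₀ (Nat.cast_ne_zero.2 (by
      rw [Finset.card_univ]; exact Fintype.card_ne_zero)) h3
    rw [h4]
  · have h1 := congrFun h (ut (a, 0, d))
    rw [ind_eq, ind_eq, sum_diag α β a d had, sum_diag α' β' a d had] at h1
    have h2 := mul_left_cancel₀ hB h1
    have h3 : (Fintype.card F : ℂ) * Nn (ut (a, 0, d)) (ut (a, 0, d)) ≠ 0 :=
      mul_ne_zero (Nat.cast_ne_zero.2 Fintype.card_ne_zero) (Nn_self_ne _)
    exact mul_left_cancel₀ h3 h2

/-- the character of the torus. -/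
noncomputable def tch (α β : MulChar F ℂ) : (Fˣ × Fˣ) →* ℂ where
  toFun x := α x.1 * β x.2
  map_one' := by simp
  map_mul' x y := by simp; ring

theorem tch_inj {α β α' β' : MulChar F ℂ} (h : tch α β = tch α' β') : α = α' ∧ β = β' := by
  constructor
  · apply MulChar.ext
    intro a
    have := DFunLike.congr_fun h (a, 1)
    simpa [tch] using this
  · apply MulChar.ext
    intro a
    have := DFunLike.congr_fun h (1, a)
    simpa [tch] using this

theorem final (α β α' β' : MulChar F ℂ)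
    (h : ∀ a d : Fˣ, α a * β d + α d * β a = α' a * β' d + α' d * β' a) :
    (α = α' ∧ β = β') ∨ (α = β' ∧ β = α') := by
  have hli := linearIndependent_monoidHom (Fˣ × Fˣ) ℂ
  rw [linearIndependent_iff] at hli
  have h1 := hli (Finsupp.single (tch α β) 1 + Finsupp.single (tch β α) 1 - Finsupp.single (tch α' β') 1
    - Finsupp.single (tch β' α') 1) (by
      rw [map_sub, map_sub, map_add]
      simp only [Finsupp.linearCombination_single, one_smul]
      funext x
      have := h x.1 x.2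
      simp only [Pi.sub_apply, Pi.add_apply, Pi.zero_apply]
      change α x.1 * β x.2 + β x.1 * α x.2 - α' x.1 * β' x.2 - β' x.1 * α' x.2 = 0
      linear_combination this)
  have h2 := DFunLike.congr_fun h1 (tch α β)
  simp only [Finsupp.coe_sub, Finsupp.coe_add, Pi.sub_apply, Pi.add_apply, Finsupp.coe_zero, Pi.zero_apply,
    Finsupp.single_eq_same] at h2
  by_cases h3 : tch α β = tch α' β'
  · exact Or.inl (tch_inj h3)
  by_cases h4 : tch α β = tch β' α'
  · right
    exact tch_inj h4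
  exfalso
  rw [Finsupp.single_eq_of_ne h3, Finsupp.single_eq_of_ne h4] at h2
  by_cases h5 : tch α β = tch β α
  · rw [← h5, Finsupp.single_eq_same] at h2
    norm_num at h2
  · rw [Finsupp.single_eq_of_ne h5] at h2
    norm_num at h2

end aux

/-- Over a finite field F, for multiplicative characters α, β, α′, β′ of F, the characters of GL₂ induced from the linear characters b ↦ α(b₁₁) β(b₂₂) and b ↦ α′(b₁₁) β′(b₂₂) of the upper triangular subgroup coincide exactly when {α, β} = {α′, β′} as unordered pairs. -/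
theorem result {F : Type*} [Field F] [Fintype F] [DecidableEq F] (α β α' β' : MulChar F ℂ) :
    Cfsg.indFun (Cfsg.upperTriangularGL 2 F) (fun b => α (((b : Matrix.GeneralLinearGroup (Fin 2) F) : Matrix (Fin 2) (Fin 2) F) 0 0) * β (((b : Matrix.GeneralLinearGroup (Fin 2) F) : Matrix (Fin 2) (Fin 2) F) 1 1)) = Cfsg.indFun (Cfsg.upperTriangularGL 2 F) (fun b => α' (((b : Matrix.GeneralLinearGroup (Fin 2) F) : Matrix (Fin 2) (Fin 2) F) 0 0) * β' (((b : Matrix.GeneralLinearGroup (Fin 2) F) : Matrix (Fin 2) (Fin 2) F) 1 1)) ↔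
      (α = α' ∧ β = β') ∨ (α = β' ∧ β = α') := by
  constructor
  · intro h
    exact final α β α' β' (fun a d => lam_inj α β α' β' h a d)
  · rintro (⟨rfl, rfl⟩ | ⟨rfl, rfl⟩)
    · rfl
    · exact ind_swap α β

end Cfsg.Agent.S2305
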