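import Cfsg.Statements.S2306
import Cfsg.Agent.Lib.SL2Ortho

set_option autoImplicit false
open Cfsg

namespace Cfsg.Agent.S2306

open Cfsg.Agent.Lib.SL2Basic Cfsg.Agent.Lib.SL2Tori Cfsg.Agent.Lib.SL2Int Cfsg.Agent.Lib.SL2Ind Cfsg.Agent.Lib.SL2Ortho

/-- Over a finite field F, for a multiplicative character α of F, the function induced to SL₂ from the linear character b ↦ α(b₁₁) of the upper triangular subgroup is an irreducible character if and only if α² ≠ 1. -/
theorem result {F : Type*} [Field F] [Fintype F] [DecidableEq F] (α : MulChar F ℂ) :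
    Cfsg.IsIrrCharacter (Matrix.SpecialLinearGroup (Fin 2) F) (Cfsg.indFun ((Cfsg.upperTriangularGL 2 F).comap Matrix.SpecialLinearGroup.toGL) (fun b => α (((b : Matrix.SpecialLinearGroup (Fin 2) F) : Matrix (Fin 2) (Fin 2) F) 0 0))) ↔ α ^ 2 ≠ 1 := by
  change IsIrrCharacter _ (R α) ↔ _
  have h1 := inner_R_R α α
  rw [if_pos rfl] at h1
  have h2 : α = α⁻¹ ↔ α ^ 2 = 1 := by
    rw [pow_two, mul_eq_one_iff_eq_inv]
  constructor
  · intro h h3
    have h4 := h.classInner_self
    rw [h1, if_pos (h2.2 h3)] at h4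
    norm_num at h4
  · intro h
    apply (R_isCharacter α).isIrr_of_norm_one
    rw [h1, if_neg (fun h3 => h (h2.1 h3)), add_zero]

end Cfsg.Agent.S2306
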