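import Cfsg.Statements.S2307
import Cfsg.Agent.Lib.SL2Half

set_option autoImplicit false
open Cfsg

namespace Cfsg.Agent.S2307

open Cfsg.Agent.Lib.SL2Basic Cfsg.Agent.Lib.SL2Tori Cfsg.Agent.Lib.SL2Int Cfsg.Agent.Lib.SL2Ind Cfsg.Agent.Lib.SL2Ortho Cfsg.Agent.Lib.SL2Class Cfsg.Agent.Lib.SL2Vals Cfsg.Agent.Lib.SL2Deg Cfsg.Agent.Lib.LinChar Cfsg.Agent.Lib.CharBasic Cfsg.Agent.Lib.SL2Count Cfsg.Agent.Lib.SL2Half

/-- Over a finite field F with q elements, q odd, let α be the multiplicative character of F of order 2. The character of SL₂ induced from the linear character b ↦ α(b₁₁) of the upper triangular subgroup is the sum of two distinct irreducible characters, each of degree (q + 1)/2, which are conjugate under GL₂: some fixed element of GL₂ conjugates the one into the other. -/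
theorem result {F : Type*} [Field F] [Fintype F] [DecidableEq F] (hodd : Odd (Fintype.card F)) (α : MulChar F ℂ)
    (hα : α ^ 2 = 1) (hα1 : α ≠ 1) :
    ∃ χ₁ χ₂ : Matrix.SpecialLinearGroup (Fin 2) F → ℂ, Cfsg.IsIrrCharacter (Matrix.SpecialLinearGroup (Fin 2) F) χ₁ ∧ Cfsg.IsIrrCharacter (Matrix.SpecialLinearGroup (Fin 2) F) χ₂ ∧ χ₁ ≠ χ₂ ∧
      Cfsg.indFun ((Cfsg.upperTriangularGL 2 F).comap Matrix.SpecialLinearGroup.toGL) (fun b => α (((b : Matrix.SpecialLinearGroup (Fin 2) F) : Matrix (Fin 2) (Fin 2) F) 0 0)) = χ₁ + χ₂ ∧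
      χ₁ 1 = (((Fintype.card F + 1) / 2 : ℕ) : ℂ) ∧ χ₂ 1 = (((Fintype.card F + 1) / 2 : ℕ) : ℂ) ∧
      ∃ x : Matrix.GeneralLinearGroup (Fin 2) F, ∀ g h : Matrix.SpecialLinearGroup (Fin 2) F,
        Matrix.SpecialLinearGroup.toGL h = x * Matrix.SpecialLinearGroup.toGL g * x⁻¹ → χ₂ h = χ₁ g := by
  have hqn : Nat.card F = Fintype.card F := Nat.card_eq_fintype_card
  have hoddn : Odd (Nat.card F) := by rw [hqn]; exact hodd
  obtain ⟨A₀, h0⟩ := exists_isEll (F := F)
  -- a non-square
  obtain ⟨α', ν, hQ'⟩ := exists_quad (F := F) hoddn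
  have hαα : α = α' := hQ'.unique hα hα1
  subst hαα
  have hinv : α = α⁻¹ := mul_eq_one_iff_eq_inv.1 (by rw [← pow_two]; exact hα)
  have hnorm : classInner (R α) (R α) = 2 := by
    rw [inner_R_R, if_pos rfl, if_pos hinv]; norm_num
  obtain ⟨a, b, ha, hb, hab, hR⟩ := exists_two_irr (R_isCharacter α) hnorm
  have hina : classInner a (R α) ≠ 0 := by
    rw [hR, classInner_add_right, ha.classInner_self, ha.classInner_eq_zero hb hab, add_zero]
    exact one_ne_zero
  have hinb : classInner b (R α) ≠ 0 := by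
    rw [hR, classInner_add_right, hb.classInner_self, hb.classInner_eq_zero ha hab.symm, zero_add]
    exact one_ne_zero
  have hdeg : ∀ χ : Matrix.SpecialLinearGroup (Fin 2) F → ℂ, IsIrrCharacter _ χ →
      classInner χ (R α) ≠ 0 → χ 1 = (((Fintype.card F + 1) / 2 : ℕ) : ℂ) := by
    intro χ hχ hne
    have h2 := (half_ps h0 hχ hα hα1 hne).2.1
    obtain ⟨d, _, hd⟩ := hχ.exists_degree
    rw [hd] at h2 ⊢
    have h3 : 2 * d = Nat.card F + 1 := by exact_mod_cast h2
    have h4 : d = (Fintype.card F + 1) / 2 := by omega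
    rw [h4]
  refine ⟨a, b, ha, hb, hab, hR, hdeg a ha hina, hdeg b hb hinb, dgl ν, ?_⟩
  -- the conjugate of `b`
  set σ := (glConjHom (dgl ν) : Matrix.SpecialLinearGroup (Fin 2) F →* _) with hσ
  have hbσ : IsIrrCharacter (Matrix.SpecialLinearGroup (Fin 2) F) (fun g => b (σ g)) :=
    hb.comp_surjective σ (glConj_surjective _)
  have haσ : IsIrrCharacter (Matrix.SpecialLinearGroup (Fin 2) F) (fun g => a (σ g)) :=
    ha.comp_surjective σ (glConj_surjective _)
  have hsum : R α = (fun g => a (σ g)) + (fun g => b (σ g)) := by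
    ext g
    rw [← R_glConj α ν g, hR]
    rfl
  have habσ : (fun g => b (σ g)) ≠ (fun g => a (σ g)) := by
    intro h
    apply hab
    ext g
    obtain ⟨x, rfl⟩ := glConj_surjective (dgl ν) g
    exact (congrFun h x).symm
  have hne : classInner (fun g => b (σ g)) (R α) ≠ 0 := by
    rw [hsum, classInner_add_right, hbσ.classInner_self, hbσ.classInner_eq_zero haσ habσ, zero_add]
    exact one_ne_zero
  have hcase : (fun g => b (σ g)) = a ∨ (fun g => b (σ g)) = b := by
    by_contra hcon
    push Not at hcon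
    apply hne
    rw [hR, classInner_add_right, hbσ.classInner_eq_zero ha hcon.1,
      hbσ.classInner_eq_zero hb hcon.2, add_zero]
  have hfin : (fun g => b (σ g)) = a := by
    rcases hcase with h | h
    · exact h
    · exfalso
      have h1 := half_ps_sum hQ' hb hinb
      apply val_ne hb (Or.inl h1)
      have h2 := congrFun h (uu 1)
      have h3 : σ (uu 1) = uu (ν : F) := by
        have := glConj_uu ν (1 : Fˣ)
        rw [Units.val_one, mul_one] at this
        exact this
      rw [h3] at h2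
      exact h2.symm
  intro g h hgh
  have hh : h = σ g := by
    apply Subtype.ext
    have := congrArg (fun x : Matrix.GeneralLinearGroup (Fin 2) F => (x : Matrix (Fin 2) (Fin 2) F)) hgh
    simp only [Matrix.GeneralLinearGroup.coe_mul] at this
    exact this
  rw [hh]
  exact congrFun hfin g

end Cfsg.Agent.S2307
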