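import Cfsg.Statements.S2308
import Cfsg.Agent.Lib.ClGL2Pts

set_option autoImplicit false
open Cfsg

namespace Cfsg.Agent.S2308

open Cfsg.Agent.Lib

/-- Values of the permutation character of GL₂ over a finite field F with q elements on the cosets of its upper triangular subgroup (equivalently, the number of lines of F² that an element maps to themselves): q + 1 at a scalar matrix, 2 at a diagonal matrix with two different diagonal entries, 0 at an element with no eigenvector in F², and 1 at an upper triangular matrix with equal diagonal entries and non-zero upper right entry. -/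
theorem result {F : Type*} [Field F] [Fintype F] (g : Matrix.GeneralLinearGroup (Fin 2) F) :
    ((∃ a : F, (g : Matrix (Fin 2) (Fin 2) F) = a • (1 : Matrix (Fin 2) (Fin 2) F)) → Cfsg.fixedPointCharacter (Cfsg.upperTriangularGL 2 F) g = Fintype.card F + 1) ∧
    ((g : Matrix (Fin 2) (Fin 2) F) 0 1 = 0 → (g : Matrix (Fin 2) (Fin 2) F) 1 0 = 0 → (g : Matrix (Fin 2) (Fin 2) F) 0 0 ≠ (g : Matrix (Fin 2) (Fin 2) F) 1 1 →
      Cfsg.fixedPointCharacter (Cfsg.upperTriangularGL 2 F) g = 2) ∧
    ((∀ (c : F) (v : Fin 2 → F), v ≠ 0 → (g : Matrix (Fin 2) (Fin 2) F).mulVec v ≠ c • v) → Cfsg.fixedPointCharacter (Cfsg.upperTriangularGL 2 F) g = 0) ∧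
    ((g : Matrix (Fin 2) (Fin 2) F) 1 0 = 0 → (g : Matrix (Fin 2) (Fin 2) F) 0 0 = (g : Matrix (Fin 2) (Fin 2) F) 1 1 → (g : Matrix (Fin 2) (Fin 2) F) 0 1 ≠ 0 →
      Cfsg.fixedPointCharacter (Cfsg.upperTriangularGL 2 F) g = 1) := by
  classical
  have hcardP : Nat.card (OnePoint F) = Fintype.card F + 1 := by
    change Nat.card (Option F) = _
    rw [Nat.card_eq_fintype_card, Fintype.card_option]
  rw [ClGL2Pts.fixedPointCharacter_eq]
  refine ⟨?_, ?_, ?_, ?_⟩
  · rintro ⟨a, ha⟩
    have h : MulAction.fixedBy (OnePoint F) g = Set.univ := by
      ext x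
      simp only [Set.mem_univ, iff_true]
      induction x using OnePoint.rec with
      | infty => rw [ClGL2Pts.infty_mem_fixedBy, ha]; simp
      | coe x => rw [ClGL2Pts.coe_mem_fixedBy, ha]; simp [mul_comm]
    rw [h, Nat.card_congr (Equiv.Set.univ _), hcardP]
    push_cast
    rfl
  · intro h01 h10 hne
    have h : MulAction.fixedBy (OnePoint F) g = {OnePoint.infty, ((0 : F) : OnePoint F)} := by
      ext x
      induction x using OnePoint.rec with
      | infty => rw [ClGL2Pts.infty_mem_fixedBy, h10]; simp
      | coe x =>
        rw [ClGL2Pts.coe_mem_fixedBy, h10, h01]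
        simp only [Set.mem_insert_iff, Set.mem_singleton_iff, OnePoint.coe_ne_infty, false_or, OnePoint.coe_eq_coe]
        constructor
        · intro h
          have h2 : ((g : Matrix (Fin 2) (Fin 2) F) 0 0 - (g : Matrix (Fin 2) (Fin 2) F) 1 1) * x = 0 := by
            linear_combination h
          rcases mul_eq_zero.1 h2 with h3 | h3
          · exact absurd (sub_eq_zero.1 h3) hne
          · exact h3
        · rintro rfl
          ring
    rw [h, Nat.card_coe_set_eq, Set.ncard_pair (OnePoint.infty_ne_coe _)]
    norm_num
  · intro hv
    have h : MulAction.fixedBy (OnePoint F) g = ∅ := by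
      ext x
      simp only [Set.mem_empty_iff_false, iff_false]
      induction x using OnePoint.rec with
      | infty =>
        rw [ClGL2Pts.infty_mem_fixedBy]
        intro h10
        refine hv ((g : Matrix (Fin 2) (Fin 2) F) 0 0) ![1, 0] ?_ ?_
        · intro h0
          have := congrFun h0 0
          simp at this
        · rw [Matrix.mulVec_fin_two]
          ext i
          fin_cases i
          · simp
          · simp [h10]
      | coe x =>
        rw [ClGL2Pts.coe_mem_fixedBy]
        intro h
        refine hv ((g : Matrix (Fin 2) (Fin 2) F) 1 0 * x + (g : Matrix (Fin 2) (Fin 2) F) 1 1) ![x, 1] ?_ ?_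
        · intro h0
          have := congrFun h0 1
          simp at this
        · rw [Matrix.mulVec_fin_two]
          ext i
          fin_cases i
          · simp
            linear_combination h
          · simp
    rw [h]
    simp
  · intro h10 heq hne
    have h : MulAction.fixedBy (OnePoint F) g = {OnePoint.infty} := by
      ext x
      induction x using OnePoint.rec with
      | infty => rw [ClGL2Pts.infty_mem_fixedBy, h10]; simp
      | coe x =>
        rw [ClGL2Pts.coe_mem_fixedBy, h10, heq]
        simp only [Set.mem_singleton_iff, OnePoint.coe_ne_infty, iff_false]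
        intro h
        apply hne
        linear_combination h
    rw [h]
    simp

end Cfsg.Agent.S2308
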