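import Cfsg.Statements.S2309
import Cfsg.Agent.Lib.GL2Ps

set_option autoImplicit false
open Cfsg

namespace Cfsg.Agent.S2309

open Cfsg.Agent.Lib.GL2Ps

/-- Over a finite field F with q elements: every irreducible complex character of GL₂ of degree q − 1 vanishes at every diagonal matrix with two distinct entries, and every irreducible complex character of degree q + 1 vanishes at every element with no eigenvector in F². -/
theorem result {F : Type*} [Field F] [Fintype F] (χ : Matrix.GeneralLinearGroup (Fin 2) F → ℂ) (hχ : Cfsg.IsIrrCharacter (Matrix.GeneralLinearGroup (Fin 2) F) χ) (g : Matrix.GeneralLinearGroup (Fin 2) F) :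
    (χ 1 = (Fintype.card F : ℂ) - 1 → (g : Matrix (Fin 2) (Fin 2) F) 0 1 = 0 → (g : Matrix (Fin 2) (Fin 2) F) 1 0 = 0 → (g : Matrix (Fin 2) (Fin 2) F) 0 0 ≠ (g : Matrix (Fin 2) (Fin 2) F) 1 1 → χ g = 0) ∧
    (χ 1 = (Fintype.card F : ℂ) + 1 → (∀ (c : F) (v : Fin 2 → F), v ≠ 0 → (g : Matrix (Fin 2) (Fin 2) F).mulVec v ≠ c • v) → χ g = 0) := by
  classical
  have hqn : (Fintype.card F : ℂ) = ((Nat.card F : ℤ) : ℂ) := by rw [Nat.card_eq_fintype_card]; simp
  have hq := one_lt_card (F := F)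
  rw [hqn]
  constructor
  · intro h1 h01 h10 hne
    have h1' : χ 1 = (((Nat.card F : ℤ) - 1 : ℤ) : ℂ) := by rw [h1]; push_cast; ring
    obtain ⟨a, s, d, rfl⟩ := exists_ut h10
    rw [ut_01] at h01
    subst h01
    have had : a ≠ d := by
      rintro rfl
      exact hne rfl
    rcases degree_cases hχ with ⟨-, h⟩ | ⟨-, h⟩ | ⟨-, h⟩ | ⟨h, -⟩
    · rw [h1'] at h
      have h3 : (Nat.card F : ℤ) - 1 = 1 := by exact_mod_cast h
      exfalso
      have h4 : Nat.card Fˣ = 1 := by
        rw [Nat.card_units]; omega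
      obtain ⟨h5, -⟩ := Nat.card_eq_one_iff_unique.1 h4
      exact had (Subsingleton.elim a d)
    · rw [h1'] at h
      have h3 : (Nat.card F : ℤ) - 1 = Nat.card F := by exact_mod_cast h
      omega
    · rw [h1'] at h
      have h3 : (Nat.card F : ℤ) - 1 = Nat.card F + 1 := by exact_mod_cast h
      omega
    · obtain ⟨n, -, -, -, h5⟩ := cuspidal hχ h
      exact h5 a d had
  · intro h1 hell
    have h1' : χ 1 = (((Nat.card F : ℤ) + 1 : ℤ) : ℂ) := by rw [h1]; push_cast; ring
    rcases degree_cases hχ with ⟨-, h⟩ | ⟨-, h⟩ | ⟨⟨α, β, -, h⟩, -⟩ | ⟨-, h⟩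
    · rw [h1'] at h
      have h3 : (Nat.card F : ℤ) + 1 = 1 := by exact_mod_cast h
      omega
    · rw [h1'] at h
      have h3 : (Nat.card F : ℤ) + 1 = Nat.card F := by exact_mod_cast h
      omega
    · rw [h]
      exact ps_ell α β hell
    · rw [h1'] at h
      have h3 : (Nat.card F : ℤ) + 1 = Nat.card F - 1 := by exact_mod_cast h
      omega

end Cfsg.Agent.S2309
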