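import Cfsg.Statements.S2310
import Cfsg.Agent.Lib.GL2Ps

set_option autoImplicit false
open Cfsg

namespace Cfsg.Agent.S2310

open Cfsg.Agent.Lib.GL2Ps

/-- Over a finite field F with q ≥ 3 elements, let u be the upper unitriangular matrix of GL₂ with off-diagonal entry 1. An irreducible complex character χ of GL₂ takes at u the value 1 if χ has degree 1 or q + 1, the value −1 if χ has degree q − 1, and the value 0 if χ has degree q. -/
theorem result {F : Type*} [Field F] [Fintype F] (hq : 3 ≤ Fintype.card F) (χ : Matrix.GeneralLinearGroup (Fin 2) F → ℂ) (hχ : Cfsg.IsIrrCharacter (Matrix.GeneralLinearGroup (Fin 2) F) χ)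
    (u : Matrix.GeneralLinearGroup (Fin 2) F) (hu : (u : Matrix (Fin 2) (Fin 2) F) = !![1, 1; 0, 1]) :
    (χ 1 = 1 → χ u = 1) ∧ (χ 1 = (Fintype.card F : ℂ) + 1 → χ u = 1) ∧
    (χ 1 = (Fintype.card F : ℂ) - 1 → χ u = -1) ∧ (χ 1 = (Fintype.card F : ℂ) → χ u = 0) := by
  classical
  have hqn : (Fintype.card F : ℂ) = ((Nat.card F : ℤ) : ℂ) := by rw [Nat.card_eq_fintype_card]; simp
  have hqn' : Fintype.card F = Nat.card F := by rw [Nat.card_eq_fintype_card]
  rw [hqn'] at hq
  rw [hqn]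
  have hu' : u = ut 1 1 1 := by
    apply Units.ext
    rw [hu]; rfl
  subst hu'
  have e1 : ((1 : Fˣ) : F) = 1 := rfl
  rcases degree_cases hχ with ⟨⟨α, hc⟩, h⟩ | ⟨⟨α, hc⟩, h⟩ | ⟨⟨α, β, -, hc⟩, h⟩ | ⟨hc, h⟩
  · have e2 : χ (ut 1 1 1) = 1 := by rw [hc, lin_ut]; simp
    rw [h, e2]
    refine ⟨fun _ => rfl, fun _ => rfl, ?_, ?_⟩
    · intro h2
      have h3 : (1 : ℤ) = Nat.card F - 1 := by exact_mod_cast h2
      omega
    · intro h2
      have h3 : (1 : ℤ) = Nat.card F := by exact_mod_cast h2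
      omega
  · have e2 : χ (ut 1 1 1) = 0 := by
      rw [hc, St, Pi.sub_apply, lin_ut, ps_par _ _ _ one_ne_zero]; simp
    rw [h, e2]
    refine ⟨?_, ?_, ?_, fun _ => rfl⟩
    · intro h2
      have h3 : (Nat.card F : ℤ) = 1 := by exact_mod_cast h2
      omega
    · intro h2
      have h3 : (Nat.card F : ℤ) = Nat.card F + 1 := by exact_mod_cast h2
      omega
    · intro h2
      have h3 : (Nat.card F : ℤ) = Nat.card F - 1 := by exact_mod_cast h2
      omega
  · have e2 : χ (ut 1 1 1) = 1 := by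
      rw [hc, ps_par _ _ _ one_ne_zero]; simp
    rw [h, e2]
    refine ⟨fun _ => rfl, fun _ => rfl, ?_, ?_⟩
    · intro h2
      have h3 : (Nat.card F : ℤ) + 1 = Nat.card F - 1 := by exact_mod_cast h2
      omega
    · intro h2
      have h3 : (Nat.card F : ℤ) + 1 = Nat.card F := by exact_mod_cast h2
      omega
  · have e2 : χ (ut 1 1 1) = -1 := by
      obtain ⟨n, hn, h2, h3, -⟩ := cuspidal hχ hc
      rw [h3]
      have h4 := PC_degree hχ hc
      rw [h2] at h4
      have h5 := q_sub_one_ne_zero (F := F)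
      have h6 : (n : ℂ) = 1 := by
        apply mul_left_cancel₀ h5
        rw [h4, mul_one]
      rw [h6]
    rw [h, e2]
    refine ⟨?_, ?_, fun _ => rfl, ?_⟩
    · intro h2
      have h3 : (Nat.card F : ℤ) - 1 = 1 := by exact_mod_cast h2
      omega
    · intro h2
      have h3 : (Nat.card F : ℤ) - 1 = Nat.card F + 1 := by exact_mod_cast h2
      omega
    · intro h2
      have h3 : (Nat.card F : ℤ) - 1 = Nat.card F := by exact_mod_cast h2
      omega

end Cfsg.Agent.S2310
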