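import Cfsg.Statements.S2311
import Cfsg.Agent.Lib.StChev
import Cfsg.Agent.Lib.StTits5

set_option autoImplicit false
open Cfsg

namespace Cfsg.Agent.S2311

/-- In a Chevalley group of type G₂, B₂, D₄, F₄, E₆, E₇ or E₈ over a finite field, the alternating sum over all sets J of fundamental roots of (−1)^|J| times the permutation character on the cosets of the standard parabolic subgroup P_J is an irreducible complex character: the Steinberg character. -/
theorem result {F : Type*} [Field F] [Fintype F] (D : Cfsg.Lie.ChevalleyDatum) (hD : D ∈ [Cfsg.Lie.chevG2, Cfsg.Lie.chevB2, Cfsg.Lie.chevD4, Cfsg.Lie.chevF4, Cfsg.Lie.chevE6, Cfsg.Lie.chevE7, Cfsg.Lie.chevE8]) :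
    Cfsg.IsIrrCharacter ↥(D.group F) (D.steinbergCharacter F) := by
  classical
  obtain ⟨G⟩ := Cfsg.Agent.Lib.ChevRel.good_of_mem hD
  have : Fintype (Cfsg.Agent.Lib.ChevBN.bnPair G F).S := Fintype.ofFinite _
  have h : D.steinbergCharacter F = fun g => (Cfsg.Agent.Lib.StTits.st (Cfsg.Agent.Lib.ChevBN.bnPair G F) g : ℂ) := by
    ext g
    exact Cfsg.Agent.Lib.StChev.steinberg_eq G g
  rw [h]
  exact Cfsg.Agent.Lib.StTits.isIrr_st

end Cfsg.Agent.S2311
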