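import Cfsg.Statements.S2313
import Cfsg.Agent.Lib.StChev
import Cfsg.Agent.Lib.StTits5

set_option autoImplicit false
open Cfsg

namespace Cfsg.Agent.S2313

/-- In a Chevalley group of type G₂, B₂, D₄, F₄, E₆, E₇ or E₈ over a finite field, the restriction of the Steinberg character to the subgroup B = UH is the permutation character of B on the cosets of the diagonal subgroup H: at b ∈ B its value is the number of cosets xH, x ∈ B, with bxH = xH. -/
theorem result {F : Type*} [Field F] [Fintype F] (D : Cfsg.Lie.ChevalleyDatum) (hD : D ∈ [Cfsg.Lie.chevG2, Cfsg.Lie.chevB2, Cfsg.Lie.chevD4, Cfsg.Lie.chevF4, Cfsg.Lie.chevE6, Cfsg.Lie.chevE7, Cfsg.Lie.chevE8]) (b : ↥((D.borelSubgroup F).subgroupOf (D.group F))) :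
    D.steinbergCharacter F ((((D.borelSubgroup F).subgroupOf (D.group F)).subtype) b) =
      Cfsg.fixedPointCharacter (((D.diagonalSubgroup F).subgroupOf (D.group F)).subgroupOf ((D.borelSubgroup F).subgroupOf (D.group F))) b := by
  classical
  obtain ⟨G⟩ := Cfsg.Agent.Lib.ChevRel.good_of_mem hD
  obtain ⟨p, hp⟩ := CharP.exists F
  have hpp : Fact p.Prime := ⟨CharP.char_is_prime F p⟩
  have : Fintype (Cfsg.Agent.Lib.ChevBN.bnPair G F).S := Fintype.ofFinite _
  rw [Cfsg.Agent.Lib.StChev.steinberg_eq G]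
  obtain ⟨n, hn, h1, h2⟩ := (Cfsg.Agent.Lib.StChev.sbn G (F := F) p).exists_nJ Set.univ
  have hb : (((D.borelSubgroup F).subgroupOf (D.group F)).subtype b) ∈ (Cfsg.Agent.Lib.ChevBN.bnPair G F).B := b.2
  rw [Cfsg.Agent.Lib.StTits.st_B hb, ← h1]
  have h3 := Cfsg.Agent.Lib.StTits.cell_card_fixed (P := Cfsg.Agent.Lib.ChevBN.bnPair G F) n ⟨_, hb⟩
  rw [h3]
  have h4 : Cfsg.Agent.Lib.StTits.stab (Cfsg.Agent.Lib.ChevBN.bnPair G F) n =
      ((D.diagonalSubgroup F).subgroupOf (D.group F)).subgroupOf ((D.borelSubgroup F).subgroupOf (D.group F)) := by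
    ext x
    rw [h2 x]
    constructor
    · rintro ⟨u, hu, h, hh, e⟩
      rw [(Cfsg.Agent.Lib.StChev.sbn G (F := F) p).UJ_univ, Subgroup.mem_bot] at hu
      rw [hu, one_mul] at e
      have h5 := (Cfsg.Agent.Lib.StChev.bn_inf G).mp hh
      rw [← e] at h5
      exact h5
    · intro hx
      exact ⟨1, one_mem _, (x : D.group F), (Cfsg.Agent.Lib.StChev.bn_inf G).mpr hx, by rw [one_mul]⟩
  unfold Cfsg.fixedPointCharacter
  rw [h4]
  rfl

end Cfsg.Agent.S2313
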