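import Cfsg.Statements.S2314
import Cfsg.Agent.Lib.StChev
import Cfsg.Agent.Lib.StTits5

set_option autoImplicit false
open Cfsg

namespace Cfsg.Agent.S2314

/-- Steinberg's count of unipotent elements: in a Chevalley group of type G₂, B₂, D₄, F₄, E₆, E₇ or E₈ over a finite field of characteristic p with q elements, the number of elements of p-power order is q^(2N), N the number of positive roots — the square of the order of a Sylow p-subgroup. -/
theorem result {F : Type*} [Field F] [Fintype F] (p : ℕ) [Fact p.Prime] [CharP F p] (D : Cfsg.Lie.ChevalleyDatum) (hD : D ∈ [Cfsg.Lie.chevG2, Cfsg.Lie.chevB2, Cfsg.Lie.chevD4, Cfsg.Lie.chevF4, Cfsg.Lie.chevE6, Cfsg.Lie.chevE7, Cfsg.Lie.chevE8]) :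
    Nat.card {g : ↥(D.group F) // ∃ k : ℕ, orderOf g = p ^ k} = Fintype.card F ^ (2 * (D.nroots / 2)) := by
  classical
  obtain ⟨G⟩ := Cfsg.Agent.Lib.ChevRel.good_of_mem hD
  have : Fintype (Cfsg.Agent.Lib.ChevBN.bnPair G F).S := Fintype.ofFinite _
  have h1 : Nat.card (Cfsg.Agent.Lib.StChev.sbn G (F := F) p).U = Fintype.card F ^ (D.nroots / 2) := by
    rw [← Cfsg.Agent.Lib.ChevU.card_posUnipotent G]
    exact Cfsg.Agent.Lib.ChevStd.card_Us G
  have h2 := (Cfsg.Agent.Lib.StChev.sbn G (F := F) p).card_pel (Fact.out : p.Prime) Finset.univ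
  have h3 := (Cfsg.Agent.Lib.StChev.sbn G (F := F) p).cn_wlong Set.univ
  rw [(Cfsg.Agent.Lib.StChev.sbn G (F := F) p).UJ_univ, Subgroup.card_bot, mul_one] at h3
  rw [Finset.coe_univ, h3, h1] at h2
  rw [two_mul, pow_add, ← h2]
  refine Nat.card_congr (Equiv.subtypeEquivRight fun g => ?_)
  rw [Cfsg.Agent.Lib.StTits.pel, Set.mem_setOf_eq, Cfsg.Agent.Lib.StTits.par_univ]
  constructor
  · intro h; exact ⟨trivial, h⟩
  · intro h; exact h.2

end Cfsg.Agent.S2314
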