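import Cfsg.Statements.S2315
import Cfsg.Agent.Lib.ClNilCount

set_option autoImplicit false
open Cfsg

namespace Cfsg.Agent.S2315

open Matrix

/-- Steinberg's count of unipotent elements for the general linear group: over a finite field with q elements of characteristic p, the number of elements of GL_n of p-power order (the unipotent matrices) is q^(n(n−1)). -/
theorem result {F : Type*} [Field F] [Fintype F] (p : ℕ) [Fact p.Prime] [CharP F p] (n : ℕ) :
    Nat.card {g : Matrix.GeneralLinearGroup (Fin n) F // ∃ k : ℕ, orderOf g = p ^ k} = Fintype.card F ^ (n * (n - 1)) := by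
  classical
  have h1 := Cfsg.Agent.Lib.ClNilCount.nilc_eq F n
  rw [Nat.card_eq_fintype_card] at h1
  rw [← h1, Cfsg.Agent.Lib.ClNilCount.nilc]
  have key : ∀ g : GL (Fin n) F, (∃ k : ℕ, orderOf g = p ^ k) ↔ IsNilpotent ((g : Matrix (Fin n) (Fin n) F) - 1) := by
    intro g
    rcases Nat.eq_zero_or_pos n with rfl | hn
    · constructor
      · intro _
        exact ⟨1, Subsingleton.elim _ _⟩
      · intro _
        refine ⟨0, ?_⟩
        rw [pow_zero, orderOf_eq_one_iff]
        exact Units.ext (Subsingleton.elim _ _)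
    · have : Nonempty (Fin n) := ⟨⟨0, hn⟩⟩
      have hsub : ∀ k : ℕ, ((g : Matrix (Fin n) (Fin n) F) - 1) ^ p ^ k = (g : Matrix (Fin n) (Fin n) F) ^ p ^ k - 1 := by
        intro k
        rw [sub_pow_char_pow_of_commute p k (Commute.one_right _), one_pow]
      constructor
      · rintro ⟨k, hk⟩
        refine ⟨p ^ k, ?_⟩
        rw [hsub, ← Units.val_pow_eq_pow_val, ← hk, pow_orderOf_eq_one, Units.val_one, sub_self]
      · rintro ⟨l, hl⟩
        have h2 : ((g : Matrix (Fin n) (Fin n) F) - 1) ^ p ^ l = 0 := by
          have hle : l ≤ p ^ l := (Nat.lt_pow_self (Fact.out : p.Prime).one_lt).le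
          obtain ⟨d, hd⟩ := Nat.exists_eq_add_of_le hle
          rw [hd, pow_add, hl, zero_mul]
        rw [hsub, sub_eq_zero, ← Units.val_pow_eq_pow_val, Units.val_eq_one] at h2
        obtain ⟨k, -, hk⟩ := (Nat.dvd_prime_pow (Fact.out : p.Prime)).1 (orderOf_dvd_of_pow_eq_one h2)
        exact ⟨k, hk⟩
  have hunit : ∀ A : Matrix (Fin n) (Fin n) F, IsNilpotent A → IsUnit (A + 1) := fun A hA => hA.isUnit_add_one
  apply Nat.card_congr
  exact
    { toFun := fun g => ⟨(g.1 : Matrix (Fin n) (Fin n) F) - 1, (key g.1).1 g.2⟩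
      invFun := fun A => ⟨(hunit A.1 A.2).unit, by
        rw [key, IsUnit.unit_spec, add_sub_cancel_right]
        exact A.2⟩
      left_inv := by
        intro g
        apply Subtype.ext
        apply Units.ext
        change ((g.1 : Matrix (Fin n) (Fin n) F) - 1) + 1 = g.1
        rw [sub_add_cancel]
      right_inv := by
        intro A
        apply Subtype.ext
        change (A.1 + 1) - 1 = A.1
        rw [add_sub_cancel_right] }

end Cfsg.Agent.S2315
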