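import Cfsg.Statements.S2316
import Cfsg.Agent.Lib.CBN15
import Cfsg.Agent.Lib.ClSympOrd

set_option autoImplicit false
open Cfsg

namespace Cfsg.Agent.S2316

theorem fact_aux {p : ℕ} (hp : p.Prime) {a b : ℕ} (n : ℕ) (ha : a = p ^ n) (hb0 : b ≠ 0) (hb : ¬ p ∣ b) :
    p ^ (a * b).factorization p = a := by
  have ha0 : a ≠ 0 := by rw [ha]; exact pow_ne_zero _ hp.pos.ne'
  rw [Nat.factorization_mul ha0 hb0, Finsupp.add_apply, Nat.factorization_eq_zero_of_not_dvd hb, add_zero, ha,
    hp.factorization_pow, Finsupp.single_eq_same]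

/-- Steinberg's count of unipotent elements for the symplectic group: over a finite field with q elements of characteristic p, the number of elements of Sp_{2m} of p-power order is q^(2m²). -/
theorem result {F : Type*} [Field F] [Fintype F] (p : ℕ) [Fact p.Prime] [CharP F p] (m : ℕ) :
    Nat.card {g : ↥(Matrix.symplecticGroup (Fin m) F) // ∃ k : ℕ, orderOf g = p ^ k} = Fintype.card F ^ (2 * m ^ 2) := by
  have hp : p.Prime := Fact.out
  obtain ⟨P, V, h, -⟩ := Cfsg.Agent.Lib.CBN.sp_final (F := F) p m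
  have h1 := Cfsg.Agent.Lib.StQuot.card_pElements (h.ps.toSBN h.cop)
  have h2 := Cfsg.Agent.Lib.StCR.SBN_card_U (h.ps.toSBN h.cop)
  obtain ⟨n, -, hn⟩ := FiniteField.card F p
  have hq : 1 < Fintype.card F := Fintype.one_lt_card
  rw [h1, h2, Cfsg.Agent.Lib.ClSympOrd.card_symplectic, fact_aux hp (n * m ^ 2)]
  · rw [← pow_mul, mul_comm]
  · rw [hn, ← pow_mul]
  · rw [Finset.prod_ne_zero_iff]
    intro i _
    have : 1 < Fintype.card F ^ (2 * (i + 1)) := Nat.one_lt_pow (by omega) hq
    omega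
  · intro hd
    obtain ⟨i, -, hi⟩ := (hp.prime.dvd_finset_prod_iff _).mp hd
    have h3 : p ∣ Fintype.card F ^ (2 * (i + 1)) := by
      rw [hn, ← pow_mul]
      exact dvd_pow_self p (by have := n.2; positivity)
    have h4 : 1 ≤ Fintype.card F ^ (2 * (i + 1)) := Nat.one_le_pow _ _ (by omega)
    have h5 : p ∣ 1 := by
      have := Nat.dvd_sub h3 hi
      rwa [Nat.sub_sub_self h4] at this
    exact hp.one_lt.ne' (Nat.dvd_one.mp h5)

end Cfsg.Agent.S2316
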