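import Cfsg.Statements.S2317
import Cfsg.Agent.Lib.GLClass

set_option autoImplicit false
open Cfsg

namespace Cfsg.Agent.S2317

open Polynomial Cfsg.Agent.Lib.FXType Cfsg.Agent.Lib.GLClass

/-- Over a finite field of characteristic p, the conjugacy classes of GL_n consisting of elements of p-power order (the unipotent classes) are as many as the partitions of n. -/
theorem result {F : Type*} [Field F] [Fintype F] (p : ℕ) [Fact p.Prime] [CharP F p] (n : ℕ) :
    Nat.card {C : ConjClasses (Matrix.GeneralLinearGroup (Fin n) F) //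
      ∃ g : Matrix.GeneralLinearGroup (Fin n) F, (∃ k : ℕ, orderOf g = p ^ k) ∧ ConjClasses.mk g = C} =
      Fintype.card (Nat.Partition n) := by
  classical
  have hp : p.Prime := Fact.out
  have h10 : (X - 1 : F[X]) = X - C 1 := by rw [C_1]
  have hmon : (X - 1 : F[X]).Monic := by rw [h10]; exact monic_X_sub_C 1
  have hirr : Irreducible (X - 1 : F[X]) := by rw [h10]; exact irreducible_X_sub_C 1
  have hdeg : (X - 1 : F[X]).natDegree = 1 := by rw [h10]; exact natDegree_X_sub_C 1
  have hfrob : ∀ k : ℕ, (X ^ (p ^ k) - 1 : F[X]) = (X - 1) ^ (p ^ k) := by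
    intro k
    rw [sub_pow_char_pow, one_pow]
  have hgood : ∀ k : ℕ, 0 < k → Good ((X - 1 : F[X]), k) := fun k hk => ⟨hmon, hirr, hk⟩
  have hcl := card_classes (F := F) n (fun g => ∃ k : ℕ, orderOf g = p ^ k)
    (fun s => ∀ d ∈ s, d.1 = X - 1) (by
      intro g s hs
      have e1 : ∀ k : ℕ, g ^ (p ^ k) = 1 ↔ ∀ d ∈ s, d.1 ^ d.2 ∣ X ^ (p ^ k) - 1 := by
        intro k
        rw [← hs.aeval_eq_zero_iff, map_sub, map_pow, aeval_X, map_one, sub_eq_zero, ← Units.val_pow_eq_pow_val, Units.val_eq_one]
      constructor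
      · rintro ⟨k, hk⟩ d hd
        have h1 : g ^ (p ^ k) = 1 := by rw [← hk, pow_orderOf_eq_one]
        have hg := hs.good d hd
        have h2 := (e1 k).1 h1 d hd
        rw [hfrob] at h2
        have h3 : d.1 ∣ (X - 1) := hg.2.1.prime.dvd_of_dvd_pow ((dvd_pow_self _ hg.2.2.ne').trans h2)
        exact eq_of_monic_of_associated hg.1 hmon (hg.2.1.associated_of_dvd hirr h3)
      · intro h
        have h1 : g ^ (p ^ n) = 1 := by
          rw [e1]
          intro d hd
          have hg := hs.good d hd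
          rw [hfrob, h d hd]
          apply pow_dvd_pow
          have h2 := hs.card
          rw [Fintype.card_fin] at h2
          have h3 : d.1.natDegree * d.2 ≤ n := by
            rw [← h2]
            exact Multiset.single_le_sum (fun _ _ => Nat.zero_le _) _ (Multiset.mem_map_of_mem _ hd)
          rw [h d hd, hdeg, one_mul] at h3
          exact h3.trans (Nat.lt_pow_self hp.one_lt).le
        obtain ⟨k, -, hk⟩ := (Nat.dvd_prime_pow hp).1 (orderOf_dvd_of_pow_eq_one h1)
        exact ⟨k, hk⟩)
  have hcl' : Nat.card {C : ConjClasses (Matrix.GeneralLinearGroup (Fin n) F) //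
      ∃ g : Matrix.GeneralLinearGroup (Fin n) F, (∃ k : ℕ, orderOf g = p ^ k) ∧ ConjClasses.mk g = C} =
      Nat.card {C : ConjClasses (Matrix.GeneralLinearGroup (Fin n) F) //
      ∃ g : Matrix.GeneralLinearGroup (Fin n) F, ConjClasses.mk g = C ∧ ∃ k : ℕ, orderOf g = p ^ k} := by
    congr 1
    simp only [and_comm]
  rw [hcl', hcl, ← Nat.card_eq_fintype_card]
  have hsum : ∀ s : Multiset (F[X] × ℕ), (∀ d ∈ s, d.1 = X - 1) → (s.map Prod.snd).sum = (s.map fun d => d.1.natDegree * d.2).sum := by
    intro s hs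
    congr 1
    apply Multiset.map_congr rfl
    intro d hd
    rw [hs d hd, hdeg, one_mul]
  have hback : ∀ s : Multiset (F[X] × ℕ), (∀ d ∈ s, d.1 = X - 1) → (s.map Prod.snd).map (fun k => ((X - 1 : F[X]), k)) = s := by
    intro s hs
    rw [Multiset.map_map]
    conv_rhs => rw [← Multiset.map_id s]
    apply Multiset.map_congr rfl
    intro d hd
    show ((X - 1 : F[X]), d.2) = d
    rw [← hs d hd]
  apply Nat.card_congr
  refine
    { toFun := fun s => ⟨s.1.map Prod.snd, ?_, ?_⟩
      invFun := fun μ => ⟨μ.parts.map (fun k => ((X - 1 : F[X]), k)), ⟨?_, ?_⟩, ?_⟩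
      left_inv := ?_
      right_inv := ?_ }
  · intro i hi
    rw [Multiset.mem_map] at hi
    obtain ⟨d, hd, rfl⟩ := hi
    exact (s.2.1.1 d hd).1.2.2
  · rw [hsum s.1 s.2.2]
    exact s.2.1.2
  · intro d hd
    rw [Multiset.mem_map] at hd
    obtain ⟨k, hk, rfl⟩ := hd
    refine ⟨hgood k (μ.parts_pos hk), ?_⟩
    intro h
    have h1 := congrArg (eval 0) h
    simp at h1
  · rw [Multiset.map_map]
    have : ((fun d : F[X] × ℕ => d.1.natDegree * d.2) ∘ fun k => ((X - 1 : F[X]), k)) = id := by
      funext k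
      show (X - 1 : F[X]).natDegree * k = k
      rw [hdeg, one_mul]
    rw [this, Multiset.map_id]
    exact μ.parts_sum
  · intro d hd
    rw [Multiset.mem_map] at hd
    obtain ⟨k, hk, rfl⟩ := hd
    rfl
  · intro s
    apply Subtype.ext
    exact hback s.1 s.2.2
  · intro μ
    apply Nat.Partition.ext
    show (μ.parts.map (fun k => ((X - 1 : F[X]), k))).map Prod.snd = μ.parts
    rw [Multiset.map_map]
    exact Multiset.map_id _

end Cfsg.Agent.S2317
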