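import Cfsg.Statements.S2319
import Cfsg.Agent.Lib.StHecke4
import Cfsg.Agent.Lib.StChev
import Cfsg.Agent.S1039

set_option autoImplicit false
open Cfsg

namespace Cfsg.Agent.S2319

/-- In a Chevalley group of type G₂, B₂, D₄, F₄, E₆, E₇ or E₈ over a finite field, the number of distinct irreducible constituents of the permutation character on the cosets of B = UH equals the number of conjugacy classes (equivalently, of irreducible characters) of the Weyl group, the Coxeter group of the type with nodes numbered as the fundamental roots. -/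
theorem result {F : Type*} [Field F] [Fintype F]
    (dw : Cfsg.Lie.ChevalleyDatum × (Σ n : ℕ, CoxeterMatrix (Fin n)))
    (hdw : dw ∈ [(Cfsg.Lie.chevG2, ⟨2, CoxeterMatrix.G₂⟩), (Cfsg.Lie.chevB2, ⟨2, CoxeterMatrix.B 2⟩), (Cfsg.Lie.chevD4, ⟨4, Cfsg.Lie.coxeterD4⟩), (Cfsg.Lie.chevF4, ⟨4, CoxeterMatrix.F₄⟩),
      (Cfsg.Lie.chevE6, ⟨6, CoxeterMatrix.E₆⟩), (Cfsg.Lie.chevE7, ⟨7, CoxeterMatrix.E₇⟩), (Cfsg.Lie.chevE8, ⟨8, CoxeterMatrix.E₈⟩)]) :
    Nat.card {χ : Cfsg.IrrCharacter ↥(dw.1.group F) //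
      ∃ φ : ↥(dw.1.group F) → ℂ, Cfsg.IsCharacter ↥(dw.1.group F) φ ∧
        Cfsg.fixedPointCharacter ((dw.1.borelSubgroup F).subgroupOf (dw.1.group F)) = (χ : ↥(dw.1.group F) → ℂ) + φ} =
      Nat.card (ConjClasses dw.2.2.Group) := by
  have hD : dw.1 ∈ [Cfsg.Lie.chevG2, Cfsg.Lie.chevB2, Cfsg.Lie.chevD4, Cfsg.Lie.chevF4, Cfsg.Lie.chevE6,
      Cfsg.Lie.chevE7, Cfsg.Lie.chevE8] := by
    have := List.mem_map_of_mem (f := Prod.fst) hdw
    simpa using this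
  obtain ⟨G⟩ := Cfsg.Agent.Lib.ChevRel.good_of_mem hD
  have h := Cfsg.Agent.Lib.StHecke.card_constituents (Cfsg.Agent.Lib.ChevBN.bnPair G F)
  obtain ⟨φ, hφ, hker, -⟩ := Cfsg.Agent.S1039.result (F := F) dw hdw
  let ι : ↥(Cfsg.Agent.Lib.ChevBN.bnPair G F).N →* ↥(dw.1.monomialSubgroup F) :=
    { toFun := fun n => ⟨((n : dw.1.group F) : GL dw.1.Idx F), n.2⟩
      map_one' := rfl
      map_mul' := fun a b => rfl }
  have hι : Function.Surjective ι := by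
    rintro ⟨n, hn⟩
    exact ⟨⟨⟨n, Cfsg.Agent.Lib.ChevBN.N_le_group G hn⟩, hn⟩, rfl⟩
  have hk : (φ.comp ι).ker = ((Cfsg.Agent.Lib.ChevBN.bnPair G F).B ⊓ (Cfsg.Agent.Lib.ChevBN.bnPair G F).N).subgroupOf
      (Cfsg.Agent.Lib.ChevBN.bnPair G F).N := by
    ext n
    rw [MonoidHom.mem_ker, MonoidHom.comp_apply, ← MonoidHom.mem_ker, hker, Subgroup.mem_subgroupOf,
      Subgroup.mem_subgroupOf, Cfsg.Agent.Lib.StChev.bn_inf G]
    rfl
  let e : Cfsg.Agent.Lib.BNPair.W (Cfsg.Agent.Lib.ChevBN.bnPair G F) ≃* dw.2.2.Group :=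
    (QuotientGroup.quotientMulEquivOfEq hk.symm).trans
      (QuotientGroup.quotientKerEquivOfSurjective (φ.comp ι) (hφ.comp hι))
  rw [← Cfsg.Agent.Lib.StHecke.card_conjClasses_congr e]
  exact h

end Cfsg.Agent.S2319
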