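import Cfsg.Statements.S2320
import Cfsg.Agent.Lib.GL2Ps

set_option autoImplicit false
open Cfsg

namespace Cfsg.Agent.S2320

open Cfsg.Agent.Lib.GL2Ps

/-- Over a finite field F with q elements, every irreducible complex character of GL₂ of degree q takes a value of absolute value 1 at every diagonal matrix with two different diagonal entries and at every element with no eigenvector in F². -/
theorem result {F : Type*} [Field F] [Fintype F] (χ : Matrix.GeneralLinearGroup (Fin 2) F → ℂ) (hχ : Cfsg.IsIrrCharacter (Matrix.GeneralLinearGroup (Fin 2) F) χ) (hdeg : χ 1 = (Fintype.card F : ℂ)) (g : Matrix.GeneralLinearGroup (Fin 2) F) :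
    ((g : Matrix (Fin 2) (Fin 2) F) 0 1 = 0 → (g : Matrix (Fin 2) (Fin 2) F) 1 0 = 0 → (g : Matrix (Fin 2) (Fin 2) F) 0 0 ≠ (g : Matrix (Fin 2) (Fin 2) F) 1 1 → ‖χ g‖ = 1) ∧
    ((∀ (c : F) (v : Fin 2 → F), v ≠ 0 → (g : Matrix (Fin 2) (Fin 2) F).mulVec v ≠ c • v) → ‖χ g‖ = 1) := by
  classical
  have hqn : (Fintype.card F : ℂ) = ((Nat.card F : ℤ) : ℂ) := by rw [Nat.card_eq_fintype_card]; simp
  have hq := one_lt_card (F := F)
  rw [hqn] at hdeg
  obtain ⟨α, hα⟩ : PS χ := by
    rcases degree_cases hχ with ⟨-, h⟩ | ⟨h, -⟩ | ⟨-, h⟩ | ⟨-, h⟩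
    · rw [hdeg] at h
      have h3 : (Nat.card F : ℤ) = 1 := by exact_mod_cast h
      omega
    · exact h
    · rw [hdeg] at h
      have h3 : (Nat.card F : ℤ) = Nat.card F + 1 := by exact_mod_cast h
      omega
    · rw [hdeg] at h
      have h3 : (Nat.card F : ℤ) = Nat.card F - 1 := by exact_mod_cast h
      omega
  constructor
  · intro h01 h10 hne
    obtain ⟨a, s, d, rfl⟩ := exists_ut h10
    rw [ut_01] at h01
    subst h01
    have had : a ≠ d := by
      rintro rfl
      exact hne rfl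
    have : χ (ut a 0 d) = α a * α d := by
      rw [hα, St, Pi.sub_apply, lin_ut, ps_split _ _ had]; ring
    rw [this, norm_mul, norm_mulChar, norm_mulChar, mul_one]
  · intro hell
    rw [hα, St, Pi.sub_apply, ps_ell _ _ hell, zero_sub, norm_neg, lin]
    have h1 : (Matrix.det (g : Matrix (Fin 2) (Fin 2) F)) = ((Matrix.GeneralLinearGroup.det g : Fˣ) : F) := rfl
    rw [h1]
    exact norm_mulChar α _

end Cfsg.Agent.S2320
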