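import Cfsg.Statements.S2321
import Cfsg.Agent.Lib.SL2Deg

set_option autoImplicit false
open Cfsg

namespace Cfsg.Agent.S2321

open Cfsg.Agent.Lib.SL2Basic Cfsg.Agent.Lib.SL2Tori Cfsg.Agent.Lib.SL2Int Cfsg.Agent.Lib.SL2Ind Cfsg.Agent.Lib.SL2Ortho Cfsg.Agent.Lib.SL2Class Cfsg.Agent.Lib.SL2Vals Cfsg.Agent.Lib.SL2Deg

/-- Over a finite field F with q elements, an irreducible complex character of SL₂ of degree q (the Steinberg character) takes the value 1 at every diagonal matrix whose diagonal entry a has a² ≠ 1, the value −1 at every element with no eigenvector in F², and the value 0 at every upper triangular matrix with equal diagonal entries and non-zero upper right entry. -/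
theorem result {F : Type*} [Field F] [Fintype F] (χ : Matrix.SpecialLinearGroup (Fin 2) F → ℂ) (hχ : Cfsg.IsIrrCharacter (Matrix.SpecialLinearGroup (Fin 2) F) χ) (hdeg : χ 1 = (Fintype.card F : ℂ)) (g : Matrix.SpecialLinearGroup (Fin 2) F) :
    ((g : Matrix (Fin 2) (Fin 2) F) 0 1 = 0 → (g : Matrix (Fin 2) (Fin 2) F) 1 0 = 0 → (g : Matrix (Fin 2) (Fin 2) F) 0 0 ^ 2 ≠ 1 → χ g = 1) ∧
    ((∀ (c : F) (v : Fin 2 → F), v ≠ 0 → (g : Matrix (Fin 2) (Fin 2) F).mulVec v ≠ c • v) → χ g = -1) ∧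
    ((g : Matrix (Fin 2) (Fin 2) F) 1 0 = 0 → (g : Matrix (Fin 2) (Fin 2) F) 0 0 = (g : Matrix (Fin 2) (Fin 2) F) 1 1 → (g : Matrix (Fin 2) (Fin 2) F) 0 1 ≠ 0 → χ g = 0) := by
  classical
  have hq : (Nat.card F : ℂ) = (Fintype.card F : ℂ) := by rw [Nat.card_eq_fintype_card]
  have hSt : χ = St := eq_St_of_deg hχ (by rw [hdeg, hq])
  subst hSt
  refine ⟨?_, ?_, ?_⟩
  · intro h01 h10 h00
    have hmem : g ∈ (ST : Set (Matrix.SpecialLinearGroup (Fin 2) F)) := by
      refine ⟨h01, h10, fun h => h00 ?_⟩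
      have hd := det2 g
      rw [h01, h10, ← h] at hd
      linear_combination hd
    obtain ⟨c, hc, rfl⟩ := exists_dg_of_mem_ST hmem
    rw [St, Pi.sub_apply, Pi.one_apply, R_dg _ hc, MulChar.one_apply_coe, MulChar.one_apply_coe]
    ring
  · intro h
    have hE : IsEll g := fun c => no_root_of_no_eigenvector h c
    rw [St, Pi.sub_apply, Pi.one_apply, R_ell _ hE]
    ring
  · intro h10 h00 h01
    obtain ⟨z, hz, b, rfl⟩ := exists_of_mem_SP (g := g) ⟨h10, h00, h01⟩
    rw [St, Pi.sub_apply, Pi.one_apply, R_par _ (mul_uu_mem_SP hz b), mul_uu_00 hz, one_Zs hz]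
    ring

end Cfsg.Agent.S2321
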