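import Cfsg.Statements.S2322
import Cfsg.Agent.Lib.SL2Deg

set_option autoImplicit false
open Cfsg

namespace Cfsg.Agent.S2322

open Cfsg.Agent.Lib.SL2Basic Cfsg.Agent.Lib.SL2Tori Cfsg.Agent.Lib.SL2Int Cfsg.Agent.Lib.SL2Ind Cfsg.Agent.Lib.SL2Ortho Cfsg.Agent.Lib.SL2Class Cfsg.Agent.Lib.SL2Vals Cfsg.Agent.Lib.SL2Deg

/-- over the field with three elements the cuspidal characters vanish on elliptic elements -/
theorem cusp_vanish_three {F : Type*} [Field F] [Finite F] [Fintype (Matrix.SpecialLinearGroup (Fin 2) F)]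
    (h3 : Nat.card F = 3)
    {A₀ : Matrix.SpecialLinearGroup (Fin 2) F} (h0 : IsEll A₀)
    {θ : Subgroup.centralizer ({A₀} : Set (Matrix.SpecialLinearGroup (Fin 2) F)) →* ℂˣ}
    (hθ : θ ^ 2 ≠ 1) {g : Matrix.SpecialLinearGroup (Fin 2) F} (hg : g ∈ SC A₀) : cusp θ g = 0 := by
  have : Fintype F := Fintype.ofFinite F
  have hcard : Fintype.card F = 3 := by rw [← Nat.card_eq_fintype_card, h3]
  have h30 : (3 : F) = 0 := by
    have h1 : ((Fintype.card F : ℕ) : F) = 0 := Nat.cast_card_eq_zero F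
    rw [hcard] at h1
    exact_mod_cast h1
  -- elliptic elements square to `-1`
  have hsq : ∀ s : Matrix.SpecialLinearGroup (Fin 2) F, IsEll s → s * s = -1 := by
    intro s hs
    have ht : tr s = 0 := by
      by_contra ht
      have h4 := sq_ne_four_of_no_root hs
      apply h4
      have h5 : tr s ^ (Fintype.card F - 1) = 1 := FiniteField.pow_card_sub_one_eq_one _ ht
      rw [hcard] at h5
      have h5' : tr s ^ 2 = 1 := h5
      rw [h5']
      linear_combination -h30
    apply Subtype.ext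
    have h6 := sq_eq s
    rw [ht, zero_smul, zero_sub] at h6
    rw [Matrix.SpecialLinearGroup.coe_neg, Matrix.SpecialLinearGroup.coe_one, ← h6,
      Matrix.SpecialLinearGroup.coe_mul]
  set m : Subgroup.centralizer ({A₀} : Set (Matrix.SpecialLinearGroup (Fin 2) F)) :=
    ⟨-1, neg_one_mem_centralizer A₀⟩ with hm
  have hkey : ∀ s : Subgroup.centralizer ({A₀} : Set (Matrix.SpecialLinearGroup (Fin 2) F)),
      (s : Matrix.SpecialLinearGroup (Fin 2) F) ∉ Subgroup.center _ → s ^ 2 = m := by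
    intro s hs
    apply Subtype.ext
    rw [Subgroup.coe_pow, pow_two]
    exact hsq _ (isEll_of_mem_SC h0 ⟨s.2, hs⟩)
  have hm2 : m ^ 2 = 1 := by
    apply Subtype.ext
    simp [hm]
  have hθm : (θ m : ℂ) = -1 := by
    have h5 : ((θ m : ℂˣ) : ℂ) ^ 2 = 1 := by
      rw [← Units.val_pow_eq_pow_val, ← map_pow, hm2, map_one, Units.val_one]
    rcases mul_self_eq_one_iff.1 ((pow_two _).symm.trans h5) with h | h
    · exfalso
      apply hθ
      apply MonoidHom.ext
      intro s
      rw [MonoidHom.pow_apply, MonoidHom.one_apply, ← map_pow]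
      by_cases hs : (s : Matrix.SpecialLinearGroup (Fin 2) F) ∈ Subgroup.center _
      · have : s ^ 2 = 1 := by
          apply Subtype.ext
          rcases (mem_center_iff' _).1 hs with h6 | h6
          · rw [Subgroup.coe_pow, h6]; simp
          · rw [Subgroup.coe_pow, h6]; simp
        rw [this, map_one]
      · rw [hkey s hs]
        exact Units.ext (by rw [h, Units.val_one])
    · exact h
  rw [cusp_SC θ h0 hg]
  have e1 := xt_coe θ ⟨g, hg.1⟩
  have e2 := xt_coe θ (⟨g, hg.1⟩ : Subgroup.centralizer ({A₀} : Set (Matrix.SpecialLinearGroup (Fin 2) F)))⁻¹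
  simp only [Subgroup.coe_inv, map_inv] at e1 e2
  rw [e1, e2, Units.val_inv_eq_inv_val]
  have h7 := hkey ⟨g, hg.1⟩ hg.2
  have h8 : (θ ⟨g, hg.1⟩ : ℂ) ^ 2 = -1 := by
    rw [← Units.val_pow_eq_pow_val, ← map_pow, h7, hθm]
  have h9 : (θ ⟨g, hg.1⟩ : ℂ) ≠ 0 := (θ ⟨g, hg.1⟩).ne_zero
  field_simp
  rw [h8]; ring

/-- if some unit has square different from one, `q ≥ 4` -/
theorem four_le {F : Type*} [Field F] [Fintype F] {c : F} (hc : c ^ 2 ≠ 1) (hc0 : c ≠ 0)
    (hodd : Odd (Fintype.card F)) : 4 ≤ Fintype.card F := by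
  by_contra h
  push Not at h
  have h2 : 1 < Fintype.card F := Fintype.one_lt_card
  have h3 : Fintype.card F = 3 := by
    obtain ⟨k, hk⟩ := hodd
    omega
  apply hc
  have := FiniteField.pow_card_sub_one_eq_one c hc0
  rw [h3] at this
  exact this

/-- Over a finite field F with q elements, q odd: every irreducible complex character of SL₂ of degree q − 1 or (q − 1)/2 vanishes at every diagonal matrix whose diagonal entry a has a² ≠ 1, and every irreducible complex character of degree q + 1 or (q + 1)/2 vanishes at every element with no eigenvector in F². -/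
theorem result {F : Type*} [Field F] [Fintype F] (hodd : Odd (Fintype.card F)) (χ : Matrix.SpecialLinearGroup (Fin 2) F → ℂ) (hχ : Cfsg.IsIrrCharacter (Matrix.SpecialLinearGroup (Fin 2) F) χ) (g : Matrix.SpecialLinearGroup (Fin 2) F) :
    ((χ 1 = (Fintype.card F : ℂ) - 1 ∨ χ 1 = (((Fintype.card F - 1) / 2 : ℕ) : ℂ)) →
      (g : Matrix (Fin 2) (Fin 2) F) 0 1 = 0 → (g : Matrix (Fin 2) (Fin 2) F) 1 0 = 0 → (g : Matrix (Fin 2) (Fin 2) F) 0 0 ^ 2 ≠ 1 → χ g = 0) ∧
    ((χ 1 = (Fintype.card F : ℂ) + 1 ∨ χ 1 = (((Fintype.card F + 1) / 2 : ℕ) : ℂ)) →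
      (∀ (c : F) (v : Fin 2 → F), v ≠ 0 → (g : Matrix (Fin 2) (Fin 2) F).mulVec v ≠ c • v) → χ g = 0) := by
  classical
  have hqn : Nat.card F = Fintype.card F := Nat.card_eq_fintype_card
  have hq : (Nat.card F : ℂ) = (Fintype.card F : ℂ) := by rw [hqn]
  obtain ⟨k, hk⟩ := hodd
  constructor
  · intro hdeg h01 h10 h00
    have hd := det2 g
    rw [h01, h10] at hd
    have hc0 : (g : Matrix (Fin 2) (Fin 2) F) 0 0 ≠ 0 := by
      intro h; rw [h] at hd; simp at hd
    have h4 := four_le h00 hc0 ⟨k, hk⟩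
    have hmem : g ∈ (ST : Set (Matrix.SpecialLinearGroup (Fin 2) F)) := by
      refine ⟨h01, h10, fun h => h00 ?_⟩
      rw [← h] at hd
      linear_combination hd
    obtain ⟨A₀, h0⟩ := exists_isEll (F := F)
    obtain ⟨d, hd, hcases⟩ := classify' h0 hχ
    have hdd : d + 1 = Nat.card F ∨ 2 * d + 1 = Nat.card F := by
      rcases hdeg with h | h
      · left
        rw [hd, ← hq] at h
        have : (d : ℂ) + 1 = Nat.card F := by linear_combination h
        exact_mod_cast this
      · right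
        rw [hd] at h
        have : d = (Fintype.card F - 1) / 2 := by exact_mod_cast h
        rw [hqn]
        omega
    rcases hcases with h | h | h | h | h | h
    · omega
    · omega
    · omega
    · obtain ⟨⟨θ, hθ, rfl⟩, _⟩ := h
      exact cusp_ST θ h0 hmem
    · omega
    · obtain ⟨⟨θ, hθ, hθ1, hne⟩, _⟩ := h
      exact vanish_ST hχ.isClassFunction (half_cusp h0 hχ hθ hθ1 hne).2.2.1 hmem
  · intro hdeg hev
    have h0 : IsEll g := fun c => no_root_of_no_eigenvector hev c
    have hmem : g ∈ SC g := ⟨mem_centralizer_self g, not_mem_center_of_tr (sq_ne_four_of_no_root h0)⟩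
    obtain ⟨d, hd, hcases⟩ := classify' h0 hχ
    have h2 : 2 ≤ Nat.card F := two_le_q
    have hdd : d = Nat.card F + 1 ∨ 2 * d = Nat.card F + 1 := by
      rcases hdeg with h | h
      · left
        rw [hd, ← hq] at h
        exact_mod_cast h
      · right
        rw [hd] at h
        have : d = (Fintype.card F + 1) / 2 := by exact_mod_cast h
        rw [hqn]
        omega
    rcases hcases with h | h | h | h | h | h
    · omega
    · omega
    · obtain ⟨⟨α, hα, rfl⟩, _⟩ := h
      exact R_SC α h0 hmem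
    · obtain ⟨⟨θ, hθ, rfl⟩, _⟩ := h
      have h3 : Nat.card F = 3 := by omega
      exact cusp_vanish_three h3 h0 hθ hmem
    · obtain ⟨⟨α, hα, hα1, hne⟩, _⟩ := h
      exact vanish_SC h0 hχ.isClassFunction (half_ps h0 hχ hα hα1 hne).2.2.1 hmem
    · omega

end Cfsg.Agent.S2322
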