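import Cfsg.Statements.S2323
import Cfsg.Agent.Lib.SL2Deg

set_option autoImplicit false
open Cfsg

namespace Cfsg.Agent.S2323

open Cfsg.Agent.Lib.SL2Basic Cfsg.Agent.Lib.SL2Tori Cfsg.Agent.Lib.SL2Int Cfsg.Agent.Lib.SL2Ind Cfsg.Agent.Lib.SL2Ortho Cfsg.Agent.Lib.SL2Class Cfsg.Agent.Lib.SL2Vals Cfsg.Agent.Lib.SL2Deg

/-- Over a finite field F with q ≥ 4 elements, let u be the upper unitriangular matrix of SL₂ with off-diagonal entry 1. An irreducible complex character of SL₂ takes at u the value 1 if its degree is q + 1 and the value −1 if its degree is q − 1. -/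
theorem result {F : Type*} [Field F] [Fintype F] (hq : 4 ≤ Fintype.card F) (χ : Matrix.SpecialLinearGroup (Fin 2) F → ℂ) (hχ : Cfsg.IsIrrCharacter (Matrix.SpecialLinearGroup (Fin 2) F) χ)
    (u : Matrix.SpecialLinearGroup (Fin 2) F) (hu : (u : Matrix (Fin 2) (Fin 2) F) = !![1, 1; 0, 1]) :
    (χ 1 = (Fintype.card F : ℂ) + 1 → χ u = 1) ∧ (χ 1 = (Fintype.card F : ℂ) - 1 → χ u = -1) := by
  classical
  have hqn : Nat.card F = Fintype.card F := Nat.card_eq_fintype_card
  have hq : (Nat.card F : ℂ) = (Fintype.card F : ℂ) := by rw [hqn]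
  obtain ⟨A₀, h0⟩ := exists_isEll (F := F)
  obtain ⟨d, hd, hcases⟩ := classify' h0 hχ
  have hu' : u = 1 * uu (((1 : Fˣ) : F)) := by
    rw [one_mul]
    apply Subtype.ext
    rw [hu]; rfl
  have h1Z : (1 : Matrix.SpecialLinearGroup (Fin 2) F) ∈ Zs F := by simp [Zs]
  constructor
  · intro h
    have hd' : d = Nat.card F + 1 := by
      rw [hd, ← hq] at h; exact_mod_cast h
    rcases hcases with h | h | h | h | h | h
    · omega
    · omega
    · obtain ⟨⟨α, hα, rfl⟩, _⟩ := h
      rw [hu', R_par _ (mul_uu_mem_SP h1Z 1), mul_uu_00 h1Z]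
      simp
    · omega
    · omega
    · omega
  · intro h
    have hd' : d + 1 = Nat.card F := by
      rw [hd, ← hq] at h
      have : (d : ℂ) + 1 = Nat.card F := by linear_combination h
      exact_mod_cast this
    rcases hcases with h | h | h | h | h | h
    · omega
    · omega
    · omega
    · obtain ⟨⟨θ, hθ, rfl⟩, _⟩ := h
      rw [hu', cusp_par θ h0 h1Z 1]
      have := xt_coe θ 1
      rw [Subgroup.coe_one] at this
      rw [this]; simp
    · omega
    · omega

end Cfsg.Agent.S2323
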