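import Cfsg.Statements.S2324
import Cfsg.Agent.Lib.SL2Half

set_option autoImplicit false
open Cfsg

namespace Cfsg.Agent.S2324

open Cfsg.Agent.Lib.SL2Basic Cfsg.Agent.Lib.SL2Tori Cfsg.Agent.Lib.SL2Int Cfsg.Agent.Lib.SL2Ind Cfsg.Agent.Lib.SL2Ortho Cfsg.Agent.Lib.SL2Class Cfsg.Agent.Lib.SL2Vals Cfsg.Agent.Lib.SL2Deg Cfsg.Agent.Lib.LinChar Cfsg.Agent.Lib.CharBasic Cfsg.Agent.Lib.SL2Count Cfsg.Agent.Lib.SL2Half

/-- Over a finite field F with q elements, q odd and q ≥ 5, let u be the upper unitriangular matrix of SL₂ with off-diagonal entry 1 and let δ = (−1)^((q−1)/2). Every irreducible complex character χ of SL₂ of degree (q + 1)/2 satisfies (2χ(u) − 1)² = δq, and every irreducible complex character χ of degree (q − 1)/2 satisfies (2χ(u) + 1)² = δq; that is, χ(u) = (1 ± √(δq))/2 in the first case and χ(u) = (−1 ± √(δq))/2 in the second. Moreover two different irreducible characters of degree (q + 1)/2 take the two different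 values (their values at u add up to 1), and likewise for degree (q − 1)/2 (values adding up to −1). -/
theorem result {F : Type*} [Field F] [Fintype F] (hodd : Odd (Fintype.card F)) (hq : 5 ≤ Fintype.card F)
    (u : Matrix.SpecialLinearGroup (Fin 2) F) (hu : (u : Matrix (Fin 2) (Fin 2) F) = !![1, 1; 0, 1]) :
    (∀ χ : Matrix.SpecialLinearGroup (Fin 2) F → ℂ, Cfsg.IsIrrCharacter (Matrix.SpecialLinearGroup (Fin 2) F) χ → χ 1 = (((Fintype.card F + 1) / 2 : ℕ) : ℂ) → (2 * χ u - 1) ^ 2 = (-1 : ℂ) ^ ((Fintype.card F - 1) / 2) * (Fintype.card F : ℂ)) ∧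
    (∀ χ : Matrix.SpecialLinearGroup (Fin 2) F → ℂ, Cfsg.IsIrrCharacter (Matrix.SpecialLinearGroup (Fin 2) F) χ → χ 1 = (((Fintype.card F - 1) / 2 : ℕ) : ℂ) → (2 * χ u + 1) ^ 2 = (-1 : ℂ) ^ ((Fintype.card F - 1) / 2) * (Fintype.card F : ℂ)) ∧
    (∀ χ₁ χ₂ : Matrix.SpecialLinearGroup (Fin 2) F → ℂ, Cfsg.IsIrrCharacter (Matrix.SpecialLinearGroup (Fin 2) F) χ₁ → Cfsg.IsIrrCharacter (Matrix.SpecialLinearGroup (Fin 2) F) χ₂ → χ₁ ≠ χ₂ →
      χ₁ 1 = (((Fintype.card F + 1) / 2 : ℕ) : ℂ) → χ₂ 1 = (((Fintype.card F + 1) / 2 : ℕ) : ℂ) → χ₁ u + χ₂ u = 1) ∧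
    (∀ χ₁ χ₂ : Matrix.SpecialLinearGroup (Fin 2) F → ℂ, Cfsg.IsIrrCharacter (Matrix.SpecialLinearGroup (Fin 2) F) χ₁ → Cfsg.IsIrrCharacter (Matrix.SpecialLinearGroup (Fin 2) F) χ₂ → χ₁ ≠ χ₂ →
      χ₁ 1 = (((Fintype.card F - 1) / 2 : ℕ) : ℂ) → χ₂ 1 = (((Fintype.card F - 1) / 2 : ℕ) : ℂ) → χ₁ u + χ₂ u = -1) := by
  classical
  have hqn : Nat.card F = Fintype.card F := Nat.card_eq_fintype_card
  have hq' : (Nat.card F : ℂ) = (Fintype.card F : ℂ) := by rw [hqn]
  have hoddn : Odd (Nat.card F) := by rw [hqn]; exact hodd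
  have h2F := two_ne_zero_of_odd hodd
  obtain ⟨α, ν, hQ⟩ := exists_quad (F := F) hoddn
  obtain ⟨A₀, h0⟩ := exists_isEll (F := F)
  have hcyc := C_cyclic h0
  have hu' : u = uu 1 := by
    apply Subtype.ext
    rw [hu]; rfl
  subst hu'
  obtain ⟨k, hk⟩ := id hodd
  have hθ : ∃ θ : Subgroup.centralizer ({A₀} : Set (Matrix.SpecialLinearGroup (Fin 2) F)) →* ℂˣ,
      θ ^ 2 = 1 ∧ θ ≠ 1 := by
    have h : Nat.card {θ : Subgroup.centralizer ({A₀} : Set (Matrix.SpecialLinearGroup (Fin 2) F)) →* ℂˣ //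
      θ ^ 2 = 1} = 2 := by
      apply card_sq_one_even
      rw [C_card h0]
      exact ⟨k + 1, by omega⟩
    rw [Nat.card_eq_two_iff] at h
    obtain ⟨⟨a, ha⟩, ⟨b, hb⟩, hab, _⟩ := h
    by_cases h1 : a = 1
    · exact ⟨b, hb, fun h => hab (Subtype.ext (h1.trans h.symm))⟩
    · exact ⟨a, ha, h1⟩
  obtain ⟨θ₀, hθ2, hθ1⟩ := hθ
  have hθu : ∀ θ : Subgroup.centralizer ({A₀} : Set (Matrix.SpecialLinearGroup (Fin 2) F)) →* ℂˣ,
      θ ^ 2 = 1 → θ ≠ 1 → θ = θ₀ := fun θ h h1 => sq_one_unique h hθ2 h1 hθ1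
  have hps : ∀ χ : Matrix.SpecialLinearGroup (Fin 2) F → ℂ, IsIrrCharacter _ χ →
      χ 1 = (((Fintype.card F + 1) / 2 : ℕ) : ℂ) → classInner χ (R α) ≠ 0 := by
    intro χ hχ h1
    obtain ⟨d, hd, hcases⟩ := classify' h0 hχ
    have hd1 : d = (Fintype.card F + 1) / 2 := by
      rw [hd] at h1; exact_mod_cast h1
    rcases hcases with h | h | h | h | h | h
    · omega
    · omega
    · omega
    · omega
    · obtain ⟨⟨β, h1, h2, h3⟩, _⟩ := h
      rw [hQ.unique h1 h2] at h3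
      exact h3
    · omega
  have hcu : ∀ χ : Matrix.SpecialLinearGroup (Fin 2) F → ℂ, IsIrrCharacter _ χ →
      χ 1 = (((Fintype.card F - 1) / 2 : ℕ) : ℂ) → classInner χ (cusp θ₀) ≠ 0 := by
    intro χ hχ h1
    obtain ⟨d, hd, hcases⟩ := classify' h0 hχ
    have hd1 : d = (Fintype.card F - 1) / 2 := by
      rw [hd] at h1; exact_mod_cast h1
    rcases hcases with h | h | h | h | h | h
    · omega
    · omega
    · omega
    · omega
    · omega
    · obtain ⟨⟨β, h1, h2, h3⟩, _⟩ := h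
      rw [hθu β h1 h2] at h3
      exact h3
  -- the sign
  have hsign : α (-1) = (-1 : ℂ) ^ ((Fintype.card F - 1) / 2) := by
    have hiff := FiniteField.isSquare_neg_one_iff (F := F)
    have hsq := hQ.sq_iff (-1)
    have e1 : ((-1 : Fˣ) : F) = -1 := by simp
    rw [e1] at hsq
    have hsq2 : (∃ r : Fˣ, (-1 : Fˣ) = r ^ 2) ↔ IsSquare (-1 : F) := by
      constructor
      · rintro ⟨r, hr⟩
        refine ⟨(r : F), ?_⟩
        rw [← Units.val_mul, ← pow_two, ← hr, e1]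
      · rintro ⟨r, hr⟩
        have hr0 : r ≠ 0 := by
          rintro rfl
          rw [mul_zero] at hr
          exact one_ne_zero (neg_eq_zero.1 hr)
        exact ⟨Units.mk0 r hr0, Units.ext (by rw [e1, hr, Units.val_pow_eq_pow_val, Units.val_mk0, pow_two])⟩
    rw [hsq2, hiff] at hsq
    have hval := hQ.val_cases (-1)
    rw [e1] at hval
    by_cases h4 : Fintype.card F % 4 ≠ 3
    · rw [hsq.2 h4, Even.neg_one_pow]
      rw [Nat.even_iff]
      omega
    · rcases hval with h5 | h5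
      · exact absurd (hsq.1 h5) h4
      · rw [h5, Odd.neg_one_pow]
        rw [Nat.odd_iff]
        omega
  refine ⟨?_, ?_, ?_, ?_⟩
  · intro χ hχ hdeg
    have hne := hps χ hχ hdeg
    have h1 := diff_sq hQ hχ (half_ps_sum hQ hχ hne) (by norm_num) (half_ps_norm h2F hQ hχ hne)
    rw [h1, hsign, hq']
  · intro χ hχ hdeg
    have hne := hcu χ hχ hdeg
    have h1 := diff_sq hQ hχ (half_cusp_sum hQ h0 hχ hθ2 hθ1 hne) (by norm_num)
      (half_cusp_norm h2F hQ h0 hχ hθ2 hθ1 hne)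
    rw [sub_neg_eq_add] at h1
    rw [h1, hsign, hq']
  · intro χ₁ χ₂ h1 h2 hne hd1 hd2
    have hinv : α = α⁻¹ := mul_eq_one_iff_eq_inv.1 (by rw [← pow_two]; exact hQ.sq)
    have hnorm : classInner (R α) (R α) = 2 := by
      rw [inner_R_R, if_pos rfl, if_pos hinv]; norm_num
    obtain ⟨a, b, ha, hb, hab, hR⟩ := exists_two_irr (R_isCharacter α) hnorm
    have key : ∀ χ : Matrix.SpecialLinearGroup (Fin 2) F → ℂ, IsIrrCharacter _ χ →
        classInner χ (R α) ≠ 0 → χ = a ∨ χ = b := by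
      intro χ hχ h3
      by_contra hcon
      push Not at hcon
      apply h3
      rw [hR, classInner_add_right, hχ.classInner_eq_zero ha hcon.1,
        hχ.classInner_eq_zero hb hcon.2, add_zero]
    have hval : R α (uu 1) = 1 := by
      have := R_par α (mul_uu_mem_SP (z := 1) (F := F) (by simp [Zs]) 1)
      rw [one_mul, Units.val_one] at this
      rw [this]
      simp [coe_uu]
    have hval2 : a (uu 1) + b (uu 1) = 1 := by rw [← hval, hR]; rfl
    rcases key χ₁ h1 (hps χ₁ h1 hd1) with e1 | e1 <;> rcases key χ₂ h2 (hps χ₂ h2 hd2) with e2 | e2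
    · exact absurd (e1.trans e2.symm) hne
    · rw [e1, e2]; exact hval2
    · rw [e1, e2, add_comm]; exact hval2
    · exact absurd (e1.trans e2.symm) hne
  · intro χ₁ χ₂ h1 h2 hne hd1 hd2
    have hnorm : classInner (cusp θ₀) (cusp θ₀) = 2 := by
      rw [inner_cusp_cusp h0, if_pos rfl, if_pos ((hom_eq_inv_iff θ₀).2 hθ2)]; norm_num
    obtain ⟨a, b, ha, hb, hab, hR⟩ := exists_two_irr (cusp_isCharacter h0 hθ2 hθ1) hnorm
    have key : ∀ χ : Matrix.SpecialLinearGroup (Fin 2) F → ℂ, IsIrrCharacter _ χ →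
        classInner χ (cusp θ₀) ≠ 0 → χ = a ∨ χ = b := by
      intro χ hχ h3
      by_contra hcon
      push Not at hcon
      apply h3
      rw [hR, classInner_add_right, hχ.classInner_eq_zero ha hcon.1,
        hχ.classInner_eq_zero hb hcon.2, add_zero]
    have hval : cusp θ₀ (uu 1) = -1 := by
      have := cusp_par θ₀ h0 (z := 1) (by simp [Zs]) 1
      rw [one_mul, Units.val_one] at this
      rw [this]
      have := xt_coe θ₀ 1
      rw [Subgroup.coe_one] at this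
      rw [this]; simp
    have hval2 : a (uu 1) + b (uu 1) = -1 := by rw [← hval, hR]; rfl
    rcases key χ₁ h1 (hcu χ₁ h1 hd1) with e1 | e1 <;> rcases key χ₂ h2 (hcu χ₂ h2 hd2) with e2 | e2
    · exact absurd (e1.trans e2.symm) hne
    · rw [e1, e2]; exact hval2
    · rw [e1, e2, add_comm]; exact hval2
    · exact absurd (e1.trans e2.symm) hne

end Cfsg.Agent.S2324
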