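import Cfsg.Statements.S2325
import Cfsg.Agent.Lib.SL2Count

set_option autoImplicit false
open Cfsg

namespace Cfsg.Agent.S2325

open Cfsg.Agent.Lib.SL2Basic Cfsg.Agent.Lib.SL2Tori Cfsg.Agent.Lib.SL2Int Cfsg.Agent.Lib.SL2Ind Cfsg.Agent.Lib.SL2Ortho Cfsg.Agent.Lib.SL2Class Cfsg.Agent.Lib.SL2Vals Cfsg.Agent.Lib.SL2Deg Cfsg.Agent.Lib.LinChar Cfsg.Agent.Lib.CharBasic Cfsg.Agent.Lib.SL2Count

/-- Over a finite field with q elements, q odd, the special linear group SL₂ has exactly q + 4 conjugacy classes. -/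
theorem result {F : Type*} [Field F] [Fintype F] (hodd : Odd (Fintype.card F)) :
    Nat.card (ConjClasses (Matrix.SpecialLinearGroup (Fin 2) F)) = Fintype.card F + 4 := by
  classical
  rw [card_conjClasses, card_Zs_odd (two_ne_zero_of_odd hodd), Nat.card_eq_fintype_card]
  rfl

end Cfsg.Agent.S2325
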