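import Cfsg.Statements.S2327
import Cfsg.Agent.Lib.StChev
import Cfsg.Agent.Lib.StTits5

set_option autoImplicit false
open Cfsg

namespace Cfsg.Agent.S2327

/-- In a Chevalley group of type G₂, B₂, D₄, F₄, E₆, E₇ or E₈ over a finite field with q elements, the Steinberg character (the alternating sum of the permutation characters on the standard parabolic subgroups) has degree q^N, N the number of positive roots; this is the order of U and the largest power of the characteristic dividing the group order. -/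
theorem result {F : Type*} [Field F] [Fintype F] (D : Cfsg.Lie.ChevalleyDatum) (hD : D ∈ [Cfsg.Lie.chevG2, Cfsg.Lie.chevB2, Cfsg.Lie.chevD4, Cfsg.Lie.chevF4, Cfsg.Lie.chevE6, Cfsg.Lie.chevE7, Cfsg.Lie.chevE8]) :
    D.steinbergCharacter F 1 = (Fintype.card F : ℂ) ^ (D.nroots / 2) := by
  classical
  obtain ⟨G⟩ := Cfsg.Agent.Lib.ChevRel.good_of_mem hD
  obtain ⟨p, hp⟩ := CharP.exists F
  have hpp : Fact p.Prime := ⟨CharP.char_is_prime F p⟩
  have : Fintype (Cfsg.Agent.Lib.ChevBN.bnPair G F).S := Fintype.ofFinite _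
  rw [Cfsg.Agent.Lib.StChev.steinberg_eq G, (Cfsg.Agent.Lib.StChev.sbn G p).st_one_eq]
  have h1 : Nat.card (Cfsg.Agent.Lib.StChev.sbn G (F := F) p).U = Fintype.card F ^ (D.nroots / 2) := by
    rw [← Cfsg.Agent.Lib.ChevU.card_posUnipotent G]
    exact Cfsg.Agent.Lib.ChevStd.card_Us G
  rw [h1]
  push_cast
  rfl

end Cfsg.Agent.S2327
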