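import Cfsg.Statements.S2329
import Cfsg.Agent.Lib.ClGL2Cls

set_option autoImplicit false
open Cfsg

namespace Cfsg.Agent.S2329

open Cfsg.Agent.Lib

theorem facts {F : Type*} [Field F] (p : ℕ) [Fact p.Prime] [CharP F p] (g : Matrix.GeneralLinearGroup (Fin 2) F)
    (hg : orderOf g = p) : ¬ ClGL2Cls.IsSc (g : Matrix (Fin 2) (Fin 2) F) ∧
      (g : Matrix (Fin 2) (Fin 2) F).trace = 2 ∧ (g : Matrix (Fin 2) (Fin 2) F).det = 1 := by
  have hp := Fact.out (p := p.Prime)
  have hp0 : p ≠ 0 := hp.ne_zero
  have h1 : g ^ p = 1 := by rw [← hg]; exact pow_orderOf_eq_one g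
  have hgm : (g : Matrix (Fin 2) (Fin 2) F) ^ p = 1 := by
    have := congrArg Units.val h1
    exact this
  set N : Matrix (Fin 2) (Fin 2) F := (g : Matrix (Fin 2) (Fin 2) F) - 1 with hN
  have hNp : N ^ p = 0 := by
    haveI : CharP (Matrix (Fin 2) (Fin 2) F) p := inferInstance
    have hc : Commute (g : Matrix (Fin 2) (Fin 2) F) 1 := Commute.one_right _
    rw [hN, sub_pow_char_of_commute p hc, hgm, one_pow, sub_self]
  have hNne : N ≠ 0 := by
    intro h
    have : g = 1 := by
      apply Units.ext
      exact sub_eq_zero.1 h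
    rw [this, orderOf_one] at hg
    exact hp.one_lt.ne hg
  have hdetN : N.det = 0 := by
    have h2 := congrArg Matrix.det hNp
    rw [Matrix.det_pow, Matrix.det_zero] at h2
    exact pow_eq_zero_iff hp0 |>.1 h2
  have hsq : N * N = N.trace • N := by
    rw [Matrix.det_fin_two] at hdetN
    ext i j
    fin_cases i <;> fin_cases j <;> simp [Matrix.mul_apply, Fin.sum_univ_two, Matrix.trace_fin_two] <;>
      first | ring1 | linear_combination -hdetN | linear_combination hdetN
  have hpow : ∀ k : ℕ, N ^ (k + 1) = (N.trace ^ k) • N := by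
    intro k
    induction k with
    | zero => simp
    | succ k ih => rw [pow_succ, ih, Matrix.smul_mul, hsq, smul_smul, pow_succ]
  have htrN : N.trace = 0 := by
    obtain ⟨k, rfl⟩ : ∃ k, p = k + 1 := ⟨p - 1, by have := hp.one_lt; omega⟩
    rw [hpow k] at hNp
    rcases smul_eq_zero.1 hNp with h | h
    · exact pow_eq_zero_iff (by have := hp.one_lt; omega) |>.1 h
    · exact absurd h hNne
  have htr : (g : Matrix (Fin 2) (Fin 2) F).trace = 2 := by
    rw [hN, Matrix.trace_sub, Matrix.trace_one] at htrN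
    simp at htrN
    linear_combination htrN
  have hdet : (g : Matrix (Fin 2) (Fin 2) F).det = 1 := by
    rw [Matrix.trace_fin_two] at htr
    rw [hN, Matrix.det_fin_two] at hdetN
    simp at hdetN
    rw [Matrix.det_fin_two]
    linear_combination hdetN + htr
  refine ⟨?_, htr, hdet⟩
  intro hsc
  rw [ClGL2Cls.isSc_iff] at hsc
  obtain ⟨h01, h10, h00⟩ := hsc
  apply hNne
  have hsq2 : N * N = 0 := by rw [hsq, htrN, zero_smul]
  have e := congrFun (congrFun hsq2 1) 1
  simp [Matrix.mul_apply, Fin.sum_univ_two, hN, h10] at e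
  have e1 : (g : Matrix (Fin 2) (Fin 2) F) 1 1 = 1 := by linear_combination e
  ext i j
  fin_cases i <;> fin_cases j <;> simp [hN, h01, h10, h00, e1]

/-- Over a finite field of characteristic p, any two elements of order p of GL₂ are conjugate: there is a single conjugacy class of non-identity unipotent elements. -/
theorem result {F : Type*} [Field F] [Fintype F] (p : ℕ) [Fact p.Prime] [CharP F p] (g h : Matrix.GeneralLinearGroup (Fin 2) F)
    (hg : orderOf g = p) (hh : orderOf h = p) : IsConj g h := by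
  obtain ⟨g1, g2, g3⟩ := facts p g hg
  obtain ⟨h1, h2, h3⟩ := facts p h hh
  exact ClGL2Cls.isConj_of_trace_det g1 h1 (g2.trans h2.symm) (g3.trans h3.symm)

end Cfsg.Agent.S2329
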