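import Cfsg.Statements.S2364
import Cfsg.Agent.Lib.ClCommUnip

set_option autoImplicit false
open Cfsg

namespace Cfsg.Agent.S2364

open Cfsg.Agent.Lib Matrix Module

theorem psl_pow {F : Type*} [Field F] [Fintype F] (p : ℕ) [Fact p.Prime] [CharP F p] (n : ℕ) (hn : 4 ≤ n)
    (a b : Matrix.ProjectiveSpecialLinearGroup (Fin n) F) (ha : orderOf a = p) (hab : Commute a b) :
    b ^ (Nat.card (GL (Fin (n - 2)) F) * p ^ 2) = 1 := by
  have hp := Fact.out (p := p.Prime)
  haveI : NeZero n := ⟨by omega⟩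
  haveI : Nonempty (Fin n) := ⟨0⟩
  obtain ⟨A, rfl⟩ := QuotientGroup.mk_surjective a
  obtain ⟨B, rfl⟩ := QuotientGroup.mk_surjective b
  have hAp : A ^ p ∈ Subgroup.center (Matrix.SpecialLinearGroup (Fin n) F) := by
    rw [← QuotientGroup.eq_one_iff, QuotientGroup.mk_pow, ← ha, pow_orderOf_eq_one]
  rw [Matrix.SpecialLinearGroup.mem_center_iff] at hAp
  obtain ⟨c, hc1, hc⟩ := hAp
  have hAm : (A : Matrix (Fin n) (Fin n) F) ^ p = c • 1 := by
    have : ((A ^ p : Matrix.SpecialLinearGroup (Fin n) F) : Matrix (Fin n) (Fin n) F) = A.1 ^ p := rfl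
    rw [← this, ← hc, Matrix.smul_one_eq_diagonal]
    rfl
  have hc0 : c ≠ 0 := by
    rintro rfl
    rw [Fintype.card_fin, zero_pow (by omega)] at hc1
    exact zero_ne_one hc1
  obtain ⟨c', hc'⟩ : ∃ c', c' ^ p = c := by
    have hinj : Function.Injective (frobenius F p) := frobenius_inj F p
    obtain ⟨c', hc'⟩ := (Finite.injective_iff_surjective.1 hinj) c
    exact ⟨c', hc'⟩
  have hc'0 : c' ≠ 0 := by
    rintro rfl
    rw [zero_pow hp.ne_zero] at hc'
    exact hc0 hc'.symm
  set A' : Matrix (Fin n) (Fin n) F := c'⁻¹ • A.1 with hA'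
  have hA'p : A' ^ p = 1 := by
    rw [hA', smul_pow, hAm, ← hc', inv_pow, smul_smul, inv_mul_cancel₀ (pow_ne_zero _ hc'0), one_smul]
  -- commutation
  obtain ⟨s, hs⟩ : ∃ s : F, A.1 * B.1 = s • (B.1 * A.1) := by
    have h1 : (QuotientGroup.mk (B * A) : Matrix.ProjectiveSpecialLinearGroup (Fin n) F) = QuotientGroup.mk (A * B) := by
      rw [QuotientGroup.mk_mul, QuotientGroup.mk_mul]
      exact hab.eq.symm
    rw [QuotientGroup.eq] at h1
    rw [Matrix.SpecialLinearGroup.mem_center_iff] at h1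
    obtain ⟨s, _, hs⟩ := h1
    refine ⟨s, ?_⟩
    have h2 : A * B = (B * A) * ((B * A)⁻¹ * (A * B)) := by group
    have h3 := congrArg (fun X : Matrix.SpecialLinearGroup (Fin n) F => X.1) h2
    change A.1 * B.1 = (B.1 * A.1) * ((B * A)⁻¹ * (A * B) : Matrix.SpecialLinearGroup (Fin n) F).1 at h3
    rw [h3]
    have h4 : ((B * A)⁻¹ * (A * B) : Matrix.SpecialLinearGroup (Fin n) F).1 = s • 1 := by
      rw [Matrix.smul_one_eq_diagonal]
      exact hs.symm
    rw [h4]
    simp
  have hs' : A' * B.1 = s • (B.1 * A') := by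
    rw [hA', Matrix.smul_mul, hs, Matrix.mul_smul, smul_comm]
  have hpow : ∀ i : ℕ, A' ^ i * B.1 = s ^ i • (B.1 * A' ^ i) := by
    intro i
    induction i with
    | zero => simp
    | succ i ih =>
      rw [pow_succ, mul_assoc, hs', Matrix.mul_smul, ← mul_assoc, ih, Matrix.smul_mul, smul_smul, mul_assoc,
        ← pow_succ, pow_succ' s]
  have hsp : s ^ p = 1 := by
    have h1 := hpow p
    rw [hA'p, one_mul, mul_one] at h1
    have hB0 : B.1 ≠ 0 := by
      intro h
      have := B.2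
      rw [h, Matrix.det_zero] at this
      exact zero_ne_one this
    have h2 : (1 - s ^ p) • B.1 = 0 := by rw [sub_smul, one_smul, ← h1, sub_self]
    rcases smul_eq_zero.1 h2 with h | h
    · exact (sub_eq_zero.1 h).symm
    · exact absurd h hB0
  have hs1 : s = 1 := by
    have h1 : (s - 1) ^ p = 0 := by rw [sub_pow_char, hsp, one_pow, sub_self]
    exact sub_eq_zero.1 ((pow_eq_zero_iff hp.ne_zero).1 h1)
  rw [hs1, one_smul] at hs'
  set Nm : Matrix (Fin n) (Fin n) F := A' - 1 with hNm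
  have hNp : Nm ^ p = 0 := by
    have hcm : Commute A' 1 := Commute.one_right _
    rw [hNm, sub_pow_char_of_commute p hcm, hA'p, one_pow, sub_self]
  have hN0 : Nm ≠ 0 := by
    intro h
    have h1 : A' = 1 := sub_eq_zero.1 h
    have h2 : A.1 = c' • 1 := by
      rw [← h1, hA', smul_smul, mul_inv_cancel₀ hc'0, one_smul]
    have h3 : A ∈ Subgroup.center (Matrix.SpecialLinearGroup (Fin n) F) := by
      rw [Subgroup.mem_center_iff]
      intro g
      apply Subtype.ext
      change g.1 * A.1 = A.1 * g.1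
      rw [h2]
      simp
    rw [← QuotientGroup.eq_one_iff] at h3
    rw [h3, orderOf_one] at ha
    exact hp.one_lt.ne ha
  have hcomm : Commute B.1 Nm := by
    change B.1 * (A' - 1) = (A' - 1) * B.1
    rw [mul_sub, sub_mul, hs', mul_one, one_mul]
  have hinj : Function.Injective (Matrix.toLin' B.1) := by
    rw [← LinearMap.ker_eq_bot, LinearMap.ker_eq_bot']
    intro x hx
    have h1 : (B⁻¹).1 *ᵥ (B.1 *ᵥ x) = x := by
      rw [Matrix.mulVec_mulVec]
      have : (B⁻¹).1 * B.1 = 1 := by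
        have := congrArg (fun X : Matrix.SpecialLinearGroup (Fin n) F => X.1) (inv_mul_cancel B)
        exact this
      rw [this, Matrix.one_mulVec]
    rw [Matrix.toLin'_apply] at hx
    rw [hx, Matrix.mulVec_zero] at h1
    exact h1.symm
  have hmain := ClCommUnip.pow_eq_one (F := F) (V := Fin n → F) p n hn (by simp) (Matrix.toLin' B.1)
    (Matrix.toLin' Nm) hinj ⟨p, by rw [← Matrix.toLin'_pow, hNp, map_zero]⟩
    (by
      intro h
      apply hN0
      exact Matrix.toLin'.injective (by rw [h, map_zero]))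
    (by
      change Matrix.toLin' B.1 * Matrix.toLin' Nm = Matrix.toLin' Nm * Matrix.toLin' B.1
      have e1 := Matrix.toLin'_mul B.1 Nm
      have e2 := Matrix.toLin'_mul Nm B.1
      change _ = Matrix.toLin' B.1 * Matrix.toLin' Nm at e1
      change _ = Matrix.toLin' Nm * Matrix.toLin' B.1 at e2
      rw [← e1, ← e2, hcomm.eq])
  have hB : B ^ (Nat.card (GL (Fin (n - 2)) F) * p ^ 2) = 1 := by
    apply Subtype.ext
    change B.1 ^ _ = 1
    apply Matrix.toLin'.injective
    rw [Matrix.toLin'_pow, hmain, Matrix.toLin'_one]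
    rfl
  rw [← QuotientGroup.mk_pow, hB, QuotientGroup.mk_one]

/-- Let F be a finite field of characteristic p, n ≥ 4, and let a, b be commuting elements of PSL(n, F) with a of order p. Then every prime divisor of the order of b divides the order of SL(n − 2, F). -/
theorem result {F : Type*} [Field F] [Fintype F] (p : ℕ) [Fact p.Prime] [CharP F p] (n : ℕ) (hn : 4 ≤ n)
    (a b : Matrix.ProjectiveSpecialLinearGroup (Fin n) F) (ha : orderOf a = p) (hab : Commute a b) :
    (orderOf b).primeFactors ⊆ (Nat.card (Matrix.SpecialLinearGroup (Fin (n - 2)) F)).primeFactors := by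
  classical
  have hpow := psl_pow p n hn a b ha hab
  have hp := Fact.out (p := p.Prime)
  have hp2 : 0 < p ^ 2 := pow_pos hp.pos 2
  obtain ⟨m, hm⟩ : ∃ m, n - 2 = m + 2 := ⟨n - 4, by omega⟩
  have hq2 : 2 ≤ Fintype.card F := Fintype.one_lt_card
  have hSL := ClSLn.card_SL_formula (F := F) rfl (n - 2) (by omega)
  have hGL := ClSLn.card_GL_eq (F := F) rfl (n - 2) (by omega)
  rw [hm] at hSL hGL hpow ⊢
  set q := Fintype.card F with hq
  have hSL' : Nat.card (Matrix.SpecialLinearGroup (Fin (m + 2)) F) =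
      q ^ ((m + 2) * (m + 1) / 2) * ((∏ i ∈ Finset.range m, (q ^ (i + 1 + 1 + 1) - 1)) * (q ^ 2 - 1)) := by
    apply Nat.eq_of_mul_eq_mul_left (show 0 < q - 1 by omega)
    rw [hSL, Finset.prod_range_succ', Finset.prod_range_succ']
    simp only [Nat.zero_add, pow_one, Nat.add_sub_cancel]
    rw [show m + 2 - 1 = m + 1 by omega]
    ring
  intro r hr
  rw [Nat.mem_primeFactors] at hr ⊢
  refine ⟨hr.1, ?_, Nat.card_pos.ne'⟩
  have h1 : r ∣ Nat.card (GL (Fin (m + 2)) F) * p ^ 2 := hr.2.1.trans (orderOf_dvd_of_pow_eq_one hpow)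
  have hq1 : (q - 1) ∣ q ^ 2 - 1 := by
    have := Nat.sub_dvd_pow_sub_pow q 1 2
    simpa using this
  rcases hr.1.dvd_mul.1 h1 with h | h
  · rw [hGL] at h
    rcases hr.1.dvd_mul.1 h with h | h
    · rw [hSL']
      exact ((h.trans hq1).mul_left _).mul_left _
    · exact h
  · have hrp : r ∣ p := hr.1.dvd_of_dvd_pow h
    have hpq : p ∣ q := ClSLn.dvd_card_field p
    rw [hSL']
    apply Dvd.dvd.mul_right
    apply (hrp.trans hpq).trans
    apply dvd_pow_self
    have : 2 ≤ (m + 2) * (m + 1) := by nlinarith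
    omega

end Cfsg.Agent.S2364
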