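import Cfsg.Statements.S2367

set_option autoImplicit false
open Cfsg

namespace Cfsg.Agent.S2367

lemma cube_lt (p : ℕ) (hp5 : 5 ≤ p) : p ^ 3 < 2 ^ (2 * p - 1) := by
  induction p, hp5 using Nat.le_induction with
  | base => norm_num
  | succ k hk ih =>
    have h1 : 2 * (k + 1) - 1 = (2 * k - 1) + 2 := by omega
    rw [h1, pow_add]
    have h2 : (k + 1) ^ 3 ≤ 4 * k ^ 3 := by nlinarith [Nat.mul_le_mul hk hk, mul_pos (show 0 < k by omega) (show 0 < k by omega)]
    omega

open Nat in
lemma alt_case (n p : ℕ) (hn : 5 ≤ n) (hp : p.Prime) (hodd : p ≠ 2) (h3 : (n.factorial / 2).factorization p = 3) :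
    p ^ 3 < 2 ^ (n.factorial / 2).factorization 2 := by
  have h2d : 2 ∣ n.factorial := Nat.dvd_factorial (by norm_num) (by omega)
  have hf0 : n.factorial ≠ 0 := Nat.factorial_ne_zero n
  have hfac : (n.factorial / 2).factorization = n.factorial.factorization - (2 : ℕ).factorization := Nat.factorization_div h2d
  have hp3 : n.factorial.factorization p = 3 := by
    rw [hfac, Finsupp.tsub_apply, Nat.Prime.factorization Nat.prime_two] at h3
    rw [Finsupp.single_apply, if_neg (Ne.symm hodd)] at h3
    simpa using h3
  have hp2 : (n.factorial / 2).factorization 2 = n.factorial.factorization 2 - 1 := by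
    rw [hfac, Finsupp.tsub_apply, Nat.Prime.factorization Nat.prime_two]
    simp
  have hpg : 3 ≤ p := by
    have := hp.two_le
    omega
  -- 3p ≤ n
  have h3p : 3 * p ≤ n := by
    by_contra hc
    push Not at hc
    have hlog : Nat.log p n < 2 := by
      apply Nat.log_lt_of_lt_pow (by omega)
      nlinarith
    rw [Nat.factorization_factorial hp hlog] at hp3
    rw [show Finset.Ico 1 2 = {1} from rfl, Finset.sum_singleton, pow_one] at hp3
    have : n / p < 3 := by
      rw [Nat.div_lt_iff_lt_mul (by omega)]
      omega
    omega
  have hp5 : 5 ≤ p := by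
    by_contra hc
    have : p = 3 ∨ p = 4 := by omega
    rcases this with rfl | rfl
    · have h9 : 3 ^ 4 ∣ n.factorial := dvd_trans (by decide : 3 ^ 4 ∣ Nat.factorial 9) (Nat.factorial_dvd_factorial (by omega))
      have := (Nat.Prime.pow_dvd_iff_le_factorization hp hf0).mp h9
      omega
    · exact absurd hp (by norm_num)
  have hv : n / 2 + n / 4 ≤ n.factorial.factorization 2 := by
    rw [Nat.factorization_factorial Nat.prime_two (b := Nat.log 2 n + 1) (by omega)]
    have hl : 3 ≤ Nat.log 2 n := by
      apply Nat.le_log_of_pow_le (by norm_num)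
      omega
    calc n / 2 + n / 4 = ∑ i ∈ ({1, 2} : Finset ℕ), n / 2 ^ i := by
          rw [Finset.sum_pair (by norm_num)]; norm_num
      _ ≤ _ := by
          apply Finset.sum_le_sum_of_subset
          intro x hx
          rw [Finset.mem_insert, Finset.mem_singleton] at hx
          rw [Finset.mem_Ico]
          omega
  rw [hp2]
  have hexp : 2 * p - 1 ≤ n.factorial.factorization 2 - 1 := by omega
  refine lt_of_lt_of_le ?_ (Nat.pow_le_pow_right (by norm_num) hexp)
  exact cube_lt p hp5

/-- the odd primes dividing orders of sporadic groups -/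
def L : List ℕ := [2,3,5,7,11,13,17,19,23,29,31,37,41,43,47,59,67,71]

lemma L_prime : ∀ p ∈ L, p.Prime := by
  intro p hp
  simp only [L, List.mem_cons, List.not_mem_nil, or_false] at hp
  rcases hp with rfl | rfl | rfl | rfl | rfl | rfl | rfl | rfl | rfl | rfl | rfl | rfl | rfl | rfl | rfl | rfl | rfl | rfl <;> norm_num

lemma spor (N a p : ℕ) (hN : N ≠ 0) (h1 : N ∣ (L.prod) ^ 46) (h2 : 2 ^ a ∣ N)
    (hchk : ∀ p ∈ L, p ≠ 2 → p ^ 3 ∣ N → ¬ p ^ 4 ∣ N → p ^ 3 < 2 ^ a)
    (hp : p.Prime) (hodd : p ≠ 2) (h3 : N.factorization p = 3) : p ^ 3 < 2 ^ N.factorization 2 := by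
  have hd3 : p ^ 3 ∣ N := (Nat.Prime.pow_dvd_iff_le_factorization hp hN).mpr (by omega)
  have hd4 : ¬ p ^ 4 ∣ N := fun h => by
    have := (Nat.Prime.pow_dvd_iff_le_factorization hp hN).mp h
    omega
  have hpL : p ∈ L := by
    have h5 : p ∣ L.prod ^ 46 := dvd_trans (dvd_trans (dvd_pow_self p (by norm_num)) hd3) h1
    have h6 : p ∣ L.prod := hp.dvd_of_dvd_pow h5
    rw [hp.prime.dvd_prod_iff] at h6
    obtain ⟨x, hx, hpx⟩ := h6
    rw [(Nat.prime_dvd_prime_iff_eq hp (L_prime x hx)).mp hpx]
    exact hx
  refine lt_of_lt_of_le (hchk p hpL hodd hd3 hd4) ?_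
  exact Nat.pow_le_pow_right (by norm_num) ((Nat.Prime.pow_dvd_iff_le_factorization Nat.prime_two hN).mp h2)


theorem spor_case {G : Type*} [Group G] (hG : Cfsg.IsSporadic G)
    (p : ℕ) (hp : p.Prime) (hodd : p ≠ 2) (h3 : (Nat.card G).factorization p = 3) :
    p ^ 3 < 2 ^ (Nat.card G).factorization 2 := by
  rcases hG with h | h | h | h | h | h | h | h | h | h | h | h | h | h | h | h | h | h | h | h | h | h | h | h | h | h
  all_goals rw [h.2] at h3 ⊢
  · exact spor 7920 4 p (by decide) (by decide +kernel) (by decide +kernel) (by decide +kernel) hp hodd h3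
  · exact spor 95040 6 p (by decide) (by decide +kernel) (by decide +kernel) (by decide +kernel) hp hodd h3
  · exact spor 443520 7 p (by decide) (by decide +kernel) (by decide +kernel) (by decide +kernel) hp hodd h3
  · exact spor 10200960 7 p (by decide) (by decide +kernel) (by decide +kernel) (by decide +kernel) hp hodd h3
  · exact spor 244823040 10 p (by decide) (by decide +kernel) (by decide +kernel) (by decide +kernel) hp hodd h3
  · exact spor 175560 3 p (by decide) (by decide +kernel) (by decide +kernel) (by decide +kernel) hp hodd h3
  · exact spor 604800 7 p (by decide) (by decide +kernel) (by decide +kernel) (by decide +kernel) hp hodd h3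
  · exact spor 50232960 7 p (by decide) (by decide +kernel) (by decide +kernel) (by decide +kernel) hp hodd h3
  · exact spor 86775571046077562880 21 p (by decide) (by decide +kernel) (by decide +kernel) (by decide +kernel) hp hodd h3
  · exact spor 4157776806543360000 21 p (by decide) (by decide +kernel) (by decide +kernel) (by decide +kernel) hp hodd h3
  · exact spor 42305421312000 18 p (by decide) (by decide +kernel) (by decide +kernel) (by decide +kernel) hp hodd h3
  · exact spor 495766656000 10 p (by decide) (by decide +kernel) (by decide +kernel) (by decide +kernel) hp hodd h3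
  · exact spor 64561751654400 17 p (by decide) (by decide +kernel) (by decide +kernel) (by decide +kernel) hp hodd h3
  · exact spor 4089470473293004800 18 p (by decide) (by decide +kernel) (by decide +kernel) (by decide +kernel) hp hodd h3
  · exact spor 1255205709190661721292800 21 p (by decide) (by decide +kernel) (by decide +kernel) (by decide +kernel) hp hodd h3
  · exact spor 44352000 9 p (by decide) (by decide +kernel) (by decide +kernel) (by decide +kernel) hp hodd h3
  · exact spor 898128000 7 p (by decide) (by decide +kernel) (by decide +kernel) (by decide +kernel) hp hodd h3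
  · exact spor 4030387200 10 p (by decide) (by decide +kernel) (by decide +kernel) (by decide +kernel) hp hodd h3
  · exact spor 145926144000 14 p (by decide) (by decide +kernel) (by decide +kernel) (by decide +kernel) hp hodd h3
  · exact spor 448345497600 13 p (by decide) (by decide +kernel) (by decide +kernel) (by decide +kernel) hp hodd h3
  · exact spor 460815505920 9 p (by decide) (by decide +kernel) (by decide +kernel) (by decide +kernel) hp hodd h3
  · exact spor 273030912000000 14 p (by decide) (by decide +kernel) (by decide +kernel) (by decide +kernel) hp hodd h3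
  · exact spor 51765179004000000 8 p (by decide) (by decide +kernel) (by decide +kernel) (by decide +kernel) hp hodd h3
  · exact spor 90745943887872000 15 p (by decide) (by decide +kernel) (by decide +kernel) (by decide +kernel) hp hodd h3
  · exact spor 4154781481226426191177580544000000 41 p (by decide) (by decide +kernel) (by decide +kernel) (by decide +kernel) hp hodd h3
  · exact spor 808017424794512875886459904961710757005754368000000000 46 p (by decide) (by decide +kernel) (by decide +kernel) (by decide +kernel) hp hodd h3

/-- Let G be an alternating group of degree at least 5 or a simple group with the order of one of the 26 sporadic groups, and let p be an odd prime such that p³ is the exact power of p dividing the order of G. Then p³ is less than the 2-part of the order of G. -/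
theorem result {G : Type*} [Group G] [Finite G] (hG : Cfsg.IsAlternating G ∨ Cfsg.IsSporadic G)
    (p : ℕ) (hp : p.Prime) (hodd : p ≠ 2) (h3 : (Nat.card G).factorization p = 3) :
    p ^ 3 < 2 ^ (Nat.card G).factorization 2 := by
  rcases hG with ⟨n, hn, ⟨e⟩⟩ | hG
  · have : Nontrivial (Fin n) := Fin.nontrivial_iff_two_le.mpr (by omega)
    have hc : Nat.card G = n.factorial / 2 := by
      rw [Nat.card_congr e.toEquiv, nat_card_alternatingGroup, Nat.card_eq_fintype_card, Fintype.card_fin]
    rw [hc] at h3 ⊢
    exact alt_case n p hn hp hodd h3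
  · exact spor_case hG p hp hodd h3

end Cfsg.Agent.S2367
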