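import Cfsg.Statements.S2368
import Mathlib

set_option autoImplicit false
open Cfsg

namespace Cfsg.Agent.S2368

/-- the nilpotent shift -/
def J (F : Type*) [Field F] (m : ℕ) : Matrix (Fin m) (Fin m) F := Matrix.of fun i j => if i.val + 1 = j.val then 1 else 0

lemma J_pow (F : Type*) [Field F] (m : ℕ) (hm : 1 ≤ m) (k : ℕ) (j : Fin m) :
    ((J F m) ^ k) ⟨0, by omega⟩ j = if k = j.val then 1 else 0 := by
  induction k generalizing j with
  | zero =>
    rw [pow_zero, Matrix.one_apply]
    simp [Fin.ext_iff]
  | succ k ih =>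
    rw [pow_succ, Matrix.mul_apply]
    simp only [ih]
    by_cases hk : k < m
    · rw [Finset.sum_eq_single (⟨k, hk⟩ : Fin m)]
      · simp [J]
      · intro b _ hb
        rw [if_neg, zero_mul]
        intro h; exact hb (Fin.ext h.symm)
      · simp
    · rw [Finset.sum_eq_zero, if_neg]
      · have := j.isLt; omega
      · intro b _
        rw [if_neg, zero_mul]
        have := b.isLt; omega

lemma J_pow_ne (F : Type*) [Field F] (m : ℕ) (hm : 1 ≤ m) (k : ℕ) (h : (J F m) ^ k = 0) : m ≤ k := by
  by_contra hc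
  push Not at hc
  have h1 := J_pow F m hm k ⟨k, hc⟩
  rw [h] at h1
  simp at h1

lemma J_pow_zero (F : Type*) [Field F] (m : ℕ) : (J F m) ^ m = 0 := by
  have h : ∀ k : ℕ, ∀ i j : Fin m, j.val < i.val + k → ((J F m) ^ k) i j = 0 := by
    intro k
    induction k with
    | zero =>
      intro i j hij
      rw [pow_zero, Matrix.one_apply, if_neg]
      rintro rfl; omega
    | succ k ih =>
      intro i j hij
      rw [pow_succ, Matrix.mul_apply]
      apply Finset.sum_eq_zero
      intro b _
      by_cases hb : b.val < i.val + k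
      · rw [ih i b hb, zero_mul]
      · simp only [J, Matrix.of_apply]
        rw [if_neg (by omega), mul_zero]
  ext i j
  exact h m i j (by have := j.isLt; omega)

lemma nilp_pow (F : Type*) [Field F] (m : ℕ) (N : Matrix (Fin m) (Fin m) F) (hN : IsNilpotent N) : N ^ m = 0 := by
  have h1 : IsNilpotent (Matrix.toLin' N) := by
    obtain ⟨k, hk⟩ := hN
    exact ⟨k, by rw [← Matrix.toLin'_pow, hk, map_zero]⟩
  have h2 := _root_.IsNilpotent.charpoly_eq_X_pow_finrank h1
  have h3 := LinearMap.aeval_self_charpoly (Matrix.toLin' N)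
  rw [h2, map_pow, Polynomial.aeval_X, Module.finrank_fin_fun, ← Matrix.toLin'_pow] at h3
  exact (LinearEquiv.map_eq_zero_iff _).mp h3

lemma pow_char_sub (F : Type*) [Field F] (p : ℕ) [Fact p.Prime] [CharP F p] (m : ℕ) (hm : 1 ≤ m) (N : Matrix (Fin m) (Fin m) F) (j : ℕ) :
    (1 + N) ^ p ^ j = 1 + N ^ p ^ j := by
  have : Nonempty (Fin m) := ⟨⟨0, by omega⟩⟩
  have : CharP (Matrix (Fin m) (Fin m) F) p := inferInstance
  have : ExpChar (Matrix (Fin m) (Fin m) F) p := ExpChar.prime Fact.out
  rw [add_pow_expChar_pow_of_commute _ _ (Commute.one_left N), one_pow]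

/-- Let F be a finite field of characteristic p and m ≥ 1. Every element of GL(m, F) of p-power order has order less than p·m, and GL(m, F) has an element of p-power order at least m; so the largest order of a p-element of GL(m, F) is the least power of p that is at least m. -/
theorem result {F : Type*} [Field F] [Fintype F] (p : ℕ) [Fact p.Prime] [CharP F p] (m : ℕ) (hm : 1 ≤ m) :
    (∀ g : Matrix.GeneralLinearGroup (Fin m) F, (∃ j : ℕ, orderOf g = p ^ j) → orderOf g < p * m) ∧
      ∃ g : Matrix.GeneralLinearGroup (Fin m) F, (∃ j : ℕ, orderOf g = p ^ j) ∧ m ≤ orderOf g := by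
  have hp := (Fact.out : p.Prime)
  constructor
  · rintro g ⟨j, hj⟩
    cases j with
    | zero =>
      rw [hj, pow_zero]
      have := hp.two_le
      nlinarith
    | succ j =>
      rw [hj, pow_succ, mul_comm]
      apply Nat.mul_lt_mul_of_pos_left _ hp.pos
      by_contra hc
      push Not at hc
      set N : Matrix (Fin m) (Fin m) F := (g : Matrix (Fin m) (Fin m) F) - 1 with hN
      have hg : (g : Matrix (Fin m) (Fin m) F) = 1 + N := by rw [hN]; abel
      have hnil : IsNilpotent N := by
        refine ⟨p ^ (j + 1), ?_⟩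
        have h1 : g ^ p ^ (j + 1) = 1 := by rw [← hj]; exact pow_orderOf_eq_one g
        have h2 : (g : Matrix (Fin m) (Fin m) F) ^ p ^ (j + 1) = 1 := by rw [← Units.val_pow_eq_pow_val, h1]; rfl
        rw [hg, pow_char_sub F p m hm] at h2
        simpa using h2
      have h3 : N ^ p ^ j = 0 := pow_eq_zero_of_le hc (nilp_pow F m N hnil)
      have h4 : g ^ p ^ j = 1 := by
        apply Units.ext
        rw [Units.val_pow_eq_pow_val, hg, pow_char_sub F p m hm, h3, add_zero]; rfl
      have h5 := orderOf_dvd_of_pow_eq_one h4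
      rw [hj] at h5
      have h6 := Nat.le_of_dvd (pow_pos hp.pos _) h5
      have h7 := Nat.pow_lt_pow_right hp.one_lt (show j < j + 1 by omega)
      omega
  · have hone : (1 + J F m) ^ p ^ m = 1 := by
      rw [pow_char_sub F p m hm, pow_eq_zero_of_le (Nat.lt_pow_self hp.one_lt).le (J_pow_zero F m), add_zero]
    have hpm : 0 < p ^ m := pow_pos hp.pos m
    let g : Matrix.GeneralLinearGroup (Fin m) F := ⟨1 + J F m, (1 + J F m) ^ (p ^ m - 1), by
      rw [← pow_succ']
      have : p ^ m - 1 + 1 = p ^ m := by omega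
      rw [this, hone], by
      rw [← pow_succ]
      have : p ^ m - 1 + 1 = p ^ m := by omega
      rw [this, hone]⟩
    have hg : g ^ p ^ m = 1 := by
      apply Units.ext
      rw [Units.val_pow_eq_pow_val]
      exact hone
    obtain ⟨j, _, hj⟩ := (Nat.dvd_prime_pow hp).mp (orderOf_dvd_of_pow_eq_one hg)
    refine ⟨g, ⟨j, hj⟩, ?_⟩
    rw [hj]
    apply J_pow_ne F m hm
    have h1 : g ^ p ^ j = 1 := by rw [← hj]; exact pow_orderOf_eq_one g
    have h2 : (1 + J F m) ^ p ^ j = 1 := by
      have := congrArg Units.val h1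
      rw [Units.val_pow_eq_pow_val] at this
      exact this
    rw [pow_char_sub F p m hm] at h2
    simpa using h2

end Cfsg.Agent.S2368
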