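import Cfsg.Statements.S2370
import Cfsg.Agent.Lib.F4Char2Lin

set_option autoImplicit false
open Cfsg

namespace Cfsg.Agent.S2370

open Cfsg.Agent.Lib.F4Char2 Cfsg.Lie Matrix

variable {K : Type*} [Field K]

lemma roots_mem (e : ℕ) (w : List (ℕ × K)) (hw : w ∈ f4Words K e) : ∀ p ∈ w, p.1 ∈ roots12 := by
  rcases hw with ⟨t, rfl | rfl⟩ | ⟨t, u, rfl | rfl⟩
  · intro p hp
    simp only [f4PairWord, List.mem_cons, List.mem_nil_iff, or_false] at hp
    rcases hp with rfl | rfl <;> simp [roots12, f4p1, f4p4]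
  · intro p hp
    simp only [f4PairWord, List.mem_cons, List.mem_nil_iff, or_false] at hp
    rcases hp with rfl | rfl <;> simp [roots12, f4m1, f4m4]
  · intro p hp
    simp only [b2ClassWord, List.mem_cons, List.mem_nil_iff, or_false] at hp
    rcases hp with rfl | rfl | rfl | rfl <;> simp [roots12, f4a, f4b, f4ab, f4aab]
  · intro p hp
    simp only [b2ClassWord, List.mem_cons, List.mem_nil_iff, or_false] at hp
    rcases hp with rfl | rfl | rfl | rfl <;> simp [roots12, f4ma, f4mb, f4mab, f4maab]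

/-- the subgroup preserving bracket and ideal -/
def PresGroup (K : Type*) [Field K] : Subgroup (GL chevF4.Idx K) where
  carrier := {g | Pres (g : Matrix chevF4.Idx chevF4.Idx K) ∧ Pres ((g⁻¹ : GL chevF4.Idx K) : Matrix chevF4.Idx chevF4.Idx K)}
  mul_mem' := fun {a b} ha hb => by
    refine ⟨?_, ?_⟩
    · rw [Units.val_mul]; exact ha.1.mul hb.1
    · rw [_root_.mul_inv_rev, Units.val_mul]; exact hb.2.mul ha.2
  one_mem' := by
    refine ⟨?_, ?_⟩
    · rw [Units.val_one]; exact Pres.one
    · rw [inv_one, Units.val_one]; exact Pres.one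
  inv_mem' := fun {a} ha => ⟨ha.2, by rw [inv_inv]; exact ha.1⟩

lemma pres_inv (g : GL chevF4.Idx K) (hg : Pres (g : Matrix chevF4.Idx chevF4.Idx K)) :
    Pres ((g⁻¹ : GL chevF4.Idx K) : Matrix chevF4.Idx chevF4.Idx K) := by
  have hgi : ∀ v : chevF4.Idx → K, (g : Matrix chevF4.Idx chevF4.Idx K) *ᵥ (((g⁻¹ : GL chevF4.Idx K) : Matrix chevF4.Idx chevF4.Idx K) *ᵥ v) = v := by
    intro v
    rw [Matrix.mulVec_mulVec, ← Units.val_mul, mul_inv_cancel, Units.val_one, Matrix.one_mulVec]
  have hgi' : ∀ v : chevF4.Idx → K, ((g⁻¹ : GL chevF4.Idx K) : Matrix chevF4.Idx chevF4.Idx K) *ᵥ ((g : Matrix chevF4.Idx chevF4.Idx K) *ᵥ v) = v := by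
    intro v
    rw [Matrix.mulVec_mulVec, ← Units.val_mul, inv_mul_cancel, Units.val_one, Matrix.one_mulVec]
  refine ⟨?_, ?_⟩
  · intro u v
    have h1 := hg.1 (((g⁻¹ : GL chevF4.Idx K) : Matrix chevF4.Idx chevF4.Idx K) *ᵥ u) (((g⁻¹ : GL chevF4.Idx K) : Matrix chevF4.Idx chevF4.Idx K) *ᵥ v)
    rw [hgi, hgi] at h1
    rw [h1, hgi']
  · intro v hv
    let φ : (chevF4.Idx → K) →ₗ[K] (chevF4.Idx → K) := Matrix.mulVecLin (g : Matrix chevF4.Idx chevF4.Idx K)
    have hinj : Function.Injective φ := by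
      intro a b hab
      have h2 : (g : Matrix chevF4.Idx chevF4.Idx K) *ᵥ a = (g : Matrix chevF4.Idx chevF4.Idx K) *ᵥ b := hab
      rw [← hgi' a, h2, hgi']
    have hle : (IK K).map φ ≤ IK K := by
      rintro _ ⟨w, hw, rfl⟩
      exact hg.2 w hw
    have heq : (IK K).map φ = IK K := by
      apply Submodule.eq_of_le_of_finrank_eq hle
      exact (LinearEquiv.finrank_eq (Submodule.equivMapOfInjective φ hinj (IK K))).symm
    have hv' : v ∈ (IK K).map φ := by rw [heq]; exact hv
    obtain ⟨w, hw, rfl⟩ := hv'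
    have : φ w = (g : Matrix chevF4.Idx chevF4.Idx K) *ᵥ w := rfl
    rw [this, hgi']
    exact hw

lemma twisted_le [CharP K 2] (e : ℕ) : Cfsg.Lie.twistedF4 K e ≤ PresGroup K := by
  unfold Cfsg.Lie.twistedF4 ChevalleyDatum.genSubgroup
  rw [Subgroup.closure_le]
  rintro g ⟨w, hw, hg⟩
  have h1 : Pres (g : Matrix chevF4.Idx chevF4.Idx K) := by
    rw [hg]; exact Pres.word w (roots_mem e w hw)
  exact ⟨h1, pres_inv g h1⟩

lemma finrank_IK : Module.finrank K (IK K) ≤ 32 := by
  classical
  let S : Finset chevF4.Idx := Finset.univ.filter fun i => idl.contains (code i) = true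
  have hS : S.card ≤ 26 := by
    have h1 : S.card ≤ idl.toFinset.card := by
      apply Finset.card_le_card_of_injOn code
      · intro i hi
        have h2 : idl.contains (code i) = true := (Finset.mem_filter.mp hi).2
        simpa using h2
      · intro i _ j _ hij
        exact code_inj hij
    have h2 : idl.toFinset.card ≤ idl.length := List.toFinset_card_le _
    have h3 : idl.length = 26 := rfl
    omega
  let T : Finset (chevF4.Idx → K) := S.image fun i => Pi.single i 1
  have hle : IK K ≤ Submodule.span K (T : Set (chevF4.Idx → K)) := by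
    intro v hv
    have h1 : v = ∑ i, v i • (Pi.single i (1:K) : chevF4.Idx → K) := by
      ext j
      rw [Finset.sum_apply, Finset.sum_eq_single j]
      · simp
      · intro b _ hb; simp [Ne.symm hb]
      · intro h; exact absurd (Finset.mem_univ _) h
    rw [h1]
    apply Submodule.sum_mem
    intro i _
    by_cases hi : idl.contains (code i) = true
    · apply Submodule.smul_mem
      apply Submodule.subset_span
      rw [Finset.mem_coe, Finset.mem_image]
      exact ⟨i, Finset.mem_filter.mpr ⟨Finset.mem_univ _, hi⟩, rfl⟩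
    · rw [hv i (by simpa using hi), zero_smul]; exact Submodule.zero_mem _
  calc Module.finrank K (IK K) ≤ Module.finrank K (Submodule.span K (T : Set (chevF4.Idx → K))) :=
        Submodule.finrank_mono hle
    _ ≤ T.card := finrank_span_finset_le_card T
    _ ≤ S.card := Finset.card_image_le
    _ ≤ 32 := by omega

/-- Let q = 2^(2m+1) with m ≥ 1. Every element of 2-power order of the large Ree group ²F₄(q) has order at most 32. -/
theorem result {K : Type*} [Field K] [Fintype K] (m : ℕ) (hm : 1 ≤ m) (hK : Fintype.card K = 2 ^ (2 * m + 1))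
    (x : ↥(Cfsg.Lie.twistedF4 K (2 ^ m))) (hx : ∃ j : ℕ, orderOf x = 2 ^ j) : orderOf x ≤ 32 := by
  classical
  haveI hchar : CharP K 2 := by
    haveI : Fact (Nat.Prime 2) := ⟨Nat.prime_two⟩
    obtain ⟨p, hp⟩ := CharP.exists K
    haveI := hp
    obtain ⟨n, hpp, hn⟩ := FiniteField.card K p
    rw [hK] at hn
    have h1 : p ∣ 2 ^ (2 * m + 1) := by rw [hn]; exact dvd_pow_self p n.ne_zero
    have h2 : p = 2 := (Nat.prime_dvd_prime_iff_eq hpp Nat.prime_two).mp (hpp.dvd_of_dvd_pow h1)
    rw [← h2]; exact hp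
  obtain ⟨j, hj⟩ := hx
  set M : Matrix chevF4.Idx chevF4.Idx K := ((x : GL chevF4.Idx K) : Matrix chevF4.Idx chevF4.Idx K) with hM
  have hPres : Pres M := (twisted_le _ x.2).1
  have hMpow : M ^ (2 ^ j) = 1 := by
    have h1 : x ^ (2 ^ j) = 1 := by rw [← hj]; exact pow_orderOf_eq_one x
    have h2 := congrArg (fun y : ↥(Cfsg.Lie.twistedF4 K (2 ^ m)) => ((y : GL chevF4.Idx K) : Matrix chevF4.Idx chevF4.Idx K)) h1
    simpa using h2
  haveI : Fact (Nat.Prime 2) := ⟨Nat.prime_two⟩
  haveI : Nonempty chevF4.Idx := ⟨Sum.inl ⟨0, by change 0 < 4; norm_num⟩⟩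
  haveI : CharP (Matrix chevF4.Idx chevF4.Idx K) 2 := inferInstance
  have hnil : (M - 1) ^ (2 ^ j) = 0 := by
    have h3 := sub_pow_char_pow_of_commute 2 j (Commute.one_right M)
    rw [h3, hMpow, one_pow, sub_self]
  -- restriction to the ideal
  have hmaps : ∀ v ∈ IK K, Matrix.mulVecLin (M - 1) v ∈ IK K := by
    intro v hv
    rw [Matrix.mulVecLin_apply, Matrix.sub_mulVec, Matrix.one_mulVec]
    exact (IK K).sub_mem (hPres.2 v hv) hv
  let φ : Module.End K (IK K) := (Matrix.mulVecLin (M - 1)).restrict hmaps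
  have hφpow : ∀ (k : ℕ) (v : IK K), ((φ ^ k) v : chevF4.Idx → K) = ((M - 1) ^ k) *ᵥ (v : chevF4.Idx → K) := by
    intro k
    induction k with
    | zero => intro v; simp
    | succ k ih =>
      intro v
      rw [pow_succ', Module.End.mul_apply]
      change (M - 1) *ᵥ ((φ ^ k) v : chevF4.Idx → K) = _
      rw [ih, Matrix.mulVec_mulVec, ← pow_succ']
  have hφnil : IsNilpotent φ := by
    refine ⟨2 ^ j, ?_⟩
    apply LinearMap.ext
    intro v
    apply Subtype.ext
    rw [hφpow, hnil]
    simp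
  have hφ32 : φ ^ 32 = 0 := by
    have h1 := IsNilpotent.charpoly_eq_X_pow_finrank hφnil
    have h2 := LinearMap.aeval_self_charpoly φ
    rw [h1] at h2
    simp only [map_pow, Polynomial.aeval_X] at h2
    have h3 : 32 = Module.finrank K (IK K) + (32 - Module.finrank K (IK K)) := by
      have := finrank_IK (K := K); omega
    rw [h3, pow_add, h2, zero_mul]
  have hfix : ∀ w ∈ IK K, (M ^ 32) *ᵥ w = w := by
    intro w hw
    have h1 := hφpow 32 ⟨w, hw⟩
    rw [hφ32] at h1
    have h2 : ((M - 1) ^ 32) = M ^ 32 - 1 := by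
      have h3 := sub_pow_char_pow_of_commute 2 5 (Commute.one_right M)
      norm_num at h3
      exact h3
    rw [h2, Matrix.sub_mulVec, Matrix.one_mulVec] at h1
    have h4 : (M ^ 32) *ᵥ w - w = 0 := by simpa using h1.symm
    exact sub_eq_zero.mp h4
  have hPres32 : ∀ k : ℕ, Pres (M ^ k) := by
    intro k
    induction k with
    | zero => rw [pow_zero]; exact Pres.one
    | succ k ih => rw [pow_succ]; exact ih.mul hPres
  have hone : M ^ 32 = 1 := by
    apply Matrix.toLin'.injective
    apply LinearMap.ext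
    intro z
    rw [Matrix.toLin'_apply, Matrix.toLin'_apply, Matrix.one_mulVec]
    apply sub_eq_zero.mp
    apply eq_zero_of_B
    intro w hw
    rw [map_sub, LinearMap.sub_apply]
    have h1 := (hPres32 32).1 z w
    rw [hfix w hw, hfix _ (B_mem_IK z w hw)] at h1
    rw [h1, sub_self]
  have hx32 : x ^ 32 = 1 := by
    apply Subtype.ext
    apply Units.ext
    rw [Subgroup.coe_pow, Units.val_pow_eq_pow_val, Subgroup.coe_one, Units.val_one]
    exact hone
  exact Nat.le_of_dvd (by norm_num) (orderOf_dvd_of_pow_eq_one hx32)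

end Cfsg.Agent.S2370
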