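import Cfsg.Statements.S2371
import Cfsg.Agent.Lib.ChevTorusG2

set_option autoImplicit false
open Cfsg

namespace Cfsg.Agent.S2371

/-- The group G₂(q), q ≥ 3, contains a cyclic subgroup of order q² + q + 1 which is its own centralizer. -/
theorem result {F : Type*} [Field F] [Fintype F] (q : ℕ) (hF : Fintype.card F = q) (hq : 3 ≤ q) :
    ∃ H : Subgroup ↥(Cfsg.Lie.chevG2.group F), IsCyclic ↥H ∧ Nat.card ↥H = q ^ 2 + q + 1 ∧
      Subgroup.centralizer (H : Set ↥(Cfsg.Lie.chevG2.group F)) = H := by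
  have hq2 : 2 ≤ q := by rw [← hF]; exact Fintype.one_lt_card
  refine Cfsg.Agent.Lib.ChevTorus.TC.exists_torus' Cfsg.Agent.Lib.ChevTorusG2.hW Cfsg.Agent.Lib.ChevTorusG2.hR
    Cfsg.Agent.Lib.ChevTorusG2.tc Cfsg.Agent.Lib.ChevTorusG2.basic (by simp) hF Cfsg.Agent.Lib.ChevFix.cdG2 ?_ ?_ ?_
    Cfsg.Agent.Lib.ChevTorusG2.rowsOK Cfsg.Agent.Lib.ChevTorusG2.sepsOK Cfsg.Agent.Lib.ChevTorusG2.smallOK
  · simp only [show Cfsg.Lie.chevG2.rank = 2 from rfl, Finset.sum_range_succ, Finset.sum_range_zero, Cfsg.Agent.Lib.ChevTorusG2.tc,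
      List.getD_cons_zero, List.getD_cons_succ]
    push_cast
    ring
  · nlinarith
  · have : q ^ 2 + q + 1 = q * (q + 1) + 1 := by ring
    rw [this, Nat.coprime_comm]
    exact (Nat.coprime_mul_left_add_right _ _ _).mpr (Nat.coprime_one_right q)

end Cfsg.Agent.S2371
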