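import Cfsg.Statements.S2372
import Cfsg.Agent.Lib.ChevTorusF4

set_option autoImplicit false
open Cfsg

namespace Cfsg.Agent.S2372

/-- The group F₄(q) contains a cyclic subgroup of order q⁴ + 1 which is its own centralizer. -/
theorem result {F : Type*} [Field F] [Fintype F] (q : ℕ) (hF : Fintype.card F = q) :
    ∃ H : Subgroup ↥(Cfsg.Lie.chevF4.group F), IsCyclic ↥H ∧ Nat.card ↥H = q ^ 4 + 1 ∧
      Subgroup.centralizer (H : Set ↥(Cfsg.Lie.chevF4.group F)) = H := by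
  have hq2 : 2 ≤ q := by rw [← hF]; exact Fintype.one_lt_card
  refine Cfsg.Agent.Lib.ChevTorus.TC.exists_torus' Cfsg.Agent.Lib.ChevTorusF4.hW Cfsg.Agent.Lib.ChevTorusF4.hR
    Cfsg.Agent.Lib.ChevTorusF4.tc Cfsg.Agent.Lib.ChevTorusF4.basic (by simp) hF Cfsg.Agent.Lib.ChevFix.cdF4 ?_ ?_ ?_
    Cfsg.Agent.Lib.ChevTorusF4.rowsOK Cfsg.Agent.Lib.ChevTorusF4.sepsOK Cfsg.Agent.Lib.ChevTorusF4.smallOK
  · simp only [show Cfsg.Lie.chevF4.rank = 4 from rfl, Finset.sum_range_succ, Finset.sum_range_zero, Cfsg.Agent.Lib.ChevTorusF4.tc,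
      List.getD_cons_zero, List.getD_cons_succ]
    push_cast
    ring
  · have := Nat.pow_le_pow_left hq2 4
    omega
  · have : q ^ 4 + 1 = q * q ^ 3 + 1 := by ring
    rw [this, Nat.coprime_comm]
    exact (Nat.coprime_mul_left_add_right _ _ _).mpr (Nat.coprime_one_right q)

end Cfsg.Agent.S2372
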