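import Cfsg.Statements.S2374
import Cfsg.Agent.Lib.ChevTorusE7

set_option autoImplicit false
open Cfsg

namespace Cfsg.Agent.S2374
open Cfsg.Agent.Lib.ChevTorus

/-- The group E₇(q) (the simple Chevalley group of type E₇) contains a cyclic subgroup of order (q⁴ − q² + 1)(q³ + 1)/gcd(2, q − 1) which is its own centralizer. -/
theorem result {F : Type*} [Field F] [Fintype F] (q : ℕ) (hF : Fintype.card F = q) :
    ∃ H : Subgroup ↥(Cfsg.Lie.chevE7.group F), IsCyclic ↥H ∧ Nat.card ↥H = (q ^ 4 - q ^ 2 + 1) * (q ^ 3 + 1) / Nat.gcd 2 (q - 1) ∧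
      Subgroup.centralizer (H : Set ↥(Cfsg.Lie.chevE7.group F)) = H := by
  have hq2 : 2 ≤ q := by rw [← hF]; exact Fintype.one_lt_card
  have e24 : q ^ 2 * 4 ≤ q ^ 4 := by
    have := Nat.mul_le_mul_left (q ^ 2) (Nat.pow_le_pow_left hq2 2)
    calc q ^ 2 * 4 ≤ q ^ 2 * q ^ 2 := this
      _ = q ^ 4 := by ring
  have e4 : 4 ≤ q ^ 2 := by have := Nat.pow_le_pow_left hq2 2; omega
  have e8 : 8 ≤ q ^ 3 := by have := Nat.pow_le_pow_left hq2 3; omega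
  obtain ⟨A, hA⟩ : ∃ A, A = q ^ 4 - q ^ 2 + 1 := ⟨_, rfl⟩
  have hAz : (A : ℤ) = (q : ℤ) ^ 4 - q ^ 2 + 1 := by
    have : A + q ^ 2 = q ^ 4 + 1 := by omega
    have h : (A : ℤ) + (q : ℤ) ^ 2 = q ^ 4 + 1 := by exact_mod_cast this
    linear_combination h
  have hA3 : 3 < A := by omega
  rw [← hA]
  have hNz : ((A * (q ^ 3 + 1) : ℕ) : ℤ) = (q : ℤ) ^ Cfsg.Lie.chevE7.rank +
      ∑ i ∈ Finset.range Cfsg.Lie.chevE7.rank, Cfsg.Agent.Lib.ChevTorusE7.tc.c.getD i 0 * (q : ℤ) ^ i := by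
    simp only [show Cfsg.Lie.chevE7.rank = 7 from rfl, Finset.sum_range_succ, Finset.sum_range_zero, Cfsg.Agent.Lib.ChevTorusE7.tc,
      List.getD_cons_zero, List.getD_cons_succ]
    push_cast
    rw [hAz]
    ring
  have hNq : (A * (q ^ 3 + 1)).Coprime q := by
    rw [← Nat.isCoprime_iff_coprime]
    refine ⟨1, -((q : ℤ) ^ 6 - q ^ 4 + q ^ 3 + q ^ 2 - q), ?_⟩
    push_cast
    rw [hAz]
    ring
  obtain ⟨T, hT, hα, hM⟩ := TC.toTD' Cfsg.Agent.Lib.ChevTorusE7.hW Cfsg.Agent.Lib.ChevTorusE7.hR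
    Cfsg.Agent.Lib.ChevTorusE7.tc Cfsg.Agent.Lib.ChevTorusE7.basic q (A * (q ^ 3 + 1)) hNz
  by_cases h3 : 2 ∣ q - 1
  · have hg : Nat.gcd 2 (q - 1) = 2 := Nat.gcd_eq_left h3
    obtain ⟨k, hk⟩ := h3
    have hk' : q = 2 * k + 1 := by omega
    have hk1 : 1 ≤ k := by omega
    obtain ⟨m, hm⟩ : ∃ m, q ^ 3 + 1 = 2 * m := ⟨4 * k ^ 3 + 6 * k ^ 2 + 3 * k + 1, by rw [hk']; ring⟩
    have hm3 : 3 < m := by
      have : 3 ≤ q := by omega
      have := Nat.pow_le_pow_left this 3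
      omega
    have hN' : A * (q ^ 3 + 1) = 2 * (A * m) := by rw [hm]; ring
    have hNN : A * (q ^ 3 + 1) / 2 = A * m := by rw [hN']; exact Nat.mul_div_cancel_left _ (by norm_num)
    rw [hg, hNN]
    have hdvd : A * m ∣ A * (q ^ 3 + 1) := by rw [hN']; exact dvd_mul_left _ _
    have hP' : ∀ b : Bool, (bif b then (m : ℤ) else (A : ℤ)) ∣ ((A * m : ℕ) : ℤ) ∧
        (bif b then (m : ℤ) else (A : ℤ)) ∣ evL (Cfsg.Agent.Lib.ChevTorusE7.P b) q ∧ 3 < (bif b then (m : ℤ) else (A : ℤ)) := by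
      intro b
      cases b
      · refine ⟨by push_cast; exact dvd_mul_right _ _, ?_, by show (3 : ℤ) < (A : ℤ); exact_mod_cast hA3⟩
        have : evL (Cfsg.Agent.Lib.ChevTorusE7.P false) q = A := by
          rw [hAz]
          simp only [Cfsg.Agent.Lib.ChevTorusE7.P, cond_false, evL]
          ring
        rw [this]
        exact dvd_refl _
      · refine ⟨by push_cast; exact dvd_mul_left _ _, ?_, by show (3 : ℤ) < (m : ℤ); exact_mod_cast hm3⟩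
        have : evL (Cfsg.Agent.Lib.ChevTorusE7.P true) q = 2 * m := by
          have h : ((q : ℤ) ^ 3 + 1) = 2 * m := by exact_mod_cast hm
          rw [← h]
          simp only [Cfsg.Agent.Lib.ChevTorusE7.P, cond_true, evL]
          ring
        rw [this]
        exact dvd_mul_left _ _
    obtain ⟨hE1, hE2⟩ := TC.pc_sound Cfsg.Agent.Lib.ChevTorusE7.pcOK hP'
    obtain ⟨h1, h2⟩ := TC.hyps' Cfsg.Agent.Lib.ChevTorusE7.hW Cfsg.Agent.Lib.ChevTorusE7.hR Cfsg.Agent.Lib.ChevTorusE7.tc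
      Cfsg.Agent.Lib.ChevTorusE7.basic hdvd (Nat.Coprime.coprime_dvd_left hdvd hNq) T hT hα Cfsg.Agent.Lib.ChevTorusE7.rowsOK
      Cfsg.Agent.Lib.ChevTorusE7.sepsOK hE1 hE2
    exact T.mainD (by simp [Cfsg.Agent.Lib.ChevBruhat.Listed]) hF Nat.prime_two Cfsg.Agent.Lib.ChevFix.cdE7 Cfsg.Agent.Lib.EmbE8.perpE7 (by simp)
      ⟨k, hk⟩ hN' (Nat.mul_pos (by omega) (by omega)) hNq (⟨Cfsg.Lie.chevE8.simple 7, by decide +kernel⟩ : Fin Cfsg.Lie.chevE8.nroots)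
      (κ := 1) (by decide)
      (kap_sound T Cfsg.Agent.Lib.ChevFix.cdE7 _ hT hM hNz Cfsg.Agent.Lib.ChevTorusE7.kap) h1 h2
  · have hg : Nat.gcd 2 (q - 1) = 1 := (Nat.Prime.coprime_iff_not_dvd Nat.prime_two).mpr h3
    rw [hg, Nat.div_one]
    have hroot : ∀ y : F, y ≠ 0 → ∃ z : F, z ^ 2 = y := by
      intro y hy
      have hc : (Nat.card Fˣ).Coprime 2 := by
        rw [Nat.card_units, Nat.card_eq_fintype_card, hF, Nat.coprime_comm, Nat.Prime.coprime_iff_not_dvd Nat.prime_two]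
        exact h3
      obtain ⟨z, hz⟩ := (powCoprime hc).surjective (Units.mk0 y hy)
      refine ⟨z, ?_⟩
      have h1 : z ^ 2 = Units.mk0 y hy := hz
      rw [← Units.val_pow_eq_pow_val, h1, Units.val_mk0]
    have hm3 : 3 < q ^ 3 + 1 := by omega
    have hP' : ∀ b : Bool, (bif b then ((q ^ 3 + 1 : ℕ) : ℤ) else (A : ℤ)) ∣ ((A * (q ^ 3 + 1) : ℕ) : ℤ) ∧
        (bif b then ((q ^ 3 + 1 : ℕ) : ℤ) else (A : ℤ)) ∣ evL (Cfsg.Agent.Lib.ChevTorusE7.P b) q ∧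
        3 < (bif b then ((q ^ 3 + 1 : ℕ) : ℤ) else (A : ℤ)) := by
      intro b
      cases b
      · refine ⟨by push_cast; exact dvd_mul_right _ _, ?_, by show (3 : ℤ) < (A : ℤ); exact_mod_cast hA3⟩
        have : evL (Cfsg.Agent.Lib.ChevTorusE7.P false) q = A := by
          rw [hAz]
          simp only [Cfsg.Agent.Lib.ChevTorusE7.P, cond_false, evL]
          ring
        rw [this]
        exact dvd_refl _
      · refine ⟨by push_cast; exact dvd_mul_left _ _, ?_, by show (3 : ℤ) < ((q ^ 3 + 1 : ℕ) : ℤ); exact_mod_cast hm3⟩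
        have : evL (Cfsg.Agent.Lib.ChevTorusE7.P true) q = ((q ^ 3 + 1 : ℕ) : ℤ) := by
          push_cast
          simp only [Cfsg.Agent.Lib.ChevTorusE7.P, cond_true, evL]
          ring
        rw [this]
        exact dvd_refl _
    obtain ⟨hE1, hE2⟩ := TC.pc_sound Cfsg.Agent.Lib.ChevTorusE7.pcOK hP'
    obtain ⟨h1, h2⟩ := TC.hyps' Cfsg.Agent.Lib.ChevTorusE7.hW Cfsg.Agent.Lib.ChevTorusE7.hR Cfsg.Agent.Lib.ChevTorusE7.tc
      Cfsg.Agent.Lib.ChevTorusE7.basic (dvd_refl _) hNq T hT hα Cfsg.Agent.Lib.ChevTorusE7.rowsOK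
      Cfsg.Agent.Lib.ChevTorusE7.sepsOK hE1 hE2
    exact T.main1 (by simp [Cfsg.Agent.Lib.ChevBruhat.Listed]) hF (by norm_num) Cfsg.Agent.Lib.ChevFix.cdE7 hroot
      (Nat.mul_pos (by omega) (by omega)) hNq h1 h2

end Cfsg.Agent.S2374
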