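import Cfsg.Statements.S2375
import Cfsg.Agent.Lib.ChevTorusE8

set_option autoImplicit false
open Cfsg

namespace Cfsg.Agent.S2375

/-- The group E₈(q) contains a cyclic subgroup of order q⁸ + q⁷ − q⁵ − q⁴ − q³ + q + 1 which is its own centralizer. -/
theorem result {F : Type*} [Field F] [Fintype F] (q : ℕ) (hF : Fintype.card F = q) :
    ∃ H : Subgroup ↥(Cfsg.Lie.chevE8.group F), IsCyclic ↥H ∧ Nat.card ↥H = q ^ 8 + q ^ 7 - q ^ 5 - q ^ 4 - q ^ 3 + q + 1 ∧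
      Subgroup.centralizer (H : Set ↥(Cfsg.Lie.chevE8.group F)) = H := by
  have hq2 : 2 ≤ q := by rw [← hF]; exact Fintype.one_lt_card
  have h1 : q ^ 5 + q ^ 4 + q ^ 3 ≤ q ^ 8 + q ^ 7 := by
    have e1 : q ^ 5 ≤ q ^ 7 := Nat.pow_le_pow_right (by omega) (by norm_num)
    have e2 : q ^ 4 * 2 ≤ q ^ 4 * q := Nat.mul_le_mul_left _ hq2
    have e3 : q ^ 4 * q ≤ q ^ 8 := by rw [← pow_succ]; exact Nat.pow_le_pow_right (by omega) (by norm_num)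
    have e4 : q ^ 3 ≤ q ^ 4 := Nat.pow_le_pow_right (by omega) (by norm_num)
    omega
  have hNe : (q ^ 8 + q ^ 7 - q ^ 5 - q ^ 4 - q ^ 3 + q + 1 : ℕ) = q ^ 3 * (q ^ 5 + q ^ 4 - q ^ 2 - q - 1) + q + 1 := by
    have : q ^ 3 * (q ^ 5 + q ^ 4 - q ^ 2 - q - 1) = q ^ 8 + q ^ 7 - q ^ 5 - q ^ 4 - q ^ 3 := by
      rw [Nat.mul_sub, Nat.mul_sub, Nat.mul_sub, mul_add, ← pow_add, ← pow_add, ← pow_add, ← pow_succ, mul_one]
    rw [this]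
  have h2 : 1 ≤ q ^ 5 + q ^ 4 - q ^ 2 - q - 1 := by
    have e1 : q ^ 2 ≤ q ^ 4 := Nat.pow_le_pow_right (by omega) (by norm_num)
    have e2 : q * 16 ≤ q ^ 5 := by
      have := Nat.mul_le_mul_left q (Nat.pow_le_pow_left hq2 4)
      calc q * 16 ≤ q * q ^ 4 := this
        _ = q ^ 5 := by ring
    omega
  refine Cfsg.Agent.Lib.ChevTorus.TC.exists_torus' Cfsg.Agent.Lib.ChevTorusE8.hW Cfsg.Agent.Lib.ChevTorusE8.hR
    Cfsg.Agent.Lib.ChevTorusE8.tc Cfsg.Agent.Lib.ChevTorusE8.basic (by simp) hF Cfsg.Agent.Lib.ChevFix.cdE8 ?_ ?_ ?_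
    Cfsg.Agent.Lib.ChevTorusE8.rowsOK Cfsg.Agent.Lib.ChevTorusE8.sepsOK Cfsg.Agent.Lib.ChevTorusE8.smallOK
  · simp only [show Cfsg.Lie.chevE8.rank = 8 from rfl, Finset.sum_range_succ, Finset.sum_range_zero, Cfsg.Agent.Lib.ChevTorusE8.tc,
      List.getD_cons_zero, List.getD_cons_succ]
    have e : (q ^ 8 + q ^ 7 - q ^ 5 - q ^ 4 - q ^ 3 + q + 1 : ℕ) + (q ^ 5 + q ^ 4 + q ^ 3) = q ^ 8 + q ^ 7 + q + 1 := by omega
    have e' : ((q ^ 8 + q ^ 7 - q ^ 5 - q ^ 4 - q ^ 3 + q + 1 : ℕ) : ℤ) + ((q : ℤ) ^ 5 + q ^ 4 + q ^ 3) = q ^ 8 + q ^ 7 + q + 1 := by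
      exact_mod_cast e
    linear_combination e'
  · rw [hNe]
    have e1 : 8 ≤ q ^ 3 := by have := Nat.pow_le_pow_left hq2 3; omega
    have e2 : 8 * 1 ≤ q ^ 3 * (q ^ 5 + q ^ 4 - q ^ 2 - q - 1) := Nat.mul_le_mul e1 h2
    omega
  · rw [hNe]
    have : q ^ 3 * (q ^ 5 + q ^ 4 - q ^ 2 - q - 1) + q + 1 = q * (q ^ 2 * (q ^ 5 + q ^ 4 - q ^ 2 - q - 1) + 1) + 1 := by ring
    rw [this, Nat.coprime_comm]
    exact (Nat.coprime_mul_left_add_right _ _ _).mpr (Nat.coprime_one_right q)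

end Cfsg.Agent.S2375
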