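import Cfsg.Statements.S2378
import Cfsg.Agent.Lib.ChevSylG2
import Cfsg.Agent.Lib.ChevSylB2
import Cfsg.Agent.Lib.ChevSylD4
import Cfsg.Agent.Lib.ChevSylF4
import Cfsg.Agent.Lib.ChevSylE6
import Cfsg.Agent.Lib.ChevSylE7
import Cfsg.Agent.Lib.ChevSylE8
import Cfsg.Agent.S1059
import Cfsg.Agent.S1060
import Cfsg.Agent.S1061
import Cfsg.Agent.S1062
import Cfsg.Agent.S1063
import Cfsg.Agent.S1064
import Cfsg.Agent.S1065

set_option autoImplicit false
open Cfsg Cfsg.Agent Cfsg.Agent.Lib

namespace Cfsg.Agent.S2378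

/-- Sylow subgroups for primes away from the characteristic and the Weyl group. Let `G` be the Chevalley group of type G₂, B₂, D₄, F₄, E₆, E₇ or E₈ over a field with `q` elements, with the degrees of its Weyl group listed beside the type (their product is the order of the Weyl group), and let `r` be a prime dividing the order of `G`, not dividing `q` and not dividing the order of the Weyl group. Let `d` be the multiplicative order of `q` modulo `r`, `a` the number of degrees divisible by `d`, and `m` the `r`-part of the value at `q` of the `d`-th cyclotomic polynomial. Then every Sylow `r`-subgroup of `G` is homocyclic: a direct product of `a` cyclic groups of order `m` (in particular abelian). -/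
theorem result {F : Type*} [Field F] [Fintype F] {q : ℕ} (hq : Fintype.card F = q)
    (c : Cfsg.Lie.ChevalleyDatum × List ℕ)
    (hc : c ∈ [(Cfsg.Lie.chevG2, [2, 6]), (Cfsg.Lie.chevB2, [2, 4]), (Cfsg.Lie.chevD4, [2, 4, 4, 6]), (Cfsg.Lie.chevF4, [2, 6, 8, 12]),
      (Cfsg.Lie.chevE6, [2, 5, 6, 8, 9, 12]), (Cfsg.Lie.chevE7, [2, 6, 8, 10, 12, 14, 18]), (Cfsg.Lie.chevE8, [2, 8, 12, 14, 18, 20, 24, 30])])
    (r : ℕ) [Fact r.Prime] (hrq : ¬ r ∣ q) (hrW : ¬ r ∣ c.2.prod) (hrG : r ∣ Nat.card ↥(c.1.group F)) (P : Sylow r ↥(c.1.group F)) :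
    Nonempty (↥(P : Subgroup ↥(c.1.group F)) ≃*
      (Fin (c.2.filter (fun e => orderOf (q : ZMod r) ∣ e)).length →
        Multiplicative (ZMod (r ^ padicValNat r ((Polynomial.cyclotomic (orderOf (q : ZMod r)) ℤ).eval (q : ℤ)).natAbs)))) := by
  have hr : r.Prime := Fact.out
  have hr1 : ¬ r ∣ 1 := fun h => hr.one_lt.ne' (Nat.dvd_one.mp h)
  simp only [List.mem_cons, List.not_mem_nil, or_false] at hc
  rcases hc with rfl | rfl | rfl | rfl | rfl | rfl | rfl
  ·
    have hrc : ¬ r ∣ 1 := hr1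
    have ho := S1059.result (F := F) hq
    refine ChevSyl.sylow_main (G := ChevOkG2.good) ChevSylG2.hW ChevSylG2.hR (by simp [ChevBruhat.Listed]) ChevFix.cdG2 _ ChevSylG2.Cs ChevSylG2.Cs_ok ChevSylG2.cov (by decide) hq r hrq (Nat.coprime_one_right r) hrW hrG (c := 1) (n := 6) hrc ?_ P
    simp only [List.map_cons, List.map_nil, List.prod_cons, List.prod_nil, one_mul, mul_one]
    rw [ho]
    ring
  ·
    have hr2 : r ≠ 2 := by
      rintro rfl
      exact hrW (by simp only; decide)
    have hrc : ¬ r ∣ Nat.gcd 2 (q - 1) := by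
      intro h
      exact hr2 ((Nat.prime_dvd_prime_iff_eq hr (by norm_num)).mp (h.trans (Nat.gcd_dvd_left _ _)))
    have ho := S1060.result (F := F) hq
    refine ChevSyl.sylow_main (G := ChevOkB2.good) ChevSylB2.hW ChevSylB2.hR (by simp [ChevBruhat.Listed]) ChevFix.cdB2 _ ChevSylB2.Cs ChevSylB2.Cs_ok ChevSylB2.cov (by decide) hq r hrq ((Nat.coprime_primes hr (by norm_num)).mpr hr2) hrW hrG (c := Nat.gcd 2 (q - 1)) (n := 4) hrc ?_ P
    simp only [List.map_cons, List.map_nil, List.prod_cons, List.prod_nil, one_mul, mul_one]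
    rw [ho]
    ring
  ·
    have hr2 : r ≠ 2 := by
      rintro rfl
      exact hrW (by simp only; decide)
    have hrc : ¬ r ∣ Nat.gcd 2 (q - 1) ^ 2 := by
      intro h
      have h := hr.dvd_of_dvd_pow h
      exact hr2 ((Nat.prime_dvd_prime_iff_eq hr (by norm_num)).mp (h.trans (Nat.gcd_dvd_left _ _)))
    have ho := S1061.result (F := F) hq
    refine ChevSyl.sylow_main (G := ChevOkD4.good) ChevSylD4.hW ChevSylD4.hR (by simp [ChevBruhat.Listed]) ChevFix.cdD4 _ ChevSylD4.Cs ChevSylD4.Cs_ok ChevSylD4.cov (by decide) hq r hrq ((Nat.coprime_primes hr (by norm_num)).mpr hr2) hrW hrG (c := Nat.gcd 2 (q - 1) ^ 2) (n := 12) hrc ?_ P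
    simp only [List.map_cons, List.map_nil, List.prod_cons, List.prod_nil, one_mul, mul_one]
    rw [ho]
    ring
  ·
    have hrc : ¬ r ∣ 1 := hr1
    have ho := S1062.result (F := F) hq
    refine ChevSyl.sylow_main (G := ChevOkF4.good) ChevSylF4.hW ChevSylF4.hR (by simp [ChevBruhat.Listed]) ChevFix.cdF4 _ ChevSylF4.Cs ChevSylF4.Cs_ok ChevSylF4.cov (by decide) hq r hrq (Nat.coprime_one_right r) hrW hrG (c := 1) (n := 24) hrc ?_ P
    simp only [List.map_cons, List.map_nil, List.prod_cons, List.prod_nil, one_mul, mul_one]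
    rw [ho]
    ring
  ·
    have hr3 : r ≠ 3 := by
      rintro rfl
      exact hrW (by simp only; decide)
    have hrc : ¬ r ∣ Nat.gcd 3 (q - 1) := by
      intro h
      exact hr3 ((Nat.prime_dvd_prime_iff_eq hr (by norm_num)).mp (h.trans (Nat.gcd_dvd_left _ _)))
    have ho := S1063.result (F := F) hq
    refine ChevSyl.sylow_main (G := ChevOkE6.good) ChevSylE6.hW ChevSylE6.hR (by simp [ChevBruhat.Listed]) ChevFix.cdE6 _ ChevSylE6.Cs ChevSylE6.Cs_ok ChevSylE6.cov (by decide) hq r hrq ((Nat.coprime_primes hr (by norm_num)).mpr hr3) hrW hrG (c := Nat.gcd 3 (q - 1)) (n := 36) hrc ?_ P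
    simp only [List.map_cons, List.map_nil, List.prod_cons, List.prod_nil, one_mul, mul_one]
    rw [ho]
    ring
  ·
    have hr2 : r ≠ 2 := by
      rintro rfl
      exact hrW (by simp only; decide)
    have hrc : ¬ r ∣ Nat.gcd 2 (q - 1) := by
      intro h
      exact hr2 ((Nat.prime_dvd_prime_iff_eq hr (by norm_num)).mp (h.trans (Nat.gcd_dvd_left _ _)))
    have ho := S1064.result (F := F) hq
    refine ChevSyl.sylow_main (G := ChevOkE7.good) ChevSylE7.hW ChevSylE7.hR (by simp [ChevBruhat.Listed]) ChevFix.cdE7 _ ChevSylE7.Cs ChevSylE7.Cs_ok ChevSylE7.cov (by decide) hq r hrq ((Nat.coprime_primes hr (by norm_num)).mpr hr2) hrW hrG (c := Nat.gcd 2 (q - 1)) (n := 63) hrc ?_ P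
    simp only [List.map_cons, List.map_nil, List.prod_cons, List.prod_nil, one_mul, mul_one]
    rw [ho]
    ring
  ·
    have hrc : ¬ r ∣ 1 := hr1
    have ho := S1065.result (F := F) hq
    refine ChevSyl.sylow_main (G := ChevOkE8.good) ChevSylE8.hW ChevSylE8.hR (by simp [ChevBruhat.Listed]) ChevFix.cdE8 _ ChevSylE8.Cs ChevSylE8.Cs_ok ChevSylE8.cov (by decide) hq r hrq (Nat.coprime_one_right r) hrW hrG (c := 1) (n := 120) hrc ?_ P
    simp only [List.map_cons, List.map_nil, List.prod_cons, List.prod_nil, one_mul, mul_one]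
    rw [ho]
    ring

end Cfsg.Agent.S2378
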