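import Cfsg.Statements.S2383
import Cfsg.Agent.Lib.ChevSS9

set_option autoImplicit false
open Cfsg

namespace Cfsg.Agent.S2383

/-- Steinberg's count of semisimple classes in characteristic 2 for the types B₂, D₄, E₇, where the finite simply connected group has trivial centre and so coincides with the Chevalley group: for the Chevalley group of type B₂, D₄ or E₇ over a field with `q` elements of characteristic 2, the conjugacy classes of elements of odd order number exactly `q^l`, `l` the rank. -/
theorem result {F : Type*} [Field F] [Fintype F] {q : ℕ} (hq : Fintype.card F = q) [CharP F 2]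
    (D : Cfsg.Lie.ChevalleyDatum) (hD : D ∈ [Cfsg.Lie.chevB2, Cfsg.Lie.chevD4, Cfsg.Lie.chevE7]) :
    Nat.card {c : ConjClasses ↥(D.group F) // ∃ g : ↥(D.group F), ConjClasses.mk g = c ∧ Odd (orderOf g)} = q ^ D.rank := by
  exact Cfsg.Agent.Lib.ChevSS.count_two hD hq

end Cfsg.Agent.S2383
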