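import Cfsg.Statements.S2384
import Mathlib
import Cfsg.Agent.Lib.SSCount

set_option autoImplicit false
open Cfsg

namespace Cfsg.Agent.S2384

/-- In `SL_n(q)`, `q` a power of the prime `p`, the number of conjugacy classes of elements of order prime to `p` (the semisimple classes) is `q^(n-1)`. -/
theorem result {F : Type*} [Field F] [Fintype F] {q : ℕ} (hq : Fintype.card F = q) (p : ℕ) [Fact p.Prime] [CharP F p] (n : ℕ) (hn : 1 ≤ n) :
    Nat.card {c : ConjClasses (Matrix.SpecialLinearGroup (Fin n) F) //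
      ∃ g : Matrix.SpecialLinearGroup (Fin n) F, ConjClasses.mk g = c ∧ (orderOf g).Coprime p} = q ^ (n - 1) := by
  classical
  obtain ⟨m, rfl⟩ : ∃ m, n = m + 1 := ⟨n - 1, by omega⟩
  rw [Cfsg.Agent.Lib.SSCount.classes_card (fun g : Matrix.SpecialLinearGroup (Fin (m + 1)) F => (orderOf g).Coprime p)
    (fun g : Matrix.SpecialLinearGroup (Fin (m + 1)) F => (g : Matrix (Fin (m + 1)) (Fin (m + 1)) F).charpoly)]
  · rw [Cfsg.Agent.Lib.SSCount.image_SL p (m + 1), Cfsg.Agent.Lib.SSCount.card_monic m (fun a => a = (-1) ^ (m + 1))]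
    have h1 : Nat.card {a : F // a = (-1) ^ (m + 1)} = 1 := by
      rw [Nat.card_eq_fintype_card]; simp
    rw [h1, Nat.card_eq_fintype_card, hq, Nat.add_sub_cancel, one_mul]
  · intro g h hgh
    rw [isConj_iff] at hgh
    obtain ⟨c, rfl⟩ := hgh
    have h1 := (Matrix.charpoly_units_conj (Matrix.SpecialLinearGroup.toGL c) (g : Matrix (Fin (m + 1)) (Fin (m + 1)) F)).symm
    rw [← Matrix.coe_units_inv, ← map_inv] at h1
    exact h1
  · intro g h hg hh hc
    exact Cfsg.Agent.Lib.SSClass.conj_SL p g h hg hh hc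

end Cfsg.Agent.S2384
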