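import Cfsg.Statements.S2385
import Mathlib
import Cfsg.Agent.Lib.SpCount
import Cfsg.Agent.Lib.SpClass

set_option autoImplicit false
open Cfsg

namespace Cfsg.Agent.S2385

/-- In the symplectic group `Sp_{2n}(q)`, `q` a power of the prime `p`, the number of conjugacy classes of elements of order prime to `p` is `q^n`. -/
theorem result {F : Type*} [Field F] [Fintype F] {q : ℕ} (hq : Fintype.card F = q) (p : ℕ) [Fact p.Prime] [CharP F p] (n : ℕ) :
    Nat.card {c : ConjClasses ↥(Matrix.symplecticGroup (Fin n) F) //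
      ∃ g : ↥(Matrix.symplecticGroup (Fin n) F), ConjClasses.mk g = c ∧ (orderOf g).Coprime p} = q ^ n := by
  rw [Cfsg.Agent.Lib.SSCount.classes_card (fun g : ↥(Matrix.symplecticGroup (Fin n) F) => (orderOf g).Coprime p)
    (fun g : ↥(Matrix.symplecticGroup (Fin n) F) => (g : Matrix (Fin n ⊕ Fin n) (Fin n ⊕ Fin n) F).charpoly)]
  · rw [Cfsg.Agent.Lib.SpCount.card_image p, hq]
  · intro g h hgh
    rw [isConj_iff] at hgh
    obtain ⟨c, rfl⟩ := hgh
    have hu : (c : Matrix (Fin n ⊕ Fin n) (Fin n ⊕ Fin n) F) * ((c⁻¹ : ↥(Matrix.symplecticGroup (Fin n) F)) : Matrix (Fin n ⊕ Fin n) (Fin n ⊕ Fin n) F) = 1 :=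
      congrArg Subtype.val (mul_inv_cancel c)
    have hu' : ((c⁻¹ : ↥(Matrix.symplecticGroup (Fin n) F)) : Matrix (Fin n ⊕ Fin n) (Fin n ⊕ Fin n) F) * (c : Matrix (Fin n ⊕ Fin n) (Fin n ⊕ Fin n) F) = 1 :=
      congrArg Subtype.val (inv_mul_cancel c)
    let U : (Matrix (Fin n ⊕ Fin n) (Fin n ⊕ Fin n) F)ˣ := ⟨c, ((c⁻¹ : ↥(Matrix.symplecticGroup (Fin n) F)) : Matrix _ _ F), hu, hu'⟩
    have h1 := (Matrix.charpoly_units_conj U (g : Matrix (Fin n ⊕ Fin n) (Fin n ⊕ Fin n) F)).symm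
    rw [← Matrix.coe_units_inv] at h1
    exact h1
  · intro g h hg hh hc
    exact Cfsg.Agent.Lib.SpClass.conj_Sp p g h hg hh hc

end Cfsg.Agent.S2385
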