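import Cfsg.Statements.S2386
import Mathlib
import Cfsg.Agent.Lib.UnCount

set_option autoImplicit false
open Cfsg

namespace Cfsg.Agent.S2386

/-- In the special unitary group `SU_n(q)` (matrices of determinant one over the field with `q²` elements preserving the standard Hermitian form), `q` a power of the prime `p`, the number of conjugacy classes of elements of order prime to `p` is `q^(n-1)`. -/
theorem result {F : Type*} [Field F] [Fintype F] {q : ℕ} (hF : Fintype.card F = q ^ 2) (p : ℕ) [Fact p.Prime] [CharP F p] (n : ℕ) (hn : 1 ≤ n) :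
    Nat.card {c : ConjClasses ↥(Cfsg.SU n F q) // ∃ g : ↥(Cfsg.SU n F q), ConjClasses.mk g = c ∧ (orderOf g).Coprime p} = q ^ (n - 1) := by
  obtain ⟨m, rfl⟩ : ∃ m, n = m + 1 := ⟨n - 1, by omega⟩
  rw [Cfsg.Agent.Lib.SSCount.classes_card (fun g : ↥(Cfsg.SU (m + 1) F q) => (orderOf g).Coprime p)
    (fun g : ↥(Cfsg.SU (m + 1) F q) => ((g : Matrix.SpecialLinearGroup (Fin (m + 1)) F) : Matrix (Fin (m + 1)) (Fin (m + 1)) F).charpoly)]
  · rw [Cfsg.Agent.Lib.UnCount.image_SU hF p, Cfsg.Agent.Lib.UnCount.card_SD hF m, Nat.add_sub_cancel]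
  · intro g h hgh
    rw [isConj_iff] at hgh
    obtain ⟨c, rfl⟩ := hgh
    have h1 := (Matrix.charpoly_units_conj (Matrix.SpecialLinearGroup.toGL (c : Matrix.SpecialLinearGroup (Fin (m + 1)) F))
      ((g : Matrix.SpecialLinearGroup (Fin (m + 1)) F) : Matrix (Fin (m + 1)) (Fin (m + 1)) F)).symm
    rw [← Matrix.coe_units_inv, ← map_inv] at h1
    exact h1
  · intro g h hg hh hc
    exact Cfsg.Agent.Lib.UnClass.conj_SU hF p g h hg hh hc

end Cfsg.Agent.S2386
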