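import Cfsg.Statements.S2387
import Mathlib
import Cfsg.Agent.Lib.SSCount

set_option autoImplicit false
open scoped MatrixGroups
open Cfsg

namespace Cfsg.Agent.S2387

/-- In `GL_n(q)` with `n ≥ 1`, `q` a power of the prime `p`, the number of conjugacy classes of elements of order prime to `p` (diagonalisable over the algebraic closure; determined by the characteristic polynomial) is `(q - 1) q^(n-1)`. -/
theorem result {F : Type*} [Field F] [Fintype F] {q : ℕ} (hq : Fintype.card F = q) (p : ℕ) [Fact p.Prime] [CharP F p] (n : ℕ) (hn : 1 ≤ n) :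
    Nat.card {c : ConjClasses (GL (Fin n) F) // ∃ g : GL (Fin n) F, ConjClasses.mk g = c ∧ (orderOf g).Coprime p} = (q - 1) * q ^ (n - 1) := by
  classical
  obtain ⟨m, rfl⟩ : ∃ m, n = m + 1 := ⟨n - 1, by omega⟩
  rw [Cfsg.Agent.Lib.SSCount.classes_card (fun g : GL (Fin (m + 1)) F => (orderOf g).Coprime p)
    (fun g : GL (Fin (m + 1)) F => (g : Matrix (Fin (m + 1)) (Fin (m + 1)) F).charpoly)]
  · rw [Cfsg.Agent.Lib.SSCount.image_GL p (m + 1), Cfsg.Agent.Lib.SSCount.card_monic m (fun a => a ≠ 0)]
    have h1 : Nat.card {a : F // a ≠ 0} = q - 1 := by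
      rw [Nat.card_eq_fintype_card, ← hq]
      have := Fintype.card_subtype_compl (fun a : F => a = 0)
      simp only [Fintype.card_unique] at this
      exact this
    rw [h1, Nat.card_eq_fintype_card, hq, Nat.add_sub_cancel]
  · intro g h hgh
    rw [isConj_iff] at hgh
    obtain ⟨c, rfl⟩ := hgh
    have h1 := (Matrix.charpoly_units_conj c (g : Matrix (Fin (m + 1)) (Fin (m + 1)) F)).symm
    simp only [Units.val_mul, Matrix.coe_units_inv]
    exact h1
  · intro g h hg hh hc
    exact Cfsg.Agent.Lib.SSClass.conj_GL p g h hg hh hc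

end Cfsg.Agent.S2387
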