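import Cfsg.Statements.S2390
import Cfsg.Agent.Lib.UnClass

set_option autoImplicit false
open Cfsg

namespace Cfsg.Agent.S2390

/-- In the special unitary group `SU_n(q)` (inside `SL_n` over the field with `q²` elements), `q` a power of the prime `p`, two elements of order prime to `p` with the same characteristic polynomial are conjugate in `SU_n(q)`. -/
theorem result {F : Type*} [Field F] [Fintype F] {q : ℕ} (hF : Fintype.card F = q ^ 2) (p : ℕ) [Fact p.Prime] [CharP F p] (n : ℕ)
    (g h : ↥(Cfsg.SU n F q)) (hg : (orderOf g).Coprime p) (hh : (orderOf h).Coprime p)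
    (hc : ((g : Matrix.SpecialLinearGroup (Fin n) F) : Matrix (Fin n) (Fin n) F).charpoly =
      ((h : Matrix.SpecialLinearGroup (Fin n) F) : Matrix (Fin n) (Fin n) F).charpoly) : IsConj g h := by
  exact Cfsg.Agent.Lib.UnClass.conj_SU hF p g h hg hh hc

end Cfsg.Agent.S2390
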