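import Cfsg.Statements.S2391
import Mathlib

set_option autoImplicit false
open Cfsg

namespace Cfsg.Agent.S2391

open Matrix

variable {F : Type*} [Field F] {n : ℕ}

/-- one step of the ascending series of iterated fixed spaces. -/
def nxt (U : Subgroup (Matrix.SpecialLinearGroup (Fin n) F)) (W : Submodule F (Fin n → F))
    : Submodule F (Fin n → F) where
  carrier := {v | ∀ u ∈ U, (u : Matrix (Fin n) (Fin n) F).mulVec v - v ∈ W}
  add_mem' := by
    intro a b ha hb u hu
    have : (u : Matrix (Fin n) (Fin n) F).mulVec (a + b) - (a + b) =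
      ((u : Matrix (Fin n) (Fin n) F).mulVec a - a) + ((u : Matrix (Fin n) (Fin n) F).mulVec b - b) := by
      rw [Matrix.mulVec_add]; abel
    rw [this]
    exact W.add_mem (ha u hu) (hb u hu)
  zero_mem' := by
    intro u hu
    simp
  smul_mem' := by
    intro c v hv u hu
    have : (u : Matrix (Fin n) (Fin n) F).mulVec (c • v) - (c • v) =
      c • ((u : Matrix (Fin n) (Fin n) F).mulVec v - v) := by
      rw [Matrix.mulVec_smul, smul_sub]
    rw [this]
    exact W.smul_mem c (hv u hu)

lemma mem_nxt (U : Subgroup (Matrix.SpecialLinearGroup (Fin n) F)) (W : Submodule F (Fin n → F))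
    (v : Fin n → F) : v ∈ nxt U W ↔ ∀ u ∈ U, (u : Matrix (Fin n) (Fin n) F).mulVec v - v ∈ W := Iff.rfl

/-- the series -/
def ser (U : Subgroup (Matrix.SpecialLinearGroup (Fin n) F)) : ℕ → Submodule F (Fin n → F)
  | 0 => ⊥
  | (i+1) => nxt U (ser U i)

/-- g-invariance predicate -/
def Inv (g : Matrix.SpecialLinearGroup (Fin n) F) (W : Submodule F (Fin n → F)) : Prop :=
  ∀ v ∈ W, (g : Matrix (Fin n) (Fin n) F).mulVec v ∈ W

lemma inv_nxt (U : Subgroup (Matrix.SpecialLinearGroup (Fin n) F)) (W : Submodule F (Fin n → F))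
    (g : Matrix.SpecialLinearGroup (Fin n) F) (hg : g ∈ Subgroup.normalizer (U : Set (Matrix.SpecialLinearGroup (Fin n) F)))
    (h : Inv g W) : Inv g (nxt U W) := by
  intro v hv u hu
  have h1 : g⁻¹ * u * g ∈ U := by
    have := (Subgroup.mem_normalizer_iff''.mp hg) u
    exact this.mp hu
  have h2 := hv _ h1
  have h3 := h _ h2
  have e : (g : Matrix (Fin n) (Fin n) F).mulVec (((g⁻¹ * u * g : Matrix.SpecialLinearGroup (Fin n) F) : Matrix (Fin n) (Fin n) F).mulVec v - v)
      = (u : Matrix (Fin n) (Fin n) F).mulVec ((g : Matrix (Fin n) (Fin n) F).mulVec v) - (g : Matrix (Fin n) (Fin n) F).mulVec v := by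
    rw [Matrix.mulVec_sub, Matrix.mulVec_mulVec, Matrix.mulVec_mulVec, ← Matrix.SpecialLinearGroup.coe_mul,
      ← Matrix.SpecialLinearGroup.coe_mul]
    congr 2
    simp only [mul_assoc, mul_inv_cancel_left]
  rw [e] at h3
  exact h3

lemma inv_ser (U : Subgroup (Matrix.SpecialLinearGroup (Fin n) F))
    (g : Matrix.SpecialLinearGroup (Fin n) F) (hg : g ∈ Subgroup.normalizer (U : Set (Matrix.SpecialLinearGroup (Fin n) F)))
    (i : ℕ) : Inv g (ser U i) := by
  induction i with
  | zero =>
    intro v hv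
    have : v = 0 := hv
    subst this
    simp [ser]
  | succ i ih => exact inv_nxt U _ g hg ih

lemma map_eq_of_inv (g : Matrix.SpecialLinearGroup (Fin n) F) (W : Submodule F (Fin n → F))
    (h : Inv g W) (h' : Inv g⁻¹ W) : W.map (Matrix.mulVecLin (g : Matrix (Fin n) (Fin n) F)) = W := by
  apply le_antisymm
  · rintro _ ⟨v, hv, rfl⟩
    exact h v hv
  · intro v hv
    refine ⟨((g⁻¹ : Matrix.SpecialLinearGroup (Fin n) F) : Matrix (Fin n) (Fin n) F).mulVec v, h' v hv, ?_⟩
    rw [Matrix.mulVecLin_apply, Matrix.mulVec_mulVec, ← Matrix.SpecialLinearGroup.coe_mul]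
    simp

/-- the induced map on the quotient -/
def qmap (W : Submodule F (Fin n → F)) (g : Matrix.SpecialLinearGroup (Fin n) F) (h : Inv g W) :
    ((Fin n → F) ⧸ W) → ((Fin n → F) ⧸ W) :=
  W.mapQ W (Matrix.mulVecLin (g : Matrix (Fin n) (Fin n) F)) (fun v hv => h v hv)

lemma qmap_mk (W : Submodule F (Fin n → F)) (g : Matrix.SpecialLinearGroup (Fin n) F) (h : Inv g W)
    (v : Fin n → F) : qmap W g h (Submodule.Quotient.mk v) =
      Submodule.Quotient.mk ((g : Matrix (Fin n) (Fin n) F).mulVec v) := by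
  rfl

/-- action of `U` on the quotient by an invariant subspace -/
@[instance_reducible] def act (U : Subgroup (Matrix.SpecialLinearGroup (Fin n) F)) (W : Submodule F (Fin n → F))
    (h : ∀ u ∈ U, Inv u W) : MulAction U ((Fin n → F) ⧸ W) where
  smul u q := qmap W u.1 (h u u.2) q
  one_smul q := by
    induction q using Submodule.Quotient.induction_on with
    | _ v =>
      change qmap W (1 : Matrix.SpecialLinearGroup (Fin n) F) _ (Submodule.Quotient.mk v) = _
      rw [qmap_mk]
      simp
  mul_smul a b q := by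
    induction q using Submodule.Quotient.induction_on with
    | _ v =>
      change qmap W (a.1 * b.1) _ (Submodule.Quotient.mk v) = qmap W _ _ (qmap W _ _ (Submodule.Quotient.mk v))
      rw [qmap_mk, qmap_mk, qmap_mk]
      simp [Matrix.mulVec_mulVec]

lemma lt_nxt [Fintype F] (p : ℕ) [Fact p.Prime] [CharP F p]
    (U : Subgroup (Matrix.SpecialLinearGroup (Fin n) F)) (hU : IsPGroup p ↥U)
    (W : Submodule F (Fin n → F)) (h : ∀ u ∈ U, Inv u W) (hW : W ≠ ⊤) : W < nxt U W := by
  have hle : W ≤ nxt U W := by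
    intro v hv u hu
    exact W.sub_mem (h u hu v hv) hv
  refine lt_of_le_of_ne hle ?_
  intro heq
  letI := act U W h
  have hfin : Finite ((Fin n → F) ⧸ W) := inferInstance
  have hnt : Nontrivial ((Fin n → F) ⧸ W) := Submodule.Quotient.nontrivial_iff.mpr hW
  have hdvd : p ∣ Nat.card ((Fin n → F) ⧸ W) := by
    haveI : CharP ((Fin n → F) ⧸ W →ₗ[F] (Fin n → F) ⧸ W) p := by
      haveI : Nontrivial ((Fin n → F) ⧸ W →ₗ[F] (Fin n → F) ⧸ W) := inferInstance
      exact charP_of_injective_algebraMap (algebraMap F _).injective p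
    obtain ⟨x, hx⟩ := exists_ne (0 : (Fin n → F) ⧸ W)
    have hpx : p • x = 0 := by
      rw [← Nat.cast_smul_eq_nsmul F p x, CharP.cast_eq_zero, zero_smul]
    have ho : addOrderOf x = p := addOrderOf_eq_prime hpx hx
    rw [← ho]
    exact addOrderOf_dvd_natCard x
  have hz : (0 : (Fin n → F) ⧸ W) ∈ MulAction.fixedPoints U ((Fin n → F) ⧸ W) := by
    intro u
    change qmap W u.1 _ (Submodule.Quotient.mk 0) = Submodule.Quotient.mk 0
    rw [qmap_mk]
    simp
  obtain ⟨b, hb, hb0⟩ := hU.exists_fixed_point_of_prime_dvd_card_of_fixed_point _ hdvd hz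
  induction b using Submodule.Quotient.induction_on with
  | _ v =>
    have : v ∈ nxt U W := by
      intro u hu
      have := hb ⟨u, hu⟩
      change qmap W u _ (Submodule.Quotient.mk v) = _ at this
      rw [qmap_mk, Submodule.Quotient.eq] at this
      exact this
    rw [← heq] at this
    exact hb0 ((Submodule.Quotient.mk_eq_zero W).mpr this).symm

/-- The Borel–Tits property of `SL_n(q)` in flag form: for a field `F` of characteristic `p` with finitely many elements and a non-trivial `p`-subgroup `U` of `SL_n(F)`, there is a flag `0 = V₀ < V₁ < ⋯ < V_{k+1} = F^n` with at least one proper non-zero member such that every element of the normaliser of `U` maps each `V_i` onto itself and every element of `U` acts trivially on each quotient `V_{i+1}/V_i` (so the normaliser lies in the parabolic subgroup of the flag and `U` in its unipotent radical). -/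
theorem result {F : Type*} [Field F] [Fintype F] (p : ℕ) [Fact p.Prime] [CharP F p] (n : ℕ)
    (U : Subgroup (Matrix.SpecialLinearGroup (Fin n) F)) (hU : IsPGroup p ↥U) (hne : U ≠ ⊥) :
    ∃ (k : ℕ) (V : Fin (k + 2) → Submodule F (Fin n → F)), 1 ≤ k ∧ StrictMono V ∧ V 0 = ⊥ ∧ V (Fin.last (k + 1)) = ⊤ ∧
      (∀ g ∈ Subgroup.normalizer (U : Set (Matrix.SpecialLinearGroup (Fin n) F)), ∀ i, (V i).map (Matrix.mulVecLin (g : Matrix (Fin n) (Fin n) F)) = V i) ∧
      (∀ u ∈ U, ∀ i : Fin (k + 1), ∀ v ∈ V i.succ, (u : Matrix (Fin n) (Fin n) F).mulVec v - v ∈ V (Fin.castSucc i)) := by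
  have hUn : ∀ u ∈ U, u ∈ Subgroup.normalizer (U : Set (Matrix.SpecialLinearGroup (Fin n) F)) :=
    fun u hu => Subgroup.le_normalizer hu
  have hstep : ∀ i, ser U i ≠ ⊤ → ser U i < ser U (i+1) := fun i hi =>
    lt_nxt p U hU (ser U i) (fun u hu => inv_ser U u (hUn u hu) i) hi
  have hex : ∃ N, ser U N = ⊤ := by
    by_contra hcon
    push Not at hcon
    have hsm : StrictMono (ser U) := strictMono_nat_of_lt_succ (fun i => hstep i (hcon i))
    exact not_injective_infinite_finite _ hsm.injective
  classical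
  set N := Nat.find hex with hN
  have hNt : ser U N = ⊤ := Nat.find_spec hex
  have hNmin : ∀ i, i < N → ser U i ≠ ⊤ := fun i hi => Nat.find_min hex hi
  have hU1 : ∃ u ∈ U, u ≠ 1 := (Subgroup.ne_bot_iff_exists_ne_one).mp hne |>.elim fun u hu =>
    ⟨u, u.2, fun h => hu (Subtype.ext h)⟩
  obtain ⟨u, huU, hu1⟩ := hU1
  have hN0 : N ≠ 0 := by
    intro h0
    rw [h0] at hNt
    have hbt : (⊥ : Submodule F (Fin n → F)) = ⊤ := hNt
    apply hu1
    ext i j
    exfalso
    have : (Pi.single i (1:F) : Fin n → F) ∈ (⊥ : Submodule F (Fin n → F)) := by rw [hbt]; trivial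
    have h2 : (Pi.single i (1:F) : Fin n → F) = 0 := this
    have := congrFun h2 i
    simp at this
  have hN1 : N ≠ 1 := by
    intro h1
    rw [h1] at hNt
    apply hu1
    apply Subtype.ext
    apply Matrix.toLin'.injective
    apply LinearMap.ext
    intro v
    have : v ∈ ser U 1 := by rw [hNt]; trivial
    have h3 := this u huU
    have h4 : (u : Matrix (Fin n) (Fin n) F).mulVec v - v = 0 := h3
    simp only [Matrix.toLin'_apply, Matrix.SpecialLinearGroup.coe_one, Matrix.one_mulVec]
    exact sub_eq_zero.mp h4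
  obtain ⟨k, hk⟩ : ∃ k, N = k + 2 - 1 + 0 ∧ 1 ≤ k := ⟨N - 1, by omega, by omega⟩
  refine ⟨k, fun i => ser U i, hk.2, ?_, rfl, ?_, ?_, ?_⟩
  · rw [Fin.strictMono_iff_lt_succ]
    intro i
    have := hstep i (hNmin i (by have := i.2; omega))
    simpa using this
  · have : ((Fin.last (k+1) : Fin (k+2)) : ℕ) = N := by simp; omega
    simp only [this, hNt]
  · intro g hg i
    exact map_eq_of_inv g _ (inv_ser U g hg i) (inv_ser U g⁻¹ (Subgroup.inv_mem _ hg) i)
  · intro u hu i v hv
    have : v ∈ ser U ((i : ℕ) + 1) := by simpa using hv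
    exact this u hu

end Cfsg.Agent.S2391
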