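import Cfsg.Statements.S2392
import Mathlib

set_option autoImplicit false
open scoped MatrixGroups
open Cfsg

namespace Cfsg.Agent.S2392

open Matrix

section Fourier

variable {F : Type*} [Field F] [Fintype F] {m d : ℕ} {L : Type*} [Field L]

/-- Fourier coefficient -/
noncomputable def E (ψ : AddChar F L) (R : (Fin m → F) → Matrix (Fin d) (Fin d) L) (w : Fin m → F) :
    Matrix (Fin d) (Fin d) L := ∑ v : Fin m → F, ψ (-(w ⬝ᵥ v)) • R v

lemma char_sum (ψ : AddChar F L) (hψ : ψ.IsPrimitive) (z : Fin m → F) (hz : z ≠ 0) :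
    ∑ w : Fin m → F, ψ (w ⬝ᵥ z) = 0 := by
  let f : (Fin m → F) →+ F :=
    { toFun := fun w => w ⬝ᵥ z, map_zero' := by simp, map_add' := fun a b => by simp [add_dotProduct] }
  have h1 : ψ.compAddMonoidHom f ≠ 1 := by
    obtain ⟨j, hj⟩ := Function.ne_iff.mp hz
    have h2 := hψ hj
    obtain ⟨t, ht⟩ := AddChar.ne_one_iff.mp h2
    rw [AddChar.ne_one_iff]
    refine ⟨Pi.single j t, ?_⟩
    rw [AddChar.mulShift_apply] at ht
    simpa [f, mul_comm] using ht
  exact AddChar.sum_eq_zero_of_ne_one h1

lemma card_pow : (Fintype.card (Fin m → F) : L) = ((Fintype.card F : ℕ) : L) ^ m := by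
  rw [Fintype.card_fun]; simp

lemma char_sum_zero (ψ : AddChar F L) :
    ∑ w : Fin m → F, ψ (w ⬝ᵥ (0 : Fin m → F)) = ((Fintype.card F : ℕ) : L) ^ m := by
  simp

lemma char_sum' (ψ : AddChar F L) (hψ : ψ.IsPrimitive) (z : Fin m → F) (hz : z ≠ 0) :
    ∑ w : Fin m → F, ψ (z ⬝ᵥ w) = 0 := by
  simp_rw [dotProduct_comm z]
  exact char_sum ψ hψ z hz

variable (ψ : AddChar F L) (hψ : ψ.IsPrimitive) (R : (Fin m → F) → Matrix (Fin d) (Fin d) L)
  (hR : ∀ u v, R (u + v) = R u * R v) (hR0 : R 0 = 1)

include hR in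
lemma R_mul_E (u w : Fin m → F) : R u * E ψ R w = ψ (w ⬝ᵥ u) • E ψ R w := by
  unfold E
  rw [Finset.mul_sum, Finset.smul_sum]
  refine Fintype.sum_equiv (Equiv.addLeft u) _ _ ?_
  intro v
  simp only [Equiv.coe_addLeft]
  rw [Matrix.mul_smul, ← hR, smul_smul, ← AddChar.map_add_eq_mul]
  congr 2
  rw [dotProduct_add]; ring

include hR hψ in
open Classical in
lemma E_mul_E (w w' : Fin m → F) : E ψ R w' * E ψ R w = (if w = w' then ((Fintype.card F : ℕ) : L) ^ m else 0) • E ψ R w := by
  conv_lhs => rw [E]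
  rw [Finset.sum_mul]
  simp_rw [Matrix.smul_mul, R_mul_E ψ R hR, smul_smul, ← AddChar.map_add_eq_mul]
  rw [← Finset.sum_smul]
  congr 1
  have : ∀ v : Fin m → F, -(w' ⬝ᵥ v) + w ⬝ᵥ v = (w - w') ⬝ᵥ v := by
    intro v; rw [sub_dotProduct]; ring
  simp_rw [this]
  split_ifs with h
  · subst h; simp
  · exact char_sum' ψ hψ _ (sub_ne_zero.mpr h)

include hψ in
lemma inversion (u : Fin m → F) : ∑ w, ψ (w ⬝ᵥ u) • E ψ R w = (((Fintype.card F : ℕ) : L) ^ m) • R u := by
  unfold E
  simp_rw [Finset.smul_sum, smul_smul, ← AddChar.map_add_eq_mul]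
  rw [Finset.sum_comm]
  simp_rw [← Finset.sum_smul]
  have : ∀ (v w : Fin m → F), w ⬝ᵥ u + -(w ⬝ᵥ v) = w ⬝ᵥ (u - v) := by
    intro v w; rw [dotProduct_sub]; ring
  simp_rw [this]
  rw [Finset.sum_eq_single u]
  · simp
  · intro v _ hv
    rw [char_sum ψ hψ _ (sub_ne_zero.mpr (Ne.symm hv)), zero_smul]
  · simp

include hψ hR0 in
lemma exists_ne_zero (hq : ((Fintype.card F : ℕ) : L) ≠ 0) (u : Fin m → F) (hu : R u ≠ 1) :
    ∃ w, w ≠ 0 ∧ E ψ R w ≠ 0 := by
  by_contra hcon
  push Not at hcon
  have h1 := inversion ψ hψ R u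
  have h2 := inversion ψ hψ R 0
  rw [Finset.sum_eq_single 0] at h1 h2
  · rw [zero_dotProduct] at h1 h2
    rw [h1, hR0] at h2
    have h3 : (((Fintype.card F : ℕ) : L) ^ m) ≠ 0 := pow_ne_zero _ hq
    exact hu (smul_right_injective _ h3 h2)
  · intro w _ hw; rw [hcon w hw, smul_zero]
  · simp
  · intro w _ hw; rw [hcon w hw, smul_zero]
  · simp

include hR hψ in
lemma card_le (hq : ((Fintype.card F : ℕ) : L) ≠ 0) (h : ∀ w, w ≠ 0 → E ψ R w ≠ 0) :
    Fintype.card F ^ m - 1 ≤ d := by
  classical
  have hx : ∀ w : {w : Fin m → F // w ≠ 0}, ∃ y : Fin d → L, E ψ R w.1 *ᵥ y ≠ 0 := by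
    intro w
    by_contra hcon
    push Not at hcon
    apply h w.1 w.2
    apply Matrix.toLin'.injective
    apply LinearMap.ext
    intro y
    simpa using hcon y
  choose y hy using hx
  have hli : LinearIndependent L (fun w : {w : Fin m → F // w ≠ 0} => E ψ R w.1 *ᵥ y w) := by
    rw [Fintype.linearIndependent_iff]
    intro c hc w
    have h1 := congrArg (fun x => E ψ R w.1 *ᵥ x) hc
    simp only [Matrix.mulVec_zero] at h1
    rw [Matrix.mulVec_sum] at h1
    rw [Finset.sum_eq_single w] at h1
    · rw [Matrix.mulVec_smul, Matrix.mulVec_mulVec, E_mul_E ψ hψ R hR, if_pos rfl, Matrix.smul_mulVec, smul_smul] at h1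
      rcases smul_eq_zero.mp h1 with h2 | h2
      · rcases mul_eq_zero.mp h2 with h3 | h3
        · exact h3
        · exact absurd h3 (pow_ne_zero _ hq)
      · exact absurd h2 (hy w)
    · intro w' _ hw'
      rw [Matrix.mulVec_smul, Matrix.mulVec_mulVec, E_mul_E ψ hψ R hR, if_neg, zero_smul]
      · simp
      · intro h2; exact hw' (Subtype.ext h2)
    · simp
  have h2 := hli.fintype_card_le_finrank
  rw [Module.finrank_fin_fun] at h2
  have h3 : Fintype.card {w : Fin m → F // w ≠ 0} = Fintype.card F ^ m - 1 := by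
    rw [Fintype.card_subtype_compl]
    simp
  omega

end Fourier

section SL

variable {F : Type*} [Field F] {m : ℕ}

/-- the row matrix -/
def aMat (v : Fin m → F) : Matrix (Fin (m+1)) (Fin (m+1)) F :=
  1 + Matrix.vecMulVec (Pi.single 0 1) (Fin.cons 0 v)

lemma cons_zero_dot (v : Fin m → F) : (Fin.cons 0 v : Fin (m+1) → F) ⬝ᵥ (Pi.single 0 1) = 0 := by
  simp

lemma cons_add (u v : Fin m → F) : (Fin.cons 0 (u + v) : Fin (m+1) → F) = Fin.cons 0 u + Fin.cons 0 v := by
  ext i
  refine Fin.cases ?_ (fun j => ?_) i <;> simp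

lemma aMat_mul (u v : Fin m → F) : aMat (u + v) = aMat u * aMat v := by
  unfold aMat
  rw [mul_add, mul_one, add_mul, one_mul, Matrix.vecMulVec_mul_vecMulVec, cons_zero_dot, cons_add,
    Matrix.vecMulVec_add]
  simp
  abel

lemma aMat_det (v : Fin m → F) : (aMat v).det = 1 := by
  unfold aMat
  rw [Matrix.vecMulVec_eq Unit, Matrix.det_one_add_replicateCol_mul_replicateRow, cons_zero_dot, add_zero]

/-- as an element of SL -/
def aSL (v : Fin m → F) : SpecialLinearGroup (Fin (m+1)) F := ⟨aMat v, aMat_det v⟩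

lemma aSL_add (u v : Fin m → F) : aSL (u + v) = aSL u * aSL v :=
  Subtype.ext (aMat_mul u v)

lemma aSL_zero : aSL (0 : Fin m → F) = 1 := by
  have h := aSL_add (0 : Fin m → F) 0
  rw [add_zero] at h
  exact (mul_eq_left.mp h.symm)

lemma conj_aMat (i j : Fin m) (hij : i ≠ j) (c : F) (v : Fin m → F) :
    Matrix.transvection i.succ j.succ c * aMat v = aMat (v - (c * v i) • Pi.single j 1) * Matrix.transvection i.succ j.succ c := by
  have h1 : Matrix.transvection i.succ j.succ c = 1 + c • Matrix.vecMulVec (Pi.single i.succ (1:F)) (Pi.single j.succ (1:F)) := by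
    rw [Matrix.transvection, ← Matrix.single_eq_single_vecMulVec_single, Matrix.smul_single]
    simp
  rw [h1]
  unfold aMat
  have h2 : (Fin.cons 0 (v - (c * v i) • Pi.single j 1) : Fin (m+1) → F) = Fin.cons 0 v - (c * v i) • Pi.single j.succ 1 := by
    ext k
    refine Fin.cases ?_ (fun l => ?_) k
    · simp
    · simp [Pi.single_apply]
  rw [h2]
  simp only [mul_add, add_mul, mul_one, one_mul, Matrix.smul_mul, Matrix.mul_smul, Matrix.vecMulVec_mul_vecMulVec,
    Matrix.vecMulVec_sub, sub_mul]
  simp [Matrix.vecMulVec_smul, Matrix.smul_vecMulVec, smul_smul, hij]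
  abel

end SL

/-- A lower bound for representations in cross characteristic: for `n ≥ 3` and a field `F` with `q` elements, every homomorphism from `SL_n(F)` to `GL_d(K)`, `K` a field of characteristic different from that of `F`, whose kernel is central has `d ≥ q^(n-1) - 1`. -/
theorem result {F : Type*} [Field F] [Fintype F] {q : ℕ} (hq : Fintype.card F = q) (n : ℕ) (hn : 3 ≤ n)
    {K : Type*} [Field K] (hK : ringChar K ≠ ringChar F) {d : ℕ}
    (ρ : Matrix.SpecialLinearGroup (Fin n) F →* GL (Fin d) K) (hker : ρ.ker ≤ Subgroup.center (Matrix.SpecialLinearGroup (Fin n) F)) :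
    q ^ (n - 1) - 1 ≤ d := by
  obtain ⟨m, rfl⟩ : ∃ m, n = m + 1 := ⟨n - 1, by omega⟩
  subst hq
  simp only [Nat.add_sub_cancel]
  let P := AddChar.FiniteField.primitiveChar F K hK
  let L := CyclotomicField P.n K
  let ψ : AddChar F L := P.char
  have hψ : ψ.IsPrimitive := P.prim
  have hq0 : ((Fintype.card F : ℕ) : L) ≠ 0 := by
    have h1 : ((Fintype.card F : ℕ) : K) ≠ 0 := by
      intro h0
      have h2 := (ringChar.spec K _).mp h0
      haveI : CharP F (ringChar F) := inferInstance
      obtain ⟨k, hp, hk⟩ := FiniteField.card F (ringChar F)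
      rw [hk] at h2
      rcases CharP.char_is_prime_or_zero K (ringChar K) with h3 | h3
      · exact hK ((Nat.prime_dvd_prime_iff_eq h3 hp).mp (h3.dvd_of_dvd_pow h2))
      · rw [h3, zero_dvd_iff] at h2
        exact absurd h2 (pow_ne_zero _ hp.ne_zero)
    intro h0
    apply h1
    apply (algebraMap K L).injective
    rw [map_natCast, map_zero]
    exact h0
  let T : SpecialLinearGroup (Fin (m+1)) F →* Matrix (Fin d) (Fin d) L :=
    ((algebraMap K L).mapMatrix.toMonoidHom).comp ((Units.coeHom _).comp ρ)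
  let R : (Fin m → F) → Matrix (Fin d) (Fin d) L := fun v => T (aSL v)
  have hR : ∀ u v, R (u + v) = R u * R v := fun u v => by
    change T _ = T _ * T _
    rw [aSL_add, map_mul]
  have hR0 : R 0 = 1 := by
    change T _ = 1
    rw [aSL_zero, map_one]
  have hT : ∀ g, T g = 1 → g ∈ Subgroup.center (SpecialLinearGroup (Fin (m+1)) F) := by
    intro g hg
    apply hker
    rw [MonoidHom.mem_ker]
    apply Units.ext
    have h1 : ((algebraMap K L).mapMatrix ((ρ g : GL (Fin d) K) : Matrix (Fin d) (Fin d) K)) = (algebraMap K L).mapMatrix 1 := by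
      rw [map_one]; exact hg
    exact Matrix.map_injective (algebraMap K L).injective h1
  -- step
  have hstep : ∀ w, E ψ R w ≠ 0 → ∀ i j : Fin m, i ≠ j → ∀ c : F, E ψ R (w + (c * w j) • Pi.single i 1) ≠ 0 := by
    intro w hw i j hij c h0
    apply hw
    let g : SpecialLinearGroup (Fin (m+1)) F :=
      ⟨Matrix.transvection i.succ j.succ c, Matrix.det_transvection_of_ne _ _ (by simpa using hij) c⟩
    have hconj : ∀ v, T g * R v = R (v - (c * v i) • Pi.single j 1) * T g := by
      intro v
      change T g * T _ = T _ * T g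
      rw [← map_mul, ← map_mul]
      congr 1
      exact Subtype.ext (conj_aMat i j hij c v)
    have h2 : T g * E ψ R w = E ψ R (w + (c * w j) • Pi.single i 1) * T g := by
      unfold E
      rw [Finset.mul_sum, Finset.sum_mul]
      simp_rw [Matrix.mul_smul, hconj, Matrix.smul_mul]
      let e : (Fin m → F) ≃ (Fin m → F) :=
        { toFun := fun v => v - (c * v i) • Pi.single j 1
          invFun := fun u => u + (c * u i) • Pi.single j 1
          left_inv := fun v => by
            ext k
            simp [hij]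
          right_inv := fun v => by
            ext k
            simp [hij] }
      refine Fintype.sum_equiv e _ _ ?_
      intro v
      congr 2
      simp only [e, Equiv.coe_fn_mk]
      rw [add_dotProduct, smul_dotProduct, dotProduct_sub, dotProduct_sub, dotProduct_smul, dotProduct_smul]
      simp [hij]
      ring
    rw [h0, zero_mul] at h2
    have h3 : T g⁻¹ * (T g * E ψ R w) = E ψ R w := by
      rw [← mul_assoc, ← map_mul, inv_mul_cancel, map_one, one_mul]
    rw [← h3, h2, mul_zero]
  -- update form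
  have hupd : ∀ w, E ψ R w ≠ 0 → ∀ i j : Fin m, i ≠ j → w j ≠ 0 → ∀ c : F, E ψ R (Function.update w i c) ≠ 0 := by
    intro w hw i j hij hwj c
    have h1 := hstep w hw i j hij ((c - w i) / w j)
    have h2 : w + ((c - w i) / w j * w j) • Pi.single i 1 = Function.update w i c := by
      rw [div_mul_cancel₀ _ hwj]
      ext k
      by_cases hk : k = i
      · subst hk; simp
      · simp [hk]
    rwa [h2] at h1
  -- some nonzero one
  have hm2 : 2 ≤ m := by omega
  obtain ⟨i0, i1, h01⟩ : ∃ a b : Fin m, a ≠ b := ⟨⟨0, by omega⟩, ⟨1, by omega⟩, by simp⟩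
  have hnontriv : R (Pi.single i0 1) ≠ 1 := by
    intro h1
    have h2 := hT _ h1
    rw [Subgroup.mem_center_iff] at h2
    have h3 := h2 ⟨Matrix.transvection (Fin.succ i0) (Fin.succ i1) (1 : F),
      Matrix.det_transvection_of_ne _ _ (by simpa using h01) 1⟩
    have h4 := congrArg Subtype.val h3
    have h5 : Matrix.transvection (Fin.succ i0) (Fin.succ i1) (1:F) * aMat (Pi.single i0 1) =
      aMat (Pi.single i0 (1:F)) * Matrix.transvection (Fin.succ i0) (Fin.succ i1) (1:F) := h4
    rw [conj_aMat _ _ h01] at h5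
    have h6 : IsUnit (Matrix.transvection (Fin.succ i0) (Fin.succ i1) (1:F)) := by
      rw [Matrix.isUnit_iff_isUnit_det, Matrix.det_transvection_of_ne _ _ (by simpa using h01)]
      exact isUnit_one
    have h7 := h6.mul_right_cancel h5
    have h8 := congrFun (congrFun h7 0) (Fin.succ i1)
    simp [aMat, Matrix.vecMulVec_apply] at h8
  obtain ⟨w0, hw0, hE0⟩ := exists_ne_zero ψ hψ R hR0 hq0 _ hnontriv
  refine card_le ψ hψ R hR hq0 ?_
  intro w' hw'
  obtain ⟨k, hk⟩ := Function.ne_iff.mp hw'
  obtain ⟨i, hi⟩ := Function.ne_iff.mp hw0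
  simp only [Pi.zero_apply] at hk hi
  have h1 : ∃ w1, E ψ R w1 ≠ 0 ∧ w1 k = w' k := by
    by_cases hik : i = k
    · subst hik
      obtain ⟨j, hj⟩ : ∃ j : Fin m, j ≠ i := by
        haveI : Nontrivial (Fin m) := Fin.nontrivial_iff_two_le.mpr hm2
        exact exists_ne i
      have h2 := hupd w0 hE0 j i hj hi 1
      have h3 := hupd _ h2 i j hj.symm (by simp) (w' i)
      exact ⟨_, h3, by simp⟩
    · exact ⟨_, hupd w0 hE0 k i (Ne.symm hik) hi (w' k), by simp⟩
  obtain ⟨w1, hw1, hw1k⟩ := h1
  have h2 : ∀ s : Finset (Fin m), E ψ R (fun j => if j ∈ s then w' j else w1 j) ≠ 0 := by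
    intro s
    induction s using Finset.induction_on with
    | empty => simpa using hw1
    | insert a s ha ih =>
      by_cases hak : a = k
      · subst hak
        have : (fun j => if j ∈ insert a s then w' j else w1 j) = (fun j => if j ∈ s then w' j else w1 j) := by
          ext j
          by_cases hj : j = a
          · subst hj; simp [ha, hw1k]
          · simp [hj]
        rw [this]; exact ih
      · have h3 := hupd _ ih a k hak (by
          by_cases hks : k ∈ s
          · simp [hks, hk]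
          · simp [hks, hw1k, hk]) (w' a)
        have : (fun j => if j ∈ insert a s then w' j else w1 j) = Function.update (fun j => if j ∈ s then w' j else w1 j) a (w' a) := by
          ext j
          by_cases hj : j = a
          · subst hj; simp
          · simp [hj]
        rw [this]; exact h3
  have h3 := h2 Finset.univ
  simpa using h3

end Cfsg.Agent.S2392
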