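import Cfsg.Statements.S2393
import Cfsg.Agent.Lib.LSeitz

set_option autoImplicit false
open Cfsg

namespace Cfsg.Agent.S2393
open Cfsg.Agent.Lib.LSeitz Matrix Module

section
variable {F : Type*} [Field F] {m : ℕ}

abbrev Sym (F : Type*) [Field F] (m : ℕ) := {S : Matrix (Fin (m + 1)) (Fin (m + 1)) F // Sᵀ = S}

/-- the unipotent radical of the Siegel parabolic subgroup -/
def u (S : Sym F m) : Matrix.symplecticGroup (Fin (m + 1)) F :=
  ⟨fromBlocks 1 S.1 0 1, by
    rw [SymplecticGroup.fromBlocks_mem_iff]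
    refine ⟨by simp, ?_, by simp⟩
    rw [S.2]; simp⟩

theorem u_mul (S T : Sym F m) : u S * u T = u ⟨S.1 + T.1, by rw [transpose_add, S.2, T.2]⟩ := by
  apply Subtype.ext
  show fromBlocks 1 S.1 0 1 * fromBlocks 1 T.1 0 1 = fromBlocks 1 (S.1 + T.1) 0 1
  rw [fromBlocks_multiply]
  simp [add_comm]

theorem u_comm (S T : Sym F m) : u S * u T = u T * u S := by
  rw [u_mul, u_mul]
  congr 2
  exact add_comm _ _

theorem u_zero : u (⟨0, by simp⟩ : Sym F m) = 1 := by
  apply Subtype.ext
  exact fromBlocks_one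

/-- the Levi subgroup -/
def mm (k l : Matrix (Fin (m + 1)) (Fin (m + 1)) F) (h : k * l = 1) : Matrix.symplecticGroup (Fin (m + 1)) F :=
  ⟨fromBlocks k 0 0 lᵀ, by
    rw [SymplecticGroup.fromBlocks_mem_iff]
    refine ⟨by simp, by simp, ?_⟩
    have h' : l * k = 1 := mul_eq_one_comm.mp h
    rw [← transpose_mul, h']; simp⟩

theorem mm_u (k l : Matrix (Fin (m + 1)) (Fin (m + 1)) F) (h : k * l = 1) (S : Sym F m) :
    mm k l h * u S = u ⟨k * S.1 * kᵀ, by rw [transpose_mul, transpose_mul, transpose_transpose, S.2, Matrix.mul_assoc]⟩ * mm k l h := by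
  apply Subtype.ext
  show fromBlocks k 0 0 lᵀ * fromBlocks 1 S.1 0 1 = fromBlocks 1 (k * S.1 * kᵀ) 0 1 * fromBlocks k 0 0 lᵀ
  rw [fromBlocks_multiply, fromBlocks_multiply]
  have h' : l * k = 1 := mul_eq_one_comm.mp h
  have h2 : kᵀ * lᵀ = 1 := by rw [← transpose_mul, h', transpose_one]
  have h3 : k * S.1 * kᵀ * lᵀ = k * S.1 := by rw [Matrix.mul_assoc (k * S.1), h2, Matrix.mul_one]
  rw [h3]
  simp

/-- the matrix with first row `(a, y)` -/
def kk (a : F) (y : Fin m → F) : Matrix (Fin (m + 1)) (Fin (m + 1)) F :=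
  Matrix.of (Fin.cons (Fin.cons a y) (fun i => Fin.cons 0 (Pi.single i 1)))

theorem kk00 (a : F) (y : Fin m → F) : kk a y 0 0 = a := rfl
theorem kk0j (a : F) (y : Fin m → F) (j : Fin m) : kk a y 0 j.succ = y j := rfl
theorem kki0 (a : F) (y : Fin m → F) (i : Fin m) : kk a y i.succ 0 = 0 := rfl
theorem kkij (a : F) (y : Fin m → F) (i j : Fin m) : kk a y i.succ j.succ = if i = j then 1 else 0 := by
  show (Pi.single i (1 : F) : Fin m → F) j = _
  rw [Pi.single_apply]
  simp only [eq_comm]

theorem kk_inv {a : F} (ha : a ≠ 0) (y : Fin m → F) : kk a y * kk a⁻¹ (fun j => -(a⁻¹ * y j)) = 1 := by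
  ext i j
  rw [Matrix.mul_apply, Fin.sum_univ_succ]
  refine Fin.cases ?_ (fun i => ?_) i <;> refine Fin.cases ?_ (fun j => ?_) j
  · simp [kk00, kk0j, kki0, ha]
  · simp only [kk00, kk0j, kkij]
    rw [Matrix.one_apply_ne (Fin.succ_ne_zero j).symm]
    simp only [mul_ite, mul_one, mul_zero, Finset.sum_ite_eq', Finset.mem_univ, if_true]
    field_simp
    ring
  · simp only [kki0, kkij]
    rw [Matrix.one_apply_ne (Fin.succ_ne_zero i)]
    simp
  · simp only [kki0, kkij]
    rw [Matrix.one_apply]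
    simp

/-- the root elements -/
def e0 (s : F) : Sym F m := ⟨Matrix.single 0 0 s, by simp⟩

/-- the other elements of the first row -/
def ej (j : Fin m) (x : F) : Sym F m := ⟨Matrix.single 0 j.succ x + Matrix.single j.succ 0 x, by simp [add_comm]⟩

theorem kk_e0 (a : F) (y : Fin m → F) (s : F) : kk a y * (e0 s : Sym F m).1 * (kk a y)ᵀ = (e0 (a ^ 2 * s) : Sym F m).1 := by
  show kk a y * Matrix.single 0 0 s * (kk a y)ᵀ = Matrix.single 0 0 (a ^ 2 * s)
  ext i j
  rw [Matrix.mul_apply, Fin.sum_univ_succ]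
  simp only [Matrix.mul_apply, Fin.sum_univ_succ, transpose_apply, Matrix.single_apply]
  refine Fin.cases ?_ (fun i => ?_) i <;> refine Fin.cases ?_ (fun j => ?_) j
  all_goals
    simp [kk00, kki0, (Fin.succ_ne_zero _).symm]
    try ring

theorem kk_ej (a : F) (y : Fin m → F) (j : Fin m) (x : F) : kk a y * (ej j x).1 * (kk a y)ᵀ =
    (e0 (2 * a * y j * x) : Sym F m).1 + (ej j (a * x)).1 := by
  show kk a y * (Matrix.single 0 j.succ x + Matrix.single j.succ 0 x) * (kk a y)ᵀ =
    Matrix.single 0 0 (2 * a * y j * x) + (Matrix.single 0 j.succ (a * x) + Matrix.single j.succ 0 (a * x))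
  ext r s
  rw [Matrix.mul_apply, Fin.sum_univ_succ]
  simp only [Matrix.mul_apply, Fin.sum_univ_succ, transpose_apply, Matrix.add_apply, Matrix.single_apply]
  refine Fin.cases ?_ (fun r => ?_) r <;> refine Fin.cases ?_ (fun s => ?_) s
  · simp [kk00, kk0j, kki0, kkij, (Fin.succ_ne_zero _).symm, Fin.succ_inj]
    try ring
  · simp [kk00, kk0j, kki0, kkij, (Fin.succ_ne_zero _).symm, Fin.succ_inj]
    try ring
  · by_cases hr : j = r
    · subst hr
      simp [kk00, kk0j, kki0, kkij, (Fin.succ_ne_zero _).symm, Fin.succ_inj]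
      try ring
    · simp [kk00, kk0j, kki0, kkij, (Fin.succ_ne_zero _).symm, Fin.succ_inj, hr, Ne.symm hr]
  · simp [kk00, kk0j, kki0, kkij, (Fin.succ_ne_zero _).symm, Fin.succ_inj]

end

/-- A lower bound for representations in cross characteristic: for `n ≥ 2` and a field `F` with `q` elements, `q` odd, every homomorphism from the symplectic group `Sp_{2n}(F)` to `GL_d(K)`, `K` a field of characteristic different from that of `F`, whose kernel is central has `d ≥ q^(n-1)(q-1)/2`. -/
theorem result {F : Type*} [Field F] [Fintype F] {q : ℕ} (hq : Fintype.card F = q) (hodd : Odd q) (n : ℕ) (hn : 2 ≤ n)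
    {K : Type*} [Field K] (hK : ringChar K ≠ ringChar F) {d : ℕ}
    (ρ : ↥(Matrix.symplecticGroup (Fin n) F) →* GL (Fin d) K) (hker : ρ.ker ≤ Subgroup.center ↥(Matrix.symplecticGroup (Fin n) F)) :
    q ^ (n - 1) * (q - 1) / 2 ≤ d := by
  classical
  obtain ⟨m, rfl⟩ : ∃ m, n = m + 1 := ⟨n - 1, by omega⟩
  rw [Nat.add_sub_cancel]
  -- the characteristic
  have hp : (ringChar F).Prime := CharP.char_is_prime F (ringChar F)
  set p := ringChar F with hpdef
  have hpK : (p : K) ≠ 0 := by
    intro h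
    have h1 : ringChar K ∣ p := (ringChar.spec K p).mp h
    rcases (Nat.dvd_prime hp).mp h1 with h2 | h2
    · have h3 : ((ringChar K : ℕ) : K) = 0 := ringChar.Nat.cast_ringChar
      rw [h2, Nat.cast_one] at h3
      exact one_ne_zero h3
    · exact hK h2
  have h2F : (2 : F) ≠ 0 := by
    intro h
    have h1 : ringChar F ∣ 2 := (ringChar.spec F 2).mp (by exact_mod_cast h)
    have h2 : p = 2 := (Nat.prime_dvd_prime_iff_eq hp Nat.prime_two).mp h1
    obtain ⟨k, -, hk⟩ := FiniteField.card F p
    rw [← hq, hk, h2] at hodd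
    exact (Nat.not_odd_iff_even.mpr ((Nat.even_pow' k.2.ne').mpr even_two)) hodd
  -- the representation over the algebraic closure
  let L := AlgebraicClosure K
  let V := Fin d → L
  let R : Matrix.symplecticGroup (Fin (m + 1)) F →* Module.End L V := {
    toFun := fun g => Matrix.toLinAlgEquiv' ((algebraMap K L).mapMatrix (ρ g).1)
    map_one' := by rw [map_one, Units.val_one, map_one, map_one]
    map_mul' := fun g h => by rw [map_mul, Units.val_mul, map_mul, map_mul] }
  have hR : ∀ g, R g = 1 → ρ g = 1 := by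
    intro g hg
    have h1 : Matrix.toLinAlgEquiv' ((algebraMap K L).mapMatrix (ρ g).1) = (1 : Module.End L V) := hg
    have h2 : (algebraMap K L).mapMatrix (ρ g).1 = 1 := by
      apply Matrix.toLinAlgEquiv'.injective
      rw [h1, map_one]
    apply Units.ext
    apply Matrix.map_injective (algebraMap K L).injective
    show (algebraMap K L).mapMatrix (ρ g).1 = (algebraMap K L).mapMatrix (1 : Matrix (Fin d) (Fin d) K)
    rw [h2, map_one]
  let f : Sym F m → Module.End L V := fun S => R (u S)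
  have hfc : ∀ S T, Commute (f S) (f T) := by
    intro S T
    show R (u S) * R (u T) = R (u T) * R (u S)
    rw [← map_mul, u_comm, map_mul]
  -- the root element
  let z : Sym F m := e0 1
  have hz : f z ≠ 1 := by
    intro h
    have h1 := hker (MonoidHom.mem_ker.mpr (hR _ h))
    rw [Subgroup.mem_center_iff] at h1
    have h2 := h1 (SymplecticGroup.symJ (Fin (m + 1)) F)
    have h3 : Matrix.J (Fin (m + 1)) F * fromBlocks 1 (e0 1 : Sym F m).1 0 1 = fromBlocks 1 (e0 1 : Sym F m).1 0 1 * Matrix.J (Fin (m + 1)) F :=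
      congrArg Subtype.val h2
    unfold Matrix.J at h3
    rw [fromBlocks_multiply, fromBlocks_multiply, fromBlocks_inj] at h3
    have h4 := h3.1
    simp only [zero_mul, mul_zero, one_mul, mul_one, add_zero, zero_add, neg_mul] at h4
    have h5 := congrFun (congrFun h4 0) 0
    simp [e0] at h5
  have e0add : ∀ s t : F, u (e0 s : Sym F m) * u (e0 t) = u (e0 (s + t)) := by
    intro s t
    rw [u_mul]
    congr 1
    apply Subtype.ext
    show Matrix.single 0 0 s + Matrix.single 0 0 t = Matrix.single 0 0 (s + t)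
    rw [← Matrix.single_add]
  have hzp : f z ^ p = 1 := by
    have h1 : ∀ n : ℕ, u (e0 1 : Sym F m) ^ n = u (e0 (n : F)) := by
      intro n
      induction n with
      | zero =>
        rw [pow_zero, Nat.cast_zero, ← u_zero]
        congr 1
        apply Subtype.ext
        show 0 = Matrix.single 0 0 (0 : F)
        rw [Matrix.single_zero]
      | succ n ih => rw [pow_succ, ih, e0add, Nat.cast_succ]
    show R (u z) ^ p = 1
    rw [← map_pow, h1]
    have h2 : ((p : ℕ) : F) = 0 := ringChar.Nat.cast_ringChar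
    have h3 : u (e0 ((p : ℕ) : F) : Sym F m) = 1 := by
      rw [h2, ← u_zero]
      congr 1
      apply Subtype.ext
      show Matrix.single 0 0 (0 : F) = 0
      rw [Matrix.single_zero]
    rw [h3, map_one]
  -- a weight vector
  let W : Submodule L V := LinearMap.range (f z - 1)
  have hW : W ≠ ⊥ := by
    intro h
    apply hz
    have h1 : f z - 1 = 0 := LinearMap.range_eq_bot.mp h
    exact sub_eq_zero.mp h1
  have hst : ∀ S, ∀ w ∈ W, f S w ∈ W := by
    rintro S w ⟨x, rfl⟩
    refine ⟨f S x, ?_⟩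
    have h1 : f z (f S x) = f S (f z x) := LinearMap.congr_fun (hfc z S) x
    rw [LinearMap.sub_apply, LinearMap.sub_apply, map_sub, h1]
    rfl
  obtain ⟨v, ⟨x, hx⟩, hv0, χ, hχ⟩ := exists_common f hfc _ W rfl hW hst
  have hχz : χ z ≠ 1 := by
    intro h
    have h1 : (f z ^ p - 1) x = 0 := by rw [hzp, sub_self, LinearMap.zero_apply]
    have h2 : (∑ i ∈ Finset.range p, f z ^ i) * (f z - 1) = f z ^ p - 1 := geom_sum_mul _ _
    rw [← h2] at h1
    have h3 : (∑ i ∈ Finset.range p, f z ^ i) ((f z - 1) x) = 0 := h1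
    rw [hx, LinearMap.sum_apply] at h3
    have h4 : ∀ i : ℕ, (f z ^ i) v = v := by
      intro i
      induction i with
      | zero => rfl
      | succ i ih =>
        rw [pow_succ]
        show (f z ^ i) (f z v) = v
        rw [hχ, h, one_smul, ih]
    rw [Finset.sum_congr rfl (fun i _ => h4 i), Finset.sum_const, Finset.card_range, ← Nat.cast_smul_eq_nsmul L] at h3
    rcases smul_eq_zero.mp h3 with h5 | h5
    · apply hpK
      apply (algebraMap K L).injective
      rw [map_natCast, map_zero]; exact h5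
    · exact hv0 h5
  have hχm : ∀ S T : Sym F m, χ ⟨S.1 + T.1, by rw [transpose_add, S.2, T.2]⟩ = χ S * χ T := by
    intro S T
    have h1 : f ⟨S.1 + T.1, by rw [transpose_add, S.2, T.2]⟩ v = f S (f T v) := by
      show R (u _) v = (R (u S) * R (u T)) v
      rw [← map_mul, u_mul]
    rw [hχ, hχ, map_smul, hχ, smul_smul] at h1
    have h2 := smul_left_injective L hv0 h1
    rw [h2, mul_comm]
  have hχ0 : ∀ S, χ S ≠ 0 := by
    intro S h
    have h1 : R ((u S)⁻¹) (f S v) = v := by
      show (R ((u S)⁻¹) * R (u S)) v = v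
      rw [← map_mul, inv_mul_cancel, map_one]; rfl
    rw [hχ, h, zero_smul, map_zero] at h1
    exact hv0 h1.symm
  let lam : F → L := fun s => χ (e0 s)
  have hlam : ∀ s t, lam (s + t) = lam s * lam t := by
    intro s t
    show χ _ = χ _ * χ _
    rw [← hχm]
    congr 1
    apply Subtype.ext
    exact Matrix.single_add _ _ _ _
  -- the weights
  let Θ : Fˣ × (Fin m → F) → Sym F m → L := fun r S =>
    χ ⟨kk (r.1 : F) r.2 * S.1 * (kk (r.1 : F) r.2)ᵀ, by rw [transpose_mul, transpose_mul, transpose_transpose, S.2, Matrix.mul_assoc]⟩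
  have hΘ0 : ∀ r s, Θ r (e0 s) = lam ((r.1 : F) ^ 2 * s) := by
    intro r s
    show χ _ = χ _
    congr 1
    apply Subtype.ext
    exact kk_e0 _ _ _
  have hΘj : ∀ r j x, Θ r (ej j x) = lam (2 * (r.1 : F) * r.2 j * x) * χ (ej j ((r.1 : F) * x)) := by
    intro r j x
    show χ _ = χ _ * χ _
    rw [← hχm]
    congr 1
    apply Subtype.ext
    exact kk_ej _ _ _ _
  have hwt : ∀ r, ∃ w : V, w ≠ 0 ∧ ∀ S, f S w = Θ r S • w := by
    intro r
    have hk := kk_inv r.1.ne_zero r.2
    set g := mm _ _ hk with hg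
    refine ⟨R g⁻¹ v, fun h => hv0 ?_, fun S => ?_⟩
    · have h1 : R g (R g⁻¹ v) = v := by
        show (R g * R g⁻¹) v = v
        rw [← map_mul, mul_inv_cancel, map_one]; rfl
      rw [← h1, h, map_zero]
    · have h1 := mm_u _ _ hk S
      rw [← hg] at h1
      have h2 : u S * g⁻¹ = g⁻¹ * u ⟨kk (r.1 : F) r.2 * S.1 * (kk (r.1 : F) r.2)ᵀ, by
          rw [transpose_mul, transpose_mul, transpose_transpose, S.2, Matrix.mul_assoc]⟩ := by
        rw [eq_inv_mul_iff_mul_eq, ← mul_assoc, h1]; group
      show (R (u S) * R g⁻¹) v = _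
      rw [← map_mul, h2, map_mul]
      show R g⁻¹ (f _ v) = _
      rw [hχ, map_smul]
  -- the fibres
  have hlam1 : ∀ t : F, (∀ s, lam (t * s) = 1) → t = 0 := by
    intro t ht
    by_contra h0
    apply hχz
    have := ht (t⁻¹ * 1)
    rw [mul_inv_cancel_left₀ h0] at this
    exact this
  have hl0 : ∀ s, lam s ≠ 0 := fun s => hχ0 _
  have hfib : ∀ r r' : Fˣ × (Fin m → F), Θ r = Θ r' → (r'.1 : F) = r.1 ∨ (r'.1 : F) = -r.1 := by
    intro r r' h
    have h1 : (r.1 : F) ^ 2 - (r'.1 : F) ^ 2 = 0 := by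
      apply hlam1
      intro s
      have h2 := congrFun h (e0 s)
      rw [hΘ0, hΘ0] at h2
      have h3 : (r.1 : F) ^ 2 * s = ((r.1 : F) ^ 2 - (r'.1 : F) ^ 2) * s + (r'.1 : F) ^ 2 * s := by ring
      rw [h3, hlam] at h2
      exact mul_right_cancel₀ (hl0 _) (h2.trans (one_mul _).symm)
    have h2 : ((r'.1 : F) - r.1) * ((r'.1 : F) + r.1) = 0 := by linear_combination -h1
    rcases mul_eq_zero.mp h2 with h3 | h3
    · left; linear_combination h3
    · right; linear_combination h3
  have hfib2 : ∀ r r' : Fˣ × (Fin m → F), Θ r = Θ r' → r.1 = r'.1 → r = r' := by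
    rintro ⟨a, y⟩ ⟨a', y'⟩ h (rfl : a = a')
    have h1 : y = y' := by
      funext j
      have h2 : 2 * (a : F) * (y j - y' j) = 0 := by
        apply hlam1
        intro x
        have h3 := congrFun h (ej j x)
        rw [hΘj, hΘj] at h3
        have h4 := mul_right_cancel₀ (hχ0 _) h3
        simp only at h4
        have h5 : 2 * (a : F) * y j * x = 2 * (a : F) * (y j - y' j) * x + 2 * (a : F) * y' j * x := by ring
        rw [h5, hlam] at h4
        exact mul_right_cancel₀ (hl0 _) (h4.trans (one_mul _).symm)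
      exact sub_eq_zero.mp ((mul_eq_zero.mp h2).resolve_left (mul_ne_zero h2F a.ne_zero))
    rw [h1]
  -- counting
  have hcount : (Finset.univ : Finset (Fˣ × (Fin m → F))).card ≤ 2 * (Finset.univ.image Θ).card := by
    refine Finset.card_le_mul_card_image _ 2 fun c hc => ?_
    obtain ⟨r0, -, hr0⟩ := Finset.mem_image.mp hc
    have h1 : (Finset.univ.filter (fun r => Θ r = c)).card ≤ ({r0.1, -r0.1} : Finset Fˣ).card := by
      refine Finset.card_le_card_of_injOn (fun r => r.1) ?_ ?_
      · intro r hr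
        have hr1 : Θ r = c := (Finset.mem_filter.mp hr).2
        have h2 := hfib r0 r (hr0.trans hr1.symm)
        show r.1 ∈ (({r0.1, -r0.1} : Finset Fˣ) : Set Fˣ)
        rw [Finset.mem_coe, Finset.mem_insert, Finset.mem_singleton]
        rcases h2 with h3 | h3
        · exact Or.inl (Units.ext h3)
        · exact Or.inr (Units.ext (by rw [Units.val_neg]; exact h3))
      · intro r hr r' hr' h2
        have hr1 : Θ r = c := (Finset.mem_filter.mp hr).2
        have hr2 : Θ r' = c := (Finset.mem_filter.mp hr').2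
        exact hfib2 r r' (hr1.trans hr2.symm) h2
    exact h1.trans Finset.card_le_two
  have himg : (Finset.univ.image Θ).card ≤ d := by
    have hex : ∀ c : {c // c ∈ Finset.univ.image Θ}, ∃ w : V, w ≠ 0 ∧ ∀ S, f S w = c.1 S • w := by
      rintro ⟨c, hc⟩
      obtain ⟨r, -, rfl⟩ := Finset.mem_image.mp hc
      exact hwt r
    choose w hw0 hw using hex
    have h1 := card_le_finrank (κ := {c // c ∈ Finset.univ.image Θ}) f (fun c => c.1) Subtype.val_injective w hw0 (fun c S => hw c S)
    rw [Fintype.card_coe, Module.finrank_fin_fun] at h1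
    exact h1
  have hcard : (Finset.univ : Finset (Fˣ × (Fin m → F))).card = q ^ m * (q - 1) := by
    rw [Finset.card_univ, Fintype.card_prod, Fintype.card_units, Fintype.card_fun, Fintype.card_fin, hq, mul_comm]
  rw [hcard] at hcount
  exact Nat.div_le_of_le_mul (hcount.trans (Nat.mul_le_mul_left 2 himg))

end Cfsg.Agent.S2393
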