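import Cfsg.Statements.S2395
import Mathlib

set_option autoImplicit false
open Cfsg

namespace Cfsg.Agent.S2395

open Cfsg.Lie ChevalleyDatum

def laG2 : List (ℕ × ℕ × ℕ × ℤ) := [(0, 1, 5, 1), (1, 0, 6, 1), (5, 0, 10, -1), (6, 1, 11, -1), (10, 5, 11, 1), (11, 6, 10, 1)]
def lbG2 : List (ℕ × ℕ × ℕ × ℤ × ℕ × ℤ × List (ℕ × ℤ × ℕ × ℕ)) := [(2, 10, 7, -1, 3, 1, [(0, 1, 3, 1), (5, 1, 3, 2)]), (2, 11, 8, -1, 4, -1, [(1, -1, 3, 1), (6, -1, 3, 2)]), (3, 6, 4, 1, 2, -1, [(0, 1, 3, 1), (1, -1, 3, 2)]), (3, 11, 9, 1, 7, 1, [(5, -1, 3, 1), (10, 1, 3, 2)])]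

def laB2 : List (ℕ × ℕ × ℕ × ℤ) := []
def lbB2 : List (ℕ × ℕ × ℕ × ℤ × ℕ × ℤ × List (ℕ × ℤ × ℕ × ℕ)) := [(1, 4, 2, 1, 0, 1, []), (1, 7, 5, -1, 3, 1, []), (2, 3, 1, 1, 0, -1, []), (2, 7, 6, 1, 4, -1, []), (5, 4, 6, -1, 7, -1, [])]

def laD4 : List (ℕ × ℕ × ℕ × ℤ) := [(0, 1, 9, 1), (1, 0, 14, 1), (2, 0, 15, -1), (3, 0, 16, -1), (4, 0, 17, 1), (5, 1, 17, 1), (6, 0, 19, -1), (7, 0, 20, 1), (8, 0, 21, 1), (9, 0, 22, -1), (10, 1, 20, -1), (11, 1, 21, -1), (12, 2, 22, -1), (13, 3, 22, -1), (14, 1, 23, -1), (15, 2, 23, 1), (16, 3, 23, 1), (17, 4, 23, -1), (18, 6, 22, 1), (19, 6, 23, 1), (20, 7, 23, -1), (21, 8, 23, -1), (22, 9, 23, 1), (23, 14, 22, 1)]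
def lbD4 : List (ℕ × ℕ × ℕ × ℤ × ℕ × ℤ × List (ℕ × ℤ × ℕ × ℕ)) := []

def laF4 : List (ℕ × ℕ × ℕ × ℤ) := [(0, 1, 23, 1), (1, 0, 24, 1), (2, 0, 26, 1), (3, 7, 14, 1), (4, 0, 31, -1), (5, 0, 32, 1), (6, 1, 32, 1), (7, 3, 33, 1), (8, 3, 34, 1), (9, 3, 35, -1), (10, 3, 36, 1), (11, 3, 37, -1), (12, 3, 38, 1), (13, 3, 39, -1), (14, 3, 40, -1), (15, 0, 42, -1), (16, 0, 43, 1), (17, 1, 43, 1), (18, 7, 37, -1), (19, 7, 38, 1), (20, 7, 39, -1), (21, 0, 45, -1), (22, 1, 45, -1), (23, 0, 46, -1), (24, 1, 47, -1), (25, 2, 46, -1), (26, 2, 47, -1), (27, 8, 40, -1), (28, 9, 40, 1), (29, 10, 40, -1), (30, 4, 46, 1), (31, 4, 47, 1), (32, 5, 47, -1), (33, 7, 44, -1), (34, 8, 44, -1), (35, 9, 44, 1), (36, 10, 44, -1), (37, 11, 44, 1), (38, 12, 44, -1), (39, 13, 44, 1), (40, 14, 44, 1), (41, 15, 46, 1), (42, 15, 47, 1), (43, 16, 47, -1), (44, 33, 40, 1), (45, 21, 47, 1), (46, 23, 47, 1), (47, 24, 46, 1)]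
def lbF4 : List (ℕ × ℕ × ℕ × ℤ × ℕ × ℤ × List (ℕ × ℤ × ℕ × ℕ)) := []

def laE6 : List (ℕ × ℕ × ℕ × ℤ) := [(0, 1, 25, 1), (1, 0, 46, 1), (2, 0, 47, -1), (3, 0, 48, 1), (4, 0, 49, -1), (5, 0, 50, 1), (6, 0, 51, -1), (7, 0, 52, 1), (8, 0, 53, 1), (9, 0, 54, -1), (10, 0, 55, 1), (11, 1, 53, 1), (12, 1, 54, -1), (13, 1, 55, 1), (14, 2, 55, 1), (15, 5, 55, 1), (16, 0, 61, -1), (17, 0, 62, 1), (18, 0, 63, -1), (19, 0, 64, -1), (20, 0, 65, 1), (21, 0, 66, -1), (22, 0, 67, 1), (23, 0, 68, -1), (24, 0, 69, 1), (25, 0, 70, -1), (26, 1, 64, -1), (27, 1, 65, 1), (28, 1, 66, -1), (29, 2, 66, -1), (30, 1, 67, -1), (31, 1, 68, 1), (32, 1, 69, -1), (33, 2, 67, 1), (34, 2, 68, -1), (35, 3, 67, -1), (36, 4, 68, -1), (37, 3, 69, -1), (38, 4, 69, 1), (39, 2, 70, -1), (40, 3, 70, 1), (41, 4, 70, -1), (42, 5, 69, -1), (43, 5, 70, -1), (44, 6, 70, 1), (45, 7, 70, -1), (46, 1, 71, -1), (47, 2, 71, 1), (48, 3, 71, -1),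 (49, 4, 71, 1), (50, 5, 71, -1), (51, 6, 71, 1), (52, 7, 71, -1), (53, 8, 71, -1), (54, 9, 71, 1), (55, 10, 71, -1), (56, 16, 66, 1), (57, 16, 69, 1), (58, 16, 70, 1), (59, 17, 70, -1), (60, 18, 70, 1), (61, 16, 71, 1), (62, 17, 71, -1), (63, 18, 71, 1), (64, 19, 71, 1), (65, 20, 71, -1), (66, 21, 71, 1), (67, 22, 71, -1), (68, 23, 71, 1), (69, 24, 71, -1), (70, 25, 71, 1), (71, 46, 70, 1)]
def lbE6 : List (ℕ × ℕ × ℕ × ℤ × ℕ × ℤ × List (ℕ × ℤ × ℕ × ℕ)) := []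

def laE7 : List (ℕ × ℕ × ℕ × ℤ) := [(0, 1, 32, 1), (1, 0, 93, 1), (2, 0, 94, -1), (3, 0, 95, 1), (4, 0, 96, -1), (5, 0, 97, 1), (6, 0, 98, -1), (7, 0, 99, -1), (8, 0, 100, 1), (9, 0, 101, -1), (10, 0, 102, 1), (11, 0, 103, -1), (12, 0, 104, 1), (13, 0, 105, -1), (14, 0, 106, -1), (15, 0, 107, 1), (16, 0, 108, -1), (17, 0, 109, 1), (18, 0, 110, -1), (19, 0, 111, 1), (20, 0, 112, 1), (21, 0, 113, -1), (22, 0, 114, 1), (23, 0, 115, -1), (24, 0, 116, 1), (25, 0, 117, -1), (26, 0, 118, 1), (27, 0, 119, 1), (28, 0, 120, -1), (29, 0, 121, 1), (30, 0, 122, -1), (31, 0, 123, 1), (32, 0, 124, -1), (33, 1, 109, -1), (34, 1, 110, 1), (35, 1, 111, -1), (36, 1, 112, -1), (37, 1, 113, 1), (38, 1, 114, -1), (39, 1, 115, 1), (40, 1, 116, -1), (41, 1, 117, 1), (42, 1, 118, -1), (43, 2, 115, 1), (44, 2, 116, -1), (45, 2, 117, 1), (46, 2, 118, -1), (47, 3, 118, -1), (48, 1, 119, -1), (49, 1, 120, 1), (50, 1, 121,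 -1), (51, 1, 122, 1), (52, 1, 123, -1), (53, 2, 119, 1), (54, 2, 120, -1), (55, 2, 121, 1), (56, 2, 122, -1), (57, 3, 119, -1), (58, 3, 120, 1), (59, 3, 121, -1), (60, 4, 119, 1), (61, 4, 120, -1), (62, 5, 119, -1), (63, 6, 120, -1), (64, 5, 121, -1), (65, 6, 121, 1), (66, 4, 122, -1), (67, 5, 122, 1), (68, 6, 122, -1), (69, 3, 123, -1), (70, 4, 123, 1), (71, 5, 123, -1), (72, 6, 123, 1), (73, 2, 124, -1), (74, 3, 124, 1), (75, 4, 124, -1), (76, 5, 124, 1), (77, 6, 124, -1), (78, 7, 122, -1), (79, 7, 123, -1), (80, 8, 123, 1), (81, 9, 123, -1), (82, 10, 123, 1), (83, 7, 124, -1), (84, 8, 124, 1), (85, 9, 124, -1), (86, 10, 124, 1), (87, 11, 124, -1), (88, 12, 124, 1), (89, 13, 124, -1), (90, 14, 124, -1), (91, 15, 124, 1), (92, 16, 124, -1), (93, 1, 125, -1), (94, 2, 125, 1), (95, 3, 125, -1), (96, 4, 125, 1), (97, 5, 125, -1), (98, 6, 125, 1), (99, 7, 125, 1), (100, 8, 125, -1), (101, 9, 125,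 1), (102, 10, 125, -1), (103, 11, 125, 1), (104, 12, 125, -1), (105, 13, 125, 1), (106, 14, 125, 1), (107, 15, 125, -1), (108, 16, 125, 1), (109, 17, 125, -1), (110, 18, 125, 1), (111, 19, 125, -1), (112, 20, 125, -1), (113, 21, 125, 1), (114, 22, 125, -1), (115, 23, 125, 1), (116, 24, 125, -1), (117, 25, 125, 1), (118, 26, 125, -1), (119, 27, 125, -1), (120, 28, 125, 1), (121, 29, 125, -1), (122, 30, 125, 1), (123, 31, 125, -1), (124, 32, 125, 1), (125, 93, 124, 1)]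
def lbE7 : List (ℕ × ℕ × ℕ × ℤ × ℕ × ℤ × List (ℕ × ℤ × ℕ × ℕ)) := []

def laE8 : List (ℕ × ℕ × ℕ × ℤ) := [(0, 1, 119, 1), (1, 0, 120, 1), (2, 0, 122, 1), (3, 0, 125, 1), (4, 0, 129, 1), (5, 0, 134, 1), (6, 0, 140, 1), (7, 0, 146, 1), (8, 0, 151, -1), (9, 0, 155, 1), (10, 0, 158, -1), (11, 0, 160, 1), (12, 0, 161, -1), (13, 1, 161, -1), (14, 0, 168, 1), (15, 0, 173, -1), (16, 0, 177, 1), (17, 0, 180, -1), (18, 0, 182, 1), (19, 0, 183, -1), (20, 1, 183, -1), (21, 0, 187, -1), (22, 0, 190, 1), (23, 0, 192, -1), (24, 0, 193, 1), (25, 1, 193, 1), (26, 0, 196, -1), (27, 0, 198, 1), (28, 0, 199, -1), (29, 1, 199, -1), (30, 0, 201, -1), (31, 0, 202, 1), (32, 1, 202, 1), (33, 0, 203, -1), (34, 1, 203, -1), (35, 2, 203, -1), (36, 0, 206, 1), (37, 0, 208, -1), (38, 0, 209, 1), (39, 1, 209, 1), (40, 0, 211, 1), (41, 0, 212, -1), (42, 1, 212, -1), (43, 0, 213, 1), (44, 1, 213, 1), (45, 2, 213, 1), (46, 0,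 215, -1), (47, 0, 216, 1), (48, 1, 216, 1), (49, 0, 217, -1), (50, 1, 217, -1), (51, 2, 217, -1), (52, 0, 218, 1), (53, 1, 218, 1), (54, 2, 218, 1), (55, 3, 218, 1), (56, 0, 220, 1), (57, 0, 221, -1), (58, 1, 221, -1), (59, 0, 222, 1), (60, 1, 222, 1), (61, 2, 222, 1), (62, 0, 223, -1), (63, 1, 223, -1), (64, 2, 223, -1), (65, 3, 223, -1), (66, 0, 224, 1), (67, 1, 224, 1), (68, 2, 224, 1), (69, 3, 224, 1), (70, 4, 224, 1), (71, 0, 225, -1), (72, 1, 225, -1), (73, 2, 225, -1), (74, 3, 225, -1), (75, 4, 225, -1), (76, 5, 225, -1), (77, 6, 225, -1), (78, 0, 227, 1), (79, 0, 228, -1), (80, 1, 228, -1), (81, 0, 229, 1), (82, 1, 229, 1), (83, 2, 229, 1), (84, 0, 230, -1), (85, 1, 230, -1), (86, 2, 230, -1), (87, 3, 230, -1), (88, 0, 231, 1), (89, 1, 231, 1), (90, 2, 231, 1), (91, 3, 231, 1), (92, 4, 231, 1), (93, 0, 232, -1), (94, 1, 232, -1), (95, 2, 232, -1), (96, 3, 232, -1), (97, 4, 232, -1),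 (98, 5, 232, -1), (99, 0, 233, -1), (100, 1, 233, -1), (101, 2, 233, -1), (102, 3, 233, -1), (103, 4, 233, -1), (104, 5, 233, -1), (105, 0, 234, -1), (106, 1, 234, -1), (107, 2, 234, -1), (108, 3, 234, -1), (109, 4, 234, -1), (110, 0, 235, -1), (111, 1, 235, -1), (112, 2, 235, -1), (113, 3, 235, -1), (114, 0, 236, -1), (115, 1, 236, -1), (116, 2, 236, -1), (117, 0, 237, -1), (118, 1, 237, -1), (119, 0, 238, -1), (120, 1, 239, -1), (121, 2, 238, -1), (122, 2, 239, -1), (123, 3, 237, -1), (124, 3, 238, -1), (125, 3, 239, -1), (126, 4, 236, -1), (127, 4, 237, -1), (128, 4, 238, -1), (129, 4, 239, -1), (130, 5, 235, -1), (131, 5, 236, -1), (132, 5, 237, -1), (133, 5, 238, -1), (134, 5, 239, -1), (135, 6, 234, -1), (136, 6, 235, -1), (137, 6, 236, -1), (138, 6, 237, -1), (139, 6, 238, -1), (140, 6, 239, -1), (141, 7, 234, -1), (142, 7, 235, -1), (143, 7, 236, -1), (144, 7, 237, -1), (145, 7, 238,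 -1), (146, 7, 239, -1), (147, 8, 235, 1), (148, 8, 236, 1), (149, 8, 237, 1), (150, 8, 238, 1), (151, 8, 239, 1), (152, 9, 236, -1), (153, 9, 237, -1), (154, 9, 238, -1), (155, 9, 239, -1), (156, 10, 237, 1), (157, 10, 238, 1), (158, 10, 239, 1), (159, 11, 238, -1), (160, 11, 239, -1), (161, 12, 239, 1), (162, 14, 233, -1), (163, 14, 234, -1), (164, 14, 235, -1), (165, 14, 236, -1), (166, 14, 237, -1), (167, 14, 238, -1), (168, 14, 239, -1), (169, 15, 235, 1), (170, 15, 236, 1), (171, 15, 237, 1), (172, 15, 238, 1), (173, 15, 239, 1), (174, 16, 236, -1), (175, 16, 237, -1), (176, 16, 238, -1), (177, 16, 239, -1), (178, 17, 237, 1), (179, 17, 238, 1), (180, 17, 239, 1), (181, 18, 238, -1), (182, 18, 239, -1), (183, 19, 239, 1), (184, 21, 236, 1), (185, 21, 237, 1), (186, 21, 238, 1), (187, 21, 239, 1), (188, 22, 237, -1), (189, 22, 238, -1), (190, 22, 239, -1), (191, 23, 238, 1), (192, 23, 239,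 1), (193, 24, 239, -1), (194, 26, 237, 1), (195, 26, 238, 1), (196, 26, 239, 1), (197, 27, 238, -1), (198, 27, 239, -1), (199, 28, 239, 1), (200, 30, 238, 1), (201, 30, 239, 1), (202, 31, 239, -1), (203, 33, 239, 1), (204, 36, 237, -1), (205, 36, 238, -1), (206, 36, 239, -1), (207, 37, 238, 1), (208, 37, 239, 1), (209, 38, 239, -1), (210, 40, 238, -1), (211, 40, 239, -1), (212, 41, 239, 1), (213, 43, 239, -1), (214, 46, 238, 1), (215, 46, 239, 1), (216, 47, 239, -1), (217, 49, 239, 1), (218, 52, 239, -1), (219, 56, 238, -1), (220, 56, 239, -1), (221, 57, 239, 1), (222, 59, 239, -1), (223, 62, 239, 1), (224, 66, 239, -1), (225, 71, 239, 1), (226, 78, 238, -1), (227, 78, 239, -1), (228, 79, 239, 1), (229, 81, 239, -1), (230, 84, 239, 1), (231, 88, 239, -1), (232, 93, 239, 1), (233, 99, 239, 1), (234, 105, 239, 1), (235, 110, 239, 1), (236, 114, 239, 1), (237, 117, 239, 1), (238, 119, 239, 1),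 (239, 120, 238, 1)]
def lbE8 : List (ℕ × ℕ × ℕ × ℤ × ℕ × ℤ × List (ℕ × ℤ × ℕ × ℕ)) := []


/-- first type of certificate -/
def chkA (D : ChevalleyDatum) (la : List (ℕ × ℕ × ℕ × ℤ)) : Bool :=
  la.all fun e => decide (e.2.1 < D.nroots) && decide (e.2.2.1 < D.nroots) && decide (e.2.2.1 ≠ e.2.1) &&
    decide (e.2.2.1 ≠ D.neg e.2.1) && decide (D.commTerms e.2.1 e.2.2.1 = [(e.1, e.2.2.2, 1, 1)]) &&
    (decide (e.2.2.2 = 1) || decide (e.2.2.2 = -1))

def chkB (D : ChevalleyDatum) (la : List (ℕ × ℕ × ℕ × ℤ))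
    (lb : List (ℕ × ℕ × ℕ × ℤ × ℕ × ℤ × List (ℕ × ℤ × ℕ × ℕ))) : Bool :=
  lb.all fun e => decide (e.1 < D.nroots) && decide (e.2.1 < D.nroots) && decide (e.2.1 ≠ e.1) &&
    decide (e.2.1 ≠ D.neg e.1) &&
    decide (D.commTerms e.1 e.2.1 = (e.2.2.1, e.2.2.2.1, 1, 1) :: (e.2.2.2.2.1, e.2.2.2.2.2.1, 2, 1) :: e.2.2.2.2.2.2) &&
    (decide (e.2.2.2.1 = 1) || decide (e.2.2.2.1 = -1)) &&
    (decide (e.2.2.2.2.2.1 = 1) || decide (e.2.2.2.2.2.1 = -1)) &&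
    e.2.2.2.2.2.2.all fun x => la.any fun y => decide (y.1 = x.1)

def chkC (D : ChevalleyDatum) (la : List (ℕ × ℕ × ℕ × ℤ))
    (lb : List (ℕ × ℕ × ℕ × ℤ × ℕ × ℤ × List (ℕ × ℤ × ℕ × ℕ))) : Bool :=
  (List.range D.nroots).all fun r => (la.any fun y => decide (y.1 = r)) ||
    (lb.any fun e => decide (e.2.2.1 = r) || decide (e.2.2.2.2.1 = r))

theorem aG2 : chkA chevG2 laG2 = true := by decide +kernel
theorem bG2 : chkB chevG2 laG2 lbG2 = true := by decide +kernel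
theorem cG2 : chkC chevG2 laG2 lbG2 = true := by decide +kernel
theorem aB2 : chkA chevB2 laB2 = true := by decide +kernel
theorem bB2 : chkB chevB2 laB2 lbB2 = true := by decide +kernel
theorem cB2 : chkC chevB2 laB2 lbB2 = true := by decide +kernel
theorem aD4 : chkA chevD4 laD4 = true := by decide +kernel
theorem bD4 : chkB chevD4 laD4 lbD4 = true := by decide +kernel
theorem cD4 : chkC chevD4 laD4 lbD4 = true := by decide +kernel
theorem aF4 : chkA chevF4 laF4 = true := by decide +kernel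
theorem bF4 : chkB chevF4 laF4 lbF4 = true := by decide +kernel
theorem cF4 : chkC chevF4 laF4 lbF4 = true := by decide +kernel
theorem aE6 : chkA chevE6 laE6 = true := by decide +kernel
theorem bE6 : chkB chevE6 laE6 lbE6 = true := by decide +kernel
theorem cE6 : chkC chevE6 laE6 lbE6 = true := by decide +kernel
theorem aE7 : chkA chevE7 laE7 = true := by decide +kernel
theorem bE7 : chkB chevE7 laE7 lbE7 = true := by decide +kernel
theorem cE7 : chkC chevE7 laE7 lbE7 = true := by decide +kernel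
theorem aE8 : chkA chevE8 laE8 = true := by decide +kernel
theorem bE8 : chkB chevE8 laE8 lbE8 = true := by decide +kernel
theorem cE8 : chkC chevE8 laE8 lbE8 = true := by decide +kernel

section

variable {K : Type*} [Field K] (D : ChevalleyDatum)

/-- class of a generator in the abelianization -/
def ab (r : ℕ) (t : K) : Abelianization (D.SteinbergCover K) := Abelianization.of (D.scGen K r t)

lemma ab_add {r : ℕ} (hr : r < D.nroots) (t u : K) : ab D r (t + u) = ab D r t * ab D r u := by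
  unfold ab
  rw [← map_mul]
  congr 1
  have h1 : PresentedGroup.mk (D.steinbergRelsAB K) (D.stX r t * D.stX r u * (D.stX r (t + u))⁻¹) = 1 := by
    apply PresentedGroup.one_of_mem
    left
    exact ⟨r, t, u, hr, rfl⟩
  rw [map_mul, map_mul, map_inv, mul_inv_eq_one] at h1
  exact h1.symm

lemma ab_word {r s : ℕ} (hr : r < D.nroots) (hs : s < D.nroots) (h1 : s ≠ r) (h2 : s ≠ D.neg r) (t u : K) :
    ((D.commWord K r s t u).map fun p => ab D p.1 p.2).prod = 1 := by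
  have h3 : PresentedGroup.mk (D.steinbergRelsAB K)
      ((D.stX s u)⁻¹ * (D.stX r t)⁻¹ * D.stX s u * D.stX r t * (D.stWord (D.commWord K r s t u))⁻¹) = 1 := by
    apply PresentedGroup.one_of_mem
    right
    exact ⟨r, s, t, u, hr, hs, h1, h2, rfl⟩
  have h4 := congrArg (Abelianization.of) h3
  simp only [map_mul, map_inv, map_one] at h4
  rw [mul_inv_eq_one] at h4
  have h5 : Abelianization.of (PresentedGroup.mk (D.steinbergRelsAB K) (D.stWord (D.commWord K r s t u))) =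
      ((D.commWord K r s t u).map fun p => ab D p.1 p.2).prod := by
    unfold stWord
    rw [map_list_prod, map_list_prod, List.map_map, List.map_map]
    rfl
  rw [← h5, ← h4]
  have h6 : ∀ (a b : Abelianization (D.SteinbergCover K)), a⁻¹ * b⁻¹ * a * b = 1 := by
    intro a b
    rw [mul_comm a⁻¹ b⁻¹, mul_assoc b⁻¹, inv_mul_cancel, mul_one, inv_mul_cancel]
  exact h6 _ _

lemma ab_comm {r s : ℕ} (hr : r < D.nroots) (hs : s < D.nroots) (h1 : s ≠ r) (h2 : s ≠ D.neg r) (t u : K) :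
    ((D.commTerms r s).map fun c => ab D c.1 ((c.2.1 : K) * (-t) ^ c.2.2.1 * u ^ c.2.2.2)).prod = 1 := by
  have h := ab_word D hr hs h1 h2 t u
  unfold commWord at h
  rw [List.map_map] at h
  exact h

lemma sgn_sq {c : ℤ} (hc : c = 1 ∨ c = -1) : ((c : ℤ) : K) * c = 1 := by
  rcases hc with rfl | rfl <;> simp

lemma okA (la : List (ℕ × ℕ × ℕ × ℤ)) (h : chkA D la = true) : ∀ e ∈ la, ∀ v : K, ab D e.1 v = 1 := by
  intro e he v
  unfold chkA at h
  rw [List.all_eq_true] at h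
  have h1 := h e he
  simp only [Bool.and_eq_true, Bool.or_eq_true, decide_eq_true_eq] at h1
  obtain ⟨⟨⟨⟨⟨h2, h3⟩, h4⟩, h5⟩, h6⟩, h7⟩ := h1
  have h8 := ab_comm D h2 h3 h4 h5 (-((e.2.2.2 : K) * v)) 1
  rw [h6] at h8
  simp only [List.map_cons, List.map_nil, List.prod_cons, List.prod_nil, mul_one, pow_one, neg_neg] at h8
  rw [← mul_assoc, sgn_sq h7, one_mul] at h8
  exact h8

lemma okB (la : List (ℕ × ℕ × ℕ × ℤ)) (lb : List (ℕ × ℕ × ℕ × ℤ × ℕ × ℤ × List (ℕ × ℤ × ℕ × ℕ)))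
    (hA : chkA D la = true) (h : chkB D la lb = true) (hfin : ∀ r ∈ lb, r.2.2.1 < D.nroots ∧ r.2.2.2.2.1 < D.nroots)
    (hK : ∃ x : K, x ≠ 0 ∧ x ≠ 1) :
    ∀ e ∈ lb, ∀ v : K, ab D e.2.2.1 v = 1 ∧ ab D e.2.2.2.2.1 v = 1 := by
  intro e he
  have hn := hfin e he
  unfold chkB at h
  rw [List.all_eq_true] at h
  have h1 := h e he
  simp only [Bool.and_eq_true, Bool.or_eq_true, decide_eq_true_eq, List.all_eq_true, List.any_eq_true] at h1
  obtain ⟨⟨⟨⟨⟨⟨⟨h2, h3⟩, h4⟩, h5⟩, h6⟩, h7⟩, h8⟩, h9⟩ := h1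
  have hrest : ∀ t u : K, ((e.2.2.2.2.2.2).map fun c => ab D c.1 ((c.2.1 : K) * (-t) ^ c.2.2.1 * u ^ c.2.2.2)).prod = 1 := by
    intro t u
    apply List.prod_eq_one
    intro x hx
    rw [List.mem_map] at hx
    obtain ⟨c, hc, rfl⟩ := hx
    obtain ⟨y, hy, hyc⟩ := h9 c hc
    rw [← hyc]
    exact okA D la hA y hy _
  have key : ∀ t u : K, ab D e.2.2.1 ((e.2.2.2.1 : K) * (-t) * u) * ab D e.2.2.2.2.1 ((e.2.2.2.2.2.1 : K) * (-t) ^ 2 * u) = 1 := by
    intro t u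
    have h10 := ab_comm D h2 h3 h4 h5 t u
    rw [h6] at h10
    simp only [List.map_cons, List.prod_cons, pow_one] at h10
    rw [hrest, mul_one] at h10
    exact h10
  obtain ⟨l, hl0, hl1⟩ := hK
  have h10 : ∀ v : K, ab D e.2.2.2.2.1 v = 1 := by
    intro v
    set c1 : K := (e.2.2.2.1 : K) with hc1
    set c2 : K := (e.2.2.2.2.2.1 : K) with hc2
    have hc2sq : c2 * c2 = 1 := sgn_sq h8
    -- choose t = 1, u = v0 and t = l, u = v0 / l
    set v0 : K := c2 * v / (l - 1) with hv0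
    have hl1' : l - 1 ≠ 0 := sub_ne_zero.mpr hl1
    have k1 := key 1 v0
    have k2 := key l (v0 / l)
    have e1 : c1 * (-l) * (v0 / l) = c1 * (-1) * v0 := by field_simp
    have e2 : c2 * (-l) ^ 2 * (v0 / l) = c2 * (-1) ^ 2 * v0 + v := by
      have : c2 * (-l) ^ 2 * (v0 / l) = c2 * l * v0 := by field_simp
      rw [this]
      have h3 : c2 * l * v0 - c2 * (-1)^2 * v0 = v := by
        have h4 : v0 * (l - 1) = c2 * v := by rw [hv0]; exact div_mul_cancel₀ _ hl1'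
        calc c2 * l * v0 - c2 * (-1)^2 * v0 = c2 * (v0 * (l - 1)) := by ring
          _ = (c2 * c2) * v := by rw [h4]; ring
          _ = v := by rw [hc2sq, one_mul]
      linear_combination h3
    rw [e1, e2, ab_add D hn.2, ← mul_assoc, k1, one_mul] at k2
    exact k2
  intro v
  refine ⟨?_, h10 v⟩
  have k := key (-((e.2.2.2.1 : K) * v)) 1
  rw [h10, mul_one, neg_neg, mul_one, ← mul_assoc, sgn_sq h7, one_mul] at k
  exact k

lemma perfect_of_ab (h : ∀ r < D.nroots, ∀ v : K, ab D r v = 1) : commutator (D.SteinbergCover K) = ⊤ := by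
  have h1 : (Abelianization.of : D.SteinbergCover K →* Abelianization (D.SteinbergCover K)) = 1 := by
    apply PresentedGroup.ext
    rintro ⟨r, v⟩
    have h2 := h r.1 r.2 v
    unfold ab scGen stX at h2
    rw [dif_pos r.2] at h2
    exact h2
  have h2 : (Abelianization.of : D.SteinbergCover K →* Abelianization (D.SteinbergCover K)).ker = commutator _ :=
    Abelianization.ker_of _
  rw [← h2, h1]
  exact MonoidHom.ker_one

lemma perfect (la : List (ℕ × ℕ × ℕ × ℤ)) (lb : List (ℕ × ℕ × ℕ × ℤ × ℕ × ℤ × List (ℕ × ℤ × ℕ × ℕ)))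
    (hA : chkA D la = true) (hB : chkB D la lb = true) (hC : chkC D la lb = true)
    (hfin : ∀ r ∈ lb, r.2.2.1 < D.nroots ∧ r.2.2.2.2.1 < D.nroots)
    (hK : lb = [] ∨ ∃ x : K, x ≠ 0 ∧ x ≠ 1) : commutator (D.SteinbergCover K) = ⊤ := by
  apply perfect_of_ab
  intro r hr v
  unfold chkC at hC
  rw [List.all_eq_true] at hC
  have h1 := hC r (List.mem_range.mpr hr)
  simp only [Bool.or_eq_true, List.any_eq_true, decide_eq_true_eq] at h1
  rcases h1 with ⟨y, hy, rfl⟩ | ⟨e, he, h2⟩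
  · exact okA D la hA y hy v
  · rcases hK with hK | hK
    · rw [hK] at he; exact absurd he (by simp)
    · have h3 := okB D la lb hA hB hfin hK e he v
      rcases h2 with h2 | h2
      · rw [← h2]; exact h3.1
      · rw [← h2]; exact h3.2

end

/-- The group presented by Steinberg's generators x̄_r(t) subject only to (R1) (additivity) and (R2) (the commutator formula) is perfect, for each of the types G₂, B₂, D₄, F₄, E₆, E₇, E₈ over any field (for types B₂ and G₂ the field must have more than two elements — the cases where the Chevalley group is not simple are set aside). -/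
theorem result {K : Type*} [Field K] (D : Cfsg.Lie.ChevalleyDatum) (hD : D ∈ [Cfsg.Lie.chevG2, Cfsg.Lie.chevB2, Cfsg.Lie.chevD4, Cfsg.Lie.chevF4, Cfsg.Lie.chevE6, Cfsg.Lie.chevE7, Cfsg.Lie.chevE8]) (hK : D ∈ [Cfsg.Lie.chevB2, Cfsg.Lie.chevG2] → ∃ x : K, x ≠ 0 ∧ x ≠ 1) :
    commutator (D.SteinbergCover K) = ⊤ := by
  simp only [List.mem_cons, List.mem_nil_iff, or_false] at hD
  rcases hD with rfl | rfl | rfl | rfl | rfl | rfl | rfl
  · exact perfect chevG2 laG2 lbG2 aG2 bG2 cG2 (by decide) (Or.inr (hK (by simp)))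
  · exact perfect chevB2 laB2 lbB2 aB2 bB2 cB2 (by decide) (Or.inr (hK (by simp)))
  · exact perfect chevD4 laD4 lbD4 aD4 bD4 cD4 (by decide) (Or.inl rfl)
  · exact perfect chevF4 laF4 lbF4 aF4 bF4 cF4 (by decide) (Or.inl rfl)
  · exact perfect chevE6 laE6 lbE6 aE6 bE6 cE6 (by decide) (Or.inl rfl)
  · exact perfect chevE7 laE7 lbE7 aE7 bE7 cE7 (by decide) (Or.inl rfl)
  · exact perfect chevE8 laE8 lbE8 aE8 bE8 cE8 (by decide) (Or.inl rfl)

end Cfsg.Agent.S2395
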