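import Cfsg.Statements.S2396
import Cfsg.Agent.Lib.StPres

set_option autoImplicit false
open scoped MatrixGroups
open Cfsg

namespace Cfsg.Agent.S2396

/-- For each of the types G₂, B₂, D₄, F₄, E₆, E₇, E₈ and any field `K` (for types B₂ and G₂ the field must have more than two elements — the cases where the Chevalley group is not simple are set aside), the group presented by the generators x̄_r(t) subject only to (R1) and (R2) maps onto the Chevalley group by x̄_r(t) ↦ x_r(t), and this homomorphism is a central extension: it is surjective with kernel contained in the centre. -/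
theorem result {K : Type*} [Field K] (D : Cfsg.Lie.ChevalleyDatum) (hD : D ∈ [Cfsg.Lie.chevG2, Cfsg.Lie.chevB2, Cfsg.Lie.chevD4, Cfsg.Lie.chevF4, Cfsg.Lie.chevE6, Cfsg.Lie.chevE7, Cfsg.Lie.chevE8]) (hK : D ∈ [Cfsg.Lie.chevB2, Cfsg.Lie.chevG2] → ∃ x : K, x ≠ 0 ∧ x ≠ 1) :
    ∃ θ : D.SteinbergCover K →* ↥(D.group K), Function.Surjective θ ∧ θ.ker ≤ Subgroup.center (D.SteinbergCover K) ∧
      ∀ (r : ℕ) (t : K), r < D.nroots → ((θ (D.scGen K r t) : GL D.Idx K) : Matrix D.Idx D.Idx K) = D.x K r t :=
  Cfsg.Agent.Lib.StPres.cover_central hD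

end Cfsg.Agent.S2396
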