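import Cfsg.Statements.S2398
import Cfsg.Agent.Lib.UCEInf

set_option autoImplicit false
open Cfsg

namespace Cfsg.Agent.S2398

/-- Universality of the group Δ presented by Steinberg's generators with relators (R1), (R2), over a field with more than four elements (types G₂, B₂, D₄, F₄, E₆, E₇, E₈): for every central extension `π₁ : E → G₁` (surjective, central kernel) and every homomorphism `σ : Δ → G₁` there is exactly one homomorphism `τ : Δ → E` with `π₁ ∘ τ = σ`. In particular every central extension of Δ splits; together with the fact that Δ maps onto the Chevalley group with central kernel, this makes Δ the universal central extension of the Chevalley group. -/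
theorem result {K : Type*} [Field K] (hK5 : ∃ s : Finset K, 4 < s.card) (D : Cfsg.Lie.ChevalleyDatum) (hD : D ∈ [Cfsg.Lie.chevG2, Cfsg.Lie.chevB2, Cfsg.Lie.chevD4, Cfsg.Lie.chevF4, Cfsg.Lie.chevE6, Cfsg.Lie.chevE7, Cfsg.Lie.chevE8])
    {G₁ E : Type*} [Group G₁] [Group E] (π₁ : E →* G₁) (hπ : Function.Surjective π₁) (hc : π₁.ker ≤ Subgroup.center E)
    (σ : D.SteinbergCover K →* G₁) : ∃! τ : D.SteinbergCover K →* E, π₁.comp τ = σ := by
  exact Cfsg.Agent.Lib.UCEInf.main hK5 D hD π₁ hπ hc σ

end Cfsg.Agent.S2398
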