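import Cfsg.Statements.S2400
import Cfsg.Agent.Lib.UCEB2Three
import Cfsg.Agent.Lib.UCETorusD4

set_option autoImplicit false
open Cfsg

namespace Cfsg.Agent.S2400

/-- Over a finite field `K`, the group presented by Steinberg's relators (R1)–(R3) (the universal Chevalley group) of type E₆ or E₇, or of type B₂ or D₄ with `K` of more than two elements, has trivial Schur multiplier: every finite stem extension of it is an isomorphism (Schur multiplier described through stem extensions as in the definitions). Types G₂, F₄ and E₈ are not covered here. -/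
theorem result {K : Type*} [Field K] [Fintype K] (e : Cfsg.Lie.ChevalleyDatum × ℕ)
    (he : e ∈ [(Cfsg.Lie.chevE6, 0), (Cfsg.Lie.chevE7, 0), (Cfsg.Lie.chevB2, 2), (Cfsg.Lie.chevD4, 2)]) (hK : Fintype.card K ≠ e.2) :
    Cfsg.HasCyclicSchurMultiplier (e.1.SteinbergGroup K) 1 := by
  have hc1 : 1 < Fintype.card K := Fintype.one_lt_card
  simp only [List.mem_cons, List.not_mem_nil, or_false] at he
  rcases he with rfl | rfl | rfl | rfl
  · have := Cfsg.Agent.Lib.UCEMain.finite_st (D := Cfsg.Lie.chevE6) (by simp) K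
    exact Cfsg.Agent.Lib.UCEFinal.multiplier_st Cfsg.Agent.Lib.ChevOkE6.good (Cfsg.Agent.Lib.UCELift.liftable_E6 K)
  · have := Cfsg.Agent.Lib.UCEMain.finite_st (D := Cfsg.Lie.chevE7) (by simp) K
    exact Cfsg.Agent.Lib.UCEFinal.multiplier_st Cfsg.Agent.Lib.ChevOkE7.good (Cfsg.Agent.Lib.UCELift.liftable_E7 K)
  · have := Cfsg.Agent.Lib.UCEMain.finite_st (D := Cfsg.Lie.chevB2) (by simp) K
    have hq : 3 ≤ Nat.card K := by
      rw [Nat.card_eq_fintype_card]
      change Fintype.card K ≠ 2 at hK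
      omega
    exact Cfsg.Agent.Lib.UCEMain2.multiplier_st' Cfsg.Agent.Lib.ChevOkB2.good
      (fun Q Γ _ _ σ hσ S h3 => Cfsg.Agent.Lib.UCEB2.lift_B2 hq S hσ h3)
  · have := Cfsg.Agent.Lib.UCEMain.finite_st (D := Cfsg.Lie.chevD4) (by simp) K
    have hq : 3 ≤ Nat.card K := by
      rw [Nat.card_eq_fintype_card]
      change Fintype.card K ≠ 2 at hK
      omega
    exact Cfsg.Agent.Lib.UCEMain2.multiplier_st' Cfsg.Agent.Lib.ChevOkD4.good
      (fun Q Γ _ _ σ hσ S h3 => Cfsg.Agent.Lib.UCETorus.lift_D4 hq S hσ h3)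


end Cfsg.Agent.S2400
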