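import Cfsg.Statements.S2404
import Cfsg.Agent.Lib.ChevSS12

set_option autoImplicit false
open Cfsg

namespace Cfsg.Agent.S2404
open Cfsg.Lie Cfsg.Agent.Lib.ChevSS Cfsg.Agent.Lib.ChevGood Cfsg.Agent.Lib.ChevFix
open Cfsg.Agent.Lib.ChevBruhat (Listed)

/-- Steinberg's count of semisimple classes for type E₆ when the finite simply connected group has trivial centre: over a field with `q` elements of characteristic `p` with `q ≢ 1 (mod 3)`, the simply connected group E₆(q) coincides with the Chevalley group, and the conjugacy classes of elements of order prime to `p` in the Chevalley group of type E₆ number exactly `q^6`. -/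
theorem result {F : Type*} [Field F] [Fintype F] {q : ℕ} (hq : Fintype.card F = q) (hq3 : q % 3 ≠ 1) (p : ℕ) [Fact p.Prime] [CharP F p] :
    Nat.card {c : ConjClasses ↥(Cfsg.Lie.chevE6.group F) // ∃ g : ↥(Cfsg.Lie.chevE6.group F), ConjClasses.mk g = c ∧ (orderOf g).Coprime p} = q ^ 6 := by
  have hp : p.Prime := Fact.out
  obtain ⟨Z⟩ := exists_setup F hq p
  have hcK : CharP (AlgebraicClosure F) p := charP_of_injective_algebraMap (algebraMap F (AlgebraicClosure F)).injective p
  by_cases hp3 : p = 3
  · subst hp3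
    exact count_E6_three hq
  · have h3 : Fact (Nat.Prime 3) := ⟨Nat.prime_three⟩
    have hq0 : q % 3 ≠ 0 := by
      intro h
      have h1 : 3 ∣ p ^ Z.e := by rw [← Z.hq]; exact Nat.dvd_of_mod_eq_zero h
      exact hp3 ((Nat.prime_dvd_prime_iff_eq Nat.prime_three hp).mp (Nat.prime_three.dvd_of_dvd_pow h1)).symm
    have hq2 : q % 3 = 2 := by omega
    have hroot : ∀ y : F, y ≠ 0 → ∃ z : F, z ^ 3 = y := by
      intro y hy
      have hc : (Nat.card Fˣ).Coprime 3 := by
        rw [Nat.card_units, Nat.card_eq_fintype_card, hq, Nat.coprime_comm, Nat.Prime.coprime_iff_not_dvd Nat.prime_three]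
        omega
      obtain ⟨z, hz⟩ := (powCoprime hc).surjective (Units.mk0 y hy)
      refine ⟨z, ?_⟩
      have h1 : z ^ 3 = Units.mk0 y hy := hz
      rw [← Units.val_pow_eq_pow_val, h1, Units.val_mk0]
    have hK : ((3 : ℕ) : AlgebraicClosure F) ≠ 0 := by
      intro h
      have h1 := (CharP.cast_eq_zero_iff (AlgebraicClosure F) p 3).mp h
      exact hp3 ((Nat.prime_dvd_prime_iff_eq hp Nat.prime_three).mp h1)
    exact card_classes2 Cfsg.Agent.Lib.ChevOkE6.good Z (by simp [Listed]) noMinE6 cdE6 hK hroot (by omega)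

end Cfsg.Agent.S2404
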