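import Cfsg.Statements.S2405
import Cfsg.Agent.Lib.ChTwoGenB

set_option autoImplicit false
open Cfsg

namespace Cfsg.Agent.S2405

/-- Each Chevalley group of type G₂, B₂, D₄, F₄, E₆, E₇ or E₈ over a finite field is generated by two of its elements (types B₂ and G₂ over the field with two elements, where the group is not simple, excepted). -/
theorem result {F : Type*} [Field F] [Finite F] (D : Cfsg.Lie.ChevalleyDatum) (hD : D ∈ [Cfsg.Lie.chevG2, Cfsg.Lie.chevB2, Cfsg.Lie.chevD4, Cfsg.Lie.chevF4, Cfsg.Lie.chevE6, Cfsg.Lie.chevE7, Cfsg.Lie.chevE8])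
    (hF : D ∈ [Cfsg.Lie.chevB2, Cfsg.Lie.chevG2] → ∃ x : F, x ≠ 0 ∧ x ≠ 1) :
    ∃ a b : ↥(D.group F), Subgroup.closure ({a, b} : Set ↥(D.group F)) = ⊤ := by
  exact Cfsg.Agent.Lib.ChTwoGen.main D hD hF

end Cfsg.Agent.S2405
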