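import Cfsg.Statements.S2416
import Mathlib
import Cfsg.Agent.Lib.ChevShort

set_option autoImplicit false
open scoped MatrixGroups
open Cfsg

namespace Cfsg.Agent.S2416

/-- A Chevalley group of type G₂, B₂, D₄, F₄, E₆, E₇ or E₈ over a finite field lies in (indeed equals) the subgroup generated by its monomial subgroup `N` and a single fundamental root subgroup `X_p`, where `p` is a short fundamental root if there are two root lengths (any fundamental root otherwise), provided the characteristic is not 2 for types B₂, F₄ and not 3 for type G₂ (and the field has more than two elements for B₂, G₂). -/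
theorem result {K : Type*} [Field K] [Finite K] (D : Cfsg.Lie.ChevalleyDatum) (hD : D ∈ [Cfsg.Lie.chevG2, Cfsg.Lie.chevB2, Cfsg.Lie.chevD4, Cfsg.Lie.chevF4, Cfsg.Lie.chevE6, Cfsg.Lie.chevE7, Cfsg.Lie.chevE8])
    (hK : D ∈ [Cfsg.Lie.chevB2, Cfsg.Lie.chevG2] → ∃ x : K, x ≠ 0 ∧ x ≠ 1)
    (h2 : D ∈ [Cfsg.Lie.chevB2, Cfsg.Lie.chevF4] → ringChar K ≠ 2) (h3 : D = Cfsg.Lie.chevG2 → ringChar K ≠ 3)
    (i : ℕ) (hi : i < D.rank) (hshort : D.isLong (D.simple i) = false) :
    D.group K ≤ D.monomialSubgroup K ⊔ D.rootSubgroup K (D.simple i) := by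
  simp only [List.mem_cons, List.not_mem_nil, or_false] at hD
  rcases hD with rfl | rfl | rfl | rfl | rfl | rfl | rfl
  · have G := Cfsg.Agent.Lib.ChevOkG2.good
    have hi' : i < 2 := hi
    have h3' : ((3 : ℤ) : K) ≠ 0 := by
      intro h
      have h5 : (3 : ℤ) = ((3 : ℕ) : ℤ) := rfl
      rw [h5, Int.cast_natCast, ringChar.spec] at h
      rcases (Nat.dvd_prime Nat.prime_three).mp h with h6 | h6
      · exact CharP.ringChar_ne_one h6
      · exact h3 rfl h6
    interval_cases i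
    · have hs := Cfsg.Agent.Lib.ChevShort.inM_rootSubgroup (K := K) G (Cfsg.Lie.chevG2.simple 0) (le_sup_right : _ ≤ Cfsg.Lie.chevG2.monomialSubgroup K ⊔ _)
      apply Cfsg.Agent.Lib.ChevShort.group_le G le_sup_left
      intro j hj
      have hj' : j < 2 := hj
      interval_cases j
      · exact hs
      · exact Cfsg.Agent.Lib.ChevShort.long_step G le_sup_left (a := 0) (b := 1)
          (s := Cfsg.Lie.chevG2.reflectRoot 0 (Cfsg.Lie.chevG2.reflectRoot 1 (Cfsg.Lie.chevG2.simple 0))) (k := 10) (m := 3)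
          (by decide +kernel) (by decide +kernel) (by decide +kernel) (by decide +kernel) (by decide +kernel)
          (Cfsg.Agent.Lib.ChevShort.inM_w G le_sup_left (by decide +kernel) (by decide +kernel)
            (Cfsg.Agent.Lib.ChevShort.inM_w G le_sup_left (by decide +kernel) (by decide +kernel) hs))
          (by decide +kernel) h3' (by decide +kernel) hs
    · exact absurd hshort (by decide +kernel)
  · have G := Cfsg.Agent.Lib.ChevOkB2.good
    have hi' : i < 2 := hi
    have h2' : ((2 : ℤ) : K) ≠ 0 := by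
      intro h
      have h5 : (2 : ℤ) = ((2 : ℕ) : ℤ) := rfl
      rw [h5, Int.cast_natCast, ringChar.spec] at h
      rcases (Nat.dvd_prime Nat.prime_two).mp h with h6 | h6
      · exact CharP.ringChar_ne_one h6
      · exact h2 (by simp) h6
    interval_cases i
    · have hs := Cfsg.Agent.Lib.ChevShort.inM_rootSubgroup (K := K) G (Cfsg.Lie.chevB2.simple 0) (le_sup_right : _ ≤ Cfsg.Lie.chevB2.monomialSubgroup K ⊔ _)
      apply Cfsg.Agent.Lib.ChevShort.group_le G le_sup_left
      intro j hj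
      have hj' : j < 2 := hj
      interval_cases j
      · exact hs
      · exact Cfsg.Agent.Lib.ChevShort.long_step G le_sup_left (a := 0) (b := 1)
          (s := Cfsg.Lie.chevB2.reflectRoot 1 (Cfsg.Lie.chevB2.simple 0)) (k := 7) (m := 2)
          (by decide +kernel) (by decide +kernel) (by decide +kernel) (by decide +kernel) (by decide +kernel)
          (Cfsg.Agent.Lib.ChevShort.inM_w G le_sup_left (by decide +kernel) (by decide +kernel) hs)
          (by decide +kernel) h2' (by decide +kernel) hs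
    · exact absurd hshort (by decide +kernel)
  · have G := Cfsg.Agent.Lib.ChevOkD4.good
    have hs := Cfsg.Agent.Lib.ChevShort.inM_rootSubgroup (K := K) G (Cfsg.Lie.chevD4.simple i) (le_sup_right : _ ≤ Cfsg.Lie.chevD4.monomialSubgroup K ⊔ _)
    have hE := Cfsg.Agent.Lib.ChevShort.edges (K := K) G (le_sup_left : _ ≤ _ ⊔ Cfsg.Lie.chevD4.rootSubgroup K (Cfsg.Lie.chevD4.simple i)) [(0, 1), (1, 2), (1, 3)] (by decide +kernel)
    exact Cfsg.Agent.Lib.ChevShort.group_le G le_sup_left (Cfsg.Agent.Lib.ChevShort.conn4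
      (fun j => Cfsg.Agent.Lib.ChevShort.InM _ (Cfsg.Lie.chevD4.simple j)) hE i hi hs)
  · have G := Cfsg.Agent.Lib.ChevOkF4.good
    have hi' : i < 2 := by
      by_contra hcon
      have h5 : i < 4 := hi
      have h6 : i = 2 ∨ i = 3 := by omega
      rcases h6 with rfl | rfl
      · exact absurd hshort (by decide +kernel)
      · exact absurd hshort (by decide +kernel)
    have h2' : ((2 : ℤ) : K) ≠ 0 := by
      intro h
      have h5 : (2 : ℤ) = ((2 : ℕ) : ℤ) := rfl
      rw [h5, Int.cast_natCast, ringChar.spec] at h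
      rcases (Nat.dvd_prime Nat.prime_two).mp h with h6 | h6
      · exact CharP.ringChar_ne_one h6
      · exact h2 (by simp) h6
    have hs := Cfsg.Agent.Lib.ChevShort.inM_rootSubgroup (K := K) G (Cfsg.Lie.chevF4.simple i) (le_sup_right : _ ≤ Cfsg.Lie.chevF4.monomialSubgroup K ⊔ _)
    have hNM := (le_sup_left : _ ≤ Cfsg.Lie.chevF4.monomialSubgroup K ⊔ Cfsg.Lie.chevF4.rootSubgroup K (Cfsg.Lie.chevF4.simple i))
    have hE := Cfsg.Agent.Lib.ChevShort.edges (K := K) G hNM [(0, 1), (2, 3)] (by decide +kernel)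
    obtain ⟨h0, h1⟩ := Cfsg.Agent.Lib.ChevShort.connF (fun j => Cfsg.Agent.Lib.ChevShort.InM _ (Cfsg.Lie.chevF4.simple j)) hE i hi' hs
    have h4 := Cfsg.Agent.Lib.ChevShort.long_step G hNM (a := 1) (b := 2)
          (s := Cfsg.Lie.chevF4.reflectRoot 2 (Cfsg.Lie.chevF4.simple 1)) (k := 30) (m := 2)
          (by decide +kernel) (by decide +kernel) (by decide +kernel) (by decide +kernel) (by decide +kernel)
          (Cfsg.Agent.Lib.ChevShort.inM_w G hNM (by decide +kernel) (by decide +kernel) h1)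
          (by decide +kernel) h2' (by decide +kernel) h1
    exact Cfsg.Agent.Lib.ChevShort.group_le G hNM (Cfsg.Agent.Lib.ChevShort.connF'
      (fun j => Cfsg.Agent.Lib.ChevShort.InM _ (Cfsg.Lie.chevF4.simple j)) hE h0 h4)
  · have G := Cfsg.Agent.Lib.ChevOkE6.good
    have hs := Cfsg.Agent.Lib.ChevShort.inM_rootSubgroup (K := K) G (Cfsg.Lie.chevE6.simple i) (le_sup_right : _ ≤ Cfsg.Lie.chevE6.monomialSubgroup K ⊔ _)
    have hE := Cfsg.Agent.Lib.ChevShort.edges (K := K) G (le_sup_left : _ ≤ _ ⊔ Cfsg.Lie.chevE6.rootSubgroup K (Cfsg.Lie.chevE6.simple i)) [(0, 2), (1, 3), (2, 3), (3, 4), (4, 5)] (by decide +kernel)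
    exact Cfsg.Agent.Lib.ChevShort.group_le G le_sup_left (Cfsg.Agent.Lib.ChevShort.conn6
      (fun j => Cfsg.Agent.Lib.ChevShort.InM _ (Cfsg.Lie.chevE6.simple j)) hE i hi hs)
  · have G := Cfsg.Agent.Lib.ChevOkE7.good
    have hs := Cfsg.Agent.Lib.ChevShort.inM_rootSubgroup (K := K) G (Cfsg.Lie.chevE7.simple i) (le_sup_right : _ ≤ Cfsg.Lie.chevE7.monomialSubgroup K ⊔ _)
    have hE := Cfsg.Agent.Lib.ChevShort.edges (K := K) G (le_sup_left : _ ≤ _ ⊔ Cfsg.Lie.chevE7.rootSubgroup K (Cfsg.Lie.chevE7.simple i)) [(0, 2), (1, 3), (2, 3), (3, 4), (4, 5), (5, 6)] (by decide +kernel)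
    exact Cfsg.Agent.Lib.ChevShort.group_le G le_sup_left (Cfsg.Agent.Lib.ChevShort.conn7
      (fun j => Cfsg.Agent.Lib.ChevShort.InM _ (Cfsg.Lie.chevE7.simple j)) hE i hi hs)
  · have G := Cfsg.Agent.Lib.ChevOkE8.good
    have hs := Cfsg.Agent.Lib.ChevShort.inM_rootSubgroup (K := K) G (Cfsg.Lie.chevE8.simple i) (le_sup_right : _ ≤ Cfsg.Lie.chevE8.monomialSubgroup K ⊔ _)
    have hE := Cfsg.Agent.Lib.ChevShort.edges (K := K) G (le_sup_left : _ ≤ _ ⊔ Cfsg.Lie.chevE8.rootSubgroup K (Cfsg.Lie.chevE8.simple i)) [(0, 2), (1, 3), (2, 3), (3, 4), (4, 5), (5, 6), (6, 7)] (by decide +kernel)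
    exact Cfsg.Agent.Lib.ChevShort.group_le G le_sup_left (Cfsg.Agent.Lib.ChevShort.conn8
      (fun j => Cfsg.Agent.Lib.ChevShort.InM _ (Cfsg.Lie.chevE8.simple j)) hE i hi hs)

end Cfsg.Agent.S2416
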