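import Cfsg.Statements.S2417
import Mathlib
import Cfsg.Agent.Lib.ChevShort

set_option autoImplicit false
open scoped MatrixGroups
open Cfsg

namespace Cfsg.Agent.S2417

/-- In the characteristics with an exceptional graph symmetry — type B₂ or F₄ in characteristic 2 (field of more than two elements for B₂) and type G₂ in characteristic 3 — the Chevalley group lies in the subgroup generated by its monomial subgroup `N` and the two fundamental root subgroups `X_a`, `X_b` of a short root `a` and a long root `b` joined in the Dynkin diagram. -/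
theorem result {K : Type*} [Field K] [Finite K] (e : Cfsg.Lie.ChevalleyDatum × ℕ)
    (he : e ∈ [(Cfsg.Lie.chevB2, 2), (Cfsg.Lie.chevF4, 2), (Cfsg.Lie.chevG2, 3)]) [CharP K e.2]
    (hK : e.1 = Cfsg.Lie.chevB2 → ∃ x : K, x ≠ 0 ∧ x ≠ 1)
    (i j : ℕ) (hi : i < e.1.rank) (hj : j < e.1.rank) (hshort : e.1.isLong (e.1.simple i) = false)
    (hlong : e.1.isLong (e.1.simple j) = true) (hbond : e.1.bonds i j ≠ 0) :
    e.1.group K ≤ e.1.monomialSubgroup K ⊔ e.1.rootSubgroup K (e.1.simple i) ⊔ e.1.rootSubgroup K (e.1.simple j) := by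
  simp only [List.mem_cons, List.not_mem_nil, or_false] at he
  rcases he with rfl | rfl | rfl
  · have G := Cfsg.Agent.Lib.ChevOkB2.good
    change Cfsg.Lie.chevB2.group K ≤ Cfsg.Lie.chevB2.monomialSubgroup K ⊔ Cfsg.Lie.chevB2.rootSubgroup K (Cfsg.Lie.chevB2.simple i) ⊔
      Cfsg.Lie.chevB2.rootSubgroup K (Cfsg.Lie.chevB2.simple j)
    have hi0 : i = 0 := by
      by_contra hcon
      have h5 : i < 2 := hi
      have h6 : i = 1 := by omega
      subst h6
      exact absurd hshort (by decide +kernel)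
    have hj1 : j = 1 := by
      by_contra hcon
      have h5 : j < 2 := hj
      have h6 : j = 0 := by omega
      subst h6
      exact absurd hlong (by decide +kernel)
    subst hi0; subst hj1
    have hN : Cfsg.Lie.chevB2.monomialSubgroup K ≤ Cfsg.Lie.chevB2.monomialSubgroup K ⊔ Cfsg.Lie.chevB2.rootSubgroup K (Cfsg.Lie.chevB2.simple 0) ⊔
      Cfsg.Lie.chevB2.rootSubgroup K (Cfsg.Lie.chevB2.simple 1) := le_sup_left.trans le_sup_left
    have hs := Cfsg.Agent.Lib.ChevShort.inM_rootSubgroup (K := K) G (Cfsg.Lie.chevB2.simple 0)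
      ((le_sup_right : _ ≤ Cfsg.Lie.chevB2.monomialSubgroup K ⊔ _).trans (le_sup_left : _ ≤ _ ⊔ Cfsg.Lie.chevB2.rootSubgroup K (Cfsg.Lie.chevB2.simple 1)))
    have hl := Cfsg.Agent.Lib.ChevShort.inM_rootSubgroup (K := K) G (Cfsg.Lie.chevB2.simple 1)
      (le_sup_right : _ ≤ Cfsg.Lie.chevB2.monomialSubgroup K ⊔ Cfsg.Lie.chevB2.rootSubgroup K (Cfsg.Lie.chevB2.simple 0) ⊔ _)
    apply Cfsg.Agent.Lib.ChevShort.group_le G hN
    intro j hj
    have hj' : j < 2 := hj
    interval_cases j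
    · exact hs
    · exact hl
  · have G := Cfsg.Agent.Lib.ChevOkF4.good
    change Cfsg.Lie.chevF4.group K ≤ Cfsg.Lie.chevF4.monomialSubgroup K ⊔ Cfsg.Lie.chevF4.rootSubgroup K (Cfsg.Lie.chevF4.simple i) ⊔
      Cfsg.Lie.chevF4.rootSubgroup K (Cfsg.Lie.chevF4.simple j)
    have hi0 : i < 2 := by
      by_contra hcon
      have h5 : i < 4 := hi
      have h6 : i = 2 ∨ i = 3 := by omega
      rcases h6 with rfl | rfl
      · exact absurd hshort (by decide +kernel)
      · exact absurd hshort (by decide +kernel)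
    have hj1 : j = 2 ∨ j = 3 := by
      by_contra hcon
      have h5 : j < 4 := hj
      have h6 : j = 0 ∨ j = 1 := by omega
      rcases h6 with rfl | rfl
      · exact absurd hlong (by decide +kernel)
      · exact absurd hlong (by decide +kernel)
    have hN : Cfsg.Lie.chevF4.monomialSubgroup K ≤ Cfsg.Lie.chevF4.monomialSubgroup K ⊔ Cfsg.Lie.chevF4.rootSubgroup K (Cfsg.Lie.chevF4.simple i) ⊔
      Cfsg.Lie.chevF4.rootSubgroup K (Cfsg.Lie.chevF4.simple j) := le_sup_left.trans le_sup_left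
    have hs := Cfsg.Agent.Lib.ChevShort.inM_rootSubgroup (K := K) G (Cfsg.Lie.chevF4.simple i)
      ((le_sup_right : _ ≤ Cfsg.Lie.chevF4.monomialSubgroup K ⊔ _).trans (le_sup_left : _ ≤ _ ⊔ Cfsg.Lie.chevF4.rootSubgroup K (Cfsg.Lie.chevF4.simple j)))
    have hl := Cfsg.Agent.Lib.ChevShort.inM_rootSubgroup (K := K) G (Cfsg.Lie.chevF4.simple j)
      (le_sup_right : _ ≤ Cfsg.Lie.chevF4.monomialSubgroup K ⊔ Cfsg.Lie.chevF4.rootSubgroup K (Cfsg.Lie.chevF4.simple i) ⊔ _)
    have hE := Cfsg.Agent.Lib.ChevShort.edges (K := K) G hN [(0, 1), (2, 3)] (by decide +kernel)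
    obtain ⟨h0, h1⟩ := Cfsg.Agent.Lib.ChevShort.connF (fun j => Cfsg.Agent.Lib.ChevShort.InM _ (Cfsg.Lie.chevF4.simple j)) hE i hi0 hs
    have h2 := Cfsg.Agent.Lib.ChevShort.connG (fun j => Cfsg.Agent.Lib.ChevShort.InM _ (Cfsg.Lie.chevF4.simple j)) hE j hj1 hl
    exact Cfsg.Agent.Lib.ChevShort.group_le G hN (Cfsg.Agent.Lib.ChevShort.connF'
      (fun j => Cfsg.Agent.Lib.ChevShort.InM _ (Cfsg.Lie.chevF4.simple j)) hE h0 h2)
  · have G := Cfsg.Agent.Lib.ChevOkG2.good
    change Cfsg.Lie.chevG2.group K ≤ Cfsg.Lie.chevG2.monomialSubgroup K ⊔ Cfsg.Lie.chevG2.rootSubgroup K (Cfsg.Lie.chevG2.simple i) ⊔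
      Cfsg.Lie.chevG2.rootSubgroup K (Cfsg.Lie.chevG2.simple j)
    have hi0 : i = 0 := by
      by_contra hcon
      have h5 : i < 2 := hi
      have h6 : i = 1 := by omega
      subst h6
      exact absurd hshort (by decide +kernel)
    have hj1 : j = 1 := by
      by_contra hcon
      have h5 : j < 2 := hj
      have h6 : j = 0 := by omega
      subst h6
      exact absurd hlong (by decide +kernel)
    subst hi0; subst hj1
    have hN : Cfsg.Lie.chevG2.monomialSubgroup K ≤ Cfsg.Lie.chevG2.monomialSubgroup K ⊔ Cfsg.Lie.chevG2.rootSubgroup K (Cfsg.Lie.chevG2.simple 0) ⊔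
      Cfsg.Lie.chevG2.rootSubgroup K (Cfsg.Lie.chevG2.simple 1) := le_sup_left.trans le_sup_left
    have hs := Cfsg.Agent.Lib.ChevShort.inM_rootSubgroup (K := K) G (Cfsg.Lie.chevG2.simple 0)
      ((le_sup_right : _ ≤ Cfsg.Lie.chevG2.monomialSubgroup K ⊔ _).trans (le_sup_left : _ ≤ _ ⊔ Cfsg.Lie.chevG2.rootSubgroup K (Cfsg.Lie.chevG2.simple 1)))
    have hl := Cfsg.Agent.Lib.ChevShort.inM_rootSubgroup (K := K) G (Cfsg.Lie.chevG2.simple 1)
      (le_sup_right : _ ≤ Cfsg.Lie.chevG2.monomialSubgroup K ⊔ Cfsg.Lie.chevG2.rootSubgroup K (Cfsg.Lie.chevG2.simple 0) ⊔ _)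
    apply Cfsg.Agent.Lib.ChevShort.group_le G hN
    intro j hj
    have hj' : j < 2 := hj
    interval_cases j
    · exact hs
    · exact hl

end Cfsg.Agent.S2417
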