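import Cfsg.Statements.S2419
import Cfsg.Agent.Lib.CoxCent

set_option autoImplicit false
set_option maxRecDepth 1000000
open Cfsg

namespace Cfsg.Agent.S2419
open Cfsg.Lie Cfsg.Agent.Lib Cfsg.Agent.Lib.CoxCent Cfsg.Agent.Lib.CoxRootData

def wd (D : ChevalleyDatum) (l : List (List ℕ)) (j : Fin D.rank) : List ℕ := l.getD j []

def lB2 : List (List ℕ) := [[2], [2, 0]]
theorem gB2 : ChkG chevB2 (wd chevB2 lB2) := by unfold ChkG; decide +kernel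
theorem aB2 : ∀ j : Fin chevB2.rank, ∀ n ∈ wd chevB2 lB2 j, 2 ≤ n → n = 2 := by decide +kernel
def lG2 : List (List ℕ) := [[2], [2, 0]]
theorem gG2 : ChkG chevG2 (wd chevG2 lG2) := by unfold ChkG; decide +kernel
theorem aG2 : ∀ j : Fin chevG2.rank, ∀ n ∈ wd chevG2 lG2 j, 2 ≤ n → n = 2 := by decide +kernel
def lD4 : List (List ℕ) := [[1, 3, 0], [3], [4], [0, 4, 3, 4, 1]]
theorem gD4 : ChkG chevD4 (wd chevD4 lD4) := by unfold ChkG; decide +kernel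
theorem aD4 : ∀ j : Fin chevD4.rank, ∀ n ∈ wd chevD4 lD4 j, 2 ≤ n → n = 3 ∨ n = 4 := by decide +kernel
def lF4 : List (List ℕ) := [[2], [0, 2, 1], [4], [0, 4, 1]]
theorem gF4 : ChkG chevF4 (wd chevF4 lF4) := by unfold ChkG; decide +kernel
theorem aF4 : ∀ j : Fin chevF4.rank, ∀ n ∈ wd chevF4 lF4 j, 2 ≤ n → n = 2 ∨ n = 4 := by decide +kernel
def lE6 : List (List ℕ) := [[1, 1, 1, 1, 1, 5, 0, 0, 0, 0, 0], [5, 1, 1, 1, 5, 0, 0, 0, 5], [1, 1, 1, 1, 5, 0, 0, 0, 0], [5], [0, 5, 1], [0, 0, 5, 1, 1]]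
theorem gE6 : ChkG chevE6 (wd chevE6 lE6) := by unfold ChkG; decide +kernel
theorem aE6 : ∀ j : Fin chevE6.rank, ∀ n ∈ wd chevE6 lE6 j, 2 ≤ n → n = 5 := by decide +kernel
def lE7 : List (List ℕ) := [[1, 5, 1, 1, 1, 1, 5, 0, 0, 0, 0, 5, 0], [5, 0, 5, 1, 1, 1, 1, 5, 0, 0, 0, 0, 5, 1, 5], [5, 1, 1, 1, 1, 5, 0, 0, 0, 0, 5], [5], [0, 5, 1], [0, 0, 5, 1, 1], [0, 0, 0, 5, 1, 1, 1]]
theorem gE7 : ChkG chevE7 (wd chevE7 lE7) := by unfold ChkG; decide +kernel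
theorem aE7 : ∀ j : Fin chevE7.rank, ∀ n ∈ wd chevE7 lE7 j, 2 ≤ n → n = 5 := by decide +kernel
def lE8 : List (List ℕ) := [[0, 3, 1, 1, 1, 1, 3, 1, 1, 3, 0, 0, 3, 0, 0, 0, 0, 3, 1], [3], [1, 3, 0, 0, 0, 0, 3, 0, 0, 3, 1, 1, 3, 1, 1, 1, 1, 3, 0], [0, 0, 0, 0, 3, 0, 0, 3, 1, 1, 3, 1, 1, 1, 1], [0, 0, 0, 0, 0, 3, 0, 0, 3, 1, 1, 3, 1, 1, 1, 1, 1], [0, 0, 0, 0, 0, 0, 3, 0, 0, 3, 1, 1, 3, 1, 1, 1, 1, 1, 1], [1, 1, 1, 1, 1, 1, 3, 1, 1, 3, 0, 0, 3, 0, 0, 0, 0, 0, 0], [1, 1, 1, 1, 1, 3, 1, 1, 3, 0, 0, 3, 0, 0, 0, 0, 0]]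
theorem gE8 : ChkG chevE8 (wd chevE8 lE8) := by unfold ChkG; decide +kernel
theorem aE8 : ∀ j : Fin chevE8.rank, ∀ n ∈ wd chevE8 lE8 j, 2 ≤ n → n = 3 := by decide +kernel

theorem one {D : ChevalleyDatum} (G : ChevGood.Good D) {M : CoxeterMatrix (Fin D.rank)} (hF : FaithfulOnRoots D M) {W : Fin D.rank → List ℕ} (hW : ChkG D W)
    (i : Fin D.rank) (ha : ∀ j : Fin D.rank, ∀ n ∈ W j, 2 ≤ n → n = (i : ℕ) + 2) :
    ∃ T : Finset M.Group, T.card = 1 ∧ (∀ t ∈ T, ∃ (g : M.Group) (i : Fin D.rank), t = g * M.simple i * g⁻¹) ∧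
      Subgroup.closure (({((List.finRange D.rank).map M.simple).prod} : Set M.Group) ∪ ↑T) = ⊤ := by
  refine ⟨{M.simple i}, Finset.card_singleton _, ?_, ?_⟩
  · intro t ht
    rw [Finset.mem_singleton] at ht
    exact ⟨1, i, by rw [ht]; simp⟩
  · apply gen G hF hW
    · exact Subgroup.subset_closure (Or.inl rfl)
    · intro j n hn h h2
      have h3 := ha j n hn h2
      have h4 : (⟨n - 2, h⟩ : Fin D.rank) = i := Fin.ext (by change n - 2 = (i : ℕ); omega)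
      rw [h4]
      exact Subgroup.subset_closure (Or.inr (by simp))

theorem two {D : ChevalleyDatum} (G : ChevGood.Good D) {M : CoxeterMatrix (Fin D.rank)} (hF : FaithfulOnRoots D M) {W : Fin D.rank → List ℕ} (hW : ChkG D W)
    (i i' : Fin D.rank) (hii : D.reflectRoot i (D.simple i) ≠ D.reflectRoot i' (D.simple i)) (ha : ∀ j : Fin D.rank, ∀ n ∈ W j, 2 ≤ n → n = (i : ℕ) + 2 ∨ n = (i' : ℕ) + 2) :
    ∃ T : Finset M.Group, T.card = 2 ∧ (∀ t ∈ T, ∃ (g : M.Group) (i : Fin D.rank), t = g * M.simple i * g⁻¹) ∧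
      Subgroup.closure (({((List.finRange D.rank).map M.simple).prod} : Set M.Group) ∪ ↑T) = ⊤ := by
  classical
  have hne : M.simple i ≠ M.simple i' := by
    intro h
    obtain ⟨ψ, -, hs⟩ := hF
    apply hii
    have h1 := hs i (ChevNPerm.simpF G i)
    have h2 := hs i' (ChevNPerm.simpF G i)
    rw [h, h2] at h1
    exact h1.symm
  refine ⟨{M.simple i, M.simple i'}, Finset.card_pair hne, ?_, ?_⟩
  · intro t ht
    rw [Finset.mem_insert, Finset.mem_singleton] at ht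
    rcases ht with ht | ht
    · exact ⟨1, i, by rw [ht]; simp⟩
    · exact ⟨1, i', by rw [ht]; simp⟩
  · apply gen G hF hW
    · exact Subgroup.subset_closure (Or.inl rfl)
    · intro j n hn h h2
      rcases ha j n hn h2 with h3 | h3
      · have h4 : (⟨n - 2, h⟩ : Fin D.rank) = i := Fin.ext (by change n - 2 = (i : ℕ); omega)
        rw [h4]
        exact Subgroup.subset_closure (Or.inr (by simp))
      · have h4 : (⟨n - 2, h⟩ : Fin D.rank) = i' := Fin.ext (by change n - 2 = (i' : ℕ); omega)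
        rw [h4]
        exact Subgroup.subset_closure (Or.inr (by simp))

/-- The Coxeter groups of types B₂, G₂, E₆, E₇, E₈ are generated by the Coxeter element `s₁ s₂ ⋯ s_l` together with one suitable reflection (a conjugate of a simple reflection); for types D₄ and F₄ the Coxeter element together with two suitable reflections suffices. -/
theorem result (c : (Σ n : ℕ, CoxeterMatrix (Fin n)) × ℕ)
    (hc : c ∈ [(⟨2, CoxeterMatrix.B 2⟩, 1), (⟨2, CoxeterMatrix.G₂⟩, 1), (⟨4, Cfsg.Lie.coxeterD4⟩, 2), (⟨4, CoxeterMatrix.F₄⟩, 2),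
      (⟨6, CoxeterMatrix.E₆⟩, 1), (⟨7, CoxeterMatrix.E₇⟩, 1), (⟨8, CoxeterMatrix.E₈⟩, 1)]) :
    ∃ T : Finset c.1.2.Group, T.card = c.2 ∧ (∀ t ∈ T, ∃ (g : c.1.2.Group) (i : Fin c.1.1), t = g * c.1.2.simple i * g⁻¹) ∧
      Subgroup.closure (({((List.finRange c.1.1).map c.1.2.simple).prod} : Set c.1.2.Group) ∪ ↑T) = ⊤ := by
  simp only [List.mem_cons, List.not_mem_nil, or_false] at hc
  rcases hc with rfl | rfl | rfl | rfl | rfl | rfl | rfl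
  · exact one ChevOkB2.good faithfulB2 gB2 ⟨0, by decide⟩ aB2
  · exact one ChevOkG2.good faithfulG2 gG2 ⟨0, by decide⟩ aG2
  · exact two ChevOkD4.good faithfulD4 gD4 ⟨1, by decide⟩ ⟨2, by decide⟩ (by decide) aD4
  · exact two ChevOkF4.good faithfulF4 gF4 ⟨0, by decide⟩ ⟨2, by decide⟩ (by decide) aF4
  · exact one ChevOkE6.good faithfulE6 gE6 ⟨3, by decide⟩ aE6
  · exact one ChevOkE7.good faithfulE7 gE7 ⟨3, by decide⟩ aE7
  · exact one ChevOkE8.good faithfulE8 gE8 ⟨1, by decide⟩ aE8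

end Cfsg.Agent.S2419
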