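import Cfsg.Statements.S2425
import Cfsg.Agent.Lib.StMob2

set_option autoImplicit false
open scoped MatrixGroups
open Cfsg

namespace Cfsg.Agent.S2425

open Cfsg.Agent.Lib.StMob Polynomial Module

/-- invariant subspaces as `F[X]`-submodules -/
noncomputable def ord {F : Type*} [Field F] {n : ℕ} (x : GL (Fin n) F) :
    LL x ≃o Submodule F[X] (AEval' (Matrix.toLin' (x : Matrix (Fin n) (Fin n) F))) where
  toEquiv :=
    { toFun := fun W => AEval.mapSubmodule F (Fin n → F) (Matrix.toLin' (x : Matrix (Fin n) (Fin n) F)) ⟨W.1, by
        rw [Module.End.mem_invtSubmodule_iff_map_le]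
        exact W.2.le⟩
      invFun := fun N => ⟨((AEval.mapSubmodule F (Fin n → F) (Matrix.toLin' (x : Matrix (Fin n) (Fin n) F))).symm N).1, by
        apply Submodule.eq_of_le_of_finrank_eq
        · exact (Module.End.mem_invtSubmodule_iff_map_le _).1
            ((AEval.mapSubmodule F (Fin n → F) (Matrix.toLin' (x : Matrix (Fin n) (Fin n) F))).symm N).2
        · exact finrank_act x _⟩
      left_inv := fun W => by
        apply Subtype.ext
        simp
      right_inv := fun N => by
        simp }
  map_rel_iff' := by
    intro W W'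
    exact (AEval.mapSubmodule F (Fin n → F) (Matrix.toLin' (x : Matrix (Fin n) (Fin n) F))).le_iff_le

theorem result {F : Type*} [Field F] [Fintype F] [DecidableEq F] {q : ℕ} (hq : Fintype.card F = q) (p : ℕ) [Fact p.Prime] [CharP F p]
    {n : ℕ} (x : GL (Fin n) F) (hx : (orderOf x).Coprime p) :
    Cfsg.unipotentCharacterGL n F (fun _ => 1) x =
      ∏ f ∈ (UniqueFactorizationMonoid.normalizedFactors (x : Matrix (Fin n) (Fin n) F).charpoly).toFinset,
        (-1 : ℂ) ^ ((f.natDegree - 1) * (UniqueFactorizationMonoid.normalizedFactors (x : Matrix (Fin n) (Fin n) F).charpoly).count f) *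
          (q : ℂ) ^ (f.natDegree * (UniqueFactorizationMonoid.normalizedFactors (x : Matrix (Fin n) (Fin n) F).charpoly).count f *
            ((UniqueFactorizationMonoid.normalizedFactors (x : Matrix (Fin n) (Fin n) F).charpoly).count f - 1) / 2) := by
  classical
  set φ := Matrix.toLin' (x : Matrix (Fin n) (Fin n) F) with hφ
  have hMfin : Module.Finite F (AEval' φ) := inferInstance
  have hMf : Finite (AEval' φ) := Module.finite_of_finite F
  let _ : Fintype (Submodule F[X] (AEval' φ)) := Fintype.ofFinite _
  let _ : LocallyFiniteOrder (Submodule F[X] (AEval' φ)) := Fintype.toLocallyFiniteOrder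
  -- semisimplicity
  have hss : IsSemisimpleModule F[X] (AEval' φ) := by
    have h1 : (Module.End.IsSemisimple φ) := by
      apply Module.End.isSemisimple_of_squarefree_aeval_eq_zero (p := X ^ (orderOf x) - 1)
      · apply Polynomial.Separable.squarefree
        have := Polynomial.separable_X_pow_sub_C (F := F) (n := orderOf x) 1 (by
          intro h0
          have h1 : p ∣ orderOf x := (CharP.cast_eq_zero_iff F p _).1 h0
          have h2 : p = 1 := by
            have := Nat.dvd_gcd h1 (dvd_refl p)
            rw [hx] at this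
            exact Nat.dvd_one.1 this
          exact (Fact.out : p.Prime).one_lt.ne' h2) one_ne_zero
        rwa [map_one] at this
      · rw [map_sub, map_pow, aeval_X, map_one, sub_eq_zero]
        have h2 : (x : Matrix (Fin n) (Fin n) F) ^ (orderOf x) = 1 := by
          rw [← Units.val_pow_eq_pow_val, pow_orderOf_eq_one]; rfl
        rw [hφ, ← Matrix.toLin'_pow, h2, Matrix.toLin'_one]
        rfl
    exact h1
  -- the dimension function
  let d : Submodule F[X] (AEval' φ) → ℕ := fun N => finrank F N
  have hd : StrictMono d := by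
    intro N N' h
    have h1 : N.restrictScalars F < N'.restrictScalars F := h
    exact Submodule.finrank_lt_finrank_of_lt h1
  have hdt : d ⊤ = n := by
    show finrank F (⊤ : Submodule F[X] (AEval' φ)) = n
    have : finrank F ((⊤ : Submodule F[X] (AEval' φ)).restrictScalars F) = n := by
      rw [Submodule.restrictScalars_top, finrank_top]
      rw [← (AEval'.of φ).finrank_eq]
      simp
    exact this
  have hdb : d ⊥ = 0 := by
    show finrank F (⊥ : Submodule F[X] (AEval' φ)) = 0
    exact finrank_zero_of_subsingleton
  have hde : ∀ W : LL x, d (ord x W) = finrank F W.1 := by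
    intro W
    exact (AEval.equiv_mapSubmodule φ W.1 _).finrank_eq.symm
  -- the sum
  have h1 : Cfsg.unipotentCharacterGL n F (fun _ => 1) x = ((Gs d n 0 ⊥ : ℤ) : ℂ) := by
    unfold Cfsg.unipotentCharacterGL Gs
    push_cast
    apply Finset.sum_congr rfl
    intro κ _
    have hiff : (∀ i : Fin n, (κ i).val ≤ 1 + i.val) ↔ ok κ := by
      unfold ok
      constructor
      · intro h i; have := h i; omega
      · intro h i; have := h i; omega
    by_cases hk : ok κ
    · rw [if_pos (hiff.2 hk), if_pos hk]
      congr 1
      have hc : (fun i : Fin n => 1 + i.val - (κ i).val) = Cfsg.Agent.Lib.StMob.comp 0 κ := by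
        funext i
        unfold Cfsg.Agent.Lib.StMob.comp
        simp
        rw [add_comm]
      have hsum : ∑ i, Cfsg.Agent.Lib.StMob.comp 0 κ i = n := by
        rw [← hc]
        have h3 : ∑ i : Fin n, (1 + i.val - (κ i).val) + ∑ i : Fin n, (κ i).val = ∑ i : Fin n, (1 + i.val) := by
          rw [← Finset.sum_add_distrib]
          apply Finset.sum_congr rfl
          intro i _
          have := hiff.2 hk i
          omega
        rw [Equiv.sum_comp κ (fun i : Fin n => i.val), Finset.sum_add_distrib] at h3
        simp at h3
        simpa using h3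
      unfold Cfsg.fixedPointCharacter
      rw [hc, card_fixed x hsum, card_fl_congr d (ord x) hde, map_bot]
    · rw [if_neg (fun h => hk (hiff.1 h)), if_neg hk]
  have h2 := Gs_eq_mu hd n ⊥ (by rw [hdb, hdt, zero_add])
  rw [mu_eq] at h2
  have h3 : cpo F (⊤ : Submodule F[X] (AEval' φ)) = (x : Matrix (Fin n) (Fin n) F).charpoly := by
    rw [cpo_congr (Submodule.topEquiv : (⊤ : Submodule F[X] (AEval' φ)) ≃ₗ[F[X]] _)]
    unfold cpo
    rw [← Matrix.charpoly_toLin', ← hφ, ← LinearEquiv.charpoly_conj (AEval'.of φ) φ]
    congr 1
    ext v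
    rw [LinearEquiv.conj_apply_apply]
    show (X : F[X]) • v = _
    rw [← AEval'.X_smul_of, LinearEquiv.apply_symm_apply]
  rw [h3] at h2
  rw [h1, h2]
  set P := (x : Matrix (Fin n) (Fin n) F).charpoly with hP
  have hPm : P.Monic := Matrix.charpoly_monic _
  have hPd : P.natDegree = n := by rw [hP, Matrix.charpoly_natDegree_eq_dim]; simp
  have hdeg : n = ∑ f ∈ (UniqueFactorizationMonoid.normalizedFactors P).toFinset,
      f.natDegree * (UniqueFactorizationMonoid.normalizedFactors P).count f := by
    have h4 : (UniqueFactorizationMonoid.normalizedFactors P).prod = P := by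
      have := UniqueFactorizationMonoid.prod_normalizedFactors_eq hPm.ne_zero
      rw [this, hPm.normalize_eq_self]
    have h5 : P.natDegree = ((UniqueFactorizationMonoid.normalizedFactors P).map natDegree).sum := by
      conv_lhs => rw [← h4]
      apply natDegree_multiset_prod
      intro h0
      exact (UniqueFactorizationMonoid.irreducible_of_normalized_factor 0 h0).ne_zero rfl
    rw [← hPd, h5, Finset.sum_multiset_map_count]
    apply Finset.sum_congr rfl
    intro f _
    rw [smul_eq_mul, mul_comm]
  unfold Pf
  conv_lhs => rw [hdeg]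
  rw [← Finset.prod_pow_eq_pow_sum, ← Finset.prod_mul_distrib]
  push_cast
  apply Finset.prod_congr rfl
  intro f hf
  have hfi : Irreducible f := UniqueFactorizationMonoid.irreducible_of_normalized_factor f (Multiset.mem_toFinset.1 hf)
  have hfd : 1 ≤ f.natDegree := hfi.natDegree_pos
  unfold wf
  push_cast
  rw [← mul_assoc, Nat.card_eq_fintype_card, hq]
  congr 1
  rw [← pow_add]
  obtain ⟨k, hk⟩ := Nat.exists_eq_add_of_le hfd
  rw [hk, Nat.add_sub_cancel_left]
  set c := (UniqueFactorizationMonoid.normalizedFactors P).count f
  have : (1 + k) * c + c = k * c + 2 * c := by ring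
  rw [this, pow_add, pow_mul (-1 : ℂ) 2 c]
  norm_num

end Cfsg.Agent.S2425
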