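import Cfsg.Statements.S2427
import Cfsg.Agent.Lib.ClSL23

set_option autoImplicit false
open Cfsg

namespace Cfsg.Agent.S2427

open Cfsg.Agent.Lib

/-- The group SL₂ over the field with 3 elements has order 24 and centre of order 2; its commutator subgroup has order 8, is isomorphic to the quaternion group of order 8 and is complemented by every Sylow 3-subgroup (so the group is a semidirect product of a quaternion group of order 8 by a cyclic group of order 3); and its only normal subgroups besides the trivial subgroup and the whole group are the centre and the commutator subgroup. -/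
theorem result :
    Nat.card (Matrix.SpecialLinearGroup (Fin 2) (ZMod 3)) = 24 ∧
    Nat.card (Subgroup.center (Matrix.SpecialLinearGroup (Fin 2) (ZMod 3))) = 2 ∧
    Nat.card (commutator (Matrix.SpecialLinearGroup (Fin 2) (ZMod 3))) = 8 ∧
    Nonempty (commutator (Matrix.SpecialLinearGroup (Fin 2) (ZMod 3)) ≃* QuaternionGroup 2) ∧
    (∀ P : Sylow 3 (Matrix.SpecialLinearGroup (Fin 2) (ZMod 3)),
      Subgroup.IsComplement' (commutator (Matrix.SpecialLinearGroup (Fin 2) (ZMod 3)))
        (P : Subgroup (Matrix.SpecialLinearGroup (Fin 2) (ZMod 3)))) ∧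
    ∀ N : Subgroup (Matrix.SpecialLinearGroup (Fin 2) (ZMod 3)), N.Normal →
      N = ⊥ ∨ N = ⊤ ∨ N = Subgroup.center (Matrix.SpecialLinearGroup (Fin 2) (ZMod 3)) ∨
        N = commutator (Matrix.SpecialLinearGroup (Fin 2) (ZMod 3)) := by
  obtain ⟨Q, hQn, hi, he, hc, hQ⟩ := ClSL23.exists_Q
  have hcomm := ClSL23.commutator_eq hQn hi hQ
  have h24 : Nat.card (Matrix.SpecialLinearGroup (Fin 2) (ZMod 3)) = 24 := SLTwoThree.card_SL
  rw [hcomm]
  refine ⟨h24, ClSL23.card_center_eq, hc, he, ?_, ?_⟩
  · intro P
    have hP : Nat.card P = 3 := by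
      have h1 := ClSL2.card_sylow_char_SL2 (F := ZMod 3) (q := 3) (p := 3) (ZMod.card 3) P
      exact h1
    apply Subgroup.isComplement'_of_coprime
    · rw [hc, h24]
      change 8 * Nat.card P = 24
      rw [hP]
    · rw [hc]
      change Nat.Coprime 8 (Nat.card P)
      rw [hP]
      norm_num
  · intro N hN
    rcases ClSL23.normal_cases N with h | h | h | h
    · exact Or.inl h
    · exact Or.inr (Or.inl h)
    · exact Or.inr (Or.inr (Or.inl h))
    · right; right; right
      ext x
      rw [h, hQ]

end Cfsg.Agent.S2427
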