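import Cfsg.Statements.S2428
import Cfsg.Agent.Lib.SL2Tori

set_option autoImplicit false
open Cfsg

namespace Cfsg.Agent.S2428

open Matrix Cfsg.Agent.Lib.SL2Basic Cfsg.Agent.Lib.SL2Tori

/-- Let F be a finite field with q elements, q odd, and let d be a diagonal element of SL₂ over F whose diagonal entry a has a² ≠ 1 (such d exist exactly when q > 3). Then the centraliser of d is precisely the diagonal subgroup T; the normaliser of T has order 2(q − 1) and exactly (q + 5)/2 conjugacy classes; and every element of that normaliser outside T has square equal to −1. -/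
theorem result {F : Type*} [Field F] [Fintype F] (hodd : Odd (Fintype.card F))
    (d : Matrix.SpecialLinearGroup (Fin 2) F) (hd01 : (d : Matrix (Fin 2) (Fin 2) F) 0 1 = 0) (hd10 : (d : Matrix (Fin 2) (Fin 2) F) 1 0 = 0) (hda : (d : Matrix (Fin 2) (Fin 2) F) 0 0 ^ 2 ≠ 1) :
    (∀ g : Matrix.SpecialLinearGroup (Fin 2) F, g ∈ Subgroup.centralizer ({d} : Set (Matrix.SpecialLinearGroup (Fin 2) F)) ↔ ((g : Matrix (Fin 2) (Fin 2) F) 0 1 = 0 ∧ (g : Matrix (Fin 2) (Fin 2) F) 1 0 = 0)) ∧
    Nat.card (Subgroup.normalizer ((Subgroup.centralizer ({d} : Set (Matrix.SpecialLinearGroup (Fin 2) F))) : Set (Matrix.SpecialLinearGroup (Fin 2) F))) = 2 * (Fintype.card F - 1) ∧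
    Nat.card (ConjClasses (Subgroup.normalizer ((Subgroup.centralizer ({d} : Set (Matrix.SpecialLinearGroup (Fin 2) F))) : Set (Matrix.SpecialLinearGroup (Fin 2) F)))) = (Fintype.card F + 5) / 2 ∧
    ∀ g : Matrix.SpecialLinearGroup (Fin 2) F, g ∈ Subgroup.normalizer ((Subgroup.centralizer ({d} : Set (Matrix.SpecialLinearGroup (Fin 2) F))) : Set (Matrix.SpecialLinearGroup (Fin 2) F)) →
      g ∉ Subgroup.centralizer ({d} : Set (Matrix.SpecialLinearGroup (Fin 2) F)) → ((g * g) : Matrix (Fin 2) (Fin 2) F) = -1 := by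
  have h2 := two_ne_zero_of_odd hodd
  obtain ⟨u, hu⟩ : ∃ u : Fˣ, dg u = d := by
    obtain ⟨u, hu⟩ := (mem_range_dgHom (A := d)).2 ⟨hd01, hd10⟩
    exact ⟨u, hu⟩
  have hu2 : (u : F) ^ 2 ≠ 1 := by
    rw [← hu] at hda
    simpa [dg] using hda
  have h4 : tr d ^ 2 ≠ 4 := by rw [← hu]; exact dg_tr_sq_ne hu2
  have hcent : Subgroup.centralizer ({d} : Set (Matrix.SpecialLinearGroup (Fin 2) F)) =
      (dgHom (F := F)).range := by rw [← hu]; exact centralizer_dg hu2
  have hcard : Nat.card (Subgroup.centralizer ({d} : Set (Matrix.SpecialLinearGroup (Fin 2) F))) =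
      Fintype.card F - 1 := by
    rw [hcent, card_range_dgHom, Nat.card_eq_fintype_card]
  refine ⟨?_, ?_, ?_, ?_⟩
  · intro g
    rw [hcent]
    exact mem_range_dgHom
  · rw [card_normalizer h2 h4, hcard]
  · rw [card_conjClasses_normalizer h2 h4, hcard]
    have : 1 ≤ Fintype.card F := Fintype.card_pos
    omega
  · intro g hgN hgC
    have h3 : g * d * g⁻¹ = d⁻¹ := by
      rcases (mem_normalizer_centralizer_iff h4 g).1 hgN with h | h
      · exfalso
        apply hgC
        rw [Subgroup.mem_centralizer_singleton_iff]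
        exact (mul_inv_eq_iff_eq_mul.1 h)
      · exact h
    have h5 := sq_of_inverts h2 h4 h3
    rw [← Matrix.SpecialLinearGroup.coe_mul, h5, Matrix.SpecialLinearGroup.coe_neg,
      Matrix.SpecialLinearGroup.coe_one]

end Cfsg.Agent.S2428
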