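import Cfsg.Statements.S2429
import Cfsg.Agent.Lib.SL2Tori

set_option autoImplicit false
open Cfsg

namespace Cfsg.Agent.S2429

open Matrix Cfsg.Agent.Lib.SL2Basic Cfsg.Agent.Lib.SL2Tori

theorem two_ne_zero_of_odd {F : Type*} [Field F] [Fintype F] (hodd : Odd (Fintype.card F)) :
    (2 : F) ≠ 0 := by
  intro h
  obtain ⟨k, hk⟩ := hodd
  have h1 : ((Fintype.card F : ℕ) : F) = 0 := Nat.cast_card_eq_zero F
  rw [hk] at h1
  push_cast at h1
  rw [h, zero_mul, zero_add] at h1
  exact one_ne_zero h1

open Matrix Cfsg.Agent.Lib.SL2Basic Cfsg.Agent.Lib.SL2Tori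

/-- Let F be a finite field with q elements, q odd. Then SL₂ over F contains a cyclic subgroup T′ of order q + 1 (a non-split torus) with the following properties: T′ is its own centraliser, and indeed the centraliser of each element of T′ other than 1 and −1 is exactly T′; every element of SL₂ having no eigenvector in F² is conjugate to an element of T′; the normaliser of T′ has order 2(q + 1) and exactly (q + 7)/2 conjugacy classes; and every element of that normaliser outside T′ has square −1. -/
theorem result {F : Type*} [Field F] [Fintype F] (hodd : Odd (Fintype.card F)) :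
    ∃ T' : Subgroup (Matrix.SpecialLinearGroup (Fin 2) F), IsCyclic T' ∧ Nat.card T' = Fintype.card F + 1 ∧
      Subgroup.centralizer ((T' : Set (Matrix.SpecialLinearGroup (Fin 2) F))) = T' ∧
      (∀ g : Matrix.SpecialLinearGroup (Fin 2) F, g ∈ T' → (g : Matrix (Fin 2) (Fin 2) F) ≠ 1 → (g : Matrix (Fin 2) (Fin 2) F) ≠ -1 → Subgroup.centralizer ({g} : Set (Matrix.SpecialLinearGroup (Fin 2) F)) = T') ∧
      (∀ g : Matrix.SpecialLinearGroup (Fin 2) F, (∀ (c : F) (v : Fin 2 → F), v ≠ 0 → (g : Matrix (Fin 2) (Fin 2) F).mulVec v ≠ c • v) → ∃ h : Matrix.SpecialLinearGroup (Fin 2) F, h * g * h⁻¹ ∈ T') ∧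
      Nat.card (Subgroup.normalizer (T' : Set (Matrix.SpecialLinearGroup (Fin 2) F))) = 2 * (Fintype.card F + 1) ∧
      Nat.card (ConjClasses (Subgroup.normalizer (T' : Set (Matrix.SpecialLinearGroup (Fin 2) F)))) = (Fintype.card F + 7) / 2 ∧
      ∀ g : Matrix.SpecialLinearGroup (Fin 2) F, g ∈ Subgroup.normalizer (T' : Set (Matrix.SpecialLinearGroup (Fin 2) F)) → g ∉ T' → ((g * g) : Matrix (Fin 2) (Fin 2) F) = -1 := by
  have h2 := two_ne_zero_of_odd hodd
  obtain ⟨K, _, _, _, hK⟩ := exists_quadratic_ext F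
  let b := Module.finBasisOfFinrankEq F K hK
  have hcard : Nat.card (nsT b) = Fintype.card F + 1 := by
    rw [card_nsT, Nat.card_eq_fintype_card]
  have hcent : ∀ g : Matrix.SpecialLinearGroup (Fin 2) F, g ∈ nsT b →
      (g : Matrix (Fin 2) (Fin 2) F) ≠ 1 → (g : Matrix (Fin 2) (Fin 2) F) ≠ -1 →
      g ∉ Subgroup.center (Matrix.SpecialLinearGroup (Fin 2) F) := by
    intro g _ h1 h3 hg
    rw [mem_center_iff'] at hg
    rcases hg with h | h
    · apply h1; rw [h, Matrix.SpecialLinearGroup.coe_one]
    · apply h3; rw [h, Matrix.SpecialLinearGroup.coe_neg, Matrix.SpecialLinearGroup.coe_one]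
  -- a non-central element
  obtain ⟨A, hA, hAc⟩ : ∃ A ∈ nsT b, A ∉ Subgroup.center (Matrix.SpecialLinearGroup (Fin 2) F) := by
    by_contra hcon
    push Not at hcon
    have hsub : ((nsT b : Subgroup _) : Set (Matrix.SpecialLinearGroup (Fin 2) F)) ⊆ {1, -1} := by
      intro g hg
      rcases (mem_center_iff' g).1 (hcon g hg) with h | h
      · left; exact h
      · right; exact h
    have h3 := Set.ncard_le_ncard hsub
    have h5 := Set.ncard_insert_le (1 : Matrix.SpecialLinearGroup (Fin 2) F) {-1}
    rw [Set.ncard_singleton] at h5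
    have h6 : ((nsT b : Subgroup _) : Set (Matrix.SpecialLinearGroup (Fin 2) F)).ncard =
        Fintype.card F + 1 := by
      rw [← hcard, ← Nat.card_coe_set_eq]; rfl
    have h7 : 1 < Fintype.card F := Fintype.one_lt_card
    omega
  have hCA := centralizer_eq_nsT b hA hAc
  have hroot := no_root_of_mem_nsT b hA hAc
  have h4 := sq_ne_four_of_no_root hroot
  refine ⟨nsT b, isCyclic_nsT b, hcard, ?_, ?_, ?_, ?_, ?_, ?_⟩
  · apply le_antisymm
    · rw [← hCA]
      nth_rewrite 1 [hCA]
      exact Subgroup.centralizer_le (Set.singleton_subset_iff.2 hA)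
    · intro B hB
      rw [Subgroup.mem_centralizer_iff]
      intro C hC
      exact nsT_comm b hC hB
  · intro g hg h1 h3
    exact centralizer_eq_nsT b hg (hcent g hg h1 h3)
  · intro g hg
    exact exists_conj_mem_nsT b (no_root_of_no_eigenvector hg)
  · have := card_normalizer h2 h4
    rw [hCA, hcard] at this
    exact this
  · have := card_conjClasses_normalizer h2 h4
    rw [hCA, hcard] at this
    rw [this]
    omega
  · intro g hgN hgC
    rw [← hCA] at hgN hgC
    have h3 : g * A * g⁻¹ = A⁻¹ := by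
      rcases (mem_normalizer_centralizer_iff h4 g).1 hgN with h | h
      · exfalso
        apply hgC
        rw [Subgroup.mem_centralizer_singleton_iff]
        exact (mul_inv_eq_iff_eq_mul.1 h)
      · exact h
    have h5 := sq_of_inverts h2 h4 h3
    rw [← Matrix.SpecialLinearGroup.coe_mul, h5, Matrix.SpecialLinearGroup.coe_neg,
      Matrix.SpecialLinearGroup.coe_one]

end Cfsg.Agent.S2429
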