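import Cfsg.Statements.S2433
import Cfsg.Agent.Lib.SL2Ind

set_option autoImplicit false
open Cfsg

namespace Cfsg.Agent.S2433

open Cfsg.Agent.Lib.SL2Basic Cfsg.Agent.Lib.SL2Tori Cfsg.Agent.Lib.SL2Int Cfsg.Agent.Lib.SL2Ind

/-- Let F be a finite field with q elements, q odd, α a multiplicative character of F, and R(α) the function on SL₂ induced from the linear character b ↦ α(b₁₁) of the upper triangular subgroup. Then R(α) takes the value α(a) + α(a⁻¹) at a diagonal element with entries a, a⁻¹, a² ≠ 1; the value 0 at every element with no eigenvector in F²; the value α(ε) at an upper triangular element with both diagonal entries ε and non-zero upper right entry; and the value (q + 1)α(ε) at the scalar element ε (ε = ±1). -/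
theorem result {F : Type*} [Field F] [Fintype F] [DecidableEq F] (hodd : Odd (Fintype.card F)) (α : MulChar F ℂ) (g : Matrix.SpecialLinearGroup (Fin 2) F) :
    ((g : Matrix (Fin 2) (Fin 2) F) 0 1 = 0 → (g : Matrix (Fin 2) (Fin 2) F) 1 0 = 0 → (g : Matrix (Fin 2) (Fin 2) F) 0 0 ^ 2 ≠ 1 →
      (Cfsg.indFun ((Cfsg.upperTriangularGL 2 F).comap Matrix.SpecialLinearGroup.toGL) (fun b => α (((b : Matrix.SpecialLinearGroup (Fin 2) F) : Matrix (Fin 2) (Fin 2) F) 0 0))) g = α ((g : Matrix (Fin 2) (Fin 2) F) 0 0) + α ((g : Matrix (Fin 2) (Fin 2) F) 1 1)) ∧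
    ((∀ (c : F) (v : Fin 2 → F), v ≠ 0 → (g : Matrix (Fin 2) (Fin 2) F).mulVec v ≠ c • v) → (Cfsg.indFun ((Cfsg.upperTriangularGL 2 F).comap Matrix.SpecialLinearGroup.toGL) (fun b => α (((b : Matrix.SpecialLinearGroup (Fin 2) F) : Matrix (Fin 2) (Fin 2) F) 0 0))) g = 0) ∧
    ((g : Matrix (Fin 2) (Fin 2) F) 1 0 = 0 → (g : Matrix (Fin 2) (Fin 2) F) 0 0 = (g : Matrix (Fin 2) (Fin 2) F) 1 1 → (g : Matrix (Fin 2) (Fin 2) F) 0 1 ≠ 0 →
      (Cfsg.indFun ((Cfsg.upperTriangularGL 2 F).comap Matrix.SpecialLinearGroup.toGL) (fun b => α (((b : Matrix.SpecialLinearGroup (Fin 2) F) : Matrix (Fin 2) (Fin 2) F) 0 0))) g = α ((g : Matrix (Fin 2) (Fin 2) F) 0 0)) ∧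
    ((g : Matrix (Fin 2) (Fin 2) F) 0 1 = 0 → (g : Matrix (Fin 2) (Fin 2) F) 1 0 = 0 → (g : Matrix (Fin 2) (Fin 2) F) 0 0 = (g : Matrix (Fin 2) (Fin 2) F) 1 1 →
      (Cfsg.indFun ((Cfsg.upperTriangularGL 2 F).comap Matrix.SpecialLinearGroup.toGL) (fun b => α (((b : Matrix.SpecialLinearGroup (Fin 2) F) : Matrix (Fin 2) (Fin 2) F) 0 0))) g = ((Fintype.card F : ℂ) + 1) * α ((g : Matrix (Fin 2) (Fin 2) F) 0 0)) := by
  have hq : (Nat.card F : ℂ) = (Fintype.card F : ℂ) := by rw [Nat.card_eq_fintype_card]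
  refine ⟨?_, ?_, ?_, ?_⟩
  · intro h01 h10 h00
    have hmem : g ∈ (ST : Set (Matrix.SpecialLinearGroup (Fin 2) F)) := by
      refine ⟨h01, h10, fun h => h00 ?_⟩
      have hd := det2 g
      rw [h01, h10, ← h] at hd
      linear_combination hd
    obtain ⟨c, hc, rfl⟩ := exists_dg_of_mem_ST hmem
    exact R_dg α hc
  · intro h
    exact R_ell α (fun c => no_root_of_no_eigenvector h c)
  · intro h10 h00 h01
    exact R_par α ⟨h10, h00, h01⟩
  · intro h01 h10 h00
    rw [← hq]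
    exact R_center α ((mem_center_iff_entries g).2 ⟨h01, h10, h00⟩)

end Cfsg.Agent.S2433
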