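import Cfsg.Statements.S2434
import Cfsg.Agent.Lib.SL2Half

set_option autoImplicit false
open Cfsg

namespace Cfsg.Agent.S2434

open Cfsg.Agent.Lib.SL2Basic Cfsg.Agent.Lib.SL2Tori Cfsg.Agent.Lib.SL2Int Cfsg.Agent.Lib.SL2Ind Cfsg.Agent.Lib.SL2Ortho Cfsg.Agent.Lib.SL2Class Cfsg.Agent.Lib.SL2Vals Cfsg.Agent.Lib.SL2Deg Cfsg.Agent.Lib.LinChar Cfsg.Agent.Lib.CharBasic Cfsg.Agent.Lib.SL2Count Cfsg.Agent.Lib.SL2Half

/-- Let F be a finite field with q elements, q odd, and C a cyclic subgroup of order q + 1 of SL₂ over F (a non-split torus; it contains the centre). For every homomorphism θ from C to the non-zero complex numbers with θ² ≠ 1 there is an irreducible complex character χ of degree q − 1 such that χ(c) = −θ(c) − θ(c)⁻¹ for every non-central c in C, χ(zg) = θ(z)χ(g) for central z in C, χ vanishes at diagonal elements with entry a, a² ≠ 1, and χ takes the value −1 at every upper unitriangular element other than 1. Conversely every irreducible character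 of degree q − 1 has, for some such θ, the values −θ(c) − θ(c)⁻¹ at the non-central elements c of C (for q ≥ 5 these are exactly the cuspidal characters of degree q − 1). -/
theorem result {F : Type*} [Field F] [Fintype F] (hodd : Odd (Fintype.card F))
    (C : Subgroup (Matrix.SpecialLinearGroup (Fin 2) F)) (hC : IsCyclic C) (hcard : Nat.card C = Fintype.card F + 1) :
    (∀ θ : C →* ℂˣ, (∃ c : C, θ c ^ 2 ≠ 1) →
      ∃ χ : Matrix.SpecialLinearGroup (Fin 2) F → ℂ, Cfsg.IsIrrCharacter (Matrix.SpecialLinearGroup (Fin 2) F) χ ∧ χ 1 = (Fintype.card F : ℂ) - 1 ∧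
        (∀ c : C, (c : Matrix.SpecialLinearGroup (Fin 2) F) ∉ Subgroup.center (Matrix.SpecialLinearGroup (Fin 2) F) → χ c = -((θ c).val + (θ c)⁻¹.val)) ∧
        (∀ c : C, (c : Matrix.SpecialLinearGroup (Fin 2) F) ∈ Subgroup.center (Matrix.SpecialLinearGroup (Fin 2) F) → ∀ g : Matrix.SpecialLinearGroup (Fin 2) F, χ ((c : Matrix.SpecialLinearGroup (Fin 2) F) * g) = (θ c).val * χ g) ∧
        (∀ g : Matrix.SpecialLinearGroup (Fin 2) F, (g : Matrix (Fin 2) (Fin 2) F) 0 1 = 0 → (g : Matrix (Fin 2) (Fin 2) F) 1 0 = 0 → (g : Matrix (Fin 2) (Fin 2) F) 0 0 ^ 2 ≠ 1 → χ g = 0) ∧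
        (∀ g : Matrix.SpecialLinearGroup (Fin 2) F, (g : Matrix (Fin 2) (Fin 2) F) 1 0 = 0 → (g : Matrix (Fin 2) (Fin 2) F) 0 0 = 1 → (g : Matrix (Fin 2) (Fin 2) F) 1 1 = 1 → (g : Matrix (Fin 2) (Fin 2) F) 0 1 ≠ 0 → χ g = -1)) ∧
    (∀ χ : Matrix.SpecialLinearGroup (Fin 2) F → ℂ, Cfsg.IsIrrCharacter (Matrix.SpecialLinearGroup (Fin 2) F) χ → χ 1 = (Fintype.card F : ℂ) - 1 →
      ∃ θ : C →* ℂˣ, (∃ c : C, θ c ^ 2 ≠ 1) ∧
        ∀ c : C, (c : Matrix.SpecialLinearGroup (Fin 2) F) ∉ Subgroup.center (Matrix.SpecialLinearGroup (Fin 2) F) → χ c = -((θ c).val + (θ c)⁻¹.val)) := by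
  classical
  have hqn : Nat.card F = Fintype.card F := Nat.card_eq_fintype_card
  have hq' : (Nat.card F : ℂ) = (Fintype.card F : ℂ) := by rw [hqn]
  obtain ⟨A₀, h0, rfl⟩ := exists_eq_centralizer hodd C hC hcard
  have hoddn : Odd (Nat.card F) := by rw [hqn]; exact hodd
  have hval : ∀ (θ : Subgroup.centralizer ({A₀} : Set (Matrix.SpecialLinearGroup (Fin 2) F)) →* ℂˣ)
      (c : Subgroup.centralizer ({A₀} : Set (Matrix.SpecialLinearGroup (Fin 2) F))),
      (c : Matrix.SpecialLinearGroup (Fin 2) F) ∉ Subgroup.center (Matrix.SpecialLinearGroup (Fin 2) F) →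
      cusp θ c = -((θ c).val + (θ c)⁻¹.val) := by
    intro θ c hc
    rw [cusp_SC θ h0 ⟨c.2, hc⟩]
    have h3 := xt_coe θ c⁻¹
    rw [Subgroup.coe_inv, map_inv] at h3
    rw [xt_coe θ c, h3]
  constructor
  · intro θ hθ
    have hθ2 : θ ^ 2 ≠ 1 := by
      intro h
      obtain ⟨c, hc⟩ := hθ
      apply hc
      rw [← MonoidHom.pow_apply, h]; rfl
    have hirr := cusp_isIrr h0 hθ2
    refine ⟨cusp θ, hirr, ?_, hval θ, ?_, ?_, ?_⟩
    · rw [cusp_one θ h0, hq']
    · intro c hc g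
      obtain ⟨μ, hμ⟩ := Cfsg.Agent.Lib.ExtraChar.exists_central_hom hirr
      have h1 := hμ ⟨c, hc⟩ g
      have h2 := hμ ⟨c, hc⟩ 1
      simp only [one_mul] at h1 h2
      rw [cusp_one θ h0, cusp_Zs θ h0 (mem_Zs.2 hc), xt_coe] at h2
      have h3 : (μ ⟨c, hc⟩ : ℂ) = (θ c : ℂ) := by
        apply mul_left_cancel₀ (q_sub_one_ne_zero (F := F))
        linear_combination -h2
      rw [← Subgroup.mem_center_iff.1 hc g, h1, h3]
    · intro g h01 h10 h00
      apply cusp_ST θ h0
      refine ⟨h01, h10, fun h => h00 ?_⟩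
      have hd := det2 g
      rw [h01, h10, ← h] at hd
      linear_combination hd
    · intro g h10 h00 h11 h01
      have hg : g = 1 * uu (((Units.mk0 _ h01 : Fˣ) : F)) := by
        rw [one_mul]
        apply ext2 <;> simp [coe_uu, h10, h00, h11]
      rw [hg, cusp_par θ h0 (by simp [Zs])]
      have := xt_coe θ 1
      rw [Subgroup.coe_one] at this
      rw [this]; simp
  · intro χ hχ hdeg
    obtain ⟨d, hd, hcases⟩ := classify' h0 hχ
    have hdd : d + 1 = Nat.card F := by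
      rw [hd, ← hq'] at hdeg
      have : (d : ℂ) + 1 = Nat.card F := by linear_combination hdeg
      exact_mod_cast this
    obtain ⟨k, hk⟩ := id hoddn
    have h2 : 2 ≤ Nat.card F := two_le_q
    rcases hcases with h | h | h | h | h | h
    · omega
    · omega
    · omega
    · obtain ⟨⟨θ, hθ, rfl⟩, _⟩ := h
      refine ⟨θ, ?_, hval θ⟩
      by_contra hcon
      push Not at hcon
      apply hθ
      apply MonoidHom.ext
      intro c
      rw [MonoidHom.pow_apply, hcon c]; rfl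
    · obtain ⟨⟨α, hα, hα1, hne⟩, _⟩ := h
      have h3 : Nat.card F = 3 := by omega
      -- some θ with θ² ≠ 1
      have hex : ∃ θ : Subgroup.centralizer ({A₀} : Set (Matrix.SpecialLinearGroup (Fin 2) F)) →* ℂˣ,
          θ ^ 2 ≠ 1 := by
        have h5 := card_theta_odd h0 hoddn
        have : Nonempty {θ : Subgroup.centralizer ({A₀} : Set (Matrix.SpecialLinearGroup (Fin 2) F)) →* ℂˣ //
            θ ^ 2 ≠ 1} := by
          apply (Nat.card_pos_iff.1 _).1
          rw [h5]; omega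
        obtain ⟨θ, hθ⟩ := this
        exact ⟨θ, hθ⟩
      obtain ⟨θ, hθ⟩ := hex
      refine ⟨θ, ?_, ?_⟩
      · by_contra hcon
        push Not at hcon
        apply hθ
        apply MonoidHom.ext
        intro c
        rw [MonoidHom.pow_apply, hcon c]; rfl
      · intro c hc
        rw [← hval θ c hc, cusp_vanish_three h3 h0 hθ ⟨c.2, hc⟩]
        exact vanish_SC h0 hχ.isClassFunction (half_ps h0 hχ hα hα1 hne).2.2.1 ⟨c.2, hc⟩
    · omega

end Cfsg.Agent.S2434
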