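import Cfsg.Statements.S2436
import Cfsg.Agent.Lib.H77Mc2
-- import your own Cfsg.Agent.* helpers here

set_option autoImplicit false
open Cfsg

namespace Cfsg.Agent.S2436


/-- Let F be a finite field with q elements, q odd, ℓ any prime and S a Sylow ℓ-subgroup of SL₂ over F with normaliser N. Then SL₂ and N have the same number of irreducible complex characters of degree not divisible by ℓ (the McKay equality holds for SL₂ over F at every prime). -/
theorem result {F : Type*} [Field F] [Fintype F] (hodd : Odd (Fintype.card F)) (ℓ : ℕ) [Fact ℓ.Prime] (S : Sylow ℓ (Matrix.SpecialLinearGroup (Fin 2) F)) :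
    Nat.card {χ : Cfsg.IrrCharacter (Matrix.SpecialLinearGroup (Fin 2) F) // ¬ ℓ ∣ Cfsg.charDegree (χ : Matrix.SpecialLinearGroup (Fin 2) F → ℂ)} =
      Nat.card {ψ : Cfsg.IrrCharacter (Subgroup.normalizer ((S : Subgroup (Matrix.SpecialLinearGroup (Fin 2) F)) : Set (Matrix.SpecialLinearGroup (Fin 2) F))) //
        ¬ ℓ ∣ Cfsg.charDegree (ψ : Subgroup.normalizer ((S : Subgroup (Matrix.SpecialLinearGroup (Fin 2) F)) : Set (Matrix.SpecialLinearGroup (Fin 2) F)) → ℂ)} := by
  exact Cfsg.Agent.Lib.H77Mc2.main hodd ℓ S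

end Cfsg.Agent.S2436
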