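import Cfsg.Statements.S2438
import Cfsg.Agent.Lib.SL2Deg

set_option autoImplicit false
open Cfsg

namespace Cfsg.Agent.S2438

open Cfsg.Agent.Lib.SL2Basic Cfsg.Agent.Lib.SL2Tori Cfsg.Agent.Lib.SL2Int Cfsg.Agent.Lib.SL2Ind Cfsg.Agent.Lib.SL2Ortho Cfsg.Agent.Lib.SL2Class Cfsg.Agent.Lib.SL2Vals Cfsg.Agent.Lib.SL2Deg Cfsg.Agent.Lib.LinChar Cfsg.Agent.Lib.CharBasic

theorem sum_ind {F : Type*} [Field F] [Fintype F] [DecidableEq F] [Fintype (Matrix.SpecialLinearGroup (Fin 2) F)]
    (χ : Matrix.SpecialLinearGroup (Fin 2) F → ℂ) :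
    (∑ g : Matrix.SpecialLinearGroup (Fin 2) F, if (g : Matrix (Fin 2) (Fin 2) F) 1 0 = 0 ∧ (g : Matrix (Fin 2) (Fin 2) F) 0 0 = 1 ∧ (g : Matrix (Fin 2) (Fin 2) F) 1 1 = 1 then χ g else 0) =
      ∑ b : F, χ (uu b) := by
  rw [← Finset.sum_filter]
  symm
  refine Finset.sum_bij (fun b _ => uu b) ?_ ?_ ?_ ?_
  · intro b _
    simp [coe_uu]
  · intro a _ b _ h
    have := congrArg (fun A : Matrix.SpecialLinearGroup (Fin 2) F => (A : Matrix (Fin 2) (Fin 2) F) 0 1) h
    simpa [coe_uu] using this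
  · intro g hg
    simp only [Finset.mem_filter, Finset.mem_univ, true_and] at hg
    refine ⟨(g : Matrix (Fin 2) (Fin 2) F) 0 1, Finset.mem_univ _, ?_⟩
    apply ext2 <;> simp [coe_uu, hg]
  · intro b _; rfl

/-- Let F be a finite field with q elements, q odd, q ≥ 5, U the upper unitriangular subgroup of SL₂ over F, and χ an irreducible complex character. The sum of the values of χ over U equals 2q, q, 0, q, 0 according as the degree of χ is q + 1, q, q − 1, (q + 1)/2, (q − 1)/2; so among these five degrees the sum vanishes exactly for the degrees q − 1 and (q − 1)/2, i.e. the irreducible characters of those two degrees are the ones whose restriction to U does not contain the trivial character (the cuspidal characters), while those of degree q + 1, q and (q + 1)/2 are not cuspidal. -/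
theorem result {F : Type*} [Field F] [Fintype F] [DecidableEq F] (hodd : Odd (Fintype.card F)) (hq : 5 ≤ Fintype.card F)
    (χ : Matrix.SpecialLinearGroup (Fin 2) F → ℂ) (hχ : Cfsg.IsIrrCharacter (Matrix.SpecialLinearGroup (Fin 2) F) χ) :
    (χ 1 = (Fintype.card F : ℂ) + 1 →
      (∑ g : Matrix.SpecialLinearGroup (Fin 2) F, if (g : Matrix (Fin 2) (Fin 2) F) 1 0 = 0 ∧ (g : Matrix (Fin 2) (Fin 2) F) 0 0 = 1 ∧ (g : Matrix (Fin 2) (Fin 2) F) 1 1 = 1 then χ g else 0) = 2 * (Fintype.card F : ℂ)) ∧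
    (χ 1 = (Fintype.card F : ℂ) →
      (∑ g : Matrix.SpecialLinearGroup (Fin 2) F, if (g : Matrix (Fin 2) (Fin 2) F) 1 0 = 0 ∧ (g : Matrix (Fin 2) (Fin 2) F) 0 0 = 1 ∧ (g : Matrix (Fin 2) (Fin 2) F) 1 1 = 1 then χ g else 0) = (Fintype.card F : ℂ)) ∧
    (χ 1 = (Fintype.card F : ℂ) - 1 →
      (∑ g : Matrix.SpecialLinearGroup (Fin 2) F, if (g : Matrix (Fin 2) (Fin 2) F) 1 0 = 0 ∧ (g : Matrix (Fin 2) (Fin 2) F) 0 0 = 1 ∧ (g : Matrix (Fin 2) (Fin 2) F) 1 1 = 1 then χ g else 0) = 0) ∧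
    (χ 1 = (((Fintype.card F + 1) / 2 : ℕ) : ℂ) →
      (∑ g : Matrix.SpecialLinearGroup (Fin 2) F, if (g : Matrix (Fin 2) (Fin 2) F) 1 0 = 0 ∧ (g : Matrix (Fin 2) (Fin 2) F) 0 0 = 1 ∧ (g : Matrix (Fin 2) (Fin 2) F) 1 1 = 1 then χ g else 0) = (Fintype.card F : ℂ)) ∧
    (χ 1 = (((Fintype.card F - 1) / 2 : ℕ) : ℂ) →
      (∑ g : Matrix.SpecialLinearGroup (Fin 2) F, if (g : Matrix (Fin 2) (Fin 2) F) 1 0 = 0 ∧ (g : Matrix (Fin 2) (Fin 2) F) 0 0 = 1 ∧ (g : Matrix (Fin 2) (Fin 2) F) 1 1 = 1 then χ g else 0) = 0) := by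
  have hqn : Nat.card F = Fintype.card F := Nat.card_eq_fintype_card
  have hq' : (Nat.card F : ℂ) = (Fintype.card F : ℂ) := by rw [hqn]
  obtain ⟨k, hk⟩ := hodd
  have : Fintype (MulChar F ℂ) := Fintype.ofFinite _
  rw [sum_ind, sumU_eq hχ.isClassFunction, hq']
  obtain ⟨A₀, h0⟩ := exists_isEll (F := F)
  obtain ⟨d, hd, hcases⟩ := classify' h0 hχ
  have hz : ∀ h : (∀ α : MulChar F ℂ, classInner χ (R α) = 0), ∑ α : MulChar F ℂ, classInner χ (R α) = 0 :=
    fun h => Finset.sum_eq_zero (fun α _ => h α)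
  refine ⟨?_, ?_, ?_, ?_, ?_⟩
  · intro h
    have hdd : d = Nat.card F + 1 := by
      rw [hd, ← hq'] at h
      exact_mod_cast h
    rcases hcases with h | h | h | h | h | h
    · omega
    · omega
    · obtain ⟨⟨α, hα, rfl⟩, _⟩ := h
      rw [sum_inner_R_R]; ring
    · omega
    · omega
    · omega
  · intro h
    have hdd : d = Nat.card F := by
      rw [hd, ← hq'] at h
      exact_mod_cast h
    rcases hcases with h | h | h | h | h | h
    · omega
    · obtain ⟨rfl, _⟩ := h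
      rw [Finset.sum_eq_single_of_mem (1 : MulChar F ℂ) (Finset.mem_univ _)
        (fun β _ hβ => inner_St_R hβ), inner_St_R_one, mul_one]
    · omega
    · omega
    · omega
    · omega
  · intro h
    have hdd : d + 1 = Nat.card F := by
      rw [hd, ← hq'] at h
      have : (d : ℂ) + 1 = Nat.card F := by linear_combination h
      exact_mod_cast this
    rcases hcases with h | h | h | h | h | h
    · omega
    · omega
    · omega
    · obtain ⟨⟨θ, hθ, rfl⟩, _⟩ := h
      rw [hz (fun α => inner_cusp_R h0 θ α), mul_zero]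
    · omega
    · omega
  · intro h
    have hdd : 2 * d = Nat.card F + 1 := by
      rw [hd] at h
      have : d = (Fintype.card F + 1) / 2 := by exact_mod_cast h
      rw [hqn]
      omega
    rcases hcases with h | h | h | h | h | h
    · omega
    · omega
    · omega
    · omega
    · obtain ⟨⟨α, hα, hα1, hne⟩, _⟩ := h
      obtain ⟨h1, _, _, h4⟩ := half_ps h0 hχ hα hα1 hne
      rw [Finset.sum_eq_single_of_mem α (Finset.mem_univ _) (fun β _ hβ => h4 β hβ), h1, mul_one]
    · omega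
  · intro h
    have hdd : 2 * d + 1 = Nat.card F := by
      rw [hd] at h
      have : d = (Fintype.card F - 1) / 2 := by exact_mod_cast h
      rw [hqn]
      omega
    rcases hcases with h | h | h | h | h | h
    · omega
    · omega
    · omega
    · omega
    · omega
    · obtain ⟨⟨θ, hθ, hθ1, hne⟩, _⟩ := h
      rw [hz (half_cusp h0 hχ hθ hθ1 hne).2.2.1, mul_zero]

end Cfsg.Agent.S2438
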