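import Cfsg.Statements.S2439
import Cfsg.Agent.Lib.SLGood
import Cfsg.Agent.Lib.SL2Count

set_option autoImplicit false
open Cfsg

namespace Cfsg.Agent.S2439

open Cfsg.Agent.Lib Cfsg.Agent.Lib.SL2Basic Cfsg.Agent.Lib.SL2Int Cfsg.Agent.Lib.SL2Ind Cfsg.Agent.Lib.SL2Class Cfsg.Agent.Lib.SL2Deg
  Cfsg.Agent.Lib.SL2Count Cfsg.Agent.Lib.CentralBlock Cfsg.Agent.Lib.BlockIdem

section

open Classical

variable {F : Type*} [Field F] [Fintype F] (p : ℕ) [Fact p.Prime] [CharP F p]

local notation "SL2" => Matrix.SpecialLinearGroup (Fin 2) F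

theorem two_ne (hp : p ≠ 2) : (2 : F) ≠ 0 := by
  intro h
  have h1 : ((2 : ℕ) : F) = 0 := by exact_mod_cast h
  rw [CharP.cast_eq_zero_iff F p] at h1
  exact hp ((Nat.prime_dvd_prime_iff_eq Fact.out Nat.prime_two).1 h1)

theorem p_dvd_card : p ∣ Nat.card F := by
  obtain ⟨n, -, hn⟩ := FiniteField.card F p
  rw [Nat.card_eq_fintype_card, hn]
  exact dvd_pow_self p n.ne_zero

theorem not_dvd_of_add {p d m q : ℕ} (hp : p.Prime) (hq : p ∣ q) (h : m * d + 1 = q ∨ m * d = q + 1) : ¬ p ∣ d := by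
  intro hd
  have h1 : p ∣ m * d := hd.mul_left m
  rcases h with h | h
  · have := (Nat.dvd_add_right h1).1 (h ▸ hq)
    exact hp.one_lt.ne' (Nat.dvd_one.1 this)
  · rw [h] at h1
    have := (Nat.dvd_add_right hq).1 h1
    exact hp.one_lt.ne' (Nat.dvd_one.1 this)

theorem fact_card : (Nat.card SL2).factorization p = (Nat.card F).factorization p := by
  have hp : p.Prime := Fact.out
  have hq := p_dvd_card (F := F) p
  have hq1 : 1 < Nat.card F := Finite.one_lt_card
  rw [SL2Int.card_SL2', Nat.factorization_mul (by omega) (by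
    apply Nat.mul_ne_zero <;> omega), Finsupp.add_apply, Nat.factorization_mul (by omega) (by omega), Finsupp.add_apply,
    Nat.factorization_eq_zero_of_not_dvd (n := Nat.card F - 1) (not_dvd_of_add (m := 1) hp hq (Or.inl (by omega))),
    Nat.factorization_eq_zero_of_not_dvd (n := Nat.card F + 1) (not_dvd_of_add (m := 1) hp hq (Or.inr (by omega)))]
  omega

/-- the Steinberg character -/
noncomputable def sigma (F : Type*) [Field F] [Fintype F] : IrrCharacter (Matrix.SpecialLinearGroup (Fin 2) F) := ⟨St, St_isIrr⟩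

theorem defect_zero_iff (χ : IrrCharacter SL2) :
    (charDegree (χ : SL2 → ℂ)).factorization p = (Nat.card SL2).factorization p ↔ χ = sigma F := by
  have hp : p.Prime := Fact.out
  have hq := p_dvd_card (F := F) p
  have hq1 : 1 < Nat.card F := Finite.one_lt_card
  have hpos : 0 < (Nat.card F).factorization p := hp.factorization_pos_of_dvd (by omega) hq
  rw [fact_card]
  constructor
  · intro h
    obtain ⟨A₀, h0⟩ := exists_isEll (F := F)
    obtain ⟨d, hd, hcase⟩ := classify' h0 χ.2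
    have h1 : charDegree (χ : SL2 → ℂ) = d := by
      have h2 := DefectZero.charDegree_eq χ.2.isCharacter
      rw [hd] at h2
      exact_mod_cast h2
    rw [h1] at h
    have hpd : p ∣ d := by
      by_contra hn
      rw [Nat.factorization_eq_zero_of_not_dvd hn] at h
      omega
    rcases hcase with h2 | h2 | h2 | h2 | h2 | h2
    · exfalso
      rw [h2.2] at hpd
      exact hp.one_lt.ne' (Nat.dvd_one.1 hpd)
    · exact Subtype.ext h2.1
    · exact absurd hpd (not_dvd_of_add (m := 1) hp hq (Or.inr (by omega)))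
    · exact absurd hpd (not_dvd_of_add (m := 1) hp hq (Or.inl (by omega)))
    · exact absurd hpd (not_dvd_of_add (m := 2) hp hq (Or.inr (by omega)))
    · exact absurd hpd (not_dvd_of_add (m := 2) hp hq (Or.inl (by omega)))
  · rintro rfl
    have h2 := DefectZero.charDegree_eq (St_isIrr (F := F)).isCharacter
    rw [St_one] at h2
    have h3 : charDegree ((sigma F : IrrCharacter SL2) : SL2 → ℂ) = Nat.card F := by exact_mod_cast h2
    rw [h3]

theorem eq_sigma_iff (χ : IrrCharacter SL2) : (χ : SL2 → ℂ) 1 = (Fintype.card F : ℂ) ↔ χ = sigma F := by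
  rw [← Nat.card_eq_fintype_card]
  constructor
  · intro h
    exact Subtype.ext (eq_St_of_deg χ.2 h)
  · rintro rfl
    exact St_one (F := F)

theorem sigma_center (z : SL2) (hz : z ∈ Subgroup.center SL2) : ((sigma F : IrrCharacter SL2) : SL2 → ℂ) z =
    ((sigma F : IrrCharacter SL2) : SL2 → ℂ) 1 := by
  change (St : SL2 → ℂ) z = (St : SL2 → ℂ) 1
  have hu : IsUnit ((z : Matrix (Fin 2) (Fin 2) F) 0 0) := by
    have h1 := (mem_center_iff_entries z).1 hz
    have hd := det2 z
    rw [h1.1, zero_mul, sub_zero] at hd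
    exact IsUnit.of_mul_eq_one _ hd
  rw [St, Pi.sub_apply, Pi.sub_apply, R_center _ hz, R_one, MulChar.one_apply hu]
  simp

theorem card_center (hp : p ≠ 2) : Nat.card (Subgroup.center SL2) = 2 := by
  refine Eq.trans ?_ (card_Zs_odd (two_ne (F := F) p hp))
  have h : (Subgroup.center SL2 : Set SL2) = ((Zs F : Finset SL2) : Set SL2) := by
    ext g
    rw [Finset.mem_coe, mem_Zs]
    rfl
  have h1 : Nat.card ((Subgroup.center SL2 : Set SL2)) = (Zs F).card := by
    rw [h, Nat.card_coe_set_eq, Set.ncard_coe_finset]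
  exact h1

theorem neg_one_mem : (-1 : SL2) ∈ Subgroup.center SL2 := (mem_center_iff' _).2 (Or.inr rfl)

theorem over_pos {χ : IrrCharacter SL2} {θ : IrrCharacter (Subgroup.center SL2)}
    (h : (θ : Subgroup.center SL2 → ℂ) ⟨-1, neg_one_mem⟩ = 1) : Over χ θ ↔ (χ : SL2 → ℂ) (-1) = (χ : SL2 → ℂ) 1 := by
  have h1 : (θ : Subgroup.center SL2 → ℂ) 1 = 1 := one_of_central (le_refl _) θ
  constructor
  · intro h2
    have := h2 ⟨-1, neg_one_mem⟩
    rw [h, mul_one] at this
    exact this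
  · intro h2 z
    rcases (mem_center_iff' _).1 z.2 with h3 | h3
    · have : z = 1 := Subtype.ext h3
      rw [this, h1, mul_one]; rfl
    · have : z = ⟨-1, neg_one_mem⟩ := Subtype.ext h3
      rw [this, h, mul_one]
      exact h2

theorem over_neg {χ : IrrCharacter SL2} {θ : IrrCharacter (Subgroup.center SL2)}
    (h : (θ : Subgroup.center SL2 → ℂ) ⟨-1, neg_one_mem⟩ = -1) : Over χ θ ↔ (χ : SL2 → ℂ) (-1) = -(χ : SL2 → ℂ) 1 := by
  have h1 : (θ : Subgroup.center SL2 → ℂ) 1 = 1 := one_of_central (le_refl _) θ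
  constructor
  · intro h2
    have := h2 ⟨-1, neg_one_mem⟩
    rw [h, mul_neg, mul_one] at this
    exact this
  · intro h2 z
    rcases (mem_center_iff' _).1 z.2 with h3 | h3
    · have : z = 1 := Subtype.ext h3
      rw [this, h1, mul_one]; rfl
    · have : z = ⟨-1, neg_one_mem⟩ := Subtype.ext h3
      rw [this, h, mul_neg, mul_one]
      exact h2

theorem theta_values (θ : IrrCharacter (Subgroup.center SL2)) :
    (θ : Subgroup.center SL2 → ℂ) ⟨-1, neg_one_mem⟩ = 1 ∨ (θ : Subgroup.center SL2 → ℂ) ⟨-1, neg_one_mem⟩ = -1 := by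
  have h1 : (θ : Subgroup.center SL2 → ℂ) 1 = 1 := one_of_central (le_refl _) θ
  obtain ⟨f, hf⟩ := θ.2.isCharacter.exists_hom h1
  have h2 : ((f ⟨-1, neg_one_mem⟩ : ℂˣ) : ℂ) * ((f ⟨-1, neg_one_mem⟩ : ℂˣ) : ℂ) = 1 := by
    rw [← Units.val_mul, ← map_mul]
    have : (⟨-1, neg_one_mem⟩ : Subgroup.center SL2) * ⟨-1, neg_one_mem⟩ = 1 := by
      apply Subtype.ext
      change (-1 : SL2) * (-1) = 1
      rw [neg_one_mul, neg_neg]
    rw [this, map_one, Units.val_one]
  have h3 := hf ⟨-1, neg_one_mem⟩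
  rw [← h3] at h2
  exact mul_self_eq_one_iff.1 h2

end

/-- Let F be a finite field with q elements of odd characteristic p, and M a maximal ideal of the algebraic integers containing p. Then SL₂ over F has exactly three p-blocks relative to M: the irreducible character of degree q (the Steinberg character) alone; the other irreducible characters taking the same value at −1 as at 1 (the principal block); and the irreducible characters χ with χ(−1) = −χ(1). Every Sylow p-subgroup is a defect group of each of the last two blocks. -/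
theorem result {F : Type*} [Field F] [Fintype F] (p : ℕ) [Fact p.Prime] [CharP F p] (hp : p ≠ 2)
    (M : Ideal Cfsg.AlgInt) (hM : Cfsg.IsPModular p M) :
    (∀ B : Set (Cfsg.IrrCharacter (Matrix.SpecialLinearGroup (Fin 2) F)), Cfsg.IsPBlock M B ↔
      (B = {χ : Cfsg.IrrCharacter (Matrix.SpecialLinearGroup (Fin 2) F) | (χ : Matrix.SpecialLinearGroup (Fin 2) F → ℂ) 1 = (Fintype.card F : ℂ)} ∨
       B = {χ : Cfsg.IrrCharacter (Matrix.SpecialLinearGroup (Fin 2) F) | (χ : Matrix.SpecialLinearGroup (Fin 2) F → ℂ) (-1) = (χ : Matrix.SpecialLinearGroup (Fin 2) F → ℂ) 1 ∧ (χ : Matrix.SpecialLinearGroup (Fin 2) F → ℂ) 1 ≠ (Fintype.card F : ℂ)} ∨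
       B = {χ : Cfsg.IrrCharacter (Matrix.SpecialLinearGroup (Fin 2) F) | (χ : Matrix.SpecialLinearGroup (Fin 2) F → ℂ) (-1) = -(χ : Matrix.SpecialLinearGroup (Fin 2) F → ℂ) 1})) ∧
    Nat.card {B : Set (Cfsg.IrrCharacter (Matrix.SpecialLinearGroup (Fin 2) F)) // Cfsg.IsPBlock M B} = 3 ∧
    ∀ P : Sylow p (Matrix.SpecialLinearGroup (Fin 2) F),
      Cfsg.IsDefectGroup p M {χ : Cfsg.IrrCharacter (Matrix.SpecialLinearGroup (Fin 2) F) | (χ : Matrix.SpecialLinearGroup (Fin 2) F → ℂ) (-1) = (χ : Matrix.SpecialLinearGroup (Fin 2) F → ℂ) 1 ∧ (χ : Matrix.SpecialLinearGroup (Fin 2) F → ℂ) 1 ≠ (Fintype.card F : ℂ)} (P : Subgroup (Matrix.SpecialLinearGroup (Fin 2) F)) ∧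
      Cfsg.IsDefectGroup p M {χ : Cfsg.IrrCharacter (Matrix.SpecialLinearGroup (Fin 2) F) | (χ : Matrix.SpecialLinearGroup (Fin 2) F → ℂ) (-1) = -(χ : Matrix.SpecialLinearGroup (Fin 2) F → ℂ) 1} (P : Subgroup (Matrix.SpecialLinearGroup (Fin 2) F)) := by
  classical
  have hpp : p.Prime := Fact.out
  have hcc := card_center (F := F) p hp
  have hZp : ¬ p ∣ Nat.card (Subgroup.center (Matrix.SpecialLinearGroup (Fin 2) F)) := by
    rw [hcc]
    intro h
    exact hp ((Nat.prime_dvd_prime_iff_eq hpp Nat.prime_two).1 h)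
  have hgood := fun u hu => SLGood.exists_goodZ (F := F) (n := 2) (by norm_num) p u hu
  have hpG : p ∣ Nat.card (Matrix.SpecialLinearGroup (Fin 2) F) := by
    rw [SL2Int.card_SL2']
    exact (p_dvd_card (F := F) p).mul_right _
  have hσ := defect_zero_iff (F := F) p
  have hσZ := sigma_center (F := F)
  have hiff := isPBlock_iff hM (le_refl _) hZp hgood hpG (sigma F) hσ hσZ
  have hover := block_over hM (le_refl _) hZp hgood hpG (sigma F) hσ hσZ
  have hS1 : {χ : Cfsg.IrrCharacter (Matrix.SpecialLinearGroup (Fin 2) F) | (χ : Matrix.SpecialLinearGroup (Fin 2) F → ℂ) 1 = (Fintype.card F : ℂ)} =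
      {sigma F} := by
    ext χ
    exact eq_sigma_iff χ
  have hpos : ∀ θ : IrrCharacter (Subgroup.center (Matrix.SpecialLinearGroup (Fin 2) F)),
      (θ : Subgroup.center (Matrix.SpecialLinearGroup (Fin 2) F) → ℂ) ⟨-1, neg_one_mem⟩ = 1 →
      {χ : IrrCharacter (Matrix.SpecialLinearGroup (Fin 2) F) | Over χ θ ∧ χ ≠ sigma F} =
      {χ : Cfsg.IrrCharacter (Matrix.SpecialLinearGroup (Fin 2) F) | (χ : Matrix.SpecialLinearGroup (Fin 2) F → ℂ) (-1) = (χ : Matrix.SpecialLinearGroup (Fin 2) F → ℂ) 1 ∧ (χ : Matrix.SpecialLinearGroup (Fin 2) F → ℂ) 1 ≠ (Fintype.card F : ℂ)} := by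
    intro θ hθ
    ext χ
    exact and_congr (over_pos hθ) (not_congr (eq_sigma_iff χ)).symm
  have hneg : ∀ θ : IrrCharacter (Subgroup.center (Matrix.SpecialLinearGroup (Fin 2) F)),
      (θ : Subgroup.center (Matrix.SpecialLinearGroup (Fin 2) F) → ℂ) ⟨-1, neg_one_mem⟩ = -1 →
      {χ : IrrCharacter (Matrix.SpecialLinearGroup (Fin 2) F) | Over χ θ ∧ χ ≠ sigma F} =
      {χ : Cfsg.IrrCharacter (Matrix.SpecialLinearGroup (Fin 2) F) | (χ : Matrix.SpecialLinearGroup (Fin 2) F → ℂ) (-1) = -(χ : Matrix.SpecialLinearGroup (Fin 2) F → ℂ) 1} := by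
    intro θ hθ
    ext χ
    constructor
    · rintro ⟨h1, _⟩
      exact (over_neg hθ).1 h1
    · intro h1
      refine ⟨(over_neg hθ).2 h1, ?_⟩
      rintro rfl
      have h2 := sigma_center (-1 : Matrix.SpecialLinearGroup (Fin 2) F) neg_one_mem
      have h3 : ((sigma F : IrrCharacter (Matrix.SpecialLinearGroup (Fin 2) F)) : Matrix.SpecialLinearGroup (Fin 2) F → ℂ) (-1) =
        -((sigma F : IrrCharacter (Matrix.SpecialLinearGroup (Fin 2) F)) : Matrix.SpecialLinearGroup (Fin 2) F → ℂ) 1 := h1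
      have h4 := (sigma F).2.one_ne_zero
      rw [h2] at h3
      apply h4
      have h5 : (2 : ℂ) * ((sigma F : IrrCharacter (Matrix.SpecialLinearGroup (Fin 2) F)) : Matrix.SpecialLinearGroup (Fin 2) F → ℂ) 1 = 0 := by
        linear_combination h3
      exact (mul_eq_zero.1 h5).resolve_left two_ne_zero
  obtain ⟨θ₁, hθ₁⟩ : ∃ θ : IrrCharacter (Subgroup.center (Matrix.SpecialLinearGroup (Fin 2) F)),
      (θ : Subgroup.center (Matrix.SpecialLinearGroup (Fin 2) F) → ℂ) ⟨-1, neg_one_mem⟩ = 1 :=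
    ⟨⟨fun _ => 1, CharBasic.isIrrCharacter_one⟩, rfl⟩
  obtain ⟨θ₂, hθ₂⟩ : ∃ θ : IrrCharacter (Subgroup.center (Matrix.SpecialLinearGroup (Fin 2) F)),
      (θ : Subgroup.center (Matrix.SpecialLinearGroup (Fin 2) F) → ℂ) ⟨-1, neg_one_mem⟩ = -1 := by
    by_contra hcon
    push Not at hcon
    have h1 : ∀ θ : IrrCharacter (Subgroup.center (Matrix.SpecialLinearGroup (Fin 2) F)),
        (θ : Subgroup.center (Matrix.SpecialLinearGroup (Fin 2) F) → ℂ) ⟨-1, neg_one_mem⟩ =
        (θ : Subgroup.center (Matrix.SpecialLinearGroup (Fin 2) F) → ℂ) 1 := by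
      intro θ
      rw [(theta_values θ).resolve_right (hcon θ), one_of_central (le_refl _)]
    have h2 := (CharBasic.isConj_iff_forall_irr _ _).2 h1
    rw [isConj_iff] at h2
    obtain ⟨c, hc⟩ := h2
    have h3 : (⟨-1, neg_one_mem⟩ : Subgroup.center (Matrix.SpecialLinearGroup (Fin 2) F)) = 1 :=
      mul_eq_left.1 (mul_inv_eq_one.1 hc)
    have h5 : (-1 : Matrix.SpecialLinearGroup (Fin 2) F) = 1 := congrArg Subtype.val h3
    have h6 := congrArg (fun A : Matrix.SpecialLinearGroup (Fin 2) F => (A : Matrix (Fin 2) (Fin 2) F) 0 0) h5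
    simp at h6
    apply two_ne (F := F) p hp
    linear_combination -h6
  refine ⟨?_, ?_, ?_⟩
  · intro B
    rw [hiff B, hS1]
    constructor
    · rintro (h | ⟨θ, h⟩)
      · exact Or.inl h
      · rcases theta_values θ with h1 | h1
        · exact Or.inr (Or.inl (h.trans (hpos θ h1)))
        · exact Or.inr (Or.inr (h.trans (hneg θ h1)))
    · rintro (h | h | h)
      · exact Or.inl h
      · exact Or.inr ⟨θ₁, h.trans (hpos θ₁ hθ₁).symm⟩
      · exact Or.inr ⟨θ₂, h.trans (hneg θ₂ hθ₂).symm⟩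
  · rw [card_blocks hM (le_refl _) hZp hgood hpG (sigma F) hσ hσZ, hcc]
  · intro P
    rw [← hpos θ₁ hθ₁, ← hneg θ₂ hθ₂]
    exact ⟨(blockDefect_full hM (le_refl _) hZp hgood (hover θ₁).1 (hover θ₁).2).2 P,
      (blockDefect_full hM (le_refl _) hZp hgood (hover θ₂).1 (hover θ₂).2).2 P⟩

end Cfsg.Agent.S2439
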