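import Cfsg.Statements.S2500
import Cfsg.Agent.Lib.CovB67
import Cfsg.Agent.Lib.CovC67
import Cfsg.Agent.Lib.CovG67
import Cfsg.Agent.Lib.CovK67
import Cfsg.Agent.Lib.CovU3
import Cfsg.Agent.Lib.CovU4

set_option autoImplicit false
open Cfsg

namespace Cfsg.Agent.S2500

/-- The infinite families of simple groups with normal covering number 2. For a finite field F: each of PSL_2(F) (|F| ≥ 4), PSL_3(F), PSL_4(F), PSU_4 over F (|F| = q²), PSU_3 over F when |F| = q² with q a power of 3, PSp_{2m}(F) for |F| even, m ≥ 2 and (m, |F|) ≠ (2, 2), PSp_6(F) for |F| a power of 3, and G_2(F) (automorphisms of the split octonions) for |F| = 2^a ≥ 4 is the union of the conjugates of two proper subgroups: there are proper subgroups H, K such that every element is conjugate into H or into K. -/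
theorem result {F : Type} [Field F] [Fintype F] :
    (4 ≤ Fintype.card F → (∃ H K : Subgroup (Matrix.ProjectiveSpecialLinearGroup (Fin 2) F), H ≠ ⊤ ∧ K ≠ ⊤ ∧ ∀ g : (Matrix.ProjectiveSpecialLinearGroup (Fin 2) F), ∃ x : (Matrix.ProjectiveSpecialLinearGroup (Fin 2) F), x * g * x⁻¹ ∈ H ∨ x * g * x⁻¹ ∈ K)) ∧
    (∃ H K : Subgroup (Matrix.ProjectiveSpecialLinearGroup (Fin 3) F), H ≠ ⊤ ∧ K ≠ ⊤ ∧ ∀ g : (Matrix.ProjectiveSpecialLinearGroup (Fin 3) F), ∃ x : (Matrix.ProjectiveSpecialLinearGroup (Fin 3) F), x * g * x⁻¹ ∈ H ∨ x * g * x⁻¹ ∈ K) ∧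
    (∃ H K : Subgroup (Matrix.ProjectiveSpecialLinearGroup (Fin 4) F), H ≠ ⊤ ∧ K ≠ ⊤ ∧ ∀ g : (Matrix.ProjectiveSpecialLinearGroup (Fin 4) F), ∃ x : (Matrix.ProjectiveSpecialLinearGroup (Fin 4) F), x * g * x⁻¹ ∈ H ∨ x * g * x⁻¹ ∈ K) ∧
    (∀ q : ℕ, Fintype.card F = q ^ 2 → (∃ H K : Subgroup (Cfsg.PSU 4 F q), H ≠ ⊤ ∧ K ≠ ⊤ ∧ ∀ g : (Cfsg.PSU 4 F q), ∃ x : (Cfsg.PSU 4 F q), x * g * x⁻¹ ∈ H ∨ x * g * x⁻¹ ∈ K)) ∧
    (∀ q a : ℕ, Fintype.card F = q ^ 2 → 1 ≤ a → q = 3 ^ a → (∃ H K : Subgroup (Cfsg.PSU 3 F q), H ≠ ⊤ ∧ K ≠ ⊤ ∧ ∀ g : (Cfsg.PSU 3 F q), ∃ x : (Cfsg.PSU 3 F q), x * g * x⁻¹ ∈ H ∨ x * g * x⁻¹ ∈ K)) ∧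
    (∀ m : ℕ, 2 ≤ m → ¬ Odd (Fintype.card F) → ¬ (m = 2 ∧ Fintype.card F = 2) → (∃ H K : Subgroup (Cfsg.PSp m F), H ≠ ⊤ ∧ K ≠ ⊤ ∧ ∀ g : (Cfsg.PSp m F), ∃ x : (Cfsg.PSp m F), x * g * x⁻¹ ∈ H ∨ x * g * x⁻¹ ∈ K)) ∧
    (∀ a : ℕ, 1 ≤ a → Fintype.card F = 3 ^ a → (∃ H K : Subgroup (Cfsg.PSp 3 F), H ≠ ⊤ ∧ K ≠ ⊤ ∧ ∀ g : (Cfsg.PSp 3 F), ∃ x : (Cfsg.PSp 3 F), x * g * x⁻¹ ∈ H ∨ x * g * x⁻¹ ∈ K)) ∧
    (∀ a : ℕ, 2 ≤ a → Fintype.card F = 2 ^ a → (∃ H K : Subgroup (Cfsg.Lie.G2 F), H ≠ ⊤ ∧ K ≠ ⊤ ∧ ∀ g : (Cfsg.Lie.G2 F), ∃ x : (Cfsg.Lie.G2 F), x * g * x⁻¹ ∈ H ∨ x * g * x⁻¹ ∈ K)) := by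
  refine ⟨fun _ => Cfsg.Agent.Lib.Cov67.cov_psl2 F, Cfsg.Agent.Lib.Cov67.cov_psl3 F, Cfsg.Agent.Lib.Cov67.cov_psl4 F,
    fun q hq => Cfsg.Agent.Lib.CovU4.psu4 q hq, fun q a hq ha h3 => Cfsg.Agent.Lib.CovU3.psu3 q a hq ha h3, ?_, ?_, ?_⟩
  · intro m hm hodd _
    refine Cfsg.Agent.Lib.Cov67.cov_psp_even (F := F) ?_ m hm
    obtain ⟨p, hp⟩ := CharP.exists F
    have hpp : Fact p.Prime := ⟨CharP.char_is_prime F p⟩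
    obtain ⟨n, hpr, hn⟩ := FiniteField.card F p
    rcases hpr.eq_two_or_odd' with rfl | h
    · exact_mod_cast CharP.cast_eq_zero F 2
    · exact absurd (by rw [hn]; exact h.pow) hodd
  · intro a ha h3
    refine Cfsg.Agent.Lib.CovH67.cov6 (F := F) ?_
    obtain ⟨p, hp⟩ := CharP.exists F
    have hpp : Fact p.Prime := ⟨CharP.char_is_prime F p⟩
    obtain ⟨n, hpr, hn⟩ := FiniteField.card F p
    have h4 : p = 3 := by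
      have h5 : p ∣ 3 ^ a := by rw [← h3, hn]; exact dvd_pow_self p n.ne_zero
      exact (Nat.prime_dvd_prime_iff_eq hpr Nat.prime_three).1 (hpr.dvd_of_dvd_pow h5)
    subst h4
    exact_mod_cast CharP.cast_eq_zero F 3
  · intro a ha h2
    refine Cfsg.Agent.Lib.CovG67.cov_G2 (F := F) ?_
    obtain ⟨p, hp⟩ := CharP.exists F
    have hpp : Fact p.Prime := ⟨CharP.char_is_prime F p⟩
    obtain ⟨n, hpr, hn⟩ := FiniteField.card F p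
    have h4 : p = 2 := by
      have h5 : p ∣ 2 ^ a := by rw [← h2, hn]; exact dvd_pow_self p n.ne_zero
      exact (Nat.prime_dvd_prime_iff_eq hpr Nat.prime_two).1 (hpr.dvd_of_dvd_pow h5)
    subst h4
    exact_mod_cast CharP.cast_eq_zero F 2

end Cfsg.Agent.S2500
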