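import Cfsg.Statements.S2531

set_option autoImplicit false
open Cfsg

namespace Cfsg.Agent.S2531

open Module LinearMap

section
variable {F : Type*} [Field F] [Finite F] {V : Type*} [AddCommGroup V] [Module F V] [FiniteDimensional F V]

/-- points with `φ = 0`, `ψ ≠ 0` correspond to vectors with `φ = 0`, `ψ = 1` -/
noncomputable def ptsEquiv (φ ψ : V →ₗ[F] F) :
    {b : Projectivization F V // φ b.rep = 0 ∧ ψ b.rep ≠ 0} ≃ {v : V // φ v = 0 ∧ ψ v = 1} where
  toFun b := ⟨(ψ b.1.rep)⁻¹ • b.1.rep, by
    refine ⟨by rw [map_smul, b.2.1, smul_zero], ?_⟩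
    rw [map_smul, smul_eq_mul, inv_mul_cancel₀ b.2.2]⟩
  invFun v := ⟨Projectivization.mk F v.1 (by
      intro h; have := v.2.2; rw [h, map_zero] at this; exact zero_ne_one this), by
    have hv : v.1 ≠ 0 := by
      intro h; have := v.2.2; rw [h, map_zero] at this; exact zero_ne_one this
    obtain ⟨a, ha⟩ := Projectivization.exists_smul_eq_mk_rep F v.1 hv
    rw [← ha]
    refine ⟨?_, ?_⟩
    · rw [Units.smul_def, map_smul, v.2.1, smul_zero]
    · rw [Units.smul_def, map_smul, v.2.2, smul_eq_mul, mul_one]; exact a.ne_zero⟩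
  left_inv b := by
    apply Subtype.ext
    show Projectivization.mk F ((ψ b.1.rep)⁻¹ • b.1.rep) _ = b.1
    conv_rhs => rw [← b.1.mk_rep]
    rw [Projectivization.mk_eq_mk_iff']
    exact ⟨(ψ b.1.rep)⁻¹, rfl⟩
  right_inv v := by
    apply Subtype.ext
    have hv : v.1 ≠ 0 := by
      intro h; have := v.2.2; rw [h, map_zero] at this; exact zero_ne_one this
    show (ψ (Projectivization.mk F v.1 hv).rep)⁻¹ • (Projectivization.mk F v.1 hv).rep = v.1
    obtain ⟨a, ha⟩ := Projectivization.exists_smul_eq_mk_rep F v.1 hv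
    rw [← ha, Units.smul_def, map_smul, v.2.2, smul_eq_mul, mul_one, smul_smul, inv_mul_cancel₀ a.ne_zero, one_smul]

theorem dvd_card_pts (hV : 3 ≤ finrank F V) (φ ψ : V →ₗ[F] F) :
    Nat.card F ∣ Nat.card {b : Projectivization F V // φ b.rep = 0 ∧ ψ b.rep ≠ 0} := by
  classical
  have : Finite V := Module.finite_of_finite F
  rw [Nat.card_congr (ptsEquiv φ ψ)]
  by_cases hne : Nonempty {v : V // φ v = 0 ∧ ψ v = 1}
  · obtain ⟨v0⟩ := hne
    let K : Submodule F V := LinearMap.ker (φ.prod ψ)
    have e : {v : V // φ v = 0 ∧ ψ v = 1} ≃ K :=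
      { toFun := fun v => ⟨v.1 - v0.1, by
          show (φ.prod ψ) (v.1 - v0.1) = 0
          rw [LinearMap.prod_apply]
          ext
          · simp [v.2.1, v0.2.1]
          · simp [v.2.2, v0.2.2]⟩
        invFun := fun k => ⟨k.1 + v0.1, by
          have hk : (φ.prod ψ) k.1 = 0 := k.2
          rw [LinearMap.prod_apply] at hk
          have h1 : φ k.1 = 0 := congrArg Prod.fst hk
          have h2 : ψ k.1 = 0 := congrArg Prod.snd hk
          simp [h1, h2, v0.2.1, v0.2.2]⟩
        left_inv := fun v => by simp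
        right_inv := fun k => by simp }
    rw [Nat.card_congr e, Module.natCard_eq_pow_finrank (K := F) (V := K)]
    have hK : K ≠ ⊥ := by
      apply LinearMap.ker_ne_bot_of_finrank_lt
      rw [Module.finrank_prod, Module.finrank_self]; omega
    have : finrank F K ≠ 0 := by
      rw [Ne, Submodule.finrank_eq_zero]; exact hK
    exact dvd_pow_self (Nat.card F) this
  · have : IsEmpty {v : V // φ v = 0 ∧ ψ v = 1} := not_nonempty_iff.mp hne
    have h0 : Nat.card {v : V // φ v = 0 ∧ ψ v = 1} = 0 := Nat.card_of_isEmpty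
    rw [h0]
    exact dvd_zero _

end

/-- Let `F` be a finite field and `n ≥ 3`. No set of permutations of the points of the projective space of `Fⁿ`, each induced by an invertible semilinear transformation of `Fⁿ` (so a subset of the full projective semilinear group), is sharply 2-transitive on the points: it is impossible that for all pairs of distinct points `(a, b)` and `(c, d)` exactly one member of the set sends `a` to `c` and `b` to `d`. -/
theorem result {F : Type*} [Field F] [Finite F]
    (n : ℕ) (hn : 3 ≤ n) (S : Set (Equiv.Perm (Projectivization F (Fin n → F))))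
    (hS : ∀ s ∈ S, ∃ (σ : F ≃+* F) (f : (Fin n → F) →ₛₗ[(σ : F →+* F)] (Fin n → F)) (hf : Function.Injective f),
      ∀ x, s x = Projectivization.map f hf x) :
    ¬ (∀ a b c d : Projectivization F (Fin n → F), a ≠ b → c ≠ d →
        ∃! s, s ∈ S ∧ s a = c ∧ s b = d) := by
  classical
  intro h
  have hfr : finrank F (Fin n → F) = n := by simp
  have : Finite (Projectivization F (Fin n → F)) := inferInstance
  let i0 : Fin n := ⟨0, by omega⟩
  let φ : (Fin n → F) →ₗ[F] F := LinearMap.proj i0
  have hv0 : (Pi.single i0 1 : Fin n → F) ≠ 0 := by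
    intro h0
    have := congrFun h0 i0
    simp at this
  let a : Projectivization F (Fin n → F) := Projectivization.mk F (Pi.single i0 1) hv0
  have haφ : φ a.rep ≠ 0 := by
    obtain ⟨u, hu⟩ := Projectivization.exists_smul_eq_mk_rep F (Pi.single i0 1 : Fin n → F) hv0
    show φ (Projectivization.mk F (Pi.single i0 1) hv0).rep ≠ 0
    rw [← hu, Units.smul_def, map_smul]
    simp [φ]
  let X := {b : Projectivization F (Fin n → F) // φ b.rep = 0}
  let Y := {d : Projectivization F (Fin n → F) // d ≠ a ∧ φ d.rep ≠ 0}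
  let A := {s : Equiv.Perm (Projectivization F (Fin n → F)) // s ∈ S ∧ s a = a}
  have hXa : ∀ b : X, a ≠ b.1 := by
    intro b hab
    exact haφ (hab ▸ b.2)
  have e : X × Y ≃ Σ s : A, {b : X // (s.1 b.1) ≠ a ∧ φ (s.1 b.1).rep ≠ 0} :=
    { toFun := fun bd =>
        let H := h a bd.1.1 a bd.2.1 (hXa bd.1) (bd.2.2.1.symm)
        ⟨⟨Classical.choose H, ⟨(Classical.choose_spec H).1.1, (Classical.choose_spec H).1.2.1⟩⟩, ⟨bd.1, by
          show (Classical.choose H) bd.1.1 ≠ a ∧ φ ((Classical.choose H) bd.1.1).rep ≠ 0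
          rw [(Classical.choose_spec H).1.2.2]; exact bd.2.2⟩⟩
      invFun := fun sb => ⟨sb.2.1, ⟨sb.1.1 sb.2.1.1, sb.2.2⟩⟩
      left_inv := fun bd => by
        let H := h a bd.1.1 a bd.2.1 (hXa bd.1) (bd.2.2.1.symm)
        apply Prod.ext
        · rfl
        · apply Subtype.ext
          exact (Classical.choose_spec H).1.2.2
      right_inv := fun sb => by
        obtain ⟨⟨s, hs⟩, ⟨b, hb⟩⟩ := sb
        have H := h a b.1 a (s b.1) (hXa b) (hb.1.symm)
        have hs' : Classical.choose H = s := by
          symm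
          exact (Classical.choose_spec H).2 s ⟨hs.1, hs.2, rfl⟩
        have hpi : (⟨Classical.choose H, ⟨(Classical.choose_spec H).1.1, (Classical.choose_spec H).1.2.1⟩⟩ : A) = ⟨s, hs⟩ :=
          Subtype.ext hs'
        refine Sigma.ext hpi ?_
        refine (Subtype.heq_iff_coe_eq ?_).mpr rfl
        intro x
        show ((Classical.choose H) x.1 ≠ a ∧ φ ((Classical.choose H) x.1).rep ≠ 0) ↔ (s x.1 ≠ a ∧ φ (s x.1).rep ≠ 0)
        rw [hs'] }
  have : Finite A := inferInstance
  obtain ⟨p, hp, hpq⟩ := Nat.exists_prime_and_dvd (n := Nat.card F) (by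
    have := Finite.one_lt_card (α := F); omega)
  have hcard : Nat.card X * Nat.card Y = Nat.card (Σ s : A, {b : X // (s.1 b.1) ≠ a ∧ φ (s.1 b.1).rep ≠ 0}) := by
    rw [← Nat.card_prod, Nat.card_congr e]
  have := Fintype.ofFinite A
  rw [Nat.card_sigma] at hcard
  have hdvd : p ∣ Nat.card X * Nat.card Y := by
    rw [hcard]
    apply Finset.dvd_sum
    rintro ⟨s, hsS, hsa⟩ -
    apply hpq.trans
    obtain ⟨σ, f, hf, hsf⟩ := hS s hsS
    let ψ : (Fin n → F) →ₗ[F] F :=
      { toFun := fun v => σ.symm (φ (f v))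
        map_add' := fun v w => by simp
        map_smul' := fun c v => by
          simp [LinearMap.map_smulₛₗ] }
    have := dvd_card_pts (F := F) (V := Fin n → F) (by omega) φ ψ
    refine this.trans (dvd_of_eq ?_)
    have key : ∀ b : Projectivization F (Fin n → F), φ (s b).rep ≠ 0 ↔ ψ b.rep ≠ 0 := by
      intro b
      rw [hsf b]
      conv_lhs => rw [← b.mk_rep]
      rw [Projectivization.map_mk]
      obtain ⟨u, hu⟩ := Projectivization.exists_smul_eq_mk_rep F (f b.rep) (by
        intro h0; exact b.rep_nonzero (hf (by rw [h0, map_zero])))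
      rw [← hu, Units.smul_def, map_smul]
      show (u : F) • φ (f b.rep) ≠ 0 ↔ σ.symm (φ (f b.rep)) ≠ 0
      simp
    symm
    apply Nat.card_congr
    refine (Equiv.subtypeSubtypeEquivSubtypeInter (fun b : Projectivization F (Fin n → F) => φ b.rep = 0)
      (fun b => (s b) ≠ a ∧ φ (s b).rep ≠ 0)).trans ?_
    apply Equiv.subtypeEquivRight
    intro b
    constructor
    · rintro ⟨h1, h2, h3⟩
      exact ⟨h1, (key b).mp h3⟩
    · rintro ⟨h1, h2⟩
      refine ⟨h1, ?_, (key b).mpr h2⟩
      intro h3
      have : b = a := s.injective (h3.trans hsa.symm)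
      exact haφ (this ▸ h1)
  -- count Y
  have hY : Nat.card Y + 1 = Nat.card {b : Projectivization F (Fin n → F) // (0 : (Fin n → F) →ₗ[F] F) b.rep = 0 ∧ φ b.rep ≠ 0} := by
    have e1 : {b : Projectivization F (Fin n → F) // (0 : (Fin n → F) →ₗ[F] F) b.rep = 0 ∧ φ b.rep ≠ 0} ≃ Option Y :=
      { toFun := fun b => if hb : b.1 = a then none else some ⟨b.1, hb, b.2.2⟩
        invFun := fun o => match o with
          | none => ⟨a, by simp, haφ⟩
          | some y => ⟨y.1, by simp, y.2.2⟩
        left_inv := fun b => by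
          by_cases hb : b.1 = a
          · simp only [hb, dite_true]; exact Subtype.ext hb.symm
          · simp only [hb, dite_false]
        right_inv := fun o => by
          cases o with
          | none => simp
          | some y => simp [y.2.1] }
    rw [Nat.card_congr e1, Finite.card_option]
  have hY' : p ∣ Nat.card Y + 1 := by
    rw [hY]; exact hpq.trans (dvd_card_pts (by omega) 0 φ)
  rcases hp.dvd_mul.mp hdvd with h1 | h1
  · -- count all
    have hall : Nat.card (Projectivization F (Fin n → F)) = Nat.card X + (Nat.card Y + 1) := by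
      rw [hY]
      have e2 : Projectivization F (Fin n → F) ≃ X ⊕ {b : Projectivization F (Fin n → F) // ¬ φ b.rep = 0} :=
        (Equiv.sumCompl (fun b : Projectivization F (Fin n → F) => φ b.rep = 0)).symm
      rw [Nat.card_congr e2, Nat.card_sum]
      congr 1
      apply Nat.card_congr
      apply Equiv.subtypeEquivRight
      intro b
      simp
    have h2 : p ∣ Nat.card (Projectivization F (Fin n → F)) := by
      rw [hall]; exact dvd_add h1 hY'
    have h3 := Projectivization.card' (k := F) (V := Fin n → F)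
    have h4 : p ∣ Nat.card (Fin n → F) := by
      rw [Nat.card_fun]
      exact dvd_pow hpq (by simp; omega)
    rw [h3] at h4
    have h5 : p ∣ 1 := (Nat.dvd_add_right (h2.mul_right _)).mp h4
    exact hp.one_lt.ne' (Nat.dvd_one.mp h5)
  · have h5 : p ∣ 1 := (Nat.dvd_add_right h1).mp hY'
    exact hp.one_lt.ne' (Nat.dvd_one.mp h5)

end Cfsg.Agent.S2531
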