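import Cfsg.Statements.S2532

set_option autoImplicit false
open Cfsg

namespace Cfsg.Agent.S2532

open MulAction

/-- points with the same stabiliser in distinct orbits -/
theorem exists_points {m r : ℕ} {H : Type*} [Group H] [Finite H] [MulAction H (Fin m)] (h : 2 ^ Nat.card H * (r * Nat.card H) < m) :
    ∃ (x : Fin r → Fin m) (K : Subgroup H), (∀ i, stabilizer H (x i) = K) ∧
      ∀ i j, x j ∈ orbit H (x i) → i = j := by
  classical
  have := Fintype.ofFinite H
  let st : Fin m → Set H := fun x => (stabilizer H x : Set H)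
  have hcard : Fintype.card (Set H) = 2 ^ Nat.card H := by
    rw [Fintype.card_set, Nat.card_eq_fintype_card]
  obtain ⟨y, hy⟩ := Fintype.exists_lt_card_fiber_of_mul_lt_card st (n := r * Nat.card H) (by
    rw [hcard, Fintype.card_fin]; exact h)
  set S : Finset (Fin m) := Finset.univ.filter (fun x => st x = y) with hS
  let π : Fin m → Quotient (orbitRel H (Fin m)) := fun x => Quotient.mk _ x
  have hfib : ∀ b ∈ S.image π, (S.filter (fun a => π a = b)).card ≤ Nat.card H := by
    intro b _
    obtain ⟨x₀, rfl⟩ := Quotient.exists_rep b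
    have hsub : (S.filter (fun a => π a = Quotient.mk _ x₀)) ⊆ Finset.univ.image (fun g : H => g • x₀) := by
      intro a ha
      rw [Finset.mem_filter] at ha
      have h1 := Quotient.exact ha.2
      change a ∈ orbit H x₀ at h1
      obtain ⟨g, hg⟩ := h1
      rw [Finset.mem_image]
      exact ⟨g, Finset.mem_univ _, hg⟩
    refine (Finset.card_le_card hsub).trans (Finset.card_image_le.trans ?_)
    rw [Finset.card_univ, Nat.card_eq_fintype_card]
  have h1 := Finset.card_le_mul_card_image (f := π) S (Nat.card H) hfib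
  have hHpos : 0 < Nat.card H := Nat.card_pos
  have h2 : r < (S.image π).card := by
    have h3 : r * Nat.card H < Nat.card H * (S.image π).card := lt_of_lt_of_le hy h1
    rw [mul_comm] at h3
    exact Nat.lt_of_mul_lt_mul_left h3
  obtain ⟨t, ht, htc⟩ := Finset.exists_subset_card_eq h2.le
  let e : Fin r ≃ t := (Fintype.equivFinOfCardEq (by rw [Fintype.card_coe, htc])).symm
  have h3 : ∀ i : Fin r, ∃ x ∈ S, π x = (e i : Quotient (orbitRel H (Fin m))) := by
    intro i
    have := ht (e i).2
    rw [Finset.mem_image] at this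
    exact this
  choose x hxS hxe using h3
  obtain ⟨x₀, hx₀⟩ : S.Nonempty := by
    rw [← Finset.card_pos]; exact lt_of_le_of_lt (Nat.zero_le _) hy
  refine ⟨x, stabilizer H x₀, ?_, ?_⟩
  · intro i
    apply SetLike.coe_injective
    have h4 : st (x i) = y := (Finset.mem_filter.mp (hxS i)).2
    have h5 : st x₀ = y := (Finset.mem_filter.mp hx₀).2
    exact h4.trans h5.symm
  · intro i j hij
    have h4 : π (x j) = π (x i) := Quotient.sound hij
    rw [hxe, hxe] at h4
    exact (e.injective (Subtype.ext h4)).symm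

theorem key (m r : ℕ) (H : Subgroup ↥(alternatingGroup (Fin m))) (h : 2 ^ Nat.card H * (r * Nat.card H) < m) :
    ∃ K : Subgroup ↥(alternatingGroup (Fin m)), Nonempty (↥K ≃* ↥(alternatingGroup (Fin r))) ∧
      K ≤ Subgroup.centralizer (H : Set ↥(alternatingGroup (Fin m))) := by
  classical
  obtain ⟨x, K, hK, hx⟩ := exists_points (H := H) (r := r) h
  have hKmem : ∀ (i : Fin r) (g : H), g ∈ K ↔ g • x i = x i := fun i g => by
    rw [← mem_stabilizer_iff, hK i]
  have hout : ∀ (g : H) (i : Fin r), (QuotientGroup.mk g : H ⧸ K).out • x i = g • x i := by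
    intro g i
    obtain ⟨k, hk⟩ := QuotientGroup.mk_out_eq_mul K g
    have h1 : (k : H) • x i = x i := (hKmem i _).mp k.2
    rw [hk, mul_smul, h1]
  have hinj : Function.Injective (fun p : Fin r × (H ⧸ K) => p.2.out • x p.1) := by
    rintro ⟨i, a⟩ ⟨j, b⟩ hab
    simp only at hab
    have hij : i = j := by
      apply hx i j
      exact ⟨b.out⁻¹ * a.out, by
        show (b.out⁻¹ * a.out) • x i = x j
        rw [mul_smul, hab, inv_smul_smul]⟩
    subst hij
    have h1 : (b.out⁻¹ * a.out) ∈ K := (hKmem i _).mpr (by rw [mul_smul, hab, inv_smul_smul])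
    have h2 : b = a := by
      rw [← QuotientGroup.out_eq' b, ← QuotientGroup.out_eq' a]
      exact QuotientGroup.eq.mpr h1
    rw [h2]
  let ι : Fin r × (H ⧸ K) ↪ Fin m := ⟨_, hinj⟩
  have hι : ∀ i a, ι (i, a) = a.out • x i := fun i a => rfl
  let P₀ : Equiv.Perm (Fin r) →* Equiv.Perm (Fin r × (H ⧸ K)) :=
    { toFun := fun σ => Equiv.prodCongr σ 1
      map_one' := rfl
      map_mul' := fun σ τ => rfl }
  let P : Equiv.Perm (Fin r) →* Equiv.Perm (Fin m) := (Equiv.Perm.viaEmbeddingHom ι).comp P₀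
  have hPι : ∀ σ i a, P σ (ι (i, a)) = ι (σ i, a) := by
    intro σ i a
    show (Equiv.Perm.viaEmbedding (P₀ σ) ι) (ι (i, a)) = _
    rw [Equiv.Perm.viaEmbedding_apply]; rfl
  have hPn : ∀ σ y, y ∉ Set.range ι → P σ y = y := by
    intro σ y hy
    exact Equiv.Perm.viaEmbedding_apply_of_notMem _ _ _ hy
  have hPsign : ∀ σ : Equiv.Perm (Fin r), σ ∈ alternatingGroup (Fin r) → P σ ∈ alternatingGroup (Fin m) := by
    intro σ hσ
    rw [Equiv.Perm.mem_alternatingGroup] at hσ ⊢
    by_cases hs : Function.Surjective (Equiv.Perm.sign.comp P)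
    · have h1 := Equiv.Perm.eq_sign_of_surjective_hom hs
      have h2 : (Equiv.Perm.sign.comp P) σ = Equiv.Perm.sign σ := by rw [h1]
      rw [hσ] at h2; exact h2
    · by_contra hne
      apply hs
      intro u
      rcases Int.units_eq_one_or u with rfl | rfl
      · exact ⟨1, map_one _⟩
      · refine ⟨σ, ?_⟩
        show Equiv.Perm.sign (P σ) = -1
        exact (Int.units_eq_one_or _).resolve_left hne
  let Q : alternatingGroup (Fin r) →* alternatingGroup (Fin m) :=
    { toFun := fun σ => ⟨P σ, hPsign σ.1 σ.2⟩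
      map_one' := Subtype.ext (map_one P)
      map_mul' := fun σ τ => Subtype.ext (map_mul P _ _) }
  have hQinj : Function.Injective Q := by
    intro σ τ hστ
    have h1 : P σ = P τ := congrArg Subtype.val hστ
    apply Subtype.ext
    ext i
    have h2 := congrArg (fun e : Equiv.Perm (Fin m) => e (ι (i, QuotientGroup.mk 1))) h1
    simp only [hPι] at h2
    have h3 := ι.injective h2
    exact congrArg (fun p => ((p.1 : Fin r) : ℕ)) h3
  refine ⟨Q.range, ⟨(MonoidHom.ofInjective hQinj).symm⟩, ?_⟩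
  rintro _ ⟨σ, rfl⟩
  rw [Subgroup.mem_centralizer_iff]
  intro g hg
  apply Subtype.ext
  apply Equiv.ext
  intro y
  show (g : Equiv.Perm (Fin m)) (P σ y) = P σ ((g : Equiv.Perm (Fin m)) y)
  have hact : ∀ z : Fin m, (⟨g, hg⟩ : H) • z = (g : Equiv.Perm (Fin m)) z := fun z => rfl
  have hgι : ∀ i a, (g : Equiv.Perm (Fin m)) (ι (i, a)) = ι (i, QuotientGroup.mk ((⟨g, hg⟩ : H) * a.out)) := by
    intro i a
    rw [hι, hι, hout, ← hact, mul_smul]
  by_cases hy : y ∈ Set.range ι
  · obtain ⟨⟨i, a⟩, rfl⟩ := hy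
    rw [hPι, hgι, hgι, hPι]
  · have hgy : (g : Equiv.Perm (Fin m)) y ∉ Set.range ι := by
      rintro ⟨⟨i, a⟩, hia⟩
      apply hy
      refine ⟨(i, QuotientGroup.mk ((⟨g, hg⟩ : H)⁻¹ * a.out)), ?_⟩
      rw [hι, hout, mul_smul, ← hι i a, hia, ← hact, inv_smul_smul]
    rw [hPn σ y hy, hPn σ _ hgy]

end Cfsg.Agent.S2532

namespace Cfsg.Agent.S2532

/-- There is a function `f` of two natural-number arguments such that, whenever `m ≥ f(n, r)`, every subgroup of order `n` of the alternating group of degree `m` centralizes some subgroup of that alternating group isomorphic to the alternating group of degree `r`. -/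
theorem result :
    ∃ f : ℕ → ℕ → ℕ, ∀ (m r : ℕ) (H : Subgroup ↥(alternatingGroup (Fin m))), f (Nat.card H) r ≤ m →
      ∃ K : Subgroup ↥(alternatingGroup (Fin m)), Nonempty (↥K ≃* ↥(alternatingGroup (Fin r))) ∧
        K ≤ Subgroup.centralizer (H : Set ↥(alternatingGroup (Fin m))) := by
  refine ⟨fun n r => 2 ^ n * (r * n) + 1, ?_⟩
  intro m r H h
  exact key m r H h

end Cfsg.Agent.S2532
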