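import Cfsg.Statements.S2533

set_option autoImplicit false
open Cfsg

namespace Cfsg.Agent.S2533

open Module

section
variable (F : Type) [Field F]

/-- the inversion action on `F^3` -/
def act : ℤˣ →* MulAut (Multiplicative (Fin 3 → F)) :=
  (MulAutMultiplicative (Fin 3 → F)).symm.toMonoidHom.comp
    (DistribMulAction.toAddAut ℤˣ (Fin 3 → F))

abbrev Hgrp : Type := Multiplicative (Fin 3 → F) ⋊[act F] ℤˣ

theorem act_apply (u : ℤˣ) (a : Fin 3 → F) :
    act F u (Multiplicative.ofAdd a) = Multiplicative.ofAdd (u • a) := rfl

variable (m : ℕ)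

/-- shift down -/
def J : Module.End (F) (Fin m → F) where
  toFun v i := if h : i.val + 1 < m then v ⟨i.val + 1, h⟩ else 0
  map_add' v w := by
    funext i
    simp only [Pi.add_apply]
    split_ifs
    · rfl
    · rw [add_zero]
  map_smul' c v := by
    funext i
    simp only [Pi.smul_apply, RingHom.id_apply]
    split_ifs
    · rfl
    · rw [smul_zero]

/-- shift up -/
def K : Module.End (F) (Fin m → F) where
  toFun v i := if h : 0 < i.val then v ⟨i.val - 1, by omega⟩ else 0
  map_add' v w := by
    funext i
    simp only [Pi.add_apply]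
    split_ifs
    · rfl
    · rw [add_zero]
  map_smul' c v := by
    funext i
    simp only [Pi.smul_apply, RingHom.id_apply]
    split_ifs
    · rfl
    · rw [smul_zero]

theorem J_apply (v : Fin m → F) (i : Fin m) : J F m v i = if h : i.val + 1 < m then v ⟨i.val + 1, h⟩ else 0 := rfl
theorem K_apply (v : Fin m → F) (i : Fin m) : K F m v i = if h : 0 < i.val then v ⟨i.val - 1, by omega⟩ else 0 := rfl

/-- commuting with both shifts implies scalar -/
theorem scalar_of_comm (hm : 0 < m) (P : Module.End (F) (Fin m → F))
    (hJ : P * J F m = J F m * P) (hK : P * K F m = K F m * P) : ∃ c : F, P = c • 1 := by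
  classical
  let e : ℕ → (Fin m → F) := fun i j => if j.val = i then 1 else 0
  have he : ∀ i : Fin m, e i.val = Pi.single i 1 := by
    intro i
    funext j
    simp only [e, Pi.single_apply, Fin.ext_iff]
  have hJ0 : J F m (e 0) = 0 := by
    funext i
    rw [J_apply]
    split_ifs with h
    · simp [e]
    · rfl
  have h1 : J F m (P (e 0)) = 0 := by
    have := LinearMap.congr_fun hJ (e 0)
    rw [Module.End.mul_apply, Module.End.mul_apply, hJ0, map_zero] at this
    exact this.symm
  have h2 : P (e 0) = (P (e 0) ⟨0, hm⟩) • e 0 := by
    funext i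
    by_cases hi : i.val = 0
    · have : i = ⟨0, hm⟩ := Fin.ext hi
      subst this
      simp [e]
    · have h3 := congrFun h1 ⟨i.val - 1, by omega⟩
      rw [J_apply] at h3
      have h4 : i.val - 1 + 1 < m := by omega
      rw [dif_pos h4] at h3
      have h5 : (⟨i.val - 1 + 1, h4⟩ : Fin m) = i := Fin.ext (by simp; omega)
      rw [h5] at h3
      rw [h3]
      simp [e, hi]
  have hKe : ∀ i : ℕ, i + 1 < m → K F m (e i) = e (i + 1) := by
    intro i hi
    funext j
    rw [K_apply]
    split_ifs with h
    · simp only [e]
      congr 1
      apply propext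
      constructor <;> intro h' <;> omega
    · simp only [e]
      rw [if_neg (by omega)]
  have h3 : ∀ i : ℕ, i < m → P (e i) = (P (e 0) ⟨0, hm⟩) • e i := by
    intro i
    induction i with
    | zero => intro _; exact h2
    | succ i ih =>
      intro hi
      have h4 := LinearMap.congr_fun hK (e i)
      rw [Module.End.mul_apply, Module.End.mul_apply, hKe i hi, ih (by omega), map_smul, hKe i hi] at h4
      exact h4
  refine ⟨P (e 0) ⟨0, hm⟩, ?_⟩
  apply (Pi.basisFun (F) (Fin m)).ext
  intro i
  rw [Pi.basisFun_apply, ← he, h3 i.val i.isLt]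
  rfl

/-- the matrix pencil -/
def Nm (a : Fin 3 → F) : Module.End (F) (Fin m → F) :=
  a 0 • 1 + a 1 • J F m + a 2 • K F m

theorem Nm_add (a b : Fin 3 → F) : Nm F m (a + b) = Nm F m a + Nm F m b := by
  simp only [Nm, Pi.add_apply, add_smul]; abel

theorem Nm_smul (u : ℤˣ) (a : Fin 3 → F) : Nm F m (u • a) = (u : ℤ) • Nm F m a := by
  rcases Int.units_eq_one_or u with rfl | rfl
  · simp
  · have : ∀ i, (-(1 : ℤˣ) • a) i = - a i := fun i => by
      show ((-1 : ℤˣ) : ℤ) • a i = - a i
      simp
    have h2 : ((-1 : ℤˣ) • a) = -a := funext this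
    rw [h2]
    simp only [Nm, Pi.neg_apply]
    rw [neg_smul (a 0) (1 : Module.End F (Fin m → F)), neg_smul (a 1) (J F m), neg_smul (a 2) (K F m)]
    show _ = (-1 : ℤ) • (a 0 • (1 : Module.End F (Fin m → F)) + a 1 • J F m + a 2 • K F m)
    rw [neg_smul, one_smul]
    abel

abbrev V : Type := (Fin m → F) × (Fin m → F)

/-- the representation -/
def Phi : Hgrp F →* Module.End (F) (V F m) where
  toFun h :=
    { toFun := fun w => ((h.right : ℤ) • w.1, w.2 + (h.right : ℤ) • Nm F m (Multiplicative.toAdd h.left) w.1)
      map_add' := fun v w => by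
        apply Prod.ext
        · simp [smul_add]
        · simp only [Prod.fst_add, Prod.snd_add, map_add, smul_add]
          abel
      map_smul' := fun c w => by
        apply Prod.ext
        · simp [smul_comm]
        · simp only [Prod.smul_fst, Prod.smul_snd, map_smul, RingHom.id_apply, smul_add]
          rw [smul_comm] }
  map_one' := by
    apply LinearMap.ext
    intro w
    apply Prod.ext
    · simp
    · show w.2 + ((1 : ℤˣ) : ℤ) • Nm F m (Multiplicative.toAdd (1 : Multiplicative (Fin 3 → F))) w.1 = w.2
      have : Nm F m 0 = 0 := by simp [Nm]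
      rw [toAdd_one, this]; simp
  map_mul' g h := by
    apply LinearMap.ext
    intro w
    obtain ⟨a, u⟩ := g
    obtain ⟨b, v⟩ := h
    apply Prod.ext
    · show ((u * v : ℤˣ) : ℤ) • w.1 = (u : ℤ) • ((v : ℤ) • w.1)
      rw [smul_smul, Units.val_mul]
    · show w.2 + ((u * v : ℤˣ) : ℤ) • Nm F m (Multiplicative.toAdd (a * act F u b)) w.1 =
        (w.2 + (v : ℤ) • Nm F m (Multiplicative.toAdd b) w.1) + (u : ℤ) • Nm F m (Multiplicative.toAdd a) ((v : ℤ) • w.1)
      have h1 : Multiplicative.toAdd (a * act F u b) = Multiplicative.toAdd a + u • Multiplicative.toAdd b := rfl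
      have h2 : (u : ℤ) * u = 1 := by
        rcases Int.units_eq_one_or u with rfl | rfl <;> simp
      rw [h1, Nm_add, Nm_smul, LinearMap.add_apply, smul_add, LinearMap.smul_apply, smul_smul, Units.val_mul,
        mul_right_comm, h2, one_mul, map_zsmul, smul_smul]
      abel

theorem Phi_apply (h : Hgrp F) (w : V F m) :
    Phi F m h w = ((h.right : ℤ) • w.1, w.2 + (h.right : ℤ) • Nm F m (Multiplicative.toAdd h.left) w.1) := rfl

theorem det_Phi (p : ℕ) [Fact p.Prime] [CharP F p] (hm : Even m) (h : Hgrp F) : LinearMap.det (Phi F m h) = 1 := by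
  obtain ⟨a, u⟩ := h
  have h1 : (⟨a, u⟩ : Hgrp F) = SemidirectProduct.inl a * SemidirectProduct.inr u :=
    (SemidirectProduct.inl_left_mul_inr_right _).symm
  rw [h1, map_mul, map_mul]
  have h2 : LinearMap.det (Phi F m (SemidirectProduct.inl a)) = 1 := by
    have h3 : a ^ p = 1 := by
      show p • (Multiplicative.toAdd a) = 0
      ext i
      simp
    have h4 : LinearMap.det (Phi F m (SemidirectProduct.inl a)) ^ p = 1 := by
      rw [← map_pow, ← map_pow, ← map_pow, h3, map_one, map_one, map_one]
    exact frobenius_inj F p (by rw [frobenius_def, h4, map_one])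
  have h5 : Phi F m (SemidirectProduct.inr u) = LinearMap.prodMap (((u : ℤ) : F) • (1 : Module.End F (Fin m → F))) (1 : Module.End F (Fin m → F)) := by
    apply LinearMap.ext
    intro w
    rw [Phi_apply]
    apply Prod.ext
    · show (u : ℤ) • w.1 = ((u : ℤ) : F) • w.1
      rw [Int.cast_smul_eq_zsmul]
    · have : Nm F m (Multiplicative.toAdd (SemidirectProduct.inr (φ := act F) u).left) = 0 := by
        show Nm F m 0 = 0
        simp [Nm]
      rw [this]; simp
  rw [h2, h5, LinearMap.det_prodMap, LinearMap.det_smul, map_one]
  obtain ⟨k, hk⟩ := hm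
  simp only [finrank_fintype_fun_eq_card, Fintype.card_fin, mul_one, one_mul]
  rw [hk, ← two_mul, pow_mul]
  rcases Int.units_eq_one_or u with rfl | rfl <;> simp

end

theorem main (F : Type) [Field F] [Finite F] (p : ℕ) [Fact p.Prime] [CharP F p] (hp : p ≠ 2) (hF : Nat.card F = p) :
    ∃ (H : Type) (_ : Group H) (_ : Finite H), Nat.card H = 2 * p ^ 3 ∧
      ∀ N : ℕ, ∃ n, N ≤ n ∧ ∃ φ : H →* Matrix.ProjectiveSpecialLinearGroup (Fin n) F,
        Function.Injective φ ∧ Subgroup.centralizer (φ.range : Set (Matrix.ProjectiveSpecialLinearGroup (Fin n) F)) = ⊥ := by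
  classical
  have hpp : p.Prime := Fact.out
  have hp2 : (2 : F) ≠ 0 := by
    intro h
    have h1 : ((2 : ℕ) : F) = 0 := by exact_mod_cast h
    rw [CharP.cast_eq_zero_iff F p] at h1
    exact hp ((Nat.prime_dvd_prime_iff_eq hpp Nat.prime_two).mp h1)
  refine ⟨Hgrp F, inferInstance, Finite.of_equiv _ (SemidirectProduct.equivProd (φ := act F)).symm, ?_, ?_⟩
  · rw [SemidirectProduct.card]
    have h1 : Nat.card (Multiplicative (Fin 3 → F)) = p ^ 3 := by
      rw [Nat.card_congr Multiplicative.toAdd, Nat.card_fun, hF, Nat.card_eq_fintype_card, Fintype.card_fin]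
    rw [h1, Nat.card_eq_fintype_card, show Fintype.card ℤˣ = 2 from rfl]
    ring
  · intro N
    set m := 2 * (N + 1) with hm
    have hm0 : 0 < m := by omega
    have hmeven : Even m := ⟨N + 1, by omega⟩
    refine ⟨m + m, by omega, ?_⟩
    have hfr : finrank F (V F m) = m + m := by simp [V]
    let b : Basis (Fin (m + m)) F (V F m) := (finBasis F (V F m)).reindex (finCongr hfr)
    let f : Hgrp F →* Matrix.SpecialLinearGroup (Fin (m + m)) F :=
      { toFun := fun h => ⟨LinearMap.toMatrixAlgEquiv b (Phi F m h), by
          rw [← det_Phi F m p hmeven h]; exact LinearMap.det_toMatrix b _⟩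
        map_one' := by
          apply Subtype.ext
          show LinearMap.toMatrixAlgEquiv b (Phi F m 1) = 1
          rw [map_one, map_one]
        map_mul' := fun g h => by
          apply Subtype.ext
          show LinearMap.toMatrixAlgEquiv b (Phi F m (g * h)) = LinearMap.toMatrixAlgEquiv b (Phi F m g) * LinearMap.toMatrixAlgEquiv b (Phi F m h)
          rw [map_mul, map_mul] }
    have hf : ∀ h, ((f h : Matrix.SpecialLinearGroup (Fin (m + m)) F) : Matrix _ _ F) = LinearMap.toMatrixAlgEquiv b (Phi F m h) := fun h => rfl
    refine ⟨(QuotientGroup.mk' _).comp f, ?_, ?_⟩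
    · rw [injective_iff_map_eq_one]
      intro h hh
      have h1 : f h ∈ Subgroup.center (Matrix.SpecialLinearGroup (Fin (m + m)) F) := (QuotientGroup.eq_one_iff _).mp hh
      rw [Matrix.SpecialLinearGroup.mem_center_iff] at h1
      obtain ⟨c, -, hc⟩ := h1
      have h2 : Phi F m h = c • 1 := by
        apply (LinearMap.toMatrixAlgEquiv b).injective
        rw [← hf, ← hc, map_smul, map_one, Matrix.smul_one_eq_diagonal]
        rfl
      obtain ⟨a, u⟩ := h
      let e0 : Fin m → F := Pi.single ⟨0, hm0⟩ 1
      let e1 : Fin m → F := Pi.single ⟨1, by omega⟩ 1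
      have hc1 : c = 1 := by
        have h3 := congrArg (fun z : V F m => z.2 ⟨0, hm0⟩) (LinearMap.congr_fun h2 (0, e0))
        simp [Phi_apply, e0] at h3
        exact h3.symm
      have h4 : ∀ w : Fin m → F, (u : ℤ) • w = w := by
        intro w
        have h3 := congrArg Prod.fst (LinearMap.congr_fun h2 (w, 0))
        rw [hc1, one_smul] at h3
        exact h3
      have hu : u = 1 := by
        rcases Int.units_eq_one_or u with h5 | h5
        · exact h5
        · exfalso
          have h6 := congrFun (h4 e0) ⟨0, hm0⟩
          rw [h5] at h6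
          simp [e0] at h6
          have h7 : (2 : F) = 0 := by
            have : (1 : F) + 1 = 0 := by
              calc (1 : F) + 1 = -1 + 1 := by rw [h6]
                _ = 0 := by ring
            rw [← this]; norm_num
          exact hp2 h7
      have h5 : ∀ w : Fin m → F, Nm F m (Multiplicative.toAdd a) w = 0 := by
        intro w
        have h3 := congrArg Prod.snd (LinearMap.congr_fun h2 (w, 0))
        rw [Phi_apply, hc1, one_smul, hu] at h3
        simpa using h3
      have h60 := congrFun (h5 e0) ⟨0, hm0⟩
      have h61 := congrFun (h5 e0) ⟨1, by omega⟩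
      have h62 := congrFun (h5 e1) ⟨0, hm0⟩
      have hm1 : 1 < m := by omega
      simp only [Nm, LinearMap.add_apply, LinearMap.smul_apply, Module.End.one_apply, Pi.add_apply, Pi.smul_apply,
        J_apply, K_apply, e0, e1, Pi.zero_apply, smul_eq_mul] at h60 h61 h62
      simp [hm1] at h60 h61 h62
      have ha : a = 1 := by
        have : Multiplicative.toAdd a = 0 := by
          funext i
          fin_cases i
          · exact h60
          · simpa [h60] using h62
          · simpa [h60] using h61
        exact this
      rw [ha, hu]; rfl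
    · rw [eq_bot_iff]
      intro g hg
      induction g using QuotientGroup.induction_on with
      | H M =>
        rw [Subgroup.mem_centralizer_iff] at hg
        set X : Module.End F (V F m) := (LinearMap.toMatrixAlgEquiv b).symm (M : Matrix _ _ F) with hX
        have hXM : LinearMap.toMatrixAlgEquiv b X = M := by rw [hX, AlgEquiv.apply_symm_apply]
        have hcomm : ∀ h : Hgrp F, ∃ l : F, X * Phi F m h = l • (Phi F m h * X) := by
          intro h
          have h1 := hg _ ⟨h, rfl⟩
          have h2 : (QuotientGroup.mk (f h * M) : Matrix.ProjectiveSpecialLinearGroup (Fin (m + m)) F) =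
            QuotientGroup.mk (M * f h) := h1
          rw [QuotientGroup.eq, Matrix.SpecialLinearGroup.mem_center_iff] at h2
          obtain ⟨l, -, hl⟩ := h2
          refine ⟨l, ?_⟩
          apply (LinearMap.toMatrixAlgEquiv b).injective
          rw [map_mul, map_smul, map_mul, ← hf, hXM]
          have h3 : (M * f h : Matrix.SpecialLinearGroup (Fin (m + m)) F) = (f h * M) * ((f h * M)⁻¹ * (M * f h)) := by
            rw [mul_inv_cancel_left]
          have h3 := congrArg (fun z : Matrix.SpecialLinearGroup (Fin (m + m)) F => (z : Matrix (Fin (m + m)) (Fin (m + m)) F)) h3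
          simp only [Matrix.SpecialLinearGroup.coe_mul (f h * M)] at h3
          rw [Matrix.SpecialLinearGroup.coe_mul, ← hl, Matrix.SpecialLinearGroup.coe_mul] at h3
          rw [h3, Matrix.scalar_apply, ← Matrix.smul_one_eq_diagonal, Matrix.mul_smul, mul_one]
        have hXu : Function.Injective X := by
          have h1 : LinearMap.det X = 1 := by
            have h2 := LinearMap.det_toMatrix b X
            rw [← h2]
            show Matrix.det (LinearMap.toMatrixAlgEquiv b X) = 1
            rw [hXM]; exact M.det_coe
          have h2 : IsUnit (LinearMap.det X) := by rw [h1]; exact isUnit_one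
          have h3 := (LinearMap.isUnit_iff_isUnit_det X).mpr h2
          exact ((Module.End.isUnit_iff X).mp h3).1
        have hcomm1 : ∀ a : Fin 3 → F, X * Phi F m (SemidirectProduct.inl (Multiplicative.ofAdd a)) =
            Phi F m (SemidirectProduct.inl (Multiplicative.ofAdd a)) * X := by
          intro a
          obtain ⟨l, hl⟩ := hcomm (SemidirectProduct.inl (Multiplicative.ofAdd a))
          set A := Phi F m (SemidirectProduct.inl (Multiplicative.ofAdd a)) with hA
          have h1 : ∀ k : ℕ, X * A ^ k = l ^ k • (A ^ k * X) := by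
            intro k
            induction k with
            | zero => simp
            | succ k ih =>
              rw [pow_succ, ← mul_assoc, ih, smul_mul_assoc, mul_assoc, hl, mul_smul_comm, smul_smul, ← mul_assoc, ← pow_succ, ← pow_succ]
          have h2 : A ^ p = 1 := by
            rw [hA, ← map_pow, ← map_pow]
            have : (Multiplicative.ofAdd a) ^ p = 1 := by
              show p • a = 0
              ext i; simp
            rw [this, map_one, map_one]
          have h3 := h1 p
          rw [h2, mul_one, one_mul] at h3
          have hl1 : l = 1 := by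
            apply frobenius_inj F p
            rw [frobenius_def, map_one]
            by_contra hl1
            have h4 : (1 - l ^ p) • X = 0 := by rw [sub_smul (1 : F) (l ^ p) X, one_smul, ← h3, sub_self]
            rcases smul_eq_zero.mp h4 with h5 | h5
            · exact hl1 (sub_eq_zero.mp h5).symm
            · have h6 : (X (0, Pi.single ⟨0, hm0⟩ 1)) = X 0 := by rw [h5]; rfl
              have h7 := hXu h6
              have h8 := congrFun (congrArg Prod.snd h7) ⟨0, hm0⟩
              simp at h8
          rw [hl, hl1, one_smul]
        -- blocks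
        have hE : ∀ (a : Fin 3 → F) (w : V F m), X (0, Nm F m a w.1) = (0, Nm F m a (X w).1) := by
          intro a w
          have h1 := LinearMap.congr_fun (hcomm1 a) w
          rw [Module.End.mul_apply, Module.End.mul_apply, Phi_apply, Phi_apply] at h1
          simp only [SemidirectProduct.right_inl, Units.val_one, one_smul, SemidirectProduct.left_inl, toAdd_ofAdd] at h1
          have h2 : (w.1, w.2 + Nm F m a w.1) = w + (0, Nm F m a w.1) := by
            apply Prod.ext <;> simp
          rw [h2, map_add] at h1
          have h3 : ((X w).1, (X w).2 + Nm F m a (X w).1) = X w + (0, Nm F m a (X w).1) := by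
            apply Prod.ext <;> simp
          rw [h3] at h1
          exact add_left_cancel h1
        have hN0 : Nm F m ![1, 0, 0] = 1 := by
          simp [Nm]
        have hN1 : Nm F m ![0, 1, 0] = J F m := by
          simp [Nm]
        have hN2 : Nm F m ![0, 0, 1] = K F m := by
          simp [Nm]
        have hB0 : ∀ w : V F m, X (0, w.1) = (0, (X w).1) := by
          intro w
          have := hE ![1, 0, 0] w
          rwa [hN0, Module.End.one_apply, Module.End.one_apply] at this
        have hX01 : ∀ w1 : Fin m → F, (X (0, w1)).1 = 0 := by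
          intro w1
          have := hB0 (w1, 0)
          rw [this]
        let P : Module.End F (Fin m → F) := (LinearMap.fst _ _ _) ∘ₗ X ∘ₗ (LinearMap.inl _ _ _)
        have hP : ∀ w0, P w0 = (X (w0, 0)).1 := fun w0 => rfl
        have hX1 : ∀ w : V F m, (X w).1 = P w.1 := by
          intro w
          have h1 : w = (w.1, 0) + (0, w.2) := by apply Prod.ext <;> simp
          rw [h1, map_add, Prod.fst_add, hX01, add_zero, hP]
          simp
        have hX2 : ∀ w1 : Fin m → F, X (0, w1) = (0, P w1) := by
          intro w1
          have := hB0 (w1, 0)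
          rw [hX1] at this
          exact this
        have hPJ : P * J F m = J F m * P := by
          apply LinearMap.ext
          intro w
          have := hE ![0, 1, 0] (w, 0)
          rw [hN1, hX1, hX2] at this
          exact congrArg Prod.snd this
        have hPK : P * K F m = K F m * P := by
          apply LinearMap.ext
          intro w
          have := hE ![0, 0, 1] (w, 0)
          rw [hN2, hX1, hX2] at this
          exact congrArg Prod.snd this
        obtain ⟨c, hc⟩ := scalar_of_comm F m hm0 P hPJ hPK
        have hc0 : c ≠ 0 := by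
          intro h0
          rw [h0, zero_smul] at hc
          have h1 : X (0, Pi.single ⟨0, hm0⟩ 1) = X 0 := by
            rw [hX2, hc, map_zero]; rfl
          have h7 := hXu h1
          have h8 := congrFun (congrArg Prod.snd h7) ⟨0, hm0⟩
          simp at h8
        obtain ⟨l, hl⟩ := hcomm (SemidirectProduct.inr (-1))
        have ht : ∀ w : V F m, Phi F m (SemidirectProduct.inr (-1)) w = (-w.1, w.2) := by
          intro w
          rw [Phi_apply]
          have : Nm F m (Multiplicative.toAdd (SemidirectProduct.inr (φ := act F) (-1)).left) = 0 := by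
            show Nm F m 0 = 0
            simp [Nm]
          rw [this]
          simp
        have hR : ∀ w0 : Fin m → F, (X (w0, 0)).2 = 0 := by
          intro w0
          have h0 : l = 1 := by
            have h1 := LinearMap.congr_fun hl (Pi.single ⟨0, hm0⟩ 1, 0)
            rw [Module.End.mul_apply, LinearMap.smul_apply, Module.End.mul_apply, ht, ht] at h1
            have h2 := congrFun (congrArg Prod.fst h1) ⟨0, hm0⟩
            rw [hX1, Prod.smul_mk, hX1, hc] at h2
            simp at h2
            have h3 : c * (l - 1) = 0 := by linear_combination -h2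
            rcases mul_eq_zero.mp h3 with h4 | h4
            · exact absurd h4 hc0
            · exact sub_eq_zero.mp h4
          have h1 := LinearMap.congr_fun hl (w0, 0)
          rw [Module.End.mul_apply, LinearMap.smul_apply, Module.End.mul_apply, ht, ht, h0, one_smul] at h1
          have h2 := congrArg Prod.snd h1
          have h3 : ((-w0, 0) : V F m) = -(w0, 0) := by apply Prod.ext <;> simp
          simp only [h3, map_neg, Prod.snd_neg] at h2
          have h4 : (2 : F) • (X (w0, 0)).2 = 0 := by
            rw [two_smul]
            nth_rewrite 1 [← h2]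
            simp
          rcases smul_eq_zero.mp h4 with h5 | h5
          · exact absurd h5 hp2
          · exact h5
        have hXc : X = c • 1 := by
          apply LinearMap.ext
          intro w
          have h1 : w = (w.1, 0) + (0, w.2) := by apply Prod.ext <;> simp
          rw [h1, map_add, hX2]
          apply Prod.ext
          · simp only [Prod.fst_add, LinearMap.smul_apply, Module.End.one_apply, Prod.smul_fst]
            rw [hX1, hc]; simp
          · simp only [Prod.snd_add, LinearMap.smul_apply, Module.End.one_apply, Prod.smul_snd]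
            rw [hR, hc]; simp
        rw [Subgroup.mem_bot, QuotientGroup.eq_one_iff, Matrix.SpecialLinearGroup.mem_center_iff]
        have hMc : (M : Matrix (Fin (m + m)) (Fin (m + m)) F) = c • 1 := by rw [← hXM, hXc, map_smul, map_one]
        refine ⟨c, ?_, ?_⟩
        · have := congrArg Matrix.det hMc
          rw [M.det_coe, Matrix.det_smul, Matrix.det_one, mul_one] at this
          exact this.symm
        · rw [hMc, Matrix.smul_one_eq_diagonal]; rfl

/-- For every odd prime `p` there is a finite group `H` of order `2p³` which, for infinitely many `n`, embeds in the projective special linear group `PSL(n, p)` as a subgroup with trivial centralizer. -/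
theorem result
    (p : ℕ) [Fact p.Prime] (hp : p ≠ 2) :
    ∃ (H : Type) (_ : Group H) (_ : Finite H), Nat.card H = 2 * p ^ 3 ∧
      ∀ N : ℕ, ∃ n, N ≤ n ∧ ∃ φ : H →* Matrix.ProjectiveSpecialLinearGroup (Fin n) (ZMod p),
        Function.Injective φ ∧ Subgroup.centralizer (φ.range : Set (Matrix.ProjectiveSpecialLinearGroup (Fin n) (ZMod p))) = ⊥ :=
  main (ZMod p) p hp (Nat.card_zmod p)

end Cfsg.Agent.S2533
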