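import Cfsg.Statements.S2534
import Cfsg.Agent.Lib.HallSym5
import Cfsg.Agent.Lib.H64HallPi

set_option autoImplicit false
open Cfsg

namespace Cfsg.Agent.S2534

open Equiv Cfsg.Agent.Lib Cfsg.Agent.Lib.HallSym Subgroup

theorem dpi_congr {G : Type*} [Group G] [Finite G] {π π' : Set ℕ} (h : ∀ p : ℕ, p.Prime → p ∣ Nat.card G → (p ∈ π ↔ p ∈ π')) :
    IsDPiGroup π G ↔ IsDPiGroup π' G := by
  have e : (IsPiSubgroup π : Subgroup G → Prop) = IsPiSubgroup π' := by
    funext K
    apply propext
    exact forall_congr' fun p => forall_congr' fun hp => forall_congr' fun hd => h p hp (hd.trans (card_subgroup_dvd_card K))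
  unfold IsDPiGroup
  rw [e]

theorem dpi_le {G : Type*} [Group G] [Finite G] {π : Set ℕ} (h : IsDPiGroup π G) {H L : Subgroup G} (hH : IsPiHall π H)
    (hL : IsPiSubgroup π L) : ∃ g : G, ∀ x ∈ L, g⁻¹ * x * g ∈ H := by
  obtain ⟨M, hLM, hM⟩ := (Set.toFinite {M : Subgroup G | IsPiSubgroup π M}).exists_le_maximal hL
  have hHmax : Maximal (IsPiSubgroup π) H := by
    refine ⟨hH.1, fun K hK hHK => ?_⟩
    exact (HallPi.eq_of_isPiHall_le hH hHK hK).ge
  obtain ⟨g, rfl⟩ := h H M hHmax hM
  exact ⟨g, fun x hx => RelSylow.mem_conj_iff.1 (hLM hx)⟩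

/-- in terms of permutations -/
theorem dpi_perm {n : ℕ} {π : Set ℕ} (h : IsDPiGroup π (alternatingGroup (Fin n))) {H : Subgroup (alternatingGroup (Fin n))}
    (hH : IsPiHall π H) {K L : Subgroup (Perm (Fin n))} (hK : H.map (alternatingGroup (Fin n)).subtype = K)
    (hL : ∀ p : ℕ, p.Prime → p ∣ Nat.card L → p ∈ π) :
    ∃ g : Perm (Fin n), ∀ x ∈ L, Perm.sign x = 1 → g⁻¹ * x * g ∈ K := by
  obtain ⟨g, hg⟩ := dpi_le h hH (L := L.subgroupOf (alternatingGroup (Fin n))) (by
    intro p hp hd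
    refine hL p hp (hd.trans ?_)
    rw [SubgroupTools.card_subgroupOf]
    exact card_dvd_of_le inf_le_left)
  refine ⟨g, fun x hx hs => ?_⟩
  rw [← hK]
  refine ⟨_, hg ⟨x, Perm.mem_alternatingGroup.2 hs⟩ ?_, rfl⟩
  rw [mem_subgroupOf]; exact hx

/-- the kernel of a colouring -/
theorem card_NN_ker {n k : ℕ} (f : Fin n → Fin k) : Nat.card (NN (Setoid.ker f)) = ∏ i, (Fintype.card {a // f a = i}).factorial := by
  rw [← DomMulAct.stabilizer_card, ← Nat.card_eq_fintype_card]
  apply Nat.card_congr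
  refine Equiv.subtypeEquivRight fun g => ?_
  rw [mem_NN, funext_iff]
  exact Iff.rfl

def f7 : Fin 7 → Fin 3 := ![0, 0, 0, 1, 1, 1, 2]

def f8 : Fin 8 → Fin 3 := ![0, 0, 0, 1, 1, 1, 2, 2]

def a7 : Perm (Fin 7) := swap 0 1 * swap 1 2
def b7 : Perm (Fin 7) := swap 3 4 * swap 4 5
def c7 : Perm (Fin 7) := swap 0 3 * swap 1 4 * swap 2 5 * swap 0 1
def a8 : Perm (Fin 8) := swap 0 1 * swap 1 2
def b8 : Perm (Fin 8) := swap 3 4 * swap 4 5
def c8 : Perm (Fin 8) := swap 6 7 * swap 0 1

theorem dec7 : ∀ s : Finset (Fin 7), s.card = 3 → ¬ ((∀ x, a7 x ∈ s ↔ x ∈ s) ∧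
    (∀ x, b7 x ∈ s ↔ x ∈ s) ∧
    (∀ x, c7 x ∈ s ↔ x ∈ s)) := by
  decide +kernel

theorem dec8 : ∀ s : Finset (Fin 8), s.card = 4 →
    ¬ ((∀ x y, (a8 x ∈ s ↔ a8 y ∈ s) ↔ (x ∈ s ↔ y ∈ s)) ∧
    (∀ x y, (b8 x ∈ s ↔ b8 y ∈ s) ↔ (x ∈ s ↔ y ∈ s)) ∧
    (∀ x y, (c8 x ∈ s ↔ c8 y ∈ s) ↔ (x ∈ s ↔ y ∈ s))) := by
  decide +kernel

theorem small {p : ℕ} (hp : p.Prime) (hp4 : p ≤ 4) : p = 2 ∨ p = 3 := by
  interval_cases p
  · exact absurd hp (by decide)
  · exact absurd hp (by decide)
  · left; rfl
  · right; rfl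
  · exact absurd hp (by decide)

/-- For `n ≥ 5` and a set of primes `π`, the alternating group of degree `n` satisfies the full Sylow analogue for `π` (its maximal `π`-subgroups are pairwise conjugate; for a finite group this says Hall `π`-subgroups exist, are all conjugate, and contain every `π`-subgroup up to conjugacy) if and only if either at most one prime of `π` divides its order or every prime dividing its order lies in `π`. -/
theorem result (n : ℕ) (hn : 5 ≤ n) (π : Set ℕ) :
    Cfsg.IsDPiGroup π ↥(alternatingGroup (Fin n)) ↔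
      ((∀ r s : ℕ, r.Prime → s.Prime → r ∈ π → s ∈ π → r ∣ Nat.card ↥(alternatingGroup (Fin n)) → s ∣ Nat.card ↥(alternatingGroup (Fin n)) → r = s) ∨
        ∀ r : ℕ, r.Prime → r ∣ Nat.card ↥(alternatingGroup (Fin n)) → r ∈ π) := by
  constructor
  · intro hD
    obtain ⟨H, hH⟩ := H64HallPi.isEPiGroup_of_isDPiGroup hD
    by_contra hcon
    rw [not_or] at hcon
    obtain ⟨hc1, hc2⟩ := hcon
    push Not at hc1 hc2
    obtain ⟨r, s, hr, hs, hrπ, hsπ, hrd, hsd, hrs⟩ := hc1
    obtain ⟨t, ht, htd, htπ⟩ := hc2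
    have hle : ∀ p : ℕ, p.Prime → p ∣ Nat.card (alternatingGroup (Fin n)) → p ≤ n := by
      intro p hp hd
      have := prime_le_of_dvd hp hd
      rwa [Fintype.card_fin] at this
    have hH' := HallPi.isPiHallOf_map_subtype hH
    rcases structural n (Fin n) _ _ (Fintype.card_fin n) (Or.inr rfl) hH'
      ⟨r, s, hr, hs, hrs, hrπ, hsπ, hle r hr hrd, hle s hs hsd⟩ ⟨t, ht, hle t ht htd, htπ⟩ with
      ⟨h1, h2, s₀, h3, h4⟩ | ⟨rfl, h2, s₀, h3, h4⟩ | ⟨rfl, h2, r₀, h3, h5, h4⟩
    · obtain ⟨a, b, hab⟩ : ∃ a b : Fin n, a ≠ b := ⟨⟨0, by omega⟩, ⟨1, by omega⟩, by simp⟩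
      obtain ⟨g, hg⟩ := dpi_perm hD hH (L := SS {a, b}) h4 (by
        intro p hp hd
        rw [card_SS, Finset.card_pair hab, Fintype.card_fin] at hd
        have : p ≤ n - 1 := by
          rcases hp.dvd_mul.1 hd with h | h
          · have := (Nat.Prime.dvd_factorial hp).1 h; omega
          · have := (Nat.Prime.dvd_factorial hp).1 h; omega
        exact (h2 p hp (by omega)).2 (by omega))
      obtain ⟨x₀, rfl⟩ := Finset.card_eq_one.1 h3
      have hfix : ∀ x ∈ SS {a, b}, Perm.sign x = 1 → x (g x₀) = g x₀ := by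
        intro x hx hs
        have h5 := (hg x hx hs).1 x₀
        rw [Finset.mem_singleton, Finset.mem_singleton] at h5
        have h6 := h5.2 rfl
        rw [Perm.mul_apply, Perm.mul_apply, Perm.inv_eq_iff_eq] at h6
        exact h6
      set y := g x₀ with hy
      obtain ⟨c, hc, d, hd, hcd⟩ := Finset.one_lt_card.1 (show 1 < ((({a, b, y} : Finset (Fin n))ᶜ).card) by
        have h7 := Finset.card_add_card_compl ({a, b, y} : Finset (Fin n))
        have h8 : ({a, b, y} : Finset (Fin n)).card ≤ 3 := Finset.card_le_three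
        rw [Fintype.card_fin] at h7
        omega)
      simp only [Finset.mem_compl, Finset.mem_insert, Finset.mem_singleton, not_or] at hc hd
      by_cases hyab : y = a ∨ y = b
      · have h9 := hfix (swap a b * swap c d) (mul_mem (swap_mem_SS (by simp)) (swap_mem_SS (by simp [hc, hd])))
          (by rw [Perm.sign_mul, Perm.sign_swap hab, Perm.sign_swap hcd]; rfl)
        rw [Perm.mul_apply, swap_apply_of_ne_of_ne (Ne.symm hc.2.2) (Ne.symm hd.2.2)] at h9
        rcases hyab with h | h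
        · rw [h, swap_apply_left] at h9; exact hab h9.symm
        · rw [h, swap_apply_right] at h9; exact hab h9
      · rw [not_or] at hyab
        have h9 := hfix (swap c d * swap y c) (mul_mem (swap_mem_SS (by simp [hc, hd])) (swap_mem_SS (by simp [hyab, hc])))
          (by rw [Perm.sign_mul, Perm.sign_swap hcd, Perm.sign_swap (Ne.symm hc.2.2)]; rfl)
        rw [Perm.mul_apply, swap_apply_left, swap_apply_left] at h9
        exact hd.2.2 h9
    · obtain ⟨g, hg⟩ := dpi_perm hD hH (L := KK (Setoid.ker f7)) h4 (by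
        intro p hp hd
        have h5 := hd.trans (card_KK_dvd (Setoid.ker f7))
        have hq : Nat.card (Quotient (Setoid.ker f7)) ≤ 3 := by
          have := Nat.card_le_card_of_injective (Quotient.lift f7 (fun a b h => h) : Quotient (Setoid.ker f7) → Fin 3) (by
            intro x y
            induction x, y using Quotient.inductionOn₂ with
            | h x y => intro h; exact Quotient.sound h)
          rwa [Nat.card_fin] at this
        rw [card_NN_ker] at h5
        have e : (∏ i, (Fintype.card {a // f7 a = i}).factorial) = 3 * 2 * (3 * 2) := by decide +kernel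
        rw [e] at h5
        have h6 : p ≤ 3 := by
          rcases hp.dvd_mul.1 h5 with h | h
          · have h7 : p ∣ 6 * 6 := h
            rcases hp.dvd_mul.1 h7 with h | h <;>
            · have h8 : p ∣ 2 * 3 := h
              rcases hp.dvd_mul.1 h8 with h | h
              · have := Nat.le_of_dvd (by norm_num) h; omega
              · exact Nat.le_of_dvd (by norm_num) h
          · exact ((Nat.Prime.dvd_factorial hp).1 h).trans hq
        exact (h2 p hp (by omega)).2 (small hp (by omega)))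
      -- the set
      set s' : Finset (Fin 7) := s₀.map g.toEmbedding with hs'
      have hs'm : ∀ x, x ∈ s' ↔ g⁻¹ x ∈ s₀ := by
        intro x
        rw [hs', Finset.mem_map]
        constructor
        · rintro ⟨y, hy, rfl⟩
          show g⁻¹ (g y) ∈ s₀
          rwa [inv_app]
        · intro h; exact ⟨g⁻¹ x, h, app_inv g x⟩
      have hinv : ∀ x ∈ KK (Setoid.ker f7), Perm.sign x = 1 → ∀ y, x y ∈ s' ↔ y ∈ s' := by
        intro x hx hs y
        have h5 := (hg x hx hs).1 (g⁻¹ y)
        rw [Perm.mul_apply, Perm.mul_apply, app_inv] at h5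
        rw [hs'm, hs'm]; exact h5
      refine dec7 s' (by rw [hs', Finset.card_map, h3]) ⟨hinv a7 ?_ ?_, hinv b7 ?_ ?_, hinv c7 ?_ ?_⟩
      · have : ∀ x y, (f7 (a7 x) = f7 (a7 y) ↔ f7 x = f7 y) := by decide +kernel
        exact this
      · decide +kernel
      · have : ∀ x y, (f7 (b7 x) = f7 (b7 y) ↔ f7 x = f7 y) := by decide +kernel
        exact this
      · decide +kernel
      · have : ∀ x y, (f7 (c7 x) = f7 (c7 y) ↔ f7 x = f7 y) := by decide +kernel
        exact this
      · decide +kernel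
    · obtain ⟨g, hg⟩ := dpi_perm hD hH (L := NN (Setoid.ker f8)) h4 (by
        intro p hp hd
        rw [card_NN_ker] at hd
        have e : (∏ i, (Fintype.card {a // f8 a = i}).factorial) = 6 * (6 * 2) := by decide +kernel
        rw [e] at hd
        have h6 : p ≤ 3 := by
          have h66 : p ∣ 6 → p ≤ 3 := by
            intro h7
            have h8 : p ∣ 2 * 3 := h7
            rcases hp.dvd_mul.1 h8 with h | h
            · have := Nat.le_of_dvd (by norm_num) h; omega
            · exact Nat.le_of_dvd (by norm_num) h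
          rcases hp.dvd_mul.1 hd with h | h
          · exact h66 h
          · rcases hp.dvd_mul.1 h with h | h
            · exact h66 h
            · have := Nat.le_of_dvd (by norm_num) h; omega
        exact (h2 p hp (by omega)).2 (small hp (by omega)))
      obtain ⟨s₁, hc₁, hs₁⟩ := exists_cls h5 0
      have hcls : ∀ x y, r₀ x y ↔ (x ∈ s₁ ↔ y ∈ s₁) := by
        intro x y; rw [hs₁, hs₁]; exact two_classes h3 0 x y
      set s' : Finset (Fin 8) := s₁.map g.toEmbedding with hs'
      have hs'm : ∀ x, x ∈ s' ↔ g⁻¹ x ∈ s₁ := by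
        intro x
        rw [hs', Finset.mem_map]
        constructor
        · rintro ⟨y, hy, rfl⟩
          show g⁻¹ (g y) ∈ s₁
          rwa [inv_app]
        · intro h; exact ⟨g⁻¹ x, h, app_inv g x⟩
      have hinv : ∀ x ∈ NN (Setoid.ker f8), Perm.sign x = 1 → ∀ y z, ((x y ∈ s' ↔ x z ∈ s') ↔ (y ∈ s' ↔ z ∈ s')) := by
        intro x hx hs y z
        have h6 := (hg x hx hs).1 (g⁻¹ y) (g⁻¹ z)
        rw [hcls, hcls] at h6
        rw [Perm.mul_apply, Perm.mul_apply, Perm.mul_apply, Perm.mul_apply, app_inv, app_inv] at h6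
        rw [hs'm, hs'm, hs'm, hs'm]; exact h6
      refine dec8 s' (by rw [hs', Finset.card_map, hc₁]) ⟨hinv a8 ?_ ?_, hinv b8 ?_ ?_, hinv c8 ?_ ?_⟩
      · have : ∀ x, f8 (a8 x) = f8 x := by decide +kernel
        exact this
      · decide +kernel
      · have : ∀ x, f8 (b8 x) = f8 x := by decide +kernel
        exact this
      · decide +kernel
      · have : ∀ x, f8 (c8 x) = f8 x := by decide +kernel
        exact this
      · decide +kernel
  · rintro (h | h)
    · rw [dpi_congr (π' := {p | p ∈ π ∧ p ∣ Nat.card (alternatingGroup (Fin n))}) (fun p hp hd => ⟨fun h => ⟨h, hd⟩, fun h => h.1⟩)]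
      exact H64HallPi.isDPiGroup_of_cond (Or.inl fun p q hp hq hpπ hqπ => h p q hp hq hpπ.1 hqπ.1 hpπ.2 hqπ.2)
    · rw [dpi_congr (π' := Set.univ) (fun p hp hd => ⟨fun _ => Set.mem_univ _, fun _ => h p hp hd⟩)]
      exact H64HallPi.isDPiGroup_of_cond (Or.inr fun p hp => Set.mem_univ _)

end Cfsg.Agent.S2534
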