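import Cfsg.Statements.S2537
import Cfsg.Agent.S0802
import Cfsg.Agent.S0803
import Cfsg.Agent.Lib.DkSub
import Cfsg.Agent.Lib.MobSolv
import Cfsg.Agent.Lib.DkSubMax
import Cfsg.Agent.Lib.HallPi

set_option autoImplicit false
open Cfsg

namespace Cfsg.Agent.S2537

open Cfsg.Agent.Lib Cfsg.Agent.Lib.MobCount MulAction Matrix Subgroup
open scoped LinearAlgebra.Projectivization MatrixGroups

variable {F : Type*} [Field F] [Fintype F]

/-- the `{2,3}`-part -/
def mm (q : ℕ) : ℕ := 2 ^ (q ^ 2 - 1).factorization 2 * 3 ^ (q ^ 2 - 1).factorization 3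

theorem mm_dvd (q : ℕ) : mm q ∣ q ^ 2 - 1 :=
  Nat.Coprime.mul_dvd_of_dvd_of_dvd (Nat.Coprime.pow _ _ (by norm_num)) (Nat.ordProj_dvd _ _) (Nat.ordProj_dvd _ _)

theorem dvd_mm {q n : ℕ} (hq : 2 ≤ q) (hn : n ∣ q ^ 2 - 1) (h : ∀ p : ℕ, p.Prime → p ∣ n → p = 2 ∨ p = 3) : n ∣ mm q := by
  have hpos : q ^ 2 - 1 ≠ 0 := by
    have : 2 ^ 2 ≤ q ^ 2 := Nat.pow_le_pow_left hq 2
    omega
  rw [Nat.dvd_iff_prime_pow_dvd_dvd]
  intro p k hp hk
  rcases Nat.eq_zero_or_pos k with rfl | hk0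
  · simp
  have h1 : p ∣ n := (dvd_pow_self p (by omega)).trans hk
  have h2 : k ≤ (q ^ 2 - 1).factorization p := (hp.pow_dvd_iff_le_factorization hpos).1 (hk.trans hn)
  unfold mm
  rcases h p hp h1 with rfl | rfl
  · exact (pow_dvd_pow 2 h2).mul_right _
  · exact (pow_dvd_pow 3 h2).mul_left _

theorem not_two {q : ℕ} (hq : 2 ≤ q) : ¬ 2 ^ ((q ^ 2 - 1).factorization 2 + 1) ∣ q ^ 2 - 1 := by
  have hpos : q ^ 2 - 1 ≠ 0 := by
    have : 2 ^ 2 ≤ q ^ 2 := Nat.pow_le_pow_left hq 2
    omega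
  rw [Nat.Prime.pow_dvd_iff_le_factorization Nat.prime_two hpos]
  omega

theorem not_three {q : ℕ} (hq : 2 ≤ q) : ¬ 3 ^ ((q ^ 2 - 1).factorization 3 + 1) ∣ q ^ 2 - 1 := by
  have hpos : q ^ 2 - 1 ≠ 0 := by
    have : 2 ^ 2 ≤ q ^ 2 := Nat.pow_le_pow_left hq 2
    omega
  rw [Nat.Prime.pow_dvd_iff_le_factorization Nat.prime_three hpos]
  omega

theorem sq_sub {q : ℕ} (hq : 2 ≤ q) : q ^ 2 - 1 = (q - 1) * (q + 1) := by
  obtain ⟨t, rfl⟩ : ∃ t, q = t + 1 := ⟨q - 1, by omega⟩
  have : (t + 1) ^ 2 = t * (t + 1 + 1) + 1 := by ring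
  rw [this]; simp

theorem coprime_of_index {q i : ℕ} (hq : 2 ≤ q) (hq2 : Nat.Coprime q 2) (hq3 : Nat.Coprime q 3) (h : i * mm q = q * (q ^ 2 - 1)) :
    ¬ 2 ∣ i ∧ ¬ 3 ∣ i := by
  have hm : mm q = 2 ^ (q ^ 2 - 1).factorization 2 * 3 ^ (q ^ 2 - 1).factorization 3 := rfl
  constructor
  · rintro ⟨c, rfl⟩
    apply not_two hq
    apply (Nat.Coprime.pow_left _ hq2.symm).dvd_of_dvd_mul_left
    rw [← h, hm]
    exact ⟨c * 3 ^ (q ^ 2 - 1).factorization 3, by ring⟩
  · rintro ⟨c, rfl⟩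
    apply not_three hq
    apply (Nat.Coprime.pow_left _ hq3.symm).dvd_of_dvd_mul_left
    rw [← h, hm]
    exact ⟨c * 2 ^ (q ^ 2 - 1).factorization 2, by ring⟩

theorem eight_dvd {q : ℕ} (hodd : q % 2 = 1) : 8 ∣ q ^ 2 - 1 := by
  have h8 : q % 8 = 1 ∨ q % 8 = 3 ∨ q % 8 = 5 ∨ q % 8 = 7 := by omega
  have h1 : q ^ 2 % 8 = 1 := by
    rw [Nat.pow_mod]
    rcases h8 with h | h | h | h <;> rw [h]
  have : 1 ≤ q ^ 2 := Nat.one_le_pow _ _ (by omega)
  omega

theorem three_dvd {q : ℕ} (h3 : q % 3 ≠ 0) : 3 ∣ q ^ 2 - 1 := by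
  have h8 : q % 3 = 1 ∨ q % 3 = 2 := by omega
  have h1 : q ^ 2 % 3 = 1 := by
    rw [Nat.pow_mod]
    rcases h8 with h | h <;> rw [h]
  have : 1 ≤ q ^ 2 := Nat.one_le_pow _ _ (by omega)
  omega

theorem result' {p : ℕ} [Fact p.Prime] [CharP F p]
    (hp : 5 ≤ p) (q : ℕ) (hq : Fintype.card F = q) :
    (∃ H : Subgroup (Matrix.ProjectiveSpecialLinearGroup (Fin 2) F), Cfsg.IsPiHall ({2, 3} : Set ℕ) H) ↔
      (3 ∣ q - 1 ∧ q % 4 = 1) ∨ (3 ∣ q + 1 ∧ q % 4 = 3) ∨ mm q = 24 ∨ mm q = 48 := by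
  classical
  have hpp : p.Prime := Fact.out
  obtain ⟨n, hn0, hn⟩ := FiniteField.card F p
  rw [hq] at hn
  have hqp : ∀ r : ℕ, r.Prime → r < 5 → Nat.Coprime q r := by
    intro r hr hr5
    rw [hn]
    exact Nat.Coprime.pow_left _ ((Nat.coprime_primes hpp hr).2 (by omega))
  have hq2 := hqp 2 Nat.prime_two (by norm_num)
  have hq3 := hqp 3 Nat.prime_three (by norm_num)
  have hodd' : Odd q := Nat.coprime_two_right.1 hq2
  have hodd : q % 2 = 1 := Nat.odd_iff.1 hodd'
  have hq30 : q % 3 ≠ 0 := by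
    intro h
    have h1 : 3 ∣ Nat.gcd q 3 := Nat.dvd_gcd (Nat.dvd_of_mod_eq_zero h) dvd_rfl
    rw [hq3] at h1
    exact absurd h1 (by norm_num)
  have hq5 : 5 ≤ q := by
    rw [hn]
    calc 5 ≤ p := hp
      _ = p ^ 1 := (pow_one p).symm
      _ ≤ p ^ (n : ℕ) := Nat.pow_le_pow_right hpp.pos n.pos
  have hgcd : Nat.gcd 2 (q - 1) = 2 := Nat.gcd_eq_left (by omega)
  have hG := card_P2 (F := F) hq
  rw [hgcd] at hG
  have h8m : 8 ∣ mm q := dvd_mm (by omega) (eight_dvd hodd) (by
    intro r hr hd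
    left
    have : r ∣ 2 ^ 3 := hd
    exact (Nat.prime_dvd_prime_iff_eq hr Nat.prime_two).1 (hr.dvd_of_dvd_pow this))
  have h3m : 3 ∣ mm q := dvd_mm (by omega) (three_dvd hq30) (by
    intro r hr hd
    right; exact (Nat.prime_dvd_prime_iff_eq hr Nat.prime_three).1 hd)
  have hpG : p ∣ Nat.card (P2 F) := by
    have h1 : p ∣ 2 * Nat.card (P2 F) := by
      rw [hG, hn]; exact (dvd_pow_self p n.ne_zero).mul_right _
    rcases hpp.dvd_mul.1 h1 with h | h
    · have := Nat.le_of_dvd (by norm_num) h; omega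
    · exact h
  constructor
  · rintro ⟨H, hH1, hH2⟩
    have hH1' : ∀ r : ℕ, r.Prime → r ∣ Nat.card H → r = 2 ∨ r = 3 := fun r hr hd => hH1 r hr hd
    have hm : 2 * Nat.card H = mm q := by
      have hmul : 2 * Nat.card H * H.index = q * (q ^ 2 - 1) := by rw [mul_assoc, H.card_mul_index, hG]
      apply Nat.dvd_antisymm
      · apply dvd_mm (by omega)
        · have h1 : Nat.Coprime (2 * Nat.card H) q := by
            rw [Nat.coprime_mul_iff_left]
            refine ⟨hq2.symm, ?_⟩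
            apply Nat.Coprime.symm
            rw [hn]
            apply Nat.Coprime.pow_left
            rw [Nat.Prime.coprime_iff_not_dvd hpp]
            intro h
            have := hH1' p hpp h
            omega
          exact h1.dvd_of_dvd_mul_left (Dvd.intro _ hmul)
        · intro r hr hd
          rcases hr.dvd_mul.1 hd with h | h
          · left; exact (Nat.prime_dvd_prime_iff_eq hr Nat.prime_two).1 h
          · exact hH1' r hr h
      · have h1 : Nat.Coprime (mm q) H.index := by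
          unfold mm
          rw [Nat.coprime_mul_iff_left]
          constructor
          · exact Nat.Coprime.pow_left _ ((Nat.Prime.coprime_iff_not_dvd Nat.prime_two).2 (hH2 2 Nat.prime_two (by simp)))
          · exact Nat.Coprime.pow_left _ ((Nat.Prime.coprime_iff_not_dvd Nat.prime_three).2 (hH2 3 Nat.prime_three (by simp)))
        apply h1.dvd_of_dvd_mul_right
        rw [hmul]
        exact (mm_dvd q).mul_left _
    have hpH : ¬ p ∣ Nat.card H := by
      intro h
      have := hH1' p hpp h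
      omega
    have hne : H ≠ ⊤ := by
      rintro rfl
      apply hpH
      rwa [card_top]
    rcases psl_cases hq p H hne with ⟨_, _, h⟩ | ⟨C, _, _, _, h2, _, h, _⟩ | ⟨_, h, _⟩ | ⟨_, h, _⟩ | ⟨_, h, _⟩ | ⟨h, _⟩ | ⟨g, k, m, hm2, hkm, h⟩
    · exfalso
      rw [hgcd, hm] at h
      have h2v : 2 ^ (q ^ 2 - 1).factorization 2 ∣ mm q := dvd_mul_right _ _
      apply not_two (show 2 ≤ q by omega)
      rw [pow_succ]
      have e1 := sq_sub (q := q) (by omega)
      generalize (q ^ 2 - 1).factorization 2 = v at h2v ⊢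
      rw [e1]
      rcases h with h | h
      · rw [mul_comm (q - 1)]
        exact mul_dvd_mul (h2v.trans h) (by omega)
      · exact mul_dvd_mul (h2v.trans h) (by omega)
    · rw [hgcd, ← h2] at h
      have h4 : 4 ∣ Nat.card H := by
        rw [← hm] at h8m; omega
      have h3 : 3 ∣ Nat.card H := by
        rw [← hm] at h3m
        exact (Nat.Coprime.dvd_of_dvd_mul_left (by norm_num) h3m)
      rcases h with h | h
      · right; left
        have h5 := h4.trans h
        exact ⟨h3.trans h, by omega⟩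
      · left
        have h5 := h4.trans h
        exact ⟨h3.trans h, by omega⟩
    · right; right; left; rw [← hm, h]
    · right; right; right; rw [← hm, h]
    · exfalso
      have := hH1' 5 (by norm_num) (by rw [h]; norm_num)
      omega
    · exact absurd h hpH
    · exfalso
      apply hpH
      have : Fintype k := Fintype.ofFinite k
      have hcp : CharP k p := (RingHom.charP_iff k.subtype k.subtype.injective p).mpr inferInstance
      rcases h with h | h
      · rw [card_of_range_psl H g k h]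
        exact DkSubMax.card_K_dvd p k.subtype
      · rw [card_of_range_pgl H g k h, card_G2 (F := k) rfl]
        exact (ClSLn.dvd_card_field p).mul_right _
  · have key : ∀ H : Subgroup (P2 F), 2 * Nat.card H = mm q → IsPiHall ({2, 3} : Set ℕ) H := by
      intro H hm
      have h1 : H.index * mm q = q * (q ^ 2 - 1) := by
        rw [← hm, ← hG, ← H.card_mul_index]; ring
      obtain ⟨h2, h3⟩ := coprime_of_index (by omega) hq2 hq3 h1
      refine ⟨fun r hr hd => ?_, fun r hr hrπ hd => ?_⟩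
      · have h4 : r ∣ mm q := by rw [← hm]; exact hd.mul_left _
        unfold mm at h4
        rcases hr.dvd_mul.1 h4 with h | h
        · left; exact (Nat.prime_dvd_prime_iff_eq hr Nat.prime_two).1 (hr.dvd_of_dvd_pow h)
        · right; exact (Nat.prime_dvd_prime_iff_eq hr Nat.prime_three).1 (hr.dvd_of_dvd_pow h)
      · rcases hrπ with rfl | rfl
        · exact h2 hd
        · exact h3 hd
    have hdih : ∀ e f : ℕ, (e = q - 1 ∧ f = q + 1 ∨ e = q + 1 ∧ f = q - 1) → 3 ∣ e → 4 ∣ e →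
        ∃ H : Subgroup (P2 F), IsPiHall ({2, 3} : Set ℕ) H := by
      intro e f hef h3e h4e
      have h3G : 3 ∣ Nat.card (P2 F) := by
        have h1 : 3 ∣ 2 * Nat.card (P2 F) := by
          rw [hG]; exact (three_dvd hq30).mul_left _
        exact (Nat.Coprime.dvd_of_dvd_mul_left (by norm_num) h1)
      have : Fact (Nat.Prime 3) := ⟨Nat.prime_three⟩
      obtain ⟨c, hc⟩ := exists_prime_orderOf_dvd_card' (G := P2 F) 3 h3G
      obtain ⟨k, N, hk, hN, ⟨en⟩, hnorm⟩ := DkSub.psl_torus p (by omega) c (by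
        rintro rfl; rw [orderOf_one] at hc; omega) (by
        rw [hc]; intro h; have := Nat.le_of_dvd (by norm_num) h; omega)
      rw [hq, hgcd] at hk
      have hcN : c ∈ N := hnorm c (by
        rw [mul_inv_cancel_right]; exact Subgroup.mem_zpowers c)
      have h3k : 3 ∣ 2 * k := by
        rw [← hN, ← hc]
        have := orderOf_dvd_natCard (⟨c, hcN⟩ : N)
        rwa [orderOf_mk] at this
      have hke : 2 * k = e := by
        rcases hk with h | h <;> rcases hef with ⟨h1, h2⟩ | ⟨h1, h2⟩ <;> omega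
      have hsol : Group.IsSolvable N := by
        have hcyc : IsCyclic (Subgroup.zpowers (DihedralGroup.r (1 : ZMod k))) := inferInstance
        have hk0 : NeZero k := ⟨by rintro rfl; rw [mul_zero] at hke; rw [← hke] at h4e; rcases hef with ⟨h, _⟩ | ⟨h, _⟩ <;> omega⟩
        have h1 : Group.IsSolvable (DihedralGroup k) :=
          isSolvable_of_cyclic_index_two (Subgroup.zpowers (DihedralGroup.r (1 : ZMod k))) (by
            rw [Nat.card_zpowers, DihedralGroup.orderOf_r_one, DihedralGroup.nat_card])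
        exact Group.isSolvable_of_isSolvable_injective (f := en.toMonoidHom) en.injective
      obtain ⟨H, hH⟩ := HallPi.exists_isPiHallOf hsol ({2, 3} : Set ℕ)
      refine ⟨H, HallPi.isPiHall_of_isPiHallOf hH ?_⟩
      have hNi : 2 * N.index = q * f := by
        have h1 := N.card_mul_index
        rw [hN, hke] at h1
        have h2 : e * (2 * N.index) = e * (q * f) := by
          calc e * (2 * N.index) = 2 * (e * N.index) := by ring
            _ = q * (q ^ 2 - 1) := by rw [h1, hG]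
            _ = e * (q * f) := by
              rw [sq_sub (by omega)]
              rcases hef with ⟨rfl, rfl⟩ | ⟨rfl, rfl⟩ <;> ring
        exact Nat.eq_of_mul_eq_mul_left (by rcases hef with ⟨h, _⟩ | ⟨h, _⟩ <;> omega) h2
      intro r hr hd hrπ
      rcases hrπ with rfl | rfl
      · obtain ⟨c', hc'⟩ := hd
        have h1 : 4 ∣ q * f := ⟨c', by rw [← hNi, hc']; ring⟩
        have h2 : Nat.Coprime 4 q := by
          have : Nat.Coprime (2 ^ 2) q := Nat.Coprime.pow_left 2 hq2.symm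
          exact this
        have h3 := h2.dvd_of_dvd_mul_left h1
        rcases hef with ⟨h, h'⟩ | ⟨h, h'⟩ <;> omega
      · have h1 : 3 ∣ q * f := by rw [← hNi]; exact hd.mul_left _
        have h3 := (hq3.symm).dvd_of_dvd_mul_left h1
        rcases hef with ⟨h, h'⟩ | ⟨h, h'⟩ <;> omega
    rintro (⟨h3, h4⟩ | ⟨h3, h4⟩ | h | h)
    · exact hdih (q - 1) (q + 1) (Or.inl ⟨rfl, rfl⟩) h3 (by omega)
    · exact hdih (q + 1) (q - 1) (Or.inr ⟨rfl, rfl⟩) h3 (by omega)
    · obtain ⟨H, ⟨e⟩⟩ := (Cfsg.Agent.S0802.result p n (hq.trans hn)).2 (by rintro ⟨h, _⟩; omega)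
      refine ⟨H, key H ?_⟩
      rw [Nat.card_congr e.toEquiv, h]
      have := two_mul_nat_card_alternatingGroup (α := Fin 4)
      rw [this, Nat.card_eq_fintype_card, Fintype.card_perm]; rfl
    · obtain ⟨H, ⟨e⟩⟩ := (Cfsg.Agent.S0803.result hq).2 (by
        have h16 : 16 ∣ q ^ 2 - 1 := by
          have h1 : 16 ∣ mm q := by rw [h]; norm_num
          exact h1.trans (mm_dvd q)
        have : 1 ≤ q ^ 2 := Nat.one_le_pow _ _ (by omega)
        omega)
      refine ⟨H, key H ?_⟩
      rw [Nat.card_congr e.toEquiv, h, Nat.card_eq_fintype_card, Fintype.card_perm]; rfl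

/-- Let `F` be a finite field with `q` elements of characteristic `p ≥ 5`, and `ε = 1` if `q ≡ 1 (mod 4)`, `ε = -1` otherwise. Then `PSL(2, F)` has a Hall `{2, 3}`-subgroup if and only if `3` divides `q − ε`, or the `{2,3}`-part of `q² − 1` is 24, or the `{2,3}`-part of `q² − 1` is 48 (the `{2,3}`-part of `m` being the largest divisor of `m` with no prime factor other than 2 and 3). -/
theorem result {F : Type*} [Field F] [Fintype F] {p : ℕ} [Fact p.Prime] [CharP F p]
    (hp : 5 ≤ p) (q : ℕ) (hq : Fintype.card F = q) :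
    (∃ H : Subgroup (Matrix.ProjectiveSpecialLinearGroup (Fin 2) F), Cfsg.IsPiHall ({2, 3} : Set ℕ) H) ↔
      (3 ∣ q - 1 ∧ q % 4 = 1) ∨ (3 ∣ q + 1 ∧ q % 4 = 3) ∨
        2 ^ (q ^ 2 - 1).factorization 2 * 3 ^ (q ^ 2 - 1).factorization 3 = 24 ∨
        2 ^ (q ^ 2 - 1).factorization 2 * 3 ^ (q ^ 2 - 1).factorization 3 = 48 :=
  result' hp q hq

end Cfsg.Agent.S2537
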