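import Cfsg.Statements.S2538
import Cfsg.Agent.Lib.HallSym5

set_option autoImplicit false
open Cfsg

namespace Cfsg.Agent.S2538

open Equiv Cfsg.Agent.Lib Cfsg.Agent.Lib.HallSym Subgroup

/-- For every `n` and every set of primes `π`, a subgroup of the alternating group of degree `n` is a Hall `π`-subgroup of it if and only if it is the intersection with the alternating group of some Hall `π`-subgroup of the symmetric group of degree `n`. -/
theorem result (n : ℕ) (π : Set ℕ)
    (M : Subgroup ↥(alternatingGroup (Fin n))) :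
    Cfsg.IsPiHall π M ↔ ∃ M₀ : Subgroup (Equiv.Perm (Fin n)), Cfsg.IsPiHall π M₀ ∧ M = M₀.subgroupOf (alternatingGroup (Fin n)) := by
  have key : ∀ M₀ : Subgroup (Equiv.Perm (Fin n)), Cfsg.IsPiHall π M₀ → IsPiHall π (M₀.subgroupOf (alternatingGroup (Fin n))) := by
    intro M₀ hM₀
    have h1 := HallPi.isPiHallOf_inf_normal (N := alternatingGroup (Fin n)) hM₀
    have h2 := (HallPi.isPiHallOf_iff_subgroupOf inf_le_right).1 h1
    rwa [inf_subgroupOf_right] at h2
  constructor
  · intro hM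
    obtain ⟨M₀, hM₀⟩ := sym_of_alt ⟨M, hM⟩
    obtain ⟨g, hg⟩ := (c_alt ⟨M, hM⟩).2 _ M (key M₀ hM₀) hM
    refine ⟨M₀.map (MulAut.conj (g : Perm (Fin n))).toMonoidHom, ?_, ?_⟩
    · have := HallPi.isPiHall_conj_smul (g : Perm (Fin n)) hM₀
      exact this
    · rw [hg]
      ext x
      rw [RelSylow.mem_conj_iff, mem_subgroupOf, mem_subgroupOf, RelSylow.mem_conj_iff]
      rfl
  · rintro ⟨M₀, hM₀, rfl⟩
    exact key M₀ hM₀

end Cfsg.Agent.S2538
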