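import Cfsg.Statements.S2540
import Cfsg.Agent.Lib.ClSLn
import Cfsg.Agent.Lib.ClSymp3

set_option autoImplicit false
open Cfsg

namespace Cfsg.Agent.S2540

open Matrix Cfsg.Agent.Lib
open scoped commutatorElement

/-- Let F be a finite field and n ≥ 1, excluding the case n = 2 with #F ≤ 3. A subgroup of GL_n(F) that is normalized by every element of SL_n(F) either consists of scalar matrices or contains SL_n(F). -/
theorem result {F : Type*} [Field F] [Fintype F] (n : ℕ) (hn : 1 ≤ n) (hex : ¬ (n = 2 ∧ Fintype.card F ≤ 3)) (G : Subgroup (Matrix.GeneralLinearGroup (Fin n) F)) (hG : ∀ s : Matrix.SpecialLinearGroup (Fin n) F, ∀ g ∈ G, (Matrix.SpecialLinearGroup.toGL s) * g * (Matrix.SpecialLinearGroup.toGL s)⁻¹ ∈ G) : (∀ g ∈ G, ∃ c : F, (g : Matrix (Fin n) (Fin n) F) = c • (1 : Matrix (Fin n) (Fin n) F)) ∨ (Matrix.SpecialLinearGroup.toGL : Matrix.SpecialLinearGroup (Fin n) F →* _).range ≤ G := by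
  classical
  rcases Nat.lt_or_ge n 2 with hn1 | hn2
  · left
    have hn1' : n = 1 := by omega
    subst hn1'
    intro g _
    refine ⟨(g : Matrix (Fin 1) (Fin 1) F) 0 0, ?_⟩
    ext i j
    rw [Subsingleton.elim i 0, Subsingleton.elim j 0]
    simp
  have hsq : n = 2 → ∃ a : F, a ≠ 0 ∧ a ^ 2 ≠ 1 := by
    intro h2
    apply ClSymp3.exists_sq_ne_one_of_four_le
    by_contra hcon
    exact hex ⟨h2, by omega⟩
  have hsimple := ClSLn.isSimpleGroup_PSL (F := F) hn2 hsq
  have hperf : commutator (SpecialLinearGroup (Fin n) F) = ⊤ := ClSLn.commutator_SL_eq_top' (by simpa using hsq)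
  -- the normal subgroup
  let N : Subgroup (SpecialLinearGroup (Fin n) F) := G.comap (Matrix.SpecialLinearGroup.toGL : SpecialLinearGroup (Fin n) F →* _)
  have hNmem : ∀ x, x ∈ N ↔ Matrix.SpecialLinearGroup.toGL x ∈ G := fun x => Iff.rfl
  have hNn : N.Normal := by
    constructor
    intro x hx s
    rw [hNmem, map_mul, map_mul, map_inv]
    exact hG s _ hx
  let π : SpecialLinearGroup (Fin n) F →* Matrix.ProjectiveSpecialLinearGroup (Fin n) F :=
    QuotientGroup.mk' (Subgroup.center (SpecialLinearGroup (Fin n) F))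
  have hπ : Function.Surjective π := QuotientGroup.mk'_surjective _
  have hmapn : (N.map π).Normal := hNn.map π hπ
  rcases hsimple.eq_bot_or_eq_top_of_normal (N.map π) hmapn with hbot | htop
  · left
    have hNc : N ≤ Subgroup.center (SpecialLinearGroup (Fin n) F) := by
      intro x hx
      have h1 : π x ∈ N.map π := ⟨x, hx, rfl⟩
      rw [hbot, Subgroup.mem_bot] at h1
      exact (QuotientGroup.eq_one_iff x).mp h1
    intro g hg
    -- the commutator map
    have hcomm : ∀ s : SpecialLinearGroup (Fin n) F, ∃ c : SpecialLinearGroup (Fin n) F, c ∈ Subgroup.center (SpecialLinearGroup (Fin n) F) ∧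
        g * SpecialLinearGroup.toGL s * g⁻¹ = SpecialLinearGroup.toGL (c * s) := by
      intro s
      have h1 : ∃ t : SpecialLinearGroup (Fin n) F, SpecialLinearGroup.toGL t = g * SpecialLinearGroup.toGL s * g⁻¹ := by
        refine ⟨⟨((g * SpecialLinearGroup.toGL s * g⁻¹ : GL (Fin n) F) : Matrix (Fin n) (Fin n) F), ?_⟩, ?_⟩
        · rw [← Matrix.GeneralLinearGroup.val_det_apply, map_mul, map_mul, map_inv, mul_comm, inv_mul_cancel_left]
          exact s.2
        · apply Units.ext; rfl
      obtain ⟨t, ht⟩ := h1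
      refine ⟨t * s⁻¹, ?_, by rw [inv_mul_cancel_right, ht]⟩
      apply hNc
      rw [hNmem, map_mul, map_inv, ht]
      have h2 : g * SpecialLinearGroup.toGL s * g⁻¹ * (SpecialLinearGroup.toGL s)⁻¹ =
          g * (SpecialLinearGroup.toGL s * g⁻¹ * (SpecialLinearGroup.toGL s)⁻¹) := by group
      rw [h2]
      exact G.mul_mem hg (hG s _ (G.inv_mem hg))
    -- g commutes with commutators
    let C : Subgroup (SpecialLinearGroup (Fin n) F) := (Subgroup.centralizer ({g} : Set (GL (Fin n) F))).comap
      (Matrix.SpecialLinearGroup.toGL : SpecialLinearGroup (Fin n) F →* _)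
    have hC : commutator (SpecialLinearGroup (Fin n) F) ≤ C := by
      rw [commutator_def, Subgroup.commutator_le]
      intro x _ y _
      obtain ⟨a, ha, hxa⟩ := hcomm x
      obtain ⟨b, hb, hyb⟩ := hcomm y
      show SpecialLinearGroup.toGL ⁅x, y⁆ ∈ Subgroup.centralizer ({g} : Set (GL (Fin n) F))
      rw [Subgroup.mem_centralizer_singleton_iff]
      have h1 : g * SpecialLinearGroup.toGL ⁅x, y⁆ * g⁻¹ = SpecialLinearGroup.toGL ⁅a * x, b * y⁆ := by
        rw [commutatorElement_def, commutatorElement_def]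
        simp only [map_mul, map_inv] at hxa hyb ⊢
        rw [← hxa, ← hyb]
        group
      have h2 : ⁅a * x, b * y⁆ = ⁅x, y⁆ := by
        rw [Subgroup.mem_center_iff] at ha hb
        rw [commutatorElement_def, commutatorElement_def]
        have e1 : a * x * (b * y) = (a * b) * (x * y) := by
          calc a * x * (b * y) = a * (x * b) * y := by group
            _ = a * (b * x) * y := by rw [hb x]
            _ = (a * b) * (x * y) := by group
        have e2 : (a * x)⁻¹ * (b * y)⁻¹ = (x⁻¹ * y⁻¹) * (a * b)⁻¹ := by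
          have h3 : (b * y) * (a * x) = (a * b) * (y * x) := by
            calc (b * y) * (a * x) = b * (y * a) * x := by group
              _ = b * (a * y) * x := by rw [ha y]
              _ = (b * a) * (y * x) := by group
              _ = (a * b) * (y * x) := by rw [ha b]
          rw [← _root_.mul_inv_rev, h3, _root_.mul_inv_rev, _root_.mul_inv_rev]
        calc a * x * (b * y) * (a * x)⁻¹ * (b * y)⁻¹ = (a * x * (b * y)) * ((a * x)⁻¹ * (b * y)⁻¹) := by group
          _ = (a * b) * (x * y) * ((x⁻¹ * y⁻¹) * (a * b)⁻¹) := by rw [e1, e2]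
          _ = (a * b) * (x * y * x⁻¹ * y⁻¹) * (a * b)⁻¹ := by group
          _ = x * y * x⁻¹ * y⁻¹ := by
            have h4 : (a * b) * (x * y * x⁻¹ * y⁻¹) = (x * y * x⁻¹ * y⁻¹) * (a * b) := by
              rw [mul_assoc, ← hb, ← mul_assoc, ← ha, mul_assoc]
            rw [h4, mul_inv_cancel_right]
      rw [h2] at h1
      exact (mul_inv_eq_iff_eq_mul.mp h1).symm
    rw [hperf] at hC
    have hscal : (g : Matrix (Fin n) (Fin n) F) ∈ Set.range (Matrix.scalar (Fin n)) := by
      apply Matrix.mem_range_scalar_of_commute_transvectionStruct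
      intro t
      obtain ⟨T, hT⟩ : ∃ T : SpecialLinearGroup (Fin n) F, (T : Matrix (Fin n) (Fin n) F) = t.toMatrix := ⟨⟨t.toMatrix, t.det⟩, rfl⟩
      have h1 : T ∈ C := hC (Subgroup.mem_top _)
      have h2 := (Subgroup.mem_centralizer_singleton_iff.mp (Subgroup.mem_comap.mp h1))
      have h3 := congrArg (fun u : GL (Fin n) F => (u : Matrix (Fin n) (Fin n) F)) h2
      simp only [Units.val_mul] at h3
      rw [← hT]
      exact h3
    obtain ⟨c, hc⟩ := hscal
    refine ⟨c, ?_⟩
    rw [← hc, Matrix.scalar_apply, Matrix.smul_one_eq_diagonal]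
  · right
    rw [MonoidHom.range_eq_map, Subgroup.map_le_iff_le_comap]
    show ⊤ ≤ N
    rw [← hperf, commutator_def, Subgroup.commutator_le]
    have hdec : ∀ x : SpecialLinearGroup (Fin n) F, ∃ a ∈ N, ∃ c ∈ Subgroup.center (SpecialLinearGroup (Fin n) F), x = c * a := by
      intro x
      have h1 : π x ∈ N.map π := by rw [htop]; trivial
      obtain ⟨a, ha, hax⟩ := h1
      refine ⟨a, ha, x * a⁻¹, ?_, by group⟩
      rw [← QuotientGroup.eq_one_iff]
      show π (x * a⁻¹) = 1
      rw [map_mul, map_inv, ← hax, mul_inv_cancel]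
    intro x _ y _
    obtain ⟨a, ha, c, hc, rfl⟩ := hdec x
    obtain ⟨b, hb, d, hd, rfl⟩ := hdec y
    have h1 : ⁅c * a, d * b⁆ = ⁅a, b⁆ := by
      rw [Subgroup.mem_center_iff] at hc hd
      rw [commutatorElement_def, commutatorElement_def]
      have e1 : c * a * (d * b) = (c * d) * (a * b) := by
        calc c * a * (d * b) = c * (a * d) * b := by group
          _ = c * (d * a) * b := by rw [hd a]
          _ = (c * d) * (a * b) := by group
      have e2 : (c * a)⁻¹ * (d * b)⁻¹ = (a⁻¹ * b⁻¹) * (c * d)⁻¹ := by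
        have h3 : (d * b) * (c * a) = (c * d) * (b * a) := by
          calc (d * b) * (c * a) = d * (b * c) * a := by group
            _ = d * (c * b) * a := by rw [hc b]
            _ = (d * c) * (b * a) := by group
            _ = (c * d) * (b * a) := by rw [hc d]
        rw [← _root_.mul_inv_rev, h3, _root_.mul_inv_rev, _root_.mul_inv_rev]
      calc c * a * (d * b) * (c * a)⁻¹ * (d * b)⁻¹ = (c * a * (d * b)) * ((c * a)⁻¹ * (d * b)⁻¹) := by group
        _ = (c * d) * (a * b) * ((a⁻¹ * b⁻¹) * (c * d)⁻¹) := by rw [e1, e2]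
        _ = (c * d) * (a * b * a⁻¹ * b⁻¹) * (c * d)⁻¹ := by group
        _ = a * b * a⁻¹ * b⁻¹ := by
          have h4 : (c * d) * (a * b * a⁻¹ * b⁻¹) = (a * b * a⁻¹ * b⁻¹) * (c * d) := by
            rw [mul_assoc, ← hd, ← mul_assoc, ← hc, mul_assoc]
          rw [h4, mul_inv_cancel_right]
    rw [h1, commutatorElement_def]
    exact N.mul_mem (N.mul_mem (N.mul_mem ha hb) (N.inv_mem ha)) (N.inv_mem hb)

end Cfsg.Agent.S2540
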