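import Cfsg.Statements.S2541

set_option autoImplicit false
open Cfsg

namespace Cfsg.Agent.S2541

theorem perm_six_pow (g : Equiv.Perm (Fin 6)) (hg : orderOf g ∣ 8) : g ^ 4 = 1 := by
  apply orderOf_dvd_iff_pow_eq_one.mp
  rw [← Equiv.Perm.lcm_cycleType]
  apply Multiset.lcm_dvd.mpr
  intro n hn
  have h1 : n ∣ 8 := (Equiv.Perm.dvd_of_mem_cycleType hn).trans hg
  have h2 : n ≤ 6 := by
    have := Equiv.Perm.sum_cycleType_le g
    have h3 := Multiset.single_le_sum (fun _ _ => Nat.zero_le _) n hn
    simp at this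
    omega
  have h3 : 0 < n := Nat.pos_of_dvd_of_pos h1 (by norm_num)
  interval_cases n <;> revert h1 <;> decide

/-- Let F be a field with 9 elements. The symmetric group S_6 is not isomorphic to PGL_2(F) (although both have index-2 subgroups isomorphic to A_6). -/
theorem result {F : Type*} [Field F] [Fintype F] (hF : Fintype.card F = 9) : ¬ Nonempty (Equiv.Perm (Fin 6) ≃* Matrix.ProjGenLinGroup (Fin 2) F) := by
  rintro ⟨e⟩
  classical
  obtain ⟨a, ha⟩ := IsCyclic.exists_generator (α := Fˣ)
  have hord : orderOf a = 8 := by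
    rw [orderOf_eq_card_of_forall_mem_zpowers ha, Nat.card_units, Nat.card_eq_fintype_card, hF]
  let D : (Fin 2 → Fˣ) := ![a, 1]
  let M : GL (Fin 2) F := ⟨Matrix.diagonal ![(a : F), 1], Matrix.diagonal ![((a⁻¹ : Fˣ) : F), 1],
    by rw [Matrix.diagonal_mul_diagonal]; ext i j; fin_cases i <;> fin_cases j <;> simp,
    by rw [Matrix.diagonal_mul_diagonal]; ext i j; fin_cases i <;> fin_cases j <;> simp⟩
  have hM : ∀ k : ℕ, ((M ^ k : GL (Fin 2) F) : Matrix (Fin 2) (Fin 2) F) = Matrix.diagonal ![(a : F) ^ k, 1] := by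
    intro k
    rw [Units.val_pow_eq_pow_val]
    show (Matrix.diagonal ![(a : F), 1]) ^ k = _
    rw [Matrix.diagonal_pow]
    congr 1
    ext i; fin_cases i <;> simp
  set g := e.symm (Matrix.ProjGenLinGroup.mk M) with hg
  have h8 : g ^ 8 = 1 := by
    rw [hg, ← map_pow, ← map_pow]
    have : M ^ 8 = 1 := by
      apply Units.ext
      rw [hM]
      have : (a : F) ^ 8 = 1 := by
        have := pow_orderOf_eq_one a
        rw [hord] at this
        have h9 := congrArg Units.val this
        rwa [Units.val_pow_eq_pow_val, Units.val_one] at h9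
      rw [this]
      ext i j; fin_cases i <;> fin_cases j <;> simp
    rw [this, map_one, map_one]
  have h4 : g ^ 4 = 1 := perm_six_pow g (orderOf_dvd_iff_pow_eq_one.mpr h8)
  have h5 : Matrix.ProjGenLinGroup.mk (M ^ 4) = 1 := by
    rw [hg, ← map_pow, ← map_pow] at h4
    exact (map_eq_one_iff e.symm e.symm.injective).mp h4
  rw [Matrix.ProjGenLinGroup.mk_eq_one, Matrix.GeneralLinearGroup.center_eq_range_scalar] at h5
  obtain ⟨u, hu⟩ := h5
  have h6 := hM 4
  rw [← hu] at h6
  have h00 := congrFun (congrFun h6 0) 0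
  have h11 := congrFun (congrFun h6 1) 1
  simp at h00 h11
  have h7 : a ^ 4 = 1 := by
    apply Units.ext
    rw [Units.val_pow_eq_pow_val, ← h00, h11]
  have := orderOf_dvd_of_pow_eq_one h7
  rw [hord] at this
  norm_num at this

end Cfsg.Agent.S2541
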