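import Cfsg.Statements.S2542
import Cfsg.Agent.S0804
import Cfsg.Agent.S0675
import Cfsg.Agent.Lib.MobSolv
import Cfsg.Agent.Lib.DkOdd

set_option autoImplicit false
open Cfsg

namespace Cfsg.Agent.S2542

open Cfsg.Agent.Lib Cfsg.Agent.Lib.MobCount MulAction Matrix Subgroup

variable {F : Type*} [Field F] [Fintype F]

/-- Let F be a field with 11 elements. PSL_2(F) has a subgroup H of index 11 isomorphic to the alternating group A_5, and the action of PSL_2(F) on the cosets of H is 2-transitive (of degree 11). -/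
theorem result {F : Type*} [Field F] [Fintype F] (hF : Fintype.card F = 11) : ∃ H : Subgroup (Matrix.ProjectiveSpecialLinearGroup (Fin 2) F), H.index = 11 ∧ Nonempty (H ≃* alternatingGroup (Fin 5)) ∧ MulAction.IsMultiplyPretransitive (Matrix.ProjectiveSpecialLinearGroup (Fin 2) F) ((Matrix.ProjectiveSpecialLinearGroup (Fin 2) F) ⧸ H) 2 := by
  classical
  obtain ⟨H, ⟨e⟩⟩ := (Cfsg.Agent.S0804.result hF).2 (by norm_num)
  have hG : Nat.card (P2 F) = 660 := by
    have h1 := card_P2 (F := F) hF
    have h2 : Nat.gcd 2 (11 - 1) = 2 := by decide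
    rw [h2] at h1
    omega
  have hH : Nat.card H = 60 := by rw [Nat.card_congr e.toEquiv]; exact DkOdd.card_A5
  have hidx : H.index = 11 := by
    have h1 := H.card_mul_index
    rw [hG, hH] at h1
    omega
  refine ⟨H, hidx, ⟨e⟩, ?_⟩
  have hcard : Nat.card (P2 F ⧸ H) = 11 := by rw [← hidx]; rfl
  have : Fintype (P2 F ⧸ H) := Fintype.ofFinite _
  have hsimple : IsSimpleGroup (P2 F) := simple_P2 (by omega)
  let f : P2 F →* Equiv.Perm (P2 F ⧸ H) := MulAction.toPermHom (P2 F) (P2 F ⧸ H)
  have hf : ∀ (g : P2 F) (x : P2 F ⧸ H), f g x = g • x := fun g x => rfl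
  have htr : IsPretransitive f.range (P2 F ⧸ H) := by
    refine ⟨fun x y => ?_⟩
    obtain ⟨g, hg⟩ := MulAction.exists_smul_eq (P2 F) x y
    exact ⟨⟨f g, ⟨g, rfl⟩⟩, hg⟩
  have hinj : Function.Injective f := by
    rw [← MonoidHom.ker_eq_bot_iff]
    rcases (f.normal_ker).eq_bot_or_eq_top with h | h
    · exact h
    · exfalso
      have h1 : f.ker ≤ H := by
        change (MulAction.toPermHom (P2 F) (P2 F ⧸ H)).ker ≤ H
        rw [← Subgroup.normalCore_eq_ker]
        exact Subgroup.normalCore_le H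
      rw [h, top_le_iff] at h1
      rw [h1, index_top] at hidx
      omega
  rcases Cfsg.Agent.S0675.result (by rw [← Nat.card_eq_fintype_card, hcard]; norm_num) f.range with h | h
  · exfalso
    apply not_solvable_P2 (F := F) (by omega)
    have e2 : P2 F ≃* f.range := MonoidHom.ofInjective hinj
    exact Group.isSolvable_of_isSolvable_injective (f := e2.toMonoidHom) e2.injective
  · rw [is_two_pretransitive_iff] at h ⊢
    intro a b c d hab hcd
    obtain ⟨⟨_, g, rfl⟩, h1, h2⟩ := h hab hcd
    exact ⟨g, h1, h2⟩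

end Cfsg.Agent.S2542
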