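import Cfsg.Statements.S2543
import Cfsg.Agent.S0804
import Cfsg.Agent.Lib.PSL211
import Cfsg.Agent.Lib.DkPGL
import Cfsg.Agent.Lib.MobSolv
import Cfsg.Agent.Lib.RelSylow

set_option autoImplicit false
open Cfsg

namespace Cfsg.Agent.S2543

open Cfsg.Agent.Lib Cfsg.Agent.Lib.MobCount Cfsg.Agent.Lib.MobKlein MulAction Matrix
  Cfsg.Agent.Lib.ClProjLine Cfsg.Agent.Lib.DkSub Cfsg.Agent.Lib.DkMax Cfsg.Agent.Lib.DkSmall
  Cfsg.Agent.Lib.DkSubMax Cfsg.Agent.Lib.PSL211
open scoped LinearAlgebra.Projectivization MatrixGroups Pointwise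

variable {F : Type*} [Field F] [Fintype F]

theorem card_P (hF : Fintype.card F = 11) : Nat.card (P2 F) = 660 := by
  have h1 := card_P2 (F := F) hF
  have h2 : Nat.gcd 2 (11 - 1) = 2 := by decide
  rw [h2] at h1
  omega

theorem card_G (hF : Fintype.card F = 11) : Nat.card (PGL(Fin 2, F)) = 1320 := by
  rw [card_G2 (F := F) hF]; norm_num

theorem bot_lt_card (hF : Fintype.card F = 11) (k : Subfield F) : Nat.card k = 11 := by
  have : Fintype k := Fintype.ofFinite k
  have h1 := Module.card_eq_pow_finrank (K := k) (V := F)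
  rw [hF] at h1
  have h2 : Fintype.card k ∣ 11 := by
    rcases Nat.eq_zero_or_pos (Module.finrank k F) with h | h
    · rw [h, pow_zero] at h1; omega
    · rw [h1]; exact dvd_pow_self _ (by omega)
  rcases (Nat.dvd_prime (by norm_num)).1 h2 with h | h
  · have := Fintype.one_lt_card (α := k); omega
  · rw [Nat.card_eq_fintype_card, h]

theorem norm_eq (hF : Fintype.card F = 11) {H : Subgroup (P2 F)} (e : H ≃* alternatingGroup (Fin 5)) :
    Subgroup.normalizer ((H.map (tP F) : Subgroup (PGL(Fin 2, F))) : Set (PGL(Fin 2, F))) = H.map (tP F) := by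
  classical
  have hchar : CharP F 11 := by
    obtain ⟨p, hp⟩ := CharP.exists F
    have hpp : Fact p.Prime := ⟨CharP.char_is_prime F p⟩
    obtain ⟨n, _, hn⟩ := FiniteField.card F p
    rw [hF] at hn
    have : p ∣ 11 := by rw [hn]; exact dvd_pow_self p n.ne_zero
    have h11 := (Nat.prime_dvd_prime_iff_eq hpp.out (by norm_num)).1 this
    rwa [h11] at hp
  have : Fact (Nat.Prime 11) := ⟨by norm_num⟩
  set Ht := H.map (tP F) with hHt
  set N := Subgroup.normalizer (Ht : Set (PGL(Fin 2, F))) with hN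
  have hle : Ht ≤ N := Subgroup.le_normalizer
  have hcH : Nat.card H = 60 := by rw [Nat.card_congr e.toEquiv]; exact DkOdd.card_A5
  have hcHt : Nat.card Ht = 60 := by rw [hHt, Subgroup.card_map_of_injective tP_inj, hcH]
  have hdvd : 60 ∣ Nat.card N := by rw [← hcHt]; exact Subgroup.card_dvd_of_le hle
  -- embedding of A5 in N
  obtain ⟨j, hj, hjr⟩ := DkOdd.emb_of_equiv H e.symm
  have hjN : ∀ a, j a ∈ N := fun a => hle (by rw [hHt, ← hjr]; exact ⟨a, rfl⟩)
  have hnotLL : ¬ LL F ≤ N := by
    intro hLN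
    have hnorm : H.Normal := by
      refine ⟨fun x hx g => ?_⟩
      have h1 : tP F g ∈ N := hLN ⟨g, rfl⟩
      have h2 := (Subgroup.mem_normalizer_iff.1 h1 (tP F x)).1 ⟨x, hx, rfl⟩
      obtain ⟨y, hy, hyx⟩ := h2
      have : g * x * g⁻¹ = y := tP_inj (by rw [hyx, map_mul, map_mul, map_inv])
      rw [this]; exact hy
    have hs : IsSimpleGroup (P2 F) := simple_P2 (by omega)
    rcases hnorm.eq_bot_or_eq_top with h | h
    · rw [h, Subgroup.card_bot] at hcH; omega
    · rw [h, Subgroup.card_top, card_P hF] at hcH; omega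
  obtain ⟨a, b, ha, hb, hab⟩ := bad_A5
  rcases dickson 11 N.subtype N.subtype_injective with ⟨_, h2⟩ | ⟨C, hC, _, _, ht, _⟩ | ⟨_, h, _⟩ | ⟨_, h, _⟩ | ⟨_, h, _⟩ | ⟨_, x, hx⟩ | ⟨g, k, h⟩
  · exfalso
    have hcomm : ∀ x y : N, x * y = y * x := fun x y => (IsCyclic.commGroup (α := N)).mul_comm x y
    apply hab
    apply hj
    have := congrArg Subtype.val (hcomm ⟨j a, hjN a⟩ ⟨j b, hjN b⟩)
    rw [map_mul, map_mul]; exact this
  · exfalso
    have key : ∀ c : alternatingGroup (Fin 5), c * c ≠ 1 → (⟨j c, hjN c⟩ : N) ∈ C := by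
      intro c hc
      by_contra hn
      apply hc
      apply hj
      have := congrArg Subtype.val (ht _ hn)
      rw [map_mul, map_one]; exact this
    have hcomm : ∀ x y : C, x * y = y * x := fun x y => (IsCyclic.commGroup (α := C)).mul_comm x y
    apply hab
    apply hj
    have := congrArg (fun z : C => ((z : N) : PGL(Fin 2, F))) (hcomm ⟨_, key a ha⟩ ⟨_, key b hb⟩)
    rw [map_mul, map_mul]; exact this
  · have := Nat.le_of_dvd (by omega) hdvd; omega
  · have := Nat.le_of_dvd (by omega) hdvd; omega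
  · exact (Subgroup.eq_of_le_of_card_ge hle (by rw [h, hcHt])).symm
  · exfalso
    have hsol := solvable_stab_pgl x
    let ψ : alternatingGroup (Fin 5) →* stabilizer (PGL(Fin 2, F)) x :=
      { toFun := fun c => ⟨j c, hx ⟨j c, hjN c⟩⟩
        map_one' := Subtype.ext (map_one j)
        map_mul' := fun c d => Subtype.ext (map_mul j c d) }
    have hψ : Function.Injective ψ := fun c d hcd => hj (congrArg Subtype.val hcd)
    have h5 := Group.isSolvable_of_isSolvable_injective (f := ψ) hψ
    have hs5 : IsSimpleGroup (alternatingGroup (Fin 5)) := inferInstance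
    have := IsSimpleGroup.comm_iff_isSolvable.mpr h5
    exact hab (this a b)
  · exfalso
    apply hnotLL
    have hk : Nat.card k = 11 := bot_lt_card hF k
    have hft : Fintype k := Fintype.ofFinite k
    have hk' : Fintype.card k = 11 := by rw [← Nat.card_eq_fintype_card, hk]
    have hL1 : (pslMap k.subtype).range = LL F := by
      apply Subgroup.eq_of_le_of_card_ge (pslMap_mem_LL k.subtype)
      rw [card_pslRange, card_P hk']
      unfold LL
      rw [Nat.card_congr (MonoidHom.ofInjective tP_inj).toEquiv.symm, card_P hF]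
    have hL2 : (pslMap k.subtype).range ≤ (Matrix.ProjGenLinGroup.map (n := Fin 2) k.subtype).range := by
      rintro _ ⟨y, rfl⟩
      exact ⟨_, rfl⟩
    have hL : LL F ≤ (N.subtype.range).map (MulAut.conj g).toMonoidHom := by
      rcases h with h | h
      · rw [h, hL1]
      · rw [h, ← hL1]; exact hL2
    intro y hy
    obtain ⟨_, ⟨z, rfl⟩, hz⟩ := hL (LL_normal.conj_mem y hy g)
    have : (z : PGL(Fin 2, F)) = y := by
      have h5 : g * (z : PGL(Fin 2, F)) * g⁻¹ = g * y * g⁻¹ := hz
      exact mul_left_cancel (mul_right_cancel h5)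
    rw [← this]; exact z.2

/-- the subgroup with prescribed image -/
noncomputable def cj (H : Subgroup (P2 F)) (g : PGL(Fin 2, F)) : Subgroup (P2 F) :=
  ((H.map (tP F)).map (MulAut.conj g).toMonoidHom).comap (tP F)

theorem cj_map (H : Subgroup (P2 F)) (g : PGL(Fin 2, F)) :
    (cj H g).map (tP F) = (H.map (tP F)).map (MulAut.conj g).toMonoidHom := by
  unfold cj
  rw [Subgroup.map_comap_eq, inf_eq_right]
  rintro _ ⟨_, ⟨x, _, rfl⟩, rfl⟩
  exact LL_normal.conj_mem _ ⟨x, rfl⟩ g

theorem cj_equiv (H : Subgroup (P2 F)) (g : PGL(Fin 2, F)) : Nonempty (H ≃* cj H g) := by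
  have e1 := Subgroup.equivMapOfInjective H (tP F) tP_inj
  have e2 := Subgroup.equivMapOfInjective (H.map (tP F)) (MulAut.conj g).toMonoidHom (MulAut.conj g).injective
  have e3 := Subgroup.equivMapOfInjective (cj H g) (tP F) tP_inj
  exact ⟨(e1.trans e2).trans ((MulEquiv.subgroupCongr (cj_map H g).symm).trans e3.symm)⟩

theorem map_inj {H K : Subgroup (P2 F)} (h : H.map (tP F) = K.map (tP F)) : H = K :=
  Subgroup.map_injective tP_inj h

/-- Let F be a field with 11 elements. PSL_2(F) has exactly 22 subgroups isomorphic to the alternating group A_5, and they form two conjugacy classes: there are two such subgroups that are not conjugate, and every such subgroup is conjugate to one of these two. -/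
theorem result {F : Type*} [Field F] [Fintype F] (hF : Fintype.card F = 11) : Nat.card {H : Subgroup (Matrix.ProjectiveSpecialLinearGroup (Fin 2) F) // Nonempty (H ≃* alternatingGroup (Fin 5))} = 22 ∧ ∃ H K : Subgroup (Matrix.ProjectiveSpecialLinearGroup (Fin 2) F), Nonempty (H ≃* alternatingGroup (Fin 5)) ∧ Nonempty (K ≃* alternatingGroup (Fin 5)) ∧ (∀ g : Matrix.ProjectiveSpecialLinearGroup (Fin 2) F, MulAut.conj g • H ≠ K) ∧ ∀ L : Subgroup (Matrix.ProjectiveSpecialLinearGroup (Fin 2) F), Nonempty (L ≃* alternatingGroup (Fin 5)) → ∃ g : Matrix.ProjectiveSpecialLinearGroup (Fin 2) F, MulAut.conj g • L = H ∨ MulAut.conj g • L = K := by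
  classical
  obtain ⟨H, ⟨e⟩⟩ := (Cfsg.Agent.S0804.result hF).2 (by norm_num)
  have h11 : (11 : F) = 0 := by
    have := Nat.cast_card_eq_zero F
    rw [hF] at this
    exact_mod_cast this
  have h2 : (2 : F) ≠ 0 := by
    intro h
    have : (1 : F) = 0 := by linear_combination h11 - 5 * h
    exact one_ne_zero this
  have hN := norm_eq hF e
  have hcH : Nat.card H = 60 := by rw [Nat.card_congr e.toEquiv]; exact DkOdd.card_A5
  have hfin : Finite (PGL(Fin 2, F)) := inferInstance
  have hmem : ∀ g g' : PGL(Fin 2, F), cj H g = cj H g' ↔ g⁻¹ * g' ∈ H.map (tP F) := by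
    intro g g'
    rw [← hN, RelSylow.mem_normalizer_iff_map]
    constructor
    · intro h
      have h1 := congrArg (fun K : Subgroup (P2 F) => K.map (tP F)) h
      simp only [cj_map] at h1
      have h3 := congrArg (fun K : Subgroup (PGL(Fin 2, F)) => K.map (MulAut.conj g⁻¹).toMonoidHom) h1
      simp only [RelSylow.conj_conj, inv_mul_cancel] at h3
      rw [RelSylow.conj_one] at h3
      exact h3.symm
    · intro h
      apply map_inj
      rw [cj_map, cj_map]
      have h3 := congrArg (fun K : Subgroup (PGL(Fin 2, F)) => K.map (MulAut.conj g).toMonoidHom) h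
      simp only [RelSylow.conj_conj, mul_inv_cancel_left] at h3
      exact h3.symm
  have hsurj : ∀ L : Subgroup (P2 F), Nonempty (L ≃* alternatingGroup (Fin 5)) → ∃ g, cj H g = L := by
    rintro L ⟨e'⟩
    obtain ⟨g, hg⟩ := conj_A5 h2 h11 e e'
    exact ⟨g, map_inj (by rw [cj_map, hg])⟩
  have hodd : Odd (Fintype.card F) := by rw [hF]; decide
  have hidx : (LL F).index = 2 := by
    have h1 := (LL F).card_mul_index
    have h3 := DkPGL.card_PGL_LL hodd
    rw [h3, mul_comm 2] at h1
    exact Nat.eq_of_mul_eq_mul_left Nat.card_pos h1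
  constructor
  · let f : PGL(Fin 2, F) → {H : Subgroup (P2 F) // Nonempty (H ≃* alternatingGroup (Fin 5))} :=
      fun g => ⟨cj H g, by obtain ⟨e'⟩ := cj_equiv H g; exact ⟨e'.symm.trans e⟩⟩
    have hfib : ∀ b, Nat.card {a // f a = b} = 60 := by
      rintro ⟨L, hL⟩
      obtain ⟨g, rfl⟩ := hsurj L hL
      rw [← hcH, ← Subgroup.card_map_of_injective (f := tP F) (K := H) tP_inj]
      refine Nat.card_congr
        { toFun := fun a => ⟨g⁻¹ * a.1, (hmem g a.1).1 (congrArg Subtype.val a.2).symm⟩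
          invFun := fun a => ⟨g * a.1, Subtype.ext ((hmem g (g * a.1)).2 (by rw [inv_mul_cancel_left]; exact a.2)).symm⟩
          left_inv := fun a => Subtype.ext (mul_inv_cancel_left _ _)
          right_inv := fun a => Subtype.ext (inv_mul_cancel_left _ _) }
    have h1 := card_of_fibers f 60 hfib
    rw [card_G hF] at h1
    have h3 : 60 * 22 = 60 * Nat.card {H : Subgroup (P2 F) // Nonempty (H ≃* alternatingGroup (Fin 5))} := h1
    exact (Nat.eq_of_mul_eq_mul_left (by norm_num) h3).symm
  · obtain ⟨γ, hγ⟩ : ∃ γ : PGL(Fin 2, F), γ ∉ LL F := by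
      by_contra hcon
      push Not at hcon
      have : LL F = ⊤ := by rw [eq_top_iff]; exact fun x _ => hcon x
      rw [this, Subgroup.index_top] at hidx
      omega
    have hconj : ∀ (g : P2 F) (L : Subgroup (P2 F)), (MulAut.conj g • L).map (tP F) =
        (L.map (tP F)).map (MulAut.conj (tP F g)).toMonoidHom := by
      intro g L
      ext x
      constructor
      · rintro ⟨_, ⟨y, hy, rfl⟩, rfl⟩
        refine ⟨tP F y, ⟨y, hy, rfl⟩, ?_⟩
        show tP F g * tP F y * (tP F g)⁻¹ = tP F (g * y * g⁻¹)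
        rw [map_mul, map_mul, map_inv]
      · rintro ⟨_, ⟨y, hy, rfl⟩, rfl⟩
        refine ⟨g * y * g⁻¹, ⟨y, hy, rfl⟩, ?_⟩
        show tP F (g * y * g⁻¹) = tP F g * tP F y * (tP F g)⁻¹
        rw [map_mul, map_mul, map_inv]
    refine ⟨H, cj H γ, ⟨e⟩, ?_, ?_, ?_⟩
    · obtain ⟨e'⟩ := cj_equiv H γ
      exact ⟨e'.symm.trans e⟩
    · intro g hg
      have h3 : cj H (tP F g) = cj H γ := by
        rw [← hg]
        apply map_inj
        rw [cj_map, hconj]
      rw [hmem] at h3
      apply hγ
      have h4 : (tP F g)⁻¹ * γ ∈ LL F := by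
        obtain ⟨y, _, hy⟩ := h3
        exact ⟨y, hy⟩
      have h5 : tP F g ∈ LL F := ⟨g, rfl⟩
      have := (LL F).mul_mem h5 h4
      rwa [mul_inv_cancel_left] at this
    · intro L hL
      obtain ⟨δ, rfl⟩ := hsurj L hL
      by_cases hδ : δ ∈ LL F
      · obtain ⟨g, rfl⟩ := hδ
        refine ⟨g⁻¹, Or.inl (map_inj ?_)⟩
        rw [hconj, cj_map, RelSylow.conj_conj, map_inv, inv_mul_cancel, RelSylow.conj_one]
      · have h3 : γ * δ⁻¹ ∈ LL F := by
          have hδ' : δ⁻¹ ∉ LL F := fun h => hδ ((LL F).inv_mem_iff.1 h)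
          rw [Subgroup.mul_mem_iff_of_index_two hidx]
          exact iff_of_false hγ hδ'
        obtain ⟨g, hg⟩ := h3
        refine ⟨g, Or.inr (map_inj ?_)⟩
        rw [hconj, cj_map, cj_map, RelSylow.conj_conj, hg, inv_mul_cancel_right]

end Cfsg.Agent.S2543
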