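import Cfsg.Statements.S2545
import Cfsg.Agent.Lib.CBN15

set_option autoImplicit false
open Cfsg

namespace Cfsg.Agent.S2545

/-- Let F be a finite field of characteristic p and consider the projective symplectic group PSp_{2m}(F) with m ≥ 1. This group has an irreducible complex character χ whose degree equals the order of a Sylow p-subgroup (namely q^(m²) when #F = q) and whose restriction to any Sylow p-subgroup P is the regular character of P: χ vanishes on the non-identity elements of P. (This is the Steinberg character.) -/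
theorem result {F : Type*} [Field F] [Fintype F] (p : ℕ) [Fact p.Prime] [CharP F p] (m : ℕ) (hm : 1 ≤ m) : ∃ χ : Cfsg.PSp m F → ℂ, Cfsg.IsIrrCharacter (Cfsg.PSp m F) χ ∧ ∀ P : Sylow p (Cfsg.PSp m F), χ 1 = Nat.card P ∧ ∀ x : Cfsg.PSp m F, x ∈ P → x ≠ 1 → χ x = 0 := by
  obtain ⟨P, V, h, -⟩ := Cfsg.Agent.Lib.CBN.sp_final (F := F) p m
  exact Cfsg.Agent.Lib.CBN.exists_steinberg h

end Cfsg.Agent.S2545
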