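import Cfsg.Statements.S2548
import Cfsg.Agent.Lib.CBN19
import Cfsg.Agent.Lib.H41O4c

set_option autoImplicit false
open Cfsg

namespace Cfsg.Agent.S2548

/-- Let F be a finite field of characteristic p and consider the group PΩ⁺_{2m}(F) of the hyperbolic quadratic form Σ x_i y_i with m ≥ 1, where Ω denotes the commutator subgroup of the full isometry group. This group has an irreducible complex character χ whose degree equals the order of a Sylow p-subgroup (equal to q^(m(m−1)) when #F = q, except in the degenerate case m = 2, q = 2, where this commutator subgroup has order 18 and its Sylow 2-subgroups have order 2) and whose restriction to any Sylow p-subgroup P is the regular character of P: χ vanishes on the non-identity elements of P. (This is the Steinberg character.) -/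
theorem result {F : Type*} [Field F] [Fintype F] (p : ℕ) [Fact p.Prime] [CharP F p] (m : ℕ) (hm : 1 ≤ m) : ∃ χ : Cfsg.POmega F (Cfsg.quadFormPlus m F) → ℂ, Cfsg.IsIrrCharacter (Cfsg.POmega F (Cfsg.quadFormPlus m F)) χ ∧ ∀ P : Sylow p (Cfsg.POmega F (Cfsg.quadFormPlus m F)), χ 1 = Nat.card P ∧ ∀ x : Cfsg.POmega F (Cfsg.quadFormPlus m F), x ∈ P → x ≠ 1 → χ x = 0 := by
  rcases Nat.lt_or_ge m 2 with h1 | h1
  · obtain rfl : m = 1 := by omega
    exact Cfsg.Agent.Lib.H41O4.exists_one p
  · by_cases h2 : Fintype.card F ≠ 2 ∨ m ≠ 2
    · obtain ⟨P, V, h⟩ := Cfsg.Agent.Lib.CBN.plus_final (F := F) p m h1 h2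
      exact Cfsg.Agent.Lib.CBN.exists_steinberg h
    · push Not at h2
      obtain ⟨hF2, rfl⟩ := h2
      have hp : p = 2 := by
        have hp1 : p.Prime := Fact.out
        obtain ⟨n, hn, hc⟩ := FiniteField.card F p
        rw [hF2] at hc
        have h3 : p ∣ 2 := by rw [hc]; exact dvd_pow_self p n.2.ne'
        exact (Nat.prime_dvd_prime_iff_eq hp1 Nat.prime_two).1 h3
      subst hp
      refine Cfsg.Agent.Lib.H41O4.exists_two ?_
      intro x
      by_contra hx
      push Not at hx
      classical
      have h4 : ({0, 1, x} : Finset F).card ≤ Fintype.card F := Finset.card_le_univ _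
      rw [hF2, Finset.card_insert_of_notMem, Finset.card_insert_of_notMem, Finset.card_singleton] at h4
      · omega
      · rw [Finset.mem_singleton]; exact fun h => hx.2 h.symm
      · rw [Finset.mem_insert, Finset.mem_singleton, not_or]
        exact ⟨zero_ne_one, fun h => hx.1 h.symm⟩

end Cfsg.Agent.S2548
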