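import Cfsg.Statements.S2550
import Cfsg.Agent.Lib.ClSeven

set_option autoImplicit false
open Cfsg

namespace Cfsg.Agent.S2550

open Cfsg.Agent.Lib Matrix

section lin
variable {K V : Type*} [Field K] [AddCommGroup V] [Module K V]

/-- linear algebra: an endomorphism `f` of determinant one of a 3-space over a field with `x^3=1` for all units
commuting with a nonzero `N` with `N^2=0`. -/
theorem key_lin [FiniteDimensional K V] (h3 : Module.finrank K V = 3) (h2 : (2 : K) = 0)
    (hK : ∀ x : K, x ≠ 0 → x ^ 3 = 1)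
    (f N : V →ₗ[K] V) (hN : N ∘ₗ N = 0) (hN0 : N ≠ 0) (hc : ∀ x, f (N x) = N (f x)) (hdet : LinearMap.det f = 1) :
    ∃ a : K, f ^ 4 = a • (1 : V →ₗ[K] V) := by
  obtain ⟨v, hv⟩ : ∃ v, N v ≠ 0 := by
    by_contra h
    push Not at h
    exact hN0 (LinearMap.ext h)
  set w := N v with hw
  have hNN : ∀ x, N (N x) = 0 := fun x => LinearMap.congr_fun hN x
  have hNw : N w = 0 := hNN v
  have hrk := N.finrank_range_add_finrank_ker
  have hle : LinearMap.range N ≤ LinearMap.ker N := by
    rintro _ ⟨x, rfl⟩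
    exact hNN x
  have hle2 := Submodule.finrank_mono hle
  obtain ⟨k, hk, hkw⟩ : ∃ k ∈ LinearMap.ker N, k ∉ Submodule.span K {w} := by
    by_contra hcon
    push Not at hcon
    have h4 : LinearMap.ker N ≤ Submodule.span K {w} := hcon
    have h5 := Submodule.finrank_mono h4
    have h6 := finrank_span_singleton (K := K) hv
    omega
  have hk0 : N k = 0 := hk
  have hli : LinearIndependent K ![w, k, v] := by
    rw [Fintype.linearIndependent_iff]
    intro g hg
    rw [Fin.sum_univ_three] at hg
    simp only [cons_val_zero, cons_val_one] at hg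
    change g 0 • w + g 1 • k + g 2 • v = 0 at hg
    have e1 := congrArg N hg
    rw [map_add, map_add, map_smul, map_smul, map_smul, hNw, hk0, smul_zero, smul_zero, zero_add, zero_add, map_zero,
      ← hw] at e1
    have g2 : g 2 = 0 := by
      rcases smul_eq_zero.1 e1 with h | h
      · exact h
      · exact absurd h hv
    rw [g2, zero_smul, add_zero] at hg
    have g1 : g 1 = 0 := by
      by_contra hne
      apply hkw
      rw [Submodule.mem_span_singleton]
      refine ⟨-(g 1)⁻¹ * g 0, ?_⟩
      have : g 1 • k = -(g 0 • w) := by rw [eq_neg_iff_add_eq_zero, add_comm]; exact hg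
      calc (-(g 1)⁻¹ * g 0) • w = (g 1)⁻¹ • (-(g 0 • w)) := by rw [smul_neg, smul_smul, neg_mul, neg_smul]
        _ = k := by rw [← this, smul_smul, inv_mul_cancel₀ hne, one_smul]
    rw [g1, zero_smul, add_zero] at hg
    have g0 : g 0 = 0 := by
      rcases smul_eq_zero.1 hg with h | h
      · exact h
      · exact absurd h hv
    intro i
    fin_cases i
    · exact g0
    · exact g1
    · exact g2
  let b := basisOfLinearIndependentOfCardEqFinrank hli (by rw [h3]; simp)
  have hb0 : b 0 = w := by simp [b]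
  have hb1 : b 1 = k := by simp [b]
  have hb2 : b 2 = v := by simp [b]
  have hrep : ∀ x : V, x = (b.repr x 0) • w + (b.repr x 1) • k + (b.repr x 2) • v := by
    intro x
    have := b.sum_repr x
    rw [Fin.sum_univ_three, hb0, hb1, hb2] at this
    exact this.symm
  obtain ⟨z0, z1, a, hfv⟩ : ∃ z0 z1 a : K, f v = z0 • w + z1 • k + a • v := ⟨_, _, _, hrep (f v)⟩
  obtain ⟨c, d, x2, hfk⟩ : ∃ c d x2 : K, f k = c • w + d • k + x2 • v := ⟨_, _, _, hrep (f k)⟩
  have hfw : f w = a • w := by
    rw [hw, hc, hfv]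
    rw [map_add, map_add, map_smul, map_smul, map_smul, hNw, hk0, smul_zero, smul_zero, zero_add, zero_add]
  have hx2 : x2 = 0 := by
    have e1 : N (f k) = 0 := by rw [← hc, hk0, map_zero]
    rw [hfk, map_add, map_add, map_smul, map_smul, map_smul, hNw, hk0, smul_zero, smul_zero, zero_add, zero_add,
      ← hw] at e1
    rcases smul_eq_zero.1 e1 with h | h
    · exact h
    · exact absurd h hv
  rw [hx2, zero_smul, add_zero] at hfk
  have hM : LinearMap.toMatrix b b f = !![a, c, z0; 0, d, z1; 0, 0, a] := by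
    ext i j
    rw [LinearMap.toMatrix_apply]
    fin_cases j
    · change b.repr (f (b 0)) i = _
      rw [hb0, hfw, ← hb0, map_smul, b.repr_self]
      fin_cases i <;> simp
    · change b.repr (f (b 1)) i = _
      rw [hb1, hfk, ← hb0, ← hb1, map_add, map_smul, map_smul, b.repr_self, b.repr_self]
      fin_cases i <;> simp
    · change b.repr (f (b 2)) i = _
      rw [hb2, hfv, ← hb0, ← hb1, ← hb2, map_add, map_add, map_smul, map_smul, map_smul, b.repr_self, b.repr_self,
        b.repr_self]
      fin_cases i <;> simp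
  rw [← LinearMap.det_toMatrix b, hM] at hdet
  have hdet' : a * d * a = 1 := by
    rw [← hdet, det_fin_three]
    simp
  have ha0 : a ≠ 0 := by
    rintro rfl
    simp at hdet'
  have had : d = a := by
    have := hK a ha0
    have h5 : a * a * d = a * a * a := by
      rw [show a * a * a = a ^ 3 by ring, this]
      linear_combination hdet'
    exact mul_left_cancel₀ (mul_ne_zero ha0 ha0) h5
  subst had
  have hadd : ∀ x : V, x + x = 0 := by
    intro x
    rw [← two_smul K x, h2, zero_smul]
  refine ⟨d ^ 4, ?_⟩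
  have hd2 : d * d + d * d = 0 := by linear_combination (d * d) * h2
  apply b.ext
  intro i
  have e4 : ∀ x : V, (f ^ 4) x = f (f (f (f x))) := by
    intro x
    rfl
  rw [e4]
  have hw2 : f (f w) = (d * d) • w := by rw [hfw, map_smul, hfw, smul_smul]
  have hk2 : f (f k) = (d * d) • k := by
    rw [hfk, map_add, map_smul, map_smul, hfw, hfk, smul_add, smul_smul, smul_smul, smul_smul, ← add_assoc, ← add_smul]
    have : c * d + d * c = 0 := by linear_combination (c * d) * h2
    rw [this, zero_smul, zero_add]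
  have hv2 : f (f v) = (z1 * c) • w + (d * d) • v := by
    rw [hfv, map_add, map_add, map_smul, map_smul, map_smul, hfw, hfk, hfv]
    simp only [smul_add, smul_smul]
    have e : z0 * d + z1 * c + d * z0 = z1 * c := by linear_combination (z0 * d) * h2
    have e' : z1 * d + d * z1 = 0 := by linear_combination (z1 * d) * h2
    calc (z0 * d) • w + ((z1 * c) • w + (z1 * d) • k) + ((d * z0) • w + (d * z1) • k + (d * d) • v)
        = (z0 * d + z1 * c + d * z0) • w + (z1 * d + d * z1) • k + (d * d) • v := by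
          rw [add_smul, add_smul, add_smul]; abel
      _ = _ := by rw [e, e', zero_smul, add_zero]
  fin_cases i
  · change f (f (f (f (b 0)))) = d ^ 4 • b 0
    rw [hb0, hw2, map_smul, map_smul, hw2, smul_smul]
    congr 1; ring
  · change f (f (f (f (b 1)))) = d ^ 4 • b 1
    rw [hb1, hk2, map_smul, map_smul, hk2, smul_smul]
    congr 1; ring
  · change f (f (f (f (b 2)))) = d ^ 4 • b 2
    rw [hb2, hv2, map_add, map_add, map_smul, map_smul, map_smul, map_smul, hw2, hv2, smul_add, smul_smul, smul_smul,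
      smul_smul, ← add_assoc, ← add_smul]
    have e : z1 * c * (d * d) + d * d * (z1 * c) = 0 := by linear_combination (z1 * c * (d * d)) * h2
    rw [e, zero_smul, zero_add]
    congr 1; ring

end lin

def MM : Matrix.SpecialLinearGroup (Fin 4) (ZMod 2) := ⟨!![0,1,0,0;1,1,0,0;0,0,1,1;0,0,0,1], by decide +kernel⟩

theorem MM6 : MM ^ 6 = 1 := by decide +kernel
theorem MM3 : MM ^ 3 ∉ Subgroup.center (Matrix.SpecialLinearGroup (Fin 4) (ZMod 2)) := by
  rw [Matrix.SpecialLinearGroup.mem_center_iff]
  rintro ⟨r, _, hr⟩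
  have h := congrFun (congrFun hr 2) 3
  have h2 : ((MM ^ 3 : Matrix.SpecialLinearGroup (Fin 4) (ZMod 2)) : Matrix (Fin 4) (Fin 4) (ZMod 2)) 2 3 = 1 := by
    decide +kernel
  rw [h2] at h
  simp at h
theorem MM4 : MM ^ 4 ∉ Subgroup.center (Matrix.SpecialLinearGroup (Fin 4) (ZMod 2)) := by
  rw [Matrix.SpecialLinearGroup.mem_center_iff]
  rintro ⟨r, _, hr⟩
  have h := congrFun (congrFun hr 0) 1
  have h2 : ((MM ^ 4 : Matrix.SpecialLinearGroup (Fin 4) (ZMod 2)) : Matrix (Fin 4) (Fin 4) (ZMod 2)) 0 1 = 1 := by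
    decide +kernel
  rw [h2] at h
  simp at h

theorem no_six {K : Type*} [Field K] [Fintype K] (hK : Fintype.card K = 4) (X : Matrix.SpecialLinearGroup (Fin 3) K)
    (h6 : X ^ 6 ∈ Subgroup.center (Matrix.SpecialLinearGroup (Fin 3) K)) :
    X ^ 3 ∈ Subgroup.center (Matrix.SpecialLinearGroup (Fin 3) K) ∨
    X ^ 4 ∈ Subgroup.center (Matrix.SpecialLinearGroup (Fin 3) K) := by
  have h2 : (2 : K) = 0 := ClUtil.two_eq_zero_of_not_odd_card (by rw [hK]; decide)
  have hu : ∀ x : K, x ≠ 0 → x ^ 3 = 1 := by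
    intro x hx
    have := FiniteField.pow_card_sub_one_eq_one x hx
    rwa [hK] at this
  have hmem : ∀ Y : Matrix.SpecialLinearGroup (Fin 3) K, (∃ a : K, (Y : Matrix (Fin 3) (Fin 3) K) = a • 1) →
      Y ∈ Subgroup.center (Matrix.SpecialLinearGroup (Fin 3) K) := by
    rintro Y ⟨a, ha⟩
    rw [Subgroup.mem_center_iff]
    intro g
    apply Subtype.ext
    change (g : Matrix (Fin 3) (Fin 3) K) * Y.1 = Y.1 * g.1
    rw [ha]
    simp
  rw [Matrix.SpecialLinearGroup.mem_center_iff] at h6
  obtain ⟨c, hc3, hc⟩ := h6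
  have hX6 : (X : Matrix (Fin 3) (Fin 3) K) ^ 6 = c • 1 := by
    have : ((X ^ 6 : Matrix.SpecialLinearGroup (Fin 3) K) : Matrix (Fin 3) (Fin 3) K) = X.1 ^ 6 := rfl
    rw [← this, ← hc, Matrix.smul_one_eq_diagonal]
    rfl
  have hc0 : c ≠ 0 := by
    rintro rfl
    simp at hc3
  have hc1 := hu c hc0
  set M : Matrix (Fin 3) (Fin 3) K := (X : Matrix (Fin 3) (Fin 3) K) with hM
  let N : Matrix (Fin 3) (Fin 3) K := c • M ^ 3 - 1
  by_cases hN : N = 0
  · left
    apply hmem
    refine ⟨c⁻¹, ?_⟩
    change M ^ 3 = _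
    have h4 : c • M ^ 3 = 1 := sub_eq_zero.1 hN
    rw [← h4, smul_smul, inv_mul_cancel₀ hc0, one_smul]
  · right
    apply hmem
    have hNN : N * N = 0 := by
      have e1 : N * N = (c * c) • (M ^ 6) - (2 : K) • (c • M ^ 3) + 1 := by
        change (c • M ^ 3 - 1) * (c • M ^ 3 - 1) = _
        rw [sub_mul, mul_sub, one_mul, mul_one, Matrix.smul_mul, Matrix.mul_smul, smul_smul, ← pow_add, two_smul]
        abel
      rw [e1, hX6, h2, zero_smul, sub_zero, smul_smul, show c * c * c = c ^ 3 by ring, hc1, one_smul,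
        ← two_smul K, h2, zero_smul]
    have hcomm : M * N = N * M := by
      change M * (c • M ^ 3 - 1) = (c • M ^ 3 - 1) * M
      rw [mul_sub, sub_mul, Matrix.mul_smul, Matrix.smul_mul, ← pow_succ, ← pow_succ', mul_one, one_mul]
    obtain ⟨a, ha⟩ := key_lin (K := K) (V := Fin 3 → K) (by simp) h2 hu (Matrix.toLin' M) (Matrix.toLin' N)
      (by rw [← Matrix.toLin'_mul, hNN, map_zero])
      (by
        intro h
        apply hN
        exact Matrix.toLin'.injective (by rw [h, map_zero]))
      (by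
        intro x
        rw [← Matrix.toLin'_mul_apply, ← Matrix.toLin'_mul_apply, hcomm])
      (by rw [LinearMap.det_toLin']; exact X.2)
    refine ⟨a, ?_⟩
    change M ^ 4 = _
    apply Matrix.toLin'.injective
    rw [Matrix.toLin'_pow, ha, map_smul, Matrix.toLin'_one]
    rfl

/-- Let F be a field with 2 elements and K a field with 4 elements. PSL_4(F) and PSL_3(K) have the same order (20160) but are not isomorphic. -/
theorem result {F K : Type*} [Field F] [Fintype F] [Field K] [Fintype K] (hF : Fintype.card F = 2) (hK : Fintype.card K = 4) : Nat.card (Matrix.ProjectiveSpecialLinearGroup (Fin 4) F) = Nat.card (Matrix.ProjectiveSpecialLinearGroup (Fin 3) K) ∧ ¬ Nonempty (Matrix.ProjectiveSpecialLinearGroup (Fin 4) F ≃* Matrix.ProjectiveSpecialLinearGroup (Fin 3) K) := by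
  constructor
  · have h1 := ClSLn.card_PSL_formula (F := F) hF 4 (by norm_num)
    have h2 := ClSLn.card_PSL_formula (F := K) hK 3 (by norm_num)
    simp [Finset.prod_range_succ, -Nat.card_eq_fintype_card] at h1 h2
    omega
  · rintro ⟨e⟩
    have e1 : ZMod 2 ≃+* F := FiniteField.ringEquivOfCardEq ((ZMod.card 2).trans hF.symm)
    let e2 := (ClSeven.pslCongr 4 e1).trans e
    obtain ⟨X, hX⟩ := QuotientGroup.mk_surjective (e2 (QuotientGroup.mk MM))
    have h6 : X ^ 6 ∈ Subgroup.center (Matrix.SpecialLinearGroup (Fin 3) K) := by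
      rw [← QuotientGroup.eq_one_iff, QuotientGroup.mk_pow, hX, ← map_pow, ← QuotientGroup.mk_pow, MM6,
        QuotientGroup.mk_one, map_one]
    rcases no_six hK X h6 with h | h
    · rw [← QuotientGroup.eq_one_iff, QuotientGroup.mk_pow, hX, ← map_pow, ← QuotientGroup.mk_pow,
        map_eq_one_iff e2 e2.injective, QuotientGroup.eq_one_iff] at h
      exact MM3 h
    · rw [← QuotientGroup.eq_one_iff, QuotientGroup.mk_pow, hX, ← map_pow, ← QuotientGroup.mk_pow,
        map_eq_one_iff e2 e2.injective, QuotientGroup.eq_one_iff] at h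
      exact MM4 h

end Cfsg.Agent.S2550
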