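import Cfsg.Statements.S2551
import Cfsg.Agent.Lib.GL4TwoTrans
import Cfsg.Agent.Lib.GL4A8

set_option autoImplicit false
open Cfsg

namespace Cfsg.Agent.S2551

/-- the embedding of `A_7` in `A_8` -/
noncomputable def emb : alternatingGroup (Fin 7) →* alternatingGroup (Fin 8) :=
  ((Equiv.Perm.extendDomainHom (finSuccAboveEquiv (Fin.last 7))).comp (alternatingGroup (Fin 7)).subtype).codRestrict _ (by
    intro g
    rw [Equiv.Perm.mem_alternatingGroup]
    show Equiv.Perm.sign (g.1.extendDomain (finSuccAboveEquiv (Fin.last 7))) = 1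
    rw [Equiv.Perm.sign_extendDomain]
    exact g.2)

theorem emb_injective : Function.Injective emb := by
  intro g h hgh
  apply Subtype.ext
  apply Equiv.Perm.extendDomainHom_injective (finSuccAboveEquiv (Fin.last 7))
  exact congrArg Subtype.val hgh

theorem toGL_injective {F : Type*} [Field F] : Function.Injective (Matrix.SpecialLinearGroup.toGL : Matrix.SpecialLinearGroup (Fin 4) F →* GL (Fin 4) F) := by
  intro g h hgh
  apply Subtype.ext
  exact congrArg (fun z : GL (Fin 4) F => (z : Matrix (Fin 4) (Fin 4) F)) hgh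

/-- Let F be the field with 2 elements. GL_4(F) (≅ A_8) has a subgroup isomorphic to the alternating group A_7, and every such subgroup acts 2-transitively on the 15 non-zero vectors of F⁴: any ordered pair of distinct non-zero vectors is carried to any other by some element of the subgroup. -/
theorem result {F : Type*} [Field F] [Fintype F] (hF : Fintype.card F = 2) : (∃ H : Subgroup (Matrix.GeneralLinearGroup (Fin 4) F), Nonempty (H ≃* alternatingGroup (Fin 7))) ∧ ∀ H : Subgroup (Matrix.GeneralLinearGroup (Fin 4) F), Nonempty (H ≃* alternatingGroup (Fin 7)) → ∀ v w v' w' : Fin 4 → F, v ≠ 0 → w ≠ 0 → v ≠ w → v' ≠ 0 → w' ≠ 0 → v' ≠ w' → ∃ g ∈ H, (g : Matrix (Fin 4) (Fin 4) F).mulVec v = v' ∧ (g : Matrix (Fin 4) (Fin 4) F).mulVec w = w' := by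
  constructor
  · let f : alternatingGroup (Fin 7) →* Matrix.GeneralLinearGroup (Fin 4) F :=
      (Matrix.SpecialLinearGroup.toGL).comp (((Lib.GL4A8.slEquiv hF).symm.toMonoidHom).comp ((Lib.GL4A8.equivA8.symm.toMonoidHom).comp emb))
    have hf : Function.Injective f := by
      intro g h hgh
      apply emb_injective
      apply Lib.GL4A8.equivA8.symm.injective
      apply (Lib.GL4A8.slEquiv hF).symm.injective
      exact toGL_injective hgh
    exact ⟨f.range, ⟨(MonoidHom.ofInjective hf).symm⟩⟩
  · rintro H ⟨e⟩ v w v' w' hv hw hvw hv' hw' hvw'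
    have hcard : 70 ∣ Nat.card H := by
      rw [Nat.card_congr e.toEquiv, nat_card_alternatingGroup, Nat.card_eq_fintype_card, Fintype.card_fin]
      decide +kernel
    obtain ⟨g, hg, hgp⟩ := Lib.GL4TwoTrans.main hF H hcard ⟨(⟨v, hv⟩, ⟨w, hw⟩), fun h => hvw (congrArg Subtype.val h)⟩
      ⟨(⟨v', hv'⟩, ⟨w', hw'⟩), fun h => hvw' (congrArg Subtype.val h)⟩
    refine ⟨g, hg, ?_, ?_⟩
    · exact congrArg (fun z : Lib.GL4TwoTrans.P F => z.1.1.1) hgp
    · exact congrArg (fun z : Lib.GL4TwoTrans.P F => z.1.2.1) hgp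

end Cfsg.Agent.S2551
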