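import Cfsg.Statements.S2552
import Cfsg.Agent.Lib.LinAux

set_option autoImplicit false
open Cfsg

namespace Cfsg.Agent.S2552

open Module

theorem result {F : Type*} [Field F] [Fintype F] (n : ℕ) (hn : 1 ≤ n) (U₁ U₂ : Submodule F (Fin n → F)) (h : Module.finrank F U₁ = Module.finrank F U₂) : ∃ g : Matrix.SpecialLinearGroup (Fin n) F, U₁.map ((Matrix.SpecialLinearGroup.toLin' g : (Fin n → F) ≃ₗ[F] (Fin n → F)) : (Fin n → F) →ₗ[F] (Fin n → F)) = U₂ := by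
  classical
  -- complements
  obtain ⟨W₁, hW₁⟩ := Submodule.exists_isCompl U₁
  obtain ⟨W₂, hW₂⟩ := Submodule.exists_isCompl U₂
  have hd1 := Submodule.finrank_add_eq_of_isCompl hW₁
  have hd2 := Submodule.finrank_add_eq_of_isCompl hW₂
  have hW : finrank F W₁ = finrank F W₂ := by omega
  let eU : U₁ ≃ₗ[F] U₂ := LinearEquiv.ofFinrankEq _ _ h
  let eW : W₁ ≃ₗ[F] W₂ := LinearEquiv.ofFinrankEq _ _ hW
  let e : (Fin n → F) ≃ₗ[F] (Fin n → F) :=
    (Submodule.prodEquivOfIsCompl U₁ W₁ hW₁).symm.trans ((eU.prodCongr eW).trans (Submodule.prodEquivOfIsCompl U₂ W₂ hW₂))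
  have heU : ∀ u : U₁, e u = eU u := by
    intro u
    simp [e]
  have hemap : U₁.map (e : (Fin n → F) →ₗ[F] (Fin n → F)) = U₂ := by
    apply Submodule.eq_of_le_of_finrank_eq
    · rintro _ ⟨u, hu, rfl⟩
      have := heU ⟨u, hu⟩
      simp only at this
      show e u ∈ U₂
      rw [this]
      exact (eU ⟨u, hu⟩).2
    · rw [← h]
      exact (LinearEquiv.finrank_map_eq e U₁)
  have : Nonempty (Fin n) := ⟨⟨0, hn⟩⟩
  obtain ⟨s, hs, hsU⟩ := Cfsg.Agent.Lib.LinAux.exists_equiv_det_map U₂ (LinearEquiv.det e)⁻¹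
  have hdet : LinearMap.det ((e.trans s : (Fin n → F) ≃ₗ[F] (Fin n → F)) : (Fin n → F) →ₗ[F] (Fin n → F)) = 1 := by
    rw [← LinearEquiv.coe_det, LinearEquiv.det_trans, hs, inv_mul_cancel, Units.val_one]
  refine ⟨⟨LinearMap.toMatrix' ((e.trans s : (Fin n → F) ≃ₗ[F] (Fin n → F)) : (Fin n → F) →ₗ[F] (Fin n → F)), ?_⟩, ?_⟩
  · rw [LinearMap.det_toMatrix', hdet]
  · have : ((Matrix.SpecialLinearGroup.toLin' (⟨LinearMap.toMatrix' ((e.trans s : (Fin n → F) ≃ₗ[F] (Fin n → F)) : (Fin n → F) →ₗ[F] (Fin n → F)), by rw [LinearMap.det_toMatrix', hdet]⟩ : Matrix.SpecialLinearGroup (Fin n) F) : (Fin n → F) ≃ₗ[F] (Fin n → F)) : (Fin n → F) →ₗ[F] (Fin n → F)) = ((e.trans s : (Fin n → F) ≃ₗ[F] (Fin n → F)) : (Fin n → F) →ₗ[F] (Fin n → F)) := by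
      exact Matrix.toLin'_toMatrix' _
    rw [this, LinearEquiv.coe_trans, Submodule.map_comp, hemap, hsU]

end Cfsg.Agent.S2552
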