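import Cfsg.Statements.S2562
import Cfsg.Agent.Lib.QuadF2

set_option autoImplicit false
open Cfsg

namespace Cfsg.Agent.S2562

open Module Cfsg.Agent.Lib.QuadF2

theorem result (m : ℕ) (hm : 1 ≤ m) :
    (∃ U : Submodule (ZMod 2) (Fin m ⊕ Fin m → ZMod 2), (∀ u ∈ U, Cfsg.quadFormPlus m (ZMod 2) u = 0) ∧ Module.finrank (ZMod 2) ↥U = m) ∧
    (∀ U : Submodule (ZMod 2) (Fin m ⊕ Fin m → ZMod 2), (∀ u ∈ U, Cfsg.quadFormPlus m (ZMod 2) u = 0) → Module.finrank (ZMod 2) ↥U ≤ m) ∧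
    (∃ U : Submodule (ZMod 2) ((Fin (m - 1) ⊕ Fin (m - 1)) ⊕ Fin 2 → ZMod 2), (∀ u ∈ U, Cfsg.quadFormMinus (m - 1) (ZMod 2) 1 1 u = 0) ∧ Module.finrank (ZMod 2) ↥U = m - 1) ∧
    (∀ U : Submodule (ZMod 2) ((Fin (m - 1) ⊕ Fin (m - 1)) ⊕ Fin 2 → ZMod 2), (∀ u ∈ U, Cfsg.quadFormMinus (m - 1) (ZMod 2) 1 1 u = 0) → Module.finrank (ZMod 2) ↥U ≤ m - 1) := by
  refine ⟨⟨UPlus m, UPlus_singular m, finrank_UPlus m⟩, ?_, ⟨UMinus (m - 1), UMinus_singular (m - 1), finrank_UMinus (m - 1)⟩, ?_⟩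
  · intro U hU
    exact singular_finrank_le (isQ_plus m) (fPlus_nondeg m) (by simp [two_mul]) U hU
  · intro U hU
    by_contra hlt
    push Not at hlt
    have hfr : finrank (ZMod 2) ((Fin (m - 1) ⊕ Fin (m - 1)) ⊕ Fin 2 → ZMod 2) = 2 * m := by
      simp; omega
    have h1 := (isQ_minus (m - 1)).S_of_isotropic U hU
      (singular_perp (isQ_minus (m - 1)) (fMinus_nondeg (m - 1)) hfr U hU (by omega))
    rw [S_minus] at h1
    have : (0 : ℤ) ≤ Nat.card U := by positivity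
    have h2 : (0 : ℤ) < 2 ^ (m - 1 + 1) := by positivity
    linarith

end Cfsg.Agent.S2562
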