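import Cfsg.Statements.S2563
import Cfsg.Agent.Lib.SymF2Hom

set_option autoImplicit false
open Cfsg

namespace Cfsg.Agent.S2563

open Module Cfsg.Agent.Lib.QuadF2 Cfsg.Agent.Lib.SymF2 Cfsg.Agent.Lib.SymF2Hom

theorem result (k : ℕ) (hk : 1 ≤ k) :
    (Odd k → ∃ φ : Equiv.Perm (Fin (4 * k + 4)) →* ↥(Cfsg.isometryGroup (ZMod 2) (Cfsg.quadFormPlus (2 * k + 1) (ZMod 2))), Function.Injective φ) ∧
    (Even k → ∃ φ : Equiv.Perm (Fin (4 * k + 4)) →* ↥(Cfsg.isometryGroup (ZMod 2) (Cfsg.quadFormMinus (2 * k) (ZMod 2) 1 1)), Function.Injective φ) := by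
  classical
  obtain ⟨qW, fW, hQ, hnd, hfr, hS, hinv⟩ := main k
  have : Fintype (E (4 * k + 4) ⧸ R (4 * k + 4)) := Fintype.ofFinite _
  have hcl := classification hQ hnd hfr
  have hinj := rho_injective (n := 4 * k + 4) (by omega)
  constructor
  · intro hodd
    have hpos : 0 < IsQ.S qW := by
      have h1 : (0 : ℤ) < (-4) ^ (k + 1) := by
        have : Even (k + 1) := hodd.add_one
        exact this.pow_pos (by norm_num)
      have h2 := @hS _
      linarith
    obtain ⟨g, hg⟩ := hcl.1 hpos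
    obtain ⟨φ, hφ, -⟩ := exists_hom_isometry (rho (4 * k + 4)) qW hinv hinj g (Cfsg.quadFormPlus (2 * k + 1) (ZMod 2)) hg
    exact ⟨φ, hφ⟩
  · intro heven
    have hneg : IsQ.S qW < 0 := by
      have h1 : ((-4 : ℤ)) ^ (k + 1) < 0 := by
        have : Odd (k + 1) := heven.add_one
        exact this.pow_neg (by norm_num)
      have h2 := @hS _
      linarith
    obtain ⟨g, hg⟩ := hcl.2 hneg
    obtain ⟨φ, hφ, -⟩ := exists_hom_isometry (rho (4 * k + 4)) qW hinv hinj g (Cfsg.quadFormMinus (2 * k) (ZMod 2) 1 1) hg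
    exact ⟨φ, hφ⟩

end Cfsg.Agent.S2563
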