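import Cfsg.Statements.S2564

set_option autoImplicit false
open Cfsg

namespace Cfsg.Agent.S2564

theorem result (m : ℕ) (hm : 1 ≤ m) (q : (Fin m ⊕ Fin m → ZMod 2) → ZMod 2) (hq : (∀ u v : (Fin m ⊕ Fin m → ZMod 2), q (u + v) = q u + q v + (Cfsg.quadFormPlus m (ZMod 2) (u + v) - Cfsg.quadFormPlus m (ZMod 2) u - Cfsg.quadFormPlus m (ZMod 2) v))) (w : (Fin m ⊕ Fin m → ZMod 2)) :
    (∀ u v : (Fin m ⊕ Fin m → ZMod 2), (q (u + v) + (Cfsg.quadFormPlus m (ZMod 2) (u + v + w) - Cfsg.quadFormPlus m (ZMod 2) (u + v) - Cfsg.quadFormPlus m (ZMod 2) w)) =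
        (q u + (Cfsg.quadFormPlus m (ZMod 2) (u + w) - Cfsg.quadFormPlus m (ZMod 2) u - Cfsg.quadFormPlus m (ZMod 2) w)) + (q v + (Cfsg.quadFormPlus m (ZMod 2) (v + w) - Cfsg.quadFormPlus m (ZMod 2) v - Cfsg.quadFormPlus m (ZMod 2) w)) +
        (Cfsg.quadFormPlus m (ZMod 2) (u + v) - Cfsg.quadFormPlus m (ZMod 2) u - Cfsg.quadFormPlus m (ZMod 2) v)) ∧
    ((∃ g : (Fin m ⊕ Fin m → ZMod 2) ≃ₗ[ZMod 2] (Fin m ⊕ Fin m → ZMod 2), ∀ v, q v + (Cfsg.quadFormPlus m (ZMod 2) (v + w) - Cfsg.quadFormPlus m (ZMod 2) v - Cfsg.quadFormPlus m (ZMod 2) w) = q (g v)) ↔ q w = 0) := by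
  classical
  -- the polar form
  let f : (Fin m ⊕ Fin m → ZMod 2) → (Fin m ⊕ Fin m → ZMod 2) → ZMod 2 := fun u v => ∑ i : Fin m, (u (.inl i) * v (.inr i) + u (.inr i) * v (.inl i))
  have hf : ∀ u v, Cfsg.quadFormPlus m (ZMod 2) (u + v) - Cfsg.quadFormPlus m (ZMod 2) u - Cfsg.quadFormPlus m (ZMod 2) v = f u v := by
    intro u v
    simp only [Cfsg.quadFormPlus, f, ← Finset.sum_sub_distrib]
    apply Finset.sum_congr rfl
    intro i _
    simp only [Pi.add_apply]
    ring
  have hfadd : ∀ u v w, f (u + v) w = f u w + f v w := by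
    intro u v w
    simp only [f, ← Finset.sum_add_distrib]
    apply Finset.sum_congr rfl
    intro i _
    simp only [Pi.add_apply]
    ring
  have hfsmul : ∀ (c : ZMod 2) u w, f (c • u) w = c * f u w := by
    intro c u w
    simp only [f, Finset.mul_sum]
    apply Finset.sum_congr rfl
    intro i _
    simp only [Pi.smul_apply, smul_eq_mul]
    ring
  have hfsymm : ∀ u v, f u v = f v u := by
    intro u v
    simp only [f]
    apply Finset.sum_congr rfl
    intro i _
    ring
  have hfself : ∀ u, f u u = 0 := by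
    intro u
    simp only [f]
    apply Finset.sum_eq_zero
    intro i _
    have : (2 : ZMod 2) = 0 := CharTwo.two_eq_zero
    linear_combination (u (.inl i) * u (.inr i)) * this
  simp only [hf] at hq ⊢
  have hq0 : q 0 = 0 := by
    have := hq 0 0
    rw [add_zero, hfself] at this
    linear_combination -this
  have hz2 : ∀ a : ZMod 2, a = 0 ∨ a = 1 := by decide
  refine ⟨fun u v => ?_, ?_, ?_⟩
  · rw [hq, hfadd]; ring
  · -- Gauss sum argument
    rintro ⟨g, hg⟩
    let χ : ZMod 2 → ℤ := fun a => if a = 0 then 1 else -1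
    have hχadd : ∀ a b, χ (a + b) = χ a * χ b := by decide
    have h1 : ∑ v, χ (q v + f v w) = ∑ v, χ (q v) := by
      simp only [hg]
      exact Equiv.sum_comp g.toEquiv (fun v => χ (q v))
    have h2 : ∑ v, χ (q v + f v w) = χ (q w) * ∑ v, χ (q v) := by
      rw [← Equiv.sum_comp (Equiv.addRight w) (fun v => χ (q v)), Finset.mul_sum]
      apply Finset.sum_congr rfl
      intro v _
      simp only [Equiv.coe_addRight]
      rw [← hχadd, hq]
      congr 1
      have : (2 : ZMod 2) = 0 := CharTwo.two_eq_zero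
      linear_combination (-q w) * this
    -- the Gauss sum squared is the number of vectors
    have h3 : (∑ v, χ (q v)) * (∑ v, χ (q v)) = Fintype.card (Fin m ⊕ Fin m → ZMod 2) := by
      have h31 : ∀ u : (Fin m ⊕ Fin m → ZMod 2), u ≠ 0 → ∑ v, χ (f u v) = 0 := by
        intro u hu
        obtain ⟨x, hx⟩ : ∃ x, f u x = 1 := by
          by_contra hcon
          push Not at hcon
          apply hu
          have hcon' : ∀ x, f u x = 0 := fun x => (hz2 _).resolve_right (hcon x)
          funext y
          rcases y with i | i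
          · have := hcon' (Pi.single (.inr i) 1)
            simpa [f, Pi.single_apply] using this
          · have := hcon' (Pi.single (.inl i) 1)
            simpa [f, Pi.single_apply] using this
        have h : ∑ v, χ (f u v) = - ∑ v, χ (f u v) := by
          conv_lhs => rw [← Equiv.sum_comp (Equiv.addRight x) (fun v => χ (f u v))]
          rw [← Finset.sum_neg_distrib]
          apply Finset.sum_congr rfl
          intro v _
          simp only [Equiv.coe_addRight]
          rw [hfsymm, hfadd, hfsymm v, hfsymm x, hx, hχadd]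
          simp [χ]
        linarith
      have h32 : (∑ v, χ (q v)) * (∑ v, χ (q v)) = ∑ u, ∑ v, χ (q u) * χ (f u v) := by
        rw [Finset.sum_mul_sum, Finset.sum_comm]
        have : ∀ v, ∑ u, χ (q u) * χ (q v) = ∑ u, χ (q u) * χ (f u v) := by
          intro v
          rw [← Equiv.sum_comp (Equiv.addRight v) (fun u => χ (q u) * χ (q v))]
          apply Finset.sum_congr rfl
          intro u _
          simp only [Equiv.coe_addRight]
          rw [← hχadd, ← hχadd, hq]
          congr 1
          have : (2 : ZMod 2) = 0 := CharTwo.two_eq_zero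
          linear_combination (q v) * this
        rw [Finset.sum_congr rfl fun v _ => this v, Finset.sum_comm]
      rw [h32]
      rw [Finset.sum_eq_single (0 : Fin m ⊕ Fin m → ZMod 2)]
      · have : ∀ v, f 0 v = 0 := by intro v; simp [f]
        simp [this, hq0, χ]
      · intro u _ hu
        rw [← Finset.mul_sum, h31 u hu, mul_zero]
      · intro h; exact absurd (Finset.mem_univ _) h
    have h4 : (∑ v, χ (q v)) ≠ 0 := by
      intro h
      rw [h, zero_mul] at h3
      have : (0 : ℤ) < Fintype.card (Fin m ⊕ Fin m → ZMod 2) := by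
        exact_mod_cast Fintype.card_pos
      omega
    rw [h1] at h2
    rcases hz2 (q w) with h | h
    · exact h
    · exfalso
      rw [h] at h2
      simp only [χ, one_ne_zero, if_false] at h2
      apply h4
      simp only [χ]
      linarith
  · intro hw
    let T : (Fin m ⊕ Fin m → ZMod 2) →ₗ[ZMod 2] (Fin m ⊕ Fin m → ZMod 2) :=
      { toFun := fun v => v + f v w • w
        map_add' := fun u v => by rw [hfadd, add_smul]; abel
        map_smul' := fun c v => by rw [hfsmul, mul_smul, smul_add]; rfl }
    have hTT : ∀ v, T (T v) = v := by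
      intro v
      show (v + f v w • w) + f (v + f v w • w) w • w = v
      rw [hfadd, hfsmul, hfself, mul_zero, add_zero, add_assoc, ← add_smul]
      have : f v w + f v w = 0 := CharTwo.add_self_eq_zero _
      rw [this, zero_smul, add_zero]
    refine ⟨LinearEquiv.ofInvolutive T hTT, fun v => ?_⟩
    show q v + f v w = q (v + f v w • w)
    rcases hz2 (f v w) with h | h
    · rw [h, zero_smul]; simp
    · rw [h, one_smul, hq, hw, h]; ring

end Cfsg.Agent.S2564
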