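import Cfsg.Statements.S2566
import Cfsg.Agent.S0287
import Cfsg.Agent.Lib.SymF2Hom
import Cfsg.Agent.S0250
import Cfsg.Agent.Lib.LinAux

set_option autoImplicit false
open Cfsg

namespace Cfsg.Agent.S2566

open Module Cfsg.Agent.Lib.SymF2Hom

abbrev W := Matrix (Fin 2) (Fin 2) (ZMod 2)
abbrev SL22 := Matrix.SpecialLinearGroup (Fin 2) (ZMod 2)

/-- coordinates -/
def eW : W ≃ₗ[ZMod 2] (Fin 2 ⊕ Fin 2 → ZMod 2) where
  toFun M := Sum.elim ![M 0 0, M 0 1] ![M 1 1, M 1 0]
  invFun v := !![v (.inl 0), v (.inl 1); v (.inr 1), v (.inr 0)]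
  map_add' M N := by
    funext x
    rcases x with x | x <;> fin_cases x <;> simp
  map_smul' c M := by
    funext x
    rcases x with x | x <;> fin_cases x <;> simp
  left_inv M := by
    ext i j
    fin_cases i <;> fin_cases j <;> simp
  right_inv v := by
    funext x
    rcases x with x | x <;> fin_cases x <;> simp

theorem det_eW (M : W) : M.det = Cfsg.quadFormPlus 2 (ZMod 2) (eW M) := by
  rw [Matrix.det_fin_two]
  simp only [Cfsg.quadFormPlus, eW, LinearEquiv.coe_mk, LinearMap.coe_mk, AddHom.coe_mk, Fin.sum_univ_two, Sum.elim_inl, Sum.elim_inr, Matrix.cons_val_zero, Matrix.cons_val_one]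
  have : ∀ a b : ZMod 2, a - b = a + b := by decide
  rw [this]

/-- left multiplication -/
def rhoL : SL22 →* Module.End (ZMod 2) W where
  toFun g := LinearMap.mulLeft (ZMod 2) (g : W)
  map_one' := by
    ext1 M; simp
  map_mul' g h := by
    apply LinearMap.ext; intro M; simp

/-- right multiplication by the inverse -/
def rhoR : SL22 →* Module.End (ZMod 2) W where
  toFun g := LinearMap.mulRight (ZMod 2) ((g⁻¹ : SL22) : W)
  map_one' := by
    apply LinearMap.ext; intro M; simp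
  map_mul' g h := by
    apply LinearMap.ext; intro M
    simp only [LinearMap.mulRight_apply, Module.End.mul_apply, mul_inv_rev, Matrix.SpecialLinearGroup.coe_mul, Matrix.mul_assoc]

theorem rhoL_apply (g : SL22) (M : W) : rhoL g M = (g : W) * M := rfl
theorem rhoR_apply (g : SL22) (M : W) : rhoR g M = M * ((g⁻¹ : SL22) : W) := rfl

theorem rhoL_injective : Function.Injective rhoL := by
  intro g h hgh
  have := congrArg (fun f => f 1) hgh
  simp only [rhoL_apply, mul_one] at this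
  exact Subtype.ext this

theorem rhoR_injective : Function.Injective rhoR := by
  intro g h hgh
  have := congrArg (fun f => f 1) hgh
  simp only [rhoR_apply, one_mul] at this
  exact inv_injective (Subtype.ext this)

theorem result :
    Nat.card ↥(Cfsg.isometryGroup (ZMod 2) (Cfsg.quadFormPlus 2 (ZMod 2))) = 72 ∧
    ∃ (A B : Subgroup ↥(Cfsg.isometryGroup (ZMod 2) (Cfsg.quadFormPlus 2 (ZMod 2)))),
      Nonempty (↥A ≃* Equiv.Perm (Fin 3)) ∧ Nonempty (↥B ≃* Equiv.Perm (Fin 3)) ∧ A ⊓ B = ⊥ ∧ (∀ a ∈ A, ∀ b ∈ B, a * b = b * a) ∧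
      (A ⊔ B).index = 2 ∧ ∃ g : ↥(Cfsg.isometryGroup (ZMod 2) (Cfsg.quadFormPlus 2 (ZMod 2))), A.map (MulAut.conj g).toMonoidHom = B := by
  classical
  have hcard : Nat.card ↥(Cfsg.isometryGroup (ZMod 2) (Cfsg.quadFormPlus 2 (ZMod 2))) = 72 := by
    rw [Cfsg.Agent.S0287.result (F := ZMod 2) (q := 2) (by simp [ZMod.card]) 2 (by norm_num)]
    decide
  refine ⟨hcard, ?_⟩
  obtain ⟨φL, hL, hL'⟩ := exists_hom_isometry rhoL Matrix.det (fun g M => by rw [rhoL_apply, Matrix.det_mul, g.2, one_mul]) rhoL_injective eW (Cfsg.quadFormPlus 2 (ZMod 2)) det_eW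
  obtain ⟨φR, hR, hR'⟩ := exists_hom_isometry rhoR Matrix.det (fun g M => by rw [rhoR_apply, Matrix.det_mul, (g⁻¹ : SL22).2, mul_one]) rhoR_injective eW (Cfsg.quadFormPlus 2 (ZMod 2)) det_eW
  -- extensionality for the isometry group
  have hext : ∀ a b : ↥(Cfsg.isometryGroup (ZMod 2) (Cfsg.quadFormPlus 2 (ZMod 2))),
      (∀ M : W, ((a : Matrix.GeneralLinearGroup (Fin 2 ⊕ Fin 2) (ZMod 2)) : Matrix (Fin 2 ⊕ Fin 2) (Fin 2 ⊕ Fin 2) (ZMod 2)).mulVec (eW M) = ((b : Matrix.GeneralLinearGroup (Fin 2 ⊕ Fin 2) (ZMod 2)) : Matrix (Fin 2 ⊕ Fin 2) (Fin 2 ⊕ Fin 2) (ZMod 2)).mulVec (eW M)) → a = b := by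
    intro a b h
    apply Subtype.ext
    apply Cfsg.Agent.Lib.LinAux.gl_ext
    intro x
    obtain ⟨M, rfl⟩ := eW.surjective x
    exact h M
  have hmul : ∀ (a b : ↥(Cfsg.isometryGroup (ZMod 2) (Cfsg.quadFormPlus 2 (ZMod 2)))) (x : Fin 2 ⊕ Fin 2 → ZMod 2),
      (((a * b : ↥(Cfsg.isometryGroup (ZMod 2) (Cfsg.quadFormPlus 2 (ZMod 2)))) : Matrix.GeneralLinearGroup (Fin 2 ⊕ Fin 2) (ZMod 2)) : Matrix (Fin 2 ⊕ Fin 2) (Fin 2 ⊕ Fin 2) (ZMod 2)).mulVec x =
      ((a : Matrix.GeneralLinearGroup (Fin 2 ⊕ Fin 2) (ZMod 2)) : Matrix (Fin 2 ⊕ Fin 2) (Fin 2 ⊕ Fin 2) (ZMod 2)).mulVec (((b : Matrix.GeneralLinearGroup (Fin 2 ⊕ Fin 2) (ZMod 2)) : Matrix (Fin 2 ⊕ Fin 2) (Fin 2 ⊕ Fin 2) (ZMod 2)).mulVec x) := by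
    intro a b x
    rw [Matrix.mulVec_mulVec]
    rfl
  have hcomm : ∀ g h, φL g * φR h = φR h * φL g := by
    intro g h
    apply hext
    intro M
    rw [hmul, hmul, hL', hR', hR', hL', rhoL_apply, rhoR_apply, rhoR_apply, rhoL_apply, Matrix.mul_assoc]
  obtain ⟨s⟩ := Cfsg.Agent.S0250.result (F := ZMod 2) (by simp [ZMod.card])
  have hinf : φL.range ⊓ φR.range = ⊥ := by
    rw [eq_bot_iff]
    rintro _ ⟨⟨g, rfl⟩, ⟨h, hgh⟩⟩
    rw [Subgroup.mem_bot]
    have h1 : ∀ M : W, (g : W) * M = M * ((h⁻¹ : SL22) : W) := by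
      intro M
      apply eW.injective
      rw [← rhoL_apply, ← rhoR_apply, ← hL', ← hR', hgh]
    have h2 : (g : W) = ((h⁻¹ : SL22) : W) := by simpa using h1 1
    have h3 : ∀ M : W, (g : W) * M = M * (g : W) := by rw [h2] at h1 ⊢; exact h1
    have h4 : g = 1 := by
      have key : ∀ a b c d : ZMod 2, (∀ M : Matrix (Fin 2) (Fin 2) (ZMod 2), !![a, b; c, d] * M = M * !![a, b; c, d]) → a * d - b * c = 1 → !![a, b; c, d] = (1 : Matrix (Fin 2) (Fin 2) (ZMod 2)) := by
        decide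
      apply Subtype.ext
      have h5 : (g : W) = !![(g : W) 0 0, (g : W) 0 1; (g : W) 1 0, (g : W) 1 1] := by
        ext i j; fin_cases i <;> fin_cases j <;> rfl
      rw [h5]
      apply key
      · rw [← h5]; exact h3
      · have := g.2
        rw [Matrix.det_fin_two] at this
        exact this
    rw [h4, map_one]
  have hcardSL : Nat.card SL22 = 6 := by
    rw [Nat.card_congr s.toEquiv, Nat.card_eq_fintype_card, Fintype.card_perm, Fintype.card_fin]
    rfl
  refine ⟨φL.range, φR.range, ⟨(MonoidHom.ofInjective hL).symm.trans s⟩, ⟨(MonoidHom.ofInjective hR).symm.trans s⟩, hinf, ?_, ?_, ?_⟩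
  · rintro _ ⟨g, rfl⟩ _ ⟨h, rfl⟩
    exact hcomm g h
  · -- index
    let Φ : SL22 × SL22 →* ↥(Cfsg.isometryGroup (ZMod 2) (Cfsg.quadFormPlus 2 (ZMod 2))) := MonoidHom.noncommCoprod φL φR (fun g h => hcomm g h)
    have hΦ : Function.Injective Φ := by
      rw [injective_iff_map_eq_one]
      rintro ⟨g, h⟩ hgh
      have h1 : φL g * φR h = 1 := hgh
      have h2 : φL g ∈ φL.range ⊓ φR.range := by
        refine ⟨⟨g, rfl⟩, ⟨h⁻¹, ?_⟩⟩
        rw [map_inv]
        exact (eq_inv_of_mul_eq_one_left h1).symm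
      rw [hinf, Subgroup.mem_bot] at h2
      rw [h2, one_mul] at h1
      have h3 : g = 1 := hL (by rw [h2, map_one])
      have h4 : h = 1 := hR (by rw [h1, map_one])
      rw [h3, h4]; rfl
    have hrange : Φ.range = φL.range ⊔ φR.range := MonoidHom.noncommCoprod_range _ _ _
    have h5 : Nat.card ↥(φL.range ⊔ φR.range) = 36 := by
      rw [← hrange, ← Nat.card_congr (MonoidHom.ofInjective hΦ).toEquiv, Nat.card_prod, hcardSL]
    have h6 := Subgroup.card_mul_index (φL.range ⊔ φR.range)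
    rw [h5, hcard] at h6
    omega
  · -- the transposition
    let τ : Equiv.Perm (Fin 2) →* Module.End (ZMod 2) W :=
      { toFun := fun σ => if σ = 1 then 1 else (Matrix.transposeLinearEquiv (Fin 2) (Fin 2) (ZMod 2) (ZMod 2) : W →ₗ[ZMod 2] W)
        map_one' := by simp
        map_mul' := by
          intro σ τ
          have key : ∀ σ τ : Equiv.Perm (Fin 2), (σ * τ = 1) ↔ (σ = 1 ↔ τ = 1) := by decide
          by_cases h1 : σ = 1
          · subst h1; simp
          · by_cases h2 : τ = 1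
            · subst h2; simp [h1]
            · rw [if_neg h1, if_neg h2, if_pos ((key σ τ).mpr (by simp [h1, h2]))]
              apply LinearMap.ext
              intro M
              simp [Matrix.transposeLinearEquiv] }
    have hτdet : ∀ σ M, (τ σ M).det = M.det := by
      intro σ M
      show ((if σ = 1 then 1 else (Matrix.transposeLinearEquiv (Fin 2) (Fin 2) (ZMod 2) (ZMod 2) : W →ₗ[ZMod 2] W)) M).det = M.det
      split_ifs
      · rfl
      · exact Matrix.det_transpose M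
    have hτinj : Function.Injective τ := by
      rw [injective_iff_map_eq_one]
      intro σ hσ
      by_contra h1
      have h2 : (if σ = 1 then 1 else (Matrix.transposeLinearEquiv (Fin 2) (Fin 2) (ZMod 2) (ZMod 2) : W →ₗ[ZMod 2] W)) = 1 := hσ
      rw [if_neg h1] at h2
      have h3 := congrArg (fun f => f !![0, 1; 0, 0]) h2
      have h4 : (!![0, 1; 0, 0] : W).transpose = !![0, 1; 0, 0] := h3
      exact absurd h4 (by decide)
    obtain ⟨φT, -, hT'⟩ := exists_hom_isometry τ Matrix.det hτdet hτinj eW (Cfsg.quadFormPlus 2 (ZMod 2)) det_eW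
    have hT : ∀ M : W, (((φT (Equiv.swap 0 1) : ↥(Cfsg.isometryGroup (ZMod 2) (Cfsg.quadFormPlus 2 (ZMod 2)))) : Matrix.GeneralLinearGroup (Fin 2 ⊕ Fin 2) (ZMod 2)) : Matrix (Fin 2 ⊕ Fin 2) (Fin 2 ⊕ Fin 2) (ZMod 2)).mulVec (eW M) = eW M.transpose := by
      intro M
      rw [hT']
      have : (Equiv.swap (0 : Fin 2) 1) ≠ 1 := by decide
      show eW ((if (Equiv.swap (0 : Fin 2) 1) = 1 then 1 else (Matrix.transposeLinearEquiv (Fin 2) (Fin 2) (ZMod 2) (ZMod 2) : W →ₗ[ZMod 2] W)) M) = _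
      rw [if_neg this]
      rfl
    set t := φT (Equiv.swap 0 1) with ht
    have htt : t * t = 1 := by
      apply hext
      intro M
      rw [hmul, hT, hT, Matrix.transpose_transpose]
      simp
    have hconj : ∀ g : SL22, t * φL g * t⁻¹ = φR (g.transpose)⁻¹ := by
      intro g
      rw [mul_inv_eq_iff_eq_mul]
      apply hext
      intro M
      rw [hmul, hmul, hL', hT, hT, hR', rhoL_apply, rhoR_apply, Matrix.transpose_mul, inv_inv]
      rfl
    refine ⟨t, ?_⟩
    ext x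
    constructor
    · rintro ⟨_, ⟨g, rfl⟩, rfl⟩
      exact ⟨_, (hconj g).symm⟩
    · rintro ⟨h, rfl⟩
      refine ⟨φL ((h⁻¹).transpose), ⟨_, rfl⟩, ?_⟩
      show t * φL ((h⁻¹).transpose) * t⁻¹ = φR h
      rw [hconj]
      congr 1
      have : ((h⁻¹).transpose).transpose = h⁻¹ := by
        apply Subtype.ext
        show ((h⁻¹ : SL22) : W).transpose.transpose = _
        rw [Matrix.transpose_transpose]
      rw [this, inv_inv]

end Cfsg.Agent.S2566
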