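import Cfsg.Statements.S2567

set_option autoImplicit false
open Cfsg

namespace Cfsg.Agent.S2567

theorem result {F : Type*} [Field F] [Fintype F] {q n r : ℕ} (hF : Fintype.card F = q) (hr : r.Prime) (hdiv : ¬ r ∣ q - 1) (x : GL (Fin n) F ⧸ Subgroup.center (GL (Fin n) F)) (hx : orderOf x = r) : ∃! g : GL (Fin n) F, (QuotientGroup.mk g : GL (Fin n) F ⧸ Subgroup.center (GL (Fin n) F)) = x ∧ orderOf g = r := by
  classical
  subst hF
  obtain ⟨g, rfl⟩ := QuotientGroup.mk_surjective x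
  -- coprimality
  have hcop : Nat.Coprime r (Fintype.card F - 1) := (Nat.Prime.coprime_iff_not_dvd hr).mpr hdiv
  -- every central element has `z ^ (q-1) = 1`
  have hz : ∀ z ∈ Subgroup.center (GL (Fin n) F), z ^ (Fintype.card F - 1) = 1 := by
    intro z hz
    rw [Matrix.GeneralLinearGroup.center_eq_range_scalar] at hz
    obtain ⟨c, rfl⟩ := hz
    rw [← map_pow, ← Fintype.card_units, pow_card_eq_one, map_one]
  obtain ⟨u, v, huv⟩ := Nat.isCoprime_iff_coprime.mpr hcop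
  have hgr : g ^ r ∈ Subgroup.center (GL (Fin n) F) := by
    rw [← QuotientGroup.eq_one_iff, QuotientGroup.mk_pow, ← hx, pow_orderOf_eq_one]
  set d := (g ^ r) ^ u with hd
  have hdc : d ∈ Subgroup.center (GL (Fin n) F) := Subgroup.zpow_mem _ hgr u
  have hdr : d ^ r = g ^ r := by
    have h1 : ((g ^ r) ^ u) ^ r = (g ^ r) ^ (u * r : ℤ) := by
      rw [zpow_mul, zpow_natCast]
    rw [hd, h1]
    have : (u * r : ℤ) = 1 - v * ((Fintype.card F - 1 : ℕ) : ℤ) := by rw [← huv]; ring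
    rw [this, zpow_sub, zpow_one, mul_comm v, zpow_mul, zpow_natCast, hz _ hgr]
    simp
  have hcomm : Commute g d⁻¹ := by
    have := (Subgroup.mem_center_iff.mp (Subgroup.inv_mem _ hdc)) g
    exact this
  have hx1 : (QuotientGroup.mk g : GL (Fin n) F ⧸ Subgroup.center (GL (Fin n) F)) ≠ 1 := by
    intro h
    rw [h, orderOf_one] at hx
    exact hr.one_lt.ne hx
  have hmk : ∀ z ∈ Subgroup.center (GL (Fin n) F), ∀ h : GL (Fin n) F, (QuotientGroup.mk (h * z) : GL (Fin n) F ⧸ Subgroup.center (GL (Fin n) F)) = QuotientGroup.mk h := by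
    intro z hz h
    rw [QuotientGroup.mk_mul, (QuotientGroup.eq_one_iff z).mpr hz, mul_one]
  have hmk' := hmk _ (Subgroup.inv_mem _ hdc) g
  have hpow : (g * d⁻¹) ^ r = 1 := by
    rw [hcomm.mul_pow, inv_pow, hdr, mul_inv_cancel]
  refine ⟨g * d⁻¹, ⟨hmk', ?_⟩, ?_⟩
  · apply orderOf_eq_prime_iff (p := r) (hp := ⟨hr⟩) |>.mpr
    refine ⟨hpow, ?_⟩
    intro h
    rw [h, QuotientGroup.mk_one] at hmk'
    exact hx1 hmk'.symm
  · rintro g1 ⟨h1, h2⟩
    have h3 : (g * d⁻¹)⁻¹ * g1 ∈ Subgroup.center (GL (Fin n) F) := by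
      rw [← QuotientGroup.eq_one_iff, QuotientGroup.mk_mul, QuotientGroup.mk_inv, hmk', h1, inv_mul_cancel]
    set z := (g * d⁻¹)⁻¹ * g1 with hzdef
    have hg1 : g1 = (g * d⁻¹) * z := by rw [hzdef]; group
    have hc2 : Commute (g * d⁻¹) z := (Subgroup.mem_center_iff.mp h3) _
    have h4 : z ^ r = 1 := by
      have : g1 ^ r = 1 := by rw [← h2, pow_orderOf_eq_one]
      rw [hg1, hc2.mul_pow, hpow, one_mul] at this
      exact this
    have h5 := hz z h3
    have h6 : z = 1 := by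
      have h7 : orderOf z ∣ Nat.gcd r (Fintype.card F - 1) :=
        Nat.dvd_gcd (orderOf_dvd_of_pow_eq_one h4) (orderOf_dvd_of_pow_eq_one h5)
      rw [Nat.Coprime.gcd_eq_one hcop] at h7
      exact orderOf_eq_one_iff.mp (Nat.dvd_one.mp h7)
    rw [hg1, h6, mul_one]

end Cfsg.Agent.S2567
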