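import Cfsg.Statements.S2568
import Cfsg.Agent.Lib.GLClass

set_option autoImplicit false
open Cfsg

namespace Cfsg.Agent.S2568

open Polynomial Cfsg.Agent.Lib.FXType Cfsg.Agent.Lib.GLClass UniqueFactorizationMonoid

universe u

theorem multiset_option {α : Type u} (σ : Multiset (Option α)) : ∃ (s : Multiset α) (k : ℕ), σ = s.map some + Multiset.replicate k none := by
  induction σ using Multiset.induction with
  | empty => exact ⟨0, 0, by simp⟩
  | cons a σ ih =>
    obtain ⟨s, k, rfl⟩ := ih
    rcases a with _ | a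
    · refine ⟨s, k + 1, ?_⟩
      rw [Multiset.replicate_succ, Multiset.add_cons]
    · refine ⟨a ::ₘ s, k, ?_⟩
      rw [Multiset.map_cons, Multiset.cons_add]

theorem some_inj {α : Type u} {s t : Multiset α} {k l : ℕ} (h : s.map some + Multiset.replicate k none = t.map some + Multiset.replicate l none) :
    s = t := by
  classical
  ext a
  have h1 := congrArg (Multiset.count (some a)) h
  rw [Multiset.count_add, Multiset.count_add, Multiset.count_replicate, Multiset.count_replicate, if_neg (by simp), if_neg (by simp),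
    add_zero, add_zero, Multiset.count_map_eq_count' _ _ (Option.some_injective α),
    Multiset.count_map_eq_count' _ _ (Option.some_injective α)] at h1
  exact h1

/-- the number of multisets of size at most `m` on a finite set -/
theorem card_le {α : Type u} [Fintype α] (m : ℕ) : Nat.card {s : Multiset α // Multiset.card s ≤ m} = Nat.choose (m + Fintype.card α) (Fintype.card α) := by
  classical
  let Φ : {s : Multiset α // Multiset.card s ≤ m} → Sym (Option α) m := fun s =>
    ⟨s.1.map some + Multiset.replicate (m - Multiset.card s.1) none, by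
      rw [Multiset.card_add, Multiset.card_map, Multiset.card_replicate]
      have := s.2
      omega⟩
  have hΦ : Function.Bijective Φ := by
    constructor
    · intro s t h
      apply Subtype.ext
      exact some_inj (congrArg Subtype.val h)
    · rintro ⟨σ, hσ⟩
      obtain ⟨s, k, rfl⟩ := multiset_option σ
      rw [Multiset.card_add, Multiset.card_map, Multiset.card_replicate] at hσ
      refine ⟨⟨s, by omega⟩, ?_⟩
      apply Subtype.ext
      show s.map some + Multiset.replicate (m - Multiset.card s) none = _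
      rw [show m - Multiset.card s = k by omega]
  rw [Nat.card_congr (Equiv.ofBijective Φ hΦ), Nat.card_eq_fintype_card, Sym.card_sym_eq_choose, Fintype.card_option,
    show Fintype.card α + 1 + m - 1 = m + Fintype.card α by omega, Nat.choose_symm_add]

/-- Number of conjugacy classes of elements of a given prime order r, coprime to the characteristic, in GL_n(q): if i is the multiplicative order of q modulo r and t = (r − 1)/i, the classes correspond to the non-zero t-tuples of natural numbers (a_1, …, a_t) with i(a_1 + ⋯ + a_t) ≤ n (a_j is the multiplicity of the j-th Frobenius orbit of nontrivial r-th roots of unity among the eigenvalues), so there are exactly C(⌊n/i⌋ + t, t) − 1 of them. -/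
theorem result {F : Type*} [Field F] [Fintype F] {p q : ℕ} [Fact p.Prime] [CharP F p] (hF : Fintype.card F = q) (n r i t : ℕ) (hr : r.Prime) (hrp : r ≠ p) (hi : i = orderOf (q : ZMod r)) (ht : t * i = r - 1) : Nat.card {C : ConjClasses (GL (Fin n) F) // ∃ g : GL (Fin n) F, ConjClasses.mk g = C ∧ orderOf g = r} = Nat.choose (n / i + t) t - 1 := by
  classical
  have hp : p.Prime := Fact.out
  have : Fact r.Prime := ⟨hr⟩
  obtain ⟨f, -, hf⟩ := FiniteField.card F p
  have hcop : p.Coprime r := (Nat.coprime_primes hp hr).mpr hrp.symm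
  have hcop' : (p ^ (f : ℕ)).Coprime r := hcop.pow_left f
  have hiu : orderOf (ZMod.unitOfCoprime _ hcop') = i := by
    rw [← orderOf_units, ZMod.coe_unitOfCoprime, hi, ← hF, hf]
  have hipos : 0 < i := by
    rw [← hiu]; exact orderOf_pos _
  -- the factors of the cyclotomic polynomial
  set P' : Finset F[X] := (normalizedFactors (cyclotomic r F)).toFinset with hP'
  have hcardP : P'.card = t := by
    have h1 := normalizedFactors_cyclotomic_card (K := F) (p := p) (f := f) (n := r) hf hcop
    rw [hiu, Nat.totient_prime hr, ← ht, Nat.mul_div_cancel _ hipos] at h1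
    exact h1
  have hmemP : ∀ Q : F[X], Q ∈ P' ↔ Irreducible Q ∧ Q.Monic ∧ Q ∣ cyclotomic r F := by
    intro Q
    rw [hP', Multiset.mem_toFinset, mem_normalizedFactors_iff' (cyclotomic_ne_zero r F)]
    constructor
    · rintro ⟨h1, h2, h3⟩
      refine ⟨h1, ?_, h3⟩
      rw [← h2]
      exact monic_normalize h1.ne_zero
    · rintro ⟨h1, h2, h3⟩
      exact ⟨h1, h2.normalize_eq_self, h3⟩
  have hdegP : ∀ Q ∈ P', Q.natDegree = i := by
    intro Q hQ
    rw [hP', Multiset.mem_toFinset] at hQ
    rw [natDegree_of_mem_normalizedFactors_cyclotomic hf hcop hQ, hiu]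
  have h10 : (X - 1 : F[X]) = X - C 1 := by rw [C_1]
  have hmon : (X - 1 : F[X]).Monic := by rw [h10]; exact monic_X_sub_C 1
  have hirr : Irreducible (X - 1 : F[X]) := by rw [h10]; exact irreducible_X_sub_C 1
  have hdeg : (X - 1 : F[X]).natDegree = 1 := by rw [h10]; exact natDegree_X_sub_C 1
  have hrF : (r : F) ≠ 0 := by
    intro h
    have h1 := (CharP.cast_eq_zero_iff F p r).mp h
    rcases (Nat.dvd_prime hr).mp h1 with h2 | h2
    · exact hp.one_lt.ne' h2
    · exact hrp h2.symm
  have hsqf : Squarefree (X ^ r - 1 : F[X]) := (Polynomial.X_pow_sub_one_separable_iff.mpr hrF).squarefree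
  have hfac : cyclotomic r F * (X - 1) = X ^ r - 1 := cyclotomic_prime_mul_X_sub_one F r
  have hneX : ∀ Q ∈ P', Q ≠ X - 1 := by
    rintro Q hQ rfl
    have h1 := ((hmemP _).mp hQ).2.2
    have h2 : (X - 1) * (X - 1) ∣ (X ^ r - 1 : F[X]) := by
      rw [← hfac]; exact mul_dvd_mul_right h1 _
    exact hirr.not_isUnit (hsqf _ h2)
  have hdivs : ∀ d : F[X] × ℕ, Good d → (d.1 ^ d.2 ∣ X ^ r - 1 ↔ (d.1 = X - 1 ∨ d.1 ∈ P') ∧ d.2 = 1) := by
    intro d hd
    constructor
    · intro h
      have h1 : d.2 = 1 := by
        by_contra hne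
        have h2 : 2 ≤ d.2 := by have := hd.2.2; omega
        apply hd.2.1.not_isUnit
        apply hsqf
        rw [← pow_two]
        exact (pow_dvd_pow _ h2).trans h
      refine ⟨?_, h1⟩
      rw [h1, pow_one, ← hfac] at h
      rcases hd.2.1.prime.dvd_or_dvd h with h2 | h2
      · right; rw [hmemP]; exact ⟨hd.2.1, hd.1, h2⟩
      · left; exact eq_of_monic_of_associated hd.1 hmon (hd.2.1.associated_of_dvd hirr h2)
    · rintro ⟨h1 | h1, h2⟩
      · rw [h1, h2, pow_one, ← hfac]; exact dvd_mul_left _ _
      · rw [h2, pow_one, ← hfac]; exact Dvd.dvd.mul_right ((hmemP _).mp h1).2.2 _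
  have hcl := card_classes (F := F) n (fun g => orderOf g = r)
    (fun s => (∀ d ∈ s, (d.1 = X - 1 ∨ d.1 ∈ P') ∧ d.2 = 1) ∧ ∃ d ∈ s, d.1 ≠ X - 1) (by
      intro g s hs
      have e1 : g ^ r = 1 ↔ ∀ d ∈ s, d.1 ^ d.2 ∣ X ^ r - 1 := by
        rw [← hs.aeval_eq_zero_iff, map_sub, map_pow, aeval_X, map_one, sub_eq_zero, ← Units.val_pow_eq_pow_val, Units.val_eq_one]
      have e2 : g = 1 ↔ ∀ d ∈ s, d.1 ^ d.2 ∣ X - 1 := by
        rw [← hs.aeval_eq_zero_iff, map_sub, aeval_X, map_one, sub_eq_zero, Units.val_eq_one]
      have e3 : (∀ d ∈ s, d.1 ^ d.2 ∣ X ^ r - 1) ↔ ∀ d ∈ s, (d.1 = X - 1 ∨ d.1 ∈ P') ∧ d.2 = 1 :=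
        forall₂_congr fun d hd => hdivs d (hs.good d hd)
      rw [orderOf_eq_prime_iff, e1, Ne, e2, e3]
      apply and_congr_right
      intro h
      rw [not_forall]
      constructor
      · rintro ⟨d, hd⟩
        rw [Classical.not_imp] at hd
        refine ⟨d, hd.1, ?_⟩
        intro h5
        apply hd.2
        rw [(h d hd.1).2, h5, pow_one]
      · rintro ⟨d, hd, hd2⟩
        refine ⟨d, fun h5 => ?_⟩
        have h6 := h5 hd
        rw [(h d hd).2, pow_one] at h6
        have hg := hs.good d hd
        exact hd2 (eq_of_monic_of_associated hg.1 hmon (hg.2.1.associated_of_dvd hirr h6)))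
  rw [hcl]
  -- the set of types of elements with `g ^ r = 1`
  let T0 : Set (Multiset (F[X] × ℕ)) := {s | (∀ d ∈ s, Good d ∧ d.1 ≠ X) ∧ (s.map fun d => d.1.natDegree * d.2).sum = n ∧
    ∀ d ∈ s, (d.1 = X - 1 ∨ d.1 ∈ P') ∧ d.2 = 1}
  let one : Multiset (F[X] × ℕ) := Multiset.replicate n (X - 1, 1)
  have hX1 : (X - 1 : F[X]) ≠ X := by
    intro h
    have h1 := congrArg (eval 0) h
    simp at h1
  have hPX : ∀ Q ∈ P', Q ≠ X := by
    rintro Q hQ rfl
    have h1 : (X : F[X]) ∣ X ^ r - 1 := by rw [← hfac]; exact Dvd.dvd.mul_right ((hmemP _).mp hQ).2.2 _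
    have h2 : (X : F[X]) ∣ 1 := by
      have h3 : (X : F[X]) ∣ X ^ r := dvd_pow_self _ hr.ne_zero
      have := dvd_sub h3 h1
      simpa using this
    exact not_isUnit_X (isUnit_of_dvd_one h2)
  have hone : one ∈ T0 := by
    refine ⟨?_, ?_, ?_⟩
    · intro d hd
      rw [Multiset.eq_of_mem_replicate hd]
      exact ⟨⟨hmon, hirr, one_pos⟩, hX1⟩
    · rw [Multiset.map_replicate, Multiset.sum_replicate, hdeg]; simp
    · intro d hd
      rw [Multiset.eq_of_mem_replicate hd]
      exact ⟨Or.inl rfl, rfl⟩
  have hset : {s : Multiset (F[X] × ℕ) | ((∀ d ∈ s, Good d ∧ d.1 ≠ X) ∧ (s.map fun d => d.1.natDegree * d.2).sum = n) ∧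
      (∀ d ∈ s, (d.1 = X - 1 ∨ d.1 ∈ P') ∧ d.2 = 1) ∧ ∃ d ∈ s, d.1 ≠ X - 1} = T0 \ {one} := by
    ext s
    constructor
    · rintro ⟨⟨h1, h2⟩, h3, d, hd, h4⟩
      refine ⟨⟨h1, h2, h3⟩, ?_⟩
      rintro rfl
      apply h4
      rw [Multiset.eq_of_mem_replicate hd]
    · rintro ⟨⟨h1, h2, h3⟩, h4⟩
      refine ⟨⟨h1, h2⟩, h3, ?_⟩
      by_contra hcon
      push Not at hcon
      apply h4
      show s = one
      have h5 : ∀ d ∈ s, d = (X - 1, 1) := fun d hd => Prod.ext (hcon d hd) (h3 d hd).2
      have h6 : s = Multiset.replicate (Multiset.card s) (X - 1, 1) := Multiset.eq_replicate_card.mpr h5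
      have h7 : Multiset.card s = n := by
        rw [h6, Multiset.map_replicate, Multiset.sum_replicate, hdeg] at h2
        simpa using h2
      rw [h6, h7]
  have hcount : T0.ncard = Nat.choose (n / i + t) t := by
    rw [← hcardP, ← Fintype.card_coe, ← card_le, ← Nat.card_coe_set_eq]
    let Ψ : {s : Multiset P' // Multiset.card s ≤ n / i} → T0 := fun s =>
      ⟨s.1.map (fun Q : P' => ((Q : F[X]), 1)) + Multiset.replicate (n - i * Multiset.card s.1) (X - 1, 1), by
        refine ⟨?_, ?_, ?_⟩
        · intro d hd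
          rw [Multiset.mem_add] at hd
          rcases hd with hd | hd
          · rw [Multiset.mem_map] at hd
            obtain ⟨Q, -, rfl⟩ := hd
            have hQ := (hmemP _).mp Q.2
            exact ⟨⟨hQ.2.1, hQ.1, one_pos⟩, hPX _ Q.2⟩
          · rw [Multiset.eq_of_mem_replicate hd]
            exact ⟨⟨hmon, hirr, one_pos⟩, hX1⟩
        · rw [Multiset.map_add, Multiset.sum_add, Multiset.map_map, Multiset.map_replicate, Multiset.sum_replicate, hdeg]
          have h1 : s.1.map ((fun d : F[X] × ℕ => d.1.natDegree * d.2) ∘ fun Q : P' => ((Q : F[X]), 1)) = Multiset.replicate (Multiset.card s.1) i := by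
            rw [← Multiset.map_const']
            apply Multiset.map_congr rfl
            intro Q _
            show (Q : F[X]).natDegree * 1 = i
            rw [mul_one, hdegP _ Q.2]
          rw [h1, Multiset.sum_replicate]
          have h2 : i * Multiset.card s.1 ≤ n := by
            have := Nat.mul_le_mul_left i s.2
            exact this.trans (Nat.mul_div_le n i)
          simp only [smul_eq_mul, mul_one]
          rw [mul_comm (Multiset.card s.1) i]
          omega
        · intro d hd
          rw [Multiset.mem_add] at hd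
          rcases hd with hd | hd
          · rw [Multiset.mem_map] at hd
            obtain ⟨Q, -, rfl⟩ := hd
            exact ⟨Or.inr Q.2, rfl⟩
          · rw [Multiset.eq_of_mem_replicate hd]
            exact ⟨Or.inl rfl, rfl⟩⟩
    symm
    apply Nat.card_congr
    apply Equiv.ofBijective Ψ
    constructor
    · intro s s' h
      apply Subtype.ext
      ext Q
      have h1 := congrArg (Multiset.count ((Q : F[X]), 1)) (congrArg Subtype.val h)
      have hinj : Function.Injective (fun Q : P' => ((Q : F[X]), 1)) := fun Q Q' h => Subtype.ext (congrArg Prod.fst h)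
      have hne : ((X - 1 : F[X]), 1) ≠ ((Q : F[X]), 1) := fun h => hneX _ Q.2 (congrArg Prod.fst h).symm
      simp only [Ψ] at h1
      rw [Multiset.count_add, Multiset.count_add, Multiset.count_replicate, Multiset.count_replicate, if_neg hne, if_neg hne,
        add_zero, add_zero, Multiset.count_map_eq_count' _ _ hinj, Multiset.count_map_eq_count' _ _ hinj] at h1
      exact h1
    · rintro ⟨s, h1, h2, h3⟩
      -- split `s`
      have hsplit : ∀ s : Multiset (F[X] × ℕ), (∀ d ∈ s, (d.1 = X - 1 ∨ d.1 ∈ P') ∧ d.2 = 1) →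
          ∃ (s' : Multiset P') (k : ℕ), s = s'.map (fun Q : P' => ((Q : F[X]), 1)) + Multiset.replicate k (X - 1, 1) := by
        intro s
        induction s using Multiset.induction with
        | empty => intro _; exact ⟨0, 0, by simp⟩
        | cons d s ih =>
          intro h
          obtain ⟨s', k, hs'⟩ := ih fun x hx => h x (Multiset.mem_cons_of_mem hx)
          obtain ⟨h4 | h4, h5⟩ := h d (Multiset.mem_cons_self d s)
          · refine ⟨s', k + 1, ?_⟩
            rw [Multiset.replicate_succ, Multiset.add_cons, ← hs']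
            congr 1
            exact Prod.ext h4 h5
          · refine ⟨⟨d.1, h4⟩ ::ₘ s', k, ?_⟩
            rw [Multiset.map_cons, Multiset.cons_add, ← hs']
            congr 1
            exact Prod.ext rfl h5
      obtain ⟨s', k, rfl⟩ := hsplit s h3
      have h4 : i * Multiset.card s' + k = n := by
        rw [Multiset.map_add, Multiset.sum_add, Multiset.map_map, Multiset.map_replicate, Multiset.sum_replicate, hdeg] at h2
        have h1 : s'.map ((fun d : F[X] × ℕ => d.1.natDegree * d.2) ∘ fun Q : P' => ((Q : F[X]), 1)) = Multiset.replicate (Multiset.card s') i := by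
          rw [← Multiset.map_const']
          apply Multiset.map_congr rfl
          intro Q _
          show (Q : F[X]).natDegree * 1 = i
          rw [mul_one, hdegP _ Q.2]
        rw [h1, Multiset.sum_replicate] at h2
        simp only [smul_eq_mul, mul_one] at h2
        rw [mul_comm]
        exact h2
      refine ⟨⟨s', ?_⟩, ?_⟩
      · rw [Nat.le_div_iff_mul_le hipos, mul_comm]
        omega
      · apply Subtype.ext
        show s'.map (fun Q : P' => ((Q : F[X]), 1)) + Multiset.replicate (n - i * Multiset.card s') (X - 1, 1) = _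
        rw [show n - i * Multiset.card s' = k by omega]
  show Nat.card {s : Multiset (F[X] × ℕ) | ((∀ d ∈ s, Good d ∧ d.1 ≠ X) ∧ (s.map fun d => d.1.natDegree * d.2).sum = n) ∧
      (∀ d ∈ s, (d.1 = X - 1 ∨ d.1 ∈ P') ∧ d.2 = 1) ∧ ∃ d ∈ s, d.1 ≠ X - 1} = _
  rw [Nat.card_coe_set_eq, hset, Set.ncard_sdiff_singleton_of_mem hone, hcount]

end Cfsg.Agent.S2568
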