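import Cfsg.Statements.S2569
import Cfsg.Agent.Lib.SSDet
import Cfsg.Agent.Lib.LinAux

set_option autoImplicit false
open Cfsg

namespace Cfsg.Agent.S2569

open Module Cfsg.Agent.Lib.LinAux

theorem result {F : Type*} [Field F] [Fintype F] {p : ℕ} [Fact p.Prime] [CharP F p] {n : ℕ} (x g : GL (Fin n) F) (hx : (orderOf x).Coprime p) : ∃ h : GL (Fin n) F, (h : Matrix (Fin n) (Fin n) F).det = 1 ∧ h * x * h⁻¹ = g * x * g⁻¹ := by
  classical
  rcases Nat.eq_zero_or_pos n with rfl | hn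
  · exact ⟨g, by simp, rfl⟩
  have : Nonempty (Fin n) := ⟨⟨0, hn⟩⟩
  let f : Module.End F (Fin n → F) := (x : Matrix (Fin n) (Fin n) F).mulVecLin
  have hf : f.IsSemisimple := by
    apply Cfsg.Agent.Lib.SSDet.isSemisimple_of_pow_eq_one (k := orderOf x)
    · intro h0
      rw [CharP.cast_eq_zero_iff F p] at h0
      have h1 : p ∣ Nat.gcd (orderOf x) p := Nat.dvd_gcd h0 dvd_rfl
      rw [hx] at h1
      exact (Fact.out : p.Prime).one_lt.ne' (Nat.dvd_one.mp h1)
    · have hpow : ∀ k : ℕ, f ^ k = ((x ^ k : GL (Fin n) F) : Matrix (Fin n) (Fin n) F).mulVecLin := by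
        intro k
        induction k with
        | zero => simp; rfl
        | succ k ih =>
          rw [pow_succ, ih, pow_succ, Units.val_mul, Matrix.mulVecLin_mul]
          rfl
      rw [hpow, pow_orderOf_eq_one]
      simp
      rfl
  obtain ⟨c, hc, hdet⟩ := Cfsg.Agent.Lib.SSDet.exists_commute_det f hf (Matrix.GeneralLinearGroup.det g)⁻¹
  let C : GL (Fin n) F := (glEquiv (Fin n) F).symm c
  have hC : ∀ v, (C : Matrix (Fin n) (Fin n) F).mulVec v = c v := glEquiv_symm_mulVec c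
  have hCx : C * x = x * C := by
    apply gl_ext
    intro v
    show ((C : Matrix (Fin n) (Fin n) F) * (x : Matrix (Fin n) (Fin n) F)).mulVec v = ((x : Matrix (Fin n) (Fin n) F) * (C : Matrix (Fin n) (Fin n) F)).mulVec v
    rw [← Matrix.mulVec_mulVec, ← Matrix.mulVec_mulVec, hC, hC]
    exact hc v
  refine ⟨g * C, ?_, ?_⟩
  · show ((g : Matrix (Fin n) (Fin n) F) * (C : Matrix (Fin n) (Fin n) F)).det = 1
    rw [Matrix.det_mul, det_glEquiv_symm, hdet]
    have : (g : Matrix (Fin n) (Fin n) F).det = (Matrix.GeneralLinearGroup.det g : Fˣ) := rfl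
    rw [this, Units.mul_inv]
  · rw [mul_inv_rev]
    calc g * C * x * (C⁻¹ * g⁻¹) = g * (C * x) * (C⁻¹ * g⁻¹) := by group
      _ = g * (x * C) * (C⁻¹ * g⁻¹) := by rw [hCx]
      _ = g * x * g⁻¹ := by group

end Cfsg.Agent.S2569
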