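import Cfsg.Statements.S2570
import Cfsg.Agent.Lib.GLClass

set_option autoImplicit false
open Cfsg

namespace Cfsg.Agent.S2570

open Polynomial Cfsg.Agent.Lib.FXType Cfsg.Agent.Lib.GLClass

/-- Number of conjugacy classes of elements of order p in GL_n over a finite field of characteristic p: they correspond to the Jordan types, that is, to the partitions of n with all parts at most p other than the partition into ones, so there are (number of partitions of n with parts ≤ p) − 1 of them. -/
theorem result {F : Type*} [Field F] [Fintype F] {p : ℕ} [Fact p.Prime] [CharP F p] (n : ℕ) : Nat.card {C : ConjClasses (GL (Fin n) F) // ∃ g : GL (Fin n) F, ConjClasses.mk g = C ∧ orderOf g = p} = (Finset.univ.filter (fun μ : Nat.Partition n => ∀ a ∈ μ.parts, a ≤ p)).card - 1 := by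
  classical
  have hp : p.Prime := Fact.out
  have h10 : (X - 1 : F[X]) = X - C 1 := by rw [C_1]
  have hmon : (X - 1 : F[X]).Monic := by rw [h10]; exact monic_X_sub_C 1
  have hirr : Irreducible (X - 1 : F[X]) := by rw [h10]; exact irreducible_X_sub_C 1
  have hdeg : (X - 1 : F[X]).natDegree = 1 := by rw [h10]; exact natDegree_X_sub_C 1
  have hfrob : (X ^ p - 1 : F[X]) = (X - 1) ^ p := by
    rw [sub_pow_char, one_pow]
  have hdvd : ∀ k m : ℕ, (X - 1 : F[X]) ^ k ∣ (X - 1) ^ m ↔ k ≤ m := by
    intro k m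
    constructor
    · intro h
      have := natDegree_le_of_dvd h (pow_ne_zero _ hirr.ne_zero)
      rwa [hmon.natDegree_pow, hmon.natDegree_pow, hdeg, mul_one, mul_one] at this
    · exact pow_dvd_pow _
  have hgood : ∀ k : ℕ, 0 < k → Good ((X - 1 : F[X]), k) := fun k hk => ⟨hmon, hirr, hk⟩
  have hcl := card_classes (F := F) n (fun g => orderOf g = p)
    (fun s => (∀ d ∈ s, d.1 = X - 1 ∧ d.2 ≤ p) ∧ ∃ d ∈ s, d.2 ≠ 1) (by
      intro g s hs
      have e1 : g ^ p = 1 ↔ ∀ d ∈ s, d.1 ^ d.2 ∣ X ^ p - 1 := by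
        rw [← hs.aeval_eq_zero_iff, map_sub, map_pow, aeval_X, map_one, sub_eq_zero, ← Units.val_pow_eq_pow_val, Units.val_eq_one]
      have e2 : g = 1 ↔ ∀ d ∈ s, d.1 ^ d.2 ∣ X - 1 := by
        rw [← hs.aeval_eq_zero_iff, map_sub, aeval_X, map_one, sub_eq_zero, Units.val_eq_one]
      have e3 : (∀ d ∈ s, d.1 ^ d.2 ∣ X ^ p - 1) ↔ ∀ d ∈ s, d.1 = X - 1 ∧ d.2 ≤ p := by
        rw [hfrob]
        constructor
        · intro h d hd
          have hg := hs.good d hd
          have h1 : d.1 ∣ (X - 1) ^ p := (dvd_pow_self _ hg.2.2.ne').trans (h d hd)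
          have h2 : d.1 ∣ (X - 1) := hg.2.1.prime.dvd_of_dvd_pow h1
          have h3 : d.1 = X - 1 := eq_of_monic_of_associated hg.1 hmon (hg.2.1.associated_of_dvd hirr h2)
          have h4 := h d hd
          rw [h3, hdvd] at h4
          exact ⟨h3, h4⟩
        · intro h d hd
          rw [(h d hd).1, hdvd]
          exact (h d hd).2
      rw [orderOf_eq_prime_iff, e1, Ne, e2, e3]
      apply and_congr_right
      intro h
      rw [not_forall]
      constructor
      · rintro ⟨d, hd⟩
        rw [Classical.not_imp] at hd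
        refine ⟨d, hd.1, ?_⟩
        intro h5
        apply hd.2
        rw [(h d hd.1).1, h5, pow_one]
      · rintro ⟨d, hd, hd2⟩
        refine ⟨d, fun h5 => ?_⟩
        have h6 := h5 hd
        rw [(h d hd).1] at h6
        have h7 := (hdvd d.2 1).mp (by rwa [pow_one])
        have := (hs.good d hd).2.2
        omega)
  rw [hcl]
  let one : Nat.Partition n := ⟨Multiset.replicate n 1, fun h => by rw [Multiset.eq_of_mem_replicate h]; exact one_pos, by simp⟩
  set A := Finset.univ.filter (fun μ : Nat.Partition n => ∀ a ∈ μ.parts, a ≤ p) with hA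
  have hone : one ∈ A := by
    rw [hA, Finset.mem_filter]
    refine ⟨Finset.mem_univ _, fun a ha => ?_⟩
    rw [Multiset.eq_of_mem_replicate ha]
    exact hp.one_lt.le
  rw [← Finset.card_erase_of_mem hone, ← Fintype.card_coe, ← Nat.card_eq_fintype_card]
  have hsum : ∀ s : Multiset (F[X] × ℕ), (∀ d ∈ s, d.1 = X - 1) → (s.map Prod.snd).sum = (s.map fun d => d.1.natDegree * d.2).sum := by
    intro s hs
    congr 1
    apply Multiset.map_congr rfl
    intro d hd
    rw [hs d hd, hdeg, one_mul]
  have hback : ∀ s : Multiset (F[X] × ℕ), (∀ d ∈ s, d.1 = X - 1) → (s.map Prod.snd).map (fun k => ((X - 1 : F[X]), k)) = s := by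
    intro s hs
    rw [Multiset.map_map]
    conv_rhs => rw [← Multiset.map_id s]
    apply Multiset.map_congr rfl
    intro d hd
    show ((X - 1 : F[X]), d.2) = d
    rw [← hs d hd]
  apply Nat.card_congr
  refine
    { toFun := fun s => ⟨⟨s.1.map Prod.snd, ?_, ?_⟩, ?_⟩
      invFun := fun μ => ⟨μ.1.parts.map (fun k => ((X - 1 : F[X]), k)), ⟨?_, ?_⟩, ?_, ?_⟩
      left_inv := ?_
      right_inv := ?_ }
  · intro i hi
    rw [Multiset.mem_map] at hi
    obtain ⟨d, hd, rfl⟩ := hi
    exact (s.2.1.1 d hd).1.2.2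
  · rw [hsum s.1 fun d hd => (s.2.2.1 d hd).1]
    exact s.2.1.2
  · rw [Finset.mem_erase]
    refine ⟨?_, ?_⟩
    · intro h
      obtain ⟨d, hd, hd1⟩ := s.2.2.2
      apply hd1
      have h1 : s.1.map Prod.snd = Multiset.replicate n 1 := congrArg Nat.Partition.parts h
      have h2 : d.2 ∈ s.1.map Prod.snd := Multiset.mem_map_of_mem _ hd
      rw [h1] at h2
      exact Multiset.eq_of_mem_replicate h2
    · rw [hA, Finset.mem_filter]
      refine ⟨Finset.mem_univ _, ?_⟩
      intro a ha
      have ha' : a ∈ s.1.map Prod.snd := ha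
      rw [Multiset.mem_map] at ha'
      obtain ⟨d, hd, rfl⟩ := ha'
      exact (s.2.2.1 d hd).2
  · intro d hd
    rw [Multiset.mem_map] at hd
    obtain ⟨k, hk, rfl⟩ := hd
    refine ⟨hgood k (μ.1.parts_pos hk), ?_⟩
    intro h
    have h1 := congrArg (eval 0) h
    simp at h1
  · rw [Multiset.map_map]
    have : ((fun d : F[X] × ℕ => d.1.natDegree * d.2) ∘ fun k => ((X - 1 : F[X]), k)) = id := by
      funext k
      show (X - 1 : F[X]).natDegree * k = k
      rw [hdeg, one_mul]
    rw [this, Multiset.map_id]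
    exact μ.1.parts_sum
  · intro d hd
    rw [Multiset.mem_map] at hd
    obtain ⟨k, hk, rfl⟩ := hd
    refine ⟨rfl, ?_⟩
    have h1 := (Finset.mem_erase.mp μ.2).2
    exact (Finset.mem_filter.mp h1).2 k hk
  · by_contra hcon
    push Not at hcon
    apply (Finset.mem_erase.mp μ.2).1
    apply Nat.Partition.ext
    show μ.1.parts = Multiset.replicate n 1
    rw [Multiset.eq_replicate]
    have h1 : ∀ b ∈ μ.1.parts, b = 1 := by
      intro b hb
      exact hcon _ (Multiset.mem_map_of_mem _ hb)
    refine ⟨?_, h1⟩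
    have h2 := μ.1.parts_sum
    rw [Multiset.eq_replicate_card.mpr h1, Multiset.sum_replicate] at h2
    simpa using h2
  · intro s
    apply Subtype.ext
    exact hback s.1 fun d hd => (s.2.2.1 d hd).1
  · intro μ
    apply Subtype.ext
    apply Nat.Partition.ext
    show (μ.1.parts.map (fun k => ((X - 1 : F[X]), k))).map Prod.snd = μ.1.parts
    rw [Multiset.map_map]
    exact Multiset.map_id _

end Cfsg.Agent.S2570
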