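import Cfsg.Statements.S2571
import Cfsg.Agent.Lib.RegNil

set_option autoImplicit false
open Cfsg

namespace Cfsg.Agent.S2571

open Module Matrix Cfsg.Agent.Lib.RegNil

theorem result {F : Type*} [Field F] [Fintype F] {q n : ℕ} (hF : Fintype.card F = q) (hn : 1 ≤ n) (u : GL (Fin n) F) (hnil : ((u : Matrix (Fin n) (Fin n) F) - 1) ^ n = 0) (hreg : ((u : Matrix (Fin n) (Fin n) F) - 1).rank = n - 1) : Nat.card ↥(Subgroup.centralizer ({u} : Set (GL (Fin n) F))) = (q - 1) * q ^ (n - 1) := by
  classical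
  set M : Matrix (Fin n) (Fin n) F := (u : Matrix (Fin n) (Fin n) F) with hM
  set N := (M - 1).mulVecLin with hN
  have hfr : finrank F (Fin n → F) = n := by simp
  have hNnil : N ^ n = 0 := by
    rw [hN, ← mulVecLin_pow, hnil]
    exact Matrix.mulVecLin_zero
  have hker : finrank F (LinearMap.ker N) ≤ 1 := ker_le_one (by simp) _ hreg
  have hNapp : ∀ v, N v = M *ᵥ v - v := by
    intro v
    rw [hN, Matrix.mulVecLin_apply, Matrix.sub_mulVec, Matrix.one_mulVec]
  obtain ⟨v, hv⟩ := exists_cyclic N hfr hn hker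
  have hcomm : ∀ g : GL (Fin n) F, g ∈ Subgroup.centralizer ({u} : Set (GL (Fin n) F)) ↔
      ∀ x, (g : Matrix (Fin n) (Fin n) F) *ᵥ (N x) = N ((g : Matrix (Fin n) (Fin n) F) *ᵥ x) := by
    intro g
    rw [Subgroup.mem_centralizer_singleton_iff]
    constructor
    · intro h x
      have h' : (g : Matrix (Fin n) (Fin n) F) * M = M * g := congrArg Units.val h
      rw [hNapp, hNapp, Matrix.mulVec_sub, Matrix.mulVec_mulVec, Matrix.mulVec_mulVec, h']
    · intro h
      ext1
      show (g : Matrix (Fin n) (Fin n) F) * M = M * g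
      apply Matrix.toLin'.injective
      ext1 i
      ext1
      have := h (Pi.single i 1)
      rw [hNapp, hNapp, Matrix.mulVec_sub, Matrix.mulVec_mulVec, Matrix.mulVec_mulVec, sub_left_inj] at this
      simp only [Matrix.toLin'_apply, LinearMap.comp_apply, LinearMap.coe_single]
      exact this
  -- the bijection
  let f : ↥(Subgroup.centralizer ({u} : Set (GL (Fin n) F))) → {w : Fin n → F // w ∉ LinearMap.ker (N ^ (n - 1))} :=
    fun g => ⟨((g : GL (Fin n) F) : Matrix (Fin n) (Fin n) F) *ᵥ v, by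
      rw [LinearMap.mem_ker]
      have h := (hcomm g).mp g.2
      have hk : ∀ k x, ((g : GL (Fin n) F) : Matrix (Fin n) (Fin n) F) *ᵥ ((N ^ k) x) = (N ^ k) (((g : GL (Fin n) F) : Matrix (Fin n) (Fin n) F) *ᵥ x) := by
        intro k
        induction k with
        | zero => intro x; rfl
        | succ k ih => intro x; rw [pow_succ, Module.End.mul_apply, Module.End.mul_apply, ih, h]
      rw [← hk]
      intro h0
      apply hv
      have hinj : Function.Injective (fun x : Fin n → F => ((g : GL (Fin n) F) : Matrix (Fin n) (Fin n) F) *ᵥ x) := by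
        rw [Matrix.mulVec_injective_iff_isUnit]
        exact (g : GL (Fin n) F).isUnit
      apply hinj
      simp only [h0, Matrix.mulVec_zero]⟩
  have hf : Function.Bijective f := by
    constructor
    · intro g g' hgg
      have h1 : ((g : GL (Fin n) F) : Matrix (Fin n) (Fin n) F) *ᵥ v = ((g' : GL (Fin n) F) : Matrix (Fin n) (Fin n) F) *ᵥ v := congrArg Subtype.val hgg
      have h2 := ext_of_commute N hfr hNnil v hv N ((g : GL (Fin n) F) : Matrix (Fin n) (Fin n) F).mulVecLin
        ((g' : GL (Fin n) F) : Matrix (Fin n) (Fin n) F).mulVecLin ((hcomm g).mp g.2) ((hcomm g').mp g'.2) h1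
      apply Subtype.ext
      ext1
      exact Matrix.toLin'.injective h2
    · rintro ⟨w, hw⟩
      obtain ⟨e, he, hev⟩ := exists_equiv N hfr hNnil v hv N hfr hNnil w (fun h => hw h)
      let A : GL (Fin n) F := ⟨LinearMap.toMatrix' (e : (Fin n → F) →ₗ[F] (Fin n → F)), LinearMap.toMatrix' (e.symm : (Fin n → F) →ₗ[F] (Fin n → F)),
        by rw [← LinearMap.toMatrix'_comp]; simp, by rw [← LinearMap.toMatrix'_comp]; simp⟩
      have hA : ∀ x, (A : Matrix (Fin n) (Fin n) F) *ᵥ x = e x := by
        intro x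
        show (LinearMap.toMatrix' (e : (Fin n → F) →ₗ[F] (Fin n → F))) *ᵥ x = e x
        rw [LinearMap.toMatrix'_mulVec]
        rfl
      refine ⟨⟨A, ?_⟩, ?_⟩
      · rw [hcomm]
        intro x
        rw [hA, hA, he]
      · apply Subtype.ext
        show (A : Matrix (Fin n) (Fin n) F) *ᵥ v = w
        rw [hA, hev]
  rw [Nat.card_eq_of_bijective f hf]
  have hkerdim : finrank F (LinearMap.ker (N ^ (n - 1))) = n - 1 := finrank_ker_pow N hfr hNnil hker (by omega)
  have hc1 : Nat.card (LinearMap.ker (N ^ (n - 1))) = q ^ (n - 1) := by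
    rw [Module.natCard_eq_pow_finrank (K := F), hkerdim, Nat.card_eq_fintype_card, hF]
  have hc2 : Nat.card (Fin n → F) = q ^ n := by
    rw [Nat.card_eq_fintype_card, Fintype.card_pi_const, hF]
  have hc3 : Nat.card {w : Fin n → F // w ∉ LinearMap.ker (N ^ (n - 1))} + Nat.card (LinearMap.ker (N ^ (n - 1))) = Nat.card (Fin n → F) := by
    have := Nat.card_congr (Equiv.sumCompl (fun w : Fin n → F => w ∈ LinearMap.ker (N ^ (n - 1))))
    rw [Nat.card_sum] at this
    rw [← this, add_comm]
  rw [hc1, hc2] at hc3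
  obtain ⟨k, rfl⟩ : ∃ k, n = k + 1 := ⟨n - 1, by omega⟩
  have hq : 1 ≤ q := by rw [← hF]; exact Fintype.card_pos
  obtain ⟨r, rfl⟩ : ∃ r, q = r + 1 := ⟨q - 1, by omega⟩
  simp only [Nat.add_sub_cancel] at hc3 ⊢
  rw [pow_succ] at hc3
  linarith

end Cfsg.Agent.S2571
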