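import Cfsg.Statements.S2572
import Cfsg.Agent.Lib.LinAux

set_option autoImplicit false
open Cfsg

namespace Cfsg.Agent.S2572

open Module Cfsg.Agent.Lib.LinAux

section Model

variable {F K : Type*} [Field F] [AddCommGroup K] [Module F K] [FiniteDimensional F K]

/-- the linear map with given parameters -/
def mk (l mu : F) (ψ : K →ₗ[F] F) (c : K) (h : K →ₗ[F] K) : (F × F × K) →ₗ[F] (F × F × K) where
  toFun x := (l * x.1 + mu * x.2.1 + ψ x.2.2, l * x.2.1, x.2.1 • c + h x.2.2)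
  map_add' x y := by
    simp only [Prod.fst_add, Prod.snd_add, map_add, add_smul, Prod.mk_add_mk, Prod.mk.injEq]
    refine ⟨by ring, by ring, by abel⟩
  map_smul' a x := by
    simp only [Prod.smul_fst, Prod.smul_snd, smul_eq_mul, map_smul, RingHom.id_apply, Prod.smul_mk, Prod.mk.injEq, mul_smul, smul_add, and_true]
    refine ⟨by ring, by ring⟩

theorem mk_injective (l mu : F) (hl : l ≠ 0) (ψ : K →ₗ[F] F) (c : K) (h : K →ₗ[F] K) (hh : Function.Injective h) :
    Function.Injective (mk l mu ψ c h) := by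
  rw [injective_iff_map_eq_zero]
  rintro ⟨a, b, k⟩ hx
  simp only [mk, LinearMap.coe_mk, AddHom.coe_mk, Prod.mk_eq_zero] at hx
  obtain ⟨h1, h2, h3⟩ := hx
  have hb : b = 0 := (mul_eq_zero.mp h2).resolve_left hl
  subst hb
  rw [zero_smul, zero_add] at h3
  have hk : k = 0 := hh (by rw [h3, map_zero])
  subst hk
  rw [mul_zero, add_zero, map_zero, add_zero] at h1
  have ha : a = 0 := (mul_eq_zero.mp h1).resolve_left hl
  subst ha
  rfl

/-- the parameters of an automorphism commuting with `N0` -/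
def params (g : (F × F × K) →ₗ[F] (F × F × K)) : F × F × (K →ₗ[F] F) × K × (K →ₗ[F] K) :=
  ((g (1, 0, 0)).1, (g (0, 1, 0)).1, (LinearMap.fst F F (F × K)) ∘ₗ g ∘ₗ (LinearMap.inr F F (F × K)) ∘ₗ (LinearMap.inr F F K),
    (g (0, 1, 0)).2.2, (LinearMap.snd F F K) ∘ₗ (LinearMap.snd F F (F × K)) ∘ₗ g ∘ₗ (LinearMap.inr F F (F × K)) ∘ₗ (LinearMap.inr F F K))

theorem eq_mk (g : (F × F × K) →ₗ[F] (F × F × K)) (hg : ∀ x, g (N0 F K x) = N0 F K (g x)) :
    g = mk (params g).1 (params g).2.1 (params g).2.2.1 (params g).2.2.2.1 (params g).2.2.2.2 := by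
  have h1 : ∀ x : F × F × K, (g (x.2.1, 0, 0)) = ((g x).2.1, 0, 0) := hg
  have hA : (g (1, 0, 0)) = ((g (0, 1, 0)).2.1, 0, 0) := h1 (0, 1, 0)
  have hk : ∀ k : K, (g (0, 0, k)).2.1 = 0 := by
    intro k
    have := h1 (0, 0, k)
    simp only at this
    have h0 : g (0, 0, 0) = 0 := by
      have : ((0 : F), (0 : F), (0 : K)) = 0 := rfl
      rw [this, map_zero]
    rw [h0] at this
    exact (congrArg Prod.fst this).symm
  apply LinearMap.ext
  rintro ⟨a, b, k⟩
  have hx : ((a, b, k) : F × F × K) = a • ((1 : F), (0 : F), (0 : K)) + (b • ((0 : F), (1 : F), (0 : K)) + ((0 : F), (0 : F), k)) := by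
    simp
  rw [hx, map_add, map_add, map_smul, map_smul, ← hx]
  simp only [mk, params, LinearMap.coe_mk, AddHom.coe_mk, LinearMap.comp_apply, LinearMap.inr_apply, LinearMap.fst_apply, LinearMap.snd_apply]
  ext
  · simp only [Prod.fst_add, Prod.smul_fst, smul_eq_mul]
    ring
  · simp only [Prod.snd_add, Prod.smul_snd, Prod.fst_add, Prod.smul_fst, smul_eq_mul, hk, hA]
    ring
  · simp only [Prod.snd_add, Prod.smul_snd, hA, smul_zero, zero_add]

theorem card_model [Fintype F] [Finite K] :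
    Nat.card {g : (F × F × K) ≃ₗ[F] (F × F × K) // ∀ x, g (N0 F K x) = N0 F K (g x)} =
      Nat.card Fˣ * (Nat.card F * (Nat.card (K →ₗ[F] F) * (Nat.card K * Nat.card (K ≃ₗ[F] K)))) := by
  classical
  rw [← Nat.card_prod, ← Nat.card_prod, ← Nat.card_prod, ← Nat.card_prod]
  symm
  let f : (Fˣ × F × (K →ₗ[F] F) × K × (K ≃ₗ[F] K)) → {g : (F × F × K) ≃ₗ[F] (F × F × K) // ∀ x, g (N0 F K x) = N0 F K (g x)} :=
    fun x => ⟨LinearEquiv.ofInjectiveEndo (mk (x.1 : F) x.2.1 x.2.2.1 x.2.2.2.1 (x.2.2.2.2 : K →ₗ[F] K))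
      (mk_injective _ _ x.1.ne_zero _ _ _ x.2.2.2.2.injective), by
        intro y
        show mk _ _ _ _ _ _ = N0 F K (mk _ _ _ _ _ _)
        simp [mk, N0]⟩
  have hfapp : ∀ x y, (f x : (F × F × K) ≃ₗ[F] (F × F × K)) y = mk (x.1 : F) x.2.1 x.2.2.1 x.2.2.2.1 (x.2.2.2.2 : K →ₗ[F] K) y := fun x y => rfl
  apply Nat.card_eq_of_bijective f
  constructor
  · rintro ⟨l, mu, ψ, c, h⟩ ⟨l', mu', ψ', c', h'⟩ hxy
    have hval : ∀ y, mk (l : F) mu ψ c (h : K →ₗ[F] K) y = mk (l' : F) mu' ψ' c' (h' : K →ₗ[F] K) y := by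
      intro y
      rw [← hfapp (l, mu, ψ, c, h) y, ← hfapp (l', mu', ψ', c', h') y, hxy]
    have e1 := hval (1, 0, 0)
    have e2 := hval (0, 1, 0)
    simp only [mk, LinearMap.coe_mk, AddHom.coe_mk, mul_one, mul_zero, add_zero, map_zero, zero_smul, one_smul, zero_add, Prod.mk.injEq, LinearEquiv.coe_coe, and_true] at e1 e2
    have e3 : ψ = ψ' := by
      ext k
      have := hval (0, 0, k)
      simp only [mk, LinearMap.coe_mk, AddHom.coe_mk, mul_zero, zero_add, zero_smul, Prod.mk.injEq] at this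
      exact this.1
    have e4 : h = h' := by
      ext k
      have := hval (0, 0, k)
      simp only [mk, LinearMap.coe_mk, AddHom.coe_mk, mul_zero, zero_add, zero_smul, Prod.mk.injEq] at this
      exact this.2.2
    rw [Units.ext e1, e2.1, e2.2.2, e3, e4]
  · rintro ⟨g, hg⟩
    have hgm := eq_mk (g : (F × F × K) →ₗ[F] (F × F × K)) hg
    set P := params (g : (F × F × K) →ₗ[F] (F × F × K)) with hP
    have hginj : Function.Injective (mk P.1 P.2.1 P.2.2.1 P.2.2.2.1 P.2.2.2.2) := by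
      rw [← hgm]; exact g.injective
    have hl : P.1 ≠ 0 := by
      intro h0
      have : mk P.1 P.2.1 P.2.2.1 P.2.2.2.1 P.2.2.2.2 (1, 0, 0) = mk P.1 P.2.1 P.2.2.1 P.2.2.2.1 P.2.2.2.2 0 := by
        simp [mk, h0]
      have := congrArg Prod.fst (hginj this)
      simp at this
    have hh : Function.Injective P.2.2.2.2 := by
      rw [injective_iff_map_eq_zero]
      intro k hk
      have : mk P.1 P.2.1 P.2.2.1 P.2.2.2.1 P.2.2.2.2 (-(P.1)⁻¹ * P.2.2.1 k, 0, k) = mk P.1 P.2.1 P.2.2.1 P.2.2.2.1 P.2.2.2.2 0 := by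
        simp only [mk, LinearMap.coe_mk, AddHom.coe_mk, hk]
        simp [hl]
      have := congrArg (fun x => x.2.2) (hginj this)
      simpa using this
    refine ⟨(Units.mk0 P.1 hl, P.2.1, P.2.2.1, P.2.2.2.1, LinearEquiv.ofInjectiveEndo P.2.2.2.2 hh), ?_⟩
    apply Subtype.ext
    apply LinearEquiv.ext
    intro y
    rw [hfapp]
    have : g y = (g : (F × F × K) →ₗ[F] (F × F × K)) y := rfl
    rw [this, hgm]
    rfl

end Model

theorem result {F : Type*} [Field F] [Fintype F] {q n : ℕ} (hF : Fintype.card F = q) (hn : 2 ≤ n) (t : GL (Fin n) F) (ht : Cfsg.IsTransvection (t : Matrix (Fin n) (Fin n) F)) : Nat.card ↥(Subgroup.centralizer ({t} : Set (GL (Fin n) F))) = q ^ (2 * n - 3) * (q - 1) * ∏ i : Fin (n - 2), (q ^ (n - 2) - q ^ (i : ℕ)) := by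
  classical
  subst hF
  have hfr : finrank F (Fin n → F) = n := by simp
  obtain ⟨e, he⟩ := transvection_normal_form hfr ((t : Matrix (Fin n) (Fin n) F) - 1).mulVecLin ht.1 (by
      intro x
      rw [← LinearMap.comp_apply, ← Matrix.mulVecLin_mul, ht.2]
      simp)
  have ht' : ∀ x, (t : Matrix (Fin n) (Fin n) F).mulVec (e x) = e (x + N0 F _ x) := by
    intro x
    have := he x
    rw [Matrix.mulVecLin_apply, Matrix.sub_mulVec, Matrix.one_mulVec] at this
    rw [map_add, ← this]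
    abel
  -- transport
  let φ : GL (Fin n) F ≃ ((F × F × (Fin (n - 2) → F)) ≃ₗ[F] (F × F × (Fin (n - 2) → F))) :=
    (glEquiv (Fin n) F).toEquiv.trans
      { toFun := fun g => (e.trans g).trans e.symm
        invFun := fun g => (e.symm.trans g).trans e
        left_inv := fun g => by ext x; simp
        right_inv := fun g => by ext x <;> simp }
  have hφ : ∀ g x, φ g x = e.symm ((g : Matrix (Fin n) (Fin n) F).mulVec (e x)) := by
    intro g x
    show e.symm (glEquiv (Fin n) F g (e x)) = _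
    rw [glEquiv_apply]
  have hiff : ∀ g : GL (Fin n) F, g ∈ Subgroup.centralizer ({t} : Set (GL (Fin n) F)) ↔ ∀ x, φ g (N0 F _ x) = N0 F _ (φ g x) := by
    intro g
    rw [Subgroup.mem_centralizer_singleton_iff]
    constructor
    · intro h x
      have h' : (g : Matrix (Fin n) (Fin n) F) * t = t * g := congrArg Units.val h
      have h1 : (g : Matrix (Fin n) (Fin n) F).mulVec ((t : Matrix (Fin n) (Fin n) F).mulVec (e x)) = (t : Matrix (Fin n) (Fin n) F).mulVec ((g : Matrix (Fin n) (Fin n) F).mulVec (e x)) := by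
        rw [Matrix.mulVec_mulVec, Matrix.mulVec_mulVec, h']
      have h2 : (g : Matrix (Fin n) (Fin n) F).mulVec (e x) = e (φ g x) := by rw [hφ]; simp
      rw [ht', h2, ht', map_add, Matrix.mulVec_add, h2, map_add, add_right_inj] at h1
      rw [hφ, h1]; simp
    · intro h
      apply gl_ext
      intro y
      obtain ⟨x, rfl⟩ := e.surjective y
      have h2 : ∀ x, (g : Matrix (Fin n) (Fin n) F).mulVec (e x) = e (φ g x) := by intro x; rw [hφ]; simp
      show ((g : Matrix (Fin n) (Fin n) F) * (t : Matrix (Fin n) (Fin n) F)).mulVec _ = ((t : Matrix (Fin n) (Fin n) F) * (g : Matrix (Fin n) (Fin n) F)).mulVec _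
      rw [← Matrix.mulVec_mulVec, ← Matrix.mulVec_mulVec, ht', h2, h2, ht', map_add, h]
  have hcard : Nat.card ↥(Subgroup.centralizer ({t} : Set (GL (Fin n) F))) = Nat.card {g : (F × F × (Fin (n - 2) → F)) ≃ₗ[F] (F × F × (Fin (n - 2) → F)) // ∀ x, g (N0 F _ x) = N0 F _ (g x)} :=
    Nat.card_congr (φ.subtypeEquiv hiff)
  rw [hcard, card_model, natCard_linearEquiv]
  have h1 : Nat.card Fˣ = Fintype.card F - 1 := by rw [Nat.card_eq_fintype_card, Fintype.card_units]
  have h2 : Nat.card (Fin (n - 2) → F) = Fintype.card F ^ (n - 2) := by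
    rw [Nat.card_eq_fintype_card, Fintype.card_pi_const]
  have h3 : Nat.card ((Fin (n - 2) → F) →ₗ[F] F) = Fintype.card F ^ (n - 2) := by
    rw [Module.natCard_eq_pow_finrank (K := F), Module.finrank_linearMap]
    simp
  rw [h1, h2, h3, Nat.card_eq_fintype_card]
  have : 2 * n - 3 = 1 + ((n - 2) + (n - 2)) := by omega
  rw [this, pow_add, pow_add, pow_one]
  ring

end Cfsg.Agent.S2572
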