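import Cfsg.Statements.S2573
import Cfsg.Agent.Lib.RegNil

set_option autoImplicit false
open Cfsg

namespace Cfsg.Agent.S2573

open Module

theorem ker_le_one {F : Type*} [Field F] {ι : Type*} [Fintype ι] [DecidableEq ι] {n : ℕ} (hι : Fintype.card ι = n)
    (N : Matrix ι ι F) (hreg : N.rank = n - 1) : finrank F (LinearMap.ker N.mulVecLin) ≤ 1 := by
  have h1 := LinearMap.finrank_range_add_finrank_ker N.mulVecLin
  have h2 : finrank F (LinearMap.range N.mulVecLin) = n - 1 := hreg
  rw [Module.finrank_fintype_fun_eq_card, hι] at h1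
  omega

theorem mulVecLin_pow {F : Type*} [Field F] {ι : Type*} [Fintype ι] [DecidableEq ι]
    (N : Matrix ι ι F) (k : ℕ) : (N ^ k).mulVecLin = N.mulVecLin ^ k := by
  induction k with
  | zero => rw [pow_zero, pow_zero, Matrix.mulVecLin_one]; rfl
  | succ k ih => rw [pow_succ, pow_succ, Matrix.mulVecLin_mul, ih]; rfl

theorem result {F : Type*} [Field F] [Finite F] {n : ℕ} (u : Matrix (Fin n) (Fin n) F) (hnil : (u - 1) ^ n = 0) (hreg : (u - 1).rank = n - 1) (W : Submodule F (Fin n → F)) (hW : ∀ v ∈ W, u.mulVec v ∈ W) : W = LinearMap.ker (Matrix.mulVecLin ((u - 1) ^ Module.finrank F W)) := by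
  rw [mulVecLin_pow]
  apply Cfsg.Agent.Lib.RegNil.eq_ker_pow (n := n)
  · simp
  · rw [← mulVecLin_pow, hnil]
    exact Matrix.mulVecLin_zero
  · exact ker_le_one (by simp) _ hreg
  · intro v hv
    rw [Matrix.mulVecLin_apply, Matrix.sub_mulVec, Matrix.one_mulVec]
    exact W.sub_mem (hW v hv) hv

end Cfsg.Agent.S2573
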