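import Cfsg.Statements.S2574
import Cfsg.Agent.Lib.RegNil
import Cfsg.Agent.Lib.SympAux

set_option autoImplicit false
open Cfsg

namespace Cfsg.Agent.S2574

open Module Matrix Cfsg.Agent.Lib.SympAux Cfsg.Agent.Lib.RegNil

theorem result {F : Type*} [Field F] [Finite F] {m : ℕ} (u : Matrix.symplecticGroup (Fin m) F) (hnil : ((u : Matrix (Fin m ⊕ Fin m) (Fin m ⊕ Fin m) F) - 1) ^ (2 * m) = 0) (hreg : ((u : Matrix (Fin m ⊕ Fin m) (Fin m ⊕ Fin m) F) - 1).rank = 2 * m - 1) (W : Submodule F (Fin m ⊕ Fin m → F)) (hW : ∀ v ∈ W, (u : Matrix (Fin m ⊕ Fin m) (Fin m ⊕ Fin m) F).mulVec v ∈ W) (hdim : 2 * Module.finrank F W ≤ 2 * m) : ∀ v ∈ W, ∀ w ∈ W, Cfsg.sympForm m F v w = 0 := by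
  classical
  set M : Matrix (Fin m ⊕ Fin m) (Fin m ⊕ Fin m) F := (u : Matrix (Fin m ⊕ Fin m) (Fin m ⊕ Fin m) F) with hM
  set N := (M - 1).mulVecLin with hN
  have hcard : Fintype.card (Fin m ⊕ Fin m) = 2 * m := by simp [two_mul]
  have hfr : finrank F (Fin m ⊕ Fin m → F) = 2 * m := by
    rw [Module.finrank_fintype_fun_eq_card, hcard]
  have hNnil : N ^ (2 * m) = 0 := by
    rw [hN, ← mulVecLin_pow, hnil]
    exact Matrix.mulVecLin_zero
  have hker : finrank F (LinearMap.ker N) ≤ 1 := ker_le_one hcard _ hreg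
  have hNapp : ∀ v, N v = M *ᵥ v - v := by
    intro v
    rw [hN, Matrix.mulVecLin_apply, Matrix.sub_mulVec, Matrix.one_mulVec]
  have hpres : ∀ v w, Cfsg.sympForm m F (M *ᵥ v) (M *ᵥ w) = Cfsg.sympForm m F v w := sympForm_preserved u
  have hMinj : Function.Injective (fun v : Fin m ⊕ Fin m → F => M *ᵥ v) := by
    intro a b hab
    have hab' : M *ᵥ a = M *ᵥ b := hab
    have : ∀ w, Cfsg.sympForm m F (a - b) w = 0 := by
      intro w
      rw [← hpres, Matrix.mulVec_sub, hab', sub_self]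
      have := sympForm_smul_left (0 : F) (0 : Fin m ⊕ Fin m → F) (M *ᵥ w)
      simpa using this
    exact sub_eq_zero.mp (sympForm_nondeg this)
  have hsurj : ∀ w ∈ W, ∃ w' ∈ W, M *ᵥ w' = w := by
    intro w hw
    let L : W →ₗ[F] W := (M.mulVecLin).restrict hW
    have hLinj : Function.Injective L := by
      intro a b hab
      have := congrArg Subtype.val hab
      exact Subtype.ext (hMinj this)
    obtain ⟨⟨u', hu'⟩, h⟩ := (LinearMap.injective_iff_surjective.mp hLinj) ⟨w, hw⟩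
    exact ⟨u', hu', congrArg Subtype.val h⟩
  let P : Submodule F (Fin m ⊕ Fin m → F) := (bform m F).orthogonal W
  have hPinv : ∀ v ∈ P, N v ∈ P := by
    intro v hv
    rw [hNapp]
    refine P.sub_mem ?_ hv
    apply LinearMap.BilinForm.mem_orthogonal_iff.mpr
    intro w hw
    obtain ⟨w', hw', rfl⟩ := hsurj w hw
    show bform m F (M *ᵥ w') (M *ᵥ v) = 0
    rw [bform_apply, hpres]
    exact LinearMap.BilinForm.mem_orthogonal_iff.mp hv w' hw'
  have hWinv : ∀ v ∈ W, N v ∈ W := by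
    intro v hv
    rw [hNapp]
    exact W.sub_mem (hW v hv) hv
  have h1 := eq_ker_pow N hfr hNnil hker W hWinv
  have h2 := eq_ker_pow N hfr hNnil hker P hPinv
  have h3 : finrank F P = 2 * m - finrank F W := by
    have := LinearMap.BilinForm.finrank_orthogonal (bform_nondegenerate (m := m) (F := F)) W
    rw [hfr] at this
    exact this
  have hle : W ≤ P := by
    intro w hw
    rw [h1, LinearMap.mem_ker] at hw
    rw [h2, LinearMap.mem_ker]
    have : finrank F P = (finrank F P - finrank F W) + finrank F W := by omega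
    rw [this, pow_add, Module.End.mul_apply, hw, map_zero]
  intro v hv w hw
  exact LinearMap.BilinForm.mem_orthogonal_iff.mp (hle hw) v hv

end Cfsg.Agent.S2574
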