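import Cfsg.Statements.S2575
import Cfsg.Agent.Lib.CyclicPow

set_option autoImplicit false
open Cfsg

namespace Cfsg.Agent.S2575

theorem neg_one_ne_one {F : Type*} [Field F] [Fintype F] (hq : Odd (Fintype.card F)) : (-1 : F) ≠ 1 := by
  apply Ring.neg_one_ne_one_of_char_ne_two
  intro h
  have := FiniteField.even_card_of_char_two h
  exact (Nat.not_even_iff_odd.mpr hq) (Nat.even_iff.mpr this)

theorem arith (n N : ℕ) (hn : 1 ≤ n) (hN : 1 ≤ N) : Even (N / Nat.gcd n N) ↔ padicValNat 2 n < padicValNat 2 N := by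
  have hg : 0 < Nat.gcd n N := Nat.gcd_pos_of_pos_left _ hn
  obtain ⟨l, hl⟩ := Nat.gcd_dvd_right n N
  have h1 : N / Nat.gcd n N = l := Nat.div_eq_of_eq_mul_right hg hl
  rw [h1]
  have hl0 : l ≠ 0 := by rintro rfl; omega
  have hv : padicValNat 2 N = padicValNat 2 (Nat.gcd n N) + padicValNat 2 l := by
    conv_lhs => rw [hl]
    rw [padicValNat.mul hg.ne' hl0]
  have hmin : padicValNat 2 (Nat.gcd n N) = min (padicValNat 2 n) (padicValNat 2 N) := by
    rw [← Nat.factorization_def _ Nat.prime_two, ← Nat.factorization_def _ Nat.prime_two,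
      ← Nat.factorization_def _ Nat.prime_two, Nat.factorization_gcd (by omega) (by omega)]
    rfl
  have heven : Even l ↔ 1 ≤ padicValNat 2 l := by
    rw [even_iff_two_dvd, dvd_iff_padicValNat_ne_zero hl0]
    omega
  rw [heven]
  omega

theorem result {F : Type*} [Field F] [Fintype F] {q : ℕ} (hF : Fintype.card F = q) (hq : Odd q) {n : ℕ} (hn : 1 ≤ n) (i : ℕ) (hi : i ≤ n) : (∃ c : F, c ≠ 0 ∧ (c • Matrix.diagonal (fun j : Fin n => if (j : ℕ) < i then (-1 : F) else 1)).det = 1) ↔ (Even i ∨ padicValNat 2 n < padicValNat 2 (q - 1)) := by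
  have hdet : ∀ c : F, (c • Matrix.diagonal (fun j : Fin n => if (j : ℕ) < i then (-1 : F) else 1)).det = c ^ n * (-1) ^ i := by
    intro c
    rw [Matrix.det_smul, Matrix.det_diagonal, Finset.prod_ite]
    simp only [Finset.prod_const, one_pow, mul_one, Fintype.card_fin]
    congr 2
    rw [Fin.card_filter_val_lt]
    simp [hi]
  subst hF
  have hne := neg_one_ne_one hq
  have hq1 : 1 < Fintype.card F := Fintype.one_lt_card
  rcases Nat.even_or_odd i with he | ho
  · refine iff_of_true ⟨1, one_ne_zero, ?_⟩ (Or.inl he)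
    rw [hdet, he.neg_one_pow]; simp
  · rw [or_iff_right (Nat.not_even_iff_odd.mpr ho)]
    have : (∃ c : F, c ≠ 0 ∧ (c • Matrix.diagonal (fun j : Fin n => if (j : ℕ) < i then (-1 : F) else 1)).det = 1) ↔ ∃ c : F, c ≠ 0 ∧ c ^ n = -1 := by
      apply exists_congr
      intro c
      rw [hdet, ho.neg_one_pow]
      apply and_congr_right
      intro _
      constructor
      · intro h; linear_combination -h
      · intro h; rw [h]; ring
    rw [this, Cfsg.Agent.Lib.CyclicPow.field_exists_pow_eq_iff n (-1 : F) (by simp), ← arith n _ hn (by omega)]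
    constructor
    · intro h
      by_contra hodd
      rw [Nat.not_even_iff_odd] at hodd
      rw [hodd.neg_one_pow] at h
      exact hne h
    · intro h
      exact h.neg_one_pow

end Cfsg.Agent.S2575
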