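import Cfsg.Statements.S2576
import Cfsg.Agent.Lib.CyclicPow

set_option autoImplicit false
open Cfsg

namespace Cfsg.Agent.S2576

theorem neg_one_ne_one {F : Type*} [Field F] [Fintype F] (hq : Odd (Fintype.card F)) : (-1 : F) ≠ 1 := by
  apply Ring.neg_one_ne_one_of_char_ne_two
  intro h
  have := FiniteField.even_card_of_char_two h
  exact (Nat.not_even_iff_odd.mpr hq) (Nat.even_iff.mpr this)

theorem arith (m N a : ℕ) (hm : 1 ≤ m) (hN : 1 ≤ N) (ha : a = padicValNat 2 N) :
    2 ^ a ∣ m * (N / Nat.gcd (2 * m) N) ↔ a < padicValNat 2 (2 * m) := by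
  have hg : 0 < Nat.gcd (2 * m) N := Nat.gcd_pos_of_pos_right _ hN
  obtain ⟨l, hl⟩ := Nat.gcd_dvd_right (2 * m) N
  have h1 : N / Nat.gcd (2 * m) N = l := Nat.div_eq_of_eq_mul_right hg hl
  rw [h1]
  have hl0 : l ≠ 0 := by rintro rfl; omega
  have hv : padicValNat 2 N = padicValNat 2 (Nat.gcd (2 * m) N) + padicValNat 2 l := by
    conv_lhs => rw [hl]
    rw [padicValNat.mul hg.ne' hl0]
  have hmin : padicValNat 2 (Nat.gcd (2 * m) N) = min (padicValNat 2 (2 * m)) (padicValNat 2 N) := by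
    rw [← Nat.factorization_def _ Nat.prime_two, ← Nat.factorization_def _ Nat.prime_two,
      ← Nat.factorization_def _ Nat.prime_two, Nat.factorization_gcd (by omega) (by omega)]
    rfl
  have h2m : padicValNat 2 (2 * m) = padicValNat 2 m + 1 := by
    rw [padicValNat.mul (by norm_num) (by omega)]
    simp [add_comm]
  rw [padicValNat_dvd_iff_le (by positivity), padicValNat.mul (by omega) hl0]
  omega

theorem result {F : Type*} [Field F] [Fintype F] {q : ℕ} (hF : Fintype.card F = q) (hq : Odd q) {m : ℕ} (hm : 1 ≤ m) (μ : F) (hμ : orderOf μ = 2 ^ padicValNat 2 (q - 1)) : (∃ c : F, c ≠ 0 ∧ (c • Matrix.blockDiagonal (fun _ : Fin m => !![(0 : F), 1; μ, 0])).det = 1) ↔ (q % 4 = 3 ∨ padicValNat 2 (q - 1) < padicValNat 2 (2 * m)) := by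
  subst hF
  have hne := neg_one_ne_one hq
  have hq1 : 1 < Fintype.card F := Fintype.one_lt_card
  have hdet : ∀ c : F, (c • Matrix.blockDiagonal (fun _ : Fin m => !![(0 : F), 1; μ, 0])).det = c ^ (2 * m) * (-μ) ^ m := by
    intro c
    rw [Matrix.det_smul, Matrix.det_blockDiagonal]
    simp [Matrix.det_fin_two]
  have hμ0 : μ ≠ 0 := by
    rintro rfl
    have : orderOf (0 : F) = 0 := by
      rw [orderOf_eq_zero_iff']
      intro n hn
      rw [zero_pow hn.ne']
      exact zero_ne_one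
    rw [this] at hμ
    exact absurd hμ.symm (by positivity)
  have hiff : (∃ c : F, c ≠ 0 ∧ (c • Matrix.blockDiagonal (fun _ : Fin m => !![(0 : F), 1; μ, 0])).det = 1) ↔ ∃ c : F, c ≠ 0 ∧ c ^ (2 * m) = (-μ) ^ m := by
    constructor
    · rintro ⟨c, hc, h⟩
      refine ⟨c⁻¹, inv_ne_zero hc, ?_⟩
      rw [hdet] at h
      rw [inv_pow]
      exact inv_eq_of_mul_eq_one_right h
    · rintro ⟨c, hc, h⟩
      refine ⟨c⁻¹, inv_ne_zero hc, ?_⟩
      rw [hdet, ← h, inv_pow, inv_mul_cancel₀ (pow_ne_zero _ hc)]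
  rw [hiff, Cfsg.Agent.Lib.CyclicPow.field_exists_pow_eq_iff _ _ (pow_ne_zero _ (neg_ne_zero.mpr hμ0)), ← pow_mul]
  have ha1 : 1 ≤ padicValNat 2 (Fintype.card F - 1) := by
    apply one_le_padicValNat_of_dvd (by omega)
    have : Even (Fintype.card F - 1) := by
      obtain ⟨k, hk⟩ := hq
      exact ⟨k, by omega⟩
    exact this.two_dvd
  have hsq : μ ^ (2 ^ (padicValNat 2 (Fintype.card F - 1) - 1)) = -1 := by
    have h1 : (μ ^ (2 ^ (padicValNat 2 (Fintype.card F - 1) - 1))) ^ 2 = 1 := by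
      rw [← pow_mul, ← pow_succ, Nat.sub_add_cancel ha1, ← hμ, pow_orderOf_eq_one]
    rw [sq] at h1
    rcases mul_self_eq_one_iff.mp h1 with h | h
    · exfalso
      have := orderOf_dvd_of_pow_eq_one h
      rw [hμ] at this
      have := (Nat.pow_dvd_pow_iff_le_right (by norm_num : 1 < 2)).mp this
      omega
    · exact h
  by_cases h4 : Fintype.card F % 4 = 3
  · refine iff_of_true ?_ (Or.inl h4)
    have : padicValNat 2 (Fintype.card F - 1) = 1 := by
      apply le_antisymm _ ha1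
      by_contra hlt
      push Not at hlt
      have : 2 ^ 2 ∣ Fintype.card F - 1 := by
        rw [padicValNat_dvd_iff_le (by omega)]
        omega
      omega
    rw [this] at hsq
    simp only [le_refl, Nat.sub_self, pow_zero, pow_one] at hsq
    rw [hsq]
    simp
  · rw [or_iff_right h4, ← arith m _ _ hm (by omega) rfl]
    have ha2 : 2 ≤ padicValNat 2 (Fintype.card F - 1) := by
      rw [← padicValNat_dvd_iff_le (by omega)]
      obtain ⟨k, hk⟩ := hq
      omega
    have hord : orderOf (-μ) = 2 ^ padicValNat 2 (Fintype.card F - 1) := by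
      have : -μ = μ ^ (2 ^ (padicValNat 2 (Fintype.card F - 1) - 1) + 1) := by
        rw [pow_succ, hsq]; ring
      rw [this]
      rw [Nat.Coprime.orderOf_pow, hμ]
      rw [hμ]
      apply Nat.Coprime.pow_left
      rw [Nat.coprime_two_left]
      apply Even.add_one
      apply Even.pow_of_ne_zero (by norm_num)
      omega
    rw [← hord, orderOf_dvd_iff_pow_eq_one]

end Cfsg.Agent.S2576
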