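import Cfsg.Statements.S2577
import Cfsg.Agent.Lib.GLClass

set_option autoImplicit false
open Cfsg

namespace Cfsg.Agent.S2577

open Polynomial Cfsg.Agent.Lib.FXType Cfsg.Agent.Lib.GLClass Module

universe u
variable {F : Type u} [Field F]

/-- type of an involution -/
noncomputable def S (F : Type u) [Field F] (a b : ℕ) : Multiset (F[X] × ℕ) :=
  Multiset.replicate a (X - C 1, 1) + Multiset.replicate b (X + C 1, 1)

theorem sub_ne_add (h2 : (2 : F) ≠ 0) : (X - C 1 : F[X]) ≠ X + C 1 := by
  intro h
  have h1 := congrArg (eval 1) h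
  simp only [eval_sub, eval_X, eval_C, eval_add, sub_self] at h1
  apply h2
  rw [h1]; norm_num

theorem goodSub : Good ((X - C 1 : F[X]), 1) := ⟨monic_X_sub_C 1, irreducible_X_sub_C 1, one_pos⟩

theorem addC : (X + C 1 : F[X]) = X - C (-1) := by rw [C_neg, sub_neg_eq_add]

theorem goodAdd : Good ((X + C 1 : F[X]), 1) := by
  refine ⟨?_, ?_, one_pos⟩
  · show (X + C 1 : F[X]).Monic
    rw [addC]; exact monic_X_sub_C _
  · show Irreducible (X + C 1 : F[X])
    rw [addC]; exact irreducible_X_sub_C _

theorem deg_sub : (X - C 1 : F[X]).natDegree = 1 := natDegree_X_sub_C 1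

theorem deg_add : (X + C 1 : F[X]).natDegree = 1 := by rw [addC]; exact natDegree_X_sub_C _

theorem S_card (a b : ℕ) : ((S F a b).map fun d => d.1.natDegree * d.2).sum = a + b := by
  rw [S, Multiset.map_add, Multiset.map_replicate, Multiset.map_replicate, Multiset.sum_add, Multiset.sum_replicate,
    Multiset.sum_replicate, deg_sub, deg_add]
  simp

theorem S_good (a b : ℕ) : ∀ d ∈ S F a b, Good d := by
  intro d hd
  rw [S, Multiset.mem_add] at hd
  rcases hd with h | h
  · rw [Multiset.eq_of_mem_replicate h]; exact goodSub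
  · rw [Multiset.eq_of_mem_replicate h]; exact goodAdd

theorem ker_sub (h2 : (2 : F) ≠ 0) {V : Type*} [AddCommGroup V] [Module F V] {f : End F V} {a b : ℕ} (h : HasType f (S F a b)) :
    finrank F (LinearMap.ker (aeval f (X - C 1 : F[X]))) = a := by
  classical
  rw [h.finrank_ker, S, Multiset.map_add, Multiset.map_replicate, Multiset.map_replicate, Multiset.sum_add, Multiset.sum_replicate,
    Multiset.sum_replicate]
  have e1 := natDegree_gcd_pow (X - C 1 : F[X]) (X - C 1) goodSub.1 goodSub.2.1 goodSub.1 goodSub.2.1 1 1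
  have e2 := natDegree_gcd_pow (X + C 1 : F[X]) (X - C 1) goodAdd.1 goodAdd.2.1 goodSub.1 goodSub.2.1 1 1
  rw [pow_one] at e1 e2
  rw [if_pos rfl, deg_sub] at e1
  rw [if_neg (sub_ne_add h2).symm] at e2
  simp only [pow_one] at e1 e2 ⊢
  rw [e1, e2]
  simp

theorem ker_add (h2 : (2 : F) ≠ 0) {V : Type*} [AddCommGroup V] [Module F V] {f : End F V} {a b : ℕ} (h : HasType f (S F a b)) :
    finrank F (LinearMap.ker (aeval f (X + C 1 : F[X]))) = b := by
  classical
  rw [h.finrank_ker, S, Multiset.map_add, Multiset.map_replicate, Multiset.map_replicate, Multiset.sum_add, Multiset.sum_replicate,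
    Multiset.sum_replicate]
  have e1 := natDegree_gcd_pow (X - C 1 : F[X]) (X + C 1) goodSub.1 goodSub.2.1 goodAdd.1 goodAdd.2.1 1 1
  have e2 := natDegree_gcd_pow (X + C 1 : F[X]) (X + C 1) goodAdd.1 goodAdd.2.1 goodAdd.1 goodAdd.2.1 1 1
  rw [pow_one] at e1 e2
  rw [if_neg (sub_ne_add h2)] at e1
  rw [if_pos rfl, deg_add] at e2
  simp only [pow_one] at e1 e2 ⊢
  rw [e1, e2]
  simp

/-- irreducible divisors of a product of two non-associated irreducibles -/
theorem eq_of_dvd {p a b : F[X]} {k : ℕ} (hp : Good (p, k)) (ha : Good (a, 1)) (hb : Good (b, 1)) (hab : a ≠ b) (h : p ^ k ∣ a * b) :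
    (p = a ∨ p = b) ∧ k = 1 := by
  have hp1 : Irreducible p := hp.2.1
  have hpa : Irreducible a := ha.2.1
  have hpb : Irreducible b := hb.2.1
  have hk : 0 < k := hp.2.2
  have h1 : p ∣ a * b := (dvd_pow_self p hk.ne').trans h
  have hkey : ∀ c : F[X], Irreducible c → c.Monic → p ∣ c → p = c := fun c hc hcm hd =>
    eq_of_monic_of_associated hp.1 hcm (hp1.associated_of_dvd hc hd)
  have hor : p = a ∨ p = b := by
    rcases hp1.prime.dvd_or_dvd h1 with h2 | h2
    · exact Or.inl (hkey a hpa ha.1 h2)
    · exact Or.inr (hkey b hpb hb.1 h2)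
  refine ⟨hor, ?_⟩
  by_contra hk1
  have hk2 : 2 ≤ k := by omega
  have h3 : p * p ∣ a * b := by
    rw [← pow_two]; exact (pow_dvd_pow p hk2).trans h
  rcases hor with rfl | rfl
  · have h4 : p ∣ b := (mul_dvd_mul_iff_left hp1.ne_zero).mp h3
    exact hab (hkey b hpb hb.1 h4)
  · rw [mul_comm a p] at h3
    have h4 : p ∣ a := (mul_dvd_mul_iff_left hp1.ne_zero).mp h3
    exact hab (hkey a hpa ha.1 h4).symm

theorem type_of_sq_one (h2 : (2 : F) ≠ 0) {n : ℕ} (A : Matrix (Fin n) (Fin n) F) (hA : A * A = 1) :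
    ∃ a b, a + b = n ∧ MType A (S F a b) := by
  classical
  obtain ⟨s, hs⟩ := exists_mtype A
  have h1 : aeval A ((X - C 1) * (X + C 1) : F[X]) = 0 := by
    rw [map_mul, map_sub, map_add, aeval_X, aeval_C, map_one, sub_mul, mul_add, mul_add, mul_one, one_mul, one_mul, hA]
    abel
  rw [hs.aeval_eq_zero_iff] at h1
  have h3 : ∀ d ∈ s, d = (X - C 1, 1) ∨ d = (X + C 1, 1) := by
    intro d hd
    have := eq_of_dvd (hs.good d hd) goodSub goodAdd (sub_ne_add h2) (h1 d hd)
    rcases this with ⟨h | h, h'⟩
    · left; exact Prod.ext h h'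
    · right; exact Prod.ext h h'
  have h4 : s = S F (s.count (X - C 1, 1)) (s.count (X + C 1, 1)) := by
    ext d
    rw [S, Multiset.count_add, Multiset.count_replicate, Multiset.count_replicate]
    by_cases e1 : d = (X - C 1, 1)
    · subst e1
      rw [if_pos rfl, if_neg, add_zero]
      intro h; exact sub_ne_add h2 (congrArg Prod.fst h).symm
    · by_cases e2 : d = (X + C 1, 1)
      · subst e2
        rw [if_pos rfl, if_neg, zero_add]
        intro h; exact sub_ne_add h2 (congrArg Prod.fst h)
      · rw [if_neg (fun h => e1 h.symm), if_neg (fun h => e2 h.symm), Multiset.count_eq_zero]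
        intro hd
        rcases h3 d hd with h | h
        exacts [e1 h, e2 h]
  refine ⟨_, _, ?_, by rw [← h4]; exact hs⟩
  have h5 := hs.card
  rw [h4, S_card, Fintype.card_fin] at h5
  exact h5

theorem type_neg (h2 : (2 : F) ≠ 0) {n : ℕ} {A : Matrix (Fin n) (Fin n) F} (hA : A * A = 1) {a b : ℕ} (h : MType A (S F a b)) :
    MType (-A) (S F b a) := by
  obtain ⟨a', b', -, h'⟩ := type_of_sq_one h2 (-A) (by rw [neg_mul_neg, hA])
  have e1 := ker_sub h2 h
  have e2 := ker_add h2 h
  have e3 := ker_sub h2 h'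
  have e4 := ker_add h2 h'
  have k1 : LinearMap.ker (aeval (Matrix.mulVecLin (-A)) (X - C 1 : F[X])) = LinearMap.ker (aeval (Matrix.mulVecLin A) (X + C 1 : F[X])) := by
    rw [aeval_mulVecLin, aeval_mulVecLin]
    have : aeval (-A) (X - C 1 : F[X]) = -(aeval A (X + C 1 : F[X])) := by
      rw [map_sub, map_add, aeval_X, aeval_X, aeval_C, map_one, neg_add, sub_eq_add_neg]
      simp
    rw [this]
    ext x
    rw [LinearMap.mem_ker, LinearMap.mem_ker, Matrix.mulVecLin_apply, Matrix.mulVecLin_apply, Matrix.neg_mulVec, neg_eq_zero]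
  have k2 : LinearMap.ker (aeval (Matrix.mulVecLin (-A)) (X + C 1 : F[X])) = LinearMap.ker (aeval (Matrix.mulVecLin A) (X - C 1 : F[X])) := by
    rw [aeval_mulVecLin, aeval_mulVecLin]
    have : aeval (-A) (X + C 1 : F[X]) = -(aeval A (X - C 1 : F[X])) := by
      rw [map_sub, map_add, aeval_X, aeval_X, aeval_C, map_one]
      simp
      abel
    rw [this]
    ext x
    rw [LinearMap.mem_ker, LinearMap.mem_ker, Matrix.mulVecLin_apply, Matrix.mulVecLin_apply, Matrix.neg_mulVec, neg_eq_zero]
  rw [k1, e2] at e3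
  rw [k2, e1] at e4
  rw [e3, e4]
  exact h'

/-- type for a non-square `μ` -/
noncomputable def T (μ : F) (m : ℕ) : Multiset (F[X] × ℕ) := Multiset.replicate m (X ^ 2 - C μ, 1)

theorem goodSq (μ : F) (hμ : ¬ IsSquare μ) : Good ((X ^ 2 - C μ : F[X]), 1) := by
  refine ⟨monic_X_pow_sub_C μ two_ne_zero, ?_, one_pos⟩
  apply X_pow_sub_C_irreducible_of_prime Nat.prime_two
  intro b hb
  exact hμ ⟨b, by rw [← hb, pow_two]⟩

theorem type_of_sq (μ : F) (hμ : ¬ IsSquare μ) {n : ℕ} (A : Matrix (Fin n) (Fin n) F) (hA : A * A = μ • 1) :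
    ∃ m, 2 * m = n ∧ MType A (T μ m) := by
  classical
  obtain ⟨s, hs⟩ := exists_mtype A
  have h1 : aeval A (X ^ 2 - C μ : F[X]) = 0 := by
    rw [map_sub, map_pow, aeval_X, aeval_C, pow_two, hA, Algebra.algebraMap_eq_smul_one, sub_self]
  rw [hs.aeval_eq_zero_iff] at h1
  have h3 : ∀ d ∈ s, d = (X ^ 2 - C μ, 1) := by
    intro d hd
    have hg := hs.good d hd
    have h4 : d.1 ∣ X ^ 2 - C μ := (dvd_pow_self _ hg.2.2.ne').trans (h1 d hd)
    have h5 : d.1 = X ^ 2 - C μ := eq_of_monic_of_associated hg.1 (goodSq μ hμ).1 (hg.2.1.associated_of_dvd (goodSq μ hμ).2.1 h4)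
    have h6 := natDegree_le_of_dvd (h1 d hd) (goodSq μ hμ).2.1.ne_zero
    have h7 : (X ^ 2 - C μ : F[X]).natDegree = 2 := natDegree_X_pow_sub_C
    rw [hg.1.natDegree_pow, h5, h7] at h6
    have := hg.2.2
    exact Prod.ext h5 (by show d.2 = 1; omega)
  have h4 : s = T μ (Multiset.card s) := Multiset.eq_replicate_card.mpr h3
  refine ⟨_, ?_, by rw [← h4]; exact hs⟩
  have h5 := hs.card
  rw [h4, T, Multiset.map_replicate, Multiset.sum_replicate, Fintype.card_fin] at h5
  have h7 : (X ^ 2 - C μ : F[X]).natDegree = 2 := natDegree_X_pow_sub_C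
  rw [h7] at h5
  simp only [mul_one, smul_eq_mul] at h5
  omega

/-- a nonzero scalar matrix as an element of GL -/
noncomputable def sc (n : ℕ) (c : Fˣ) : GL (Fin n) F := Matrix.GeneralLinearGroup.scalar (Fin n) c

theorem sc_val (n : ℕ) (c : Fˣ) : (sc n c : Matrix (Fin n) (Fin n) F) = (c : F) • 1 := by
  rw [sc, Matrix.smul_one_eq_diagonal]
  rfl

theorem mem_center {n : ℕ} (g : GL (Fin n) F) : g ∈ Subgroup.center (GL (Fin n) F) ↔ ∃ c : Fˣ, g = sc n c := by
  rw [Matrix.GeneralLinearGroup.center_eq_range_scalar]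
  constructor
  · rintro ⟨c, rfl⟩; exact ⟨c, rfl⟩
  · rintro ⟨c, rfl⟩; exact ⟨c, rfl⟩

/-- Number of conjugacy classes of involutions in PGL_n(q) for q odd and n ≥ 2: there are ⌊n/2⌋ classes represented by diagonal matrices with i entries −1 (1 ≤ i ≤ n/2) and, when n is even, one more class represented by a block-diagonal matrix of 2 × 2 blocks [[0, 1], [μ, 0]] with μ a non-square (a matrix squaring to a scalar but having no eigenvalue in the field); in all ⌊n/2⌋ + 1 classes if n is even and ⌊n/2⌋ if n is odd. -/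
theorem result {F : Type*} [Field F] [Fintype F] {q : ℕ} (hF : Fintype.card F = q) (hq : Odd q) {n : ℕ} (hn : 2 ≤ n) : Nat.card {C : ConjClasses (GL (Fin n) F ⧸ Subgroup.center (GL (Fin n) F)) // ∃ g : GL (Fin n) F ⧸ Subgroup.center (GL (Fin n) F), ConjClasses.mk g = C ∧ orderOf g = 2} = n / 2 + (if Even n then 1 else 0) := by
  classical
  have hchar : ringChar F ≠ 2 := by
    intro h
    have h1 : CharP F 2 := by rw [← h]; exact ringChar.charP F
    have h2 : 2 ∣ Fintype.card F := by
      have h3 : ((Fintype.card F : ℕ) : F) = 0 := FiniteField.cast_card_eq_zero F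
      exact (CharP.cast_eq_zero_iff F 2 _).mp h3
    rw [hF] at h2
    exact (Nat.not_even_iff_odd.mpr hq) (even_iff_two_dvd.mpr h2)
  have h2 : (2 : F) ≠ 0 := Ring.two_ne_zero hchar
  obtain ⟨μ₀, hμ₀⟩ := FiniteField.exists_nonsquare hchar
  have hμ₀0 : μ₀ ≠ 0 := by
    rintro rfl; exact hμ₀ ⟨0, by ring⟩
  set G := GL (Fin n) F with hG
  set Z := Subgroup.center G with hZ
  let I : Finset ℕ := (Finset.range (n / 2 + 1)).filter (fun i => i ≠ 0 ∨ Even n)
  have hI : I.card = n / 2 + (if Even n then 1 else 0) := by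
    by_cases he : Even n
    · have : I = Finset.range (n / 2 + 1) := by
        apply Finset.filter_true_of_mem
        intro i _; exact Or.inr he
      rw [this, Finset.card_range, if_pos he]
    · have : I = (Finset.range (n / 2 + 1)).erase 0 := by
        ext i
        rw [Finset.mem_filter, Finset.mem_erase]
        constructor
        · rintro ⟨h1, h3 | h3⟩
          · exact ⟨h3, h1⟩
          · exact absurd h3 he
        · rintro ⟨h1, h3⟩; exact ⟨h3, Or.inl h1⟩
      rw [this, Finset.card_erase_of_mem (by simp), Finset.card_range, if_neg he]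
      rfl
  let τ : ℕ → Multiset (F[X] × ℕ) := fun i => if i = 0 then T μ₀ (n / 2) else S F (n - i) i
  have hex : ∀ i : I, ∃ g : G, MType (g : Matrix (Fin n) (Fin n) F) (τ i) := by
    rintro ⟨i, hi⟩
    rw [Finset.mem_filter, Finset.mem_range] at hi
    obtain ⟨A, hA⟩ : ∃ A : Matrix (Fin n) (Fin n) F, MType A (τ i) := by
      by_cases h0 : i = 0
      · apply exists_matrix
        · intro d hd
          simp only [τ, if_pos h0] at hd
          rw [Multiset.eq_of_mem_replicate hd]
          exact goodSq μ₀ hμ₀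
        · simp only [τ, if_pos h0]
          have he : Even n := by
            rcases hi.2 with h | h
            · exact absurd h0 h
            · exact h
          have h7 : (X ^ 2 - C μ₀ : F[X]).natDegree = 2 := natDegree_X_pow_sub_C
          rw [T, Multiset.map_replicate, Multiset.sum_replicate, h7]
          obtain ⟨k, hk⟩ := he
          simp only [mul_one, smul_eq_mul]
          omega
      · apply exists_matrix
        · simp only [τ, if_neg h0]
          exact S_good _ _
        · simp only [τ, if_neg h0]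
          rw [S_card]
          omega
    have hu : IsUnit A := by
      rw [hA.isUnit_iff]
      intro d hd hX
      by_cases h0 : i = 0
      · simp only [τ, if_pos h0] at hd
        rw [Multiset.eq_of_mem_replicate hd] at hX
        have h1 := congrArg (eval 0) hX
        simp at h1
        exact hμ₀0 h1
      · simp only [τ, if_neg h0] at hd
        rw [S, Multiset.mem_add] at hd
        rcases hd with h | h
        · rw [Multiset.eq_of_mem_replicate h] at hX
          have h1 := congrArg (eval 0) hX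
          simp at h1
        · rw [Multiset.eq_of_mem_replicate h] at hX
          have h1 := congrArg (eval 0) hX
          simp at h1
    obtain ⟨g, rfl⟩ := hu
    exact ⟨g, hA⟩
  choose g hg using hex
  -- squares of the representatives
  have hsq0 : ∀ i : I, (i : ℕ) = 0 → (g i : Matrix (Fin n) (Fin n) F) * g i = μ₀ • 1 := by
    intro i h0
    have h1 := hg i
    simp only [τ, if_pos h0] at h1
    have h3 := (h1.aeval_eq_zero_iff (X ^ 2 - C μ₀)).mpr (by
      intro d hd
      rw [Multiset.eq_of_mem_replicate hd, pow_one])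
    rw [map_sub, map_pow, aeval_X, aeval_C, pow_two, Algebra.algebraMap_eq_smul_one, sub_eq_zero] at h3
    exact h3
  have hsq1 : ∀ i : I, (i : ℕ) ≠ 0 → (g i : Matrix (Fin n) (Fin n) F) * g i = 1 := by
    intro i h0
    have h1 := hg i
    simp only [τ, if_neg h0] at h1
    have h3 := (h1.aeval_eq_zero_iff ((X - C 1) * (X + C 1))).mpr (by
      intro d hd
      rw [S, Multiset.mem_add] at hd
      rcases hd with h | h
      · rw [Multiset.eq_of_mem_replicate h, pow_one]; exact dvd_mul_right _ _
      · rw [Multiset.eq_of_mem_replicate h, pow_one]; exact dvd_mul_left _ _)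
    have h4 : ((X - C 1) * (X + C 1) : F[X]) = X ^ 2 - C 1 := by rw [C_1]; ring
    rw [h4, map_sub, map_pow, aeval_X, aeval_C, map_one, pow_two, sub_eq_zero] at h3
    exact h3
  -- orders in the quotient
  have hord : ∀ x : G, orderOf (QuotientGroup.mk x : G ⧸ Z) = 2 ↔ (∃ μ : Fˣ, (x : Matrix (Fin n) (Fin n) F) * x = (μ : F) • 1) ∧ ∀ c : Fˣ, x ≠ sc n c := by
    intro x
    rw [orderOf_eq_prime_iff, ← QuotientGroup.mk_pow, QuotientGroup.eq_one_iff, Ne, QuotientGroup.eq_one_iff, hZ, mem_center, mem_center]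
    apply and_congr
    · constructor
      · rintro ⟨c, hc⟩
        refine ⟨c, ?_⟩
        rw [← sc_val, ← hc, pow_two]
        rfl
      · rintro ⟨c, hc⟩
        refine ⟨c, ?_⟩
        apply Units.ext
        rw [sc_val, ← hc, pow_two]
        rfl
    · push Not; rfl
  have hconj : ∀ x y : G, IsConj (QuotientGroup.mk x : G ⧸ Z) (QuotientGroup.mk y) ↔ ∃ c : Fˣ, IsConj (x : Matrix (Fin n) (Fin n) F) ((c : F) • (y : Matrix (Fin n) (Fin n) F)) := by
    intro x y
    have hmul : ∀ c : Fˣ, (c : F) • (y : Matrix (Fin n) (Fin n) F) = ((y * sc n c : G) : Matrix (Fin n) (Fin n) F) := by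
      intro c
      rw [Units.val_mul, sc_val, Matrix.mul_smul, Matrix.mul_one]
    constructor
    · intro h
      obtain ⟨c, hc⟩ := isConj_iff.mp h
      obtain ⟨c, rfl⟩ := QuotientGroup.mk_surjective c
      rw [← QuotientGroup.mk_mul, ← QuotientGroup.mk_inv, ← QuotientGroup.mk_mul, eq_comm, QuotientGroup.eq, hZ, mem_center] at hc
      obtain ⟨d, hd⟩ := hc
      refine ⟨d, ?_⟩
      rw [hmul, ← isConj_iff_coe, isConj_iff]
      exact ⟨c, by rw [← hd]; group⟩
    · rintro ⟨c, hc⟩
      rw [hmul, ← isConj_iff_coe, isConj_iff] at hc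
      obtain ⟨d, hd⟩ := hc
      rw [isConj_iff]
      refine ⟨QuotientGroup.mk d, ?_⟩
      rw [← QuotientGroup.mk_mul, ← QuotientGroup.mk_inv, ← QuotientGroup.mk_mul, hd, QuotientGroup.mk_mul]
      have : (QuotientGroup.mk (sc n c) : G ⧸ Z) = 1 := (QuotientGroup.eq_one_iff _).mpr (by rw [hZ, mem_center]; exact ⟨c, rfl⟩)
      rw [this, mul_one]
  have hI2 : ∀ i : I, (i : ℕ) ≤ n / 2 := by
    rintro ⟨i, hi⟩
    rw [Finset.mem_filter, Finset.mem_range] at hi
    show i ≤ n / 2
    omega
  have hgo : ∀ i : I, orderOf (QuotientGroup.mk (g i) : G ⧸ Z) = 2 := by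
    intro i
    rw [hord]
    by_cases h0 : (i : ℕ) = 0
    · refine ⟨⟨Units.mk0 μ₀ hμ₀0, hsq0 i h0⟩, ?_⟩
      intro c hc
      have h1 := hsq0 i h0
      rw [hc, sc_val, Matrix.smul_mul, Matrix.one_mul, smul_smul] at h1
      have h3 := congrFun (congrFun h1 ⟨0, by omega⟩) ⟨0, by omega⟩
      simp only [Matrix.smul_apply, Matrix.one_apply_eq, smul_eq_mul, mul_one] at h3
      exact hμ₀ ⟨c, h3.symm⟩
    · refine ⟨⟨1, by rw [hsq1 i h0]; simp⟩, ?_⟩
      intro c hc
      have h1 := hg i
      simp only [τ, if_neg h0] at h1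
      have h3 := ker_sub h2 h1
      have h4 := ker_add h2 h1
      rw [aeval_mulVecLin] at h3 h4
      rw [hc] at h3 h4
      have h5 : ∀ d : F, finrank F (LinearMap.ker (Matrix.mulVecLin (d • (1 : Matrix (Fin n) (Fin n) F)))) = if d = 0 then n else 0 := by
        intro d
        split_ifs with hd
        · rw [hd, zero_smul, Matrix.mulVecLin_zero, LinearMap.ker_zero, finrank_top, Module.finrank_fintype_fun_eq_card, Fintype.card_fin]
        · rw [Submodule.finrank_eq_zero, LinearMap.ker_eq_bot']
          intro x hx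
          rw [Matrix.mulVecLin_apply, Matrix.smul_mulVec, Matrix.one_mulVec] at hx
          exact (smul_eq_zero.mp hx).resolve_left hd
      have e1 : aeval (sc n c : Matrix (Fin n) (Fin n) F) (X - C 1 : F[X]) = ((c : F) - 1) • 1 := by
        rw [map_sub, aeval_X, aeval_C, map_one, sc_val, sub_smul, one_smul]
      have e2 : aeval (sc n c : Matrix (Fin n) (Fin n) F) (X + C 1 : F[X]) = ((c : F) + 1) • 1 := by
        rw [map_add, aeval_X, aeval_C, map_one, sc_val, add_smul, one_smul]
      rw [e1, h5] at h3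
      rw [e2, h5] at h4
      have := hI2 i
      split_ifs at h3 h4 <;> omega
  let Ψ : I → {C : ConjClasses (G ⧸ Z) // ∃ g : G ⧸ Z, ConjClasses.mk g = C ∧ orderOf g = 2} :=
    fun i => ⟨ConjClasses.mk (QuotientGroup.mk (g i)), _, rfl, hgo i⟩
  have hbij : Function.Bijective Ψ := by
    constructor
    · intro i j hij
      have h1 : ConjClasses.mk (QuotientGroup.mk (g i) : G ⧸ Z) = ConjClasses.mk (QuotientGroup.mk (g j)) := congrArg Subtype.val hij
      rw [ConjClasses.mk_eq_mk_iff_isConj, hconj] at h1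
      obtain ⟨c, hc⟩ := h1
      have hcc : ∀ μ ν : F, (g i : Matrix (Fin n) (Fin n) F) * g i = μ • 1 → (g j : Matrix (Fin n) (Fin n) F) * g j = ν • 1 → μ = c * c * ν := by
        intro μ ν hμ hν
        obtain ⟨d, hd⟩ := hc
        have hd' : (d : Matrix (Fin n) (Fin n) F) * g i = ((c : F) • (g j : Matrix (Fin n) (Fin n) F)) * d := hd
        have h3 : (d : Matrix (Fin n) (Fin n) F) * (g i * g i) = (((c : F) • (g j : Matrix (Fin n) (Fin n) F)) * ((c : F) • (g j : Matrix (Fin n) (Fin n) F))) * d := by
          rw [← Matrix.mul_assoc, hd', Matrix.mul_assoc, hd', Matrix.mul_assoc]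
        rw [hμ, Matrix.smul_mul, Matrix.mul_smul (g j : Matrix (Fin n) (Fin n) F), hν, smul_smul, smul_smul, Matrix.mul_smul, Matrix.mul_one, Matrix.smul_mul, Matrix.one_mul] at h3
        have h4 : (μ - c * c * ν) • (d : Matrix (Fin n) (Fin n) F) = 0 := by rw [sub_smul, h3, sub_self]
        rcases smul_eq_zero.mp h4 with h5 | h5
        · exact sub_eq_zero.mp h5
        · exfalso
          have h6 : (d : Matrix (Fin n) (Fin n) F) * ((d⁻¹ : (Matrix (Fin n) (Fin n) F)ˣ) : Matrix (Fin n) (Fin n) F) = 1 := Units.mul_inv d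
          rw [h5, Matrix.zero_mul] at h6
          have h7 := congrFun (congrFun h6 ⟨0, by omega⟩) ⟨0, by omega⟩
          simp at h7
      by_cases hi0 : (i : ℕ) = 0
      · by_cases hj0 : (j : ℕ) = 0
        · exact Subtype.ext (hi0.trans hj0.symm)
        · exfalso
          have h3 := hcc μ₀ 1 (hsq0 i hi0) (by rw [hsq1 j hj0, one_smul])
          exact hμ₀ ⟨c, by rw [h3, mul_one]⟩
      · by_cases hj0 : (j : ℕ) = 0
        · exfalso
          have h3 := hcc 1 μ₀ (by rw [hsq1 i hi0, one_smul]) (hsq0 j hj0)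
          apply hμ₀
          refine ⟨(c : F)⁻¹, ?_⟩
          have hc0 : (c : F) ≠ 0 := c.ne_zero
          field_simp
          rw [pow_two, mul_comm, h3]
        · have h3 := hcc 1 1 (by rw [hsq1 i hi0, one_smul]) (by rw [hsq1 j hj0, one_smul])
          rw [mul_one] at h3
          have ti := hg i
          have tj := hg j
          simp only [τ, if_neg hi0] at ti
          simp only [τ, if_neg hj0] at tj
          have hi2 := hI2 i
          have hj2 := hI2 j
          apply Subtype.ext
          rcases mul_self_eq_one_iff.mp h3.symm with hc1 | hc1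
          · rw [hc1, one_smul] at hc
            have t := ti.of_isConj hc
            have e1 := ker_add h2 t
            have e2 := ker_add h2 tj
            rw [e1] at e2
            exact e2
          · rw [hc1, neg_one_smul] at hc
            have t := ti.of_isConj hc
            have t' := type_neg h2 (hsq1 j hj0) tj
            have e1 := ker_add h2 t
            have e2 := ker_add h2 t'
            rw [e1] at e2
            omega
    · rintro ⟨C, x, rfl, hx⟩
      obtain ⟨x, rfl⟩ := QuotientGroup.mk_surjective x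
      rw [hord] at hx
      obtain ⟨⟨μ, hμ⟩, hns⟩ := hx
      -- it suffices to find `i` and `c` with `c • x ~ g i`
      suffices h : ∃ (i : I) (c : Fˣ), MType ((c : F) • (x : Matrix (Fin n) (Fin n) F)) (τ i) by
        obtain ⟨i, c, hc⟩ := h
        refine ⟨i, ?_⟩
        apply Subtype.ext
        show ConjClasses.mk (QuotientGroup.mk (g i) : G ⧸ Z) = ConjClasses.mk (QuotientGroup.mk x)
        rw [ConjClasses.mk_eq_mk_iff_isConj, hconj]
        exact ⟨c, (hg i).isConj hc⟩
      by_cases hsqμ : IsSquare (μ : F)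
      · obtain ⟨a, ha⟩ := hsqμ
        have ha0 : a ≠ 0 := by
          rintro rfl
          exact μ.ne_zero (by rw [ha, mul_zero])
        have hx1 : (a⁻¹ • (x : Matrix (Fin n) (Fin n) F)) * (a⁻¹ • (x : Matrix (Fin n) (Fin n) F)) = 1 := by
          rw [Matrix.smul_mul, Matrix.mul_smul, hμ, ha, smul_smul, smul_smul]
          have : a⁻¹ * a⁻¹ * (a * a) = 1 := by field_simp
          rw [this, one_smul]
        obtain ⟨s, t, hst, hty⟩ := type_of_sq_one h2 _ hx1
        have hs0 : s ≠ 0 := by
          rintro rfl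
          have h3 := (hty.aeval_eq_zero_iff (X + C 1)).mpr (by
            intro d hd
            rw [S, Multiset.replicate_zero, zero_add] at hd
            rw [Multiset.eq_of_mem_replicate hd, pow_one])
          rw [map_add, aeval_X, aeval_C, map_one] at h3
          apply hns (-(Units.mk0 a ha0))
          apply Units.ext
          rw [sc_val, Units.val_neg, Units.val_mk0, neg_smul]
          have h4 : a⁻¹ • (x : Matrix (Fin n) (Fin n) F) = -1 := eq_neg_of_add_eq_zero_left h3
          have h5 : a • (a⁻¹ • (x : Matrix (Fin n) (Fin n) F)) = a • (-1) := by rw [h4]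
          rw [smul_smul, mul_inv_cancel₀ ha0, one_smul] at h5
          rw [h5, smul_neg]
        have ht0 : t ≠ 0 := by
          rintro rfl
          have h3 := (hty.aeval_eq_zero_iff (X - C 1)).mpr (by
            intro d hd
            rw [S, Multiset.replicate_zero, add_zero] at hd
            rw [Multiset.eq_of_mem_replicate hd, pow_one])
          rw [map_sub, aeval_X, aeval_C, map_one] at h3
          apply hns (Units.mk0 a ha0)
          apply Units.ext
          rw [sc_val, Units.val_mk0]
          have h4 : a⁻¹ • (x : Matrix (Fin n) (Fin n) F) = 1 := sub_eq_zero.mp h3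
          have h5 : a • (a⁻¹ • (x : Matrix (Fin n) (Fin n) F)) = a • 1 := by rw [h4]
          rw [smul_smul, mul_inv_cancel₀ ha0, one_smul] at h5
          exact h5
        by_cases htn : t ≤ n / 2
        · refine ⟨⟨t, ?_⟩, (Units.mk0 a ha0)⁻¹, ?_⟩
          · rw [Finset.mem_filter, Finset.mem_range]
            exact ⟨by omega, Or.inl ht0⟩
          · simp only [τ, if_neg ht0]
            rw [show n - t = s by omega, Units.val_inv_eq_inv_val, Units.val_mk0]
            exact hty
        · refine ⟨⟨s, ?_⟩, -(Units.mk0 a ha0)⁻¹, ?_⟩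
          · rw [Finset.mem_filter, Finset.mem_range]
            exact ⟨by omega, Or.inl hs0⟩
          · simp only [τ, if_neg hs0]
            rw [show n - s = t by omega, Units.val_neg, Units.val_inv_eq_inv_val, Units.val_mk0, neg_smul]
            exact type_neg h2 hx1 hty
      · obtain ⟨d, hd⟩ : IsSquare ((μ : F) * μ₀) := by
          rw [← quadraticChar_one_iff_isSquare (mul_ne_zero μ.ne_zero hμ₀0), map_mul,
            quadraticChar_neg_one_iff_not_isSquare.mpr hsqμ, quadraticChar_neg_one_iff_not_isSquare.mpr hμ₀]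
          norm_num
        have hd0 : d ≠ 0 := by
          rintro rfl
          rw [mul_zero] at hd
          exact mul_ne_zero μ.ne_zero hμ₀0 hd
        have hx1 : ((μ₀ / d) • (x : Matrix (Fin n) (Fin n) F)) * ((μ₀ / d) • (x : Matrix (Fin n) (Fin n) F)) = μ₀ • 1 := by
          rw [Matrix.smul_mul, Matrix.mul_smul, hμ, smul_smul, smul_smul]
          have : μ₀ / d * (μ₀ / d) * μ = μ₀ := by
            field_simp
            rw [pow_two, ← hd]; ring
          rw [this]
        obtain ⟨m, hm, hty⟩ := type_of_sq μ₀ hμ₀ _ hx1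
        refine ⟨⟨0, ?_⟩, Units.mk0 (μ₀ / d) (div_ne_zero hμ₀0 hd0), ?_⟩
        · rw [Finset.mem_filter, Finset.mem_range]
          exact ⟨by omega, Or.inr ⟨m, by omega⟩⟩
        · simp only [τ, if_pos]
          rw [show n / 2 = m by omega, Units.val_mk0]
          exact hty
  rw [← hI, ← Fintype.card_coe, ← Nat.card_eq_fintype_card]
  exact (Nat.card_congr (Equiv.ofBijective Ψ hbij)).symm

end Cfsg.Agent.S2577
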