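import Cfsg.Statements.S2578
import Cfsg.Agent.Lib.RegNil
import Cfsg.Agent.Lib.RegNil2
import Cfsg.Agent.Lib.LinAux

set_option autoImplicit false
open Cfsg

namespace Cfsg.Agent.S2578

open Module Cfsg.Agent.Lib.RegNil Cfsg.Agent.Lib.RegNil2 Cfsg.Agent.Lib.LinAux

theorem result {F : Type*} [Field F] [Fintype F] {q : ℕ} (hF : Fintype.card F = q) {n : ℕ} (hn : 2 ≤ n) : Nat.card {C : ConjClasses (Matrix.SpecialLinearGroup (Fin n) F) // ∃ u : Matrix.SpecialLinearGroup (Fin n) F, ConjClasses.mk u = C ∧ ((u : Matrix (Fin n) (Fin n) F) - 1) ^ n = 0 ∧ ((u : Matrix (Fin n) (Fin n) F) - 1).rank = n - 1} = Nat.gcd n (q - 1) := by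
  classical
  subst hF
  have hfr : finrank F (Fin n → F) = n := by simp
  have hne : Nonempty (Fin n) := ⟨⟨0, by omega⟩⟩
  -- the standard regular nilpotent
  let N := stdN n F
  have hN : N ^ n = 0 := stdN_pow_self
  let v0 : Fin n → F := Pi.single ⟨0, by omega⟩ 1
  have hv0 : (N ^ (n - 1)) v0 ≠ 0 := stdN_cyclic (by omega)
  -- elements of each determinant
  have hg : ∀ a : Fˣ, ∃ g : (Fin n → F) ≃ₗ[F] (Fin n → F), LinearEquiv.det g = a := fun a => exists_equiv_det a
  choose g hgdet using hg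
  -- the unipotent linear automorphism attached to a linear equivalence
  have hu_det : ∀ e : (Fin n → F) ≃ₗ[F] (Fin n → F),
      LinearMap.det ((1 : Module.End F (Fin n → F)) + (e : (Fin n → F) →ₗ[F] (Fin n → F)) ∘ₗ N ∘ₗ (e.symm : (Fin n → F) →ₗ[F] (Fin n → F))) = 1 := by
    intro e
    have h1 : IsNilpotent ((e : (Fin n → F) →ₗ[F] (Fin n → F)) ∘ₗ N ∘ₗ (e.symm : (Fin n → F) →ₗ[F] (Fin n → F))) := by
      refine ⟨n, ?_⟩
      have hk : ∀ k : ℕ, ((e : (Fin n → F) →ₗ[F] (Fin n → F)) ∘ₗ N ∘ₗ (e.symm : (Fin n → F) →ₗ[F] (Fin n → F))) ^ k = (e : (Fin n → F) →ₗ[F] (Fin n → F)) ∘ₗ (N ^ k) ∘ₗ (e.symm : (Fin n → F) →ₗ[F] (Fin n → F)) := by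
        intro k
        induction k with
        | zero =>
          apply LinearMap.ext; intro x; simp
        | succ k ih =>
          rw [pow_succ, ih]
          apply LinearMap.ext; intro x
          simp [pow_succ]
      rw [hk, hN]
      apply LinearMap.ext; intro x; simp
    have h2 := det_smul_one_add (1 : F) _ h1
    rw [one_smul, one_pow] at h2
    exact h2
  let uu : ((Fin n → F) ≃ₗ[F] (Fin n → F)) → Matrix.SpecialLinearGroup (Fin n) F := fun e =>
    ⟨LinearMap.toMatrix' ((1 : Module.End F (Fin n → F)) + (e : (Fin n → F) →ₗ[F] (Fin n → F)) ∘ₗ N ∘ₗ (e.symm : (Fin n → F) →ₗ[F] (Fin n → F))), by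
      rw [LinearMap.det_toMatrix', hu_det]⟩
  have huu : ∀ e x, ((uu e : Matrix.SpecialLinearGroup (Fin n) F) : Matrix (Fin n) (Fin n) F).mulVec x = x + e (N (e.symm x)) := by
    intro e x
    show (LinearMap.toMatrix' _).mulVec x = _
    rw [LinearMap.toMatrix'_mulVec]
    rfl
  have huuN : ∀ e x, (((uu e : Matrix.SpecialLinearGroup (Fin n) F) : Matrix (Fin n) (Fin n) F) - 1).mulVecLin x = e (N (e.symm x)) := by
    intro e x
    rw [Matrix.mulVecLin_apply, Matrix.sub_mulVec, huu, Matrix.one_mulVec]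
    abel
  have huu_reg : ∀ e, (((uu e : Matrix.SpecialLinearGroup (Fin n) F) : Matrix (Fin n) (Fin n) F) - 1) ^ n = 0 ∧
      (((uu e : Matrix.SpecialLinearGroup (Fin n) F) : Matrix (Fin n) (Fin n) F) - 1).rank = n - 1 := by
    intro e
    have hpow : ∀ k x, ((((uu e : Matrix.SpecialLinearGroup (Fin n) F) : Matrix (Fin n) (Fin n) F) - 1).mulVecLin ^ k) x = e ((N ^ k) (e.symm x)) := by
      intro k
      induction k with
      | zero => intro x; simp
      | succ k ih =>
        intro x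
        rw [pow_succ', Module.End.mul_apply, ih, huuN, LinearEquiv.symm_apply_apply, ← Module.End.mul_apply, ← pow_succ']
    have h1 : (((uu e : Matrix.SpecialLinearGroup (Fin n) F) : Matrix (Fin n) (Fin n) F) - 1).mulVecLin ^ n = 0 := by
      apply LinearMap.ext; intro x
      rw [hpow, hN]; simp
    constructor
    · apply matrix_ext
      intro x
      have := congrArg (fun f => f x) h1
      simp only [← mulVecLin_pow] at this
      rw [Matrix.mulVecLin_apply] at this
      rw [this]; simp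
    · have h2 : ((((uu e : Matrix.SpecialLinearGroup (Fin n) F) : Matrix (Fin n) (Fin n) F) - 1).mulVecLin ^ (n - 1)) (e v0) ≠ 0 := by
        rw [hpow, LinearEquiv.symm_apply_apply]
        intro h
        exact hv0 ((LinearEquiv.map_eq_zero_iff e).mp h)
      exact finrank_range_of_cyclic _ hfr h1 _ h2
  -- every regular unipotent is of this form
  have hform : ∀ u : Matrix.SpecialLinearGroup (Fin n) F, ((u : Matrix (Fin n) (Fin n) F) - 1) ^ n = 0 →
      ((u : Matrix (Fin n) (Fin n) F) - 1).rank = n - 1 → ∃ e, u = uu e := by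
    intro u h1 h2
    have hM : ((u : Matrix (Fin n) (Fin n) F) - 1).mulVecLin ^ n = 0 := by
      rw [← mulVecLin_pow, h1]; exact Matrix.mulVecLin_zero
    obtain ⟨v, hv⟩ := exists_cyclic ((u : Matrix (Fin n) (Fin n) F) - 1).mulVecLin hfr (by omega) (ker_le_one (by simp) _ h2)
    obtain ⟨e, he, -⟩ := exists_equiv N hfr hN v0 hv0 ((u : Matrix (Fin n) (Fin n) F) - 1).mulVecLin hfr hM v hv
    refine ⟨e, ?_⟩
    apply Subtype.ext
    apply matrix_ext
    intro x
    have h3 := he (e.symm x)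
    rw [LinearEquiv.apply_symm_apply, Matrix.mulVecLin_apply, Matrix.sub_mulVec, Matrix.one_mulVec] at h3
    rw [huu, h3]
    abel
  -- conjugation
  have hconj : ∀ (e e' : (Fin n → F) ≃ₗ[F] (Fin n → F)), IsConj (uu e) (uu e') ↔
      ∃ c : Fˣ, LinearEquiv.det e' = LinearEquiv.det e * c ^ n := by
    intro e e'
    constructor
    · rw [isConj_iff]
      rintro ⟨s, hs⟩
      rw [mul_inv_eq_iff_eq_mul] at hs
      -- `e'⁻¹ s e` commutes with `N`
      let sl : (Fin n → F) ≃ₗ[F] (Fin n → F) := Matrix.SpecialLinearGroup.toLin' s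
      have hsl : ∀ x, sl x = (s : Matrix (Fin n) (Fin n) F).mulVec x := fun x => rfl
      have hsdet : LinearEquiv.det sl = 1 := by
        ext
        rw [LinearEquiv.coe_det]
        have : (sl : (Fin n → F) →ₗ[F] (Fin n → F)) = Matrix.toLin' (s : Matrix (Fin n) (Fin n) F) := rfl
        rw [this, LinearMap.det_toLin', s.2]; rfl
      have h1 : ∀ x, sl (e (N (e.symm x))) = e' (N (e'.symm (sl x))) := by
        intro x
        have h2 := congrArg (fun A : Matrix.SpecialLinearGroup (Fin n) F => (A : Matrix (Fin n) (Fin n) F).mulVec x) hs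
        simp only [Matrix.SpecialLinearGroup.coe_mul] at h2
        rw [← Matrix.mulVec_mulVec, ← Matrix.mulVec_mulVec, huu, huu, Matrix.mulVec_add, add_right_inj] at h2
        exact h2
      let c : (Fin n → F) ≃ₗ[F] (Fin n → F) := (e.trans sl).trans e'.symm
      have hc : ∀ x, (c : (Fin n → F) →ₗ[F] (Fin n → F)) (N x) = N ((c : (Fin n → F) →ₗ[F] (Fin n → F)) x) := by
        intro x
        have := h1 (e x)
        rw [LinearEquiv.symm_apply_apply] at this
        show e'.symm (sl (e (N x))) = N (e'.symm (sl (e x)))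
        rw [this, LinearEquiv.symm_apply_apply]
      obtain ⟨a, ha⟩ := det_commute N hfr hN v0 hv0 (c : (Fin n → F) →ₗ[F] (Fin n → F)) hc
      rw [← LinearEquiv.coe_det] at ha
      have ha0 : a ≠ 0 := by
        rintro rfl
        rw [zero_pow (by omega)] at ha
        exact (LinearEquiv.det c).ne_zero ha
      have h3 : LinearEquiv.det c = (Units.mk0 a ha0) ^ n := by
        ext; rw [ha]; simp
      have h4 : LinearEquiv.det c = (LinearEquiv.det e')⁻¹ * LinearEquiv.det e := by
        simp only [c]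
        rw [LinearEquiv.det_trans, LinearEquiv.det_trans, hsdet, one_mul, LinearEquiv.det_symm, map_inv]
      refine ⟨(Units.mk0 a ha0)⁻¹, ?_⟩
      rw [inv_pow, ← h3, h4]
      group
    · rintro ⟨c, hc⟩
      let sc : (Fin n → F) ≃ₗ[F] (Fin n → F) := LinearEquiv.smulOfUnit c
      have hsc : ∀ x, sc x = (c : F) • x := fun x => rfl
      have hscdet : LinearEquiv.det sc = c ^ n := by
        ext
        rw [LinearEquiv.coe_det]
        have : (sc : (Fin n → F) →ₗ[F] (Fin n → F)) = (c : F) • LinearMap.id := by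
          apply LinearMap.ext; intro x; rfl
        rw [this, LinearMap.det_smul, LinearMap.det_id, hfr]
        simp
      let s : (Fin n → F) ≃ₗ[F] (Fin n → F) := (e.symm.trans sc.symm).trans e'
      have hsdet : LinearEquiv.det s = 1 := by
        simp only [s]
        rw [LinearEquiv.det_trans, LinearEquiv.det_trans, LinearEquiv.det_symm, LinearEquiv.det_symm, map_inv, map_inv, hscdet, hc]
        group
      have hgl := det_glEquiv_symm s
      rw [hsdet, Units.val_one] at hgl
      let S : Matrix.SpecialLinearGroup (Fin n) F := ⟨(((glEquiv (Fin n) F).symm s : GL (Fin n) F) : Matrix (Fin n) (Fin n) F), hgl⟩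
      have hS : ∀ x, (S : Matrix (Fin n) (Fin n) F).mulVec x = s x := glEquiv_symm_mulVec s
      rw [isConj_iff]
      refine ⟨S, ?_⟩
      rw [mul_inv_eq_iff_eq_mul]
      apply Subtype.ext
      apply matrix_ext
      intro x
      rw [Matrix.SpecialLinearGroup.coe_mul, Matrix.SpecialLinearGroup.coe_mul, ← Matrix.mulVec_mulVec, ← Matrix.mulVec_mulVec, hS, hS, huu, huu, map_add]
      congr 1
      have hscN : ∀ y, sc.symm (N y) = N (sc.symm y) := by
        intro y
        rw [LinearEquiv.symm_apply_eq, hsc, ← map_smul, ← hsc, LinearEquiv.apply_symm_apply]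
      simp only [s, LinearEquiv.trans_apply, LinearEquiv.symm_apply_apply, hscN]
  -- the bijection
  have hcard : Nat.card {C : ConjClasses (Matrix.SpecialLinearGroup (Fin n) F) // ∃ u : Matrix.SpecialLinearGroup (Fin n) F, ConjClasses.mk u = C ∧ ((u : Matrix (Fin n) (Fin n) F) - 1) ^ n = 0 ∧ ((u : Matrix (Fin n) (Fin n) F) - 1).rank = n - 1} =
      Nat.card (Fˣ ⧸ (powMonoidHom n : Fˣ →* Fˣ).range) := by
    symm
    have hmem : ∀ a : Fˣ, ∃ u : Matrix.SpecialLinearGroup (Fin n) F, ConjClasses.mk u = ConjClasses.mk (uu (g a)) ∧ ((u : Matrix (Fin n) (Fin n) F) - 1) ^ n = 0 ∧ ((u : Matrix (Fin n) (Fin n) F) - 1).rank = n - 1 :=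
      fun a => ⟨uu (g a), rfl, huu_reg _⟩
    let Φ : (Fˣ ⧸ (powMonoidHom n : Fˣ →* Fˣ).range) → {C : ConjClasses (Matrix.SpecialLinearGroup (Fin n) F) // ∃ u : Matrix.SpecialLinearGroup (Fin n) F, ConjClasses.mk u = C ∧ ((u : Matrix (Fin n) (Fin n) F) - 1) ^ n = 0 ∧ ((u : Matrix (Fin n) (Fin n) F) - 1).rank = n - 1} :=
      Quotient.lift (fun a : Fˣ => (⟨ConjClasses.mk (uu (g a)), hmem a⟩ : {C : ConjClasses (Matrix.SpecialLinearGroup (Fin n) F) // ∃ u : Matrix.SpecialLinearGroup (Fin n) F, ConjClasses.mk u = C ∧ ((u : Matrix (Fin n) (Fin n) F) - 1) ^ n = 0 ∧ ((u : Matrix (Fin n) (Fin n) F) - 1).rank = n - 1})) (by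
        intro a b hab
        apply Subtype.ext
        show ConjClasses.mk _ = ConjClasses.mk _
        rw [ConjClasses.mk_eq_mk_iff_isConj, hconj, hgdet, hgdet]
        have h1 : a⁻¹ * b ∈ (powMonoidHom n : Fˣ →* Fˣ).range := QuotientGroup.leftRel_apply.mp hab
        obtain ⟨c, hc⟩ := h1
        exact ⟨c, by rw [← powMonoidHom_apply, hc]; group⟩)
    have hΦ : ∀ a : Fˣ, Φ (QuotientGroup.mk a) = ⟨ConjClasses.mk (uu (g a)), hmem a⟩ := fun a => rfl
    apply Nat.card_eq_of_bijective Φ
    constructor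
    · intro x y hxy
      obtain ⟨a, rfl⟩ := QuotientGroup.mk_surjective x
      obtain ⟨b, rfl⟩ := QuotientGroup.mk_surjective y
      rw [hΦ, hΦ] at hxy
      have h1 := congrArg Subtype.val hxy
      simp only at h1
      rw [ConjClasses.mk_eq_mk_iff_isConj, hconj, hgdet, hgdet] at h1
      obtain ⟨c, hc⟩ := h1
      rw [QuotientGroup.eq]
      exact ⟨c, by rw [powMonoidHom_apply, hc]; group⟩
    · rintro ⟨C, u, rfl, h1, h2⟩
      obtain ⟨e, rfl⟩ := hform u h1 h2
      refine ⟨QuotientGroup.mk (LinearEquiv.det e), ?_⟩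
      rw [hΦ]
      apply Subtype.ext
      show ConjClasses.mk _ = ConjClasses.mk _
      rw [ConjClasses.mk_eq_mk_iff_isConj, hconj, hgdet]
      exact ⟨1, by simp⟩
  rw [hcard]
  have h := IsCyclic.index_powMonoidHom_range Fˣ n
  rw [Subgroup.index_eq_card] at h
  rw [h, Nat.card_eq_fintype_card, Fintype.card_units, Nat.gcd_comm]

end Cfsg.Agent.S2578
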