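import Cfsg.Statements.S2579
import Cfsg.Agent.Lib.LinAux

set_option autoImplicit false
open Cfsg

namespace Cfsg.Agent.S2579

open Module Cfsg.Agent.Lib.LinAux

theorem result {F : Type*} [Field F] [Finite F] {n : ℕ} (hn : 3 ≤ n) (s t : Matrix.SpecialLinearGroup (Fin n) F) (hs : Cfsg.IsTransvection (s : Matrix (Fin n) (Fin n) F)) (ht : Cfsg.IsTransvection (t : Matrix (Fin n) (Fin n) F)) : IsConj s t := by
  classical
  have hfr : finrank F (Fin n → F) = n := by simp
  have key : ∀ (s : Matrix.SpecialLinearGroup (Fin n) F), Cfsg.IsTransvection (s : Matrix (Fin n) (Fin n) F) →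
      ∃ e : (F × F × (Fin (n - 2) → F)) ≃ₗ[F] (Fin n → F), ∀ x, (s : Matrix (Fin n) (Fin n) F).mulVec (e x) = e (x + N0 F _ x) := by
    intro s hs
    obtain ⟨e, he⟩ := transvection_normal_form hfr ((s : Matrix (Fin n) (Fin n) F) - 1).mulVecLin hs.1 (by
      intro x
      rw [← LinearMap.comp_apply, ← Matrix.mulVecLin_mul, hs.2]
      simp)
    refine ⟨e, fun x => ?_⟩
    have := he x
    rw [Matrix.mulVecLin_apply, Matrix.sub_mulVec, Matrix.one_mulVec] at this
    rw [map_add, ← this]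
    abel
  obtain ⟨e1, h1⟩ := key s hs
  obtain ⟨e2, h2⟩ := key t ht
  have hne : Nonempty (Fin (n - 2)) := ⟨⟨0, by omega⟩⟩
  obtain ⟨δ, hδ⟩ := exists_equiv_det (F := F) (V := Fin (n - 2) → F) (LinearEquiv.det (e1.symm.trans e2))⁻¹
  let d : (F × F × (Fin (n - 2) → F)) ≃ₗ[F] (F × F × (Fin (n - 2) → F)) :=
    (LinearEquiv.refl F F).prodCongr ((LinearEquiv.refl F F).prodCongr δ)
  have hd : LinearEquiv.det d = (LinearEquiv.det (e1.symm.trans e2))⁻¹ := by
    rw [← hδ]
    ext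
    rw [LinearEquiv.coe_det, LinearEquiv.coe_det]
    have : (d : (F × F × (Fin (n - 2) → F)) →ₗ[F] (F × F × (Fin (n - 2) → F))) =
      LinearMap.prodMap LinearMap.id (LinearMap.prodMap LinearMap.id (δ : (Fin (n - 2) → F) →ₗ[F] (Fin (n - 2) → F))) := rfl
    rw [this, LinearMap.det_prodMap, LinearMap.det_prodMap]
    simp
  let g : (Fin n → F) ≃ₗ[F] (Fin n → F) := (e1.symm.trans d).trans e2
  have hgdet : LinearEquiv.det g = 1 := by
    have : g = (e1.symm.trans e2).trans ((e2.symm.trans d).trans e2) := by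
      ext x
      simp [g]
    rw [this, LinearEquiv.det_trans, LinearEquiv.det_conj, hd, inv_mul_cancel]
  have hgl := det_glEquiv_symm g
  rw [hgdet, Units.val_one] at hgl
  let c : Matrix.SpecialLinearGroup (Fin n) F := ⟨(((glEquiv (Fin n) F).symm g : GL (Fin n) F) : Matrix (Fin n) (Fin n) F), hgl⟩
  rw [isConj_iff]
  refine ⟨c, ?_⟩
  rw [mul_inv_eq_iff_eq_mul]
  apply Subtype.ext
  show (c : Matrix (Fin n) (Fin n) F) * (s : Matrix (Fin n) (Fin n) F) = (t : Matrix (Fin n) (Fin n) F) * (c : Matrix (Fin n) (Fin n) F)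
  apply matrix_ext
  intro x
  rw [← Matrix.mulVec_mulVec, ← Matrix.mulVec_mulVec]
  show (((glEquiv (Fin n) F).symm g : GL (Fin n) F) : Matrix (Fin n) (Fin n) F).mulVec _ = (t : Matrix (Fin n) (Fin n) F).mulVec ((((glEquiv (Fin n) F).symm g : GL (Fin n) F) : Matrix (Fin n) (Fin n) F).mulVec _)
  rw [glEquiv_symm_mulVec, glEquiv_symm_mulVec]
  obtain ⟨y, rfl⟩ := e1.surjective x
  rw [h1]
  simp only [g, LinearEquiv.trans_apply, LinearEquiv.symm_apply_apply]
  rw [h2, map_add]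
  congr 2
  simp [d, N0]

end Cfsg.Agent.S2579
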