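import Cfsg.Statements.S2581
import Cfsg.Agent.Lib.JordanType

set_option autoImplicit false
open Cfsg

namespace Cfsg.Agent.S2581

open Cfsg.Agent.Lib.JordanType

/-- preimages under a surjective homomorphism of finite groups -/
theorem card_preimage {A B : Type*} [AddGroup A] [AddGroup B] (f : A →+ B) (hf : Function.Surjective f) (U : B → Prop) :
    Nat.card {a // U (f a)} * Nat.card B = Nat.card A * Nat.card {b // U b} := by
  classical
  choose s hs using hf
  have key : ∀ U : B → Prop, Nat.card {a // U (f a)} = Nat.card {b // U b} * Nat.card f.ker := by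
    intro U
    rw [← Nat.card_prod]
    apply Nat.card_congr
    exact
      { toFun := fun a => (⟨f a.1, a.2⟩, ⟨a.1 - s (f a.1), by rw [AddMonoidHom.mem_ker, map_sub, hs, sub_self]⟩)
        invFun := fun x => ⟨x.2.1 + s x.1.1, by
          have h1 : f x.2.1 = 0 := x.2.2
          rw [map_add, h1, zero_add, hs]
          exact x.1.2⟩
        left_inv := fun a => by
          apply Subtype.ext
          show a.1 - s (f a.1) + s (f a.1) = a.1
          rw [sub_add_cancel]
        right_inv := fun x => by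
          have h1 : f (x.2.1 + s x.1.1) = x.1.1 := by
            have h1 : f x.2.1 = 0 := x.2.2
            rw [map_add, h1, zero_add, hs]
          apply Prod.ext
          · apply Subtype.ext
            exact h1
          · apply Subtype.ext
            show x.2.1 + s x.1.1 - s (f (x.2.1 + s x.1.1)) = x.2.1
            rw [h1, add_sub_cancel_right] }
  have h1 := key fun _ => True
  have e1 : Nat.card {a : A // True} = Nat.card A := Nat.card_congr (Equiv.subtypeUnivEquiv fun _ => trivial)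
  have e2 : Nat.card {b : B // True} = Nat.card B := Nat.card_congr (Equiv.subtypeUnivEquiv fun _ => trivial)
  rw [e1, e2] at h1
  rw [key U, h1]
  ring

section Main

variable {F : Type*} [Field F] {t : ℕ} (d : Fin t → ℕ)

abbrev Ix (d : Fin t → ℕ) : Type := (k : Fin t) × Fin (d k)

theorem mul_apply' (A : Matrix (Ix d) (Ix d) F) (k : Fin t) (i : Fin (d k)) (y : Ix d) :
    (Cfsg.jordanTypeMatrix d F * A) ⟨k, i⟩ y = A ⟨k, i⟩ y + (if h : 0 < (i : ℕ) then A ⟨k, ⟨i - 1, by omega⟩⟩ y else 0) := by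
  have h1 := blockDiagonal'_mulVec (fun k => Cfsg.jordanBlock (d k) F) (fun z => A z y) k i
  rw [jordanBlock_mulVec] at h1
  exact h1

theorem vecMul_apply' (A : Matrix (Ix d) (Ix d) F) (l : Fin t) (j : Fin (d l)) (x : Ix d) :
    (A * Cfsg.jordanTypeMatrix d F) x ⟨l, j⟩ = A x ⟨l, j⟩ + (if h : (j : ℕ) + 1 < d l then A x ⟨l, ⟨j + 1, h⟩⟩ else 0) := by
  rw [Matrix.mul_apply, Fintype.sum_sigma, Finset.sum_eq_single l]
  · have h1 : ∀ i : Fin (d l), Cfsg.jordanTypeMatrix d F ⟨l, i⟩ ⟨l, j⟩ = (if i = j then 1 else 0) + (if (i : ℕ) = (j : ℕ) + 1 then (1 : F) else 0) := by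
      intro i
      rw [Cfsg.jordanTypeMatrix, Matrix.blockDiagonal'_apply_eq, Cfsg.jordanBlock, Matrix.of_apply]
      by_cases h : i = j
      · subst h
        rw [if_pos rfl, if_pos rfl, if_neg (by omega), add_zero]
      · rw [if_neg (fun h' => h (Fin.ext h')), if_neg h, zero_add]
    simp only [h1, mul_add, Finset.sum_add_distrib, mul_ite, mul_one, mul_zero, Finset.sum_ite_eq', Finset.mem_univ, if_true]
    congr 1
    split_ifs with h
    · rw [Finset.sum_eq_single ⟨j + 1, h⟩]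
      · rw [if_pos rfl]
      · intro i _ hi
        rw [if_neg]
        intro h'
        exact hi (Fin.ext h')
      · intro h; exact absurd (Finset.mem_univ _) h
    · apply Finset.sum_eq_zero
      intro i _
      rw [if_neg]
      intro h'
      have := i.2
      omega
  · intro k' _ hk'
    apply Finset.sum_eq_zero
    intro i _
    rw [Cfsg.jordanTypeMatrix, Matrix.blockDiagonal'_apply_ne _ _ _ hk', mul_zero]
  · intro h; exact absurd (Finset.mem_univ _) h

theorem comm_iff (A : Matrix (Ix d) (Ix d) F) : A * Cfsg.jordanTypeMatrix d F = Cfsg.jordanTypeMatrix d F * A ↔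
    ∀ (k : Fin t) (i : Fin (d k)) (l : Fin t) (j : Fin (d l)),
      (if h : (j : ℕ) + 1 < d l then A ⟨k, i⟩ ⟨l, ⟨j + 1, h⟩⟩ else 0) = (if h : 0 < (i : ℕ) then A ⟨k, ⟨i - 1, by omega⟩⟩ ⟨l, j⟩ else 0) := by
  constructor
  · intro h k i l j
    have h1 := congrFun (congrFun h ⟨k, i⟩) ⟨l, j⟩
    rw [vecMul_apply', mul_apply'] at h1
    exact add_left_cancel h1
  · intro h
    ext ⟨k, i⟩ ⟨l, j⟩
    rw [vecMul_apply', mul_apply', h]

variable (hd : ∀ k, 1 ≤ d k)

include hd in
theorem toeplitz {A : Matrix (Ix d) (Ix d) F} (hA : A * Cfsg.jordanTypeMatrix d F = Cfsg.jordanTypeMatrix d F * A) (k l : Fin t) :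
    ∀ (i j : ℕ) (hi : i < d k) (hj : j < d l), A ⟨k, ⟨i, hi⟩⟩ ⟨l, ⟨j, hj⟩⟩ =
      if j ≤ i then A ⟨k, ⟨i - j, by omega⟩⟩ ⟨l, ⟨0, hd l⟩⟩ else 0 := by
  rw [comm_iff] at hA
  intro i j
  induction j generalizing i with
  | zero =>
    intro hi hj
    rw [if_pos (Nat.zero_le _)]
    rfl
  | succ j ih =>
    intro hi hj
    have h1 := hA k ⟨i, hi⟩ l ⟨j, by omega⟩
    rw [dif_pos (by show j + 1 < d l; exact hj)] at h1
    have h2 : A ⟨k, ⟨i, hi⟩⟩ ⟨l, ⟨j + 1, hj⟩⟩ = if h : 0 < i then A ⟨k, ⟨i - 1, by omega⟩⟩ ⟨l, ⟨j, by omega⟩⟩ else 0 := h1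
    rw [h2]
    by_cases h0 : 0 < i
    · rw [dif_pos h0, ih (i - 1) (by omega) (by omega)]
      by_cases h3 : j + 1 ≤ i
      · rw [if_pos h3, if_pos (by omega)]
        congr 2
        apply Fin.ext
        show i - 1 - j = i - (j + 1)
        omega
      · rw [if_neg h3, if_neg (by omega)]
    · rw [dif_neg h0, if_neg (by omega)]

include hd in
theorem constraint {A : Matrix (Ix d) (Ix d) F} (hA : A * Cfsg.jordanTypeMatrix d F = Cfsg.jordanTypeMatrix d F * A) (l : Fin t) (x : Ix d)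
    (hx : (x.2 : ℕ) + d l < d x.1) : A x ⟨l, ⟨0, hd l⟩⟩ = 0 := by
  obtain ⟨k, i⟩ := x
  have hx' : (i : ℕ) + d l < d k := hx
  have hl := hd l
  have h1 := (comm_iff d A).mp hA k ⟨i + d l, hx'⟩ l ⟨d l - 1, by omega⟩
  rw [dif_neg (by show ¬ (d l - 1 + 1 < d l); omega), dif_pos (by show 0 < (i : ℕ) + d l; omega)] at h1
  have h2 := toeplitz d hd hA k l (i + d l - 1) (d l - 1) (by omega) (by omega)
  rw [if_pos (by omega)] at h2
  have h3 : A ⟨k, ⟨i + d l - 1, by omega⟩⟩ ⟨l, ⟨d l - 1, by omega⟩⟩ = 0 := h1.symm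
  rw [h3] at h2
  rw [h2]
  congr 2
  apply Fin.ext
  show (i : ℕ) = i + d l - 1 - (d l - 1)
  omega

/-- the parameter space -/
def YT (F : Type*) [Field F] (d : Fin t → ℕ) : AddSubgroup (Fin t → Ix d → F) where
  carrier := {Y | ∀ l x, (x.2 : ℕ) + d l < d x.1 → Y l x = 0}
  zero_mem' := fun _ _ _ => rfl
  add_mem' := fun {a b} ha hb l x h => by
    show a l x + b l x = 0
    rw [ha l x h, hb l x h, add_zero]
  neg_mem' := fun {a} ha l x h => by
    show -(a l x) = 0
    rw [ha l x h, neg_zero]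

/-- the matrix attached to a parameter -/
def mat (Y : Fin t → Ix d → F) : Matrix (Ix d) (Ix d) F :=
  Matrix.of fun x y => if h : (y.2 : ℕ) ≤ x.2 then Y y.1 ⟨x.1, ⟨x.2 - y.2, by have := x.2.2; omega⟩⟩ else 0

theorem mat_comm (Y : Fin t → Ix d → F) (hY : ∀ l x, (x.2 : ℕ) + d l < d x.1 → Y l x = 0) :
    mat d Y * Cfsg.jordanTypeMatrix d F = Cfsg.jordanTypeMatrix d F * mat d Y := by
  rw [comm_iff]
  intro k i l j
  by_cases h1 : (j : ℕ) + 1 < d l
  · rw [dif_pos h1]
    by_cases h2 : 0 < (i : ℕ)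
    · rw [dif_pos h2, mat, Matrix.of_apply, Matrix.of_apply]
      by_cases h3 : (j : ℕ) + 1 ≤ i
      · rw [dif_pos (by show (j : ℕ) + 1 ≤ i; exact h3), dif_pos (by show (j : ℕ) ≤ i - 1; omega)]
        show Y l ⟨k, ⟨(i : ℕ) - (j + 1), _⟩⟩ = Y l ⟨k, ⟨(i : ℕ) - 1 - j, _⟩⟩
        congr 2
        apply Fin.ext
        show (i : ℕ) - (j + 1) = i - 1 - j
        omega
      · rw [dif_neg (by show ¬ ((j : ℕ) + 1 ≤ i); exact h3), dif_neg (by show ¬ ((j : ℕ) ≤ i - 1); omega)]
    · rw [dif_neg h2, mat, Matrix.of_apply, dif_neg (by show ¬ ((j : ℕ) + 1 ≤ i); omega)]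
  · rw [dif_neg h1]
    by_cases h2 : 0 < (i : ℕ)
    · rw [dif_pos h2, mat, Matrix.of_apply]
      have hj := j.2
      have hi := i.2
      by_cases h3 : (j : ℕ) ≤ i - 1
      · rw [dif_pos (by show (j : ℕ) ≤ i - 1; exact h3)]
        symm
        apply hY
        show (i : ℕ) - 1 - j + d l < d k
        omega
      · rw [dif_neg (by show ¬ ((j : ℕ) ≤ i - 1); exact h3)]
    · rw [dif_neg h2]

/-- parametrisation of the commutant -/
def commEquiv : {A : Matrix (Ix d) (Ix d) F // A * Cfsg.jordanTypeMatrix d F = Cfsg.jordanTypeMatrix d F * A} ≃ YT F d where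
  toFun A := ⟨fun l x => A.1 x ⟨l, ⟨0, hd l⟩⟩, fun l x h => constraint d hd A.2 l x h⟩
  invFun Y := ⟨mat d Y.1, mat_comm d Y.1 Y.2⟩
  left_inv A := by
    apply Subtype.ext
    ext ⟨k, i⟩ ⟨l, j⟩
    show mat d (fun l x => A.1 x ⟨l, ⟨0, hd l⟩⟩) ⟨k, i⟩ ⟨l, j⟩ = A.1 ⟨k, i⟩ ⟨l, j⟩
    rw [mat, Matrix.of_apply]
    have h := toeplitz d hd A.2 k l i j i.2 j.2
    rw [show A.1 ⟨k, i⟩ ⟨l, j⟩ = A.1 ⟨k, ⟨i, i.2⟩⟩ ⟨l, ⟨j, j.2⟩⟩ from rfl, h]
    rfl
  right_inv Y := by
    apply Subtype.ext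
    funext l ⟨k, i⟩
    show mat d Y.1 ⟨k, i⟩ ⟨l, ⟨0, hd l⟩⟩ = Y.1 l ⟨k, i⟩
    rw [mat, Matrix.of_apply, dif_pos (by show 0 ≤ (i : ℕ); omega)]
    rfl

/-- the diagonal blocks -/
def Q (s : ℕ) : YT F d →+ ((c : Fin s) → Matrix {k // d k = (c : ℕ)} {k // d k = (c : ℕ)} F) where
  toFun Y c := Matrix.of fun k l => Y.1 l.1 ⟨k.1, ⟨0, hd k.1⟩⟩
  map_zero' := rfl
  map_add' _ _ := rfl

theorem Q_surjective (s : ℕ) : Function.Surjective (Q (F := F) d hd s) := by
  intro T
  refine ⟨⟨fun l x => if h : d x.1 = d l ∧ (x.2 : ℕ) = 0 ∧ d l < s then T ⟨d l, h.2.2⟩ ⟨x.1, h.1⟩ ⟨l, rfl⟩ else 0, ?_⟩, ?_⟩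
  · intro l x hx
    show (if h : d x.1 = d l ∧ (x.2 : ℕ) = 0 ∧ d l < s then T ⟨d l, h.2.2⟩ ⟨x.1, h.1⟩ ⟨l, rfl⟩ else 0) = 0
    rw [dif_neg]
    rintro ⟨h1, -⟩
    omega
  · funext c
    ext ⟨k, hk⟩ ⟨l, hl⟩
    show (if h : d k = d l ∧ (0 : ℕ) = 0 ∧ d l < s then T ⟨d l, h.2.2⟩ ⟨k, h.1⟩ ⟨l, rfl⟩ else 0) = T c ⟨k, hk⟩ ⟨l, hl⟩
    rw [dif_pos ⟨hk.trans hl.symm, rfl, by rw [hl]; exact c.2⟩]
    obtain ⟨c, hc⟩ := c
    have hl' : d l = c := hl
    subst hl'
    rfl

/-- the grading -/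
def b (x : Ix d) : ℕᵒᵈ ×ₗ ℕ := toLex (OrderDual.toDual (x.2 : ℕ), d x.1)

theorem isUnit_iff (s : ℕ) (hs : ∀ k, d k < s) (A : {A : Matrix (Ix d) (Ix d) F // A * Cfsg.jordanTypeMatrix d F = Cfsg.jordanTypeMatrix d F * A}) :
    IsUnit A.1 ↔ ∀ c, IsUnit (Q (F := F) d hd s (commEquiv d hd A) c).det := by
  classical
  have htri : A.1.BlockTriangular (b d) := by
    rintro ⟨k, i⟩ ⟨l, j⟩ h
    have ht := toeplitz d hd A.2 k l i j i.2 j.2
    rw [show A.1 ⟨k, i⟩ ⟨l, j⟩ = A.1 ⟨k, ⟨i, i.2⟩⟩ ⟨l, ⟨j, j.2⟩⟩ from rfl, ht]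
    have h' : toLex (OrderDual.toDual (j : ℕ), d l) < toLex (OrderDual.toDual (i : ℕ), d k) := h
    rw [Prod.Lex.toLex_lt_toLex] at h'
    rcases h' with h1 | ⟨h1, h2⟩
    · have h3 : (i : ℕ) < j := h1
      rw [if_neg (by omega)]
    · have h3 : (j : ℕ) = i := h1
      have h4 : d l < d k := h2
      rw [if_pos (by omega)]
      apply constraint d hd A.2
      show (i : ℕ) - j + d l < d k
      omega
  have hblock : ∀ (k₀ : Fin t) (i₀ : Fin (d k₀)) (hc : d k₀ < s), (A.1.toSquareBlock (b d) (b d ⟨k₀, i₀⟩)).det =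
      (Q (F := F) d hd s (commEquiv d hd A) ⟨d k₀, hc⟩).det := by
    intro k₀ i₀ hc
    let e : {k // d k = d k₀} ≃ {x // b d x = b d ⟨k₀, i₀⟩} :=
      { toFun := fun k => ⟨⟨k.1, ⟨i₀, by rw [k.2]; exact i₀.2⟩⟩, by
          show toLex (OrderDual.toDual (i₀ : ℕ), d k.1) = toLex (OrderDual.toDual (i₀ : ℕ), d k₀)
          rw [k.2]⟩
        invFun := fun x => ⟨x.1.1, congrArg (fun z => (ofLex z).2) x.2⟩
        left_inv := fun k => rfl
        right_inv := fun x => by
          obtain ⟨⟨k, i⟩, hx⟩ := x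
          apply Subtype.ext
          have h1 : (i : ℕ) = i₀ := congrArg (fun z : ℕᵒᵈ ×ₗ ℕ => OrderDual.ofDual (ofLex z).1) hx
          show (⟨k, ⟨(i₀ : ℕ), _⟩⟩ : Ix d) = ⟨k, i⟩
          congr 1
          exact Fin.ext h1.symm }
    rw [← Matrix.det_submatrix_equiv_self e]
    congr 1
    ext ⟨k, hk⟩ ⟨l, hl⟩
    show A.1 ⟨k, ⟨i₀, _⟩⟩ ⟨l, ⟨i₀, _⟩⟩ = A.1 ⟨k, ⟨0, hd k⟩⟩ ⟨l, ⟨0, hd l⟩⟩
    rw [toeplitz d hd A.2 k l i₀ i₀ _ _, if_pos le_rfl]
    simp only [Nat.sub_self]
  rw [Matrix.isUnit_iff_isUnit_det, isUnit_iff_ne_zero, htri.det, Finset.prod_ne_zero_iff]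
  constructor
  · intro h c
    rw [isUnit_iff_ne_zero]
    by_cases hc : ∃ k, d k = c
    · obtain ⟨k, hk⟩ := hc
      have hc' : c = ⟨d k, hs k⟩ := Fin.ext hk.symm
      rw [hc', ← hblock k ⟨0, hd k⟩ (hs k)]
      exact h _ (Finset.mem_image_of_mem _ (Finset.mem_univ _))
    · have : IsEmpty {k // d k = (c : ℕ)} := ⟨fun k => hc ⟨k.1, k.2⟩⟩
      rw [Matrix.det_isEmpty]
      exact one_ne_zero
  · intro h a ha
    rw [Finset.mem_image] at ha
    obtain ⟨⟨k, i⟩, -, rfl⟩ := ha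
    rw [hblock k i (hs k)]
    exact isUnit_iff_ne_zero.mp (h _)

end Main

theorem card_YT {F : Type*} [Field F] [Fintype F] {t : ℕ} (d : Fin t → ℕ) :
    Nat.card (YT F d) = Fintype.card F ^ (∑ l, ∑ k, min (d k) (d l)) := by
  classical
  let p : Fin t × Ix d → Prop := fun z => ¬ ((z.2.2 : ℕ) + d z.1 < d z.2.1)
  let E : YT F d ≃ ({z // p z} → F) :=
    { toFun := fun Y z => Y.1 z.1.1 z.1.2
      invFun := fun f => ⟨fun l x => if h : p (l, x) then f ⟨(l, x), h⟩ else 0, fun l x h => by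
        show (if h : p (l, x) then f ⟨(l, x), h⟩ else 0) = 0
        rw [dif_neg]
        exact fun h' => h' h⟩
      left_inv := fun Y => by
        apply Subtype.ext
        funext l x
        show (if h : p (l, x) then Y.1 l x else 0) = Y.1 l x
        split_ifs with h
        · rfl
        · exact (Y.2 l x (not_not.mp h)).symm
      right_inv := fun f => by
        funext z
        show (if h : p (z.1.1, z.1.2) then f ⟨(z.1.1, z.1.2), h⟩ else 0) = f z
        rw [dif_pos z.2] }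
  rw [Nat.card_congr E, Nat.card_fun, Nat.card_eq_fintype_card, Nat.card_eq_fintype_card]
  congr 1
  rw [Fintype.card_subtype, Finset.card_filter, Fintype.sum_prod_type]
  apply Finset.sum_congr rfl
  intro l _
  rw [Fintype.sum_sigma]
  apply Finset.sum_congr rfl
  intro k _
  have h1 := Fin.sum_univ_eq_sum_range (fun i => if ¬ (i + d l < d k) then 1 else 0) (d k)
  have h2 : ∑ i ∈ Finset.range (d k), (if ¬ (i + d l < d k) then 1 else 0) = min (d k) (d l) := by
    rw [← Finset.card_filter]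
    have : (Finset.range (d k)).filter (fun i => ¬ (i + d l < d k)) = Finset.Ico (d k - d l) (d k) := by
      ext i
      rw [Finset.mem_filter, Finset.mem_range, Finset.mem_Ico]
      omega
    rw [this, Nat.card_Ico]
    omega
  rw [← h2, ← h1]

theorem card_units {F : Type*} [Field F] [Fintype F] (ι : Type*) [Fintype ι] [DecidableEq ι] :
    Nat.card {M : Matrix ι ι F // IsUnit M.det} = ∏ j : Fin (Fintype.card ι), (Fintype.card F ^ Fintype.card ι - Fintype.card F ^ (j : ℕ)) := by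
  rw [← Matrix.card_GL_field]
  apply Nat.card_congr
  let e := Fintype.equivFin ι
  let E1 : {M : Matrix ι ι F // IsUnit M.det} ≃ GL ι F :=
    { toFun := fun M => Matrix.nonsingInvUnit M.1 M.2
      invFun := fun g => ⟨g, (Matrix.isUnit_iff_isUnit_det _).mp g.isUnit⟩
      left_inv := fun M => rfl
      right_inv := fun g => Units.ext rfl }
  exact E1.trans (Units.mapEquiv (Matrix.reindexAlgEquiv F F e).toMulEquiv).toEquiv

theorem sum_fiber {t : ℕ} (d : Fin t → ℕ) (s : ℕ) (hs : ∀ k, d k < s) (g : ℕ → ℕ) :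
    ∑ k, g (d k) = ∑ i ∈ Finset.range s, (Finset.univ.filter fun k => d k = i).card * g i := by
  rw [← Finset.sum_fiberwise_of_maps_to (s := Finset.univ) (t := Finset.range s) (g := d) (fun k _ => Finset.mem_range.mpr (hs k))]
  apply Finset.sum_congr rfl
  intro i _
  rw [Finset.sum_congr rfl (g := fun _ => g i) (fun k hk => by rw [(Finset.mem_filter.mp hk).2]), Finset.sum_const, smul_eq_mul]

/-- Order of the centraliser in GL of a unipotent matrix of given Jordan type over the field with q elements: if the type has a_i blocks of size i (all block sizes at least 1), the invertible matrices commuting with it number q^γ · Π_i |GL_(a_i)(q)| with γ = 2 Σ_(i<j) i a_i a_j + Σ_i (i − 1) a_i² (a group of order q^γ extended by Π GL_(a_i)(q)). -/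
theorem result {F : Type*} [Field F] [Fintype F] {q : ℕ} (hF : Fintype.card F = q) {t : ℕ} (d : Fin t → ℕ) (hd : ∀ k, 1 ≤ d k) : Nat.card {g : GL ((k : Fin t) × Fin (d k)) F // (g : Matrix ((k : Fin t) × Fin (d k)) ((k : Fin t) × Fin (d k)) F) * Cfsg.jordanTypeMatrix d F = Cfsg.jordanTypeMatrix d F * (g : Matrix ((k : Fin t) × Fin (d k)) ((k : Fin t) × Fin (d k)) F)} = q ^ (2 * (∑ i ∈ Finset.range (Finset.univ.sup d + 1), ∑ j ∈ Finset.range (Finset.univ.sup d + 1), if i < j then i * (Finset.univ.filter (fun k : Fin t => d k = i)).card * (Finset.univ.filter (fun k : Fin t => d k = j)).card else 0) + ∑ i ∈ Finset.range (Finset.univ.sup d + 1), (i - 1) * (Finset.univ.filter (fun k : Fin t => d k = i)).card ^ 2) * ∏ i ∈ Finset.range (Finset.univ.sup d + 1), ∏ j : Fin ((Finset.univ.filter (fun k : Fin t => d k = i)).card), (q ^ (Finset.univ.filter (fun k : Fin t => d k = i)).card - q ^ (j : ℕ)) := by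
  classical
  subst hF
  set s := Finset.univ.sup d + 1 with hs
  have hds : ∀ k, d k < s := fun k => Nat.lt_succ_of_le (Finset.le_sup (f := d) (Finset.mem_univ k))
  set a : ℕ → ℕ := fun i => (Finset.univ.filter (fun k : Fin t => d k = i)).card with ha
  let T := (c : Fin s) → Matrix {k // d k = (c : ℕ)} {k // d k = (c : ℕ)} F
  have hcard : ∀ c : ℕ, Fintype.card {k // d k = c} = a c := fun c => by rw [Fintype.card_subtype]
  -- step 1: pass to parameters
  have e1 : Nat.card {g : GL (Ix d) F // (g : Matrix (Ix d) (Ix d) F) * Cfsg.jordanTypeMatrix d F = Cfsg.jordanTypeMatrix d F * (g : Matrix (Ix d) (Ix d) F)} =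
      Nat.card {Y : YT F d // ∀ c, IsUnit (Q (F := F) d hd s Y c).det} := by
    apply Nat.card_congr
    let E1 : {g : GL (Ix d) F // (g : Matrix (Ix d) (Ix d) F) * Cfsg.jordanTypeMatrix d F = Cfsg.jordanTypeMatrix d F * (g : Matrix (Ix d) (Ix d) F)} ≃
        {A : {A : Matrix (Ix d) (Ix d) F // A * Cfsg.jordanTypeMatrix d F = Cfsg.jordanTypeMatrix d F * A} // IsUnit A.1} :=
      { toFun := fun g => ⟨⟨g.1, g.2⟩, g.1.isUnit⟩
        invFun := fun A => ⟨A.2.unit, A.1.2⟩
        left_inv := fun g => Subtype.ext (Units.ext rfl)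
        right_inv := fun A => Subtype.ext (Subtype.ext rfl) }
    refine E1.trans ((commEquiv d hd).subtypeEquiv ?_)
    intro A
    exact isUnit_iff d hd s hds A
  have e2 := card_preimage (Q (F := F) d hd s) (Q_surjective d hd s) (fun T => ∀ c, IsUnit (T c).det)
  have e3 : Nat.card T = Fintype.card F ^ (∑ i ∈ Finset.range s, a i ^ 2) := by
    rw [Nat.card_pi, Finset.sum_range, ← Finset.prod_pow_eq_pow_sum]
    apply Finset.prod_congr rfl
    intro c _
    rw [show Nat.card (Matrix {k // d k = (c : ℕ)} {k // d k = (c : ℕ)} F) = Nat.card ({k // d k = (c : ℕ)} → {k // d k = (c : ℕ)} → F) from rfl,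
      Nat.card_fun, Nat.card_fun, Nat.card_eq_fintype_card, Nat.card_eq_fintype_card, hcard, ← pow_mul, pow_two]
  have e4 : Nat.card {T : T // ∀ c, IsUnit (T c).det} = ∏ i ∈ Finset.range s, ∏ j : Fin (a i), (Fintype.card F ^ a i - Fintype.card F ^ (j : ℕ)) := by
    rw [Nat.card_congr (Equiv.subtypePiEquivPi (p := fun {c : Fin s} (M : Matrix {k // d k = (c : ℕ)} {k // d k = (c : ℕ)} F) => IsUnit M.det)), Nat.card_pi, Finset.prod_range]
    apply Finset.prod_congr rfl
    intro c _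
    rw [card_units, hcard]
  have e5 := card_YT (F := F) d
  have hq : 0 < Fintype.card F := Fintype.card_pos
  -- the exponent identity
  have hexp : ∑ l, ∑ k, min (d k) (d l) = (2 * (∑ i ∈ Finset.range s, ∑ j ∈ Finset.range s, if i < j then i * a i * a j else 0) +
      ∑ i ∈ Finset.range s, (i - 1) * a i ^ 2) + ∑ i ∈ Finset.range s, a i ^ 2 := by
    have h1 : ∑ l, ∑ k, min (d k) (d l) = ∑ i ∈ Finset.range s, ∑ j ∈ Finset.range s, a i * (a j * min j i) := by
      rw [sum_fiber d s hds (fun i => ∑ k, min (d k) i)]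
      apply Finset.sum_congr rfl
      intro i _
      rw [sum_fiber d s hds (fun j => min j i), Finset.mul_sum]
    have h2 : ∀ i j : ℕ, a i * (a j * min j i) = (if i < j then i * a i * a j else 0) + (if j < i then j * a j * a i else 0) + (if i = j then i * a i ^ 2 else 0) := by
      intro i j
      rcases lt_trichotomy i j with h | h | h
      · rw [if_pos h, if_neg (by omega), if_neg (by omega), min_eq_right h.le]; ring
      · subst h
        rw [if_neg (lt_irrefl i), if_pos rfl, min_self]; ring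
      · rw [if_neg (by omega), if_pos h, if_neg (by omega), min_eq_left h.le]; ring
    rw [h1]
    simp only [h2, Finset.sum_add_distrib]
    have h3 : ∑ i ∈ Finset.range s, ∑ j ∈ Finset.range s, (if j < i then j * a j * a i else 0) =
        ∑ i ∈ Finset.range s, ∑ j ∈ Finset.range s, (if i < j then i * a i * a j else 0) := Finset.sum_comm
    have h4 : ∑ i ∈ Finset.range s, ∑ j ∈ Finset.range s, (if i = j then i * a i ^ 2 else 0) = ∑ i ∈ Finset.range s, i * a i ^ 2 := by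
      apply Finset.sum_congr rfl
      intro i hi
      rw [Finset.sum_ite_eq, if_pos hi]
    have h5 : ∑ i ∈ Finset.range s, i * a i ^ 2 = ∑ i ∈ Finset.range s, (i - 1) * a i ^ 2 + ∑ i ∈ Finset.range s, a i ^ 2 := by
      rw [← Finset.sum_add_distrib]
      apply Finset.sum_congr rfl
      intro i _
      rcases Nat.eq_zero_or_pos i with h | h
      · subst h
        have : a 0 = 0 := by
          rw [ha]
          simp only [Finset.card_eq_zero, Finset.filter_eq_empty_iff]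
          intro k _ h0
          have := hd k
          omega
        rw [this]; ring
      · obtain ⟨i', rfl⟩ : ∃ i', i = i' + 1 := ⟨i - 1, by omega⟩
        rw [Nat.add_sub_cancel]; ring
    rw [h3, h4, h5]
    ring
  have hfin : Nat.card {Y : YT F d // ∀ c, IsUnit (Q (F := F) d hd s Y c).det} * Fintype.card F ^ (∑ i ∈ Finset.range s, a i ^ 2) =
      (Fintype.card F ^ (2 * (∑ i ∈ Finset.range s, ∑ j ∈ Finset.range s, if i < j then i * a i * a j else 0) +
      ∑ i ∈ Finset.range s, (i - 1) * a i ^ 2) * ∏ i ∈ Finset.range s, ∏ j : Fin (a i), (Fintype.card F ^ a i - Fintype.card F ^ (j : ℕ))) *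
      Fintype.card F ^ (∑ i ∈ Finset.range s, a i ^ 2) := by
    rw [← e3, ← e4]
    have e2' : Nat.card {Y : YT F d // ∀ c, IsUnit (Q (F := F) d hd s Y c).det} * Nat.card T = Nat.card (YT F d) * Nat.card {T : T // ∀ c, IsUnit (T c).det} := e2
    rw [e2', e5, hexp, pow_add, e3]
    ring
  have := Nat.eq_of_mul_eq_mul_right (pow_pos hq _) hfin
  rw [← this, ← e1]

end Cfsg.Agent.S2581
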