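import Cfsg.Statements.S2582
import Cfsg.Agent.Lib.FormJordan4

set_option autoImplicit false
open Cfsg

namespace Cfsg.Agent.S2582

open Module Cfsg.Agent.Lib.FXType Cfsg.Agent.Lib.GLClass Cfsg.Agent.Lib.FormJordan Cfsg.Agent.Lib.FormJordan2 Cfsg.Agent.Lib.FormJordan3
  Cfsg.Agent.Lib.FormJordan4 Cfsg.Agent.Lib

/-- Which unipotent Jordan types occur in the finite symplectic group: over a finite field, a unipotent matrix with Jordan block sizes d_1, …, d_t (sum 2m, all at least 1) is similar to an element of Sp_2m(F) if and only if every odd block size occurs an even number of times. -/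
theorem result {F : Type*} [Field F] [Fintype F] {m t : ℕ} (d : Fin t → ℕ) (hd : ∀ k, 1 ≤ d k) (hsum : ∑ k, d k = 2 * m) : (∃ e : ((k : Fin t) × Fin (d k)) ≃ (Fin m ⊕ Fin m), ∃ A : Matrix.symplecticGroup (Fin m) F, IsConj (Matrix.reindex e e (Cfsg.jordanTypeMatrix d F)) (A : Matrix (Fin m ⊕ Fin m) (Fin m ⊕ Fin m) F)) ↔ ∀ j : ℕ, Odd j → Even (Finset.univ.filter (fun k : Fin t => d k = j)).card := by
  classical
  have hJ := jordanType_uni (F := F) d hd
  constructor
  · rintro ⟨e, A, hA⟩ j hj
    have hs : HasType (Matrix.mulVecLin (A : Matrix (Fin m ⊕ Fin m) (Fin m ⊕ Fin m) F)) (uni F (Finset.univ.val.map d)) :=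
      (FormJordan4.MType.reindex e hJ).of_isConj hA
    obtain ⟨a, rfl⟩ := hj
    rw [← count_univ, ← count_uni (F := F)]
    have hinv : ∀ x y, SympAux.bform m F (Matrix.mulVecLin (A : Matrix (Fin m ⊕ Fin m) (Fin m ⊕ Fin m) F) x) (Matrix.mulVecLin (A : Matrix (Fin m ⊕ Fin m) (Fin m ⊕ Fin m) F) y) = SympAux.bform m F x y :=
      fun x y => SympAux.sympForm_preserved A x y
    exact even_count (SympAux.bform m F) _ (fun x hx => SympAux.sympForm_nondeg hx) hinv hs (2 * a)
      (fun x hx => beta_alt (SympAux.bform m F) _ (fun x => SympAux.sympForm_self x) hinv a x hx)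
  · intro h
    obtain ⟨V, _, _, B, f, h1, h2, h3, h4⟩ := SReal_of_parity (F := F) (Finset.univ.val.map d)
      (by
        intro j hj
        rw [Multiset.mem_map] at hj
        obtain ⟨k, -, rfl⟩ := hj
        exact hd k) (by
        intro j hj
        rw [count_univ]
        exact h j hj)
    have hfin := h4.finiteDimensional
    have hdim : finrank F V = 2 * m := by
      rw [h4.finrank, ← hsum, uni, Multiset.map_map, Multiset.map_map]
      show ∑ k, _ = ∑ k, d k
      apply Finset.sum_congr rfl
      intro k _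
      show (Polynomial.X - 1 : Polynomial F).natDegree * d k = d k
      rw [JordanType.X1_natDegree, one_mul]
    obtain ⟨E, hE⟩ := SympBasis.exists_equiv_of_finrank hdim B h1 h2
    let A : Matrix (Fin m ⊕ Fin m) (Fin m ⊕ Fin m) F := LinearMap.toMatrix' (E.symm.toLinearMap ∘ₗ f ∘ₗ E.toLinearMap)
    have hA : ∀ x, A.mulVec x = E.symm (f (E x)) := by
      intro x
      rw [← Matrix.toLin'_apply, Matrix.toLin'_toMatrix']
      rfl
    have hAmem : A ∈ Matrix.symplecticGroup (Fin m) F := by
      rw [SympAux.mem_symplecticGroup_iff]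
      intro u v
      rw [hA, hA, ← hE, LinearEquiv.apply_symm_apply, LinearEquiv.apply_symm_apply, h3, hE]
    have hAt : MType A (uni F (Finset.univ.val.map d)) := by
      refine HasType.ofEquiv h4 E ?_
      intro x
      rw [Matrix.mulVecLin_apply, hA, LinearEquiv.apply_symm_apply]
    have hcard : Fintype.card ((k : Fin t) × Fin (d k)) = Fintype.card (Fin m ⊕ Fin m) := by
      rw [Fintype.card_sigma, Fintype.card_sum]
      simp only [Fintype.card_fin]
      rw [hsum, two_mul]
    let e := Fintype.equivOfCardEq hcard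
    exact ⟨e, ⟨A, hAmem⟩, (FormJordan4.MType.reindex e hJ).isConj hAt⟩

end Cfsg.Agent.S2582
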