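import Cfsg.Statements.S2583
import Cfsg.Agent.Lib.FormJordan4

set_option autoImplicit false
open Cfsg

namespace Cfsg.Agent.S2583

open Module Cfsg.Agent.Lib.FXType Cfsg.Agent.Lib.GLClass Cfsg.Agent.Lib.FormJordan Cfsg.Agent.Lib.FormJordan2 Cfsg.Agent.Lib.FormJordan3
  Cfsg.Agent.Lib.FormJordan4 Cfsg.Agent.Lib

/-- Which unipotent Jordan types occur in a finite orthogonal group in odd characteristic: over a finite field of odd order, a unipotent matrix with Jordan block sizes d_1, …, d_t (sum n, all at least 1) is similar to an isometry of some quadratic form on F^n with non-degenerate polar form if and only if every even block size occurs an even number of times. -/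
theorem result {F : Type*} [Field F] [Fintype F] (h2 : (2 : F) ≠ 0) {n t : ℕ} (d : Fin t → ℕ) (hd : ∀ k, 1 ≤ d k) (hsum : ∑ k, d k = n) : (∃ Q : QuadraticForm F (Fin n → F), (QuadraticMap.polarBilin Q).Nondegenerate ∧ ∃ e : ((k : Fin t) × Fin (d k)) ≃ Fin n, ∃ A : ↥(Cfsg.isometryGroup F ⇑Q), IsConj (Matrix.reindex e e (Cfsg.jordanTypeMatrix d F)) ((A : Matrix.GeneralLinearGroup (Fin n) F) : Matrix (Fin n) (Fin n) F)) ↔ ∀ j : ℕ, Even j → 0 < j → Even (Finset.univ.filter (fun k : Fin t => d k = j)).card := by
  classical
  have hJ := jordanType_uni (F := F) d hd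
  constructor
  · rintro ⟨Q, hQ, e, A, hA⟩ j hj hj0
    have hs : HasType (Matrix.mulVecLin ((A : Matrix.GeneralLinearGroup (Fin n) F) : Matrix (Fin n) (Fin n) F)) (uni F (Finset.univ.val.map d)) :=
      (FormJordan4.MType.reindex e hJ).of_isConj hA
    obtain ⟨a, rfl⟩ : ∃ a, j = a + 1 := ⟨j - 1, by omega⟩
    have ha : Odd a := by
      rcases Nat.even_or_odd a with h | h
      · exact absurd (h.add_one) (Nat.not_odd_iff_even.mpr hj)
      · exact h
    rw [← count_univ, ← count_uni (F := F)]
    have hQA : ∀ x, Q (Matrix.mulVec ((A : Matrix.GeneralLinearGroup (Fin n) F) : Matrix (Fin n) (Fin n) F) x) = Q x := fun x => A.2 x 0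
    have hinv : ∀ x y, QuadraticMap.polarBilin Q (Matrix.mulVecLin ((A : Matrix.GeneralLinearGroup (Fin n) F) : Matrix (Fin n) (Fin n) F) x) (Matrix.mulVecLin ((A : Matrix.GeneralLinearGroup (Fin n) F) : Matrix (Fin n) (Fin n) F) y) = QuadraticMap.polarBilin Q x y := by
      intro x y
      rw [QuadraticMap.polarBilin_apply_apply, QuadraticMap.polarBilin_apply_apply, QuadraticMap.polar, QuadraticMap.polar, ← map_add,
        Matrix.mulVecLin_apply, Matrix.mulVecLin_apply, Matrix.mulVecLin_apply, hQA, hQA, hQA]
    exact even_count (QuadraticMap.polarBilin Q) _ hQ.1 hinv hs a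
      (fun x hx => beta_symm (QuadraticMap.polarBilin Q) _ h2 (fun x y => QuadraticMap.polar_comm Q x y) hinv a ha x hx)
  · intro h
    obtain ⟨V, _, _, Q, f, h1, h3, h4⟩ := QReal_of_parity (F := F) h2 (Finset.univ.val.map d)
      (by
        intro j hj
        rw [Multiset.mem_map] at hj
        obtain ⟨k, -, rfl⟩ := hj
        exact hd k) (by
        intro j hj
        rw [count_univ]
        rcases Nat.eq_zero_or_pos j with h0 | h0
        · subst h0
          have : (Finset.univ.filter (fun k : Fin t => d k = 0)) = ∅ := by
            rw [Finset.filter_eq_empty_iff]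
            intro k _ hk
            have := hd k
            omega
          rw [this, Finset.card_empty]
          exact Even.zero
        · exact h j hj h0)
    have hfin := h4.finiteDimensional
    have hdim : finrank F V = n := by
      rw [h4.finrank, ← hsum, uni, Multiset.map_map, Multiset.map_map]
      show ∑ k, _ = ∑ k, d k
      apply Finset.sum_congr rfl
      intro k _
      show (Polynomial.X - 1 : Polynomial F).natDegree * d k = d k
      rw [JordanType.X1_natDegree, one_mul]
    let E : (Fin n → F) ≃ₗ[F] V := LinearEquiv.ofFinrankEq _ _ (by rw [hdim, Module.finrank_fintype_fun_eq_card, Fintype.card_fin])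
    let Q' : QuadraticForm F (Fin n → F) := Q.comp E.toLinearMap
    have hQ' : ∀ x, Q' x = Q (E x) := fun _ => rfl
    have hpol : ∀ x y, QuadraticMap.polar Q' x y = QuadraticMap.polar Q (E x) (E y) := by
      intro x y
      rw [QuadraticMap.polar, QuadraticMap.polar, hQ', hQ', hQ', map_add]
    have hnd : (QuadraticMap.polarBilin Q').Nondegenerate := by
      have hsep : (QuadraticMap.polarBilin Q').SeparatingLeft := by
        intro x hx
        have : E x = 0 := by
          apply h1
          intro y
          have := hx (E.symm y)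
          rw [QuadraticMap.polarBilin_apply_apply, hpol, LinearEquiv.apply_symm_apply] at this
          exact this
        exact (LinearEquiv.map_eq_zero_iff E).mp this
      refine ⟨hsep, ?_⟩
      intro y hy
      apply hsep
      intro x
      rw [QuadraticMap.polarBilin_apply_apply, QuadraticMap.polar_comm]
      exact hy x
    let A : Matrix (Fin n) (Fin n) F := LinearMap.toMatrix' (E.symm.toLinearMap ∘ₗ f ∘ₗ E.toLinearMap)
    have hA : ∀ x, A.mulVec x = E.symm (f (E x)) := by
      intro x
      rw [← Matrix.toLin'_apply, Matrix.toLin'_toMatrix']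
      rfl
    have hAt : MType A (uni F (Finset.univ.val.map d)) := by
      refine HasType.ofEquiv h4 E ?_
      intro x
      rw [Matrix.mulVecLin_apply, hA, LinearEquiv.apply_symm_apply]
    have hAu : IsUnit A := by
      rw [hAt.isUnit_iff]
      intro x hx
      rw [uni, Multiset.mem_map] at hx
      obtain ⟨k, -, rfl⟩ := hx
      intro hX
      have h1 := congrArg (Polynomial.eval 0) hX
      simp at h1
    obtain ⟨g, hg⟩ := hAu
    have hmem : g ∈ Cfsg.isometryGroup F ⇑Q' := by
      intro x _
      show Q' (Matrix.mulVec (g : Matrix (Fin n) (Fin n) F) x) = Q' x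
      rw [hg, hA, hQ', LinearEquiv.apply_symm_apply, h3]
      rfl
    have hcard : Fintype.card ((k : Fin t) × Fin (d k)) = Fintype.card (Fin n) := by
      rw [Fintype.card_sigma]
      simp only [Fintype.card_fin]
      exact hsum
    let e := Fintype.equivOfCardEq hcard
    refine ⟨Q', hnd, e, ⟨g, hmem⟩, ?_⟩
    show IsConj (Matrix.reindex e e (Cfsg.jordanTypeMatrix d F)) (g : Matrix (Fin n) (Fin n) F)
    rw [hg]
    exact (FormJordan4.MType.reindex e hJ).isConj hAt

end Cfsg.Agent.S2583
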