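import Cfsg.Statements.S2585
import Cfsg.Agent.Lib.SympAux

set_option autoImplicit false
open Cfsg

namespace Cfsg.Agent.S2585

open Matrix Cfsg.Agent.Lib.SympAux

theorem result {F : Type*} [Field F] [Fintype F] [CharP F 2] {m : ℕ} (A : Matrix.symplecticGroup (Fin m) F) : ∃ Q : QuadraticForm F (Fin m ⊕ Fin m → F), (∀ u v : Fin m ⊕ Fin m → F, QuadraticMap.polar ⇑Q u v = Cfsg.sympForm m F u v) ∧ ∀ v : Fin m ⊕ Fin m → F, Q ((A : Matrix (Fin m ⊕ Fin m) (Fin m ⊕ Fin m) F).mulVec v) = Q v := by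
  classical
  haveI : Fact (Nat.Prime 2) := ⟨Nat.prime_two⟩
  set M := (A : Matrix (Fin m ⊕ Fin m) (Fin m ⊕ Fin m) F) with hM
  let Q0 : QuadraticForm F (Fin m ⊕ Fin m → F) := ∑ i : Fin m, QuadraticMap.proj (.inl i) (.inr i)
  have hQ0 : ∀ v, Q0 v = ∑ i : Fin m, v (.inl i) * v (.inr i) := by
    intro v
    simp [Q0, QuadraticMap.proj_apply]
  have hpol : ∀ u v, Q0 (u + v) = Q0 u + Q0 v + Cfsg.sympForm m F u v := by
    intro u v
    rw [hQ0, hQ0, hQ0, sympForm_eq, ← Finset.sum_add_distrib, ← Finset.sum_add_distrib]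
    apply Finset.sum_congr rfl
    intro i _
    simp only [Pi.add_apply]
    have : (2 : F) = 0 := CharTwo.two_eq_zero
    linear_combination (u (.inl i) * v (.inr i)) * this
  let D : (Fin m ⊕ Fin m → F) → F := fun v => Q0 (M.mulVec v) - Q0 v
  have hDadd : ∀ u v, D (u + v) = D u + D v := by
    intro u v
    simp only [D, Matrix.mulVec_add, hpol]
    rw [hM, sympForm_preserved]
    ring
  have hDsmul : ∀ (c : F) v, D (c • v) = c ^ 2 * D v := by
    intro c v
    simp only [D, Matrix.mulVec_smul, QuadraticMap.map_smul, smul_eq_mul]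
    ring
  let ψ : Module.Dual F (Fin m ⊕ Fin m → F) :=
    { toFun := fun v => (frobeniusEquiv F 2).symm (D v)
      map_add' := fun u v => by rw [hDadd, map_add]
      map_smul' := fun c v => by
        rw [hDsmul, map_mul, frobeniusEquiv_symm_pow]; rfl }
  have hψ : ∀ v, (ψ v) ^ 2 = D v := fun v => frobeniusEquiv_symm_pow_p F 2 (D v)
  let L : (Fin m ⊕ Fin m → F) →ₗ[F] (Fin m ⊕ Fin m → F) := M.mulVecLin - LinearMap.id
  have hrange : ψ ∈ LinearMap.range L.dualMap := by
    rw [LinearMap.range_dualMap_eq_dualAnnihilator_ker, Submodule.mem_dualAnnihilator]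
    intro v hv
    rw [LinearMap.mem_ker] at hv
    have hv' : M.mulVec v = v := by
      simpa [L, sub_eq_zero] using hv
    have : (ψ v) ^ 2 = 0 := by
      rw [hψ]; simp only [D]; rw [hv']; ring
    exact pow_eq_zero_iff (two_ne_zero) |>.mp this
  obtain ⟨φ, hφ⟩ := hrange
  have hφ' : ∀ v, φ (M.mulVec v) - φ v = ψ v := by
    intro v
    rw [← hφ]
    simp [L]
  refine ⟨Q0 + QuadraticMap.linMulLin φ φ, ?_, ?_⟩
  · intro u v
    simp only [QuadraticMap.polar, _root_.add_apply, QuadraticMap.linMulLin_apply, hpol, map_add]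
    have : (2 : F) = 0 := CharTwo.two_eq_zero
    linear_combination (φ u * φ v) * this
  · intro v
    simp only [_root_.add_apply, QuadraticMap.linMulLin_apply]
    have h1 := hψ v
    simp only [D] at h1
    rw [← hφ' v] at h1
    have : (2 : F) = 0 := CharTwo.two_eq_zero
    linear_combination (-1 : F) * h1 + (φ (M.mulVec v) ^ 2 - φ (M.mulVec v) * φ v) * this

end Cfsg.Agent.S2585
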