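import Cfsg.Statements.S2589
import Cfsg.Agent.Lib.FormConj2
import Cfsg.Agent.Lib.SympAux
import Cfsg.Agent.Lib.LinAux

set_option autoImplicit false
open Cfsg

namespace Cfsg.Agent.S2589

open Module Cfsg.Agent.Lib Cfsg.Agent.Lib.FormConj Cfsg.Agent.Lib.FormConj2

theorem semisimple_of_pow {F V : Type*} [Field F] [AddCommGroup V] [Module F V] {p : ℕ} [CharP F p] (f : Module.End F V) (n : ℕ)
    (hn : ¬ p ∣ n) (hf : f ^ n = 1) (l : F) (hl : l * l = 1) (x : V) (hx : f (f x - l • x) = l • (f x - l • x)) : f x = l • x := by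
  set y := f x - l • x with hy
  have h1 : ∀ k : ℕ, (f ^ k) y = l ^ k • y := by
    intro k
    induction k with
    | zero => rw [pow_zero, pow_zero, one_smul]; rfl
    | succ k ih => rw [pow_succ', Module.End.mul_apply, ih, map_smul, hx, smul_smul, pow_succ]
  have h2 : ∀ k : ℕ, (f ^ (k + 1)) x = l ^ (k + 1) • x + ((k + 1 : ℕ) * l ^ k : F) • y := by
    intro k
    have hfx : f x = l • x + y := by rw [hy]; abel
    induction k with
    | zero => rw [zero_add, pow_one, hfx, pow_one, pow_zero, Nat.cast_one, mul_one, one_smul]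
    | succ k ih =>
      rw [pow_succ', Module.End.mul_apply, ih, map_add, map_smul, map_smul, hfx, hx]
      push_cast
      module
  have hl0 : l ≠ 0 := by
    rintro rfl
    rw [mul_zero] at hl
    exact zero_ne_one hl
  have hn0 : n ≠ 0 := fun h => hn (h ▸ dvd_zero p)
  obtain ⟨k, rfl⟩ : ∃ k, n = k + 1 := ⟨n - 1, by omega⟩
  have h3 := h1 (k + 1)
  rw [hf, Module.End.one_apply] at h3
  by_contra hne
  have hy0 : y ≠ 0 := fun h => hne (sub_eq_zero.mp h)
  have h4 : (1 - l ^ (k + 1)) • y = 0 := by rw [sub_smul, one_smul, ← h3, sub_self]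
  have h5 : l ^ (k + 1) = 1 := by
    rcases smul_eq_zero.mp h4 with h | h
    · exact (sub_eq_zero.mp h).symm
    · exact absurd h hy0
  have h6 := h2 k
  rw [hf, Module.End.one_apply, h5, one_smul, left_eq_add] at h6
  rcases smul_eq_zero.mp h6 with h | h
  · rcases mul_eq_zero.mp h with h | h
    · exact hn ((CharP.cast_eq_zero_iff F p _).mp h)
    · exact pow_ne_zero _ hl0 h
  · exact hy0 h

/-- Two semisimple elements of the finite symplectic group Sp_2m(F) (elements of order prime to the characteristic) are conjugate in Sp_2m(F) if and only if they are conjugate in GL_2m(F). -/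
theorem result {F : Type*} [Field F] [Fintype F] {p : ℕ} [Fact p.Prime] [CharP F p] {m : ℕ} (A B : Matrix.symplecticGroup (Fin m) F) (hA : (orderOf A).Coprime p) : IsConj A B ↔ IsConj (A : Matrix (Fin m ⊕ Fin m) (Fin m ⊕ Fin m) F) (B : Matrix (Fin m ⊕ Fin m) (Fin m ⊕ Fin m) F) := by
  have hp : p.Prime := Fact.out
  constructor
  · intro h
    obtain ⟨c, hc⟩ := isConj_iff.mp h
    have hinv : (c : Matrix (Fin m ⊕ Fin m) (Fin m ⊕ Fin m) F) * ((c⁻¹ : Matrix.symplecticGroup (Fin m) F) : Matrix (Fin m ⊕ Fin m) (Fin m ⊕ Fin m) F) = 1 :=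
      congrArg Subtype.val (mul_inv_cancel c)
    have hinv' : ((c⁻¹ : Matrix.symplecticGroup (Fin m) F) : Matrix (Fin m ⊕ Fin m) (Fin m ⊕ Fin m) F) * (c : Matrix (Fin m ⊕ Fin m) (Fin m ⊕ Fin m) F) = 1 :=
      congrArg Subtype.val (inv_mul_cancel c)
    refine ⟨⟨c, ((c⁻¹ : Matrix.symplecticGroup (Fin m) F) : Matrix (Fin m ⊕ Fin m) (Fin m ⊕ Fin m) F), hinv, hinv'⟩, ?_⟩
    have h1 : c * A = B * c := by rw [← hc, inv_mul_cancel_right]
    exact congrArg Subtype.val h1
  · rintro ⟨G, hG⟩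
    have hG' : (G : Matrix (Fin m ⊕ Fin m) (Fin m ⊕ Fin m) F) * A = B * G := hG
    let ω := SympAux.bform m F
    have hω : ∀ x y, ω x y = Cfsg.sympForm m F x y := fun _ _ => rfl
    let f : Module.End F (Fin m ⊕ Fin m → F) := Matrix.mulVecLin (A : Matrix (Fin m ⊕ Fin m) (Fin m ⊕ Fin m) F)
    let Gl : (Fin m ⊕ Fin m → F) →ₗ[F] (Fin m ⊕ Fin m → F) := Matrix.mulVecLin (G : Matrix (Fin m ⊕ Fin m) (Fin m ⊕ Fin m) F)
    let ω' : (Fin m ⊕ Fin m → F) →ₗ[F] (Fin m ⊕ Fin m → F) →ₗ[F] F := ω.compl₁₂ Gl Gl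
    have hω' : ∀ x y, ω' x y = ω (Gl x) (Gl y) := fun _ _ => rfl
    have hfG : ∀ x, Gl (f x) = (B : Matrix (Fin m ⊕ Fin m) (Fin m ⊕ Fin m) F).mulVec (Gl x) := by
      intro x
      show (G : Matrix (Fin m ⊕ Fin m) (Fin m ⊕ Fin m) F).mulVec ((A : Matrix (Fin m ⊕ Fin m) (Fin m ⊕ Fin m) F).mulVec x) = _
      rw [Matrix.mulVec_mulVec, hG', ← Matrix.mulVec_mulVec]
      rfl
    have halt : ∀ x, ω x x = 0 := fun x => SympAux.sympForm_self x
    have hnd : ∀ x, (∀ y, ω x y = 0) → x = 0 := fun x hx => SympAux.sympForm_nondeg hx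
    have hGinj : Function.Injective Gl := by
      rw [injective_iff_map_eq_zero]
      intro x hx
      have h1 : ((G⁻¹ : (Matrix (Fin m ⊕ Fin m) (Fin m ⊕ Fin m) F)ˣ) : Matrix (Fin m ⊕ Fin m) (Fin m ⊕ Fin m) F).mulVec ((G : Matrix (Fin m ⊕ Fin m) (Fin m ⊕ Fin m) F).mulVec x) = 0 := by
        have hx' : (G : Matrix (Fin m ⊕ Fin m) (Fin m ⊕ Fin m) F).mulVec x = 0 := hx
        rw [hx', Matrix.mulVec_zero]
      rw [Matrix.mulVec_mulVec, Units.inv_mul, Matrix.one_mulVec] at h1
      exact h1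
    have hGsurj : Function.Surjective Gl := LinearMap.injective_iff_surjective.mp hGinj
    have hf : ∀ x y, ω (f x) (f y) = ω x y := fun x y => SympAux.sympForm_preserved A x y
    have hf' : ∀ x y, ω' (f x) (f y) = ω' x y := by
      intro x y
      rw [hω', hω', hfG, hfG]
      exact SympAux.sympForm_preserved B _ _
    have hnd' : ∀ x, (∀ y, ω' x y = 0) → x = 0 := by
      intro x hx
      apply hGinj
      rw [map_zero]
      apply hnd
      intro y
      obtain ⟨y, rfl⟩ := hGsurj y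
      exact hx y
    have hpow : ∀ k : ℕ, f ^ k = Matrix.mulVecLin ((A : Matrix (Fin m ⊕ Fin m) (Fin m ⊕ Fin m) F) ^ k) := by
      intro k
      induction k with
      | zero => rw [pow_zero, pow_zero, Matrix.mulVecLin_one]; rfl
      | succ k ih =>
        rw [pow_succ, ih, pow_succ]
        refine LinearMap.ext fun x => ?_
        rw [Module.End.mul_apply, Matrix.mulVecLin_apply, Matrix.mulVecLin_apply, Matrix.mulVecLin_apply, Matrix.mulVec_mulVec]
    have hford : f ^ orderOf A = 1 := by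
      rw [hpow]
      have h1 : (A : Matrix (Fin m ⊕ Fin m) (Fin m ⊕ Fin m) F) ^ orderOf A = 1 := by
        have := congrArg Subtype.val (pow_orderOf_eq_one A)
        exact this
      rw [h1, Matrix.mulVecLin_one]; rfl
    have hnp : ¬ p ∣ orderOf A := by
      intro h
      have h1 := Nat.dvd_gcd h (dvd_refl p)
      rw [hA] at h1
      exact hp.one_lt.ne' (Nat.dvd_one.mp h1)
    obtain ⟨c, hc, hcf⟩ := exists_alt ω ω' halt (fun x => halt (Gl x)) hnd hnd' f hf hf'
      (fun l hl x hx => semisimple_of_pow (p := p) f (orderOf A) hnp hford l hl x hx)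
    -- `c` is bijective
    have hcinj : Function.Injective c := by
      rw [injective_iff_map_eq_zero]
      intro x hx
      apply hnd'
      intro y
      rw [← hc, hx, map_zero, LinearMap.zero_apply]
    let C : (Fin m ⊕ Fin m → F) ≃ₗ[F] (Fin m ⊕ Fin m → F) := LinearEquiv.ofBijective c ⟨hcinj, LinearMap.injective_iff_surjective.mp hcinj⟩
    let M : Matrix (Fin m ⊕ Fin m) (Fin m ⊕ Fin m) F := LinearMap.toMatrix' (Gl ∘ₗ C.symm.toLinearMap)
    have hM : ∀ x, M.mulVec x = Gl (C.symm x) := by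
      intro x
      rw [← Matrix.toLin'_apply, Matrix.toLin'_toMatrix']
      rfl
    have hMmem : M ∈ Matrix.symplecticGroup (Fin m) F := by
      rw [SympAux.mem_symplecticGroup_iff]
      intro u v
      rw [hM, hM]
      show ω (Gl (C.symm u)) (Gl (C.symm v)) = ω u v
      rw [← hω', ← hc]
      have h1 : ∀ u, c (C.symm u) = u := fun u => C.apply_symm_apply u
      rw [h1, h1]
    rw [isConj_iff]
    refine ⟨⟨M, hMmem⟩, ?_⟩
    rw [mul_inv_eq_iff_eq_mul]
    apply Subtype.ext
    show M * A = B * M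
    apply LinAux.matrix_ext
    intro x
    rw [← Matrix.mulVec_mulVec, ← Matrix.mulVec_mulVec, hM, hM, ← hfG]
    congr 1
    rw [LinearEquiv.symm_apply_eq]
    show f x = c (f (C.symm x))
    rw [hcf]
    congr 1
    exact (C.apply_symm_apply x).symm

end Cfsg.Agent.S2589
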