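import Cfsg.Statements.S2590
import Cfsg.Agent.Lib.FormConj3
import Cfsg.Agent.Lib.LinAux
import Cfsg.Agent.Lib.GLClass

set_option autoImplicit false
open Cfsg

namespace Cfsg.Agent.S2590

open Module Cfsg.Agent.Lib Cfsg.Agent.Lib.LinAux

/-- Two semisimple elements of odd order of a finite orthogonal group (isometry group of a quadratic form on F^n with non-degenerate polar form, F finite of characteristic p; the elements have odd order prime to p) are conjugate in the orthogonal group if and only if they are conjugate in GL_n(F). -/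
theorem result {F : Type*} [Field F] [Fintype F] {p : ℕ} [Fact p.Prime] [CharP F p] {n : ℕ} (Q : QuadraticForm F (Fin n → F)) (hQ : (QuadraticMap.polarBilin Q).Nondegenerate) (A B : ↥(Cfsg.isometryGroup F ⇑Q)) (hodd : Odd (orderOf A)) (hA : (orderOf A).Coprime p) : IsConj A B ↔ IsConj ((A : Matrix.GeneralLinearGroup (Fin n) F) : Matrix (Fin n) (Fin n) F) ((B : Matrix.GeneralLinearGroup (Fin n) F) : Matrix (Fin n) (Fin n) F) := by
  have hp : p.Prime := Fact.out
  rw [← GLClass.isConj_iff_coe]
  constructor
  · intro h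
    obtain ⟨c, hc⟩ := isConj_iff.mp h
    rw [isConj_iff]
    exact ⟨c, congrArg Subtype.val hc⟩
  · intro h
    obtain ⟨G, hG⟩ := isConj_iff.mp h
    let f : Module.End F (Fin n → F) := (glEquiv (Fin n) F (A : GL (Fin n) F)).toLinearMap
    let g : Module.End F (Fin n → F) := (glEquiv (Fin n) F (B : GL (Fin n) F)).toLinearMap
    have hfA : ∀ x, f x = glEquiv (Fin n) F (A : GL (Fin n) F) x := fun _ => rfl
    have hgB : ∀ x, g x = glEquiv (Fin n) F (B : GL (Fin n) F) x := fun _ => rfl
    have hf : ∀ x, Q (f x) = Q x := fun x => by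
      rw [hfA, glEquiv_apply]
      exact A.2 x 0
    have hg : ∀ x, Q (g x) = Q x := fun x => by
      rw [hgB, glEquiv_apply]
      exact B.2 x 0
    have hpow : ∀ (k : ℕ) (x : Fin n → F), (f ^ k) x = glEquiv (Fin n) F ((A : GL (Fin n) F) ^ k) x := by
      intro k
      induction k with
      | zero => intro x; rw [pow_zero, pow_zero, map_one]; rfl
      | succ k ih =>
        intro x
        rw [pow_succ, Module.End.mul_apply, ih, pow_succ, map_mul]; rfl
    have hfn : f ^ orderOf A = 1 := by
      refine LinearMap.ext fun x => ?_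
      rw [hpow]
      have : (A : GL (Fin n) F) ^ orderOf A = 1 := congrArg Subtype.val (pow_orderOf_eq_one A)
      rw [this, map_one]; rfl
    have hnp : ¬ p ∣ orderOf A := by
      intro h
      have h1 := Nat.dvd_gcd h (dvd_refl p)
      rw [hA] at h1
      exact hp.one_lt.ne' (Nat.dvd_one.mp h1)
    have hGc : ∀ x, glEquiv (Fin n) F G (f x) = g (glEquiv (Fin n) F G x) := by
      intro x
      rw [hfA, hgB, ← hG, map_mul, map_mul]
      show _ = glEquiv (Fin n) F G (glEquiv (Fin n) F (A : GL (Fin n) F) (glEquiv (Fin n) F G⁻¹ (glEquiv (Fin n) F G x)))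
      have : glEquiv (Fin n) F G⁻¹ (glEquiv (Fin n) F G x) = x := by
        have h1 : glEquiv (Fin n) F G⁻¹ (glEquiv (Fin n) F G x) = glEquiv (Fin n) F (G⁻¹ * G) x := by rw [map_mul]; rfl
        rw [h1, inv_mul_cancel, map_one]; rfl
      rw [this]
    obtain ⟨h, hhO, hh⟩ := FormConj3.exists_conj (p := p) Q hQ f g hf hg (orderOf A) hodd hnp hfn (glEquiv (Fin n) F G) hGc
    let H : GL (Fin n) F := (glEquiv (Fin n) F).symm h
    have hH : H ∈ Cfsg.isometryGroup F ⇑Q := by
      intro x _
      show Q ((H : Matrix (Fin n) (Fin n) F).mulVec x) = Q x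
      rw [glEquiv_symm_mulVec]
      exact hhO x
    rw [isConj_iff]
    refine ⟨⟨H, hH⟩, ?_⟩
    rw [mul_inv_eq_iff_eq_mul]
    apply Subtype.ext
    show H * (A : GL (Fin n) F) = (B : GL (Fin n) F) * H
    apply (glEquiv (Fin n) F).injective
    rw [map_mul, map_mul, MulEquiv.apply_symm_apply]
    refine LinearEquiv.ext fun x => ?_
    exact hh x

end Cfsg.Agent.S2590
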