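import Cfsg.Statements.S2591
import Cfsg.Agent.Lib.RegUni4

set_option autoImplicit false
open Cfsg

namespace Cfsg.Agent.S2591

/-- Over a finite field of odd order and for m ≥ 1, the regular unipotent elements of Sp_2m(F) (u − 1 nilpotent of rank 2m − 1, a single Jordan block) form exactly two conjugacy classes of Sp_2m(F) (one class under the similarity group, which splits in two). -/
theorem result {F : Type*} [Field F] [Fintype F] {q : ℕ} (hF : Fintype.card F = q) (hq : Odd q) {m : ℕ} (hm : 1 ≤ m) : Nat.card {C : ConjClasses ↥(Matrix.symplecticGroup (Fin m) F) // ∃ u : Matrix.symplecticGroup (Fin m) F, ConjClasses.mk u = C ∧ ((u : Matrix (Fin m ⊕ Fin m) (Fin m ⊕ Fin m) F) - 1) ^ (2 * m) = 0 ∧ ((u : Matrix (Fin m ⊕ Fin m) (Fin m ⊕ Fin m) F) - 1).rank = 2 * m - 1} = 2 := by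
  have h20 : (2 : F) ≠ 0 := by
    intro h
    have : ringChar F = 2 := by
      haveI : CharP F 2 := CharTwo.of_one_ne_zero_of_two_eq_zero one_ne_zero h
      exact ringChar.eq F 2 ▸ rfl
    have h1 := FiniteField.even_card_of_char_two this
    rw [hF] at h1
    obtain ⟨k, hk⟩ := hq
    omega
  obtain ⟨φ, h1, h2, h3⟩ := Lib.RegUni.exists_inv (F := F) (2 * m) (by omega)
  obtain ⟨l, hl, hnd⟩ := Lib.RegUni4.exists_base h20 hm φ h1 h2 h3
  obtain ⟨ε, hε⟩ := FiniteField.exists_nonsquare (F := F) (by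
    intro h
    have h4 := FiniteField.even_card_of_char_two h
    rw [hF] at h4
    obtain ⟨k, hk⟩ := hq
    omega)
  have hε0 : ε ≠ 0 := by
    rintro rfl
    exact hε IsSquare.zero
  obtain ⟨u1, hu1, hi1⟩ := Lib.RegUni4.Inv.realize h20 hm φ h1 h2 h3 l hl hnd 1 one_ne_zero
  obtain ⟨u2, hu2, hi2⟩ := Lib.RegUni4.Inv.realize h20 hm φ h1 h2 h3 l hl hnd ε hε0
  rw [Nat.card_eq_two_iff]
  refine ⟨⟨ConjClasses.mk u1, u1, rfl, hu1.1, hu1.2⟩, ⟨ConjClasses.mk u2, u2, rfl, hu2.1, hu2.2⟩, ?_, ?_⟩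
  · intro h
    have h4 : IsConj u1 u2 := ConjClasses.mk_eq_mk_iff_isConj.mp (congrArg Subtype.val h)
    obtain ⟨d, hd⟩ := Lib.RegUni4.Inv.unique hm h1 h2 hnd hi2 (hi1.of_isConj h4)
    apply hε
    exact ⟨d, by rw [hd, one_mul]⟩
  · rw [Set.eq_univ_iff_forall]
    rintro ⟨C, u, rfl, hu⟩
    obtain ⟨c, hc, hi⟩ := Lib.RegUni4.Inv.exists h20 hm φ h1 h2 h3 l hl hnd u hu
    rw [Set.mem_insert_iff, Set.mem_singleton_iff]
    by_cases hs : IsSquare c
    · left
      apply Subtype.ext
      apply ConjClasses.mk_eq_mk_iff_isConj.mpr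
      obtain ⟨d, rfl⟩ := hs
      have hd : d ≠ 0 := by rintro rfl; exact hc (zero_mul 0)
      have hi' : Lib.RegUni4.Inv φ l u (1 * (d * d)) := by rwa [one_mul]
      exact (hi'.sq h2 hd).isConj hi1
    · right
      apply Subtype.ext
      apply ConjClasses.mk_eq_mk_iff_isConj.mpr
      obtain ⟨d, hd⟩ : IsSquare (c * ε⁻¹) := by
        have hch : ringChar F ≠ 2 := by
          intro h
          have h4 := FiniteField.even_card_of_char_two h
          rw [hF] at h4
          obtain ⟨k, hk⟩ := hq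
          omega
        rw [FiniteField.isSquare_iff hch (mul_ne_zero hc (inv_ne_zero hε0)), mul_pow, inv_pow]
        have e1 : c ^ (Fintype.card F / 2) = -1 :=
          (FiniteField.pow_dichotomy hch hc).resolve_left (fun h => hs ((FiniteField.isSquare_iff hch hc).mpr h))
        have e2 : ε ^ (Fintype.card F / 2) = -1 :=
          (FiniteField.pow_dichotomy hch hε0).resolve_left (fun h => hε ((FiniteField.isSquare_iff hch hε0).mpr h))
        rw [e1, e2]
        norm_num
      have hd0 : d ≠ 0 := by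
        rintro rfl
        rw [zero_mul, mul_eq_zero] at hd
        rcases hd with hd | hd
        · exact hc hd
        · exact hε0 (inv_eq_zero.mp hd)
      have hi' : Lib.RegUni4.Inv φ l u (ε * (d * d)) := by
        rw [← hd, mul_comm c, ← mul_assoc, mul_inv_cancel₀ hε0, one_mul]
        exact hi
      exact (hi'.sq h2 hd0).isConj hi2

end Cfsg.Agent.S2591
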