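import Cfsg.Statements.S2592
import Cfsg.Agent.Lib.RegUni4

set_option autoImplicit false
open Cfsg

namespace Cfsg.Agent.S2592

/-- Over a finite field with q elements, q odd, the centraliser in Sp_2m(F) (m ≥ 1) of a regular unipotent element (u − 1 nilpotent of rank 2m − 1) has order 2 q^m. -/
theorem result {F : Type*} [Field F] [Fintype F] {q : ℕ} (hF : Fintype.card F = q) (hq : Odd q) {m : ℕ} (hm : 1 ≤ m) (u : Matrix.symplecticGroup (Fin m) F) (hnil : ((u : Matrix (Fin m ⊕ Fin m) (Fin m ⊕ Fin m) F) - 1) ^ (2 * m) = 0) (hreg : ((u : Matrix (Fin m ⊕ Fin m) (Fin m ⊕ Fin m) F) - 1).rank = 2 * m - 1) : Nat.card ↥(Subgroup.centralizer ({u} : Set ↥(Matrix.symplecticGroup (Fin m) F))) = 2 * q ^ m := by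
  have h20 : (2 : F) ≠ 0 := by
    intro h
    have : ringChar F = 2 := by
      haveI : CharP F 2 := CharTwo.of_one_ne_zero_of_two_eq_zero one_ne_zero h
      exact ringChar.eq F 2 ▸ rfl
    have h1 := FiniteField.even_card_of_char_two this
    rw [hF] at h1
    obtain ⟨k, hk⟩ := hq
    omega
  rw [Lib.RegUni3.centralizer_card h20 hm u hnil hreg, Nat.card_eq_fintype_card, hF]

end Cfsg.Agent.S2592
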