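import Cfsg.Statements.S2593
import Cfsg.Agent.Lib.ClSpInv3
import Cfsg.Agent.Lib.InvolSymp

set_option autoImplicit false
open Cfsg

namespace Cfsg.Agent.S2593

open Cfsg.Agent.Lib Cfsg.Agent.Lib.ClIso Cfsg.Agent.Lib.ClSpInv Cfsg.Agent.Lib.ClSpInv2 Cfsg.Agent.Lib.ClSpInv3 Cfsg.Agent.Lib.ClSymp Cfsg.Agent.Lib.ClSymp2 Module

section constr
variable {F : Type*} [Field F] {m : ℕ}

local notation "VV" => (Fin m ⊕ Fin m → F)

/-- the nilpotent map. -/
def nil (s : ℕ) (τ : Fin m → Fin m) : VV →ₗ[F] VV where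
  toFun x := Sum.elim (fun i => if (i : ℕ) < s then x (Sum.inr (τ i)) else 0) 0
  map_add' x y := by
    funext k
    rcases k with i | i
    · change (if (i : ℕ) < s then x (Sum.inr (τ i)) + y (Sum.inr (τ i)) else 0) = (if (i : ℕ) < s then x (Sum.inr (τ i)) else 0) +
        (if (i : ℕ) < s then y (Sum.inr (τ i)) else 0)
      split_ifs <;> simp
    · change (0 : F) = 0 + 0
      rw [add_zero]
  map_smul' c x := by
    funext k
    rcases k with i | i
    · change (if (i : ℕ) < s then c * x (Sum.inr (τ i)) else 0) = c * (if (i : ℕ) < s then x (Sum.inr (τ i)) else 0)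
      split_ifs <;> simp
    · change (0 : F) = c * 0
      rw [mul_zero]

theorem nil_nil (s : ℕ) (τ : Fin m → Fin m) (x : VV) : nil s τ (nil s τ x) = 0 := by
  funext k
  rcases k with i | i
  · change (if (i : ℕ) < s then (0 : F) else 0) = 0
    split_ifs <;> rfl
  · rfl

theorem form_nil (s : ℕ) (τ : Fin m → Fin m) (x y : VV) :
    sympForm (Fin m) F x (nil s τ y) = ∑ i : Fin m, if (i : ℕ) < s then x (Sum.inr i) * y (Sum.inr (τ i)) else 0 := by
  rw [sympForm_apply]
  apply Finset.sum_congr rfl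
  intro i _
  change x (Sum.inr i) * (if (i : ℕ) < s then y (Sum.inr (τ i)) else 0) - x (Sum.inl i) * 0 = _
  split_ifs <;> simp

/-- the involution. -/
def inv (s : ℕ) (τ : Fin m → Fin m) (hτ : ∀ i, τ (τ i) = i) (hs : ∀ i, ((τ i : Fin m) : ℕ) < s ↔ (i : ℕ) < s) :
    Spg (sympForm (Fin m) F) :=
  ⟨{ toFun := fun x => x + nil s τ x
     invFun := fun x => x - nil s τ x
     map_add' := fun x y => by rw [map_add]; abel
     map_smul' := fun c x => by rw [map_smul]; exact (smul_add c x _).symm
     left_inv := fun x => by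
       change (x + nil s τ x) - nil s τ (x + nil s τ x) = x
       rw [map_add, nil_nil]; abel
     right_inv := fun x => by
       change (x - nil s τ x) + nil s τ (x - nil s τ x) = x
       rw [map_sub, nil_nil]; abel }, by
    intro x y
    change sympForm (Fin m) F (x + nil s τ x) (y + nil s τ y) = sympForm (Fin m) F x y
    have hB := isSymp_sympForm (l := Fin m) (F := F)
    have h1 : sympForm (Fin m) F (nil s τ x) (nil s τ y) = 0 := by
      rw [form_nil]
      apply Finset.sum_eq_zero
      intro i _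
      change (if (i : ℕ) < s then (0 : F) * _ else 0) = 0
      simp
    have h2 : sympForm (Fin m) F (nil s τ x) y = - sympForm (Fin m) F x (nil s τ y) := by
      rw [hB.skew, form_nil, form_nil]
      congr 1
      let e : Fin m ≃ Fin m := ⟨τ, τ, hτ, hτ⟩
      rw [← Equiv.sum_comp e]
      apply Finset.sum_congr rfl
      intro i _
      change (if ((τ i : Fin m) : ℕ) < s then y (Sum.inr (τ i)) * x (Sum.inr (τ (τ i))) else 0) = _
      rw [hτ]
      by_cases h : (i : ℕ) < s
      · rw [if_pos h, if_pos ((hs i).2 h), mul_comm]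
      · rw [if_neg h, if_neg (fun h' => h ((hs i).1 h'))]
    rw [map_add, map_add, LinearMap.add_apply, LinearMap.add_apply, h1, h2]
    ring⟩

theorem inv_NN (s : ℕ) (τ : Fin m → Fin m) (hτ : ∀ i, τ (τ i) = i) (hs : ∀ i, ((τ i : Fin m) : ℕ) < s ↔ (i : ℕ) < s) :
    NN (inv (F := F) s τ hτ hs) = nil s τ := by
  apply LinearMap.ext
  intro x
  change (x + nil s τ x) - x = nil s τ x
  abel

theorem range_nil (s : ℕ) (τ : Fin m → Fin m) (hτ : ∀ i, τ (τ i) = i) :
    LinearMap.range (nil s τ : VV →ₗ[F] VV) = ES F m s := by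
  apply le_antisymm
  · rintro _ ⟨x, rfl⟩
    refine ⟨fun i => rfl, fun i hi => ?_⟩
    change (if (i : ℕ) < s then x (Sum.inr (τ i)) else 0) = 0
    rw [if_neg (by omega)]
  · intro x hx
    refine ⟨Sum.elim 0 (fun i => x (Sum.inl (τ i))), ?_⟩
    funext k
    rcases k with i | i
    · change (if (i : ℕ) < s then x (Sum.inl (τ (τ i))) else 0) = _
      rw [hτ]
      split_ifs with h
      · rfl
      · exact (hx.2 i (by omega)).symm
    · exact (hx.1 i).symm

theorem finrank_ES [Fintype F] {s : ℕ} (hs : s ≤ m) : finrank F (ES F m s) = s := by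
  have h1 := card_ES (F := F) hs
  haveI : Fintype (ES F m s) := Fintype.ofFinite _
  have h2 := Module.card_eq_pow_finrank (K := F) (V := ES F m s)
  rw [Nat.card_eq_fintype_card] at h1
  rw [h1] at h2
  exact (Nat.pow_right_injective (Fintype.one_lt_card (α := F)) h2).symm

end constr

section classes
variable {F : Type*} [Field F] [Fintype F] [CharP F 2] {m : ℕ}

local notation "VV" => (Fin m ⊕ Fin m → F)

theorem NN_conj (g h : Spg (sympForm (Fin m) F)) (x : VV) :
    NN (h * g * h⁻¹) ((h : VV ≃ₗ[F] VV) x) = (h : VV ≃ₗ[F] VV) (NN g x) := by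
  rw [NN_apply, NN_apply, mul_apply', mul_apply', inv_apply_self', map_sub]

theorem rank_conj (g h : Spg (sympForm (Fin m) F)) :
    finrank F (LinearMap.range (NN (h * g * h⁻¹))) = finrank F (LinearMap.range (NN g)) := by
  have : LinearMap.range (NN (h * g * h⁻¹)) = (LinearMap.range (NN g)).map (h : VV ≃ₗ[F] VV).toLinearMap := by
    ext y
    constructor
    · rintro ⟨x, rfl⟩
      refine ⟨NN g (((h⁻¹ : Spg (sympForm (Fin m) F)) : VV ≃ₗ[F] VV) x), ⟨_, rfl⟩, ?_⟩
      have := NN_conj g h (((h⁻¹ : Spg (sympForm (Fin m) F)) : VV ≃ₗ[F] VV) x)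
      rw [apply_inv_self'] at this
      exact this.symm
    · rintro ⟨_, ⟨x, rfl⟩, rfl⟩
      exact ⟨_, NN_conj g h x⟩
  rw [this]
  exact LinearEquiv.finrank_map_eq (h : VV ≃ₗ[F] VV) _

/-- type a -/
def TA (g : Spg (sympForm (Fin m) F)) : Prop := ∀ x, sympForm (Fin m) F x (NN g x) = 0

theorem TA_conj (g h : Spg (sympForm (Fin m) F)) : TA (h * g * h⁻¹) ↔ TA g := by
  constructor
  · intro ht x
    have := ht ((h : VV ≃ₗ[F] VV) x)
    rw [NN_conj, Spg_apply] at this
    exact this
  · intro ht x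
    have h1 := ht (((h⁻¹ : Spg (sympForm (Fin m) F)) : VV ≃ₗ[F] VV) x)
    rw [← Spg_apply h, ← NN_conj, apply_inv_self'] at h1
    exact h1

theorem isConj_of (g h : Spg (sympForm (Fin m) F)) (hg : g * g = 1) (hh : h * h = 1)
    (hr : finrank F (LinearMap.range (NN g)) = finrank F (LinearMap.range (NN h))) (ht : TA g ↔ TA h) : IsConj g h := by
  have hB := isSymp_sympForm (l := Fin m) (F := F)
  obtain ⟨k, hk1, hk2⟩ := InvolSymp.exists_conj_alt exists_sq (sympForm (Fin m) F) hB.alt (fun v hv => by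
      by_contra hne
      obtain ⟨w, hw⟩ := hB.nondeg v hne
      exact hw (hv w)) (NN g) (NN h) (NN_NN hg) (NN_adj hg) (NN_NN hh) (NN_adj hh) hr ht
  rw [isConj_iff]
  let k' : Spg (sympForm (Fin m) F) := ⟨k, hk1⟩
  refine ⟨k', ?_⟩
  rw [mul_inv_eq_iff_eq_mul]
  apply Spg_ext
  intro x
  have h1 := hk2 x
  rw [NN_apply, NN_apply, map_sub] at h1
  exact sub_left_injective h1

theorem even_of_TA {g : Spg (sympForm (Fin m) F)} (hg : g * g = 1) (ht : TA g) :
    Even (finrank F (LinearMap.range (NN g))) := by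
  have hB := isSymp_sympForm (l := Fin m) (F := F)
  exact InvolSymp.even_rank (sympForm (Fin m) F) hB.alt (fun v hv => by
      by_contra hne
      obtain ⟨w, hw⟩ := hB.nondeg v hne
      exact hw (hv w)) (NN g) (NN_NN hg) (NN_adj hg) ht

theorem sq_of_inv (s : ℕ) (τ : Fin m → Fin m) (hτ : ∀ i, τ (τ i) = i) (hs : ∀ i, ((τ i : Fin m) : ℕ) < s ↔ (i : ℕ) < s) :
    inv (F := F) s τ hτ hs * inv (F := F) s τ hτ hs = 1 := by
  apply Spg_ext
  intro x
  rw [mul_apply']
  change (x + nil s τ x) + nil s τ (x + nil s τ x) = x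
  rw [map_add, nil_nil, add_zero, add_assoc, add_self' (F := F), add_zero]

theorem rank_zero_iff {g : Spg (sympForm (Fin m) F)} : finrank F (LinearMap.range (NN g)) = 0 ↔ g = 1 := by
  rw [Submodule.finrank_eq_zero, LinearMap.range_eq_bot]
  constructor
  · intro h
    apply Spg_ext
    intro x
    have := LinearMap.congr_fun h x
    rw [NN_apply] at this
    exact sub_eq_zero.1 this
  · rintro rfl
    apply LinearMap.ext
    intro x
    exact sub_self x

/-- type b/c representative. -/
def bb (s : ℕ) : Spg (sympForm (Fin m) F) := inv s id (fun _ => rfl) (fun _ => Iff.rfl)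

/-- the pairing `2l ↔ 2l+1` -/
def tau (k : ℕ) (hk : 2 * k ≤ m) (i : Fin m) : Fin m :=
  if h : (i : ℕ) < 2 * k then (if h2 : (i : ℕ) % 2 = 0 then ⟨i + 1, by omega⟩ else ⟨i - 1, by omega⟩) else i

theorem tau_tau (k : ℕ) (hk : 2 * k ≤ m) (i : Fin m) : tau k hk (tau k hk i) = i := by
  unfold tau
  by_cases h : (i : ℕ) < 2 * k
  · by_cases h2 : (i : ℕ) % 2 = 0
    · have h3 : (i : ℕ) + 1 < 2 * k := by omega
      have h4 : ¬ ((i : ℕ) + 1) % 2 = 0 := by omega
      apply Fin.ext
      simp [h, h2, h3, h4]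
    · have h3 : (i : ℕ) - 1 < 2 * k := by omega
      have h4 : ((i : ℕ) - 1) % 2 = 0 := by omega
      apply Fin.ext
      simp [h, h2, h3, h4]
      omega
  · simp [h]

theorem tau_lt (k : ℕ) (hk : 2 * k ≤ m) (i : Fin m) : ((tau k hk i : Fin m) : ℕ) < 2 * k ↔ (i : ℕ) < 2 * k := by
  unfold tau
  by_cases h : (i : ℕ) < 2 * k
  · by_cases h2 : (i : ℕ) % 2 = 0
    · simp [h, h2]; omega
    · simp [h, h2]; omega
  · simp [h]

/-- type a representative. -/
def aa (k : ℕ) (hk : 2 * k ≤ m) : Spg (sympForm (Fin m) F) := inv (2 * k) (tau k hk) (tau_tau k hk) (tau_lt k hk)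

theorem rank_bb {s : ℕ} (hs : s ≤ m) : finrank F (LinearMap.range (NN (bb s : Spg (sympForm (Fin m) F)))) = s := by
  rw [bb, inv_NN, range_nil _ _ (fun _ => rfl), finrank_ES hs]

theorem rank_aa {k : ℕ} (hk : 2 * k ≤ m) : finrank F (LinearMap.range (NN (aa k hk : Spg (sympForm (Fin m) F)))) = 2 * k := by
  rw [aa, inv_NN, range_nil _ _ (tau_tau k hk), finrank_ES hk]

theorem not_TA_bb {s : ℕ} (hs : s < m) : ¬ TA (bb (s + 1) : Spg (sympForm (Fin m) F)) := by
  intro h
  have := h (ff ⟨0, by omega⟩)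
  rw [bb, inv_NN, form_nil, Finset.sum_eq_single ⟨0, by omega⟩] at this
  · simp [ff] at this
  · intro i _ hi
    simp [ff, hi]
  · simp

theorem TA_aa {k : ℕ} (hk : 2 * k ≤ m) : TA (aa k hk : Spg (sympForm (Fin m) F)) := by
  intro x
  rw [aa, inv_NN, form_nil]
  apply Finset.sum_involution (fun i _ => tau k hk i)
  · intro i _
    rw [tau_tau]
    by_cases h : (i : ℕ) < 2 * k
    · rw [if_pos h, if_pos ((tau_lt k hk i).2 h), mul_comm (x (Sum.inr (tau k hk i)))]
      exact CharTwo.add_self_eq_zero _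
    · rw [if_neg h, if_neg (fun h' => h ((tau_lt k hk i).1 h')), add_zero]
  · intro i _ hne heq
    have h : (i : ℕ) < 2 * k := by
      by_contra h
      rw [if_neg h] at hne
      exact hne rfl
    have h3 := congrArg (fun j : Fin m => (j : ℕ)) heq
    unfold tau at h3
    by_cases h2 : (i : ℕ) % 2 = 0
    · simp [h, h2] at h3
    · simp [h, h2] at h3
      omega
  · intro i _
    exact Finset.mem_univ _
  · intro i _
    exact tau_tau k hk i

/-- the parametrisation of the classes. -/
def par : Fin m ⊕ Fin (m / 2) → Spg (sympForm (Fin m) F)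
  | Sum.inl i => bb (i + 1)
  | Sum.inr j => aa (j + 1) (by omega)

theorem par_sq (x : Fin m ⊕ Fin (m / 2)) : (par x : Spg (sympForm (Fin m) F)) * par x = 1 := by
  rcases x with i | j
  · exact sq_of_inv (i + 1) id (fun _ => rfl) (fun _ => Iff.rfl)
  · exact sq_of_inv _ _ (tau_tau (j + 1) (by omega)) (tau_lt (j + 1) (by omega))

theorem par_ne (x : Fin m ⊕ Fin (m / 2)) : (par x : Spg (sympForm (Fin m) F)) ≠ 1 := by
  rcases x with i | j
  · intro h
    rw [← rank_zero_iff] at h
    change finrank F (LinearMap.range (NN (bb (i + 1) : Spg (sympForm (Fin m) F)))) = 0 at h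
    rw [rank_bb (by omega)] at h
    omega
  · intro h
    rw [← rank_zero_iff] at h
    change finrank F (LinearMap.range (NN (aa (j + 1) _ : Spg (sympForm (Fin m) F)))) = 0 at h
    rw [rank_aa] at h
    omega

theorem par_inj {x y : Fin m ⊕ Fin (m / 2)} (h : IsConj (par x : Spg (sympForm (Fin m) F)) (par y)) : x = y := by
  obtain ⟨k, hk⟩ := isConj_iff.1 h
  have hr := rank_conj (par x : Spg (sympForm (Fin m) F)) k
  have ht := TA_conj (par x : Spg (sympForm (Fin m) F)) k
  rw [hk] at hr ht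
  rcases x with i | i <;> rcases y with j | j
  · change finrank F (LinearMap.range (NN (bb (j + 1) : Spg (sympForm (Fin m) F)))) =
      finrank F (LinearMap.range (NN (bb (i + 1) : Spg (sympForm (Fin m) F)))) at hr
    rw [rank_bb (by omega), rank_bb (by omega)] at hr
    congr 1
    apply Fin.ext
    omega
  · exfalso
    exact not_TA_bb i.2 (ht.1 (TA_aa _))
  · exfalso
    exact not_TA_bb j.2 (ht.2 (TA_aa _))
  · change finrank F (LinearMap.range (NN (aa (j + 1) _ : Spg (sympForm (Fin m) F)))) =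
      finrank F (LinearMap.range (NN (aa (i + 1) _ : Spg (sympForm (Fin m) F)))) at hr
    rw [rank_aa, rank_aa] at hr
    congr 1
    apply Fin.ext
    omega

theorem par_surj (g : Spg (sympForm (Fin m) F)) (hg : g * g = 1) (hg1 : g ≠ 1) : ∃ x, IsConj (par x) g := by
  have hle := rank_le hg
  have hpos : finrank F (LinearMap.range (NN g)) ≠ 0 := fun h => hg1 (rank_zero_iff.1 h)
  by_cases ht : TA g
  · obtain ⟨k, hk⟩ := even_of_TA hg ht
    refine ⟨Sum.inr ⟨k - 1, by omega⟩, ?_⟩
    apply isConj_of _ _ (par_sq _) hg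
    · change finrank F (LinearMap.range (NN (aa ((k - 1) + 1) _ : Spg (sympForm (Fin m) F)))) = _
      rw [rank_aa]
      omega
    · exact ⟨fun _ => ht, fun _ => TA_aa _⟩
  · refine ⟨Sum.inl ⟨finrank F (LinearMap.range (NN g)) - 1, by omega⟩, ?_⟩
    apply isConj_of _ _ (par_sq _) hg
    · change finrank F (LinearMap.range (NN (bb ((finrank F (LinearMap.range (NN g)) - 1) + 1) : Spg (sympForm (Fin m) F)))) = _
      rw [rank_bb (by omega)]
      omega
    · refine ⟨fun h => absurd h ?_, fun h => absurd h ht⟩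
      exact not_TA_bb (s := finrank F (LinearMap.range (NN g)) - 1) (by omega)

end classes

/-- Number of conjugacy classes of involutions in the symplectic group Sp_2m(F) over a finite field of characteristic two (m ≥ 1): for each s with 1 ≤ s ≤ m there is one class with rank(t − 1) = s if s is odd and two if s is even (according as v ↦ f(v, tv), f the symplectic form, vanishes identically or not), so m + ⌊m/2⌋ classes in all. -/
theorem result {F : Type*} [Field F] [Fintype F] [CharP F 2] {m : ℕ} (hm : 1 ≤ m) : Nat.card {C : ConjClasses ↥(Matrix.symplecticGroup (Fin m) F) // ∃ g : Matrix.symplecticGroup (Fin m) F, ConjClasses.mk g = C ∧ orderOf g = 2} = m + m / 2 := by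
  classical
  let e := sympEquiv (Fin m) F
  have hord : ∀ g : Matrix.symplecticGroup (Fin m) F, orderOf g = 2 ↔ (e g * e g = 1 ∧ e g ≠ 1) := by
    intro g
    rw [orderOf_eq_prime_iff, pow_two, ← map_mul, map_eq_one_iff e e.injective, ne_eq, ne_eq, map_eq_one_iff e e.injective]
  let f : Fin m ⊕ Fin (m / 2) → {C : ConjClasses ↥(Matrix.symplecticGroup (Fin m) F) //
      ∃ g : Matrix.symplecticGroup (Fin m) F, ConjClasses.mk g = C ∧ orderOf g = 2} :=
    fun x => ⟨ConjClasses.mk (e.symm (par x)), e.symm (par x), rfl, by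
      rw [hord, MulEquiv.apply_symm_apply]
      exact ⟨par_sq x, par_ne x⟩⟩
  have hf : Function.Bijective f := by
    constructor
    · intro x y hxy
      have h1 := congrArg Subtype.val hxy
      have h2 : IsConj (e.symm (par x)) (e.symm (par y)) := ConjClasses.mk_eq_mk_iff_isConj.1 h1
      have h3 := e.toMonoidHom.map_isConj h2
      simp only [MulEquiv.toMonoidHom_eq_coe, MonoidHom.coe_coe, MulEquiv.apply_symm_apply] at h3
      exact par_inj h3
    · rintro ⟨C, g, rfl, hg⟩
      rw [hord] at hg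
      obtain ⟨x, hx⟩ := par_surj (e g) hg.1 hg.2
      refine ⟨x, Subtype.ext ?_⟩
      change ConjClasses.mk (e.symm (par x)) = ConjClasses.mk g
      rw [ConjClasses.mk_eq_mk_iff_isConj]
      have h3 := e.symm.toMonoidHom.map_isConj hx
      simp only [MulEquiv.toMonoidHom_eq_coe, MonoidHom.coe_coe, MulEquiv.symm_apply_apply] at h3
      exact h3
  rw [← Nat.card_congr (Equiv.ofBijective f hf)]
  simp

end Cfsg.Agent.S2593
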