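import Cfsg.Statements.S2594
import Cfsg.Agent.Lib.ClSpInv3

set_option autoImplicit false
open Cfsg

namespace Cfsg.Agent.S2594

open Cfsg.Agent.Lib Cfsg.Agent.Lib.ClIso Cfsg.Agent.Lib.ClSpInv3 Cfsg.Agent.Lib.ClSymp

theorem sq_of_rank_one {F V : Type*} [Field F] [CharP F 2] [AddCommGroup V] [Module F V] {B : LinearMap.BilinForm F V}
    (hB : IsSymp B) (g : Spg B) (h1 : Module.finrank F (LinearMap.range (ClSpInv2.NN g)) = 1) : g * g = 1 := by
  obtain ⟨w, hw⟩ := finrank_eq_one_iff'.1 h1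
  have hpp : ∀ x y, B (ClSpInv2.NN g x) (ClSpInv2.NN g y) = 0 := by
    intro x y
    obtain ⟨c, hc⟩ := hw.2 ⟨ClSpInv2.NN g x, x, rfl⟩
    obtain ⟨d, hd⟩ := hw.2 ⟨ClSpInv2.NN g y, y, rfl⟩
    have hc' : c • w.1 = ClSpInv2.NN g x := congrArg Subtype.val hc
    have hd' : d • w.1 = ClSpInv2.NN g y := congrArg Subtype.val hd
    rw [← hc', ← hd', map_smul, map_smul, LinearMap.smul_apply, hB.alt, smul_zero, smul_zero]
  have hadj : ∀ x y, B (ClSpInv2.NN g x) y = - B x (ClSpInv2.NN g y) := by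
    intro x y
    have h := Spg_apply g x y
    have ex : (g : V ≃ₗ[F] V) x = ClSpInv2.NN g x + x := by rw [ClSpInv2.NN_apply]; abel
    have ey : (g : V ≃ₗ[F] V) y = ClSpInv2.NN g y + y := by rw [ClSpInv2.NN_apply]; abel
    rw [ex, ey] at h
    simp only [map_add, LinearMap.add_apply, hpp] at h
    linear_combination h
  have hNN : ∀ x, ClSpInv2.NN g (ClSpInv2.NN g x) = 0 := by
    intro x
    by_contra hne
    obtain ⟨y, hy⟩ := hB.nondeg _ hne
    apply hy
    rw [hadj, hpp, neg_zero]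
  apply Spg_ext
  intro x
  rw [mul_apply']
  have ex : (g : V ≃ₗ[F] V) x = ClSpInv2.NN g x + x := by rw [ClSpInv2.NN_apply]; abel
  have e2 : (g : V ≃ₗ[F] V) (ClSpInv2.NN g x) = ClSpInv2.NN g x := by
    have := hNN x
    rw [ClSpInv2.NN_apply g (ClSpInv2.NN g x), sub_eq_zero] at this
    exact this
  rw [ex, map_add, e2, ex, ← add_assoc, ClSpInv2.add_self' (F := F), zero_add]
  rfl

/-- Over a finite field with q elements, q even, an element t of Sp_2m(F) with rank(t − 1) = 1 (a symplectic transvection) has centraliser in Sp_2m(F) of order q^(2m−1) · |Sp_(2m−2)(q)| = q^(2m−1) · q^((m−1)²) · Π_(i=1)^(m−1) (q^(2i) − 1). -/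
theorem result {F : Type*} [Field F] [Fintype F] [CharP F 2] {q : ℕ} (hF : Fintype.card F = q) {m : ℕ} (hm : 1 ≤ m) (t : Matrix.symplecticGroup (Fin m) F) (ht : ((t : Matrix (Fin m ⊕ Fin m) (Fin m ⊕ Fin m) F) - 1).rank = 1) : Nat.card ↥(Subgroup.centralizer ({t} : Set ↥(Matrix.symplecticGroup (Fin m) F))) = q ^ (2 * m - 1) * (q ^ ((m - 1) ^ 2) * ∏ i : Fin (m - 1), (q ^ (2 * ((i : ℕ) + 1)) - 1)) := by
  classical
  have hs : Module.finrank F (LinearMap.range (ClSpInv2.NN (sympEquiv (Fin m) F t))) = 1 := by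
    rw [← ClSpInv3.rank_matrix]; exact ht
  have hB := ClSymp2.isSymp_sympForm (l := Fin m) (F := F)
  have hg : sympEquiv (Fin m) F t * sympEquiv (Fin m) F t = 1 := sq_of_rank_one hB _ hs
  have h1 := card_cent_odd hg hs odd_one
  rw [hF] at h1
  rw [card_cent_matrix]
  have h2 := ClSympOrd.card_Spg (F := F) 0
  rw [← Finset.prod_range (fun i => q ^ (2 * (i + 1)) - 1)]
  have h3 : Nat.card (Spg (sympForm (Fin ((1 - 1) / 2)) F)) = 1 := by
    have h4 : (1 - 1) / 2 = 0 := rfl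
    rw [h4, h2]
    simp
  rw [h3] at h1
  simp only [Nat.sub_self, Nat.mul_zero, Nat.zero_div, pow_zero, one_mul] at h1
  rw [h1, ← mul_assoc, ← pow_add]
  congr 2
  obtain ⟨d, rfl⟩ : ∃ d, m = d + 1 := ⟨m - 1, by omega⟩
  simp only [Nat.add_sub_cancel]
  have : 2 * (d + 1) - 1 = 2 * d + 1 := by omega
  rw [this]
  ring

end Cfsg.Agent.S2594
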