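import Cfsg.Statements.S2597
import Cfsg.Agent.Lib.InvolOrthCount3

set_option autoImplicit false
open Cfsg

namespace Cfsg.Agent.S2597

/-- Number of conjugacy classes of involutions in Ω⁺_2m(F) (the commutator subgroup of the orthogonal group of Σ x_i y_i) over a finite field F of characteristic two, m ≥ 1, excluding the case m = 2 over the field of two elements: the involutions of Ω are those with s = rank(t − 1) even, giving two O-classes for each even s with 2 ≤ s ≤ m, each of which is a single Ω-class except that for m even the class with s = m and v ↦ f(v, tv) identically zero splits in two; in all 2⌊m/2⌋ + 1 classes if m is even and 2⌊m/2⌋ if m is odd. -/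
theorem result {F : Type*} [Field F] [Fintype F] [CharP F 2] {m : ℕ} (hm : 1 ≤ m) (h : Fintype.card F ≠ 2 ∨ m ≠ 2) : Nat.card {C : ConjClasses ↥(Cfsg.Omega F (Cfsg.quadFormPlus m F)) // ∃ g : ↥(Cfsg.Omega F (Cfsg.quadFormPlus m F)), ConjClasses.mk g = C ∧ orderOf g = 2} = 2 * (m / 2) + (if Even m then 1 else 0) := by
  have hgen : Lib.Quad.GenHyp (Lib.Quad.quadPlus m F) := by
    apply Lib.Quad.genHyp_of_card
    rcases h with h | h
    · exact Or.inl h
    · right; rw [Lib.Quad.finrank_plus]; omega
  by_cases hev : Even m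
  · rw [if_pos hev]
    obtain ⟨k, hk⟩ := hev
    obtain rfl : m = 2 * k := by omega
    have h1 := Lib.InvolOrthCount2.count_Om_split (Q := Lib.Quad.quadPlus (2 * k) F) Lib.Quad.nd_quadPlus hgen k (by omega) Lib.Quad.finrank_plus
      (fun r h1 h2 => Lib.InvolOrthCount3.plus_ex1 _ r h1 h2) (fun j h1 h2 => Lib.InvolOrthCount3.plus_ex2 _ j h1 (by omega))
      ⟨Lib.InvolOrthCount3.wp (2 * k) F ⟨0, by omega⟩, by rw [Lib.InvolOrthCount3.wp_Q]; exact one_ne_zero⟩
    rw [Nat.mul_div_cancel_left k (by norm_num)]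
    exact h1
  · rw [if_neg hev, add_zero]
    have h1 := Lib.InvolOrthCount2.count_Om (Q := Lib.Quad.quadPlus m F) Lib.Quad.nd_quadPlus hgen m (m / 2)
      (fun r h1 h2 => Lib.InvolOrthCount3.plus_ex1 m r h1 h2) (fun j h1 h2 => Lib.InvolOrthCount3.plus_ex2 m j h1 (by omega))
      (fun t ht => Lib.InvolOrthCount.rk_le Lib.Quad.finrank_plus ht)
      (fun t ht _ => by
        have := Lib.InvolOrthCount.rk_le Lib.Quad.finrank_plus ht
        omega)
      (fun t s ht hO hconj => by
        obtain ⟨w, hw1, hw2⟩ := Lib.InvolOrth.exists_nonsingular_fixed Lib.Quad.nd_quadPlus Lib.Quad.finrank_plus ht (by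
          rintro ⟨h2, h3⟩
          apply hev
          rw [← h2]
          exact Lib.InvolOrthCount.alt_even Lib.Quad.nd_quadPlus ht h3)
        exact Lib.InvolOrth.conj_Omega Lib.Quad.nd_quadPlus hgen hconj hw2 hw1)
    rw [two_mul]
    exact h1

end Cfsg.Agent.S2597
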