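import Cfsg.Statements.S2599

set_option autoImplicit false
open Cfsg

namespace Cfsg.Agent.S2599

open Matrix

theorem result {F : Type*} [Field F] [Fintype F] {p : ℕ} [Fact p.Prime] [CharP F p] {n : ℕ} (Q : QuadraticForm F (Fin n → F)) (hQ : (QuadraticMap.polarBilin Q).Nondegenerate) (x : ↥(Cfsg.isometryGroup F ⇑Q)) (hx : (orderOf x).Coprime p) (U : Submodule F (Fin n → F)) (hU0 : U ≠ ⊥) (hUx : ∀ u ∈ U, ((x : Matrix.GeneralLinearGroup (Fin n) F) : Matrix (Fin n) (Fin n) F).mulVec u ∈ U) (hirr : ∀ W : Submodule F (Fin n → F), W ≤ U → (∀ w ∈ W, ((x : Matrix.GeneralLinearGroup (Fin n) F) : Matrix (Fin n) (Fin n) F).mulVec w ∈ W) → W = ⊥ ∨ W = U) : U ⊓ LinearMap.BilinForm.orthogonal (QuadraticMap.polarBilin Q) U = ⊥ ∨ (∀ u ∈ U, Q u = 0) ∨ (p = 2 ∧ Module.finrank F U = 1 ∧ (∃ u ∈ U, Q u ≠ 0) ∧ ∀ u ∈ U, ((x : Matrix.GeneralLinearGroup (Fin n) F) : Matrix (Fin n) (Fin n) F).mulVec u = u) := by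
  classical
  set M : Matrix (Fin n) (Fin n) F := ((x : Matrix.GeneralLinearGroup (Fin n) F) : Matrix (Fin n) (Fin n) F) with hM
  have hMQ : ∀ v, Q (M *ᵥ v) = Q v := fun v => x.2 v v
  have hMB : ∀ u v, QuadraticMap.polarBilin Q (M *ᵥ u) (M *ᵥ v) = QuadraticMap.polarBilin Q u v := by
    intro u v
    simp only [QuadraticMap.polarBilin_apply_apply, QuadraticMap.polar, ← Matrix.mulVec_add, hMQ]
  have hMinj : Function.Injective (fun v : Fin n → F => M *ᵥ v) := by
    rw [Matrix.mulVec_injective_iff_isUnit]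
    exact (x : Matrix.GeneralLinearGroup (Fin n) F).isUnit
  -- surjectivity on U
  have hsurj : ∀ u ∈ U, ∃ u' ∈ U, M *ᵥ u' = u := by
    intro u hu
    let L : U →ₗ[F] U := (M.mulVecLin).restrict hUx
    have hLinj : Function.Injective L := by
      intro a b hab
      have := congrArg Subtype.val hab
      exact Subtype.ext (hMinj this)
    obtain ⟨⟨u', hu'⟩, h⟩ := (LinearMap.injective_iff_surjective.mp hLinj) ⟨u, hu⟩
    exact ⟨u', hu', congrArg Subtype.val h⟩
  rcases hirr (U ⊓ LinearMap.BilinForm.orthogonal (QuadraticMap.polarBilin Q) U) inf_le_left (by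
    intro w hw
    refine ⟨hUx w hw.1, ?_⟩
    apply LinearMap.BilinForm.mem_orthogonal_iff.mpr
    intro u hu
    obtain ⟨u', hu', rfl⟩ := hsurj u hu
    rw [hMB]
    exact (LinearMap.BilinForm.mem_orthogonal_iff.mp hw.2) u' hu') with h | h
  · exact Or.inl h
  right
  have hB0 : ∀ u ∈ U, ∀ v ∈ U, QuadraticMap.polarBilin Q u v = 0 := by
    intro u hu v hv
    rw [← h] at hv
    exact (LinearMap.BilinForm.mem_orthogonal_iff.mp hv.2) u hu
  have hadd : ∀ u ∈ U, ∀ v ∈ U, Q (u + v) = Q u + Q v := by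
    intro u hu v hv
    have := hB0 u hu v hv
    simp only [QuadraticMap.polarBilin_apply_apply, QuadraticMap.polar] at this
    linear_combination this
  by_cases hp : p = 2
  · subst hp
    let K : Submodule F (Fin n → F) :=
      { carrier := {u | u ∈ U ∧ Q u = 0}
        add_mem' := by
          rintro a b ⟨ha, ha'⟩ ⟨hb, hb'⟩
          exact ⟨U.add_mem ha hb, by rw [hadd a ha b hb, ha', hb', add_zero]⟩
        zero_mem' := ⟨U.zero_mem, by simp⟩
        smul_mem' := by
          rintro c a ⟨ha, ha'⟩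
          exact ⟨U.smul_mem c ha, by rw [QuadraticMap.map_smul, ha', smul_zero]⟩ }
    rcases hirr K (fun u hu => hu.1) (fun w hw => ⟨hUx w hw.1, by rw [hMQ]; exact hw.2⟩) with hK | hK
    · right
      obtain ⟨u0, hu0, hu0ne⟩ := (Submodule.ne_bot_iff U).mp hU0
      have hQ0 : Q u0 ≠ 0 := by
        intro h0
        have : u0 ∈ K := ⟨hu0, h0⟩
        rw [hK] at this
        exact hu0ne this
      have hline : ∀ u ∈ U, ∃ c : F, u = c • u0 ∧ c ^ 2 = Q u / Q u0 := by
        intro u hu
        refine ⟨(frobeniusEquiv F 2).symm (Q u / Q u0), ?_, frobeniusEquiv_symm_pow_p F 2 _⟩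
        have hc := frobeniusEquiv_symm_pow_p F 2 (Q u / Q u0)
        set c := (frobeniusEquiv F 2).symm (Q u / Q u0)
        have hmem : u - c • u0 ∈ K := by
          refine ⟨U.sub_mem hu (U.smul_mem c hu0), ?_⟩
          rw [sub_eq_add_neg, ← neg_smul, hadd u hu _ (U.smul_mem _ hu0), QuadraticMap.map_smul, smul_eq_mul]
          have h1 : c ^ 2 * Q u0 = Q u := by rw [hc, div_mul_cancel₀ _ hQ0]
          have : (2 : F) = 0 := CharTwo.two_eq_zero
          linear_combination h1 + (Q u) * this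
        rw [hK] at hmem
        exact sub_eq_zero.mp hmem
      refine ⟨rfl, ?_, ⟨u0, hu0, hQ0⟩, ?_⟩
      · rw [finrank_eq_one_iff']
        refine ⟨⟨u0, hu0⟩, ?_, ?_⟩
        · intro h; exact hu0ne (congrArg Subtype.val h)
        · rintro ⟨u, hu⟩
          obtain ⟨c, hc, -⟩ := hline u hu
          exact ⟨c, Subtype.ext hc.symm⟩
      · have hx0 : M *ᵥ u0 = u0 := by
          obtain ⟨c, hc, hc2⟩ := hline _ (hUx u0 hu0)
          rw [hMQ, div_self hQ0] at hc2
          have : c = 1 := by
            have h1 : (c - 1) ^ 2 = 0 := by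
              have : (2 : F) = 0 := CharTwo.two_eq_zero
              linear_combination hc2 + (1 - c) * this
            have := pow_eq_zero_iff (two_ne_zero) |>.mp h1
            exact sub_eq_zero.mp this
          rw [hc, this, one_smul]
        intro u hu
        obtain ⟨c, hc, -⟩ := hline u hu
        rw [hc, Matrix.mulVec_smul, hx0]
    · left
      intro u hu
      rw [← hK] at hu
      exact hu.2
  · left
    intro u hu
    have h1 := hadd u hu u hu
    rw [← two_smul F u, QuadraticMap.map_smul, smul_eq_mul] at h1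
    have h2 : (2 : F) ≠ 0 := by
      intro h2
      apply hp
      have : ((2 : ℕ) : F) = 0 := by exact_mod_cast h2
      have := (CharP.cast_eq_zero_iff F p 2).mp this
      exact (Nat.prime_dvd_prime_iff_eq (Fact.out) Nat.prime_two).mp this
    have h3 : 2 * Q u = 0 := by linear_combination h1
    exact (mul_eq_zero.mp h3).resolve_left h2

end Cfsg.Agent.S2599
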