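import Cfsg.Statements.S2603
import Cfsg.Agent.Lib.PSUOut
-- import your own Cfsg.Agent.* helpers here

set_option autoImplicit false
open Cfsg

namespace Cfsg.Agent.S2603

/-- Structure of the outer automorphism group of PSU_n(q), n ≥ 3, (n, q) ≠ (3, 2), q = p^f, realised over the field with q² elements: it has a normal cyclic subgroup of order gcd(n, q + 1) (diagonal automorphisms) with cyclic quotient of order 2f (generated by the Frobenius field automorphism of the field with q² elements, whose f-th power is the graph automorphism). -/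
theorem result {K : Type*} [Field K] [Fintype K] {p f q n : ℕ} [Fact p.Prime] (hf : 1 ≤ f) (hq : q = p ^ f) (hK : Fintype.card K = q ^ 2) (hn : 3 ≤ n) (h32 : ¬ (n = 3 ∧ q = 2)) : ∃ φ : Cfsg.Out (Cfsg.PSU n K q) →* Multiplicative (ZMod (2 * f)), Function.Surjective φ ∧ IsCyclic φ.ker ∧ Nat.card φ.ker = Nat.gcd n (q + 1) := by
  have hK' : Fintype.card K = p ^ (2 * f) := by rw [hK, hq, ← pow_mul, mul_comm]
  obtain ⟨φ, h1, h2, h3⟩ := Lib.PSUAut.out_structure hK hn (fun h3 h2 => h32 ⟨h3, h2⟩)
  obtain ⟨e⟩ := Lib.FFAut.equivZMod hK'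
  refine ⟨e.toMonoidHom.comp φ, e.surjective.comp h1, ?_⟩
  have hker : (e.toMonoidHom.comp φ).ker = φ.ker := by
    ext x
    rw [MonoidHom.mem_ker, MonoidHom.mem_ker]
    show e (φ x) = 1 ↔ _
    rw [EmbeddingLike.map_eq_one_iff]
  rw [hker]
  exact ⟨h2, h3⟩

end Cfsg.Agent.S2603
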