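import Mathlib
import Cfsg.Statements.S2606
import Cfsg.Agent.Lib.OAutQ

set_option autoImplicit false
open Cfsg

namespace Cfsg.Agent.S2606

/-- Outer automorphism group of PΩ⁻_2m(q), m ≥ 4, q = p^f odd: it is dihedral of order 8 times cyclic of order f when q ≡ 3 (mod 4) and m is odd, and otherwise the direct product of a group of order 2 with a cyclic group of order 2f. -/
theorem result {F : Type*} [Field F] [Fintype F] {p f m : ℕ} [Fact p.Prime] (hf : 1 ≤ f) (hF : Fintype.card F = p ^ f) (hp : p ≠ 2) (hm : 4 ≤ m) (a b : F) (hab : ∀ z₁ z₂ : F, z₁ ^ 2 + a * z₁ * z₂ + b * z₂ ^ 2 = 0 → z₁ = 0 ∧ z₂ = 0) : if p ^ f % 4 = 3 ∧ Odd m then Nonempty (Cfsg.Out (Cfsg.POmega F (Cfsg.quadFormMinus (m - 1) F a b)) ≃* DihedralGroup 4 × Multiplicative (ZMod f)) else Nonempty (Cfsg.Out (Cfsg.POmega F (Cfsg.quadFormMinus (m - 1) F a b)) ≃* Multiplicative (ZMod 2 × ZMod (2 * f))) := by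
  open Cfsg.Agent.Lib Lib.OAut Lib.Quad in
  let e := outCongr (poEquiv (quadMinus (m - 1) F a b))
  have h2 : (2 : F) ≠ 0 := Cfsg.Agent.Lib.OAut.Semi.two_ne_zero_of_pow hF hp
  have hpo : Odd p := (Fact.out : p.Prime).odd_of_ne_two hp
  have h3 := Cfsg.Agent.Lib.OAut.Semi.neg_mem_minus (m := m - 1) h2 hab
  have h4 := Cfsg.Agent.Lib.OAut.Semi.mod_four_iff (q := p ^ f) (m := m) hpo.pow
  rw [Nat.sub_add_cancel (show 1 ≤ m by omega), hF] at h3
  split_ifs with hif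
  · obtain ⟨e'⟩ := Cfsg.Agent.Lib.OAut.Semi.out_minus_B (m := m - 1) hf hF hp hab (by omega)
      (Cfsg.Agent.Lib.OAut.Semi.odd_of_mod_four hpo hif.1) (h3.2 (h4.2 hif))
    exact ⟨e.trans e'⟩
  · obtain ⟨e'⟩ := Cfsg.Agent.Lib.OAut.Semi.out_minus_A (m := m - 1) hf hF hp hab (by omega)
      (fun h => hif (h4.1 (h3.1 h)))
    exact ⟨e.trans e'⟩

end Cfsg.Agent.S2606
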