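import Mathlib
import Cfsg.Statements.S2608
import Cfsg.Agent.Lib.OAutQ
import Cfsg.Agent.Lib.D4OutPO

set_option autoImplicit false
open Cfsg

namespace Cfsg.Agent.S2608

/-- Outer automorphism group of PΩ⁺_2m(q), q = p^f odd: for m = 4 it is S_4 × C_f (triality); for m ≥ 5 it is C_2 × C_2 × C_f when q ≡ 3 (mod 4) and m is odd, and D_8 × C_f otherwise. -/
theorem result {F : Type*} [Field F] [Fintype F] {p f m : ℕ} [Fact p.Prime] (hf : 1 ≤ f) (hF : Fintype.card F = p ^ f) (hp : p ≠ 2) (hm : 4 ≤ m) : if m = 4 then Nonempty (Cfsg.Out (Cfsg.POmega F (Cfsg.quadFormPlus m F)) ≃* Equiv.Perm (Fin 4) × Multiplicative (ZMod f)) else if p ^ f % 4 = 3 ∧ Odd m then Nonempty (Cfsg.Out (Cfsg.POmega F (Cfsg.quadFormPlus m F)) ≃* Multiplicative (ZMod 2 × ZMod 2 × ZMod f)) else Nonempty (Cfsg.Out (Cfsg.POmega F (Cfsg.quadFormPlus m F)) ≃* DihedralGroup 4 × Multiplicative (ZMod f)) := by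
  by_cases h4 : m = 4
  · subst h4
    rw [if_pos rfl]
    exact Cfsg.Agent.Lib.D4Out.out_po_odd hF hp
  rw [if_neg h4]
  open Cfsg.Agent.Lib Lib.OAut Lib.Quad in
  let e := outCongr (poEquiv (quadPlus m F))
  have h2 : (2 : F) ≠ 0 := Cfsg.Agent.Lib.OAut.Semi.two_ne_zero_of_pow hF hp
  have hpo : Odd p := (Fact.out : p.Prime).odd_of_ne_two hp
  have h3 := Cfsg.Agent.Lib.OAut.Semi.neg_mem_plus (m := m) h2
  have h5 := Cfsg.Agent.Lib.OAut.Semi.mod_four_iff (q := p ^ f) (m := m) hpo.pow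
  rw [hF] at h3
  split_ifs with hif
  · obtain ⟨e'⟩ := Cfsg.Agent.Lib.OAut.Semi.out_plus_A (m := m) hf hF hp (by omega)
      (fun h => (h5.2 hif) (h3.1 h))
    exact ⟨e.trans e'⟩
  · obtain ⟨e'⟩ := Cfsg.Agent.Lib.OAut.Semi.out_plus_B (m := m) hf hF hp (by omega)
      (h3.2 (by by_contra h; exact hif (h5.1 h)))
    exact ⟨e.trans e'⟩

end Cfsg.Agent.S2608
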