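import Cfsg.Statements.S2610
import Cfsg.Agent.Lib.QuadNeg

set_option autoImplicit false
open Cfsg

namespace Cfsg.Agent.S2610

/-- For a quadratic form Q on F^n with non-degenerate polar form, F finite of odd order and n ≥ 2 even, the isometry −1 lies in Ω (the commutator subgroup of the orthogonal group) if and only if the discriminant of Q (the determinant of the Gram matrix of its polar form) is a square. -/
theorem result {F : Type*} [Field F] [Fintype F] (h2 : (2 : F) ≠ 0) {n : ℕ} (hn : 2 ≤ n) (he : Even n) (Q : QuadraticForm F (Fin n → F)) (hQ : (QuadraticMap.polarBilin Q).Nondegenerate) : (∃ g : ↥(Cfsg.isometryGroup F ⇑Q), g ∈ Cfsg.Omega F ⇑Q ∧ ((g : Matrix.GeneralLinearGroup (Fin n) F) : Matrix (Fin n) (Fin n) F) = -1) ↔ IsSquare (Matrix.of (fun i j : Fin n => QuadraticMap.polar ⇑Q (Pi.single i 1) (Pi.single j 1))).det := by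
  rw [Cfsg.Agent.Lib.Quad.gram_std]
  have hfr : Module.finrank F (Fin n → F) = n := by rw [Module.finrank_pi]; simp
  have key := Cfsg.Agent.Lib.Quad.Nd.neg_mem_Om_iff hQ h2 (Pi.basisFun F (Fin n))
  rw [hfr] at key
  have key' : (LinearEquiv.neg F : (Fin n → F) ≃ₗ[F] (Fin n → F)) ∈ Cfsg.Agent.Lib.Quad.Om Q ↔
      IsSquare (LinearMap.BilinForm.toMatrix (Pi.basisFun F (Fin n))
        (QuadraticMap.polarBilin Q)).det := by
    rw [key]; exact ⟨fun h => h.2, fun h => ⟨he, h⟩⟩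
  rw [← key']
  constructor
  · rintro ⟨g, hg, hmat⟩
    have h3 : Cfsg.Agent.Lib.Quad.toLE (g : Matrix.GeneralLinearGroup (Fin n) F) =
        LinearEquiv.neg F := by
      rw [Cfsg.Agent.Lib.Quad.toLE_eq_iff]
      intro x
      rw [hmat, Matrix.neg_mulVec, Matrix.one_mulVec]; rfl
    rw [Cfsg.Agent.Lib.Quad.mem_Omega_iff, h3] at hg
    exact hg
  · intro h
    refine ⟨Cfsg.Agent.Lib.Quad.ofO (Cfsg.Agent.Lib.Quad.Om_le h),
      (Cfsg.Agent.Lib.Quad.ofO_mem_Omega _).2 h, ?_⟩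
    apply Cfsg.Agent.Lib.Quad.matrix_ext_of_mulVec
    intro v
    rw [Cfsg.Agent.Lib.Quad.ofO_mulVec, Matrix.neg_mulVec, Matrix.one_mulVec]; rfl

end Cfsg.Agent.S2610
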