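import Cfsg.Statements.S2611
import Cfsg.Agent.Lib.QuadLevi

set_option autoImplicit false
open Cfsg

namespace Cfsg.Agent.S2611

/-- For the hyperbolic quadratic form Σ x_i y_i on F^(2m) (F finite, m ≥ 1, excluding m = 2 over the field of two elements) and an invertible m × m matrix A, the block-diagonal isometry diag(A, (A⁻¹)ᵀ), which stabilises the two maximal totally singular subspaces x = 0 and y = 0, lies in Ω⁺_2m(F) (the commutator subgroup of the orthogonal group) if and only if det A is a square in F. -/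
theorem result {F : Type*} [Field F] [Fintype F] {m : ℕ} (hm : 1 ≤ m) (h : Fintype.card F ≠ 2 ∨ m ≠ 2) (A : GL (Fin m) F) : (∃ g : ↥(Cfsg.isometryGroup F (Cfsg.quadFormPlus m F)), g ∈ Cfsg.Omega F (Cfsg.quadFormPlus m F) ∧ ((g : Matrix.GeneralLinearGroup (Fin m ⊕ Fin m) F) : Matrix (Fin m ⊕ Fin m) (Fin m ⊕ Fin m) F) = Matrix.fromBlocks (A : Matrix (Fin m) (Fin m) F) 0 0 ((A : Matrix (Fin m) (Fin m) F)⁻¹).transpose) ↔ IsSquare (A : Matrix (Fin m) (Fin m) F).det := by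
  have hfr : Module.finrank F (Fin m ⊕ Fin m → F) = 2 * m := Cfsg.Agent.Lib.Quad.finrank_plus
  have hgen : Cfsg.Agent.Lib.Quad.GenHyp (Cfsg.Agent.Lib.Quad.quadPlus m F) :=
    Cfsg.Agent.Lib.Quad.genHyp_of_card (by
      rw [hfr]
      rcases h with h | h
      · exact Or.inl h
      · exact Or.inr (by omega))
  rw [← Cfsg.Agent.Lib.Quad.levi_mem_Om_iff hgen]
  constructor
  · rintro ⟨g, hg, hgA⟩
    have h1 := (Cfsg.Agent.Lib.Quad.mem_Omega_iff (Q := Cfsg.Agent.Lib.Quad.quadPlus m F) g).1 hg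
    have h2 : (g : Matrix.GeneralLinearGroup (Fin m ⊕ Fin m) F) =
        Cfsg.Agent.Lib.Quad.leviM A := by
      ext1
      rw [hgA, Cfsg.Agent.Lib.Quad.coe_leviM, Matrix.coe_units_inv]
    rwa [h2] at h1
  · intro h1
    refine ⟨⟨Cfsg.Agent.Lib.Quad.leviM A, Cfsg.Agent.Lib.Quad.mem_isometryGroup_iff_toLE.2
      (Cfsg.Agent.Lib.Quad.leviM_mem A)⟩, ?_, ?_⟩
    · exact (Cfsg.Agent.Lib.Quad.mem_Omega_iff (Q := Cfsg.Agent.Lib.Quad.quadPlus m F) _).2 h1
    · rw [← Matrix.coe_units_inv]; rfl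

end Cfsg.Agent.S2611
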