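import Cfsg.Statements.S2612
import Cfsg.Agent.Lib.QuadLevi

set_option autoImplicit false
open Cfsg

namespace Cfsg.Agent.S2612

/-- For the hyperbolic quadratic form Σ x_i y_i on F^(2m) (F finite, m ≥ 1, excluding m = 2 over the field of two elements), Ω⁺_2m(F) (the commutator subgroup of the orthogonal group) contains an element interchanging the two complementary maximal totally singular subspaces {y = 0} and {x = 0} if and only if m is even (dimension divisible by 4). -/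
theorem result {F : Type*} [Field F] [Fintype F] {m : ℕ} (hm : 1 ≤ m) (h : Fintype.card F ≠ 2 ∨ m ≠ 2) : (∃ g : ↥(Cfsg.isometryGroup F (Cfsg.quadFormPlus m F)), g ∈ Cfsg.Omega F (Cfsg.quadFormPlus m F) ∧ (∀ v : Fin m ⊕ Fin m → F, (∀ i, v (Sum.inr i) = 0) → ∀ i, (((g : Matrix.GeneralLinearGroup (Fin m ⊕ Fin m) F) : Matrix (Fin m ⊕ Fin m) (Fin m ⊕ Fin m) F).mulVec v) (Sum.inl i) = 0) ∧ (∀ v : Fin m ⊕ Fin m → F, (∀ i, v (Sum.inl i) = 0) → ∀ i, (((g : Matrix.GeneralLinearGroup (Fin m ⊕ Fin m) F) : Matrix (Fin m ⊕ Fin m) (Fin m ⊕ Fin m) F).mulVec v) (Sum.inr i) = 0)) ↔ Even m := by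
  have hfr : Module.finrank F (Fin m ⊕ Fin m → F) = 2 * m := Cfsg.Agent.Lib.Quad.finrank_plus
  have hNd : Cfsg.Agent.Lib.Quad.Nd (Cfsg.Agent.Lib.Quad.quadPlus m F) :=
    Cfsg.Agent.Lib.Quad.nd_quadPlus
  have hgen : Cfsg.Agent.Lib.Quad.GenHyp (Cfsg.Agent.Lib.Quad.quadPlus m F) :=
    Cfsg.Agent.Lib.Quad.genHyp_of_card (by
      rw [hfr]
      rcases h with h | h
      · exact Or.inl h
      · exact Or.inr (by omega))
  have hR := hNd.R_eq_O hgen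
  set L : List (Fin m ⊕ Fin m → F) :=
    Cfsg.Agent.Lib.Quad.swapList (F := F) (List.finRange m) with hL
  set w := (L.map (Cfsg.Agent.Lib.Quad.refl (Cfsg.Agent.Lib.Quad.quadPlus m F))).prod with hw
  have hwv : ∀ v, w v = v ∘ Sum.swap := Cfsg.Agent.Lib.Quad.swap_apply
  have hwO : w ∈ Cfsg.Agent.Lib.Quad.O (Cfsg.Agent.Lib.Quad.quadPlus m F) :=
    Cfsg.Agent.Lib.Quad.R_le (Cfsg.Agent.Lib.Quad.list_prod_mem_R L)
  have hLns : ∀ v ∈ L, Cfsg.Agent.Lib.Quad.quadPlus m F v ≠ 0 :=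
    Cfsg.Agent.Lib.Quad.swapList_nonsing _
  have hLlen : L.length = m := by
    rw [hL, Cfsg.Agent.Lib.Quad.swapList_length, List.length_finRange]
  have hLpr : (L.map (Cfsg.Agent.Lib.Quad.quadPlus m F)).prod = (-1) ^ m := by
    rw [hL, Cfsg.Agent.Lib.Quad.swapList_prod, List.length_finRange]
  constructor
  · rintro ⟨g, hg, hg1, hg2⟩
    have h1 := (Cfsg.Agent.Lib.Quad.mem_Omega_iff (Q := Cfsg.Agent.Lib.Quad.quadPlus m F) g).1 hg
    set G := Cfsg.Agent.Lib.Quad.toLE (g : Matrix.GeneralLinearGroup (Fin m ⊕ Fin m) F) with hG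
    have hGO := Cfsg.Agent.Lib.Quad.Om_le h1
    obtain ⟨A, hA⟩ := Cfsg.Agent.Lib.Quad.exists_levi (g := w * G) (mul_mem hwO hGO)
      (fun v hv i => by
        show w (G v) (Sum.inr i) = 0
        rw [hwv]
        exact hg1 v hv i)
      (fun v hv i => by
        show w (G v) (Sum.inl i) = 0
        rw [hwv]
        exact hg2 v hv i)
    -- parity
    have h3 : (⟨w, hwO⟩ : ↥(Cfsg.Agent.Lib.Quad.O (Cfsg.Agent.Lib.Quad.quadPlus m F))) *
        ⟨G, hGO⟩ = Cfsg.Agent.Lib.Quad.levi A := Subtype.ext hA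
    have h4 := congrArg (Cfsg.Agent.Lib.Quad.parHom hNd hR) h3
    rw [map_mul, Cfsg.Agent.Lib.Quad.levi_par hR hgen,
      ((Cfsg.Agent.Lib.Quad.mem_Om_iff_homs hNd hgen ⟨G, hGO⟩).1 h1).1, mul_one] at h4
    have h5 := Cfsg.Agent.Lib.Quad.sgn_eq_one_iff.1 h4
    rw [show ((⟨w, hwO⟩ : ↥(Cfsg.Agent.Lib.Quad.O (Cfsg.Agent.Lib.Quad.quadPlus m F))) :
      (Fin m ⊕ Fin m → F) ≃ₗ[F] (Fin m ⊕ Fin m → F)) = w from rfl, hw,
      hNd.even_mov_list L hLns, hLlen] at h5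
    exact h5
  · intro hm2
    have h1 : w ∈ Cfsg.Agent.Lib.Quad.Om (Cfsg.Agent.Lib.Quad.quadPlus m F) := by
      rw [hw, hNd.list_mem_Om_iff hgen L hLns, hLlen, hLpr, hm2.neg_one_pow]
      exact ⟨hm2, IsSquare.one⟩
    refine ⟨Cfsg.Agent.Lib.Quad.ofO hwO, (Cfsg.Agent.Lib.Quad.ofO_mem_Omega hwO).2 h1, ?_, ?_⟩
    · intro v hv i
      rw [Cfsg.Agent.Lib.Quad.ofO_mulVec hwO, hwv]
      exact hv i
    · intro v hv i
      rw [Cfsg.Agent.Lib.Quad.ofO_mulVec hwO, hwv]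
      exact hv i

end Cfsg.Agent.S2612
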