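import Cfsg.Statements.S2618
import Cfsg.Agent.Lib.QuadStd

set_option autoImplicit false
open Cfsg

namespace Cfsg.Agent.S2618

/-- Standard (parabolic) basis of a non-degenerate quadratic space of odd dimension 2m + 1 over a finite field (the non-degeneracy of the polar form forces the characteristic to be odd): there is a basis e_i, f_i (i < m), x with Q(e_i) = Q(f_i) = 0, B(e_i, f_j) = δ_ij (B the polar form), the e's pairwise orthogonal and the f's pairwise orthogonal, x orthogonal to all of them and Q(x) ≠ 0. -/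
theorem result {F V : Type*} [Field F] [Finite F] [AddCommGroup V] [Module F V] [FiniteDimensional F V] {m : ℕ} (hV : Module.finrank F V = 2 * m + 1) (Q : QuadraticForm F V) (hQ : (QuadraticMap.polarBilin Q).Nondegenerate) : ∃ b : Module.Basis (Unit ⊕ (Fin m ⊕ Fin m)) F V, Q (b (Sum.inl ())) ≠ 0 ∧ (∀ i, QuadraticMap.polar ⇑Q (b (Sum.inl ())) (b (Sum.inr (Sum.inl i))) = 0 ∧ QuadraticMap.polar ⇑Q (b (Sum.inl ())) (b (Sum.inr (Sum.inr i))) = 0) ∧ (∀ i, Q (b (Sum.inr (Sum.inl i))) = 0 ∧ Q (b (Sum.inr (Sum.inr i))) = 0) ∧ (∀ i j, QuadraticMap.polar ⇑Q (b (Sum.inr (Sum.inl i))) (b (Sum.inr (Sum.inr j))) = if i = j then 1 else 0) ∧ (∀ i j, QuadraticMap.polar ⇑Q (b (Sum.inr (Sum.inl i))) (b (Sum.inr (Sum.inl j))) = 0 ∧ QuadraticMap.polar ⇑Q (b (Sum.inr (Sum.inr i))) (b (Sum.inr (Sum.inr j))) = 0) := by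
  obtain ⟨k, h, hmax⟩ := Cfsg.Agent.Lib.Quad.HF.exists_anisotropic hQ
  have h1 := h.finrank_perp_sp hQ
  have h3 := h.finrank_le_two hQ hmax
  obtain rfl : k = m := by omega
  have h4 : Module.finrank F (Cfsg.Agent.Lib.Quad.perp Q h.sp) = 1 := by omega
  obtain ⟨w, hw0⟩ := Module.finrank_pos_iff_exists_ne_zero.1
    (by omega : 0 < Module.finrank F (Cfsg.Agent.Lib.Quad.perp Q h.sp))
  have ho : h.Orth (w : V) := h.mem_perp_sp.1 w.2
  have hw0' : (w : V) ≠ 0 := fun h0 => hw0 (Subtype.ext h0)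
  have hli := h.li (fun _ : Unit => (w : V)) (LinearIndependent.of_subsingleton () hw0')
    (fun _ => ho)
  have hc : Fintype.card ((Fin k ⊕ Fin k) ⊕ Unit) = Module.finrank F V := by
    rw [hV, Fintype.card_sum, Fintype.card_sum, Fintype.card_fin, Fintype.card_unit]; omega
  refine ⟨(basisOfLinearIndependentOfCardEqFinrank hli hc).reindex (Equiv.sumComm _ _), ?_⟩
  simp only [Module.Basis.reindex_apply, coe_basisOfLinearIndependentOfCardEqFinrank,
    Equiv.sumComm_symm, Equiv.sumComm_apply, Sum.swap_inl, Sum.swap_inr, Sum.elim_inl,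
    Sum.elim_inr]
  refine ⟨fun h0 => hw0' (hmax _ ho h0), fun i => ⟨?_, ?_⟩, fun i => ⟨h.qe i, h.qf i⟩, h.ef,
    fun i j => ⟨h.ee i j, h.ff i j⟩⟩
  · rw [QuadraticMap.polar_comm]; exact ho.1 i
  · rw [QuadraticMap.polar_comm]; exact ho.2 i

end Cfsg.Agent.S2618
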