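import Cfsg.Statements.S2619
import Cfsg.Agent.Lib.QuadStd

set_option autoImplicit false
open Cfsg

namespace Cfsg.Agent.S2619

/-- Over a finite field of characteristic two, given an alternating bilinear form B on a finite-dimensional space, a basis (v_i) and scalars (λ_i), there is exactly one quadratic form whose polar form is B and whose value at each v_i is λ_i. -/
theorem result {F V ι : Type*} [Field F] [Finite F] [CharP F 2] [AddCommGroup V] [Module F V] [Fintype ι] (b : Module.Basis ι F V) (B : LinearMap.BilinForm F V) (hB : B.IsAlt) (c : ι → F) : ∃! Q : QuadraticForm F V, QuadraticMap.polarBilin Q = B ∧ ∀ i, Q (b i) = c i := by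
  classical
  letI : LinearOrder ι := LinearOrder.lift' (Fintype.equivFin ι) (Equiv.injective _)
  have h2 : (2 : F) = 0 := CharTwo.two_eq_zero
  let M : Matrix ι ι F := fun i j => if i < j then B (b i) (b j) else if i = j then c i else 0
  let A : LinearMap.BilinForm F V := Matrix.toBilin b M
  have hA : ∀ i j, A (b i) (b j) = M i j := fun i j => by
    rw [← LinearMap.BilinForm.toMatrix_apply b A i j]
    exact congrFun (congrFun (LinearMap.BilinForm.toMatrix_toBilin b M) i) j
  refine ⟨A.toQuadraticMap, ⟨?_, ?_⟩, ?_⟩
  · refine b.ext fun i => b.ext fun j => ?_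
    rw [QuadraticMap.polarBilin_apply_apply, LinearMap.BilinMap.polar_toQuadraticMap, hA, hA]
    rcases lt_trichotomy i j with h | h | h
    · simp only [M, if_pos h, if_neg (not_lt_of_gt h), if_neg (ne_of_gt h), add_zero]
    · subst h
      simp only [M, lt_irrefl, if_false, if_true]
      rw [hB (b i)]
      linear_combination (c i) * h2
    · simp only [M, if_pos h, if_neg (not_lt_of_gt h), if_neg (ne_of_gt h), zero_add]
      rw [← LinearMap.IsAlt.neg hB (b j) (b i)]
      linear_combination (B (b j) (b i)) * h2
  · intro i
    rw [LinearMap.BilinMap.toQuadraticMap_apply, hA]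
    simp only [M, lt_irrefl, if_false, if_true]
  · rintro Q ⟨hQ1, hQ2⟩
    refine Cfsg.Agent.Lib.Quad.ext_basis b ?_ ?_
    · intro i
      rw [hQ2, LinearMap.BilinMap.toQuadraticMap_apply, hA]
      simp only [M, lt_irrefl, if_false, if_true]
    · intro i j hij
      have h1 : QuadraticMap.polar Q (b i) (b j) = B (b i) (b j) := by
        rw [← hQ1]; rfl
      rw [h1, LinearMap.BilinMap.polar_toQuadraticMap, hA, hA]
      rcases lt_trichotomy i j with h | h | h
      · simp only [M, if_pos h, if_neg (not_lt_of_gt h), if_neg (ne_of_gt h), add_zero]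
      · exact absurd h hij
      · simp only [M, if_pos h, if_neg (not_lt_of_gt h), if_neg (ne_of_gt h), zero_add]
        rw [← LinearMap.IsAlt.neg hB (b j) (b i)]
        linear_combination -(B (b j) (b i)) * h2

end Cfsg.Agent.S2619
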