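import Cfsg.Statements.S2620
import Cfsg.Agent.Lib.QuadGram

set_option autoImplicit false
open Cfsg

namespace Cfsg.Agent.S2620

/-- Discriminant of the hyperbolic quadratic form Σ_(i<m) x_i y_i over a field with q elements, q odd, m ≥ 1: the determinant of the Gram matrix of its polar form in any basis is a square if and only if m(q − 1)/2 is even (equivalently q^m ≡ 1 (mod 4)). -/
theorem result {F : Type*} [Field F] [Fintype F] {q : ℕ} (hF : Fintype.card F = q) (hq : Odd q) {m : ℕ} (hm : 1 ≤ m) {ι : Type*} [Fintype ι] [DecidableEq ι] (b : Module.Basis ι F (Fin m ⊕ Fin m → F)) : IsSquare (Matrix.of (fun i j : ι => QuadraticMap.polar (Cfsg.quadFormPlus m F) (b i) (b j))).det ↔ Even (m * (q - 1) / 2) := by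
  have h1 : (Matrix.of (fun i j : ι => QuadraticMap.polar (Cfsg.quadFormPlus m F) (b i) (b j))) =
      LinearMap.BilinForm.toMatrix b
        (QuadraticMap.polarBilin (Cfsg.Agent.Lib.Quad.quadPlus m F)) :=
    Cfsg.Agent.Lib.Quad.gram_any (Q := Cfsg.Agent.Lib.Quad.quadPlus m F) b
  rw [h1, Cfsg.Agent.Lib.Quad.isSquare_gram_iff Cfsg.Agent.Lib.Quad.nd_quadPlus b
    (Pi.basisFun F (Fin m ⊕ Fin m)), Cfsg.Agent.Lib.Quad.det_gram_plus,
    Cfsg.Agent.Lib.Quad.isSquare_neg_one_pow_iff hF hq, Cfsg.Agent.Lib.Quad.even_iff_pow_mod hq]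

end Cfsg.Agent.S2620
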