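import Cfsg.Statements.S2621
import Cfsg.Agent.Lib.QuadGram

set_option autoImplicit false
open Cfsg

namespace Cfsg.Agent.S2621

/-- Discriminant of an elliptic quadratic form Σ_(i<m−1) x_i y_i + z₁² + a z₁z₂ + c z₂² (binary part anisotropic) in dimension 2m over a field with q elements, q odd, m ≥ 1: the determinant of the Gram matrix of its polar form in any basis is a square if and only if m(q − 1)/2 is odd (equivalently q^m ≡ 3 (mod 4)). -/
theorem result {F : Type*} [Field F] [Fintype F] {q : ℕ} (hF : Fintype.card F = q) (hq : Odd q) {m : ℕ} (hm : 1 ≤ m) (a c : F) (hac : ∀ z₁ z₂ : F, z₁ ^ 2 + a * z₁ * z₂ + c * z₂ ^ 2 = 0 → z₁ = 0 ∧ z₂ = 0) {ι : Type*} [Fintype ι] [DecidableEq ι] (b : Module.Basis ι F ((Fin (m - 1) ⊕ Fin (m - 1)) ⊕ Fin 2 → F)) : IsSquare (Matrix.of (fun i j : ι => QuadraticMap.polar (Cfsg.quadFormMinus (m - 1) F a c) (b i) (b j))).det ↔ ¬ Even (m * (q - 1) / 2) := by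
  obtain ⟨n, rfl⟩ : ∃ n, m = n + 1 := ⟨m - 1, by omega⟩
  have h2 := Cfsg.Agent.Lib.Quad.two_ne_zero_of_odd hF hq
  have hns := Cfsg.Agent.Lib.Quad.not_isSquare_disc h2 hac
  have h1 : (Matrix.of (fun i j : ι => QuadraticMap.polar (Cfsg.quadFormMinus (n + 1 - 1) F a c)
      (b i) (b j))) = LinearMap.BilinForm.toMatrix b
        (QuadraticMap.polarBilin (Cfsg.Agent.Lib.Quad.quadMinus (n + 1 - 1) F a c)) :=
    Cfsg.Agent.Lib.Quad.gram_any (Q := Cfsg.Agent.Lib.Quad.quadMinus (n + 1 - 1) F a c) b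
  rw [h1, Cfsg.Agent.Lib.Quad.isSquare_gram_iff (Cfsg.Agent.Lib.Quad.nd_quadMinus
    (Cfsg.Agent.Lib.Quad.disc_ne_zero_of_anisotropic hac)) b
    (Pi.basisFun F ((Fin (n + 1 - 1) ⊕ Fin (n + 1 - 1)) ⊕ Fin 2)),
    Cfsg.Agent.Lib.Quad.det_gram_minus, Cfsg.Agent.Lib.Quad.even_iff_pow_mod hq,
    ← Cfsg.Agent.Lib.Quad.isSquare_neg_one_pow_iff hF hq]
  have e : n + 1 - 1 + 1 = n + 1 := rfl
  rw [e]
  have hne : (-1 : F) ^ (n + 1) ≠ 0 := pow_ne_zero _ (neg_ne_zero.2 one_ne_zero)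
  constructor
  · intro h h'
    exact hns (Cfsg.Agent.Lib.Quad.isSquare_of_mul_left hne h' h)
  · intro h
    exact Cfsg.Agent.Lib.Quad.isSquare_mul_of_not_isSquare h hns

end Cfsg.Agent.S2621
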