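import Cfsg.Statements.S2622
import Cfsg.Agent.Lib.QuadStd

set_option autoImplicit false
open Cfsg

namespace Cfsg.Agent.S2622

/-- Over a finite field of characteristic two, a non-degenerate symmetric bilinear form that is not alternating (some vector v has B(v, v) ≠ 0) admits an orthonormal basis. -/
theorem result {F V : Type*} [Field F] [Finite F] [CharP F 2] [AddCommGroup V] [Module F V] [FiniteDimensional F V] {n : ℕ} (hV : Module.finrank F V = n) (B : LinearMap.BilinForm F V) (hS : B.IsSymm) (hB : B.Nondegenerate) (hna : ∃ v : V, B v v ≠ 0) : ∃ b : Module.Basis (Fin n) F V, ∀ i j, B (b i) (b j) = if i = j then 1 else 0 := by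
  have hne : ∀ x : V, (∀ y, B x y = 0) → x = 0 := fun x hx => hB.1 x hx
  have hsy : ∀ x y, B x y = B y x := fun x y => hS.eq x y
  have h2 : (2 : F) = 0 := CharTwo.two_eq_zero
  have hsc : ∀ v : V, B v v ≠ 0 → ∃ t : F, t ≠ 0 ∧ B (t • v) (t • v) = 1 := by
    intro v hv
    obtain ⟨α, hα⟩ := Cfsg.Agent.Lib.Quad.isSquare_of_charTwo (B v v)
    have h0 : α ≠ 0 := by
      rintro rfl
      exact hv (by rw [hα, mul_zero])
    refine ⟨α⁻¹, inv_ne_zero h0, ?_⟩
    rw [map_smul, map_smul, LinearMap.smul_apply, hα, smul_eq_mul, smul_eq_mul]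
    field_simp
  have key : ∀ k : ℕ, k ≤ n → ∃ e : Fin k → V, (∀ i j, B (e i) (e j) = if i = j then 1 else 0) ∧
      (k < n → ∃ v, (∀ i, B (e i) v = 0) ∧ B v v ≠ 0) := by
    intro k
    induction k with
    | zero =>
      intro _
      exact ⟨Fin.elim0, fun i => i.elim0, fun _ => by
        obtain ⟨v, hv⟩ := hna
        exact ⟨v, fun i => i.elim0, hv⟩⟩
    | succ k ih =>
      intro hk
      obtain ⟨e, he, hv⟩ := ih (by omega)
      obtain ⟨v0, hv0, hv1⟩ := hv (by omega)
      obtain ⟨t, ht, hv2⟩ := hsc v0 hv1
      obtain ⟨v, hev, hv2⟩ : ∃ v : V, (∀ i, B (e i) v = 0) ∧ B v v = 1 :=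
        ⟨t • v0, fun i => by rw [map_smul, hv0, smul_zero], hv2⟩
      have happ : ∀ w : V, (∀ i, B (e i) w = 0) → B w w = 1 →
          ∀ i j, B ((Fin.cons w e : Fin (k + 1) → V) i) ((Fin.cons w e : Fin (k + 1) → V) j) =
            if i = j then 1 else 0 := by
        intro w hw1 hw2 i j
        refine Fin.cases ?_ (fun i => ?_) i <;> refine Fin.cases ?_ (fun j => ?_) j
        · simp [hw2]
        · simp only [Fin.cons_zero, Fin.cons_succ]
          rw [hsy, hw1, if_neg (Fin.succ_ne_zero j).symm]
        · simp only [Fin.cons_zero, Fin.cons_succ]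
          rw [hw1, if_neg (Fin.succ_ne_zero i)]
        · simp [he]
      by_cases hA : ∃ x, (∀ i, B (e i) x = 0) ∧ B v x = 0 ∧ B x x ≠ 0
      · obtain ⟨x, hx1, hx2, hx3⟩ := hA
        refine ⟨Fin.cons v e, happ v hev hv2, fun _ => ⟨x, ?_, hx3⟩⟩
        intro i
        refine Fin.cases ?_ (fun i => ?_) i
        · exact hx2
        · exact hx1 i
      · push Not at hA
        by_cases hkn : k + 1 = n
        · exact ⟨Fin.cons v e, happ v hev hv2, fun h => absurd hkn h.ne⟩
        -- find u
        let T : V →ₗ[F] (Fin (k + 1) → F) := LinearMap.pi fun i =>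
          B ((Fin.cons v e : Fin (k + 1) → V) i)
        have hker : LinearMap.ker T ≠ ⊥ := LinearMap.ker_ne_bot_of_finrank_lt (by
          rw [hV]; simp; omega)
        obtain ⟨u, hu1, hu0⟩ := Submodule.exists_mem_ne_zero_of_ne_bot hker
        have hu2 : ∀ i, B ((Fin.cons v e : Fin (k + 1) → V) i) u = 0 := fun i =>
          congrFun (LinearMap.mem_ker.1 hu1) i
        have huv : B v u = 0 := hu2 0
        have hue : ∀ i, B (e i) u = 0 := fun i => hu2 i.succ
        obtain ⟨w1, hw1⟩ : ∃ w, B u w ≠ 0 := by
          by_contra hcon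
          push Not at hcon
          exact hu0 (hne u hcon)
        obtain ⟨w0, hw0⟩ : ∃ w0, B u w0 = 1 :=
          ⟨(B u w1)⁻¹ • w1, by rw [map_smul, smul_eq_mul, inv_mul_cancel₀ hw1]⟩
        obtain ⟨w, hwdef⟩ : ∃ w, w = w0 - ∑ i, B (e i) w0 • e i - B v w0 • v := ⟨_, rfl⟩
        have hwe : ∀ i, B (e i) w = 0 := by
          intro i
          rw [hwdef, map_sub, map_sub, map_sum, map_smul, hev, smul_zero, sub_zero,
            Finset.sum_eq_single i]
          · rw [map_smul, he, if_pos rfl, smul_eq_mul, mul_one, sub_self]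
          · intro j _ hj
            rw [map_smul, he, if_neg (Ne.symm hj), smul_zero]
          · intro h; exact absurd (Finset.mem_univ i) h
        have hwv : B v w = 0 := by
          rw [hwdef, map_sub, map_sub, map_sum, map_smul, hv2, smul_eq_mul, mul_one,
            Finset.sum_eq_zero, sub_zero, sub_self]
          intro i _
          rw [map_smul, hsy v, hev, smul_zero]
        have huw : B u w = 1 := by
          rw [hwdef, map_sub, map_sub, map_sum, map_smul, hw0, hsy u v, huv, smul_zero, sub_zero,
            Finset.sum_eq_zero, sub_zero]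
          intro i _
          rw [map_smul, hsy u, hue, smul_zero]
        have huu : B u u = 0 := hA u hue huv
        have hww : B w w = 0 := hA w hwe hwv
        refine ⟨Fin.cons (v + u) e, happ (v + u) ?_ ?_, fun _ => ⟨v + w, ?_, ?_⟩⟩
        · intro i; rw [map_add, hev, hue, add_zero]
        · simp only [map_add, LinearMap.add_apply, hv2, huv, hsy u v, huu]
          simp
        · intro i
          refine Fin.cases ?_ (fun i => ?_) i
          · simp only [Fin.cons_zero]
            simp only [map_add, LinearMap.add_apply, hv2, hwv, hsy u v, huv, huw]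
            linear_combination h2
          · simp only [Fin.cons_succ]
            rw [map_add, hev, hwe, add_zero]
        · simp only [map_add, LinearMap.add_apply, hv2, hwv, hsy w v, hww]
          simp
  obtain ⟨e, he, _⟩ := key n le_rfl
  have hli : LinearIndependent F e := by
    rw [linearIndependent_iff']
    intro s g hg i hi
    have h1 := congrArg (B (e i)) hg
    rw [map_sum, map_zero, Finset.sum_eq_single i, map_smul, he, if_pos rfl, smul_eq_mul,
      mul_one] at h1
    · exact h1
    · intro j _ hj
      rw [map_smul, he, if_neg (Ne.symm hj), smul_zero]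
    · intro h; exact absurd hi h
  have hspan : ⊤ ≤ Submodule.span F (Set.range e) := by
    rw [top_le_iff]
    apply Submodule.eq_top_of_finrank_eq
    rw [finrank_span_eq_card hli, Fintype.card_fin, hV]
  refine ⟨Module.Basis.mk hli hspan, ?_⟩
  rw [Module.Basis.coe_mk]
  exact he

end Cfsg.Agent.S2622
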