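import Cfsg.Statements.S2623
import Cfsg.Agent.Lib.QuadStd

set_option autoImplicit false
open Cfsg

namespace Cfsg.Agent.S2623

/-- Over a finite field of odd order, two quadratic forms on F^n with non-degenerate polar forms are isometric (related by an invertible linear change of variables) if and only if their discriminants (determinants of the Gram matrices of their polar forms) lie in the same square class. -/
theorem result {F : Type*} [Field F] [Fintype F] (h2 : (2 : F) ≠ 0) {n : ℕ} (Q₁ Q₂ : QuadraticForm F (Fin n → F)) (h₁ : (QuadraticMap.polarBilin Q₁).Nondegenerate) (h₂ : (QuadraticMap.polarBilin Q₂).Nondegenerate) : (∃ g : (Fin n → F) ≃ₗ[F] (Fin n → F), ∀ v, Q₂ (g v) = Q₁ v) ↔ IsSquare ((Matrix.of (fun i j : Fin n => QuadraticMap.polar ⇑Q₁ (Pi.single i 1) (Pi.single j 1))).det * (Matrix.of (fun i j : Fin n => QuadraticMap.polar ⇑Q₂ (Pi.single i 1) (Pi.single j 1))).det) := by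
  rw [Cfsg.Agent.Lib.Quad.gram_std, Cfsg.Agent.Lib.Quad.gram_std]
  constructor
  · rintro ⟨g, hg⟩
    have h3 : LinearMap.BilinForm.toMatrix (Pi.basisFun F (Fin n)) (QuadraticMap.polarBilin Q₁) =
        LinearMap.BilinForm.toMatrix ((Pi.basisFun F (Fin n)).map g)
          (QuadraticMap.polarBilin Q₂) := by
      ext i j
      rw [LinearMap.BilinForm.toMatrix_apply, LinearMap.BilinForm.toMatrix_apply,
        Module.Basis.map_apply, Module.Basis.map_apply]
      exact (Cfsg.Agent.Lib.Quad.polar_map g.toLinearMap hg _ _).symm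
    rw [h3]
    exact Cfsg.Agent.Lib.Quad.isSquare_det_mul_det _ _ _
  · intro hd
    exact Cfsg.Agent.Lib.Quad.exists_isometry_of_disc h2 h₁ h₂ rfl _ _ hd

end Cfsg.Agent.S2623
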