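import Cfsg.Statements.S2624
import Cfsg.Agent.Lib.QuadStd

set_option autoImplicit false
open Cfsg

namespace Cfsg.Agent.S2624

/-- For a quadratic form Q on F^n with non-degenerate polar form, F finite and n ≥ 2 even, every non-zero scalar c is the multiplier of some similarity: there is an invertible linear map g with Q(g v) = c·Q(v) for all v. -/
theorem result {F : Type*} [Field F] [Fintype F] {n : ℕ} (hn : 2 ≤ n) (he : Even n) (Q : QuadraticForm F (Fin n → F)) (hQ : (QuadraticMap.polarBilin Q).Nondegenerate) (c : F) (hc : c ≠ 0) : ∃ g : (Fin n → F) ≃ₗ[F] (Fin n → F), ∀ v, Q (g v) = c * Q v := by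
  by_cases h2 : (2 : F) = 0
  · haveI : CharP F 2 := CharTwo.of_one_ne_zero_of_two_eq_zero one_ne_zero h2
    obtain ⟨t, ht⟩ := Cfsg.Agent.Lib.Quad.isSquare_of_charTwo c
    have ht0 : t ≠ 0 := by
      rintro rfl
      exact hc (by rw [ht, mul_zero])
    refine ⟨LinearEquiv.smulOfNeZero F (Fin n → F) t ht0, fun v => ?_⟩
    rw [LinearEquiv.smulOfNeZero_apply, Cfsg.Agent.Lib.Quad.Q_smul, ht]
  · have hcQ : Cfsg.Agent.Lib.Quad.Nd (c • Q) := by
      refine Cfsg.Agent.Lib.Quad.nd_of fun x hx => ?_
      refine Cfsg.Agent.Lib.Quad.Nd.eq_zero hQ fun y => ?_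
      have h1 := hx y
      have h3 : QuadraticMap.polar (⇑(c • Q)) x y = c * QuadraticMap.polar Q x y := by
        simp only [QuadraticMap.polar, QuadraticMap.smul_apply, smul_eq_mul]; ring
      rw [h3] at h1
      exact (mul_eq_zero.1 h1).resolve_left hc
    obtain ⟨g, hg⟩ := Cfsg.Agent.Lib.Quad.exists_isometry_of_disc h2 hcQ hQ rfl
      (Pi.basisFun F (Fin n)) (Pi.basisFun F (Fin n)) (by
        have h3 : LinearMap.BilinForm.toMatrix (Pi.basisFun F (Fin n))
            (QuadraticMap.polarBilin (c • Q)) = c • LinearMap.BilinForm.toMatrix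
            (Pi.basisFun F (Fin n)) (QuadraticMap.polarBilin Q) := by
          ext i j
          rw [Matrix.smul_apply, LinearMap.BilinForm.toMatrix_apply,
            LinearMap.BilinForm.toMatrix_apply, QuadraticMap.polarBilin_apply_apply,
            QuadraticMap.polarBilin_apply_apply]
          simp only [QuadraticMap.polar, QuadraticMap.smul_apply, smul_eq_mul]; ring
        rw [h3, Matrix.det_smul, Fintype.card_fin]
        obtain ⟨k, hk⟩ := he
        refine ⟨c ^ k * (LinearMap.BilinForm.toMatrix (Pi.basisFun F (Fin n))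
          (QuadraticMap.polarBilin Q)).det, ?_⟩
        have : c ^ n = c ^ k * c ^ k := by rw [hk, pow_add]
        rw [this]; ring)
    exact ⟨g, fun v => by rw [hg, QuadraticMap.smul_apply, smul_eq_mul]⟩

end Cfsg.Agent.S2624
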