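import Cfsg.Statements.S2625
import Cfsg.Agent.Lib.QuadStd

set_option autoImplicit false
open Cfsg

namespace Cfsg.Agent.S2625

/-- For a quadratic form Q on F^n with non-degenerate polar form, F finite and n odd (so |F| is odd), the multiplier of any similarity is a square: if g is an invertible linear map with Q(g v) = c·Q(v) for all v then c is a square. -/
theorem result {F : Type*} [Field F] [Fintype F] {n : ℕ} (hn : Odd n) (Q : QuadraticForm F (Fin n → F)) (hQ : (QuadraticMap.polarBilin Q).Nondegenerate) (g : (Fin n → F) ≃ₗ[F] (Fin n → F)) (c : F) (hg : ∀ v, Q (g v) = c * Q v) : IsSquare c := by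
  by_cases hc : c = 0
  · rw [hc]; exact IsSquare.zero
  have h3 : c • LinearMap.BilinForm.toMatrix (Pi.basisFun F (Fin n)) (QuadraticMap.polarBilin Q) =
      LinearMap.BilinForm.toMatrix ((Pi.basisFun F (Fin n)).map g)
        (QuadraticMap.polarBilin Q) := by
    ext i j
    rw [Matrix.smul_apply, LinearMap.BilinForm.toMatrix_apply, LinearMap.BilinForm.toMatrix_apply,
      Module.Basis.map_apply, Module.Basis.map_apply, QuadraticMap.polarBilin_apply_apply,
      QuadraticMap.polarBilin_apply_apply]
    simp only [QuadraticMap.polar, ← map_add, hg, smul_eq_mul]; ring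
  have h4 := Cfsg.Agent.Lib.Quad.isSquare_det_mul_det (Pi.basisFun F (Fin n))
    ((Pi.basisFun F (Fin n)).map g) (QuadraticMap.polarBilin Q)
  rw [← h3, Matrix.det_smul, Fintype.card_fin] at h4
  set d := (LinearMap.BilinForm.toMatrix (Pi.basisFun F (Fin n)) (QuadraticMap.polarBilin Q)).det
    with hd
  have hd0 : d ≠ 0 := Cfsg.Agent.Lib.Quad.Nd.gram_ne_zero hQ _
  have h5 : IsSquare (c ^ n) := by
    rw [← Cfsg.Agent.Lib.Quad.isSquare_mul_sq_iff hd0]
    convert h4 using 1
    ring
  obtain ⟨k, hk⟩ := hn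
  rw [← Cfsg.Agent.Lib.Quad.isSquare_mul_sq_iff (pow_ne_zero k hc)]
  convert h5 using 1
  rw [hk]; ring

end Cfsg.Agent.S2625
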