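import Cfsg.Statements.S2626
import Cfsg.Agent.Lib.QuadSum

set_option autoImplicit false
open Cfsg

namespace Cfsg.Agent.S2626

/-- Ω of an orthogonal direct sum contains the product of the Ω's: for quadratic forms Q₁ on F^k and Q₂ on F^l with non-degenerate polar forms (F finite) and Q = Q₁ ⊕ Q₂ on F^(k+l), if g₁ lies in Ω(Q₁) and g₂ in Ω(Q₂) (commutator subgroups of the orthogonal groups) then the block-diagonal isometry diag(g₁, g₂) lies in Ω(Q). -/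
theorem result {F : Type*} [Field F] [Fintype F] {k l : ℕ} (Q₁ : QuadraticForm F (Fin k → F)) (Q₂ : QuadraticForm F (Fin l → F)) (h₁ : (QuadraticMap.polarBilin Q₁).Nondegenerate) (h₂ : (QuadraticMap.polarBilin Q₂).Nondegenerate) (g₁ : ↥(Cfsg.isometryGroup F ⇑Q₁)) (g₂ : ↥(Cfsg.isometryGroup F ⇑Q₂)) (hg₁ : g₁ ∈ Cfsg.Omega F ⇑Q₁) (hg₂ : g₂ ∈ Cfsg.Omega F ⇑Q₂) : ∃ g : ↥(Cfsg.isometryGroup F (fun v : Fin k ⊕ Fin l → F => Q₁ (v ∘ Sum.inl) + Q₂ (v ∘ Sum.inr))), g ∈ Cfsg.Omega F (fun v : Fin k ⊕ Fin l → F => Q₁ (v ∘ Sum.inl) + Q₂ (v ∘ Sum.inr)) ∧ ((g : Matrix.GeneralLinearGroup (Fin k ⊕ Fin l) F) : Matrix (Fin k ⊕ Fin l) (Fin k ⊕ Fin l) F) = Matrix.fromBlocks ((g₁ : Matrix.GeneralLinearGroup (Fin k) F) : Matrix (Fin k) (Fin k) F) 0 0 ((g₂ : Matrix.GeneralLinearGroup (Fin l) F) : Matrix (Fin l) (Fin l) F) := by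
  have e₁ : Cfsg.Agent.Lib.Quad.toLE (g₁ : Matrix.GeneralLinearGroup (Fin k) F) ∈
      Cfsg.Agent.Lib.Quad.Om Q₁ := (Cfsg.Agent.Lib.Quad.mem_Omega_iff g₁).1 hg₁
  have e₂ : Cfsg.Agent.Lib.Quad.toLE (g₂ : Matrix.GeneralLinearGroup (Fin l) F) ∈
      Cfsg.Agent.Lib.Quad.Om Q₂ := (Cfsg.Agent.Lib.Quad.mem_Omega_iff g₂).1 hg₂
  have e : Cfsg.Agent.Lib.Quad.diagLE
      (Cfsg.Agent.Lib.Quad.toLE (g₁ : Matrix.GeneralLinearGroup (Fin k) F))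
      (Cfsg.Agent.Lib.Quad.toLE (g₂ : Matrix.GeneralLinearGroup (Fin l) F)) ∈
      Cfsg.Agent.Lib.Quad.Om (Cfsg.Agent.Lib.Quad.sumForm Q₁ Q₂) := by
    rw [← Cfsg.Agent.Lib.Quad.diagL_mul_diagR]
    exact mul_mem (Cfsg.Agent.Lib.Quad.diagL_mem_Om e₁) (Cfsg.Agent.Lib.Quad.diagR_mem_Om e₂)
  have eO := Cfsg.Agent.Lib.Quad.Om_le e
  refine ⟨Cfsg.Agent.Lib.Quad.ofO (Q := Cfsg.Agent.Lib.Quad.sumForm Q₁ Q₂) eO,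
    (Cfsg.Agent.Lib.Quad.ofO_mem_Omega eO).2 e, ?_⟩
  rw [← Cfsg.Agent.Lib.Quad.toLE_eq_diagLE_iff]
  exact Cfsg.Agent.Lib.Quad.toLE_ofO (Q := Cfsg.Agent.Lib.Quad.sumForm Q₁ Q₂) eO

end Cfsg.Agent.S2626
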