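import Cfsg.Statements.S2627
import Cfsg.Agent.Lib.QuadSum

set_option autoImplicit false
open Cfsg

namespace Cfsg.Agent.S2627

/-- For an orthogonal direct sum Q = Q₁ ⊕ Q₂ of quadratic forms with non-degenerate polar forms over a finite field, an isometry g₁ of Q₁ extended by the identity on the second summand lies in Ω(Q) (the commutator subgroup of the orthogonal group of Q) if and only if g₁ lies in Ω(Q₁). (Excluded: the field of two elements when the first summand or the whole space has dimension 4, where the commutator subgroup of O⁺₄(2) is smaller than the group usually called Ω.) -/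
theorem result {F : Type*} [Field F] [Fintype F] {k l : ℕ} (h : Fintype.card F ≠ 2 ∨ (k ≠ 4 ∧ k + l ≠ 4)) (Q₁ : QuadraticForm F (Fin k → F)) (Q₂ : QuadraticForm F (Fin l → F)) (h₁ : (QuadraticMap.polarBilin Q₁).Nondegenerate) (h₂ : (QuadraticMap.polarBilin Q₂).Nondegenerate) (g₁ : ↥(Cfsg.isometryGroup F ⇑Q₁)) : (∃ g : ↥(Cfsg.isometryGroup F (fun v : Fin k ⊕ Fin l → F => Q₁ (v ∘ Sum.inl) + Q₂ (v ∘ Sum.inr))), g ∈ Cfsg.Omega F (fun v : Fin k ⊕ Fin l → F => Q₁ (v ∘ Sum.inl) + Q₂ (v ∘ Sum.inr)) ∧ ((g : Matrix.GeneralLinearGroup (Fin k ⊕ Fin l) F) : Matrix (Fin k ⊕ Fin l) (Fin k ⊕ Fin l) F) = Matrix.fromBlocks ((g₁ : Matrix.GeneralLinearGroup (Fin k) F) : Matrix (Fin k) (Fin k) F) 0 0 1) ↔ g₁ ∈ Cfsg.Omega F ⇑Q₁ := by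
  have hfr : Module.finrank F (Fin k ⊕ Fin l → F) = k + l := by
    rw [Module.finrank_pi]; simp
  have hfr₁ : Module.finrank F (Fin k → F) = k := by
    rw [Module.finrank_pi]; simp
  have hR₁ : Cfsg.Agent.Lib.Quad.R Q₁ = Cfsg.Agent.Lib.Quad.O Q₁ :=
    Cfsg.Agent.Lib.Quad.Nd.R_eq_O h₁ (Cfsg.Agent.Lib.Quad.genHyp_of_card (by
      rcases h with h | h
      · exact Or.inl h
      · exact Or.inr (by rw [hfr₁]; exact h.1)))
  have hNd := Cfsg.Agent.Lib.Quad.nd_sumForm h₁ h₂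
  have hR : Cfsg.Agent.Lib.Quad.R (Cfsg.Agent.Lib.Quad.sumForm Q₁ Q₂) =
      Cfsg.Agent.Lib.Quad.O (Cfsg.Agent.Lib.Quad.sumForm Q₁ Q₂) :=
    Cfsg.Agent.Lib.Quad.Nd.R_eq_O hNd (Cfsg.Agent.Lib.Quad.genHyp_of_card (by
      rcases h with h | h
      · exact Or.inl h
      · exact Or.inr (by rw [hfr]; exact h.2)))
  rw [Cfsg.Agent.Lib.Quad.mem_Omega_iff]
  constructor
  · rintro ⟨g, hg, hmat⟩
    have hg' : Cfsg.Agent.Lib.Quad.toLE (g : Matrix.GeneralLinearGroup (Fin k ⊕ Fin l) F) ∈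
        Cfsg.Agent.Lib.Quad.Om (Cfsg.Agent.Lib.Quad.sumForm Q₁ Q₂) :=
      (Cfsg.Agent.Lib.Quad.mem_Omega_iff (Q := Cfsg.Agent.Lib.Quad.sumForm Q₁ Q₂) g).1 hg
    have h4 := (Cfsg.Agent.Lib.Quad.toLE_eq_diagLE_iff
      (g : Matrix.GeneralLinearGroup (Fin k ⊕ Fin l) F)
      (g₁ : Matrix.GeneralLinearGroup (Fin k) F) 1).2 (by rw [hmat]; rfl)
    rw [h4, map_one] at hg'
    exact Cfsg.Agent.Lib.Quad.mem_Om_of_diagL_mem h₁ h₂ hR₁ hR
      (Cfsg.Agent.Lib.Quad.mem_isometryGroup_iff_toLE.1 g₁.2) hg'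
  · intro hg₁
    have e := Cfsg.Agent.Lib.Quad.diagL_mem_Om (Q₂ := Q₂) hg₁
    have eO := Cfsg.Agent.Lib.Quad.Om_le e
    refine ⟨Cfsg.Agent.Lib.Quad.ofO (Q := Cfsg.Agent.Lib.Quad.sumForm Q₁ Q₂) eO,
      (Cfsg.Agent.Lib.Quad.ofO_mem_Omega eO).2 e, ?_⟩
    refine (Cfsg.Agent.Lib.Quad.toLE_eq_diagLE_iff _
      (g₁ : Matrix.GeneralLinearGroup (Fin k) F) 1).1 ?_
    rw [Cfsg.Agent.Lib.Quad.toLE_ofO (Q := Cfsg.Agent.Lib.Quad.sumForm Q₁ Q₂) eO, map_one]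
    rfl

end Cfsg.Agent.S2627
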