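import Cfsg.Statements.S2628
import Cfsg.Agent.Lib.QuadSum

set_option autoImplicit false
open Cfsg

namespace Cfsg.Agent.S2628

/-- For the orthogonal direct sum Q ⊕ Q of two copies of a quadratic form Q with non-degenerate polar form on F^k (F finite), every isometry g of Q acting diagonally, diag(g, g), lies in Ω(Q ⊕ Q), the commutator subgroup of the orthogonal group of Q ⊕ Q. (Excluded: k = 2 over the field of two elements, where Q ⊕ Q is the hyperbolic 4-space whose orthogonal group's commutator subgroup is smaller than the group usually called Ω.) -/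
theorem result {F : Type*} [Field F] [Fintype F] {k : ℕ} (h : Fintype.card F ≠ 2 ∨ k ≠ 2) (Q : QuadraticForm F (Fin k → F)) (hQ : (QuadraticMap.polarBilin Q).Nondegenerate) (g : ↥(Cfsg.isometryGroup F ⇑Q)) : ∃ x : ↥(Cfsg.isometryGroup F (fun v : Fin k ⊕ Fin k → F => Q (v ∘ Sum.inl) + Q (v ∘ Sum.inr))), x ∈ Cfsg.Omega F (fun v : Fin k ⊕ Fin k → F => Q (v ∘ Sum.inl) + Q (v ∘ Sum.inr)) ∧ ((x : Matrix.GeneralLinearGroup (Fin k ⊕ Fin k) F) : Matrix (Fin k ⊕ Fin k) (Fin k ⊕ Fin k) F) = Matrix.fromBlocks ((g : Matrix.GeneralLinearGroup (Fin k) F) : Matrix (Fin k) (Fin k) F) 0 0 ((g : Matrix.GeneralLinearGroup (Fin k) F) : Matrix (Fin k) (Fin k) F) := by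
  have hfr : Module.finrank F (Fin k ⊕ Fin k → F) = 2 * k := by
    rw [Module.finrank_pi]; simp; ring
  have hNd := Cfsg.Agent.Lib.Quad.nd_sumForm hQ hQ
  have hR : Cfsg.Agent.Lib.Quad.R (Cfsg.Agent.Lib.Quad.sumForm Q Q) =
      Cfsg.Agent.Lib.Quad.O (Cfsg.Agent.Lib.Quad.sumForm Q Q) :=
    Cfsg.Agent.Lib.Quad.Nd.R_eq_O hNd (Cfsg.Agent.Lib.Quad.genHyp_of_card (by
      rcases h with h | h
      · exact Or.inl h
      · exact Or.inr (by rw [hfr]; omega)))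
  have e := Cfsg.Agent.Lib.Quad.diag_self_mem_Om hR
    (Cfsg.Agent.Lib.Quad.mem_isometryGroup_iff_toLE.1 g.2)
  have eO := Cfsg.Agent.Lib.Quad.Om_le e
  refine ⟨Cfsg.Agent.Lib.Quad.ofO (Q := Cfsg.Agent.Lib.Quad.sumForm Q Q) eO,
    (Cfsg.Agent.Lib.Quad.ofO_mem_Omega eO).2 e, ?_⟩
  rw [← Cfsg.Agent.Lib.Quad.toLE_eq_diagLE_iff]
  exact Cfsg.Agent.Lib.Quad.toLE_ofO (Q := Cfsg.Agent.Lib.Quad.sumForm Q Q) eO

end Cfsg.Agent.S2628
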