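import Cfsg.Statements.S2630
import Cfsg.Agent.Lib.QuadTrans

set_option autoImplicit false
open Cfsg

namespace Cfsg.Agent.S2630

/-- For the hyperbolic form Σ x_i y_i on F^(2m) over a finite field of characteristic two (m ≥ 1, excluding m = 2 over the field of two elements), an isometry g preserves the class of the maximal totally singular subspace U₀ = {y = 0} (m − dim(U₀ ∩ gU₀) even) if and only if g lies in Ω (the commutator subgroup of the orthogonal group): the stabiliser of each class is Ω. -/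
theorem result {F : Type*} [Field F] [Fintype F] [CharP F 2] {m : ℕ} (hm : 1 ≤ m) (h : Fintype.card F ≠ 2 ∨ m ≠ 2) (g : ↥(Cfsg.isometryGroup F (Cfsg.quadFormPlus m F))) : Even (m - Module.finrank F ↥(LinearMap.ker (LinearMap.funLeft F F (Sum.inr : Fin m → Fin m ⊕ Fin m)) ⊓ (LinearMap.ker (LinearMap.funLeft F F (Sum.inr : Fin m → Fin m ⊕ Fin m))).map (Matrix.mulVecLin ((g : Matrix.GeneralLinearGroup (Fin m ⊕ Fin m) F) : Matrix (Fin m ⊕ Fin m) (Fin m ⊕ Fin m) F)))) ↔ g ∈ Cfsg.Omega F (Cfsg.quadFormPlus m F) := by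
  set Q := Cfsg.Agent.Lib.Quad.quadPlus m F with hQdef
  have hQ : Cfsg.Agent.Lib.Quad.Nd Q := Cfsg.Agent.Lib.Quad.nd_quadPlus
  have hfr : Module.finrank F (Fin m ⊕ Fin m → F) = 2 * m := Cfsg.Agent.Lib.Quad.finrank_plus
  have hgen : Cfsg.Agent.Lib.Quad.GenHyp Q :=
    Cfsg.Agent.Lib.Quad.genHyp_of_card (by
      rw [hfr]
      rcases h with h | h
      · exact Or.inl h
      · exact Or.inr (by omega))
  obtain ⟨vs, hvs, hg, _⟩ := Cfsg.Agent.Lib.Quad.exists_list_matrix (Q := Q) hQ hgen g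
  rw [Cfsg.Agent.Lib.Quad.mulVecLin_eq, hg,
    Cfsg.Agent.Lib.Quad.mts_std.even_codim_iff hQ hfr vs hvs]
  have h3 := Cfsg.Agent.Lib.Quad.mem_Omega_iff (Q := Q) g
  rw [hg, hQ.list_mem_Om_iff hgen vs hvs] at h3
  constructor
  · intro h4
    exact h3.2 ⟨h4, Cfsg.Agent.Lib.Quad.isSquare_of_charTwo _⟩
  · intro h4
    exact (h3.1 h4).1

end Cfsg.Agent.S2630
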