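import Cfsg.Statements.S2631
import Cfsg.Agent.Lib.QuadTrans

set_option autoImplicit false
open Cfsg

namespace Cfsg.Agent.S2631

/-- For the hyperbolic form Σ x_i y_i on F^(2m) over a finite field (m ≥ 1, excluding m = 2 over the field of two elements), Ω (the commutator subgroup of the orthogonal group) acts transitively on each of the two classes of maximal totally singular subspaces: if U and W are m-dimensional totally singular subspaces with m − dim(U ∩ W) even, some element of Ω carries U to W. -/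
theorem result {F : Type*} [Field F] [Fintype F] {m : ℕ} (hm : 1 ≤ m) (h : Fintype.card F ≠ 2 ∨ m ≠ 2) (U W : Submodule F (Fin m ⊕ Fin m → F)) (hU : Module.finrank F U = m) (hW : Module.finrank F W = m) (hU0 : ∀ u ∈ U, Cfsg.quadFormPlus m F u = 0) (hW0 : ∀ w ∈ W, Cfsg.quadFormPlus m F w = 0) (he : Even (m - Module.finrank F ↥(U ⊓ W))) : ∃ g : ↥(Cfsg.isometryGroup F (Cfsg.quadFormPlus m F)), g ∈ Cfsg.Omega F (Cfsg.quadFormPlus m F) ∧ U.map (Matrix.mulVecLin ((g : Matrix.GeneralLinearGroup (Fin m ⊕ Fin m) F) : Matrix (Fin m ⊕ Fin m) (Fin m ⊕ Fin m) F)) = W := by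
  set Q := Cfsg.Agent.Lib.Quad.quadPlus m F with hQdef
  have hQ : Cfsg.Agent.Lib.Quad.Nd Q := Cfsg.Agent.Lib.Quad.nd_quadPlus
  have hfr : Module.finrank F (Fin m ⊕ Fin m → F) = 2 * m := Cfsg.Agent.Lib.Quad.finrank_plus
  have hgen : Cfsg.Agent.Lib.Quad.GenHyp Q :=
    Cfsg.Agent.Lib.Quad.genHyp_of_card (by
      rw [hfr]
      rcases h with h | h
      · exact Or.inl h
      · exact Or.inr (by omega))
  have hUm : Cfsg.Agent.Lib.Quad.MTS Q m U := ⟨hU, hU0⟩
  have hWm : Cfsg.Agent.Lib.Quad.MTS Q m W := ⟨hW, hW0⟩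
  obtain ⟨g, hg, hgU⟩ := hQ.exists_map_ts hUm.2 hWm.2 (hU.trans hW.symm)
  rw [← hQ.R_eq_O hgen] at hg
  obtain ⟨vs, hvs, hgv⟩ := Cfsg.Agent.Lib.Quad.exists_list_of_mem_R hg
  have hev : Even vs.length := by
    rw [← hUm.even_codim_iff hQ hfr vs hvs, ← hgv, hgU]
    exact he
  have hne : U ≠ ⊥ := by
    rintro rfl
    rw [finrank_bot] at hU
    omega
  exact Cfsg.Agent.Lib.Quad.exists_Omega_of_Om (Q := Q)
    (Cfsg.Agent.Lib.Quad.exists_Om_of_stab hQ hg hgU (Or.inl ⟨vs, hvs, hgv, hev⟩)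
      (Cfsg.Agent.Lib.Quad.hB_of_ts hQ hUm.2 hne))

end Cfsg.Agent.S2631
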