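import Cfsg.Statements.S2634
import Cfsg.Agent.Lib.QuadTrans

set_option autoImplicit false
open Cfsg

namespace Cfsg.Agent.S2634

/-- Over a finite field of characteristic two, Ω (the commutator subgroup of the orthogonal group of a quadratic form Q on F^n with non-degenerate polar form; excluding dimension 4 over the field of two elements) acts transitively on the non-singular 1-spaces: for u, v with Q(u) ≠ 0 and Q(v) ≠ 0 some element of Ω carries the line through u to the line through v. -/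
theorem result {F : Type*} [Field F] [Fintype F] [CharP F 2] {n : ℕ} (h : Fintype.card F ≠ 2 ∨ n ≠ 4) (Q : QuadraticForm F (Fin n → F)) (hQ : (QuadraticMap.polarBilin Q).Nondegenerate) (u v : Fin n → F) (hu : Q u ≠ 0) (hv : Q v ≠ 0) : ∃ g : ↥(Cfsg.isometryGroup F ⇑Q), g ∈ Cfsg.Omega F ⇑Q ∧ (F ∙ ((g : Matrix.GeneralLinearGroup (Fin n) F) : Matrix (Fin n) (Fin n) F).mulVec u) = F ∙ v := by
  have hfr : Module.finrank F (Fin n → F) = n := by rw [Module.finrank_pi, Fintype.card_fin]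
  have hgen : Cfsg.Agent.Lib.Quad.GenHyp Q :=
    Cfsg.Agent.Lib.Quad.genHyp_of_card (by rw [hfr]; exact h)
  obtain ⟨t, ht⟩ := Cfsg.Agent.Lib.Quad.isSquare_of_charTwo (Q u / Q v)
  have ht0 : t ≠ 0 := by
    rintro rfl
    rw [mul_zero] at ht
    exact div_ne_zero hu hv ht
  have hQu : Q u = Q (t • v) := by
    rw [Cfsg.Agent.Lib.Quad.Q_smul, ← ht]; field_simp
  have hu0 : u ≠ 0 := by rintro rfl; exact hu (QuadraticMap.map_zero Q)
  have hv0 : v ≠ 0 := by rintro rfl; exact hv (QuadraticMap.map_zero Q)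
  obtain ⟨g, hg, hgu⟩ := Cfsg.Agent.Lib.Quad.Nd.exists_map_eq hQ hu0 (smul_ne_zero ht0 hv0) hQu
  have hspan : (F ∙ u).map g.toLinearMap = F ∙ v := by
    rw [Submodule.map_span, Set.image_singleton]
    show (F ∙ (g u)) = _
    rw [hgu]
    exact Submodule.span_singleton_smul_eq (IsUnit.mk0 t ht0) v
  rw [← Cfsg.Agent.Lib.Quad.Nd.R_eq_O hQ hgen] at hg
  obtain ⟨g', hg', hg''⟩ := Cfsg.Agent.Lib.Quad.exists_Omega_of_Om
    (Cfsg.Agent.Lib.Quad.exists_Om_of_stab hQ hg hspan
      (Or.inr ⟨u, hu, Cfsg.Agent.Lib.Quad.stab_refl_of_mem hu (Submodule.mem_span_singleton_self u)⟩)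
      (Or.inl fun a => Cfsg.Agent.Lib.Quad.isSquare_of_charTwo a))
  refine ⟨g', hg', ?_⟩
  rw [← hg'', Submodule.map_span, Set.image_singleton]
  rfl

end Cfsg.Agent.S2634
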