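import Cfsg.Statements.S2636
import Cfsg.Agent.Lib.FFTower

set_option autoImplicit false
open Cfsg

namespace Cfsg.Agent.S2636

/-- Centraliser of a field automorphism in PGL_n: let F be the field with q = q₀^r elements, σ a field automorphism of F of prime order r (so its fixed field has q₀ elements) and n ≥ 1. The invertible matrices g whose entrywise image under σ is a scalar multiple of g — those whose coset modulo scalars is fixed by σ — number (q − 1)/(q₀ − 1) · |GL_n(q₀)|; equivalently the centraliser in PGL_n(q) of the induced automorphism has the order of PGL_n(q₀). -/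
theorem result {F : Type*} [Field F] [Fintype F] {q₀ r n : ℕ} (hr : r.Prime) (hn : 1 ≤ n) (hF : Fintype.card F = q₀ ^ r) (σ : F ≃+* F) (hσ : orderOf σ = r) : Nat.card {g : GL (Fin n) F // ∃ c : F, c ≠ 0 ∧ (g : Matrix (Fin n) (Fin n) F).map σ = c • (g : Matrix (Fin n) (Fin n) F)} = (q₀ ^ r - 1) / (q₀ - 1) * ∏ i : Fin n, (q₀ ^ n - q₀ ^ (i : ℕ)) := by
  classical
  haveI : FaithfulSMul ↥(Subgroup.zpowers σ) F := ⟨by
    intro a b h
    apply Subtype.ext
    apply RingEquiv.ext
    intro x
    exact h x⟩
  have hfix : ∀ x : F, x ∈ FixedPoints.subfield ↥(Subgroup.zpowers σ) F ↔ σ x = x := by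
    intro x
    constructor
    · intro h
      exact h ⟨σ, Subgroup.mem_zpowers σ⟩
    · rintro h ⟨τ, hτ⟩
      obtain ⟨k, rfl⟩ := Subgroup.mem_zpowers_iff.1 hτ
      show (σ ^ k) x = x
      have h1 : ∀ τ ∈ Subgroup.zpowers σ, τ x = x := by
        intro τ hτ
        rw [Subgroup.zpowers_eq_closure] at hτ
        induction hτ using Subgroup.closure_induction with
        | mem y hy => rw [Set.mem_singleton_iff.1 hy]; exact h
        | one => rfl
        | mul a b _ _ ha hb => show a (b x) = x; rw [hb, ha]
        | inv a _ ha => 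
          show a.symm x = x
          rw [RingEquiv.symm_apply_eq, ha]
      exact h1 _ hτ
  set F₀ := FixedPoints.subfield ↥(Subgroup.zpowers σ) F with hF₀
  haveI : Finite (F ≃+* F) := Finite.of_injective (fun e : F ≃+* F => (e : F → F))
    DFunLike.coe_injective
  haveI : Fintype ↥(Subgroup.zpowers σ) := Fintype.ofFinite _
  haveI : Fintype F₀ := Fintype.ofFinite _
  have hq₀ : Fintype.card F₀ = q₀ := by
    have h1 : Module.finrank F₀ F = r := by
      rw [hF₀, FixedPoints.finrank_eq_card, ← hσ, Fintype.card_eq_nat_card, Nat.card_zpowers]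
    have h2 := Module.card_eq_pow_finrank (K := F₀) (V := F)
    rw [h1, hF] at h2
    exact (Nat.pow_left_injective hr.ne_zero h2).symm
  let Φ : Fˣ × GL (Fin n) F₀ →* GL (Fin n) F :=
    MonoidHom.noncommCoprod (Matrix.GeneralLinearGroup.scalar (Fin n))
      (Matrix.GeneralLinearGroup.map (algebraMap F₀ F)) (fun a h => by
        show _ * _ = _ * _
        ext i j
        simp [Matrix.GeneralLinearGroup.scalar, mul_comm])
  have hΦ : ∀ (a : Fˣ) (h : GL (Fin n) F₀) (i j : Fin n), (Φ (a, h) : Matrix (Fin n) (Fin n) F) i j =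
      (a : F) * ((h : Matrix (Fin n) (Fin n) F₀) i j : F) := by
    intro a h i j
    show ((Matrix.GeneralLinearGroup.scalar (Fin n) a *
      Matrix.GeneralLinearGroup.map (algebraMap F₀ F) h : GL (Fin n) F) :
      Matrix (Fin n) (Fin n) F) i j = _
    simp [Matrix.GeneralLinearGroup.scalar]
    rfl
  have hrange : ∀ g : GL (Fin n) F, g ∈ Φ.range ↔
      ∃ c : F, c ≠ 0 ∧ (g : Matrix (Fin n) (Fin n) F).map σ = c • (g : Matrix (Fin n) (Fin n) F) := by
    intro g
    constructor
    · rintro ⟨⟨a, h⟩, rfl⟩
      refine ⟨σ a / a, div_ne_zero (by simp) a.ne_zero, ?_⟩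
      ext i j
      rw [Matrix.map_apply, Matrix.smul_apply, hΦ, map_mul, smul_eq_mul]
      have h1 : σ ((h : Matrix (Fin n) (Fin n) F₀) i j : F) =
        ((h : Matrix (Fin n) (Fin n) F₀) i j : F) := (hfix _).1 (Subtype.property _)
      rw [h1]
      field_simp
    · rintro ⟨c, hc, hg⟩
      -- a nonzero entry
      have i0 : Fin n := ⟨0, hn⟩
      obtain ⟨i, j, hij⟩ : ∃ i j, (g : Matrix (Fin n) (Fin n) F) i j ≠ 0 := by
        by_contra hcon
        push Not at hcon
        have h1 : (g : Matrix (Fin n) (Fin n) F) = 0 := by ext i j; exact hcon i j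
        have h2 := g.det.ne_zero
        haveI : Nonempty (Fin n) := ⟨i0⟩
        rw [Matrix.GeneralLinearGroup.val_det_apply, h1, Matrix.det_zero] at h2
        exact h2 rfl
      have hσg : ∀ k l, σ ((g : Matrix (Fin n) (Fin n) F) k l) =
          c * (g : Matrix (Fin n) (Fin n) F) k l := by
        intro k l
        have := congrFun (congrFun hg k) l
        simpa using this
      set a := (g : Matrix (Fin n) (Fin n) F) i j with ha
      let h0 : Matrix (Fin n) (Fin n) F₀ := Matrix.of fun k l =>
        ⟨a⁻¹ * (g : Matrix (Fin n) (Fin n) F) k l, (hfix _).2 (by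
          rw [map_mul, map_inv₀, hσg, ha, hσg, ← ha]
          field_simp)⟩
      have h1 : h0.map (algebraMap F₀ F) = a⁻¹ • (g : Matrix (Fin n) (Fin n) F) := by
        ext k l; rfl
      have h2 : h0.det ≠ 0 := by
        intro h
        have h3 := congrArg (algebraMap F₀ F) h
        rw [RingHom.map_det, RingHom.mapMatrix_apply, h1, Matrix.det_smul, map_zero] at h3
        exact mul_ne_zero (pow_ne_zero _ (inv_ne_zero hij)) g.det.ne_zero h3
      refine ⟨(Units.mk0 a hij, Matrix.GeneralLinearGroup.mkOfDetNeZero h0 h2), ?_⟩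
      ext k l
      rw [hΦ]
      show a * (a⁻¹ * (g : Matrix (Fin n) (Fin n) F) k l) = _
      rw [← mul_assoc, mul_inv_cancel₀ hij, one_mul]
  have hker : Nat.card Φ.ker = q₀ - 1 := by
    let ψ : F₀ˣ → Φ.ker := fun b => ⟨(Units.map (algebraMap F₀ F).toMonoidHom b,
      Matrix.GeneralLinearGroup.scalar (Fin n) b⁻¹), by
        rw [MonoidHom.mem_ker]
        ext i j
        rw [hΦ]
        by_cases hij : i = j
        · subst hij
          simp [Matrix.GeneralLinearGroup.scalar]
          exact mul_inv_cancel₀ (fun h => b.ne_zero (Subtype.ext h))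
        · simp [Matrix.GeneralLinearGroup.scalar, hij]⟩
    have hψ : Function.Bijective ψ := by
      constructor
      · intro b b' h
        have h1 : Units.map (algebraMap F₀ F).toMonoidHom b =
          Units.map (algebraMap F₀ F).toMonoidHom b' := congrArg (fun x => x.1.1) h
        apply Units.ext
        apply Subtype.ext
        exact congrArg Units.val h1
      · rintro ⟨⟨a, h⟩, hah⟩
        rw [MonoidHom.mem_ker] at hah
        have h1 : ∀ i j, (a : F) * ((h : Matrix (Fin n) (Fin n) F₀) i j : F) =
            (1 : Matrix (Fin n) (Fin n) F) i j := by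
          intro i j
          rw [← hΦ, hah]; rfl
        let i0 : Fin n := ⟨0, hn⟩
        have h2 := h1 i0 i0
        rw [Matrix.one_apply_eq] at h2
        have h3 : (h : Matrix (Fin n) (Fin n) F₀) i0 i0 ≠ 0 := by
          intro h3
          rw [h3] at h2
          simp at h2
        refine ⟨(Units.mk0 _ h3)⁻¹, ?_⟩
        apply Subtype.ext
        apply Prod.ext
        · apply Units.ext
          show (((Units.mk0 _ h3)⁻¹ : F₀ˣ) : F₀).1 = (a : F)
          rw [Units.val_inv_eq_inv_val, Units.val_mk0]
          show (((h : Matrix (Fin n) (Fin n) F₀) i0 i0 : F))⁻¹ = (a : F)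
          exact (eq_inv_of_mul_eq_one_left h2).symm
        · ext i j
          show (((Matrix.GeneralLinearGroup.scalar (Fin n) ((Units.mk0 _ h3)⁻¹)⁻¹ :
            GL (Fin n) F₀) : Matrix (Fin n) (Fin n) F₀) i j : F) =
            ((h : Matrix (Fin n) (Fin n) F₀) i j : F)
          have h4 := h1 i j
          have h5 : ((h : Matrix (Fin n) (Fin n) F₀) i j : F) =
            ((h : Matrix (Fin n) (Fin n) F₀) i0 i0 : F) * (1 : Matrix (Fin n) (Fin n) F) i j := by
            rw [← h4, ← mul_assoc, mul_comm _ (a : F), h2, one_mul]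
          rw [h5, inv_inv]
          by_cases hij : i = j
          · subst hij
            simp [Matrix.GeneralLinearGroup.scalar]
          · simp [Matrix.GeneralLinearGroup.scalar, hij]
    rw [← Nat.card_congr (Equiv.ofBijective ψ hψ), Nat.card_units, Nat.card_eq_fintype_card, hq₀]
  have hcount : Nat.card {g : GL (Fin n) F // ∃ c : F, c ≠ 0 ∧
      (g : Matrix (Fin n) (Fin n) F).map σ = c • (g : Matrix (Fin n) (Fin n) F)} =
      Nat.card Φ.range := Nat.card_congr (Equiv.subtypeEquivRight fun g => (hrange g).symm)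
  have h1 : Nat.card Φ.range * Nat.card Φ.ker = Nat.card (Fˣ × GL (Fin n) F₀) := by
    rw [← Subgroup.index_ker, mul_comm, Subgroup.card_mul_index]
  rw [hker, Nat.card_prod, Nat.card_units, Nat.card_eq_fintype_card (α := F), hF,
    Matrix.card_GL_field, hq₀] at h1
  have hq1 : 1 < q₀ := by rw [← hq₀]; exact Fintype.one_lt_card
  have hdvd : (q₀ - 1) ∣ (q₀ ^ r - 1) := by
    simpa using Nat.sub_dvd_pow_sub_pow q₀ 1 r
  obtain ⟨k, hk⟩ := hdvd
  rw [hcount, hk, Nat.mul_div_cancel_left _ (by omega : 0 < q₀ - 1)]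
  rw [hk] at h1
  apply Nat.eq_of_mul_eq_mul_right (by omega : 0 < q₀ - 1)
  rw [h1]
  ring

end Cfsg.Agent.S2636
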