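import Cfsg.Statements.S2637
import Cfsg.Agent.Lib.CentThree

set_option autoImplicit false
open Cfsg

namespace Cfsg.Agent.S2637

section
open Matrix Cfsg.Agent.Lib

theorem fpf {F : Type*} [Field F] {m : ℕ} (x : Matrix.symplecticGroup (Fin m) F) (hx3 : x ^ 3 = 1)
    (hfpf : IsUnit ((x : Matrix (Fin m ⊕ Fin m) (Fin m ⊕ Fin m) F) - 1)) :
    (x.1) * x.1 + x.1 + 1 = 0 := by
  have h : (x.1 - 1) * (x.1 * x.1 + x.1 + 1) = 0 := by
    have h3 : x.1 ^ 3 = 1 := by
      have := congrArg Subtype.val hx3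
      simpa using this
    have : (x.1 - 1) * (x.1 * x.1 + x.1 + 1) = x.1 ^ 3 - 1 := by noncomm_ring
    rw [this, h3, sub_self]
  exact (IsUnit.mul_right_eq_zero hfpf).1 h

theorem count {F : Type*} [Field F] [Fintype F] {q : ℕ} (hF : Fintype.card F = q) (hq : q % 3 = 2) {m : ℕ}
    (x : Matrix.symplecticGroup (Fin m) F) (hx : (x.1) * x.1 + x.1 + 1 = 0) :
    Nat.card ↥(Subgroup.centralizer ({x} : Set ↥(Matrix.symplecticGroup (Fin m) F))) =
    q ^ (m * (m - 1) / 2) * ∏ i ∈ Finset.range m, (if Even i then q ^ (i + 1) + 1 else q ^ (i + 1) - 1) := by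
  classical
  let T : (Fin m ⊕ Fin m → F) →ₗ[F] (Fin m ⊕ Fin m → F) := Matrix.mulVecLin x.1
  have hT : ∀ v, T (T v) + T v + v = 0 := by
    intro v
    change x.1 *ᵥ (x.1 *ᵥ v) + x.1 *ᵥ v + v = 0
    have := congrArg (fun M => M *ᵥ v) hx
    simpa [Matrix.add_mulVec] using this
  have key := CentThree.card_centralizer hF hq (V := Fin m ⊕ Fin m → F) (ClIso.sympForm (Fin m) F) (by
      intro u v
      rw [ClIso.sympForm_apply, ClIso.sympForm_apply, ← Finset.sum_neg_distrib]
      exact Finset.sum_congr rfl fun i _ => by ring) (by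
      intro u hu
      funext j
      rcases j with i | i
      · have h := hu (Pi.single (Sum.inr i) 1)
        rw [ClIso.sympForm_apply, Finset.sum_eq_single i] at h
        · simpa using h
        · intro j _ hj; simp [hj]
        · intro h; exact absurd (Finset.mem_univ _) h
      · have h := hu (Pi.single (Sum.inl i) 1)
        rw [ClIso.sympForm_apply, Finset.sum_eq_single i] at h
        · simpa using h
        · intro j _ hj; simp [hj]
        · intro h; exact absurd (Finset.mem_univ _) h) T hT (fun u v => ClIso.mem_symplecticGroup_iff.1 x.2 u v) (m := m)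
      (by simp; ring)
  rw [← key]
  apply Nat.card_congr
  exact
    { toFun := fun g => ⟨(ClIso.sympEquiv (Fin m) F g.1).1, (ClIso.sympEquiv (Fin m) F g.1).2, by
        intro v
        change g.1.1 *ᵥ (x.1 *ᵥ v) = x.1 *ᵥ (g.1.1 *ᵥ v)
        have h := congrArg Subtype.val (Subgroup.mem_centralizer_singleton_iff.1 g.2)
        have h' : g.1.1 * x.1 = x.1 * g.1.1 := h
        rw [Matrix.mulVec_mulVec, Matrix.mulVec_mulVec, h']⟩
      invFun := fun g => ⟨(ClIso.sympEquiv (Fin m) F).symm ⟨g.1, g.2.1⟩, by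
        rw [Subgroup.mem_centralizer_singleton_iff]
        apply (ClIso.sympEquiv (Fin m) F).injective
        rw [map_mul, map_mul, MulEquiv.apply_symm_apply]
        apply Subtype.ext
        ext1 v
        exact g.2.2 v⟩
      left_inv := fun g => by
        apply Subtype.ext
        change (ClIso.sympEquiv (Fin m) F).symm ((ClIso.sympEquiv (Fin m) F) g.1) = g.1
        exact MulEquiv.symm_apply_apply _ _
      right_inv := fun g => by
        apply Subtype.ext
        change ((ClIso.sympEquiv (Fin m) F) ((ClIso.sympEquiv (Fin m) F).symm ⟨g.1, g.2.1⟩)).1 = g.1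
        rw [MulEquiv.apply_symm_apply] }

end

/-- Centraliser of a fixed-point-free element of order three in Sp_2m(q) when q ≡ 2 (mod 3): if x ∈ Sp_2m(F) (|F| = q, m ≥ 1) satisfies x³ = 1 and x − 1 is invertible, then its centraliser in Sp_2m(F) has the order of the unitary group GU_m(q), namely q^(m(m−1)/2) Π_(i=1)^m (q^i − (−1)^i) (x lies in the centre of a subgroup GU_m(q) of Sp_2m(q)). -/
theorem result {F : Type*} [Field F] [Fintype F] {q : ℕ} (hF : Fintype.card F = q) (hq : q % 3 = 2) {m : ℕ} (hm : 1 ≤ m) (x : Matrix.symplecticGroup (Fin m) F) (hx3 : x ^ 3 = 1) (hfpf : IsUnit ((x : Matrix (Fin m ⊕ Fin m) (Fin m ⊕ Fin m) F) - 1)) : (Nat.card ↥(Subgroup.centralizer ({x} : Set ↥(Matrix.symplecticGroup (Fin m) F))) : ℤ) = (q : ℤ) ^ (m * (m - 1) / 2) * ∏ i : Fin m, ((q : ℤ) ^ ((i : ℕ) + 1) - (-1) ^ ((i : ℕ) + 1)) := by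
  rw [count hF hq x (fpf x hx3 hfpf), Finset.prod_range]
  have hq1 : 1 ≤ q := by omega
  push_cast
  congr 1
  refine Finset.prod_congr rfl fun i _ => ?_
  split_ifs with h
  · rw [Odd.neg_one_pow (h.add_one)]; push_cast; ring
  · rw [Even.neg_one_pow (Nat.even_add_one.2 h), Nat.cast_sub (Nat.one_le_pow _ _ hq1)]; push_cast; ring

end Cfsg.Agent.S2637
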