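import Cfsg.Statements.S2638
import Cfsg.Agent.Lib.FFTower

set_option autoImplicit false
open Cfsg

namespace Cfsg.Agent.S2638

/-- If an element x of GL_n(q), n ≥ 1, has prime order r and the multiplicative order of q modulo r is n (r is a primitive prime divisor of q^n − 1, so x acts irreducibly), then the centraliser of x in GL_n(q) is cyclic of order q^n − 1 (the multiplicative group of the field with q^n elements, a Singer cycle). -/
theorem result {F : Type*} [Field F] [Fintype F] {p q : ℕ} [Fact p.Prime] [CharP F p] (hF : Fintype.card F = q) {n r : ℕ} (hn : 1 ≤ n) (hr : r.Prime) (hrp : r ≠ p) (hi : orderOf (q : ZMod r) = n) (x : GL (Fin n) F) (hx : orderOf x = r) : IsCyclic ↥(Subgroup.centralizer ({x} : Set (GL (Fin n) F))) ∧ Nat.card ↥(Subgroup.centralizer ({x} : Set (GL (Fin n) F))) = q ^ n - 1 := by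
  classical
  haveI : Fact r.Prime := ⟨hr⟩
  open Polynomial in
  set X₀ : Matrix (Fin n) (Fin n) F := (x : Matrix (Fin n) (Fin n) F) with hX₀
  have hrF : (r : F) ≠ 0 := by
    intro h
    rw [CharP.cast_eq_zero_iff F p] at h
    exact hrp ((Nat.prime_dvd_prime_iff_eq Fact.out hr).1 h).symm
  have hxr : X₀ ^ r = 1 := by
    have := congrArg (Units.val) (pow_orderOf_eq_one x)
    rw [hx] at this
    simpa using this
  have hx1 : X₀ ≠ 1 := by
    intro h
    have h1 : x = 1 := Units.ext h
    rw [h1, orderOf_one] at hx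
    exact hr.one_lt.ne hx
  let Φ : Polynomial F := ∑ i ∈ Finset.range r, Polynomial.X ^ i
  have hΦ : Φ * (Polynomial.X - 1) = Polynomial.X ^ r - 1 := geom_sum_mul _ _
  have hint : IsIntegral F X₀ := Matrix.isIntegral X₀
  have hncop : ¬ IsCoprime (minpoly F X₀) Φ := by
    intro hcop
    have h1 : minpoly F X₀ ∣ Φ * (Polynomial.X - 1) := by
      rw [hΦ]
      apply minpoly.dvd
      simp [hxr]
    have h2 := hcop.dvd_of_dvd_mul_left h1
    have h3 : Polynomial.aeval X₀ (Polynomial.X - 1 : Polynomial F) = 0 := by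
      obtain ⟨g, hg⟩ := h2
      rw [hg, map_mul, minpoly.aeval, zero_mul]
    simp only [map_sub, Polynomial.aeval_X, map_one] at h3
    exact hx1 (sub_eq_zero.1 h3)
  obtain ⟨f, hf, hfm, hfΦ⟩ : ∃ f : Polynomial F, Irreducible f ∧ f ∣ minpoly F X₀ ∧ f ∣ Φ := by
    by_contra hcon
    push Not at hcon
    exact hncop (isCoprime_of_irreducible_dvd (fun h => minpoly.ne_zero hint h.1) hcon)
  haveI : Fact (Irreducible f) := ⟨hf⟩
  have hfin : ∀ g : Polynomial F, Irreducible g → Module.finrank F (AdjoinRoot g) = g.natDegree := by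
    intro g hg
    rw [(AdjoinRoot.powerBasis hg.ne_zero).finrank, AdjoinRoot.powerBasis_dim]
  have hdpos : 0 < f.natDegree := hf.natDegree_pos
  -- the degree of `f` is a multiple of `n`
  have hnd : n ∣ f.natDegree := by
    haveI : Module.Finite F (AdjoinRoot f) := Module.finite_of_finrank_pos (by
      rw [hfin f hf]; exact hdpos)
    haveI : Finite (AdjoinRoot f) := Module.finite_of_finite F
    haveI : Fintype (AdjoinRoot f) := Fintype.ofFinite _
    have hΦα : Polynomial.aeval (AdjoinRoot.root f) Φ = 0 := by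
      obtain ⟨g, hg⟩ := hfΦ
      rw [hg, map_mul, AdjoinRoot.aeval_eq, AdjoinRoot.mk_self, zero_mul]
    have hαr : (AdjoinRoot.root f) ^ r = 1 := by
      have h1 := congrArg (Polynomial.aeval (AdjoinRoot.root f)) hΦ
      rw [map_mul, hΦα, zero_mul] at h1
      simp only [map_sub, map_pow, Polynomial.aeval_X, map_one] at h1
      exact (sub_eq_zero.1 h1.symm)
    have hα1 : AdjoinRoot.root f ≠ 1 := by
      intro h1
      rw [h1] at hΦα
      simp only [Φ, map_sum, map_pow, Polynomial.aeval_X, one_pow, Finset.sum_const,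
        Finset.card_range, nsmul_eq_mul, mul_one] at hΦα
      apply hrF
      apply (algebraMap F (AdjoinRoot f)).injective
      rw [map_natCast, map_zero]; exact hΦα
    have hα0 : AdjoinRoot.root f ≠ 0 := by
      intro h0
      rw [h0, zero_pow hr.ne_zero] at hαr
      exact zero_ne_one hαr
    have hord : orderOf (Units.mk0 _ hα0) = r := by
      apply orderOf_eq_prime
      · apply Units.ext; simpa using hαr
      · intro h; exact hα1 (congrArg Units.val h)
    have hdvd : r ∣ q ^ f.natDegree - 1 := by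
      have h1 := orderOf_dvd_natCard (Units.mk0 _ hα0)
      rw [hord, Nat.card_units, Nat.card_eq_fintype_card, Module.card_eq_pow_finrank (K := F),
        hfin f hf, hF] at h1
      exact h1
    have hq0 : 0 < q := by rw [← hF]; exact Fintype.card_pos
    have h2 : (q : ZMod r) ^ f.natDegree = 1 := by
      have h3 : ((q ^ f.natDegree - 1 : ℕ) : ZMod r) = 0 := (ZMod.natCast_eq_zero_iff _ _).2 hdvd
      rw [Nat.cast_sub (Nat.one_le_pow _ _ hq0)] at h3
      push_cast at h3
      exact sub_eq_zero.1 h3
    rw [← hi]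
    exact orderOf_dvd_of_pow_eq_one h2
  have hmc : minpoly F X₀ ∣ X₀.charpoly := Matrix.minpoly_dvd_charpoly X₀
  have hcd : X₀.charpoly.natDegree = n := by
    rw [Matrix.charpoly_natDegree_eq_dim, Fintype.card_fin]
  have hle1 : f.natDegree ≤ (minpoly F X₀).natDegree :=
    Polynomial.natDegree_le_of_dvd hfm (minpoly.ne_zero hint)
  have hle2 : (minpoly F X₀).natDegree ≤ n :=
    (Polynomial.natDegree_le_of_dvd hmc (Matrix.charpoly_monic X₀).ne_zero).trans hcd.le
  have hfn : f.natDegree = n := by
    have := Nat.le_of_dvd hdpos hnd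
    omega
  have hmn : (minpoly F X₀).natDegree = n := by omega
  have hmirr : Irreducible (minpoly F X₀) := by
    obtain ⟨g, hg⟩ := hfm
    have hg0 : g ≠ 0 := by
      rintro rfl
      rw [mul_zero] at hg
      exact minpoly.ne_zero hint hg
    have h1 : (minpoly F X₀).natDegree = f.natDegree + g.natDegree := by
      rw [hg, Polynomial.natDegree_mul hf.ne_zero hg0]
    have h2 : IsUnit g := by
      rw [Polynomial.isUnit_iff_degree_eq_zero, Polynomial.degree_eq_natDegree hg0]
      have : g.natDegree = 0 := by omega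
      rw [this]; rfl
    rw [hg]
    exact (irreducible_mul_isUnit h2).2 hf
  -- the field
  set m := minpoly F X₀ with hm
  haveI : Fact (Irreducible m) := ⟨hmirr⟩
  have hKfin : Module.finrank F (AdjoinRoot m) = n := by rw [hfin m hmirr, hmn]
  haveI : Module.Finite F (AdjoinRoot m) := Module.finite_of_finrank_pos (by omega)
  haveI : Finite (AdjoinRoot m) := Module.finite_of_finite F
  haveI : Fintype (AdjoinRoot m) := Fintype.ofFinite _
  let θ : AdjoinRoot m →ₐ[F] Matrix (Fin n) (Fin n) F :=
    Ideal.Quotient.liftₐ (Ideal.span {m}) (Polynomial.aeval X₀) (fun a ha => by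
      obtain ⟨g, rfl⟩ := Ideal.mem_span_singleton.1 ha
      rw [map_mul, hm, minpoly.aeval, zero_mul])
  have hθ : ∀ g : Polynomial F, θ (AdjoinRoot.mk m g) = Polynomial.aeval X₀ g := fun g => rfl
  have hθu : ∀ a : AdjoinRoot m, a ≠ 0 → θ a * θ a⁻¹ = 1 ∧ θ a⁻¹ * θ a = 1 := by
    intro a ha
    rw [← map_mul, ← map_mul, mul_inv_cancel₀ ha, inv_mul_cancel₀ ha, map_one]
    exact ⟨rfl, rfl⟩
  haveI : Nonempty (Fin n) := ⟨⟨0, hn⟩⟩
  -- a cyclic vector
  let v : Fin n → F := fun _ => 1
  have hv : v ≠ 0 := fun h => one_ne_zero (congrFun h ⟨0, hn⟩)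
  let L : AdjoinRoot m →ₗ[F] (Fin n → F) :=
    { toFun := fun a => (θ a).mulVec v
      map_add' := fun a b => by rw [map_add, Matrix.add_mulVec]
      map_smul' := fun c a => by rw [map_smul, Matrix.smul_mulVec]; rfl }
  have hLinj : Function.Injective L := by
    rw [injective_iff_map_eq_zero]
    intro a ha
    by_contra ha0
    apply hv
    have h1 : (θ a).mulVec v = 0 := ha
    have h2 := congrArg ((θ a⁻¹).mulVec) h1
    rwa [Matrix.mulVec_mulVec, (hθu a ha0).2, Matrix.one_mulVec, Matrix.mulVec_zero] at h2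
  have hLbij : Function.Surjective L := by
    rw [← LinearMap.range_eq_top]
    apply Submodule.eq_top_of_finrank_eq
    rw [LinearMap.finrank_range_of_inj hLinj, hKfin, Module.finrank_pi, Fintype.card_fin]
  have hcomm : ∀ y : Matrix (Fin n) (Fin n) F, y * X₀ = X₀ * y → ∃ a, y = θ a := by
    intro y hy
    have hyθ : ∀ b, y * θ b = θ b * y := by
      intro b
      obtain ⟨g, rfl⟩ := AdjoinRoot.mk_surjective b
      rw [hθ]
      induction g using Polynomial.induction_on' with
      | add f g hf hg => rw [map_add, mul_add, add_mul, hf, hg]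
      | monomial k c =>
        rw [Polynomial.aeval_monomial]
        have h1 : y * X₀ ^ k = X₀ ^ k * y := by
          have : Commute y X₀ := hy
          exact this.pow_right k
        rw [← mul_assoc, ← Algebra.commutes c y, mul_assoc, h1, ← mul_assoc]
    obtain ⟨a, ha⟩ := hLbij (y.mulVec v)
    refine ⟨a, ?_⟩
    apply Matrix.toLin'.injective
    apply LinearMap.ext
    intro w
    obtain ⟨b, rfl⟩ := hLbij w
    rw [Matrix.toLin'_apply, Matrix.toLin'_apply]
    show y.mulVec ((θ b).mulVec v) = (θ a).mulVec ((θ b).mulVec v)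
    have ha' : (θ a).mulVec v = y.mulVec v := ha
    rw [Matrix.mulVec_mulVec, hyθ, ← Matrix.mulVec_mulVec, ← ha', Matrix.mulVec_mulVec,
      Matrix.mulVec_mulVec, ← map_mul, ← map_mul, mul_comm]
  -- the isomorphism
  have hθx : ∀ a, θ a * X₀ = X₀ * θ a := by
    intro a
    have : X₀ = θ (AdjoinRoot.root m) := by
      have := hθ Polynomial.X
      rw [Polynomial.aeval_X] at this
      exact this.symm
    rw [this, ← map_mul, ← map_mul, mul_comm]
  let ψ : (AdjoinRoot m)ˣ →* ↥(Subgroup.centralizer ({x} : Set (GL (Fin n) F))) :=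
    (Units.map (θ : AdjoinRoot m →* Matrix (Fin n) (Fin n) F)).codRestrict _ (fun a => by
      rw [Subgroup.mem_centralizer_singleton_iff]
      apply Units.ext
      exact hθx a)
  have hψ : Function.Bijective ψ := by
    constructor
    · intro a b hab
      apply Units.ext
      have h1 : θ (a : AdjoinRoot m) = θ (b : AdjoinRoot m) :=
        congrArg (fun z : ↥(Subgroup.centralizer ({x} : Set (GL (Fin n) F))) =>
          ((z : GL (Fin n) F) : Matrix (Fin n) (Fin n) F)) hab
      apply hLinj
      show (θ a).mulVec v = (θ b).mulVec v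
      rw [h1]
    · rintro ⟨y, hy⟩
      rw [Subgroup.mem_centralizer_singleton_iff] at hy
      obtain ⟨a, ha⟩ := hcomm (y : Matrix (Fin n) (Fin n) F) (congrArg Units.val hy)
      have ha0 : a ≠ 0 := by
        rintro rfl
        rw [map_zero] at ha
        have h1 := y.mul_inv
        rw [ha, zero_mul] at h1
        exact zero_ne_one h1
      refine ⟨Units.mk0 a ha0, ?_⟩
      apply Subtype.ext
      apply Units.ext
      exact ha.symm
  let e := MulEquiv.ofBijective ψ hψ
  refine ⟨isCyclic_of_surjective ψ hψ.2, ?_⟩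
  rw [← Nat.card_congr e.toEquiv, Nat.card_units, Nat.card_eq_fintype_card,
    Module.card_eq_pow_finrank (K := F), hKfin, hF]

end Cfsg.Agent.S2638
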