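import Cfsg.Statements.S2640
import Cfsg.Agent.Lib.UniRes2

set_option autoImplicit false
open Cfsg

namespace Cfsg.Agent.S2640

/-- For m even, the unitary group GU_m(q) (over the field with q² elements) embeds in the orthogonal group O⁺_2m(q) of the hyperbolic form Σ x_i y_i over the field with q elements (there is an injective homomorphism). -/
theorem result {K F : Type*} [Field K] [Fintype K] [Field F] [Fintype F] {q : ℕ} (hK : Fintype.card K = q ^ 2) (hF : Fintype.card F = q) (m : ℕ) (hm : Even m) : ∃ φ : ↥(Cfsg.GU m K q) →* ↥(Cfsg.isometryGroup F (Cfsg.quadFormPlus m F)), Function.Injective φ := by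
  obtain ⟨_, h2⟩ := Cfsg.Agent.Lib.FFTower.exists_algebra_of_card (F := F) (K := K) (d := 2)
    (by rw [hK, hF]) two_ne_zero
  obtain ⟨t, rfl⟩ := hm
  subst hF
  obtain ⟨U, hU⟩ := Cfsg.Agent.Lib.UniRes.exists_MTS_herm (F := F) (K := K) h2 t
  obtain ⟨e, he⟩ := Cfsg.Agent.Lib.UniRes.exists_isometry_plus
    (Cfsg.Agent.Lib.UniRes.nd_hermQ h2 (t + t)) (Cfsg.Agent.Lib.UniRes.finrank_herm h2 (t + t)) hU
  exact Cfsg.Agent.Lib.UniRes.exists_GU_of_isometry h2 (t + t) e he

end Cfsg.Agent.S2640
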