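import Cfsg.Statements.S2642
import Cfsg.Agent.Lib.UniReal
import Cfsg.Agent.S2570

set_option autoImplicit false
open Cfsg

namespace Cfsg.Agent.S2642

/-- Number of conjugacy classes of elements of order p in the general unitary group GU_n(q), q a power of p: every unipotent Jordan type occurs and the classes correspond to the partitions of n with all parts at most p other than the all-ones partition, exactly as in GL_n; so there are (number of partitions of n with parts ≤ p) − 1 classes. -/
theorem result {K : Type*} [Field K] [Fintype K] {p q n : ℕ} [Fact p.Prime] [CharP K p] (hK : Fintype.card K = q ^ 2) : Nat.card {C : ConjClasses ↥(Cfsg.GU n K q) // ∃ g : ↥(Cfsg.GU n K q), ConjClasses.mk g = C ∧ orderOf g = p} = (Finset.univ.filter (fun μ : Nat.Partition n => ∀ a ∈ μ.parts, a ≤ p)).card - 1 := by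
  rw [← Cfsg.Agent.S2570.result (F := K) (p := p) n]
  refine Nat.card_congr (Equiv.ofBijective (fun C => ⟨ConjClasses.map (Cfsg.GU n K q).subtype C.1, ?_⟩) ⟨?_, ?_⟩)
  · obtain ⟨g, hg, ho⟩ := C.2
    refine ⟨(g : GL (Fin n) K), ?_, ?_⟩
    · rw [← hg]; rfl
    · rw [Subgroup.orderOf_coe]; exact ho
  · rintro ⟨C, g, rfl, hg⟩ ⟨D, h, rfl, hh⟩ heq
    have h1 : ConjClasses.mk ((g : GL (Fin n) K)) = ConjClasses.mk ((h : GL (Fin n) K)) := congrArg Subtype.val heq
    rw [ConjClasses.mk_eq_mk_iff_isConj] at h1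
    apply Subtype.ext
    show ConjClasses.mk g = ConjClasses.mk h
    rw [ConjClasses.mk_eq_mk_iff_isConj]
    exact (Cfsg.Agent.S2587.result hK g h).2 h1
  · rintro ⟨C, g, rfl, hg⟩
    have h1 : ((g : Matrix (Fin n) (Fin n) K) - 1) ^ p = 0 := by
      have h2 : (g : Matrix (Fin n) (Fin n) K) ^ p = 1 := by
        rw [← Units.val_pow_eq_pow_val, ← hg, pow_orderOf_eq_one, Units.val_one]
      rcases Nat.eq_zero_or_pos n with rfl | hn
      · exact Subsingleton.elim _ _
      haveI : Nonempty (Fin n) := ⟨⟨0, hn⟩⟩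
      rw [sub_pow_char_of_commute p (Commute.one_right _), h2, one_pow, sub_self]
    obtain ⟨B, hB⟩ := Cfsg.Agent.Lib.UniReal.exists_GU_of_unipotent hK g h1
    have hcl : ConjClasses.mk ((B : GL (Fin n) K)) = ConjClasses.mk g := by
      rw [ConjClasses.mk_eq_mk_iff_isConj]; exact hB.symm
    refine ⟨⟨ConjClasses.mk B, B, rfl, ?_⟩, Subtype.ext hcl⟩
    obtain ⟨c, hc⟩ := isConj_iff.1 hB
    rw [← Subgroup.orderOf_coe, ← hc, ← hg]
    exact (MulAut.conj c).orderOf_eq g

end Cfsg.Agent.S2642
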