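import Cfsg.Statements.S2643
import Cfsg.Agent.Lib.UniReal
import Cfsg.Agent.Lib.UniConj
import Cfsg.Agent.Lib.RegNil
import Cfsg.Agent.Lib.RegNil2

set_option autoImplicit false
open Cfsg

namespace Cfsg.Agent.S2643

open Module Matrix Cfsg.Agent.Lib.RegNil Cfsg.Agent.Lib.RegNil2 Cfsg.Agent.Lib.ClUnitary Cfsg.Agent.Lib

variable {F : Type*} [Field F] {n : ℕ}

/-- regular unipotent -/
def Reg (A : Matrix (Fin n) (Fin n) F) : Prop := (A - 1) ^ n = 0 ∧ (A - 1).rank = n - 1

theorem Reg.cyclic (hn : 1 ≤ n) {A : Matrix (Fin n) (Fin n) F} (h : Reg A) :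
    (A - 1).mulVecLin ^ n = 0 ∧ ∃ v, ((A - 1).mulVecLin ^ (n - 1)) v ≠ 0 := by
  refine ⟨by rw [← mulVecLin_pow, h.1]; exact Matrix.mulVecLin_zero, ?_⟩
  exact exists_cyclic (A - 1).mulVecLin (by simp) hn (ker_le_one (by simp) _ h.2)

theorem Reg.conj (hn : 1 ≤ n) {A B : Matrix (Fin n) (Fin n) F} (hA : Reg A) (hB : Reg B) :
    ∃ g : Matrix (Fin n) (Fin n) F, IsUnit g ∧ g * A = B * g := by
  obtain ⟨hA1, v, hv⟩ := hA.cyclic hn
  obtain ⟨hB1, w, hw⟩ := hB.cyclic hn
  obtain ⟨e, he, -⟩ := exists_equiv _ (by simp) hA1 v hv _ (by simp) hB1 w hw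
  refine ⟨LinearMap.toMatrix' (e : (Fin n → F) →ₗ[F] (Fin n → F)), ?_, ?_⟩
  · have h := e.isUnit_det'
    rw [Matrix.isUnit_iff_isUnit_det, LinearMap.det_toMatrix']
    exact h
  · apply Matrix.toLin'.injective
    rw [Matrix.toLin'_mul, Matrix.toLin'_mul, Matrix.toLin'_toMatrix']
    apply LinearMap.ext
    intro x
    have h := he x
    simp only [Matrix.mulVecLin_apply, Matrix.sub_mulVec, Matrix.one_mulVec, map_sub] at h
    simp only [LinearMap.comp_apply, Matrix.toLin'_apply, LinearEquiv.coe_coe]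
    have h2 := congrArg (fun z => z + e x) h
    simpa using h2

theorem Reg.of_conj {A B g : Matrix (Fin n) (Fin n) F} (hA : Reg A) (hg : IsUnit g) (h : g * A = B * g) : Reg B := by
  obtain ⟨g, rfl⟩ := hg
  have hB : B - 1 = g * (A - 1) * (g⁻¹ : (Matrix (Fin n) (Fin n) F)ˣ) := by
    rw [mul_sub, mul_one, h, sub_mul, mul_assoc, Units.mul_inv, mul_one]
  have hpow : ∀ k, (B - 1) ^ k = g * (A - 1) ^ k * (g⁻¹ : (Matrix (Fin n) (Fin n) F)ˣ) := by
    intro k
    induction k with
    | zero => simp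
    | succ k ih =>
      rw [pow_succ, ih, hB, pow_succ]
      simp only [mul_assoc, Units.inv_mul_cancel_left]
  refine ⟨by rw [hpow, hA.1]; simp, ?_⟩
  rw [hB, ← hA.2]
  have h1 : IsUnit ((g : Matrix (Fin n) (Fin n) F)).det := (Matrix.isUnit_iff_isUnit_det _).1 g.isUnit
  have h2 : IsUnit (((g⁻¹ : (Matrix (Fin n) (Fin n) F)ˣ) : Matrix (Fin n) (Fin n) F)).det :=
    (Matrix.isUnit_iff_isUnit_det _).1 (g⁻¹).isUnit
  rw [Matrix.rank_mul_eq_left_of_isUnit_det _ _ h2, Matrix.rank_mul_eq_right_of_isUnit_det _ _ h1]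

variable [Fintype F] {q : ℕ}

/-- the determinant of a unitary matrix commuting with a regular unipotent one -/
theorem det_centralizer (hF : Fintype.card F = q ^ 2) (hn : 1 ≤ n) {A c : Matrix (Fin n) (Fin n) F} (hA : Reg A)
    (hc : IsUn q c) (hcA : c * A = A * c) : ∃ a : F, a ^ (q + 1) = 1 ∧ c.det = a ^ n := by
  obtain ⟨hA1, v, hv⟩ := hA.cyclic hn
  have hcl : ∀ x, c.mulVecLin ((A - 1).mulVecLin x) = (A - 1).mulVecLin (c.mulVecLin x) := by
    intro x
    simp only [Matrix.mulVecLin_apply, Matrix.mulVec_mulVec]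
    rw [mul_sub, hcA, sub_mul, mul_one, one_mul]
  obtain ⟨a, K, h1, h2⟩ := commute_eq _ (by simp) hA1 v hv _ hcl
  have hnil : ((c - algebraMap F _ a) : Matrix (Fin n) (Fin n) F) ^ n = 0 := by
    have h3 : (c - algebraMap F _ a).mulVecLin = (A - 1).mulVecLin * K := by
      have h4 : (algebraMap F (Matrix (Fin n) (Fin n) F) a).mulVecLin = a • (1 : Module.End F (Fin n → F)) := by
        apply LinearMap.ext
        intro x
        rw [Matrix.mulVecLin_apply, Algebra.algebraMap_eq_smul_one, Matrix.smul_mulVec, Matrix.one_mulVec]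
        rfl
      have h5 : (c - algebraMap F _ a).mulVecLin = c.mulVecLin - (algebraMap F (Matrix (Fin n) (Fin n) F) a).mulVecLin := by
        apply LinearMap.ext
        intro x
        simp only [Matrix.mulVecLin_apply, Matrix.sub_mulVec, LinearMap.sub_apply]
      rw [h5, h4, h1]
      abel
    have h6 : ((c - algebraMap F _ a) ^ n).mulVecLin = 0 := by
      rw [mulVecLin_pow, h3, h2.mul_pow, hA1, zero_mul]
    apply Matrix.toLin'.injective
    rw [Matrix.toLin'_apply', h6, map_zero]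
  refine ⟨a, ?_, ?_⟩
  · letI := UniConj.starField hF
    have hstar := (UniConj.isUn_iff_star hF).1 hc
    have hsa : star (algebraMap F (Matrix (Fin n) (Fin n) F) a) = algebraMap F _ (a ^ q) := by
      rw [Matrix.algebraMap_eq_diagonal, Matrix.algebraMap_eq_diagonal]
      change (Matrix.diagonal _)ᴴ = _
      rw [Matrix.diagonal_conjTranspose]
      rfl
    have hnil2 : (star c - algebraMap F _ (a ^ q)) ^ n = 0 := by
      have := congrArg star hnil
      rwa [star_pow, star_sub, hsa, star_zero] at this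
    have hcomm : Commute c (star c) := by
      show c * star c = star c * c
      rw [hstar]
      exact mul_eq_one_comm.1 hstar
    -- `c * star c - a * a^q` is nilpotent
    have h7 : IsNilpotent (c * star c - algebraMap F (Matrix (Fin n) (Fin n) F) (a * a ^ q)) := by
      have e : c * star c - algebraMap F (Matrix (Fin n) (Fin n) F) (a * a ^ q) =
          (c - algebraMap F _ a) * star c + algebraMap F _ a * (star c - algebraMap F _ (a ^ q)) := by
        rw [map_mul]; noncomm_ring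
      rw [e]
      have c1 : Commute (c - algebraMap F _ a) (star c) :=
        Commute.sub_left hcomm (Algebra.commutes _ _)
      have n1 : IsNilpotent ((c - algebraMap F _ a) * star c) := ⟨n, by rw [c1.mul_pow, hnil, zero_mul]⟩
      have hc3 : Commute (algebraMap F (Matrix (Fin n) (Fin n) F) a)
          (star c - algebraMap F (Matrix (Fin n) (Fin n) F) (a ^ q)) := Algebra.commutes a _
      have n2 : IsNilpotent (algebraMap F _ a * (star c - algebraMap F (Matrix (Fin n) (Fin n) F) (a ^ q))) :=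
        ⟨n, by rw [hc3.mul_pow, hnil2, mul_zero]⟩
      refine Commute.isNilpotent_add ?_ n1 n2
      have hc1 : ∀ b : F, Commute c (algebraMap F (Matrix (Fin n) (Fin n) F) b) := fun b => (Algebra.commutes b c).symm
      have hc2 : ∀ b : F, ∀ M : Matrix (Fin n) (Fin n) F, Commute (algebraMap F (Matrix (Fin n) (Fin n) F) b) M :=
        fun b M => Algebra.commutes b M
      refine Commute.mul_right ((hc2 _ _).symm) ?_
      refine Commute.sub_right ?_ ((hc2 _ _).symm)
      exact Commute.mul_left c1 (Commute.refl _)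
    rw [mul_eq_one_comm.1 hstar, ← map_one (algebraMap F (Matrix (Fin n) (Fin n) F)), ← map_sub] at h7
    haveI : Nonempty (Fin n) := ⟨⟨0, hn⟩⟩
    obtain ⟨k, hk⟩ := h7
    rw [← map_pow] at hk
    have h8 : (1 - a * a ^ q) ^ k = 0 := by
      apply (algebraMap F (Matrix (Fin n) (Fin n) F)).injective
      rw [hk, map_zero]
    have h9 := eq_zero_of_pow_eq_zero h8
    rw [pow_succ']
    exact (sub_eq_zero.1 h9).symm
  · have h3 := det_smul_one_add a ((A - 1).mulVecLin * K) ⟨n, by rw [h2.mul_pow, hA1, zero_mul]⟩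
    rw [← h1] at h3
    have h4 : LinearMap.det c.mulVecLin = c.det := by
      rw [← Matrix.toLin'_apply', LinearMap.det_toLin']
    rw [← h4, h3]
    simp

/-- `SU → GU` -/
noncomputable def toGU (n : ℕ) (F : Type*) [Field F] (q : ℕ) : SU n F q →* GU n F q where
  toFun A := ⟨SpecialLinearGroup.toGL A.1, A.2⟩
  map_one' := by apply Subtype.ext; exact map_one _
  map_mul' a b := by apply Subtype.ext; exact map_mul _ _ _

omit [Fintype F] in
theorem toGU_injective : Function.Injective (toGU n F q) := by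
  intro a b h
  apply Subtype.ext
  apply Subtype.ext
  exact congrArg (fun g : GU n F q => ((g : GL (Fin n) F) : Matrix (Fin n) (Fin n) F)) h

omit [Fintype F] in
theorem exists_toGU (g : GU n F q) (hg : detGU n F q g = 1) : ∃ s, toGU n F q s = g := by
  refine ⟨(suEquiv n F q).symm ⟨g, hg⟩, ?_⟩
  apply Subtype.ext
  apply Units.ext
  rfl

omit [Fintype F] in
theorem det_toGU (s : SU n F q) : detGU n F q (toGU n F q s) = 1 := by
  apply Units.ext
  exact s.1.2

omit [Fintype F] in
theorem isConj_SU_iff (s t : SU n F q) : IsConj s t ↔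
    ∃ g : GU n F q, detGU n F q g = 1 ∧ g * toGU n F q s = toGU n F q t * g := by
  rw [isConj_iff]
  constructor
  · rintro ⟨c, hc⟩
    refine ⟨toGU n F q c, det_toGU c, ?_⟩
    rw [← map_mul, ← map_mul, ← hc]
    group
  · rintro ⟨g, hg, h⟩
    obtain ⟨c, rfl⟩ := exists_toGU g hg
    refine ⟨c, ?_⟩
    rw [mul_inv_eq_iff_eq_mul]
    apply toGU_injective
    rw [map_mul, map_mul, h]

/-- Regular unipotent classes of SU_n(q), n ≥ 2: the elements u of the special unitary group (isometries of Σ u_i v_i^q of determinant one over the field with q² elements) with (u − 1)^n = 0 and rank(u − 1) = n − 1 form exactly gcd(n, q + 1) conjugacy classes of SU_n(q). -/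
theorem result {K : Type*} [Field K] [Fintype K] {q n : ℕ} (hK : Fintype.card K = q ^ 2) (hn : 2 ≤ n) : Nat.card {C : ConjClasses ↥(Cfsg.SU n K q) // ∃ u : ↥(Cfsg.SU n K q), ConjClasses.mk u = C ∧ (((u : GL (Fin n) K) : Matrix (Fin n) (Fin n) K) - 1) ^ n = 0 ∧ (((u : GL (Fin n) K) : Matrix (Fin n) (Fin n) K) - 1).rank = n - 1} = Nat.gcd n (q + 1) := by
  classical
  have hn1 : 1 ≤ n := by omega
  have hq := Cfsg.Agent.Lib.HermMat.two_le_q hK
  -- a regular unipotent element of GU
  obtain ⟨u0, hu0⟩ : ∃ u0 : GU n K q, Reg ((u0 : GL (Fin n) K) : Matrix (Fin n) (Fin n) K) := by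
    let A : Matrix (Fin n) (Fin n) K := LinearMap.toMatrix' (1 + stdN n K)
    have hA1 : A - 1 = LinearMap.toMatrix' (stdN n K) := by
      show LinearMap.toMatrix' (1 + stdN n K) - 1 = _
      rw [map_add, LinearMap.toMatrix'_one, add_sub_cancel_left]
    have hA2 : (A - 1).mulVecLin = stdN n K := by
      rw [hA1, ← Matrix.toLin'_apply', Matrix.toLin'_toMatrix']
    have hA3 : Reg A := by
      constructor
      · apply Matrix.toLin'.injective
        rw [Matrix.toLin'_apply', mulVecLin_pow, hA2, stdN_pow_self, map_zero]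
      · have := finrank_range_of_cyclic (stdN n K) (by simp) stdN_pow_self _ (stdN_cyclic (by omega))
        rw [← hA2] at this
        exact this
    have hAu : IsUnit A := by
      have h1 : IsNilpotent (A - 1) := ⟨n, hA3.1⟩
      have h2 := h1.isUnit_one_add
      rwa [add_sub_cancel] at h2
    obtain ⟨A', hA'⟩ := hAu
    obtain ⟨B, hB⟩ := UniReal.exists_GU_of_unipotent hK (A' : GL (Fin n) K) (N := n) (by rw [hA']; exact hA3.1)
    refine ⟨B, ?_⟩
    obtain ⟨g, hg⟩ := isConj_iff.1 hB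
    refine Reg.of_conj (A := (A' : Matrix (Fin n) (Fin n) K)) (g := (g : Matrix (Fin n) (Fin n) K)) (by rw [hA']; exact hA3)
      g.isUnit ?_
    rw [← hg]
    simp [mul_assoc]
  have hregconj : ∀ g : GU n K q, Reg (((g * u0 * g⁻¹ : GU n K q) : GL (Fin n) K) : Matrix (Fin n) (Fin n) K) := by
    intro g
    refine Reg.of_conj hu0 (g := ((g : GL (Fin n) K) : Matrix (Fin n) (Fin n) K)) (g : GL (Fin n) K).isUnit ?_
    have : ((g * u0 * g⁻¹ : GU n K q)) * g = g * u0 := by group
    have h2 := congrArg (fun x : GU n K q => ((x : GL (Fin n) K) : Matrix (Fin n) (Fin n) K)) this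
    exact h2.symm
  have hdet0 : detGU n K q u0 = 1 := by
    apply Units.ext
    rw [detGU_apply]
    have h1 : IsNilpotent ((((u0 : GL (Fin n) K) : Matrix (Fin n) (Fin n) K) - 1).mulVecLin) := ⟨n, by
      rw [← mulVecLin_pow, hu0.1]; exact Matrix.mulVecLin_zero⟩
    have h2 := det_smul_one_add (1 : K) _ h1
    rw [one_smul, one_pow] at h2
    have h3 : (1 : Module.End K (Fin n → K)) + (((u0 : GL (Fin n) K) : Matrix (Fin n) (Fin n) K) - 1).mulVecLin =
        (((u0 : GL (Fin n) K) : Matrix (Fin n) (Fin n) K)).mulVecLin := by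
      apply LinearMap.ext
      intro x
      simp [Matrix.sub_mulVec]
    rw [h3, ← Matrix.toLin'_apply', LinearMap.det_toLin'] at h2
    rw [h2]; rfl
  have hdetc : ∀ g : GU n K q, detGU n K q (g * u0 * g⁻¹) = 1 := by
    intro g
    rw [map_mul, map_mul, hdet0, map_inv, mul_one, mul_inv_cancel]
  choose uu huu using fun g : GU n K q => exists_toGU (g * u0 * g⁻¹) (hdetc g)
  have huu_reg : ∀ g, Reg (((uu g : SU n K q) : GL (Fin n) K) : Matrix (Fin n) (Fin n) K) := by
    intro g
    have := hregconj g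
    rw [← huu g] at this
    exact this
  let E : Subgroup Kˣ := (detGU n K q).range
  have hEmem : ∀ c : Kˣ, c ∈ E ↔ c ^ (q + 1) = 1 := fun c => range_det hK hn1 c
  have hform : ∀ s : SU n K q, Reg (((s : SU n K q) : GL (Fin n) K) : Matrix (Fin n) (Fin n) K) →
      ∃ g, s = uu g := by
    intro s hs
    obtain ⟨g, hg1, hg2⟩ := Reg.conj hn1 hu0 hs
    obtain ⟨g, rfl⟩ := hg1
    have h3 : IsConj (u0 : GL (Fin n) K) ((toGU n K q s : GU n K q) : GL (Fin n) K) := by
      rw [isConj_iff]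
      refine ⟨(g : GL (Fin n) K), ?_⟩
      rw [mul_inv_eq_iff_eq_mul]
      exact Units.ext hg2
    obtain ⟨k, hk⟩ := isConj_iff.1 (UniConj.isConj_GU hK u0 (toGU n K q s) h3)
    refine ⟨k, toGU_injective ?_⟩
    rw [huu, hk]
  have hconj : ∀ g h : GU n K q, IsConj (uu g) (uu h) ↔ ∃ c : E, detGU n K q h = detGU n K q g * (c : Kˣ) ^ n := by
    intro g h
    rw [isConj_SU_iff]
    constructor
    · rintro ⟨s, hs1, hs2⟩
      rw [huu, huu] at hs2
      have h1 : (h⁻¹ * s * g) * u0 = u0 * (h⁻¹ * s * g) := by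
        calc (h⁻¹ * s * g) * u0 = h⁻¹ * (s * (g * u0 * g⁻¹)) * g := by group
          _ = h⁻¹ * ((h * u0 * h⁻¹) * s) * g := by rw [hs2]
          _ = u0 * (h⁻¹ * s * g) := by group
      have h2 := congrArg (fun x : GU n K q => ((x : GL (Fin n) K) : Matrix (Fin n) (Fin n) K)) h1
      obtain ⟨a, ha1, ha2⟩ := det_centralizer hK hn1 hu0 (mem_GU.1 (h⁻¹ * s * g).2) h2
      have ha0 : a ≠ 0 := by rintro rfl; simp at ha1
      have h4 : detGU n K q (h⁻¹ * s * g) = (Units.mk0 a ha0) ^ n := by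
        apply Units.ext
        rw [detGU_apply, Units.val_pow_eq_pow_val]
        exact ha2
      rw [map_mul, map_mul, hs1, map_inv, mul_one] at h4
      have hmem : Units.mk0 a ha0 ∈ E := by
        rw [hEmem]
        apply Units.ext
        rw [Units.val_pow_eq_pow_val]; exact ha1
      refine ⟨(⟨_, hmem⟩ : E)⁻¹, ?_⟩
      rw [Subgroup.coe_inv, inv_pow, ← h4]
      group
    · rintro ⟨c, hc⟩
      obtain ⟨z, hz1, hz2⟩ : ∃ z : GU n K q, detGU n K q z = (c : Kˣ) ^ n ∧ ∀ x : GU n K q, z * x = x * z := by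
        refine ⟨diagGU (fun _ => (c : Kˣ)) (fun _ => (hEmem _).1 c.2), ?_, ?_⟩
        · apply Units.ext
          rw [detGU_apply]
          change (Matrix.diagonal fun _ => ((c : Kˣ) : K)).det = _
          rw [det_diagonal]
          simp
        · intro x
          apply Subtype.ext
          apply Units.ext
          change (Matrix.diagonal fun _ => ((c : Kˣ) : K)) * _ = _ * (Matrix.diagonal fun _ => ((c : Kˣ) : K))
          have : (Matrix.diagonal fun _ : Fin n => ((c : Kˣ) : K)) = Matrix.scalar (Fin n) ((c : Kˣ) : K) := rfl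
          rw [this]
          exact (Matrix.scalar_commute _ (fun _ => Commute.all _ _) _).eq
      refine ⟨h * z⁻¹ * g⁻¹, ?_, ?_⟩
      · rw [map_mul, map_mul, map_inv, map_inv, hz1, hc]
        group
      · rw [huu, huu]
        have hz3 : z⁻¹ * u0 = u0 * z⁻¹ := by
          have := hz2 u0
          calc z⁻¹ * u0 = z⁻¹ * (u0 * z) * z⁻¹ := by group
            _ = z⁻¹ * (z * u0) * z⁻¹ := by rw [this]
            _ = u0 * z⁻¹ := by group
        calc h * z⁻¹ * g⁻¹ * (g * u0 * g⁻¹) = h * (z⁻¹ * u0) * g⁻¹ := by group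
          _ = h * (u0 * z⁻¹) * g⁻¹ := by rw [hz3]
          _ = h * u0 * h⁻¹ * (h * z⁻¹ * g⁻¹) := by group
  -- the bijection
  choose gg hgg using fun a : E => a.2
  have hcard : Nat.card {C : ConjClasses ↥(Cfsg.SU n K q) // ∃ u : ↥(Cfsg.SU n K q), ConjClasses.mk u = C ∧ (((u : GL (Fin n) K) : Matrix (Fin n) (Fin n) K) - 1) ^ n = 0 ∧ (((u : GL (Fin n) K) : Matrix (Fin n) (Fin n) K) - 1).rank = n - 1} = Nat.card (E ⧸ (powMonoidHom n : E →* E).range) := by
    symm
    have hmem : ∀ a : E, ∃ u : ↥(Cfsg.SU n K q), ConjClasses.mk u = ConjClasses.mk (uu (gg a)) ∧ (((u : GL (Fin n) K) : Matrix (Fin n) (Fin n) K) - 1) ^ n = 0 ∧ (((u : GL (Fin n) K) : Matrix (Fin n) (Fin n) K) - 1).rank = n - 1 :=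
      fun a => ⟨uu (gg a), rfl, huu_reg _⟩
    let Φ : (E ⧸ (powMonoidHom n : E →* E).range) → {C : ConjClasses ↥(Cfsg.SU n K q) // ∃ u : ↥(Cfsg.SU n K q), ConjClasses.mk u = C ∧ (((u : GL (Fin n) K) : Matrix (Fin n) (Fin n) K) - 1) ^ n = 0 ∧ (((u : GL (Fin n) K) : Matrix (Fin n) (Fin n) K) - 1).rank = n - 1} :=
      Quotient.lift (fun a : E => (⟨ConjClasses.mk (uu (gg a)), hmem a⟩ : {C : ConjClasses ↥(Cfsg.SU n K q) // ∃ u : ↥(Cfsg.SU n K q), ConjClasses.mk u = C ∧ (((u : GL (Fin n) K) : Matrix (Fin n) (Fin n) K) - 1) ^ n = 0 ∧ (((u : GL (Fin n) K) : Matrix (Fin n) (Fin n) K) - 1).rank = n - 1})) (by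
        intro a b hab
        apply Subtype.ext
        show ConjClasses.mk _ = ConjClasses.mk _
        rw [ConjClasses.mk_eq_mk_iff_isConj, hconj, hgg, hgg]
        have h1 : a⁻¹ * b ∈ (powMonoidHom n : E →* E).range := QuotientGroup.leftRel_apply.mp hab
        obtain ⟨c, hc⟩ := h1
        refine ⟨c, ?_⟩
        have h2 : c ^ n = a⁻¹ * b := hc
        have h3 := congrArg Subtype.val h2
        rw [SubgroupClass.coe_pow] at h3
        rw [h3]
        simp)
    have hΦ : ∀ a : E, Φ (QuotientGroup.mk a) = ⟨ConjClasses.mk (uu (gg a)), hmem a⟩ := fun a => rfl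
    apply Nat.card_eq_of_bijective Φ
    constructor
    · intro x y hxy
      obtain ⟨a, rfl⟩ := QuotientGroup.mk_surjective x
      obtain ⟨b, rfl⟩ := QuotientGroup.mk_surjective y
      rw [hΦ, hΦ] at hxy
      have h1 := congrArg Subtype.val hxy
      simp only at h1
      rw [ConjClasses.mk_eq_mk_iff_isConj, hconj, hgg, hgg] at h1
      obtain ⟨c, hc⟩ := h1
      rw [QuotientGroup.eq]
      refine ⟨c, ?_⟩
      apply Subtype.ext
      show ((c ^ n : E) : Kˣ) = _
      rw [SubgroupClass.coe_pow, Subgroup.coe_mul, Subgroup.coe_inv, hc]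
      group
    · rintro ⟨C, u, rfl, h1, h2⟩
      obtain ⟨e, rfl⟩ := hform u ⟨h1, h2⟩
      refine ⟨QuotientGroup.mk ⟨detGU n K q e, ⟨e, rfl⟩⟩, ?_⟩
      rw [hΦ]
      apply Subtype.ext
      show ConjClasses.mk _ = ConjClasses.mk _
      rw [ConjClasses.mk_eq_mk_iff_isConj, hconj, hgg]
      exact ⟨1, by simp⟩
  rw [hcard]
  have h := IsCyclic.index_powMonoidHom_range E n
  rw [Subgroup.index_eq_card] at h
  have hE : Nat.card E = q + 1 := by
    rw [← card_norm_one_units hK]
    exact Nat.card_congr (Equiv.subtypeEquivRight fun c => hEmem c)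
  rw [h, hE, Nat.gcd_comm]

end Cfsg.Agent.S2643
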