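import Cfsg.Statements.S2645
import Cfsg.Agent.Lib.H76SpCnt

set_option autoImplicit false
open Cfsg

namespace Cfsg.Agent.S2645

open Cfsg.Agent.Lib.PrCount

/-- Number of conjugacy classes of elements of odd prime order r, r different from the characteristic, in the symplectic group Sp_2m(q): let i be the multiplicative order of q modulo r and t = (r − 1)/i. If i is odd the eigenvalue orbits pair off (Λ ≠ Λ⁻¹) and the classes correspond to the non-zero (t/2)-tuples (a_j) with 2i Σ a_j ≤ 2m, giving C(⌊m/i⌋ + t/2, t/2) − 1 classes; if i is even (Λ = Λ⁻¹) they correspond to the non-zero t-tuples with i Σ a_j ≤ 2m, giving C(⌊2m/i⌋ + t, t) − 1 classes. -/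
theorem result {F : Type*} [Field F] [Fintype F] {p q : ℕ} [Fact p.Prime] [CharP F p] (hF : Fintype.card F = q) (m r i t : ℕ) (hr : r.Prime) (hr2 : r ≠ 2) (hrp : r ≠ p) (hi : i = orderOf (q : ZMod r)) (ht : t * i = r - 1) : Nat.card {C : ConjClasses ↥(Matrix.symplecticGroup (Fin m) F) // ∃ g : Matrix.symplecticGroup (Fin m) F, ConjClasses.mk g = C ∧ orderOf g = r} = if Odd i then Nat.choose (m / i + t / 2) (t / 2) - 1 else Nat.choose (2 * m / i + t) t - 1 := by
  classical
  have hrf : Fact r.Prime := ⟨hr⟩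
  obtain ⟨a', -, ha⟩ := FiniteField.card F p
  have hqr : q.Coprime r := by
    rw [← hF, ha]
    exact Nat.Coprime.pow_left _ ((Nat.coprime_primes Fact.out hr).2 (Ne.symm hrp))
  let u : (ZMod r)ˣ := ZMod.unitOfCoprime q hqr
  have hu : (u : ZMod r) = (Fintype.card F : ZMod r) := by rw [hF]; rfl
  have hiu : i = orderOf u := by
    rw [hi, ← orderOf_units]
    rfl
  rw [Cfsg.Agent.Lib.H76SpCnt.classes_Sp p hr2 hrp (by rw [← hu]; exact u.ne_zero)]
  split_ifs with ho
  · have := Fintype.ofFinite ((ZMod r)ˣ ⧸ Subgroup.zpowers (-u))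
    obtain ⟨h1, h2⟩ := orb_odd hr2 hiu ht ho
    have h3 : Nat.card {f : ZMod r → ℕ | ((∀ k, f (-k) = f k) ∧ ∀ k, f ((Fintype.card F : ZMod r) * k) = f k) ∧ ∑ k, f k = 2 * m} =
        Nat.card {f : ZMod r → ℕ // IsInv (Subgroup.zpowers (-u)) f ∧ ∑ k, f k = 2 * m} :=
      Nat.card_congr (Equiv.subtypeEquivRight fun f => by
        rw [inv_odd hu (by rw [← hiu]; exact ho)]; rfl)
    rw [h3, card_inv, h1, h2, Nat.mul_div_mul_left _ _ (by norm_num)]
  · have := Fintype.ofFinite ((ZMod r)ˣ ⧸ Subgroup.zpowers u)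
    obtain ⟨h1, h2⟩ := orb_even hiu ht
    have h3 : Nat.card {f : ZMod r → ℕ | ((∀ k, f (-k) = f k) ∧ ∀ k, f ((Fintype.card F : ZMod r) * k) = f k) ∧ ∑ k, f k = 2 * m} =
        Nat.card {f : ZMod r → ℕ // IsInv (Subgroup.zpowers u) f ∧ ∑ k, f k = 2 * m} :=
      Nat.card_congr (Equiv.subtypeEquivRight fun f => by
        rw [inv_even hu (by rw [← hiu]; exact Nat.not_odd_iff_even.1 ho)]; rfl)
    rw [h3, card_inv, h1, h2]

end Cfsg.Agent.S2645
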