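import Cfsg.Statements.S2646
import Cfsg.Agent.Lib.H31UE

set_option autoImplicit false
open Cfsg

namespace Cfsg.Agent.S2646

open Cfsg.Agent.S2581 Cfsg.Agent.Lib.H31UC Cfsg.Agent.Lib Cfsg.Agent.Lib.ClUnitary

/-- the exponent identity -/
theorem hexp {t : ℕ} (d : Fin t → ℕ) (hd : ∀ k, 1 ≤ d k) (s : ℕ) (hds : ∀ k, d k < s) :
    ∑ l, ∑ k, min (d k) (d l) = (2 * (∑ i ∈ Finset.range s, ∑ j ∈ Finset.range s, if i < j then i * (Finset.univ.filter (fun k : Fin t => d k = i)).card * (Finset.univ.filter (fun k : Fin t => d k = j)).card else 0) +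
      ∑ i ∈ Finset.range s, (i - 1) * (Finset.univ.filter (fun k : Fin t => d k = i)).card ^ 2) + ∑ i ∈ Finset.range s, (Finset.univ.filter (fun k : Fin t => d k = i)).card ^ 2 := by
  set a : ℕ → ℕ := fun i => (Finset.univ.filter (fun k : Fin t => d k = i)).card with ha
  have h1 : ∑ l, ∑ k, min (d k) (d l) = ∑ i ∈ Finset.range s, ∑ j ∈ Finset.range s, a i * (a j * min j i) := by
    rw [sum_fiber d s hds (fun i => ∑ k, min (d k) i)]
    apply Finset.sum_congr rfl
    intro i _
    rw [sum_fiber d s hds (fun j => min j i), Finset.mul_sum]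
  have h2 : ∀ i j : ℕ, a i * (a j * min j i) = (if i < j then i * a i * a j else 0) + (if j < i then j * a j * a i else 0) + (if i = j then i * a i ^ 2 else 0) := by
    intro i j
    rcases lt_trichotomy i j with h | h | h
    · rw [if_pos h, if_neg (by omega), if_neg (by omega), min_eq_right h.le]; ring
    · subst h
      rw [if_neg (lt_irrefl i), if_pos rfl, min_self]; ring
    · rw [if_neg (by omega), if_pos h, if_neg (by omega), min_eq_left h.le]; ring
  rw [h1]
  simp only [h2, Finset.sum_add_distrib]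
  have h3 : ∑ i ∈ Finset.range s, ∑ j ∈ Finset.range s, (if j < i then j * a j * a i else 0) =
      ∑ i ∈ Finset.range s, ∑ j ∈ Finset.range s, (if i < j then i * a i * a j else 0) := Finset.sum_comm
  have h4 : ∑ i ∈ Finset.range s, ∑ j ∈ Finset.range s, (if i = j then i * a i ^ 2 else 0) = ∑ i ∈ Finset.range s, i * a i ^ 2 := by
    apply Finset.sum_congr rfl
    intro i hi
    rw [Finset.sum_ite_eq, if_pos hi]
  have h5 : ∑ i ∈ Finset.range s, i * a i ^ 2 = ∑ i ∈ Finset.range s, (i - 1) * a i ^ 2 + ∑ i ∈ Finset.range s, a i ^ 2 := by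
    rw [← Finset.sum_add_distrib]
    apply Finset.sum_congr rfl
    intro i _
    rcases Nat.eq_zero_or_pos i with h | h
    · subst h
      have : a 0 = 0 := by
        rw [ha]
        simp only [Finset.card_eq_zero, Finset.filter_eq_empty_iff]
        intro k _ h0
        have := hd k
        omega
      rw [this]; ring
    · obtain ⟨i', rfl⟩ : ∃ i', i = i' + 1 := ⟨i - 1, by omega⟩
      rw [Nat.add_sub_cancel]; ring
  rw [h3, h4, h5]
  ring

/-- invertible hermitian matrices over an arbitrary index type -/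
theorem card_herm_unit {K : Type*} [Field K] [Fintype K] {q : ℕ} (hK : Fintype.card K = q ^ 2) (ι : Type*) [Fintype ι] [DecidableEq ι] :
    Nat.card {M : Matrix ι ι K // IsUnit M.det} = Nat.card {C : Hm (frob hK) ι // IsUnit C.1.det} * Nat.card (Cfsg.GU (Fintype.card ι) K q) := by
  have h1 := card_GL_herm hK (Fintype.card ι)
  have e1 : Nat.card {M : Matrix ι ι K // IsUnit M.det} = Nat.card (GL (Fin (Fintype.card ι)) K) := by
    rw [card_units, ← Matrix.card_GL_field]
  have e2 : Nat.card {C : Hm (frob hK) ι // IsUnit C.1.det} =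
      Nat.card {J : Matrix (Fin (Fintype.card ι)) (Fin (Fintype.card ι)) K // UnClass.st hK J = J ∧ IsUnit J} := by
    have e3 : {C : Hm (frob hK) ι // IsUnit C.1.det} ≃ {C : Matrix ι ι K // C ∈ Hm (frob hK) ι ∧ IsUnit C.det} :=
      Equiv.subtypeSubtypeEquivSubtypeInter (fun C => C ∈ Hm (frob hK) ι) (fun C => IsUnit C.det)
    rw [Nat.card_congr e3]
    apply Nat.card_congr
    let e := Fintype.equivFin ι
    apply (Matrix.reindex e e).subtypeEquiv
    intro M
    show cst (frob hK) M = M ∧ _ ↔ cst (frob hK) (M.submatrix e.symm e.symm) = M.submatrix e.symm e.symm ∧ IsUnit (M.submatrix e.symm e.symm)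
    rw [cst_submatrix, Matrix.isUnit_iff_isUnit_det (A := M.submatrix e.symm e.symm), Matrix.det_submatrix_equiv_self]
    constructor
    · intro h
      exact ⟨by rw [h.1], h.2⟩
    · intro h
      refine ⟨?_, h.2⟩
      have h2 := congrArg (fun Z : Matrix (Fin (Fintype.card ι)) (Fin (Fintype.card ι)) K => Z.submatrix e e) h.1
      simp only [Matrix.submatrix_submatrix] at h2
      have h3 : (e.symm : Fin (Fintype.card ι) → ι) ∘ (e : ι → Fin (Fintype.card ι)) = id := by funext x; simp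
      rw [h3, Matrix.submatrix_id_id, Matrix.submatrix_id_id] at h2
      exact h2
  rw [e1, e2]
  exact h1

theorem card_GU_int {K : Type*} [Field K] [Fintype K] {q : ℕ} (hK : Fintype.card K = q ^ 2) (a : ℕ) :
    (Nat.card (Cfsg.GU a K q) : ℤ) = (q : ℤ) ^ (a * (a - 1) / 2) * ∏ j : Fin a, ((q : ℤ) ^ ((j : ℕ) + 1) - (-1) ^ ((j : ℕ) + 1)) := by
  have hq : 1 ≤ q := by have := HermMat.two_le_q hK; omega
  rw [ClUnitary.card_GU hK a]
  push_cast
  congr 1
  rw [Finset.prod_range]
  apply Finset.prod_congr rfl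
  intro j _
  by_cases h : Even (j : ℕ)
  · rw [if_pos h, pow_succ (-1 : ℤ), h.neg_one_pow]
    ring
  · rw [if_neg h, pow_succ (-1 : ℤ), (Nat.not_even_iff_odd.mp h).neg_one_pow]
    rw [Nat.cast_sub (Nat.one_le_pow _ _ hq)]
    push_cast
    ring

/-- Order of the centraliser in the general unitary group GU_n(q) of a unipotent element of given Jordan type: if u ∈ GU_n(q) (isometries of Σ u_i v_i^q over the field with q² elements) is similar to the unipotent matrix with a_i Jordan blocks of size i (all sizes at least 1), then its centraliser in GU_n(q) has order q^γ · Π_i |GU_(a_i)(q)| with γ = 2 Σ_(i<j) i a_i a_j + Σ_i (i − 1) a_i², the same exponent as in GL_n(q), where |GU_a(q)| = q^(a(a−1)/2) Π_(k=1)^a (q^k − (−1)^k). -/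
theorem result {K : Type*} [Field K] [Fintype K] {q n t : ℕ} (hK : Fintype.card K = q ^ 2) (d : Fin t → ℕ) (hd : ∀ k, 1 ≤ d k) (e : ((k : Fin t) × Fin (d k)) ≃ Fin n) (u : ↥(Cfsg.GU n K q)) (hu : IsConj (Matrix.reindex e e (Cfsg.jordanTypeMatrix d K)) ((u : GL (Fin n) K) : Matrix (Fin n) (Fin n) K)) : (Nat.card ↥(Subgroup.centralizer ({u} : Set ↥(Cfsg.GU n K q))) : ℤ) = (q : ℤ) ^ (2 * (∑ i ∈ Finset.range (Finset.univ.sup d + 1), ∑ j ∈ Finset.range (Finset.univ.sup d + 1), if i < j then i * (Finset.univ.filter (fun k : Fin t => d k = i)).card * (Finset.univ.filter (fun k : Fin t => d k = j)).card else 0) + ∑ i ∈ Finset.range (Finset.univ.sup d + 1), (i - 1) * (Finset.univ.filter (fun k : Fin t => d k = i)).card ^ 2) * ∏ i ∈ Finset.range (Finset.univ.sup d + 1), ((q : ℤ) ^ ((Finset.univ.filter (fun k : Fin t => d k = i)).card * ((Finset.univ.filter (fun k : Fin t => d k = i)).card - 1) / 2) * ∏ j : Fin (Finset.univ.filter (fun k : Fin t => d k = i)).card, ((q : ℤ) ^ ((j :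 ℕ) + 1) - (-1) ^ ((j : ℕ) + 1))) := by
  classical
  have hq0 : 0 < q := by have := HermMat.two_le_q hK; omega
  set s := Finset.univ.sup d + 1 with hs
  have hds : ∀ k, d k < s := fun k => Nat.lt_succ_of_le (Finset.le_sup (f := d) (Finset.mem_univ k))
  set γ := 2 * (∑ i ∈ Finset.range s, ∑ j ∈ Finset.range s, if i < j then i * (Finset.univ.filter (fun k : Fin t => d k = i)).card * (Finset.univ.filter (fun k : Fin t => d k = j)).card else 0) +
      ∑ i ∈ Finset.range s, (i - 1) * (Finset.univ.filter (fun k : Fin t => d k = i)).card ^ 2 with hγ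
  have hcard : ∀ c : ℕ, Fintype.card {k // d k = c} = (Finset.univ.filter (fun k : Fin t => d k = c)).card := fun c => by rw [Fintype.card_subtype]
  obtain ⟨X, hX⟩ := hu
  have hX' : (X : Matrix (Fin n) (Fin n) K) * Matrix.reindex e e (Cfsg.jordanTypeMatrix d K) = ((u : GL (Fin n) K) : Matrix (Fin n) (Fin n) K) * (X : Matrix (Fin n) (Fin n) K) := hX
  set A : Matrix (Fin n) (Fin n) K := ((u : GL (Fin n) K) : Matrix (Fin n) (Fin n) K) with hAdef
  have hA : IsUn q A := mem_GU.mp u.2
  have hPsi : Psi d e X A = Cfsg.jordanTypeMatrix d K := by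
    rw [Psi_apply, mul_assoc, ← hX', ← mul_assoc, Units.inv_mul, one_mul, Matrix.reindex_apply, Matrix.submatrix_submatrix]
    have : (e.symm : Fin n → ((k : Fin t) × Fin (d k))) ∘ (e : ((k : Fin t) × Fin (d k)) → Fin n) = id := by funext x; simp
    rw [this, Matrix.submatrix_id_id]
  have hσ := ClUnitary.frob_frob hK
  obtain ⟨α, hα⟩ : ∃ α : K, frob hK α ≠ α := by
    obtain ⟨a, ha⟩ := UnClass.exists_unit_sub hK
    refine ⟨a, fun h => ?_⟩
    rw [h, sub_self] at ha
    exact not_isUnit_zero ha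
  obtain ⟨η, hη⟩ := exists_eta (frob hK) hσ hα
  set H₀ := HH hK d e X with hH₀
  have hI : Inv d H₀ := HH_inv hK d e hA X hPsi
  have hU : IsUnit H₀ := HH_unit hK d e X
  -- counting
  have c1 := card_norm hK hA
  rw [card_sym hK d e X hPsi, card_comm d e X hPsi, ← card_centralizer u] at c1
  have c2 : Nat.card {g : GL ((k : Fin t) × Fin (d k)) K // (g : Matrix ((k : Fin t) × Fin (d k)) ((k : Fin t) × Fin (d k)) K) * Cfsg.jordanTypeMatrix d K = Cfsg.jordanTypeMatrix d K * (g : Matrix ((k : Fin t) × Fin (d k)) ((k : Fin t) × Fin (d k)) K)} =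
      (q ^ 2) ^ γ * ∏ c : Fin s, Nat.card {M : Matrix {k // d k = (c : ℕ)} {k // d k = (c : ℕ)} K // IsUnit M.det} := by
    rw [S2581.result rfl d hd, hK, ← hs, ← hγ]
    congr 1
    rw [Finset.prod_range]
    apply Finset.prod_congr rfl
    intro c _
    rw [card_units, hcard, hK]
  have c3 := card_preimage (R (frob hK) d H₀ hd hI η hη s) (R_surjective (frob hK) d hσ hd H₀ hI hU η hη hα s)
    (fun T => ∀ c, IsUnit (T c).1.det)
  have c4 : Nat.card {a : YS (frob hK) d H₀ // IsUnit a.1} = Nat.card {a : YS (frob hK) d H₀ // ∀ c, IsUnit (R (frob hK) d H₀ hd hI η hη s a c).1.det} :=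
    Nat.card_congr (Equiv.subtypeEquivRight fun a => R_unit (frob hK) d hd H₀ hI hU η hη s hds a)
  have c5 : Nat.card ((c : Fin s) → Hm (frob hK) {k // d k = (c : ℕ)}) = q ^ (∑ i ∈ Finset.range s, (Finset.univ.filter (fun k : Fin t => d k = i)).card ^ 2) := by
    rw [Nat.card_pi, Finset.sum_range, ← Finset.prod_pow_eq_pow_sum]
    apply Finset.prod_congr rfl
    intro c _
    have h1 := card_Hm (frob hK) hσ hα {k // d k = (c : ℕ)}
    rw [show Nat.card (Matrix {k // d k = (c : ℕ)} {k // d k = (c : ℕ)} K) = Nat.card ({k // d k = (c : ℕ)} → {k // d k = (c : ℕ)} → K) from rfl,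
      Nat.card_fun, Nat.card_fun, Nat.card_eq_fintype_card, Nat.card_eq_fintype_card, hcard, hK] at h1
    have h2 : (q ^ ((Finset.univ.filter (fun k : Fin t => d k = (c : ℕ))).card ^ 2)) ^ 2 = (Nat.card (Hm (frob hK) {k // d k = (c : ℕ)})) ^ 2 := by
      rw [← h1]
      ring
    exact (Nat.pow_left_injective (n := 2) (by norm_num) h2).symm
  have c6 : Nat.card (YS (frob hK) d H₀) = q ^ γ * q ^ (∑ i ∈ Finset.range s, (Finset.univ.filter (fun k : Fin t => d k = i)).card ^ 2) := by
    have h1 := card_YS (frob hK) d hσ hd H₀ hI hU hα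
    rw [card_YT, hK, hexp d hd s hds, ← hγ] at h1
    have h2 : (q ^ γ * q ^ (∑ i ∈ Finset.range s, (Finset.univ.filter (fun k : Fin t => d k = i)).card ^ 2)) ^ 2 = (Nat.card (YS (frob hK) d H₀)) ^ 2 := by
      rw [← h1]
      ring
    exact (Nat.pow_left_injective (n := 2) (by norm_num) h2).symm
  have c7 : Nat.card {T : (c : Fin s) → Hm (frob hK) {k // d k = (c : ℕ)} // ∀ c, IsUnit (T c).1.det} =
      ∏ c : Fin s, Nat.card {C : Hm (frob hK) {k // d k = (c : ℕ)} // IsUnit C.1.det} := by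
    rw [Nat.card_congr (Equiv.subtypePiEquivPi (p := fun {c : Fin s} (C : Hm (frob hK) {k // d k = (c : ℕ)}) => IsUnit C.1.det)), Nat.card_pi]
  have c8 : Nat.card {a : YS (frob hK) d H₀ // IsUnit a.1} = q ^ γ * ∏ c : Fin s, Nat.card {C : Hm (frob hK) {k // d k = (c : ℕ)} // IsUnit C.1.det} := by
    rw [c4]
    have h1 : Nat.card {a : YS (frob hK) d H₀ // ∀ c, IsUnit (R (frob hK) d H₀ hd hI η hη s a c).1.det} * q ^ (∑ i ∈ Finset.range s, (Finset.univ.filter (fun k : Fin t => d k = i)).card ^ 2) =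
        (q ^ γ * ∏ c : Fin s, Nat.card {C : Hm (frob hK) {k // d k = (c : ℕ)} // IsUnit C.1.det}) * q ^ (∑ i ∈ Finset.range s, (Finset.univ.filter (fun k : Fin t => d k = i)).card ^ 2) := by
      rw [← c5, c3, c6, c7, c5]
      ring
    exact Nat.eq_of_mul_eq_mul_right (pow_pos hq0 _) h1
  have c9 : ∏ c : Fin s, Nat.card {M : Matrix {k // d k = (c : ℕ)} {k // d k = (c : ℕ)} K // IsUnit M.det} =
      (∏ c : Fin s, Nat.card {C : Hm (frob hK) {k // d k = (c : ℕ)} // IsUnit C.1.det}) *
        ∏ c : Fin s, Nat.card (Cfsg.GU (Finset.univ.filter (fun k : Fin t => d k = (c : ℕ))).card K q) := by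
    rw [← Finset.prod_mul_distrib]
    apply Finset.prod_congr rfl
    intro c _
    rw [card_herm_unit hK, hcard]
  have hpos : 0 < ∏ c : Fin s, Nat.card {C : Hm (frob hK) {k // d k = (c : ℕ)} // IsUnit C.1.det} := by
    apply Finset.prod_pos
    intro c _
    have h1 := card_herm_unit hK {k // d k = (c : ℕ)}
    have h2 : 0 < Nat.card {M : Matrix {k // d k = (c : ℕ)} {k // d k = (c : ℕ)} K // IsUnit M.det} := by
      have : Nonempty {M : Matrix {k // d k = (c : ℕ)} {k // d k = (c : ℕ)} K // IsUnit M.det} := ⟨⟨1, by rw [Matrix.det_one]; exact isUnit_one⟩⟩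
      exact Nat.card_pos
    rw [h1] at h2
    exact Nat.pos_of_mul_pos_right h2
  rw [c2, c8, c9] at c1
  have c10 : Nat.card (Subgroup.centralizer ({u} : Set (Cfsg.GU n K q))) = q ^ γ * ∏ c : Fin s, Nat.card (Cfsg.GU (Finset.univ.filter (fun k : Fin t => d k = (c : ℕ))).card K q) := by
    have h1 : (q ^ γ * ∏ c : Fin s, Nat.card {C : Hm (frob hK) {k // d k = (c : ℕ)} // IsUnit C.1.det}) * Nat.card (Subgroup.centralizer ({u} : Set (Cfsg.GU n K q))) =
        (q ^ γ * ∏ c : Fin s, Nat.card {C : Hm (frob hK) {k // d k = (c : ℕ)} // IsUnit C.1.det}) * (q ^ γ * ∏ c : Fin s, Nat.card (Cfsg.GU (Finset.univ.filter (fun k : Fin t => d k = (c : ℕ))).card K q)) := by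
      rw [← c1]
      ring
    exact Nat.eq_of_mul_eq_mul_left (Nat.mul_pos (pow_pos hq0 _) hpos) h1
  rw [c10]
  push_cast
  congr 1
  rw [Finset.prod_range]
  apply Finset.prod_congr rfl
  intro c _
  rw [card_GU_int hK]

end Cfsg.Agent.S2646
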