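import Cfsg.Statements.S2653
import Cfsg.Agent.Lib.AltSecP

set_option autoImplicit false
open scoped MatrixGroups
open Cfsg

namespace Cfsg.Agent.S2653

open Cfsg.Agent.AltSec in
theorem aux {F : Type*} [Field F] [Fintype F] (p : ℕ) [Fact p.Prime] [CharP F p]
    (n : ℕ) (r : ℕ) (H : Subgroup (GL (Fin n) F)) (K : Subgroup ↥H) [K.Normal]
    (e : ↥H ⧸ K ≃* ↥(alternatingGroup (Fin r))) : Sec p r n (Nat.card H) := by
  classical
  letI : Algebra (ZMod p) F := ZMod.algebra F p
  haveI : Module.Finite (ZMod p) F := Module.Finite.of_finite
  haveI : Algebra.IsAlgebraic (ZMod p) F := Algebra.IsAlgebraic.of_finite (ZMod p) F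
  let i : F →ₐ[ZMod p] KK p := IsAlgClosed.lift
  refine sec_of_field (i : F →+* KK p) ((Units.coeHom _).comp H.subtype)
    (e.toMonoidHom.comp (QuotientGroup.mk' K)) ?_ ?_
  · exact e.surjective.comp (QuotientGroup.mk'_surjective K)
  · intro h hh
    have h1 : h = 1 := by
      apply Subtype.ext
      apply Units.ext
      exact hh
    rw [h1, map_one]

/-- Alternating sections of finite linear groups. Let `F` be a finite field of characteristic `p` and `n` a natural number, and suppose some subgroup `H` of GL_n(F) has a normal subgroup `K` with `H ⧸ K` isomorphic to the alternating group of degree `r ≥ 9`. Then `n ≥ r - 2` when `p` divides `r`, and `n ≥ r - 1` otherwise (the smallest degree of a nontrivial projective representation of that alternating group in characteristic `p`). The same bound follows for every classical group with natural module of dimension `n` over `F`, since each is a section of a subgroup of GL_n(F). -/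
theorem result {F : Type*} [Field F] [Fintype F] (p : ℕ) [Fact p.Prime] [CharP F p]
    (n : ℕ) (r : ℕ) (H : Subgroup (GL (Fin n) F)) (K : Subgroup ↥H) [K.Normal]
    (h : Nonempty (↥H ⧸ K ≃* ↥(alternatingGroup (Fin r)))) (hr : 9 ≤ r) :
    r - 1 - (if p ∣ r then 1 else 0) ≤ n := by
  obtain ⟨e⟩ := h
  have h1 := Cfsg.Agent.AltSec.main r hr p n _ (aux p n r H K e)
  split_ifs at h1 ⊢ <;> omega

end Cfsg.Agent.S2653
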