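import Cfsg.Statements.S2665
import Cfsg.Agent.Lib.LangGL

set_option autoImplicit false
open scoped MatrixGroups
open Cfsg

namespace Cfsg.Agent.S2665

/-- The Lang–Steinberg Theorem for the general linear group. Let `K` be an algebraically closed field of prime characteristic `p`, let `q = p^f` with `f ≥ 1`, and let `σ` be the endomorphism of GL_n(K) raising every matrix entry to the `q`-th power. Then every element `g` of GL_n(K) can be written `g = x · σ(x)⁻¹` for some `x` in GL_n(K): the map `x ↦ x σ(x)⁻¹` is surjective. -/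
theorem result {K : Type*} [Field K] [IsAlgClosed K] (p : ℕ) [Fact p.Prime] [CharP K p]
    (f : ℕ) (hf : 1 ≤ f) (n : ℕ) (g : GL (Fin n) K) :
    ∃ x : GL (Fin n) K, g = x * (Matrix.GeneralLinearGroup.map (iterateFrobenius K p f) x)⁻¹ := by
  have hq : 2 ≤ p ^ f := by
    have h1 : 2 ≤ p := (Fact.out : p.Prime).two_le
    calc 2 ≤ p := h1
      _ = p ^ 1 := (pow_one p).symm
      _ ≤ p ^ f := Nat.pow_le_pow_right (by omega) hf
  let φ : (Fin n → K) →ₛₗ[iterateFrobenius K p f] (Fin n → K) :=
    { toFun := fun v => (g : Matrix (Fin n) (Fin n) K).mulVec (fun i => iterateFrobenius K p f (v i))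
      map_add' := fun v w => by
        rw [← Matrix.mulVec_add]; congr 1; funext i; simp
      map_smul' := fun c v => by
        rw [← Matrix.mulVec_smul]; congr 1; funext i; simp }
  have hφ : Function.Injective φ := by
    rw [injective_iff_map_eq_zero]
    intro v hv
    have h1 : (g : Matrix (Fin n) (Fin n) K).mulVec (fun i => iterateFrobenius K p f (v i)) = 0 :=
      hv
    have h2 := congrArg (((g⁻¹ : GL (Fin n) K) : Matrix (Fin n) (Fin n) K).mulVec) h1
    rw [Matrix.mulVec_mulVec, ← Matrix.GeneralLinearGroup.coe_mul, inv_mul_cancel,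
      Matrix.GeneralLinearGroup.coe_one, Matrix.one_mulVec, Matrix.mulVec_zero] at h2
    funext i
    exact (iterateFrobenius K p f).injective ((congrFun h2 i).trans (map_zero _).symm)
  obtain ⟨b, hb⟩ := Cfsg.Agent.Lib.Lang.exists_fixed_basis (n := n) hq
    (fun x => iterateFrobenius_def p f x) φ hφ (by rw [Module.finrank_pi, Fintype.card_fin])
  let X : Matrix (Fin n) (Fin n) K := (Pi.basisFun K (Fin n)).toMatrix b
  have hX : IsUnit X := by
    have := (Pi.basisFun K (Fin n)).invertibleToMatrix b
    exact isUnit_of_invertible X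
  have hXu : (hX.unit : Matrix (Fin n) (Fin n) K) = X := rfl
  refine ⟨hX.unit, ?_⟩
  rw [eq_mul_inv_iff_mul_eq]
  ext i j
  have h1 := congrFun (hb j) i
  rw [Matrix.GeneralLinearGroup.coe_mul, Matrix.mul_apply, hXu]
  have h2 : X i j = b j i := by
    simp [X, Module.Basis.toMatrix_apply]
  rw [h2, ← h1]
  have h3 : φ (b j) i = ∑ k, (g : Matrix (Fin n) (Fin n) K) i k * iterateFrobenius K p f (b j k) :=
    rfl
  rw [h3]
  apply Finset.sum_congr rfl
  intro k _
  congr 1

end Cfsg.Agent.S2665
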