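import Cfsg.Statements.S2666
import Cfsg.Agent.Lib.Shintani

set_option autoImplicit false
open Cfsg

namespace Cfsg.Agent.S2666

/-- Shintani descent, in an abstract form. Let `σ` be an automorphism of a group `X` such that the maps `a ↦ a·σ(a)⁻¹` and `a ↦ a·σᵉ(a)⁻¹` are surjective on `X` (the Lang–Steinberg property, which holds when `X` is a connected algebraic group and `σ` a Steinberg endomorphism), where `e ≥ 1`. Write `G` for the subgroup of fixed points of `σᵉ` and `H` for the subgroup of fixed points of `σ`. The `G`-conjugacy classes in the coset `G σ` of the semidirect product of `G` by `σ` correspond to the orbits of `G` on itself under twisted conjugation `g ↦ k g σ(k)⁻¹`, and the `e`-th power of `g σ` has `G`-part the norm `g σ(g) ⋯ σ^(e-1)(g)`. For `g` in `G` and any `a` with `g = a σ(a)⁻¹`, put `x = σᵉ(a)⁻¹ a`. Then: (1) `x` lies in `H`, and `a⁻¹ · (g σ(g) ⋯ σ^(e-1)(g)) · a = x`; (2) for `g,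 g'` in `G` with such elements `a, b` and `x, x'`, the elements `g, g'` are twisted-conjugate under `G` if and only if `x, x'` are conjugate in `H`; (3) every element of `H` arises as such an `x`. So `g ↦ x` induces a well-defined bijection from the twisted `G`-classes of `G` onto the conjugacy classes of `H` (the Shintani map). -/
theorem result {X : Type*} [Group X] (σ : MulAut X) (e : ℕ) (he : 1 ≤ e)
    (hL : ∀ g : X, ∃ a : X, g = a * (σ a)⁻¹) (hLe : ∀ g : X, ∃ a : X, g = a * ((σ ^ e) a)⁻¹) :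
    (∀ g ∈ (MulEquiv.toMonoidHom (σ ^ e)).eqLocus (MonoidHom.id X), ∀ a : X, g = a * (σ a)⁻¹ →
        ((σ ^ e) a)⁻¹ * a ∈ (MulEquiv.toMonoidHom σ).eqLocus (MonoidHom.id X) ∧
          a⁻¹ * ((List.range e).map (fun i => (σ ^ i) g)).prod * a = ((σ ^ e) a)⁻¹ * a) ∧
    (∀ g ∈ (MulEquiv.toMonoidHom (σ ^ e)).eqLocus (MonoidHom.id X), ∀ g' ∈ (MulEquiv.toMonoidHom (σ ^ e)).eqLocus (MonoidHom.id X), ∀ a b : X,
        g = a * (σ a)⁻¹ → g' = b * (σ b)⁻¹ →
          ((∃ k ∈ (MulEquiv.toMonoidHom (σ ^ e)).eqLocus (MonoidHom.id X), g' = k * g * (σ k)⁻¹) ↔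
            (∃ h ∈ (MulEquiv.toMonoidHom σ).eqLocus (MonoidHom.id X), ((σ ^ e) b)⁻¹ * b = h * (((σ ^ e) a)⁻¹ * a) * h⁻¹))) ∧
    (∀ x ∈ (MulEquiv.toMonoidHom σ).eqLocus (MonoidHom.id X), ∃ g ∈ (MulEquiv.toMonoidHom (σ ^ e)).eqLocus (MonoidHom.id X), ∃ a : X,
        g = a * (σ a)⁻¹ ∧ ((σ ^ e) a)⁻¹ * a = x) := by
  have hmem : ∀ y : X, y ∈ (MulEquiv.toMonoidHom (σ ^ e)).eqLocus (MonoidHom.id X) ↔ (σ ^ e) y = y := fun y => Iff.rfl
  have hmem' : ∀ y : X, y ∈ (MulEquiv.toMonoidHom σ).eqLocus (MonoidHom.id X) ↔ σ y = y := fun y => Iff.rfl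
  have pc := Cfsg.Agent.Lib.Shintani.pow_comm_apply σ e
  refine ⟨?_, ?_, ?_⟩
  · rintro g hg a rfl
    refine ⟨Cfsg.Agent.Lib.Shintani.x_fixed σ e a hg, ?_⟩
    rw [Cfsg.Agent.Lib.Shintani.norm_eq]; group
  · rintro g hg g' hg' a b rfl rfl
    rw [hmem] at hg hg'
    have hxa := Cfsg.Agent.Lib.Shintani.x_fixed σ e a hg
    have hxb := Cfsg.Agent.Lib.Shintani.x_fixed σ e b hg'
    constructor
    · rintro ⟨k, hk, h⟩
      rw [hmem] at hk
      -- b σ(b)⁻¹ = k a σ(a)⁻¹ σ(k)⁻¹ : so h := b⁻¹ k a fixed by σ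
      have h1 : σ (b⁻¹ * k * a) = b⁻¹ * k * a := by
        simp only [map_mul, map_inv]
        have : (σ b)⁻¹ = b⁻¹ * (k * (a * (σ a)⁻¹) * (σ k)⁻¹) := by rw [← h]; group
        rw [this]; group
      refine ⟨b⁻¹ * k * a, h1, ?_⟩
      have h2 := Cfsg.Agent.Lib.Shintani.fixed_pow σ e _ h1
      simp only [map_mul, map_inv, hk] at h2
      have h3 : ((σ ^ e) b)⁻¹ = b⁻¹ * k * a * ((σ ^ e) a)⁻¹ * k⁻¹ := by rw [← h2]; group
      rw [h3]; group
    · rintro ⟨h, hh, h0⟩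
      rw [hmem'] at hh
      refine ⟨b * h * a⁻¹, ?_, ?_⟩
      · rw [hmem]
        have h2 := Cfsg.Agent.Lib.Shintani.fixed_pow σ e _ hh
        simp only [map_mul, map_inv, h2]
        have h3 : (σ ^ e) b = b * (h * (((σ ^ e) a)⁻¹ * a) * h⁻¹)⁻¹ := by rw [← h0]; group
        rw [h3]; group
      · simp only [map_mul, map_inv, hh]
        group
  · intro x hx
    rw [hmem'] at hx
    obtain ⟨b, hb⟩ := hLe x⁻¹
    have hx1 : (σ ^ e) b⁻¹ = b⁻¹ * x⁻¹ := by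
      rw [map_inv, hb]; group
    refine ⟨b⁻¹ * (σ b⁻¹)⁻¹, ?_, b⁻¹, rfl, ?_⟩
    · rw [hmem, map_mul, hx1, map_inv (σ ^ e) (σ b⁻¹), pc, hx1, map_mul, map_inv σ x, hx]; group
    · rw [hx1]; group

end Cfsg.Agent.S2666
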