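import Cfsg.Statements.S2667
import Cfsg.Agent.Lib.Shintani

set_option autoImplicit false
open Cfsg

namespace Cfsg.Agent.S2667

/-- Shintani descent, in an abstract form. Let `σ` be an automorphism of a group `X` and `e ≥ 1` (no surjectivity of the Lang maps is needed for this part; in the classical setting `X` is a connected algebraic group and `σ` a Steinberg endomorphism). Write `G` for the subgroup of fixed points of `σᵉ` and `H` for the subgroup of fixed points of `σ`. The `G`-conjugacy classes in the coset `G σ` of the semidirect product of `G` by `σ` correspond to the orbits of `G` on itself under twisted conjugation `g ↦ k g σ(k)⁻¹`, and the `e`-th power of `g σ` has `G`-part the norm `g σ(g) ⋯ σ^(e-1)(g)`. For `g` in `G` and any `a` with `g = a σ(a)⁻¹`, put `x = σᵉ(a)⁻¹ a`. Then conjugation by `a⁻¹` carries the twisted centralizer `{k ∈ G : k g σ(k)⁻¹ = g}` (the centralizer of `g σ` in `G`) exactly onto the centralizer of `x`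 in `H`: an element `k` of `X` lies in `G` and satisfies `k g σ(k)⁻¹ = g` if and only if `a⁻¹ k a` lies in `H` and commutes with `x`. In particular the two centralizers are conjugate in `X` and have the same order. -/
theorem result {X : Type*} [Group X] (σ : MulAut X) (e : ℕ) (he : 1 ≤ e)
    (g : X) (hg : g ∈ (MulEquiv.toMonoidHom (σ ^ e)).eqLocus (MonoidHom.id X)) (a : X) (ha : g = a * (σ a)⁻¹) (k : X) :
    (k ∈ (MulEquiv.toMonoidHom (σ ^ e)).eqLocus (MonoidHom.id X) ∧ k * g * (σ k)⁻¹ = g) ↔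
      (a⁻¹ * k * a ∈ (MulEquiv.toMonoidHom σ).eqLocus (MonoidHom.id X) ∧
        (a⁻¹ * k * a) * (((σ ^ e) a)⁻¹ * a) = (((σ ^ e) a)⁻¹ * a) * (a⁻¹ * k * a)) := by
  have hg' : (σ ^ e) g = g := hg
  subst ha
  have h1 : (k * (a * (σ a)⁻¹) * (σ k)⁻¹ = a * (σ a)⁻¹) ↔ σ (a⁻¹ * k * a) = a⁻¹ * k * a := by
    simp only [map_mul, map_inv]
    constructor
    · intro h
      have : a⁻¹ * (k * (a * (σ a)⁻¹) * (σ k)⁻¹) * (σ k * σ a) = a⁻¹ * (a * (σ a)⁻¹) * (σ k * σ a) := by rw [h]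
      have h3 : a⁻¹ * (k * (a * (σ a)⁻¹) * (σ k)⁻¹) * (σ k * σ a) = a⁻¹ * k * a := by group
      have h4 : a⁻¹ * (a * (σ a)⁻¹) * (σ k * σ a) = (σ a)⁻¹ * σ k * σ a := by group
      rw [h3, h4] at this
      exact this.symm
    · intro h
      have h3 : σ k = σ a * (a⁻¹ * k * a) * (σ a)⁻¹ := by rw [← h]; group
      rw [h3]; group
  have hmem : ∀ y : X, y ∈ (MulEquiv.toMonoidHom (σ ^ e)).eqLocus (MonoidHom.id X) ↔ (σ ^ e) y = y := fun y => Iff.rfl
  have hmem' : ∀ y : X, y ∈ (MulEquiv.toMonoidHom σ).eqLocus (MonoidHom.id X) ↔ σ y = y := fun y => Iff.rfl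
  rw [h1, hmem, hmem', and_comm]
  apply and_congr_right
  intro hc
  have hc' : (σ ^ e) (a⁻¹ * k * a) = a⁻¹ * k * a := Cfsg.Agent.Lib.Shintani.fixed_pow σ e _ hc
  set c := a⁻¹ * k * a with hcdef
  have hk : k = a * c * a⁻¹ := by rw [hcdef]; group
  rw [hk, map_mul, map_mul, map_inv, hc']
  constructor
  · intro h
    have h5 : c * a⁻¹ = a⁻¹ * ((σ ^ e) a * c * ((σ ^ e) a)⁻¹) := by rw [h]; group
    have h6 : ((σ ^ e) a)⁻¹ * (a * (c * a⁻¹)) = c * ((σ ^ e) a)⁻¹ := by rw [h5]; group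
    calc c * (((σ ^ e) a)⁻¹ * a) = (c * ((σ ^ e) a)⁻¹) * a := by group
      _ = (((σ ^ e) a)⁻¹ * (a * (c * a⁻¹))) * a := by rw [h6]
      _ = _ := by group
  · intro h
    have h7 : c * ((σ ^ e) a)⁻¹ = (((σ ^ e) a)⁻¹ * a * c) * a⁻¹ := by rw [← h]; group
    calc (σ ^ e) a * c * ((σ ^ e) a)⁻¹ = (σ ^ e) a * (c * ((σ ^ e) a)⁻¹) := by group
      _ = _ := by rw [h7]; group

end Cfsg.Agent.S2667
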