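import Cfsg.Statements.S2669

set_option autoImplicit false
open Cfsg

namespace Cfsg.Agent.S2669

/-- number of solutions `y ∈ Y` of `y * (τ y)⁻¹ = c`. -/
theorem card_fiber {X : Type*} [Group X] (τ : MulAut X) (Y : Subgroup X) (c : X)
    (y₀ : X) (hy₀ : y₀ ∈ Y) (hc : c = y₀ * (τ y₀)⁻¹) :
    Nat.card {y : X // y ∈ Y ∧ c = y * (τ y)⁻¹} =
      Nat.card ↥(Y ⊓ (MulEquiv.toMonoidHom τ).eqLocus (MonoidHom.id X)) := by
  refine Nat.card_congr ⟨fun y => ⟨y₀⁻¹ * y.1, ?_⟩, fun z => ⟨y₀ * z.1, ?_⟩, ?_, ?_⟩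
  · obtain ⟨y, hy, h⟩ := y
    refine ⟨Y.mul_mem (Y.inv_mem hy₀) hy, ?_⟩
    show τ (y₀⁻¹ * y) = y₀⁻¹ * y
    rw [map_mul, map_inv]
    rw [hc] at h
    -- y₀ * (τ y₀)⁻¹ = y * (τ y)⁻¹
    have h2 : (τ y₀)⁻¹ = y₀⁻¹ * y * (τ y)⁻¹ := by
      rw [mul_assoc, ← h]; group
    rw [h2]; group
  · obtain ⟨z, hz, h⟩ := z
    refine ⟨Y.mul_mem hy₀ hz, ?_⟩
    have h' : τ z = z := h
    rw [map_mul, h', hc]; group
  · intro y
    ext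
    simp
  · intro z
    ext
    simp

/-- Shintani descent preserves numbers of fixed points on coset spaces (abstract form). -/
theorem result {X : Type*} [Group X] (σ : MulAut X) (e : ℕ) (he : 1 ≤ e)
    [Finite ↥((MulEquiv.toMonoidHom (σ ^ e)).eqLocus (MonoidHom.id X))]
    (Y : Subgroup X) (hY : ∀ y : X, y ∈ Y ↔ σ y ∈ Y)
    (hYL : ∀ y ∈ Y, ∃ a ∈ Y, y = a * (σ a)⁻¹) (hYLe : ∀ y ∈ Y, ∃ a ∈ Y, y = a * ((σ ^ e) a)⁻¹)
    (g : X) (hg : g ∈ (MulEquiv.toMonoidHom (σ ^ e)).eqLocus (MonoidHom.id X)) (a : X) (ha : g = a * (σ a)⁻¹) :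
    Nat.card {k : ↥((MulEquiv.toMonoidHom (σ ^ e)).eqLocus (MonoidHom.id X)) // (k : X)⁻¹ * g * σ k ∈ Y} *
        Nat.card ↥(Y ⊓ (MulEquiv.toMonoidHom σ).eqLocus (MonoidHom.id X)) =
      Nat.card {h : ↥((MulEquiv.toMonoidHom σ).eqLocus (MonoidHom.id X)) // (h : X)⁻¹ * (((σ ^ e) a)⁻¹ * a) * h ∈ Y} *
        Nat.card ↥(Y ⊓ (MulEquiv.toMonoidHom (σ ^ e)).eqLocus (MonoidHom.id X)) := by
  classical
  have hHe : ∀ x : X, σ x = x → (σ ^ e) x = x := by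
    intro x hx
    have : ∀ j : ℕ, (σ ^ j) x = x := by
      intro j
      induction j with
      | zero => simp
      | succ j ih => rw [pow_succ, MulAut.mul_apply, hx, ih]
    exact this e
  have hHG : (MulEquiv.toMonoidHom σ).eqLocus (MonoidHom.id X) ≤
      (MulEquiv.toMonoidHom (σ ^ e)).eqLocus (MonoidHom.id X) := fun x hx => hHe x hx
  have : Finite ↥((MulEquiv.toMonoidHom σ).eqLocus (MonoidHom.id X)) :=
    Finite.of_injective (Subgroup.inclusion hHG) (Subgroup.inclusion_injective hHG)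
  have a1 : ∀ k h : X, k⁻¹ * g * σ k = k⁻¹ * a * h * ((σ k)⁻¹ * σ a * h)⁻¹ := by
    intro k h
    rw [ha]; group
  have a2 : ∀ k y : X, k⁻¹ * g * σ k = y * (σ y)⁻¹ → σ (a⁻¹ * k * y) = a⁻¹ * k * y := by
    intro k y h1
    rw [map_mul, map_mul, map_inv]
    have h2 : σ y = (k⁻¹ * g * σ k)⁻¹ * y := by rw [h1]; group
    rw [h2, ha]; group
  have a3 : ∀ h y : X, (σ ^ e) h = h → (h⁻¹ * (((σ ^ e) a)⁻¹ * a) * h)⁻¹ = y * ((σ ^ e) y)⁻¹ →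
      (σ ^ e) (a * h * y) = a * h * y := by
    intro h y hhe h1
    rw [map_mul, map_mul, hhe]
    have h2 : (σ ^ e) y = (h⁻¹ * (((σ ^ e) a)⁻¹ * a) * h) * y := by
      rw [eq_comm, ← inv_inj, mul_inv_rev, h1]; group
    rw [h2]; group
  -- first fibre
  have f1 : ∀ k : {k : ↥((MulEquiv.toMonoidHom (σ ^ e)).eqLocus (MonoidHom.id X)) // (k : X)⁻¹ * g * σ k ∈ Y},
      Nat.card {h : ↥((MulEquiv.toMonoidHom σ).eqLocus (MonoidHom.id X)) // (k.1 : X)⁻¹ * a * h ∈ Y} =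
        Nat.card ↥(Y ⊓ (MulEquiv.toMonoidHom σ).eqLocus (MonoidHom.id X)) := by
    rintro ⟨⟨k, hk⟩, hk2⟩
    obtain ⟨y₀, hy₀, hy₀'⟩ := hYL _ hk2
    rw [← card_fiber σ Y _ y₀ hy₀ hy₀']
    refine Nat.card_congr ⟨fun h => ⟨k⁻¹ * a * h.1.1, h.2, ?_⟩, fun y => ⟨⟨a⁻¹ * k * y.1, ?_⟩, ?_⟩, ?_, ?_⟩
    · have h1 : σ h.1.1 = h.1.1 := h.1.2
      show k⁻¹ * g * σ k = _
      rw [map_mul, map_mul, map_inv, h1]
      exact a1 k h.1.1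
    · exact a2 k y.1 y.2.2
    · show k⁻¹ * a * (a⁻¹ * k * y.1) ∈ Y
      have : k⁻¹ * a * (a⁻¹ * k * y.1) = y.1 := by group
      rw [this]; exact y.2.1
    · intro h
      apply Subtype.ext; apply Subtype.ext
      show a⁻¹ * k * (k⁻¹ * a * h.1.1) = h.1.1
      group
    · intro y
      apply Subtype.ext
      show k⁻¹ * a * (a⁻¹ * k * y.1) = y.1
      group
  have f2 : ∀ h : {h : ↥((MulEquiv.toMonoidHom σ).eqLocus (MonoidHom.id X)) // (h : X)⁻¹ * (((σ ^ e) a)⁻¹ * a) * h ∈ Y},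
      Nat.card {k : ↥((MulEquiv.toMonoidHom (σ ^ e)).eqLocus (MonoidHom.id X)) // (k : X)⁻¹ * a * h.1 ∈ Y} =
        Nat.card ↥(Y ⊓ (MulEquiv.toMonoidHom (σ ^ e)).eqLocus (MonoidHom.id X)) := by
    rintro ⟨⟨h, hh⟩, hh2⟩
    have hhe : (σ ^ e) h = h := hHe h hh
    have hc : (h⁻¹ * (((σ ^ e) a)⁻¹ * a) * h)⁻¹ ∈ Y := Y.inv_mem hh2
    obtain ⟨y₀, hy₀, hy₀'⟩ := hYLe _ hc
    rw [← card_fiber (σ ^ e) Y _ y₀ hy₀ hy₀']
    refine Nat.card_congr ⟨fun k => ⟨(k.1.1⁻¹ * a * h)⁻¹, Y.inv_mem k.2, ?_⟩,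
      fun y => ⟨⟨a * h * y.1, ?_⟩, ?_⟩, ?_, ?_⟩
    · have h1 : (σ ^ e) k.1.1 = k.1.1 := k.1.2
      show _ = (k.1.1⁻¹ * a * h)⁻¹ * ((σ ^ e) (k.1.1⁻¹ * a * h)⁻¹)⁻¹
      rw [map_inv, map_mul, map_mul, map_inv, h1, hhe]; group
    · exact a3 h y.1 hhe y.2.2
    · show (a * h * y.1)⁻¹ * a * h ∈ Y
      have : (a * h * y.1)⁻¹ * a * h = y.1⁻¹ := by group
      rw [this]; exact Y.inv_mem y.2.1
    · intro k
      apply Subtype.ext; apply Subtype.ext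
      show a * h * (k.1.1⁻¹ * a * h)⁻¹ = k.1.1
      group
    · intro y
      apply Subtype.ext
      show ((a * h * y.1)⁻¹ * a * h)⁻¹ = y.1
      group
  have e1 : Nat.card (Σ k : {k : ↥((MulEquiv.toMonoidHom (σ ^ e)).eqLocus (MonoidHom.id X)) // (k : X)⁻¹ * g * σ k ∈ Y},
      {h : ↥((MulEquiv.toMonoidHom σ).eqLocus (MonoidHom.id X)) // (k.1 : X)⁻¹ * a * h ∈ Y}) =
     Nat.card (Σ h : {h : ↥((MulEquiv.toMonoidHom σ).eqLocus (MonoidHom.id X)) // (h : X)⁻¹ * (((σ ^ e) a)⁻¹ * a) * h ∈ Y},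
      {k : ↥((MulEquiv.toMonoidHom (σ ^ e)).eqLocus (MonoidHom.id X)) // (k : X)⁻¹ * a * h.1 ∈ Y}) := by
    refine Nat.card_congr ⟨fun p => ⟨⟨p.2.1, ?_⟩, ⟨p.1.1, p.2.2⟩⟩, fun p => ⟨⟨p.2.1, ?_⟩, ⟨p.1.1, p.2.2⟩⟩, ?_, ?_⟩
    · obtain ⟨⟨⟨k, hk⟩, hk2⟩, ⟨⟨h, hh⟩, hh2⟩⟩ := p
      show h⁻¹ * (((σ ^ e) a)⁻¹ * a) * h ∈ Y
      have hh2 : k⁻¹ * a * h ∈ Y := hh2
      have hhe : (σ ^ e) h = h := hHe h hh
      have hke : (σ ^ e) k = k := hk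
      have hYe : ∀ y ∈ Y, (σ ^ e) y ∈ Y := by
        have : ∀ j : ℕ, ∀ y ∈ Y, (σ ^ j) y ∈ Y := by
          intro j
          induction j with
          | zero => intro y hy; simpa using hy
          | succ j ih => intro y hy; rw [pow_succ, MulAut.mul_apply]; exact ih _ ((hY y).1 hy)
        exact this e
      have h3 := Y.mul_mem (Y.inv_mem (hYe _ hh2)) hh2
      have h4 : ((σ ^ e) (k⁻¹ * a * h))⁻¹ * (k⁻¹ * a * h) = h⁻¹ * (((σ ^ e) a)⁻¹ * a) * h := by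
        rw [map_mul, map_mul, map_inv, hhe, hke]; group
      rw [h4] at h3
      exact h3
    · obtain ⟨⟨⟨h, hh⟩, hh2⟩, ⟨⟨k, hk⟩, hk2⟩⟩ := p
      show k⁻¹ * g * σ k ∈ Y
      have hk2 : k⁻¹ * a * h ∈ Y := hk2
      have hh' : σ h = h := hh
      have h3 := Y.mul_mem hk2 (Y.inv_mem ((hY _).1 hk2))
      have h4 : (k⁻¹ * a * h) * (σ (k⁻¹ * a * h))⁻¹ = k⁻¹ * g * σ k := by
        rw [map_mul, map_mul, map_inv, hh', ha]; group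
      rw [h4] at h3
      exact h3
    · intro p; rfl
    · intro p; rfl
  have fin1 : Fintype {k : ↥((MulEquiv.toMonoidHom (σ ^ e)).eqLocus (MonoidHom.id X)) // (k : X)⁻¹ * g * σ k ∈ Y} :=
    Fintype.ofFinite _
  have fin2 : Fintype {h : ↥((MulEquiv.toMonoidHom σ).eqLocus (MonoidHom.id X)) // (h : X)⁻¹ * (((σ ^ e) a)⁻¹ * a) * h ∈ Y} :=
    Fintype.ofFinite _
  rw [Nat.card_sigma, Nat.card_sigma, Finset.sum_congr rfl (fun k _ => f1 k), Finset.sum_congr rfl (fun k _ => f2 k),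
    Finset.sum_const, Finset.sum_const, smul_eq_mul, smul_eq_mul] at e1
  rw [Finset.card_univ, Finset.card_univ, ← Nat.card_eq_fintype_card, ← Nat.card_eq_fintype_card] at e1
  exact e1

end Cfsg.Agent.S2669
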