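import Cfsg.Statements.S2670
import Cfsg.Agent.Lib.PrProj2
import Cfsg.Agent.Lib.PrProj3

set_option autoImplicit false
open Cfsg

namespace Cfsg.Agent.S2670

open Cfsg.Agent.Lib.PrCount

/-- Number of conjugacy classes of elements of prime order r in PGL_n(q) = GL_n(q)/scalars when r divides q − 1 (n ≥ 2): the classes of elements with a diagonalisable lift correspond to the orbits of the cyclic rotation on the r-tuples of eigenvalue multiplicities (a_0, …, a_(r−1)) summing to n with every a_j < n, and when r divides n there are r − 1 further classes (lifts acting irreducibly on blocks of size r); in all (C(n+r−1, r−1) − r − [r ∣ n])/r + r·[r ∣ n] classes. -/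
theorem result {F : Type*} [Field F] [Fintype F] {q : ℕ} (hF : Fintype.card F = q) {n r : ℕ} (hn : 2 ≤ n) (hr : r.Prime) (hrq : r ∣ q - 1) : Nat.card {C : ConjClasses (GL (Fin n) F ⧸ Subgroup.center (GL (Fin n) F)) // ∃ g : GL (Fin n) F ⧸ Subgroup.center (GL (Fin n) F), ConjClasses.mk g = C ∧ orderOf g = r} = (Nat.choose (n + r - 1) (r - 1) - r - (if r ∣ n then 1 else 0)) / r + r * (if r ∣ n then 1 else 0) := by
  classical
  have hrf : Fact r.Prime := ⟨hr⟩
  obtain ⟨p, hp⟩ := CharP.exists F
  have hpf : Fact p.Prime := ⟨CharP.char_is_prime F p⟩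
  obtain ⟨e0, -, he0⟩ := FiniteField.card F p
  have hq1 : 1 < Fintype.card F := Fintype.one_lt_card
  have hrp : r ≠ p := by
    rintro rfl
    have h1 : r ∣ q := by rw [← hF, he0]; exact dvd_pow_self r e0.2.ne'
    have h2 := (Nat.dvd_sub_iff_right (by omega) h1).1 hrq
    exact hr.one_lt.ne' (Nat.dvd_one.1 h2)
  have htop : ∀ g : (⊤ : Subgroup (GL (Fin n) F)), g ∈ Subgroup.center (⊤ : Subgroup (GL (Fin n) F)) ↔ (g : GL (Fin n) F) ∈ Subgroup.center (GL (Fin n) F) := by
    intro g
    rw [Subgroup.mem_center_iff, Subgroup.mem_center_iff]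
    constructor
    · intro h x
      exact congrArg Subtype.val (h ⟨x, trivial⟩)
    · intro h x
      exact Subtype.ext (h x)
  have hcard : Nat.card (⊤ : Subgroup Fˣ) = q - 1 := by
    rw [Nat.card_congr (Subgroup.topEquiv (G := Fˣ)).toEquiv, Nat.card_eq_fintype_card, Fintype.card_units, hF]
  have key := proj_count p (AlgebraicClosure F) (n := n) (r := r) (K := F) (by omega) hrp (by rw [hF]; exact hrq) ⊤ ⊤ (by
      intro g
      rw [htop, Matrix.GeneralLinearGroup.center_eq_range_scalar, MonoidHom.mem_range]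
      constructor
      · rintro ⟨c, hc⟩
        exact ⟨c, trivial, hc.symm⟩
      · rintro ⟨c, -, hc⟩
        exact ⟨c, hc.symm⟩) (fun c _ => trivial) (by
      intro g h hc
      obtain ⟨c, hc⟩ := isConj_iff.1 hc
      rw [isConj_iff]
      exact ⟨⟨c, trivial⟩, Subtype.ext hc⟩) (fun A c _ _ => ⟨⟨A, trivial⟩, IsConj.refl A⟩) (by
      intro c _ hc b hb
      apply hc
      have hb0 : b ≠ 0 := by
        rintro rfl
        rw [zero_pow hr.ne_zero] at hb
        exact c.ne_zero hb.symm
      have h1 : c = (Units.mk0 b hb0) ^ r := Units.ext hb.symm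
      rw [h1, ← pow_mul, hcard, Nat.mul_div_cancel' hrq, ← hF, ← Fintype.card_units]
      exact pow_card_eq_one) (by rw [hcard]; exact hrq)
  rw [← key]
  have hmap : (Subgroup.center (⊤ : Subgroup (GL (Fin n) F))).map (Subgroup.topEquiv (G := GL (Fin n) F)).toMonoidHom = Subgroup.center (GL (Fin n) F) := by
    ext x
    constructor
    · rintro ⟨g, hg, rfl⟩
      exact (htop g).1 hg
    · intro hx
      exact ⟨⟨x, trivial⟩, (htop ⟨x, trivial⟩).2 hx, rfl⟩
  exact (classes_congr (QuotientGroup.congr _ _ Subgroup.topEquiv hmap) r).symm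

end Cfsg.Agent.S2670
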