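import Cfsg.Statements.S2671
import Cfsg.Agent.Lib.PrCount4
import Cfsg.Agent.Lib.GLClass
import Cfsg.Agent.Lib.ClUnitary2
import Cfsg.Agent.S2587
import Cfsg.Agent.S2588

set_option autoImplicit false
open Cfsg

namespace Cfsg.Agent.S2671

open Cfsg.Agent.Lib.PrCount Cfsg.Agent.Lib.ClUnitary Matrix

/-- Number of conjugacy classes of elements of odd prime order r in the general unitary group GU_n(q), for r not dividing q(q + 1): let i be the multiplicative order of q modulo r, b = i if i is odd and b = i/2 if i is even, and s = (r − 1)/b. If i ≢ 2 (mod 4) the eigenvalue orbits pair off into dual pairs of totally isotropic blocks and there are C(⌊n/(2b)⌋ + s/2, s/2) − 1 classes; if i ≡ 2 (mod 4) each orbit gives a non-degenerate block of dimension i/2 and there are C(⌊2n/i⌋ + s, s) − 1 classes. -/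
theorem result {K : Type*} [Field K] [Fintype K] {p q n r i b s : ℕ} [Fact p.Prime] [CharP K p] (hK : Fintype.card K = q ^ 2) (hr : r.Prime) (hr2 : r ≠ 2) (hrp : r ≠ p) (hi : i = orderOf (q : ZMod r)) (hi2 : i ≠ 2) (hb : b = if Odd i then i else i / 2) (hs : s * b = r - 1) : Nat.card {C : ConjClasses ↥(Cfsg.GU n K q) // ∃ g : ↥(Cfsg.GU n K q), ConjClasses.mk g = C ∧ orderOf g = r} = if i % 4 = 2 then Nat.choose (2 * n / i + s) s - 1 else Nat.choose (n / (2 * b) + s / 2) (s / 2) - 1 := by
  classical
  have hrf : Fact r.Prime := ⟨hr⟩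
  -- q is a power of p, coprime to r
  obtain ⟨a, -, ha⟩ := FiniteField.card K p
  have hqr : q.Coprime r := by
    have h1 : (q ^ 2).Coprime r := by
      rw [← hK, ha]
      exact Nat.Coprime.pow_left _ ((Nat.coprime_primes Fact.out hr).2 (Ne.symm hrp))
    exact Nat.Coprime.coprime_dvd_left (dvd_pow_self q (by norm_num)) h1
  obtain ⟨e, -, he⟩ := (Nat.dvd_prime_pow (Fact.out : p.Prime)).1 (show q ∣ p ^ (a : ℕ) by
    rw [← ha, hK]; exact dvd_pow_self q (by norm_num))
  let u : (ZMod r)ˣ := ZMod.unitOfCoprime q hqr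
  have hu : (u : ZMod r) = q := rfl
  have hiu : i = orderOf u := by rw [hi, ← hu, orderOf_units]
  -- the algebraic closure
  have hrK : ((r : ℕ) : AlgebraicClosure K) ≠ 0 := by
    have : CharP (AlgebraicClosure K) p := charP_of_injective_algebraMap (algebraMap K (AlgebraicClosure K)).injective p
    rw [Ne, CharP.cast_eq_zero_iff _ p]
    intro h
    exact hrp ((Nat.prime_dvd_prime_iff_eq Fact.out hr).1 h).symm
  have : NeZero ((r : ℕ) : AlgebraicClosure K) := ⟨hrK⟩
  obtain ⟨ζ, hζ⟩ := HasEnoughRootsOfUnity.exists_primitiveRoot (AlgebraicClosure K) r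
  obtain ⟨φ, hφ⟩ := exists_frob (F := K) (L := AlgebraicClosure K) p e
  rw [← he] at hφ
  let H : Subgroup (ZMod r)ˣ := Subgroup.zpowers (-u)
  have := Fintype.ofFinite ((ZMod r)ˣ ⧸ H)
  -- twisting
  have htw : ∀ (A : Matrix (Fin n) (Fin n) K) (k : ZMod r), mu ζ (A.map (frob hK)) ((q : ZMod r) * k) = mu ζ A k :=
    fun A k => mu_map hζ (frob hK) q φ (fun x => by rw [hφ, frob_apply, map_pow]) (fun k => hφ _) A k
  have hunit : ∀ (g : GL (Fin n) K), IsUnit ((g : Matrix (Fin n) (Fin n) K)ᵀ) := by
    intro g
    rw [Matrix.isUnit_iff_isUnit_det, Matrix.det_transpose, ← Matrix.isUnit_iff_isUnit_det]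
    exact Units.isUnit g
  have key := count_general (F := K) hζ p hrp (Cfsg.GU n K q).subtype (Subgroup.subtype_injective _)
    (fun g h _ _ hc => (S2587.result hK g h).2 hc) {m : ZMod r → ℕ | IsInv H m ∧ ∑ k, m k = n} (by
      intro m
      constructor
      · rintro ⟨hinv, hsum⟩
        rw [isInv_zpowers] at hinv
        have hinv' : ∀ k : ZMod r, m (-((q : ZMod r)) * k) = m k := by
          intro k
          have := hinv k
          rwa [Units.val_neg, hu] at this
        obtain ⟨A, hA, -, hAm⟩ := exists_GL hζ p (n := n) (m := m) (by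
          intro k
          have h1 := hinv' (-(q : ZMod r) * k)
          rw [hinv' k] at h1
          rw [← h1, hK]
          congr 1
          push_cast
          ring) (by
            rw [hK]
            push_cast
            exact pow_ne_zero _ u.ne_zero) hsum
        -- the twisted matrix
        have hfr : IsUnit ((A : Matrix (Fin n) (Fin n) K).map (frob hK)) :=
          (Units.isUnit A).map (RingHom.mapMatrix (frob hK))
        have hfrt : IsUnit (((A : Matrix (Fin n) (Fin n) K).map (frob hK))ᵀ) := by
          rw [Matrix.isUnit_iff_isUnit_det, Matrix.det_transpose, ← Matrix.isUnit_iff_isUnit_det]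
          exact hfr
        have hAm' : (A : Matrix (Fin n) (Fin n) K) ^ r = 1 := by
          rw [← Units.val_pow_eq_pow_val, hA]; rfl
        obtain ⟨B, hB⟩ : ∃ B : GL (Fin n) K, (B : Matrix (Fin n) (Fin n) K) =
            (((A : Matrix (Fin n) (Fin n) K).map (frob hK))ᵀ)⁻¹ := by
          obtain ⟨C, hC⟩ := hfrt
          exact ⟨C⁻¹, by rw [Matrix.coe_units_inv, hC]⟩
        have hBinv : (B⁻¹ : GL (Fin n) K).1 = ((A : Matrix (Fin n) (Fin n) K).map (frob hK))ᵀ := by
          rw [Matrix.coe_units_inv, hB, Matrix.nonsing_inv_nonsing_inv]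
          rw [← Matrix.isUnit_iff_isUnit_det]; exact hfrt
        have hBr : B ^ r = 1 := by
          have h1 : (B⁻¹) ^ r = 1 := by
            apply Units.ext
            rw [Units.val_pow_eq_pow_val, hBinv, ← Matrix.transpose_pow, ← Matrix.map_pow, hAm',
              Matrix.map_one _ (map_zero _) (map_one _), Matrix.transpose_one]; rfl
          rw [inv_pow, inv_eq_one] at h1
          exact h1
        have hBm : ∀ k : ZMod r, mu ζ (B : Matrix (Fin n) (Fin n) K) k = m k := by
          intro k
          obtain ⟨k', rfl⟩ : ∃ k', k = -((q : ZMod r) * k') := by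
            refine ⟨-((u⁻¹ : (ZMod r)ˣ) : ZMod r) * k, ?_⟩
            rw [← hu, ← mul_assoc, mul_neg, ← Units.val_mul, mul_inv_cancel]
            simp
          have h1 := mu_inv hζ hfrt ((q : ZMod r) * k')
          rw [hB, h1, mu_congr (Matrix.charpoly_transpose _), htw, hAm, ← hinv' k', neg_mul]
        have hconj : IsConj A B := by
          rw [conj_iff hζ p hrp hA hBr]
          intro k
          rw [hAm, hBm]
        have hex : ∃ C : ↥(Cfsg.GU n K q), IsConj A (C : GL (Fin n) K) := by
          rw [S2588.result hK A]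
          rw [Lib.GLClass.isConj_iff_coe, hB] at hconj
          exact hconj
        obtain ⟨C, hC⟩ := hex
        obtain ⟨c, hc⟩ := isConj_iff.1 hC
        refine ⟨C, ?_, ?_⟩
        · apply Subtype.ext
          show (C : GL (Fin n) K) ^ r = 1
          rw [← hc, conj_pow, hA]; group
        · intro k
          rw [← hAm]
          apply mu_congr
          show (C : GL (Fin n) K).1.charpoly = _
          rw [← hc, Units.val_mul, Units.val_mul, Matrix.coe_units_inv]
          exact Matrix.charpoly_units_conj c _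
      · rintro ⟨g, hg, hgm⟩
        have hgr : ((g : GL (Fin n) K) : Matrix (Fin n) (Fin n) K) ^ r = 1 := by
          have h1 : (g : GL (Fin n) K) ^ r = 1 := congrArg Subtype.val hg
          rw [← Units.val_pow_eq_pow_val, h1]; rfl
        have hgU : IsUn q ((g : GL (Fin n) K) : Matrix (Fin n) (Fin n) K) := g.2
        rw [isUn_iff hK] at hgU
        have h1 : ((g : GL (Fin n) K) : Matrix (Fin n) (Fin n) K).map (frob hK) =
            (((g : GL (Fin n) K) : Matrix (Fin n) (Fin n) K)ᵀ)⁻¹ := (Matrix.inv_eq_right_inv hgU).symm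
        refine ⟨?_, ?_⟩
        · rw [isInv_zpowers]
          intro k
          rw [← hgm, ← hgm, Units.val_neg, hu]
          have h2 := htw ((g : GL (Fin n) K) : Matrix (Fin n) (Fin n) K) k
          have h3 := mu_inv hζ (hunit g) (-((q : ZMod r) * k))
          rw [neg_neg, ← h1, h2, mu_congr (Matrix.charpoly_transpose _)] at h3
          rw [neg_mul]
          exact h3.symm
        · rw [← Finset.sum_congr rfl fun k _ => hgm k]
          have := sum_mu hζ (RR_of_pow (L := AlgebraicClosure K) hgr)
          rwa [Fintype.card_fin] at this)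
  rw [key]
  have hcard : Nat.card {m : ZMod r → ℕ | IsInv H m ∧ ∑ k, m k = n} = _ := card_inv H n
  rw [hcard]
  have horb := card_orbits H
  have hH : Nat.card H = orderOf (-u) := Nat.card_zpowers _
  have hupos := orderOf_pos u
  have hr1 : 0 < r - 1 := by have := hr.two_le; omega
  split_ifs with h4
  · rw [hiu] at h4
    have h5 := ord_neg_two h4
    rw [h5, ← hiu] at hH
    rw [if_neg (by rw [Nat.not_odd_iff_even, Nat.even_iff]; omega)] at hb
    obtain ⟨j, hj⟩ : ∃ j, i = 2 * j := ⟨i / 2, by omega⟩
    have hj' : i / 2 = j := by omega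
    rw [hH, hj'] at horb ⊢
    rw [hb, hj'] at hs
    have hj0 : 0 < j := by omega
    have hN : Fintype.card ((ZMod r)ˣ ⧸ H) = s := Nat.eq_of_mul_eq_mul_right hj0 (by rw [horb, hs])
    rw [hN, hj, Nat.mul_div_mul_left _ _ (by norm_num)]
  · have hH2 : Nat.card H = 2 * b := by
      rw [hH]
      by_cases ho : Odd i
      · rw [if_pos ho] at hb
        rw [hb, hiu]
        exact ord_neg_odd hr2 (by rw [← hiu]; exact ho)
      · rw [if_neg ho] at hb
        rw [Nat.not_odd_iff_even, Nat.even_iff] at ho
        rw [ord_neg_four hr2 (by rw [← hiu]; omega), ← hiu, hb]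
        omega
    rw [hH2] at horb ⊢
    have hb0 : 0 < b := by
      rcases Nat.eq_zero_or_pos b with h | h
      · rw [h] at hs; omega
      · exact h
    have hN : Fintype.card ((ZMod r)ˣ ⧸ H) = s / 2 := by
      have : Fintype.card ((ZMod r)ˣ ⧸ H) * 2 * b = s * b := by rw [hs, ← horb]; ring
      have := Nat.eq_of_mul_eq_mul_right hb0 this
      omega
    rw [hN]

end Cfsg.Agent.S2671
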