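import Cfsg.Statements.S2672
import Cfsg.Agent.Lib.PrProj2
import Cfsg.Agent.Lib.PrProj3
import Cfsg.Agent.Lib.GLClass
import Cfsg.Agent.Lib.ClUnitary2
import Cfsg.Agent.S2587
import Cfsg.Agent.S2588
import Cfsg.Agent.S0783

set_option autoImplicit false
open Cfsg

namespace Cfsg.Agent.S2672

open Cfsg.Agent.Lib.PrCount Cfsg.Agent.Lib.ClUnitary Matrix

/-- Number of conjugacy classes of elements of odd prime order r in PGU_n(q) = GU_n(q)/scalars (n ≥ 3) when r divides q + 1: as in the linear case with q − 1 replaced by q + 1, the classes correspond to the rotation orbits on r-tuples of eigenvalue multiplicities summing to n with every entry < n, plus r − 1 further classes when r divides n; in all (C(n+r−1, r−1) − r − [r ∣ n])/r + r·[r ∣ n]. -/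
theorem result {K : Type*} [Field K] [Fintype K] {q n r : ℕ} (hK : Fintype.card K = q ^ 2) (hn : 3 ≤ n) (hr : r.Prime) (hr2 : r ≠ 2) (hrq : r ∣ q + 1) : Nat.card {C : ConjClasses (↥(Cfsg.GU n K q) ⧸ Subgroup.center ↥(Cfsg.GU n K q)) // ∃ g : ↥(Cfsg.GU n K q) ⧸ Subgroup.center ↥(Cfsg.GU n K q), ConjClasses.mk g = C ∧ orderOf g = r} = (Nat.choose (n + r - 1) (r - 1) - r - (if r ∣ n then 1 else 0)) / r + r * (if r ∣ n then 1 else 0) := by
  classical
  have hrf : Fact r.Prime := ⟨hr⟩
  obtain ⟨p, hp⟩ := CharP.exists K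
  have hpf : Fact p.Prime := ⟨CharP.char_is_prime K p⟩
  obtain ⟨a, -, ha⟩ := FiniteField.card K p
  obtain ⟨e, -, he⟩ := (Nat.dvd_prime_pow (Fact.out : p.Prime)).1 (show q ∣ p ^ (a : ℕ) by
    rw [← ha, hK]; exact dvd_pow_self q (by norm_num))
  have h2q := Lib.HermMat.two_le_q hK
  have hpq : p ∣ q := by
    have h1 : p ∣ q ^ 2 := by rw [← hK, ha]; exact dvd_pow_self p a.2.ne'
    exact (Fact.out : p.Prime).dvd_of_dvd_pow h1
  have hrp : r ≠ p := by
    rintro rfl
    have h2 := (Nat.dvd_add_right hpq).1 hrq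
    exact hr.one_lt.ne' (Nat.dvd_one.1 h2)
  have hsq : q ^ 2 - 1 = (q + 1) * (q - 1) := Lib.ClUnitary.sq_sub_one q
  have hrK : r ∣ Fintype.card K - 1 := by
    rw [hK, hsq]
    exact Dvd.dvd.mul_right hrq _
  let Λ : Subgroup Kˣ := (powMonoidHom (q + 1) : Kˣ →* Kˣ).ker
  have hΛ : ∀ c : Kˣ, c ∈ Λ ↔ c ^ (q + 1) = 1 := fun c => MonoidHom.mem_ker
  have hcard : Nat.card Λ = q + 1 := Lib.ClUnitary.card_norm_one_units hK
  have hGU : ∀ c : Kˣ, c ^ (q + 1) = 1 → Matrix.GeneralLinearGroup.scalar (Fin n) c ∈ Cfsg.GU n K q := by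
    intro c hc
    show IsUn q (Matrix.scalar (Fin n) (c : K))
    rw [Matrix.scalar_apply]
    exact isUn_diagonal fun _ => by rw [← Units.val_pow_eq_pow_val, hc, Units.val_one]
  -- roots of unity in the algebraic closure
  have hrK' : ((r : ℕ) : AlgebraicClosure K) ≠ 0 := by
    have : CharP (AlgebraicClosure K) p := charP_of_injective_algebraMap (algebraMap K (AlgebraicClosure K)).injective p
    rw [Ne, CharP.cast_eq_zero_iff _ p]
    intro h
    exact hrp ((Nat.prime_dvd_prime_iff_eq Fact.out hr).1 h).symm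
  have : NeZero ((r : ℕ) : AlgebraicClosure K) := ⟨hrK'⟩
  obtain ⟨ζ, hζ⟩ := HasEnoughRootsOfUnity.exists_primitiveRoot (AlgebraicClosure K) r
  obtain ⟨φ, hφ⟩ := exists_frob (F := K) (L := AlgebraicClosure K) p e
  rw [← he] at hφ
  have hqr : ((q : ℕ) : ZMod r) = -1 := by
    have h1 : ((q + 1 : ℕ) : ZMod r) = 0 := (ZMod.natCast_eq_zero_iff _ _).2 hrq
    push_cast at h1
    linear_combination h1
  have htw : ∀ (A : Matrix (Fin n) (Fin n) K) (k : ZMod r), mu ζ (A.map (frob hK)) ((q : ZMod r) * k) = mu ζ A k :=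
    fun A k => mu_map hζ (frob hK) q φ (fun x => by rw [hφ, frob_apply, map_pow]) (fun k => hφ _) A k
  have hcop : ∀ (c : Kˣ) (x : GL (Fin n) K), x ^ r = Matrix.GeneralLinearGroup.scalar (Fin n) c → (orderOf x).Coprime p := by
    intro c x hx
    have h4 : x ^ (r * (Fintype.card K - 1)) = 1 := by
      rw [pow_mul, hx, ← map_pow]
      have h5 : c ^ (Fintype.card K - 1) = 1 := by
        rw [← Fintype.card_units]; exact pow_card_eq_one
      rw [h5, map_one]
    refine Nat.Coprime.coprime_dvd_left (orderOf_dvd_of_pow_eq_one h4) ?_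
    refine Nat.Coprime.mul_left ((Nat.coprime_primes hr Fact.out).2 hrp) ?_
    rw [ha]
    have h6 : 1 ≤ p ^ (a : ℕ) := Nat.one_le_iff_ne_zero.2 (pow_ne_zero _ (Fact.out : p.Prime).ne_zero)
    have h7 : (p ^ (a : ℕ) - 1).Coprime (p ^ (a : ℕ)) := by
      have := Nat.coprime_self_sub_left (n := p ^ (a : ℕ)) h6
      rw [this]
      exact Nat.coprime_one_left _
    exact Nat.Coprime.coprime_dvd_right (dvd_pow_self p a.2.ne') h7
  -- the twisted inverse
  have htwist : ∀ A : GL (Fin n) K, ∃ B : GL (Fin n) K, (B : Matrix (Fin n) (Fin n) K) =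
      (((A : Matrix (Fin n) (Fin n) K).map (frob hK))ᵀ)⁻¹ ∧ (B⁻¹ : GL (Fin n) K).1 = ((A : Matrix (Fin n) (Fin n) K).map (frob hK))ᵀ ∧
      IsUnit (((A : Matrix (Fin n) (Fin n) K).map (frob hK))ᵀ) := by
    intro A
    have hfr : IsUnit ((A : Matrix (Fin n) (Fin n) K).map (frob hK)) :=
      (Units.isUnit A).map (RingHom.mapMatrix (frob hK))
    have hfrt : IsUnit (((A : Matrix (Fin n) (Fin n) K).map (frob hK))ᵀ) := by
      rw [Matrix.isUnit_iff_isUnit_det, Matrix.det_transpose, ← Matrix.isUnit_iff_isUnit_det]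
      exact hfr
    obtain ⟨C, hC⟩ := hfrt
    refine ⟨C⁻¹, by rw [Matrix.coe_units_inv, hC], by rw [inv_inv, hC], ⟨C, hC⟩⟩
  have hS : ∀ A : GL (Fin n) K, ∀ B : GL (Fin n) K, (B : Matrix (Fin n) (Fin n) K) = (((A : Matrix (Fin n) (Fin n) K).map (frob hK))ᵀ)⁻¹ →
      IsConj A B → ∃ C : ↥(Cfsg.GU n K q), IsConj A (C : GL (Fin n) K) := by
    intro A B hB hconj
    rw [S2588.result hK A]
    rw [Lib.GLClass.isConj_iff_coe, hB] at hconj
    exact hconj
  -- elements with r-th power 1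
  have hex1 : ∀ A : GL (Fin n) K, A ^ r = 1 → ∃ C : ↥(Cfsg.GU n K q), IsConj A (C : GL (Fin n) K) := by
    intro A hA
    obtain ⟨B, hB, hBinv, hfrt⟩ := htwist A
    have hAm' : (A : Matrix (Fin n) (Fin n) K) ^ r = 1 := by
      rw [← Units.val_pow_eq_pow_val, hA]; rfl
    have hBr : B ^ r = 1 := by
      have h1 : (B⁻¹) ^ r = 1 := by
        apply Units.ext
        rw [Units.val_pow_eq_pow_val, hBinv, ← Matrix.transpose_pow, ← Matrix.map_pow, hAm',
          Matrix.map_one _ (map_zero _) (map_one _), Matrix.transpose_one]; rfl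
      rw [inv_pow, inv_eq_one] at h1
      exact h1
    apply hS A B hB
    rw [conj_iff hζ p hrp hA hBr]
    intro k
    have h1 := mu_inv hζ hfrt (-k)
    rw [neg_neg] at h1
    have h2 := htw (A : Matrix (Fin n) (Fin n) K) k
    rw [hqr, neg_one_mul] at h2
    rw [hB, h1, mu_congr (Matrix.charpoly_transpose _), h2]
  have hroot : ∀ c ∈ Λ, c ^ (Nat.card Λ / r) ≠ 1 → ∀ b : K, b ^ r ≠ c := by
    intro c hc hne b hb
    apply hne
    have hb0 : b ≠ 0 := by
      rintro rfl
      rw [zero_pow hr.ne_zero] at hb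
      exact c.ne_zero hb.symm
    have hb' : c = (Units.mk0 b hb0) ^ r := Units.ext hb.symm
    have hMr : (Nat.card Λ / r) * r = q + 1 := by rw [hcard]; exact Nat.div_mul_cancel hrq
    have h1 : (c ^ (Nat.card Λ / r)) ^ r = 1 := by rw [← pow_mul, hMr]; exact (hΛ c).1 hc
    have h2 : (c ^ (Nat.card Λ / r)) ^ (q - 1) = 1 := by
      rw [hb', ← pow_mul, ← pow_mul, ← mul_assoc, mul_comm r (Nat.card Λ / r), hMr, ← hsq, ← hK, ← Fintype.card_units]
      exact pow_card_eq_one
    have h3 : r.Coprime (q - 1) := by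
      rw [Nat.Prime.coprime_iff_not_dvd hr]
      intro h4
      have h5 : r ∣ 2 := by
        have h6 := Nat.dvd_sub hrq h4
        have h7 : q + 1 - (q - 1) = 2 := by omega
        rwa [h7] at h6
      exact hr2 ((Nat.prime_dvd_prime_iff_eq hr Nat.prime_two).1 h5)
    have h4 : orderOf (c ^ (Nat.card Λ / r)) ∣ Nat.gcd r (q - 1) :=
      Nat.dvd_gcd (orderOf_dvd_of_pow_eq_one h1) (orderOf_dvd_of_pow_eq_one h2)
    rw [h3] at h4
    exact orderOf_eq_one_iff.1 (Nat.dvd_one.1 h4)
  have key := proj_count p (AlgebraicClosure K) (n := n) (r := r) (K := K) (by omega) hrp hrK (Cfsg.GU n K q) Λ ?_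
    (fun c hc => hGU c ((hΛ c).1 hc)) (fun g h hc => (S2587.result hK g h).2 hc) ?_ ?_ (by rw [hcard]; exact hrq)
  · exact key
  · -- center
    intro g
    constructor
    · intro hg
      obtain ⟨c, hc⟩ := S0783.center_scalar hK (by omega) g hg
      have hc0 : c ≠ 0 := by
        rintro rfl
        have h1 := (Matrix.isUnit_iff_isUnit_det _).1 (g : GL (Fin n) K).isUnit
        have hne : Nonempty (Fin n) := ⟨⟨0, by omega⟩⟩
        rw [hc, map_zero, Matrix.det_zero] at h1
        exact not_isUnit_zero h1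
      have hu : (g : GL (Fin n) K) = Matrix.GeneralLinearGroup.scalar (Fin n) (Units.mk0 c hc0) := Units.ext hc
      refine ⟨Units.mk0 c hc0, ?_, hu⟩
      rw [hΛ]
      have h1 : IsUn q ((g : GL (Fin n) K) : Matrix (Fin n) (Fin n) K) := g.2
      rw [isUn_iff hK, hc] at h1
      have h2 := congrArg (fun M : Matrix (Fin n) (Fin n) K => M ⟨0, by omega⟩ ⟨0, by omega⟩) h1
      simp only [Matrix.scalar_apply, Matrix.diagonal_transpose, Matrix.diagonal_map (map_zero _), Matrix.diagonal_mul_diagonal,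
        Matrix.diagonal_apply_eq, Matrix.one_apply_eq, frob_apply] at h2
      apply Units.ext
      rw [Units.val_pow_eq_pow_val, Units.val_mk0, Units.val_one, pow_succ, mul_comm]
      exact h2
    · rintro ⟨c, -, hc⟩
      rw [Subgroup.mem_center_iff]
      intro x
      apply Subtype.ext
      show (x : GL (Fin n) K) * (g : GL (Fin n) K) = (g : GL (Fin n) K) * (x : GL (Fin n) K)
      rw [hc]
      exact (Matrix.GeneralLinearGroup.scalar_commute c _).symm
  · -- existence
    intro A c hc hA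
    by_cases hcM : c ^ (Nat.card Λ / r) = 1
    · obtain ⟨b, hb, hbc⟩ := cyc_root Λ (by rw [hcard]; exact hrq) hc hcM
      have hg1 : (Matrix.GeneralLinearGroup.scalar (Fin n) b⁻¹ * A) ^ r = 1 := by
        rw [sc_mul_pow, hA, ← map_mul, inv_pow, hbc, inv_mul_cancel, map_one]
      obtain ⟨C, hC⟩ := hex1 _ hg1
      obtain ⟨k, hk⟩ := isConj_iff.1 hC
      refine ⟨⟨Matrix.GeneralLinearGroup.scalar (Fin n) b, hGU b ((hΛ b).1 hb)⟩ * C, ?_⟩
      rw [isConj_iff]
      refine ⟨k, ?_⟩
      rw [Subgroup.coe_mul, ← hk]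
      show k * A * k⁻¹ = Matrix.GeneralLinearGroup.scalar (Fin n) b * (k * (Matrix.GeneralLinearGroup.scalar (Fin n) b⁻¹ * A) * k⁻¹)
      rw [← mul_assoc k, ← Matrix.GeneralLinearGroup.scalar_commute, ← mul_assoc, ← mul_assoc, ← mul_assoc, ← map_mul, mul_inv_cancel, map_one, one_mul]
    · have hnr := hroot c hc hcM
      · obtain ⟨B, hB, hBinv, hfrt⟩ := htwist A
        apply hS A B hB
        have hcq : (frob hK (c : K)) * (c : K) = 1 := by
          rw [frob_apply, ← pow_succ, ← Units.val_pow_eq_pow_val, (hΛ c).1 hc, Units.val_one]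
        have hBr : B ^ r = Matrix.GeneralLinearGroup.scalar (Fin n) c := by
          have h1 : (B⁻¹) ^ r = Matrix.GeneralLinearGroup.scalar (Fin n) c⁻¹ := by
            apply Units.ext
            have hAm' : (A : Matrix (Fin n) (Fin n) K) ^ r = Matrix.scalar (Fin n) (c : K) := by
              rw [← Units.val_pow_eq_pow_val, hA]; rfl
            have h3 : (((c⁻¹ : Kˣ)) : K) = frob hK (c : K) := by
              rw [Units.val_inv_eq_inv_val]
              exact (eq_inv_of_mul_eq_one_left hcq).symm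
            rw [Units.val_pow_eq_pow_val, hBinv, ← Matrix.transpose_pow, ← Matrix.map_pow, hAm']
            show _ = Matrix.scalar (Fin n) (((c⁻¹ : Kˣ)) : K)
            rw [h3, Matrix.scalar_apply, Matrix.scalar_apply, Matrix.diagonal_map (map_zero _), Matrix.diagonal_transpose]
          rw [inv_pow, inv_eq_iff_eq_inv, ← map_inv, inv_inv] at h1
          exact h1
        apply Lib.SSClass.conj_GL p _ _ (hcop c _ hA) (hcop c _ hBr)
        obtain ⟨d, hd1, hd2⟩ := charpoly_of_pow hr hnr (A := (A : Matrix (Fin n) (Fin n) K)) (by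
          rw [← Units.val_pow_eq_pow_val, hA]; rfl)
        obtain ⟨d', hd1', hd2'⟩ := charpoly_of_pow hr hnr (A := (B : Matrix (Fin n) (Fin n) K)) (by
          rw [← Units.val_pow_eq_pow_val, hBr]; rfl)
        have h8 : d = d' := Nat.eq_of_mul_eq_mul_left hr.pos (hd2.symm.trans hd2')
        rw [hd1, hd1', h8]
  · exact hroot

end Cfsg.Agent.S2672
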