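import Cfsg.Statements.S2673
import Cfsg.Agent.Lib.PrCountO4

set_option autoImplicit false
open Cfsg

namespace Cfsg.Agent.S2673

open Cfsg.Agent.Lib.PrCount Cfsg.Agent.Lib.Quad

/-- Number of conjugacy classes of elements of odd prime order r ≠ p in the orthogonal group O_(2m+1)(q) of x_0² + Σ x_j y_j, q odd: with i the multiplicative order of q mod r and t = (r − 1)/i, there are C(⌊m/i⌋ + t/2, t/2) − 1 classes if i is odd (dual pairs of totally singular i-blocks) and C(⌊(2m+1)/i⌋ + t, t) − 1 if i is even (elliptic i-blocks). -/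
theorem result {F : Type*} [Field F] [Fintype F] {p q : ℕ} [Fact p.Prime] [CharP F p] (hF : Fintype.card F = q) (hq : Odd q) (m r i t : ℕ) (hr : r.Prime) (hr2 : r ≠ 2) (hrp : r ≠ p) (hi : i = orderOf (q : ZMod r)) (ht : t * i = r - 1) : Nat.card {C : ConjClasses ↥(Cfsg.isometryGroup F (Cfsg.quadFormOdd m F)) // ∃ g : ↥(Cfsg.isometryGroup F (Cfsg.quadFormOdd m F)), ConjClasses.mk g = C ∧ orderOf g = r} = if Odd i then Nat.choose (m / i + t / 2) (t / 2) - 1 else Nat.choose ((2 * m + 1) / i + t) t - 1 := by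
  classical
  have hrf : Fact r.Prime := ⟨hr⟩
  obtain ⟨a', -, ha⟩ := FiniteField.card F p
  have hqr : q.Coprime r := by
    rw [← hF, ha]
    exact Nat.Coprime.pow_left _ ((Nat.coprime_primes Fact.out hr).2 (Ne.symm hrp))
  let u : (ZMod r)ˣ := ZMod.unitOfCoprime q hqr
  have hu : (u : ZMod r) = (Fintype.card F : ZMod r) := by rw [hF]; rfl
  have hiu : i = orderOf u := by
    rw [hi, ← orderOf_units]
    rfl
  have h := final_odd (Q := quadOdd m F) p hr2 hrp (nd_quadOdd (two_ne_zero_of_odd hF hq)) hu hiu ht (by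
    rw [Fintype.card_sum, Fintype.card_sum, Fintype.card_fin, Fintype.card_unit]
    exact ⟨m, by omega⟩)
  have hc : Fintype.card (Unit ⊕ (Fin m ⊕ Fin m)) = 2 * m + 1 := by
    rw [Fintype.card_sum, Fintype.card_sum, Fintype.card_fin, Fintype.card_unit]
    omega
  rw [hc] at h
  have hd : (2 * m + 1) / (2 * i) = m / i := by
    rw [← Nat.div_div_eq_div_mul]
    congr 1
    omega
  rw [hd] at h
  exact h

end Cfsg.Agent.S2673
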