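import Cfsg.Statements.S2674
import Cfsg.Agent.Lib.PrCountO4

set_option autoImplicit false
open Cfsg

namespace Cfsg.Agent.S2674

open Cfsg.Agent.Lib.PrCount Cfsg.Agent.Lib.Quad

/-- Number of conjugacy classes of elements of odd prime order r ≠ p in the orthogonal group O⁺_2m(q) of Σ x_j y_j (m ≥ 1): with i the multiplicative order of q mod r and t = (r − 1)/i — if i is odd, C(⌊m/i⌋ + t/2, t/2) − 1; if i is even, C(⌊2m/i⌋ + t, t) − 1 minus, when i divides 2m with odd quotient, the C(2m/i + t − 1, t − 1) tuples using the whole space (an odd number of elliptic i-blocks fills an elliptic, not a hyperbolic, space). -/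
theorem result {F : Type*} [Field F] [Fintype F] {p q : ℕ} [Fact p.Prime] [CharP F p] (hF : Fintype.card F = q) (m r i t : ℕ) (hm : 1 ≤ m) (hr : r.Prime) (hr2 : r ≠ 2) (hrp : r ≠ p) (hi : i = orderOf (q : ZMod r)) (ht : t * i = r - 1) : Nat.card {C : ConjClasses ↥(Cfsg.isometryGroup F (Cfsg.quadFormPlus m F)) // ∃ g : ↥(Cfsg.isometryGroup F (Cfsg.quadFormPlus m F)), ConjClasses.mk g = C ∧ orderOf g = r} = if Odd i then Nat.choose (m / i + t / 2) (t / 2) - 1 else Nat.choose (2 * m / i + t) t - 1 - (if i ∣ 2 * m ∧ Odd (2 * m / i) then Nat.choose (2 * m / i + t - 1) (t - 1) else 0) := by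
  classical
  have hrf : Fact r.Prime := ⟨hr⟩
  obtain ⟨a', -, ha⟩ := FiniteField.card F p
  have hqr : q.Coprime r := by
    rw [← hF, ha]
    exact Nat.Coprime.pow_left _ ((Nat.coprime_primes Fact.out hr).2 (Ne.symm hrp))
  let u : (ZMod r)ˣ := ZMod.unitOfCoprime q hqr
  have hu : (u : ZMod r) = (Fintype.card F : ZMod r) := by rw [hF]; rfl
  have hiu : i = orderOf u := by
    rw [hi, ← orderOf_units]
    rfl
  have hpos : 0 < i := by rw [hiu]; exact orderOf_pos u
  have h := final_even (Q := quadPlus m F) p hr2 hrp nd_quadPlus hu hiu ht (N := m) (s := 1) (by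
    rw [Fintype.card_sum, Fintype.card_fin, two_mul]) (by rw [D_quadPlus, one_mul])
  refine Eq.trans h ?_
  have hone : (u : ZMod r) ^ m = ((1 : ℤ) : ZMod r) ↔ i ∣ m := by
    rw [Int.cast_one, hiu, orderOf_dvd_iff_pow_eq_one, ← Units.val_pow_eq_pow_val, Units.val_eq_one]
  simp only [hone]
  by_cases ho : Odd i
  · rw [if_pos ho, if_pos ho]
    by_cases hd : i ∣ m
    · rw [if_pos hd, Nat.sub_zero]
    · rw [if_neg hd, if_neg hd, Nat.sub_zero]
  · rw [if_neg ho, if_neg ho]
    congr 1
    by_cases hd : i ∣ m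
    · rw [if_pos hd, if_neg]
      rintro ⟨-, h2⟩
      obtain ⟨c, hc⟩ := hd
      have h3 : 2 * m / i = 2 * c := by
        rw [hc]
        exact Nat.div_eq_of_eq_mul_right hpos (by ring)
      rw [h3] at h2
      exact absurd (even_two_mul c) (Nat.not_even_iff_odd.2 h2)
    · rw [if_neg hd]
      by_cases hd2 : i ∣ 2 * m
      · rw [if_pos hd2, if_pos]
        refine ⟨hd2, ?_⟩
        rw [← Nat.not_even_iff_odd]
        rintro ⟨c, hc⟩
        apply hd
        have h3 := Nat.div_mul_cancel hd2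
        rw [hc] at h3
        exact ⟨c, by nlinarith⟩
      · rw [if_neg hd2, if_neg (fun h => hd2 h.1)]

end Cfsg.Agent.S2674
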