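import Cfsg.Statements.S2675
import Cfsg.Agent.Lib.PrCountO4

set_option autoImplicit false
open Cfsg

namespace Cfsg.Agent.S2675

open Cfsg.Agent.Lib.PrCount Cfsg.Agent.Lib.Quad

/-- Number of conjugacy classes of elements of odd prime order r ≠ p in the orthogonal group O⁻_2m(q) of an elliptic form Σ_(j<m−1) x_j y_j + z₁² + a z₁z₂ + c z₂² (binary part anisotropic, m ≥ 1): with i the multiplicative order of q mod r and t = (r − 1)/i — if i is odd, C(⌊m/i⌋ + t/2, t/2) − 1 minus, when i divides m, the C(m/i + t/2 − 1, t/2 − 1) tuples filling the whole space (dual pairs of totally singular blocks fill a hyperbolic space); if i is even, C(⌊2m/i⌋ + t, t) − 1 minus, when i divides 2m with even quotient, the C(2m/i + t − 1, t − 1) tuples filling the whole space with an even number of elliptic blocks. -/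
theorem result {F : Type*} [Field F] [Fintype F] {p q : ℕ} [Fact p.Prime] [CharP F p] (hF : Fintype.card F = q) (m r i t : ℕ) (hm : 1 ≤ m) (a c : F) (hac : ∀ z₁ z₂ : F, z₁ ^ 2 + a * z₁ * z₂ + c * z₂ ^ 2 = 0 → z₁ = 0 ∧ z₂ = 0) (hr : r.Prime) (hr2 : r ≠ 2) (hrp : r ≠ p) (hi : i = orderOf (q : ZMod r)) (ht : t * i = r - 1) : Nat.card {C : ConjClasses ↥(Cfsg.isometryGroup F (Cfsg.quadFormMinus (m - 1) F a c)) // ∃ g : ↥(Cfsg.isometryGroup F (Cfsg.quadFormMinus (m - 1) F a c)), ConjClasses.mk g = C ∧ orderOf g = r} = if Odd i then Nat.choose (m / i + t / 2) (t / 2) - 1 - (if i ∣ m then Nat.choose (m / i + t / 2 - 1) (t / 2 - 1) else 0) else Nat.choose (2 * m / i + t) t - 1 - (if i ∣ 2 * m ∧ Even (2 * m / i) then Nat.choose (2 * m / i + t - 1) (t - 1) else 0) := by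
  classical
  have hrf : Fact r.Prime := ⟨hr⟩
  obtain ⟨a', -, ha⟩ := FiniteField.card F p
  have hqr : q.Coprime r := by
    rw [← hF, ha]
    exact Nat.Coprime.pow_left _ ((Nat.coprime_primes Fact.out hr).2 (Ne.symm hrp))
  let u : (ZMod r)ˣ := ZMod.unitOfCoprime q hqr
  have hu : (u : ZMod r) = (Fintype.card F : ZMod r) := by rw [hF]; rfl
  have hiu : i = orderOf u := by
    rw [hi, ← orderOf_units]
    rfl
  have hpos : 0 < i := by rw [hiu]; exact orderOf_pos u
  have h := final_even (Q := quadMinus (m - 1) F a c) p hr2 hrp (nd_quadMinus (disc_ne_zero_of_anisotropic hac)) hu hiu ht (N := m) (s := -1) (by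
    rw [Fintype.card_sum, Fintype.card_sum, Fintype.card_fin, Fintype.card_fin]
    omega) (by
      rw [D_quadMinus (m - 1) hac]
      congr 2
      omega)
  refine Eq.trans h ?_
  have hone : (u : ZMod r) ^ m = ((-1 : ℤ) : ZMod r) ↔ u ^ m = -1 := by
    rw [Int.cast_neg, Int.cast_one, ← Units.val_pow_eq_pow_val, ← Units.val_one, ← Units.val_neg, Units.val_inj]
  simp only [hone]
  have hn1 := neg_one_ne hr2
  by_cases ho : Odd i
  · rw [if_pos ho, if_pos ho, if_neg]
    intro h1
    apply hn1
    have h2 : (u ^ m) ^ i = 1 := by rw [← pow_mul, mul_comm, pow_mul, hiu, pow_orderOf_eq_one, one_pow]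
    rw [h1, ho.neg_one_pow] at h2
    exact h2
  · rw [if_neg ho, if_neg ho]
    rw [Nat.not_odd_iff_even] at ho
    congr 1
    have hhalf : u ^ (i / 2) = -1 := by rw [hiu]; exact pow_half (by rw [← hiu]; exact ho)
    obtain ⟨j, hj⟩ := ho
    have hj2 : i / 2 = j := by omega
    rw [hj2] at hhalf
    have hj0 : 0 < j := by omega
    -- `u ^ m = -1` iff `m = j * odd`
    have key : i ∣ 2 * m → (u ^ m = -1 ↔ ¬ Even (2 * m / i)) := by
      intro hd
      have h3 := Nat.div_mul_cancel hd
      set w := 2 * m / i with hw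
      have hm : m = j * w := by
        have : 2 * m = 2 * (j * w) := by rw [← h3, hj]; ring
        omega
      rw [hm, pow_mul, hhalf]
      constructor
      · intro h1 h2
        rw [h2.neg_one_pow] at h1
        exact hn1 h1.symm
      · intro h1
        rw [Nat.not_even_iff_odd] at h1
        exact h1.neg_one_pow
    have key2 : u ^ m = -1 → i ∣ 2 * m := by
      intro h1
      rw [hiu, orderOf_dvd_iff_pow_eq_one, mul_comm, pow_mul, h1]
      simp
    by_cases h1 : u ^ m = -1
    · rw [if_pos h1, if_neg]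
      rintro ⟨h2, h3⟩
      exact (key h2).1 h1 h3
    · rw [if_neg h1]
      by_cases h2 : i ∣ 2 * m
      · have h3 : Even (2 * m / i) := by
          by_contra h3
          exact h1 ((key h2).2 h3)
        rw [if_pos h2, if_pos ⟨h2, h3⟩]
      · rw [if_neg h2, if_neg (fun h => h2 h.1)]

end Cfsg.Agent.S2675
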