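import Cfsg.Statements.S2676
import Cfsg.Agent.Lib.SpUni4

set_option autoImplicit false
open Classical
open Cfsg

namespace Cfsg.Agent.S2676

open Polynomial Matrix Cfsg.Agent.Lib.FXType Cfsg.Agent.Lib.GLClass Cfsg.Agent.Lib.FormJordan2 Cfsg.Agent.Lib.SpUni4

theorem hdvd {F : Type*} [Field F] (k m : ℕ) : (X - 1 : F[X]) ^ k ∣ (X - 1) ^ m ↔ k ≤ m := by
  have h10 : (X - 1 : F[X]) = X - C 1 := by rw [C_1]
  have hmon : (X - 1 : F[X]).Monic := by rw [h10]; exact monic_X_sub_C 1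
  have hirr : Irreducible (X - 1 : F[X]) := by rw [h10]; exact irreducible_X_sub_C 1
  have hdeg : (X - 1 : F[X]).natDegree = 1 := by rw [h10]; exact natDegree_X_sub_C 1
  constructor
  · intro h
    have := natDegree_le_of_dvd h (pow_ne_zero _ hirr.ne_zero)
    rwa [hmon.natDegree_pow, hmon.natDegree_pow, hdeg, mul_one, mul_one] at this
  · exact pow_dvd_pow _

theorem pow_p {F : Type*} [Field F] {p : ℕ} [Fact p.Prime] [CharP F p] {ι : Type*} [Fintype ι] [DecidableEq ι] {A : Matrix ι ι F} {s : Multiset (F[X] × ℕ)} (hs : MType A s) :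
    A ^ p = 1 ↔ ∀ d ∈ s, d.1 = X - 1 ∧ d.2 ≤ p := by
  have h10 : (X - 1 : F[X]) = X - C 1 := by rw [C_1]
  have hmon : (X - 1 : F[X]).Monic := by rw [h10]; exact monic_X_sub_C 1
  have hirr : Irreducible (X - 1 : F[X]) := by rw [h10]; exact irreducible_X_sub_C 1
  have hfrob : (X ^ p - 1 : F[X]) = (X - 1) ^ p := by
    rw [sub_pow_char, one_pow]
  have e1 : A ^ p = 1 ↔ ∀ d ∈ s, d.1 ^ d.2 ∣ X ^ p - 1 := by
    rw [← hs.aeval_eq_zero_iff, map_sub, map_pow, aeval_X, map_one, sub_eq_zero]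
  rw [e1, hfrob]
  constructor
  · intro h d hd
    have hg := hs.good d hd
    have h1 : d.1 ∣ (X - 1) ^ p := (dvd_pow_self _ hg.2.2.ne').trans (h d hd)
    have h2 : d.1 ∣ (X - 1) := hg.2.1.prime.dvd_of_dvd_pow h1
    have h3 : d.1 = X - 1 := eq_of_monic_of_associated hg.1 hmon (hg.2.1.associated_of_dvd hirr h2)
    have h4 := h d hd
    rw [h3, hdvd] at h4
    exact ⟨h3, h4⟩
  · intro h d hd
    rw [(h d hd).1, hdvd]
    exact (h d hd).2

theorem eq_one_iff {F : Type*} [Field F] {ι : Type*} [Fintype ι] [DecidableEq ι] {A : Matrix ι ι F} {μ : Multiset ℕ} (hs : MType A (uni F μ)) :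
    A = 1 ↔ ∀ k ∈ μ, k ≤ 1 := by
  have e1 : A = 1 ↔ ∀ d ∈ uni F μ, d.1 ^ d.2 ∣ X - 1 := by
    rw [← hs.aeval_eq_zero_iff, map_sub, aeval_X, map_one, sub_eq_zero]
  rw [e1]
  constructor
  · intro h k hk
    have h1 := h ((X - 1 : F[X]), k) (Multiset.mem_map_of_mem _ hk)
    exact (hdvd k 1).mp (by rw [pow_one]; exact h1)
  · intro h x hx
    obtain ⟨k, hk, rfl⟩ := Multiset.mem_map.mp hx
    have h1 := (hdvd (F := F) k 1).mpr (h k hk)
    rwa [pow_one] at h1

/-- the partition into ones -/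
def one (n : ℕ) : Nat.Partition n := ⟨Multiset.replicate n 1, fun h => by rw [Multiset.eq_of_mem_replicate h]; exact one_pos, by simp⟩

theorem eq_one_iff' {n : ℕ} (μ : Nat.Partition n) : μ = one n ↔ ∀ k ∈ μ.parts, k ≤ 1 := by
  constructor
  · rintro rfl k hk
    exact (Multiset.eq_of_mem_replicate hk).le
  · intro h
    apply Nat.Partition.ext
    show μ.parts = Multiset.replicate n 1
    have h1 : ∀ b ∈ μ.parts, b = 1 := fun b hb => le_antisymm (h b hb) (μ.parts_pos hb)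
    rw [Multiset.eq_replicate]
    refine ⟨?_, h1⟩
    have h2 := μ.parts_sum
    rw [Multiset.eq_replicate_card.mpr h1, Multiset.sum_replicate] at h2
    simpa using h2

theorem order_iff {F : Type*} [Field F] {p : ℕ} [Fact p.Prime] [CharP F p] {m : ℕ} (g : Matrix.symplecticGroup (Fin m) F) {μ : Nat.Partition (2 * m)} {f : Finset ℕ}
    (h : Rel (g : Matrix (Fin m ⊕ Fin m) (Fin m ⊕ Fin m) F) μ f) : orderOf g = p ↔ (∀ a ∈ μ.parts, a ≤ p) ∧ μ ≠ one (2 * m) := by
  have hs := h.mtype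
  have e1 : g ^ p = 1 ↔ ∀ a ∈ μ.parts, a ≤ p := by
    have h1 := pow_p (p := p) hs
    have h2 : g ^ p = 1 ↔ (g : Matrix (Fin m ⊕ Fin m) (Fin m ⊕ Fin m) F) ^ p = 1 := by
      rw [← SubmonoidClass.coe_pow]
      exact Subtype.ext_iff
    rw [h2, h1]
    constructor
    · intro h3 a ha
      exact (h3 ((X - 1 : F[X]), a) (Multiset.mem_map_of_mem _ ha)).2
    · intro h3 x hx
      obtain ⟨k, hk, rfl⟩ := Multiset.mem_map.mp hx
      exact ⟨rfl, h3 k hk⟩
  have e2 : g = 1 ↔ μ = one (2 * m) := by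
    rw [eq_one_iff', ← eq_one_iff hs]
    exact Subtype.ext_iff
  rw [orderOf_eq_prime_iff, e1, Ne, e2]

theorem exists_mu {F : Type*} [Field F] {p : ℕ} [Fact p.Prime] [CharP F p] {m : ℕ} (g : Matrix.symplecticGroup (Fin m) F) (hg : orderOf g = p) :
    ∃ (μ : Nat.Partition (2 * m)) (f : Finset ℕ), Rel (g : Matrix (Fin m ⊕ Fin m) (Fin m ⊕ Fin m) F) μ f := by
  obtain ⟨s, hs⟩ := exists_mtype (g : Matrix (Fin m ⊕ Fin m) (Fin m ⊕ Fin m) F)
  have h1 : (g : Matrix (Fin m ⊕ Fin m) (Fin m ⊕ Fin m) F) ^ p = 1 := by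
    rw [← SubmonoidClass.coe_pow, ← hg, pow_orderOf_eq_one]
    rfl
  rw [pow_p (p := p) hs] at h1
  have hback : uni F (s.map Prod.snd) = s := by
    rw [uni, Multiset.map_map]
    conv_rhs => rw [← Multiset.map_id s]
    apply Multiset.map_congr rfl
    intro d hd
    show ((X - 1 : F[X]), d.2) = d
    rw [← (h1 d hd).1]
  have h10 : (X - 1 : F[X]) = X - C 1 := by rw [C_1]
  have hdeg : (X - 1 : F[X]).natDegree = 1 := by rw [h10]; exact natDegree_X_sub_C 1
  have hsum : (s.map Prod.snd).sum = 2 * m := by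
    have h2 := hs.card
    rw [Fintype.card_sum, Fintype.card_fin, ← two_mul] at h2
    rw [← h2]
    congr 1
    apply Multiset.map_congr rfl
    intro d hd
    rw [(h1 d hd).1, hdeg, one_mul]
  let μ : Nat.Partition (2 * m) := ⟨s.map Prod.snd, fun {i} hi => by
    obtain ⟨d, hd, rfl⟩ := Multiset.mem_map.mp hi
    exact (hs.good d hd).2.2, hsum⟩
  obtain ⟨f, hf⟩ := exists_rel (μ := μ) (g := (g : Matrix (Fin m ⊕ Fin m) (Fin m ⊕ Fin m) F)) (by
    show MType _ (uni F (s.map Prod.snd))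
    rw [hback]
    exact hs)
  exact ⟨μ, f, hf⟩

/-- Number of conjugacy classes of elements of order p in Sp_2m(q), q a power of the odd prime p: the classes correspond to the signed partitions of 2m — partitions with all parts at most p in which every odd part has even multiplicity, each even part size that occurs carrying a sign — other than the all-ones partition; so the count is the sum over such partitions of 2^(number of distinct even parts), minus one. -/
theorem result {F : Type*} [Field F] [Fintype F] {p : ℕ} [Fact p.Prime] [CharP F p] (hp : p ≠ 2) (m : ℕ) : Nat.card {C : ConjClasses ↥(Matrix.symplecticGroup (Fin m) F) // ∃ g : Matrix.symplecticGroup (Fin m) F, ConjClasses.mk g = C ∧ orderOf g = p} = (∑ μ ∈ Finset.univ.filter (fun μ : Nat.Partition (2 * m) => (∀ a ∈ μ.parts, a ≤ p) ∧ ∀ j : ℕ, Odd j → Even (μ.parts.count j)), 2 ^ ((μ.parts.toFinset.filter (fun j : ℕ => Even j)).card)) - 1 := by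
  classical
  have hpp : p.Prime := Fact.out
  have h2 : (2 : F) ≠ 0 := by
    intro h
    have h1 : ((2 : ℕ) : F) = 0 := by exact_mod_cast h
    rw [CharP.cast_eq_zero_iff F p] at h1
    exact hp ((Nat.prime_dvd_prime_iff_eq hpp Nat.prime_two).mp h1)
  let T : Finset (Σ _ : Nat.Partition (2 * m), Finset ℕ) := (Finset.univ.filter (fun μ : Nat.Partition (2 * m) => (∀ a ∈ μ.parts, a ≤ p) ∧ ∀ j : ℕ, Odd j → Even (μ.parts.count j))).sigma
    (fun μ => (μ.parts.toFinset.filter (fun j : ℕ => Even j)).powerset)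
  have hT : T.card = ∑ μ ∈ Finset.univ.filter (fun μ : Nat.Partition (2 * m) => (∀ a ∈ μ.parts, a ≤ p) ∧ ∀ j : ℕ, Odd j → Even (μ.parts.count j)), 2 ^ ((μ.parts.toFinset.filter (fun j : ℕ => Even j)).card) := by
    rw [Finset.card_sigma]
    apply Finset.sum_congr rfl
    intro μ _
    rw [Finset.card_powerset]
  have hmem : ∀ x : (Σ _ : Nat.Partition (2 * m), Finset ℕ), x ∈ T ↔ ((∀ a ∈ x.1.parts, a ≤ p) ∧ ∀ j : ℕ, Odd j → Even (x.1.parts.count j)) ∧ ∀ c ∈ x.2, Even c ∧ c ∈ x.1.parts := by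
    intro x
    rw [Finset.mem_sigma, Finset.mem_filter, Finset.mem_powerset]
    constructor
    · rintro ⟨⟨-, h3⟩, h4⟩
      refine ⟨h3, fun c hc => ?_⟩
      have h5 := h4 hc
      rw [Finset.mem_filter, Multiset.mem_toFinset] at h5
      exact ⟨h5.2, h5.1⟩
    · rintro ⟨h3, h4⟩
      refine ⟨⟨Finset.mem_univ _, h3⟩, fun c hc => ?_⟩
      rw [Finset.mem_filter, Multiset.mem_toFinset]
      exact ⟨(h4 c hc).2, (h4 c hc).1⟩
  have hone : (⟨one (2 * m), ∅⟩ : Σ _ : Nat.Partition (2 * m), Finset ℕ) ∈ T := by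
    rw [hmem]
    refine ⟨⟨fun a ha => ?_, fun j hj => ?_⟩, fun c hc => absurd hc (Finset.notMem_empty c)⟩
    · exact ((eq_one_iff' (one (2 * m))).mp rfl a ha).trans hpp.one_lt.le
    · show Even ((Multiset.replicate (2 * m) 1).count j)
      rw [Multiset.count_replicate]
      split_ifs
      · exact even_two_mul m
      · exact Even.zero
  have hne : ∀ x ∈ T, x ≠ ⟨one (2 * m), ∅⟩ → x.1 ≠ one (2 * m) := by
    rintro ⟨μ, f⟩ hx hxne h3
    apply hxne
    have h4 : μ = one (2 * m) := h3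
    subst h4
    congr 1
    rw [Finset.eq_empty_iff_forall_notMem]
    intro c hc
    have h5 := ((hmem _).mp hx).2 c hc
    have h6 : c ≤ 1 := (eq_one_iff' (one (2 * m))).mp rfl c h5.2
    have h7 : 0 < c := (one (2 * m)).parts_pos h5.2
    obtain ⟨a, ha⟩ := h5.1
    omega
  rw [← hT, ← Finset.card_erase_of_mem hone, ← Fintype.card_coe, ← Nat.card_eq_fintype_card]
  have hex : ∀ x : {x // x ∈ T.erase ⟨one (2 * m), ∅⟩}, ∃ g : Matrix.symplecticGroup (Fin m) F, Rel (g : Matrix (Fin m ⊕ Fin m) (Fin m ⊕ Fin m) F) x.1.1 x.1.2 := by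
    intro x
    have h3 := (hmem x.1).mp (Finset.mem_of_mem_erase x.2)
    obtain ⟨g, hg, hR⟩ := rel_exists (F := F) h2 x.1.1 h3.1.2 x.1.2 h3.2
    exact ⟨⟨g, SymplecticGroup.mem_iff'.mpr hg⟩, hR⟩
  choose G hG using hex
  have hord : ∀ x, orderOf (G x) = p := by
    intro x
    rw [order_iff (G x) (hG x)]
    have h3 := Finset.mem_erase.mp x.2
    exact ⟨((hmem x.1).mp h3.2).1.1, hne x.1 h3.2 h3.1⟩
  symm
  apply Nat.card_congr
  refine Equiv.ofBijective (fun x => ⟨ConjClasses.mk (G x), G x, rfl, hord x⟩) ⟨?_, ?_⟩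
  · intro x y hxy
    have h3 : ConjClasses.mk (G x) = ConjClasses.mk (G y) := congrArg Subtype.val hxy
    rw [ConjClasses.mk_eq_mk_iff_isConj, isConj_iff] at h3
    obtain ⟨c, hc⟩ := h3
    rw [mul_inv_eq_iff_eq_mul] at hc
    have h4 := Rel.unique (SymplecticGroup.mem_iff'.mp (G y).2) (SymplecticGroup.mem_iff'.mp c.2) ((Matrix.isUnit_iff_isUnit_det _).mpr (SymplecticGroup.symplectic_det c.2))
      (congrArg Subtype.val hc) (hG x) (hG y)
    apply Subtype.ext
    apply Sigma.ext h4.1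
    exact heq_of_eq h4.2
  · rintro ⟨C, g, rfl, hg⟩
    obtain ⟨μ, f, hR⟩ := exists_mu g hg
    have h3 := (order_iff g hR).mp hg
    have h4 : (⟨μ, f⟩ : Σ _ : Nat.Partition (2 * m), Finset ℕ) ∈ T.erase ⟨one (2 * m), ∅⟩ := by
      rw [Finset.mem_erase, hmem]
      refine ⟨fun h => h3.2 (congrArg Sigma.fst h), ⟨h3.1, fun j hj => hR.even_count h2 (SymplecticGroup.mem_iff'.mp g.2) j hj⟩, fun c hc => hR.sub hc⟩
    refine ⟨⟨_, h4⟩, ?_⟩
    apply Subtype.ext
    show ConjClasses.mk (G ⟨_, h4⟩) = ConjClasses.mk g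
    rw [ConjClasses.mk_eq_mk_iff_isConj, isConj_iff]
    obtain ⟨x, hx1, hx2⟩ := Rel.conj h2 (SymplecticGroup.mem_iff'.mp g.2) (SymplecticGroup.mem_iff'.mp (G ⟨_, h4⟩).2) hR (hG ⟨_, h4⟩)
    refine ⟨⟨x, SymplecticGroup.mem_iff'.mpr hx1⟩, ?_⟩
    rw [mul_inv_eq_iff_eq_mul]
    exact Subtype.ext hx2

end Cfsg.Agent.S2676
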