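import Cfsg.Statements.S2677
import Cfsg.Agent.Lib.GUField

set_option autoImplicit false
open Cfsg

namespace Cfsg.Agent.S2677

open Cfsg.Agent.Lib.GUField


/-- Centraliser of a field automorphism of odd prime order in PGU_n(q): let q = q₀^r with r an odd prime, K the field with q² elements and σ a field automorphism of K of order r (fixed field of order q₀²). The elements g of GU_n(q) whose entrywise image under σ is a scalar multiple of g — those whose coset modulo the q + 1 unitary scalars is fixed by σ — number (q + 1)/(q₀ + 1) · |GU_n(q₀)|; equivalently the centraliser in PGU_n(q) of the induced automorphism has the order of PGU_n(q₀). -/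
theorem result {K : Type*} [Field K] [Fintype K] {q₀ q r n : ℕ} (hr : r.Prime) (hr2 : r ≠ 2) (hn : 1 ≤ n) (hq : q = q₀ ^ r) (hK : Fintype.card K = q ^ 2) (σ : K ≃+* K) (hσ : orderOf σ = r) : (Nat.card {g : ↥(Cfsg.GU n K q) // ∃ c : K, c ≠ 0 ∧ ((g : GL (Fin n) K) : Matrix (Fin n) (Fin n) K).map σ = c • ((g : GL (Fin n) K) : Matrix (Fin n) (Fin n) K)} : ℤ) = ((q + 1) / (q₀ + 1) : ℕ) * ((q₀ : ℤ) ^ (n * (n - 1) / 2) * ∏ i : Fin n, ((q₀ : ℤ) ^ ((i : ℕ) + 1) - (-1) ^ ((i : ℕ) + 1))) := by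
  have h1 := card_range σ hr hr2 hn hq hK hσ
  have h2 : Nat.card {g : ↥(Cfsg.GU n K q) // ∃ c : K, c ≠ 0 ∧ ((g : GL (Fin n) K) : Matrix (Fin n) (Fin n) K).map σ = c • ((g : GL (Fin n) K) : Matrix (Fin n) (Fin n) K)} =
      Nat.card (ff σ n q₀ q).range := by
    refine Nat.card_congr ⟨fun g => ⟨(g.1 : GL (Fin n) K), (mem_range σ hr hr2 hn hq hK hσ _).mpr ⟨g.1.2, g.2⟩⟩,
      fun g => ⟨⟨g.1, ((mem_range σ hr hr2 hn hq hK hσ _).mp g.2).1⟩, ((mem_range σ hr hr2 hn hq hK hσ _).mp g.2).2⟩, fun _ => rfl, fun _ => rfl⟩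
  have hq0 : 0 < q₀ := by
    rcases Nat.eq_zero_or_pos q₀ with h | h
    · exfalso
      rw [h, zero_pow hr.ne_zero] at hq
      rw [hq] at hK
      have := Fintype.card_pos (α := K)
      omega
    · exact h
  rw [h2, h1, Nat.cast_mul, Nat.cast_mul, Nat.cast_pow, Nat.cast_prod]
  congr 2
  rw [Finset.prod_range]
  refine Finset.prod_congr rfl fun i _ => ?_
  by_cases hi : Even (i : ℕ)
  · rw [if_pos hi, hi.add_one.neg_one_pow]
    push_cast; ring
  · rw [if_neg hi, (Nat.not_even_iff_odd.mp hi).add_one.neg_one_pow]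
    rw [Nat.cast_sub (Nat.one_le_pow _ _ hq0)]
    push_cast; ring


end Cfsg.Agent.S2677
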