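import Cfsg.Statements.S2678
import Cfsg.Agent.Lib.FFTower

set_option autoImplicit false
open Cfsg

namespace Cfsg.Agent.S2678

open Matrix Module

/-- the standard alternating form on columns -/
def om {l : Type} [Fintype l] [DecidableEq l] {R : Type*} [CommRing R] (u v : l ⊕ l → R) : R :=
  ∑ i, (u (.inr i) * v (.inl i) - u (.inl i) * v (.inr i))

theorem om_eq {l : Type} [Fintype l] [DecidableEq l] {R : Type*} [CommRing R] (u v : l ⊕ l → R) :
    om u v = u ⬝ᵥ (Matrix.J l R *ᵥ v) := by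
  simp [om, Matrix.J, dotProduct, Matrix.mulVec, Fintype.sum_sum_type, Matrix.fromBlocks, Matrix.one_apply,
    Finset.sum_sub_distrib]
  ring

theorem mem_iff_om {l : Type} [Fintype l] [DecidableEq l] {R : Type*} [CommRing R]
    (A : Matrix (l ⊕ l) (l ⊕ l) R) :
    A ∈ Matrix.symplecticGroup l R ↔ ∀ u v, om (A *ᵥ u) (A *ᵥ v) = om u v := by
  rw [SymplecticGroup.mem_iff']
  have key : ∀ u v, om (A *ᵥ u) (A *ᵥ v) = u ⬝ᵥ ((Aᵀ * J l R * A) *ᵥ v) := by
    intro u v
    rw [om_eq, Matrix.mulVec_mulVec, mul_assoc, ← Matrix.mulVec_mulVec _ Aᵀ, Matrix.dotProduct_mulVec u Aᵀ,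
      Matrix.vecMul_transpose]
  constructor
  · intro h u v
    rw [key, h, om_eq]
  · intro h
    have h2 : ∀ u v, u ⬝ᵥ ((Aᵀ * J l R * A) *ᵥ v) = u ⬝ᵥ (Matrix.J l R *ᵥ v) := by
      intro u v; rw [← key, h, om_eq]
    ext i j
    simpa using h2 (Pi.single i 1) (Pi.single j 1)

/-- the coordinate map -/
noncomputable def coord {K F : Type*} [Field K] [Field F] [Algebra F K] {κ l l' : Type} [Fintype κ]
    (b b' : Basis κ F K) (ε : κ × l ≃ l') :
    (l ⊕ l → K) ≃ₗ[F] (l' ⊕ l' → F) where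
  toFun v := Sum.elim (fun k => b.repr (v (.inl (ε.symm k).2)) (ε.symm k).1)
        (fun k => b'.repr (v (.inr (ε.symm k).2)) (ε.symm k).1)
  map_add' := by
    intro u v; ext (k | k) <;> simp
  map_smul' := by
    intro c v; ext (k | k) <;> simp
  invFun w := Sum.elim (fun i => ∑ j, w (.inl (ε (j, i))) • b j)
        (fun i => ∑ j, w (.inr (ε (j, i))) • b' j)
  left_inv := by
    intro v
    ext (i | i)
    · simp
    · simp
  right_inv := by
    intro w
    ext (k | k)
    · simp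
      rw [Finset.sum_eq_single (ε.symm k).1]
      · simp
      · intro j _ hj
        simp [hj]
      · simp
    · simp
      rw [Finset.sum_eq_single (ε.symm k).1]
      · simp
      · intro j _ hj
        simp [hj]
      · simp

theorem trace_mul_eq {K F : Type*} [Field K] [Fintype K] [Field F] [Fintype F] [Algebra F K] {κ : Type} [Fintype κ]
    [DecidableEq κ] (b : Basis κ F K) (x y : K) :
    Algebra.trace F K (x * y) = ∑ j, b.repr x j * b.traceDual.repr y j := by
  have h2 : Algebra.trace F K (x * y) = ∑ j, b.repr x j * Algebra.trace F K (b j * y) := by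
    conv_lhs => rw [← b.sum_repr x]
    rw [Finset.sum_mul, map_sum]
    refine Finset.sum_congr rfl fun j _ => ?_
    rw [smul_mul_assoc, map_smul, smul_eq_mul]
  rw [h2]
  refine Finset.sum_congr rfl fun j _ => ?_
  rw [Module.Basis.traceDual_repr_apply, Algebra.traceForm_apply, mul_comm (b j)]

theorem om_coord {K F : Type*} [Field K] [Fintype K] [Field F] [Fintype F] [Algebra F K] {κ l l' : Type} [Fintype κ]
    [DecidableEq κ] [Fintype l] [DecidableEq l] [Fintype l'] [DecidableEq l']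
    (b : Basis κ F K) (ε : κ × l ≃ l') (u v : l ⊕ l → K) :
    om (coord b b.traceDual ε u) (coord b b.traceDual ε v) = Algebra.trace F K (om u v) := by
  simp only [om, coord, LinearEquiv.coe_mk, LinearMap.coe_mk, AddHom.coe_mk, Sum.elim_inr, Sum.elim_inl, map_sum, map_sub]
  rw [← ε.sum_comp, Fintype.sum_prod_type_right]
  refine Finset.sum_congr rfl fun i _ => ?_
  rw [mul_comm (u (.inr i)), trace_mul_eq b, trace_mul_eq b, ← Finset.sum_sub_distrib]
  refine Finset.sum_congr rfl fun j _ => ?_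
  simp [mul_comm]

theorem result {K F : Type*} [Field K] [Fintype K] [Field F] [Fintype F] {q : ℕ} (hK : Fintype.card K = q ^ 2) (hF : Fintype.card F = q) (a : ℕ) : ∃ φ : ↥(Matrix.symplecticGroup (Fin a) K) →* ↥(Matrix.symplecticGroup (Fin (2 * a)) F), Function.Injective φ := by
  classical
  obtain ⟨alg, hfr⟩ := Cfsg.Agent.Lib.FFTower.exists_algebra_of_card (F := F) (K := K) (d := 2)
    (by rw [hK, hF]) two_ne_zero
  let b : Basis (Fin 2) F K := Module.finBasisOfFinrankEq F K hfr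
  let e : (Fin a ⊕ Fin a → K) ≃ₗ[F] (Fin (2 * a) ⊕ Fin (2 * a) → F) := coord b b.traceDual finProdFinEquiv
  have hom : ∀ u v : Fin a ⊕ Fin a → K, om (e u) (e v) = Algebra.trace F K (om u v) := om_coord b _
  let ψ : Matrix (Fin a ⊕ Fin a) (Fin a ⊕ Fin a) K → Matrix (Fin (2 * a) ⊕ Fin (2 * a)) (Fin (2 * a) ⊕ Fin (2 * a)) F :=
    fun A => LinearMap.toMatrix' (e.toLinearMap ∘ₗ ((Matrix.mulVecLin A).restrictScalars F) ∘ₗ e.symm.toLinearMap)
  have hψ : ∀ A v, ψ A *ᵥ (e v) = e (A *ᵥ v) := by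
    intro A v
    simp [ψ, LinearMap.toMatrix'_mulVec]
  have hψ1 : ψ 1 = 1 := by
    apply Matrix.ext_of_mulVec_single
    intro i
    obtain ⟨v, hv⟩ := e.surjective (Pi.single i 1)
    rw [← hv, hψ]; simp
  have hψm : ∀ A B, ψ (A * B) = ψ A * ψ B := by
    intro A B
    apply Matrix.ext_of_mulVec_single
    intro i
    obtain ⟨v, hv⟩ := e.surjective (Pi.single i 1)
    rw [← hv, hψ, ← Matrix.mulVec_mulVec, ← Matrix.mulVec_mulVec, hψ, hψ]
  refine ⟨MonoidHom.mk' (fun A => ⟨ψ A.1, ?_⟩) ?_, ?_⟩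
  · rw [mem_iff_om]
    intro u v
    obtain ⟨u, rfl⟩ := e.surjective u
    obtain ⟨v, rfl⟩ := e.surjective v
    rw [hψ, hψ, hom, hom, (mem_iff_om A.1).1 A.2]
  · intro A B
    apply Subtype.ext
    exact hψm _ _
  · intro A B hAB
    have h : ψ A.1 = ψ B.1 := congrArg Subtype.val hAB
    apply Subtype.ext
    apply Matrix.ext_of_mulVec_single
    intro i
    apply e.injective
    rw [← hψ, ← hψ, h]

end Cfsg.Agent.S2678
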