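import Cfsg.Statements.S2679
import Cfsg.Agent.Lib.FFTower

set_option autoImplicit false
open Cfsg

namespace Cfsg.Agent.S2679

open Matrix Module

variable {K : Type*} [Field K]

/-- the minus form as a quadratic map -/
def qm (m : ℕ) (a c : K) : QuadraticMap K ((Fin m ⊕ Fin m) ⊕ Fin 2 → K) K :=
  (∑ i : Fin m, QuadraticMap.linMulLin (LinearMap.proj (.inl (.inl i))) (LinearMap.proj (.inl (.inr i)))) +
    (QuadraticMap.linMulLin (LinearMap.proj (.inr 0)) (LinearMap.proj (.inr 0)) +
      a • QuadraticMap.linMulLin (LinearMap.proj (.inr 0)) (LinearMap.proj (.inr 1)) +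
      c • QuadraticMap.linMulLin (LinearMap.proj (.inr 1)) (LinearMap.proj (.inr 1)))

theorem qm_apply (m : ℕ) (a c : K) (v : (Fin m ⊕ Fin m) ⊕ Fin 2 → K) : qm m a c v = quadFormMinus m K a c v := by
  simp [qm, quadFormMinus, QuadraticMap.linMulLin_apply]
  ring

/-- a quadratic map vanishing on the basis vectors and the sums of two of them is zero -/
theorem qzero {ι : Type} [Fintype ι] [DecidableEq ι] (D : QuadraticMap K (ι → K) K)
    (h1 : ∀ i, D (Pi.single i 1) = 0) (h2 : ∀ i j, D (Pi.single i 1 + Pi.single j 1) = 0) : D = 0 := by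
  have hp : D.polarBilin = 0 := by
    apply LinearMap.BilinForm.ext_basis (Pi.basisFun K ι)
    intro i j
    simp [QuadraticMap.polarBilin_apply_apply, QuadraticMap.polar, h1, h2]
  have hadd : ∀ x y, D (x + y) = D x + D y := by
    intro x y
    have : QuadraticMap.polar D x y = 0 := by
      rw [← QuadraticMap.polarBilin_apply_apply, hp]; rfl
    rw [QuadraticMap.polar] at this
    linear_combination this
  ext v
  have : v = ∑ i, v i • (Pi.single i (1 : K) : ι → K) := by
    conv_lhs => rw [← (Pi.basisFun K ι).sum_repr v]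
    simp
  rw [this]
  have hs : ∀ s : Finset ι, D (∑ i ∈ s, v i • (Pi.single i (1 : K) : ι → K)) = 0 := by
    intro s
    induction s using Finset.induction_on with
    | empty => simp
    | insert i s hi ih => rw [Finset.sum_insert hi, hadd, ih, D.map_smul, h1]; simp
  rw [hs]; rfl

theorem result {F K : Type*} [Field F] [Fintype F] [Field K] [Fintype K] {q : ℕ} (hF : Fintype.card F = q) (hK : Fintype.card K = q ^ 2) {m : ℕ} (hm : 1 ≤ m) (a c : F) (hac : ∀ z₁ z₂ : F, z₁ ^ 2 + a * z₁ * z₂ + c * z₂ ^ 2 = 0 → z₁ = 0 ∧ z₂ = 0) : ∃ φ : ↥(Cfsg.isometryGroup F (Cfsg.quadFormMinus (m - 1) F a c)) →* ↥(Cfsg.isometryGroup K (Cfsg.quadFormPlus m K)), Function.Injective φ := by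
  classical
  obtain ⟨alg, hfr⟩ := Cfsg.Agent.Lib.FFTower.exists_algebra_of_card (F := F) (K := K) (d := 2)
    (by rw [hK, hF]) two_ne_zero
  obtain ⟨m, rfl⟩ : ∃ n, m = n + 1 := ⟨m - 1, by omega⟩
  rw [Nat.add_sub_cancel]
  -- roots in K
  obtain ⟨α, β, hαβ, hs, hp⟩ : ∃ α β : K, α ≠ β ∧ α + β = - algebraMap F K a ∧ α * β = algebraMap F K c := by
    let f : Polynomial F := Polynomial.X ^ 2 + Polynomial.C a * Polynomial.X + Polynomial.C c
    have hfd : f.natDegree = 2 := by
      simp only [f]; compute_degree!
    have hfm : f.Monic := by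
      simp only [f]; monicity!
    have hfi : Irreducible f := by
      rw [hfm.irreducible_iff_roots_eq_zero_of_degree_le_three (by omega) (by omega)]
      rw [Multiset.eq_zero_iff_forall_notMem]
      intro x hx
      rw [Polynomial.mem_roots hfm.ne_zero] at hx
      have := hac x 1 (by simpa [f, Polynomial.IsRoot] using hx)
      exact one_ne_zero this.2
    have hfact : Fact (Irreducible f) := ⟨hfi⟩
    have hfin : finrank F (AdjoinRoot f) = 2 := by
      rw [(AdjoinRoot.powerBasis hfi.ne_zero).finrank, AdjoinRoot.powerBasis_dim, hfd]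
    obtain ⟨ψ⟩ := FiniteField.nonempty_algHom_of_finrank_dvd (F := F) (K := AdjoinRoot f) (L := K)
      (by rw [hfin, hfr])
    obtain ⟨r, hr⟩ : ∃ r : K, r ^ 2 + algebraMap F K a * r + algebraMap F K c = 0 := by
      refine ⟨ψ (AdjoinRoot.root f), ?_⟩
      have h1 : Polynomial.aeval (ψ (AdjoinRoot.root f)) f = 0 := by
        rw [Polynomial.aeval_algHom_apply, Polynomial.aeval_def]
        have : Polynomial.eval₂ (algebraMap F (AdjoinRoot f)) (AdjoinRoot.root f) f = 0 :=
          AdjoinRoot.eval₂_root f
        rw [this, map_zero]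
      generalize ψ (AdjoinRoot.root f) = r at h1
      simpa [f] using h1
    refine ⟨r, - algebraMap F K a - r, ?_, by ring, ?_⟩
    · intro h
      have h2 : 2 * r = - algebraMap F K a := by linear_combination h
      by_cases hc : ringChar F = 2
      · have : CharP F 2 := ringChar.of_eq hc
        have : CharP K 2 := charP_of_injective_algebraMap (algebraMap F K).injective 2
        rw [CharTwo.two_eq_zero, zero_mul] at h2
        have ha : a = 0 := by
          apply (algebraMap F K).injective
          rw [map_zero]; linear_combination h2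
        obtain ⟨d, hd⟩ := FiniteField.isSquare_of_char_two hc c
        have := hac d 1 (by rw [ha, hd]; linear_combination (d ^ 2) * (CharTwo.two_eq_zero : (2 : F) = 0))
        exact one_ne_zero this.2
      · have h2F : (2 : F) ≠ 0 := Ring.two_ne_zero hc
        have h3 : (algebraMap F K) (- a / 2) = r := by
          rw [map_div₀, map_neg, ← h2, map_ofNat]
          have : (2 : K) ≠ 0 := by
            rw [← map_ofNat (algebraMap F K) 2]
            exact (map_ne_zero _).2 h2F
          field_simp
        rw [← h3, ← map_pow, ← map_mul, ← map_add, ← map_add] at hr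
        have h4 := (map_eq_zero _).1 hr
        have := hac (-a / 2) 1 (by linear_combination h4)
        exact one_ne_zero this.2
    · linear_combination -hr
  -- the base change of the isometries
  have hbc : ∀ g : ↥(Cfsg.isometryGroup F (Cfsg.quadFormMinus m F a c)), ∀ v,
      quadFormMinus m K (algebraMap F K a) (algebraMap F K c)
        ((g.1.val.map (algebraMap F K)) *ᵥ v) =
      quadFormMinus m K (algebraMap F K a) (algebraMap F K c) v := by
    intro g v
    set M : Matrix ((Fin m ⊕ Fin m) ⊕ Fin 2) ((Fin m ⊕ Fin m) ⊕ Fin 2) F := g.1.val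
    have hmap : ∀ w : (Fin m ⊕ Fin m) ⊕ Fin 2 → F,
        quadFormMinus m K (algebraMap F K a) (algebraMap F K c) (fun i => algebraMap F K (w i)) =
          algebraMap F K (quadFormMinus m F a c w) := by
      intro w
      simp [quadFormMinus, map_sum]
    have hg : ∀ w : (Fin m ⊕ Fin m) ⊕ Fin 2 → F, quadFormMinus m F a c (M *ᵥ w) = quadFormMinus m F a c w :=
      fun w => g.2 w w
    have hgK : ∀ w : (Fin m ⊕ Fin m) ⊕ Fin 2 → F,
        quadFormMinus m K (algebraMap F K a) (algebraMap F K c) ((M.map (algebraMap F K)) *ᵥ (fun i => algebraMap F K (w i))) =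
        quadFormMinus m K (algebraMap F K a) (algebraMap F K c) (fun i => algebraMap F K (w i)) := by
      intro w
      have : (M.map (algebraMap F K)) *ᵥ (fun i => algebraMap F K (w i)) = fun i => algebraMap F K ((M *ᵥ w) i) := by
        ext i
        simp [Matrix.mulVec, dotProduct, map_sum]
      rw [this, hmap, hmap, hg]
    have hD : (qm m (algebraMap F K a) (algebraMap F K c)).comp (M.map (algebraMap F K)).mulVecLin -
        qm m (algebraMap F K a) (algebraMap F K c) = 0 := by
      apply qzero
      · intro i
        rw [_root_.sub_apply, QuadraticMap.comp_apply, Matrix.mulVecLin_apply, qm_apply, qm_apply, sub_eq_zero]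
        have := hgK (Pi.single i 1)
        have e : (fun j => algebraMap F K ((Pi.single i (1 : F) : _ → F) j)) = Pi.single i (1 : K) := by
          ext j; by_cases h : j = i
          · subst h; simp
          · simp [h]
        rwa [e] at this
      · intro i j
        rw [_root_.sub_apply, QuadraticMap.comp_apply, Matrix.mulVecLin_apply, qm_apply, qm_apply, sub_eq_zero]
        have := hgK (Pi.single i 1 + Pi.single j 1)
        have e : (fun k => algebraMap F K ((Pi.single i (1 : F) + Pi.single j (1 : F) : _ → F) k)) =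
            Pi.single i (1 : K) + Pi.single j (1 : K) := by
          ext k
          simp only [Pi.add_apply, map_add]
          congr 1
          · by_cases h : k = i
            · subst h; simp
            · simp [h]
          · by_cases h : k = j
            · subst h; simp
            · simp [h]
        rwa [e] at this
    have := congrArg (fun D => D v) hD
    simp only [_root_.sub_apply, QuadraticMap.comp_apply, Matrix.mulVecLin_apply, qm_apply] at this
    exact sub_eq_zero.1 this
  have hβα : β - α ≠ 0 := fun h => hαβ (sub_eq_zero.1 h).symm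
  let T : ((Fin m ⊕ Fin m) ⊕ Fin 2 → K) ≃ₗ[K] (Fin (m + 1) ⊕ Fin (m + 1) → K) :=
    { toFun := fun v => Sum.elim (Fin.cons (v (.inr 0) - α * v (.inr 1)) (fun i => v (.inl (.inl i))))
        (Fin.cons (v (.inr 0) - β * v (.inr 1)) (fun i => v (.inl (.inr i))))
      map_add' := by
        intro u v
        ext (k | k)
        · refine Fin.cases ?_ (fun i => ?_) k
          · simp; ring
          · simp
        · refine Fin.cases ?_ (fun i => ?_) k
          · simp; ring
          · simp
      map_smul' := by
        intro u v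
        ext (k | k)
        · refine Fin.cases ?_ (fun i => ?_) k
          · simp; ring
          · simp
        · refine Fin.cases ?_ (fun i => ?_) k
          · simp; ring
          · simp
      invFun := fun w => Sum.elim (Sum.elim (fun i => w (.inl i.succ)) (fun i => w (.inr i.succ)))
        (fun j => if j = 0 then w (.inl 0) + α * ((w (.inl 0) - w (.inr 0)) / (β - α)) else (w (.inl 0) - w (.inr 0)) / (β - α))
      left_inv := by
        intro v
        ext ((k | k) | k)
        · simp
        · simp
        · fin_cases k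
          · simp; field_simp; ring
          · simp; field_simp
      right_inv := by
        intro w
        ext (k | k)
        · refine Fin.cases ?_ (fun i => ?_) k
          · simp
          · simp
        · refine Fin.cases ?_ (fun i => ?_) k
          · simp; field_simp; ring
          · simp }
  have hT : ∀ v, quadFormPlus (m + 1) K (T v) = quadFormMinus m K (algebraMap F K a) (algebraMap F K c) v := by
    intro v
    simp only [quadFormPlus, quadFormMinus, Fin.sum_univ_succ, T, LinearEquiv.coe_mk, LinearMap.coe_mk, AddHom.coe_mk,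
      Sum.elim_inl, Sum.elim_inr, Fin.cons_zero, Fin.cons_succ]
    linear_combination (v (.inr 1)) ^ 2 * hp - v (.inr 0) * v (.inr 1) * hs
  let ψ : Matrix ((Fin m ⊕ Fin m) ⊕ Fin 2) ((Fin m ⊕ Fin m) ⊕ Fin 2) F → Matrix (Fin (m + 1) ⊕ Fin (m + 1)) (Fin (m + 1) ⊕ Fin (m + 1)) K :=
    fun A => LinearMap.toMatrix' (T.toLinearMap ∘ₗ (Matrix.mulVecLin (A.map (algebraMap F K))) ∘ₗ T.symm.toLinearMap)
  have hψ : ∀ A v, ψ A *ᵥ (T v) = T ((A.map (algebraMap F K)) *ᵥ v) := by
    intro A v
    simp [ψ, LinearMap.toMatrix'_mulVec]
  have hψ1 : ψ 1 = 1 := by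
    apply Matrix.ext_of_mulVec_single
    intro i
    obtain ⟨v, hv⟩ := T.surjective (Pi.single i 1)
    rw [← hv, hψ]; simp
  have hψm : ∀ A B, ψ (A * B) = ψ A * ψ B := by
    intro A B
    apply Matrix.ext_of_mulVec_single
    intro i
    obtain ⟨v, hv⟩ := T.surjective (Pi.single i 1)
    rw [← hv, hψ, ← Matrix.mulVec_mulVec, hψ, hψ, Matrix.map_mul, ← Matrix.mulVec_mulVec]
  let Ψ : Matrix ((Fin m ⊕ Fin m) ⊕ Fin 2) ((Fin m ⊕ Fin m) ⊕ Fin 2) F →* Matrix (Fin (m + 1) ⊕ Fin (m + 1)) (Fin (m + 1) ⊕ Fin (m + 1)) K :=
    { toFun := ψ, map_one' := hψ1, map_mul' := hψm }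
  have hinj : Function.Injective Ψ := by
    intro A B hAB
    have h : ψ A = ψ B := hAB
    have h2 : A.map (algebraMap F K) = B.map (algebraMap F K) := by
      apply Matrix.ext_of_mulVec_single
      intro i
      apply T.injective
      rw [← hψ, ← hψ, h]
    ext i j
    exact (algebraMap F K).injective (congrFun (congrFun h2 i) j)
  refine ⟨((Units.map Ψ).comp (Subgroup.subtype _)).codRestrict _ ?_, ?_⟩
  · intro g
    show ∀ u v, quadFormPlus (m + 1) K (ψ g.1.val *ᵥ u) = quadFormPlus (m + 1) K u
    intro u _
    obtain ⟨u, rfl⟩ := T.surjective u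
    rw [hψ, hT, hT, hbc]
  · intro g h hgh
    have h1 : Ψ g.1.val = Ψ h.1.val := congrArg (fun x => x.1.val) hgh
    exact Subtype.ext (Units.ext (hinj h1))

end Cfsg.Agent.S2679
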