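import Cfsg.Statements.S2681
import Cfsg.Agent.Lib.ClSpInv3
import Cfsg.Agent.Lib.InvolSympMat

set_option autoImplicit false
open Cfsg

namespace Cfsg.Agent.S2681

open Cfsg.Agent.Lib Cfsg.Agent.Lib.ClIso Cfsg.Agent.Lib.ClSpInv3

theorem expo (q m s A B : ℕ) (hq : 0 < q) (hs : s ≤ m) (X : ℕ)
    (h : q ^ (s * (s - 1) / 2) * X = A * (q ^ (m ^ 2) * B)) :
    X = q ^ (2 * m * s - (3 * s ^ 2 - s) / 2) * A * (q ^ ((m - s) ^ 2) * B) := by
  apply Nat.eq_of_mul_eq_mul_left (pow_pos hq (s * (s - 1) / 2))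
  rw [h]
  obtain ⟨d, rfl⟩ : ∃ d, m = s + d := ⟨m - s, by omega⟩
  obtain ⟨T, hT⟩ : ∃ T, s * (s - 1) = 2 * T := by
    rcases Nat.even_mul_pred_self s with ⟨T, hT⟩
    exact ⟨T, by rw [hT]; ring⟩
  have hT2 : s * s = 2 * T + s := by
    cases s with
    | zero => simp at hT; omega
    | succ s => rw [← hT]; simp only [Nat.add_sub_cancel]; ring
  have e1 : s * (s - 1) / 2 = T := by omega
  have e2 : (3 * s ^ 2 - s) / 2 = s * s + T := by
    rw [pow_two]
    omega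
  have e3 : s + d - s = d := by omega
  rw [e1, e2, e3]
  have hTle : T ≤ s * s := by omega
  have e4 : (s + d) ^ 2 = T + (2 * (s + d) * s - (s * s + T)) + d ^ 2 := by
    have : s * s + T ≤ 2 * (s + d) * s := by nlinarith
    have h5 : (s + d) ^ 2 + (s * s + T) = T + 2 * (s + d) * s + d ^ 2 := by ring
    omega
  rw [e4, pow_add, pow_add]
  ring

/-- Centraliser order of an involution t of Sp_2m(q), q even, with s = rank(t − 1) even and f(v, tv) = 0 for every v, f the symplectic form (type a_s): |C(t)| = q^(2ms − (3s² − s)/2) · |Sp_s(q)| · |Sp_(2m−2s)(q)|. -/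
theorem result {F : Type*} [Field F] [Fintype F] [CharP F 2] {q : ℕ} (hF : Fintype.card F = q) {m s : ℕ} (t : Matrix.symplecticGroup (Fin m) F) (ht : t ^ 2 = 1) (ht1 : t ≠ 1) (hs : ((t : Matrix (Fin m ⊕ Fin m) (Fin m ⊕ Fin m) F) - 1).rank = s) (heven : Even s) (halt : ∀ v : Fin m ⊕ Fin m → F, Cfsg.sympForm m F v ((t : Matrix (Fin m ⊕ Fin m) (Fin m ⊕ Fin m) F).mulVec v) = 0) : Nat.card ↥(Subgroup.centralizer ({t} : Set ↥(Matrix.symplecticGroup (Fin m) F))) = q ^ (2 * m * s - (3 * s ^ 2 - s) / 2) * ((q : ℕ) ^ ((s / 2) ^ 2) * ∏ i : Fin (s / 2), (q ^ (2 * ((i : ℕ) + 1)) - 1)) * ((q : ℕ) ^ ((m - s) ^ 2) * ∏ i : Fin (m - s), (q ^ (2 * ((i : ℕ) + 1)) - 1)) := by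
  classical
  have hg : sympEquiv (Fin m) F t * sympEquiv (Fin m) F t = 1 := by
    rw [← map_mul, ← pow_two, ht, map_one]
  rw [ClSpInv3.rank_matrix] at hs
  have hsm : s ≤ m := by rw [← hs]; exact ClSpInv2.rank_le hg
  have hk : s = 2 * (s / 2) := by
    obtain ⟨k, hk⟩ := heven
    omega
  have h1 := card_cent_alt hg hs (s / 2) hk (by
    intro x
    have h := halt x
    rw [ClSpInv2.NN_apply, map_sub, (ClSymp2.isSymp_sympForm (l := Fin m) (F := F)).alt, sub_zero, sympEquiv_apply]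
    rw [InvolSympMat.sympForm_eq, ← Finset.sum_sub_distrib] at h
    rw [sympForm_apply, ← h]
    try rfl)
  rw [hF] at h1
  rw [card_cent_matrix]
  have h2 := ClSympOrd.card_Spg (F := F) (s / 2)
  rw [hF] at h2
  rw [← Finset.prod_range (fun i => q ^ (2 * (i + 1)) - 1), ← Finset.prod_range (fun i => q ^ (2 * (i + 1)) - 1), ← h2]
  have hq : 0 < q := by rw [← hF]; exact Fintype.card_pos
  exact expo q m s _ _ hq hsm _ h1

end Cfsg.Agent.S2681
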