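import Cfsg.Statements.S2682
import Cfsg.Agent.Lib.InvForm67
import Cfsg.Agent.Lib.InvolSympMat

set_option autoImplicit false
open Cfsg

namespace Cfsg.Agent.S2682


open Cfsg.Agent.Lib Cfsg.Agent.Lib.ClIso Cfsg.Agent.Lib.ClSymp Cfsg.Agent.Lib.ClSymp2 Cfsg.Agent.Lib.ClSpInv3 Module

theorem expo (q m k B C : ℕ) (hq : 0 < q) (hs : 2 * k + 2 ≤ m) (X : ℕ)
    (h : q ^ ((2 * k + 2) * (2 * k + 1) / 2) * X = q ^ (2 * k + 1) * C * (q ^ (m ^ 2) * B)) :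
    X = q ^ (2 * m * (2 * k + 2) - (3 * (2 * k + 2) ^ 2 - 3 * (2 * k + 2)) / 2 - 1) * C * (q ^ ((m - (2 * k + 2)) ^ 2) * B) := by
  apply Nat.eq_of_mul_eq_mul_left (pow_pos hq ((2 * k + 2) * (2 * k + 1) / 2))
  rw [h]
  obtain ⟨d, rfl⟩ : ∃ d, m = 2 * k + 2 + d := ⟨m - (2 * k + 2), by omega⟩
  have e1 : (2 * k + 2) * (2 * k + 1) / 2 = (k + 1) * (2 * k + 1) := by
    have : (2 * k + 2) * (2 * k + 1) = 2 * ((k + 1) * (2 * k + 1)) := by ring
    rw [this]; omega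
  have e2 : (3 * (2 * k + 2) ^ 2 - 3 * (2 * k + 2)) / 2 = 3 * (k + 1) * (2 * k + 1) := by
    have : 3 * (2 * k + 2) ^ 2 = 2 * (3 * (k + 1) * (2 * k + 1)) + 3 * (2 * k + 2) := by ring
    rw [this]; omega
  have e3 : 2 * k + 2 + d - (2 * k + 2) = d := by omega
  have e4 : 2 * (2 * k + 2 + d) * (2 * k + 2) - 3 * (k + 1) * (2 * k + 1) - 1 = 2 * k ^ 2 + 7 * k + 4 + 4 * d * k + 4 * d := by
    have : 2 * (2 * k + 2 + d) * (2 * k + 2) = 3 * (k + 1) * (2 * k + 1) + 1 + (2 * k ^ 2 + 7 * k + 4 + 4 * d * k + 4 * d) := by ring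
    omega
  rw [e1, e2, e3, e4]
  have e5 : q ^ (2 * k + 1) * C * (q ^ ((2 * k + 2 + d) ^ 2) * B) = q ^ (2 * k + 1 + (2 * k + 2 + d) ^ 2) * (C * B) := by
    rw [pow_add]; ring
  have e6 : q ^ ((k + 1) * (2 * k + 1)) * (q ^ (2 * k ^ 2 + 7 * k + 4 + 4 * d * k + 4 * d) * C * (q ^ (d ^ 2) * B)) =
      q ^ ((k + 1) * (2 * k + 1) + (2 * k ^ 2 + 7 * k + 4 + 4 * d * k + 4 * d) + d ^ 2) * (C * B) := by
    rw [pow_add, pow_add]; ring
  rw [e5, e6]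
  congr 2
  ring

/-- Centraliser order of an involution t of Sp_2m(q), q even, with s = rank(t − 1) even and f(v, tv) ≠ 0 for some v, f the symplectic form (type c_s): |C(t)| = q^(2ms − (3s² − 3s)/2 − 1) · |Sp_(s−2)(q)| · |Sp_(2m−2s)(q)|. -/
theorem result {F : Type*} [Field F] [Fintype F] [CharP F 2] {q : ℕ} (hF : Fintype.card F = q) {m s : ℕ} (t : Matrix.symplecticGroup (Fin m) F) (ht : t ^ 2 = 1) (hs : ((t : Matrix (Fin m ⊕ Fin m) (Fin m ⊕ Fin m) F) - 1).rank = s) (heven : Even s) (hna : ∃ v : Fin m ⊕ Fin m → F, Cfsg.sympForm m F v ((t : Matrix (Fin m ⊕ Fin m) (Fin m ⊕ Fin m) F).mulVec v) ≠ 0) : Nat.card ↥(Subgroup.centralizer ({t} : Set ↥(Matrix.symplecticGroup (Fin m) F))) = q ^ (2 * m * s - (3 * s ^ 2 - 3 * s) / 2 - 1) * ((q : ℕ) ^ (((s - 2) / 2) ^ 2) * ∏ i : Fin ((s - 2) / 2), (q ^ (2 * ((i : ℕ) + 1)) - 1)) * ((q : ℕ) ^ ((m - s) ^ 2) * ∏ i : Fin (m - s), (q ^ (2 * ((i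 : ℕ) + 1)) - 1)) := by
  classical
  have hg : sympEquiv (Fin m) F t * sympEquiv (Fin m) F t = 1 := by
    rw [← map_mul, ← pow_two, ht, map_one]
  rw [ClSpInv3.rank_matrix] at hs
  have hsm : s ≤ m := by rw [← hs]; exact ClSpInv2.rank_le hg
  obtain ⟨v, hv⟩ := hna
  have hna' : ∃ w, Gam hg w w ≠ 0 := by
    refine ⟨⟨ClSpInv2.NN _ v, v, rfl⟩, ?_⟩
    rw [Gam_apply, ClSpInv2.gam_eq hg]
    intro h
    apply hv
    have h' : ClIso.sympForm (Fin m) F v (ClSpInv2.NN (sympEquiv (Fin m) F t) v) = 0 := h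
    rw [ClSpInv2.NN_apply, map_sub, (ClSymp2.isSymp_sympForm (l := Fin m) (F := F)).alt, sub_zero, sympEquiv_apply] at h'
    rw [InvolSympMat.sympForm_eq, ← Finset.sum_sub_distrib]
    rw [sympForm_apply] at h'
    rw [← h']
  obtain ⟨k, hk⟩ : ∃ k, s = 2 * k + 2 := by
    obtain ⟨j, hj⟩ := heven
    rcases Nat.eq_zero_or_pos j with h0 | h0
    · exfalso
      have h1 : finrank F (LinearMap.range (ClSpInv2.NN (sympEquiv (Fin m) F t))) = 0 := by rw [hs, hj, h0]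
      obtain ⟨w, hw⟩ := hna'
      apply hw
      have h2 : w = 0 := by
        have := Module.finrank_zero_iff.1 h1
        exact Subsingleton.elim _ _
      rw [h2, map_zero]
    · exact ⟨j - 1, by omega⟩
  have h1 := ClSpInv2.card_centralizer hg
  have h2 := InvForm67.card_nonalt (Gam hg) (Gam_symm hg) (Gam_nondeg hg) hna' (k := k) (by rw [hs, hk])
  have h3 : Nat.card (isoGrp F (ClSpInv2.gam (sympEquiv (Fin m) F t))) = (Fintype.card F) ^ (2 * k + 1) * Nat.card (Spg (ClIso.sympForm (Fin k) F)) := h2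
  have h4 := ClSpInv.card_PS (F := F) hsm
  rw [hs, h3] at h1
  rw [card_cent_matrix]
  have h5 := ClSympOrd.card_Spg (F := F) k
  subst hk
  rw [hF] at h1 h4 h5
  have e1 : 2 * k + 2 - 2 = 2 * k := by omega
  have e2 : 2 * k / 2 = k := by omega
  have e3 : 2 * k + 2 - 1 = 2 * k + 1 := by omega
  rw [← Finset.prod_range (fun i => q ^ (2 * (i + 1)) - 1), ← Finset.prod_range (fun i => q ^ (2 * (i + 1)) - 1), e1, e2, ← h5]
  have hq : 0 < q := by rw [← hF]; exact Fintype.card_pos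
  rw [e3] at h4
  apply expo q m k _ _ hq hsm
  rw [h1, ← h4]
  ring


end Cfsg.Agent.S2682
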