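import Cfsg.Statements.S2683
import Cfsg.Agent.Lib.InvOmega67

set_option autoImplicit false
open Cfsg

namespace Cfsg.Agent.S2683


open QuadraticMap Module Cfsg.Agent.Lib Cfsg.Agent.Lib.Quad Cfsg.Agent.Lib.GaussSign67 Cfsg.Agent.Lib.NsPt67 Cfsg.Agent.Lib.ClIso Cfsg.Agent.Lib.ClSymp Cfsg.Agent.Lib.InvO67

/-- For the hyperbolic form Σ x_j y_j on F^(2m) over a finite field with q elements, q even (excluding m = 2 over the field of two elements), and an involution x of the orthogonal group with s = rank(x − 1) odd (type b_s; such x lie outside Ω): the elements of Ω (the commutator subgroup of the orthogonal group) commuting with x number q^(2m(s−1) − (3s² − 3s)/2) · |Sp_(s−1)(q)| · |Sp_(2m−2s)(q)|, where |Sp_2k(q)| = q^(k²) Π_(i=1)^k (q^(2i) − 1). -/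
theorem result {F : Type*} [Field F] [Fintype F] [CharP F 2] {q : ℕ} (hF : Fintype.card F = q) {m s : ℕ} (h : Fintype.card F ≠ 2 ∨ m ≠ 2) (x : ↥(Cfsg.isometryGroup F (Cfsg.quadFormPlus m F))) (hx : x ^ 2 = 1) (hs : (((x : Matrix.GeneralLinearGroup (Fin m ⊕ Fin m) F) : Matrix (Fin m ⊕ Fin m) (Fin m ⊕ Fin m) F) - 1).rank = s) (hodd : Odd s) : Nat.card {g : ↥(Cfsg.Omega F (Cfsg.quadFormPlus m F)) // (g : ↥(Cfsg.isometryGroup F (Cfsg.quadFormPlus m F))) * x = x * (g : ↥(Cfsg.isometryGroup F (Cfsg.quadFormPlus m F)))} = q ^ (2 * m * (s - 1) - (3 * s ^ 2 - 3 * s) / 2) * ((q : ℕ) ^ (((s - 1) / 2) ^ 2) * ∏ i : Fin ((s - 1) / 2), (q ^ (2 * ((i : ℕ) + 1)) - 1)) * ((q : ℕ) ^ ((m - s) ^ 2) * ∏ i : Fin (m - s), (q ^ (2 * ((i : ℕ) + 1)) - 1)) := by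
  classical
  obtain ⟨χ, hχ, hχ1⟩ := exists_char F
  have hnd : Nd (quadPlus m F) := nd_quadPlus
  have hfr : finrank F (Fin m ⊕ Fin m → F) = 2 * m := finrank_plus
  have hgen : GenHyp (quadPlus m F) := genHyp_of_card (by
    rcases h with h | h
    · exact Or.inl h
    · right; omega)
  have hcF : Nat.card F = q := by rw [Nat.card_eq_fintype_card, hF]
  set X := toLE (x : Matrix.GeneralLinearGroup (Fin m ⊕ Fin m) F) with hX
  have hXO : X ∈ O (quadPlus m F) := (mem_isometryGroup_iff_toLE (Q := quadPlus m F)).1 x.2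
  have hX2 : X ^ 2 = 1 := by
    rw [hX, ← map_pow]
    have : (x : Matrix.GeneralLinearGroup (Fin m ⊕ Fin m) F) ^ 2 = 1 := congrArg Subtype.val hx
    rw [this, map_one]
  rw [rank_toLE, ← hX] at hs
  obtain ⟨k, hk⟩ := hodd
  have hXC : X ∈ Cen (quadPlus m F) X := mem_Cen.2 ⟨hXO, rfl⟩
  have h1 := card_half hnd hgen (C := Cen (quadPlus m F) X) inf_le_left hXC (by
    rw [hs, hk]
    rw [Nat.not_even_iff_odd]; exact ⟨k, rfl⟩)
  have hne : ∃ w ∈ mov X, quadPlus m F w ≠ 0 := by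
    by_contra hcon
    push Not at hcon
    have h2 := AltForm.even_finrank (gamL hnd hXO) (by
      intro v
      have := Q_mov hnd hXO v
      rw [hcon _ v.2] at this
      exact neg_eq_zero.1 this.symm) (gamL_nondeg hnd hXO)
    rw [hs, hk] at h2
    exact Nat.not_even_iff_odd.2 ⟨k, rfl⟩ h2
  obtain ⟨U, w, hU, hUd, hw, hwU, hUw⟩ := mov_split hnd hXO hX2 hne (s := 2 * k) (by rw [hs, hk])
  have hle : s ≤ m := by
    have h3 := Submodule.finrank_mono (mov_ti hXO hX2)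
    have h4 := hnd.finrank_add_finrank_perp (mov X)
    omega
  obtain ⟨n, hn⟩ : ∃ n, 2 * k + (n + 1) = m := ⟨m - s, by omega⟩
  have h5 := card_fix_ns hχ hn hU hUd hw hwU
  rw [hUw] at h5
  have h6 := card_cent hnd hXO
  have h7 := InvForm67.card_odd (gamL hnd hXO) (gamL_symm hnd hXO hX2) (gamL_nondeg hnd hXO) (k := k) (by rw [hs, hk])
  have h8 := ClSympOrd.card_Spg (F := F) k
  rw [card_Omega]
  rw [h7, h8, h5, hcF, hF] at h6
  rw [h6] at h1
  have e1 : m - s = n := by omega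
  have e2 : (s - 1) / 2 = k := by omega
  rw [e1, e2, ← Finset.prod_range (fun i => q ^ (2 * (i + 1)) - 1), ← Finset.prod_range (fun i => q ^ (2 * (i + 1)) - 1)]
  set A := ∏ i ∈ Finset.range k, (q ^ (2 * (i + 1)) - 1)
  set B := ∏ i ∈ Finset.range n, (q ^ (2 * (i + 1)) - 1)
  apply Nat.eq_of_mul_eq_mul_left (by norm_num : 0 < 2)
  rw [h1]
  have e3 : 2 * m * (s - 1) - (3 * s ^ 2 - 3 * s) / 2 = 2 * k ^ 2 + k + 4 * k * n := by
    have a1 : 3 * s ^ 2 - 3 * s = 2 * (3 * k * (2 * k + 1)) := by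
      have : 3 * s ^ 2 = 2 * (3 * k * (2 * k + 1)) + 3 * s := by rw [hk]; ring
      omega
    rw [a1, Nat.mul_div_cancel_left _ (by norm_num)]
    have a2 : 2 * m * (s - 1) = 3 * k * (2 * k + 1) + (2 * k ^ 2 + k + 4 * k * n) := by
      have : s - 1 = 2 * k := by omega
      rw [this, ← hn]; ring
    omega
  have e4 : 2 * k * (2 * k - 1) / 2 + 2 * (2 * k) * n + 2 * k + n ^ 2 = (2 * k ^ 2 + k + 4 * k * n) + n ^ 2 := by
    have a3 : 2 * k * (2 * k - 1) / 2 = 2 * k ^ 2 - k := by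
      rw [mul_assoc, Nat.mul_div_cancel_left _ (by norm_num)]
      rcases Nat.eq_zero_or_pos k with rfl | hk0
      · rfl
      · obtain ⟨i, rfl⟩ : ∃ i, k = i + 1 := ⟨k - 1, by omega⟩
        have : 2 * (i + 1) - 1 = 2 * i + 1 := by omega
        rw [this]
        have : 2 * (i + 1) ^ 2 = (i + 1) * (2 * i + 1) + (i + 1) := by ring
        omega
    rw [a3]
    have a4 : k ≤ 2 * k ^ 2 := by nlinarith [Nat.zero_le k, sq_nonneg k]
    have : 2 * (2 * k) * n = 4 * k * n := by ring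
    omega
  rw [e3, e4, pow_add _ _ (n ^ 2)]
  ring


end Cfsg.Agent.S2683
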