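import Cfsg.Statements.S2684
import Cfsg.Agent.Lib.InvOmega67

set_option autoImplicit false
open Cfsg

namespace Cfsg.Agent.S2684


open QuadraticMap Module Cfsg.Agent.Lib Cfsg.Agent.Lib.Quad Cfsg.Agent.Lib.GaussSign67 Cfsg.Agent.Lib.NsPt67 Cfsg.Agent.Lib.ClIso Cfsg.Agent.Lib.ClSymp Cfsg.Agent.Lib.InvO67

/-- For the hyperbolic form Q = Σ x_j y_j on F^(2m) over a finite field with q elements, q even (excluding m = 2 over the field of two elements), and an involution x ≠ 1 of the orthogonal group with s = rank(x − 1) even and Q vanishing on the image of x − 1 (equivalently f(v, xv) = 0 for all v, where f(u, w) = Q(u + w) − Q(u) − Q(w) is the bilinear form of Q; type a_s, which lies in Ω): its centraliser in Ω (the commutator subgroup of the orthogonal group) has order q^(2ms − (3s² + s)/2) · |Sp_s(q)| · |Ω⁺_(2m−2s)(q)|, where |Ω⁺_2k(q)| = q^(k(k−1)) (q^k − 1) Π_(i=1)^(k−1) (q^(2i) − 1) for k ≥ 1 and the last factor is 1 when s = m. -/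
theorem result {F : Type*} [Field F] [Fintype F] [CharP F 2] {q : ℕ} (hF : Fintype.card F = q) {m s : ℕ} (h : Fintype.card F ≠ 2 ∨ m ≠ 2) (x : ↥(Cfsg.isometryGroup F (Cfsg.quadFormPlus m F))) (hx : x ^ 2 = 1) (hx1 : x ≠ 1) (hs : (((x : Matrix.GeneralLinearGroup (Fin m ⊕ Fin m) F) : Matrix (Fin m ⊕ Fin m) (Fin m ⊕ Fin m) F) - 1).rank = s) (heven : Even s) (halt : ∀ v : Fin m ⊕ Fin m → F, Cfsg.quadFormPlus m F ((((x : Matrix.GeneralLinearGroup (Fin m ⊕ Fin m) F) : Matrix (Fin m ⊕ Fin m) (Fin m ⊕ Fin m) F) - 1).mulVec v) = 0) : Nat.card {g : ↥(Cfsg.Omega F (Cfsg.quadFormPlus m F)) // (g : ↥(Cfsg.isometryGroup F (Cfsg.quadFormPlus m F))) * x = x * (g : ↥(Cfsg.isometryGroup F (Cfsg.quadFormPlus m F)))} = q ^ (2 * m * s - (3 * s ^ 2 + s) / 2) * ((q : ℕ) ^ ((s / 2) ^ 2) * ∏ i : Fin (s / 2), (q ^ (2 * ((i : ℕ) + 1)) - 1)) * (if s = m then 1 else q ^ ((m - s) * (m - s - 1)) * (q ^ (m - s) - 1) * ∏ i : Fin (m - s - 1), (q ^ (2 * ((i : ℕ) + 1)) - 1))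 := by
  classical
  obtain ⟨χ, hχ, hχ1⟩ := exists_char F
  have hnd : Nd (quadPlus m F) := nd_quadPlus
  have hfr : finrank F (Fin m ⊕ Fin m → F) = 2 * m := finrank_plus
  have hgen : GenHyp (quadPlus m F) := genHyp_of_card (by
    rcases h with h | h
    · exact Or.inl h
    · right; omega)
  have hcF : Nat.card F = q := by rw [Nat.card_eq_fintype_card, hF]
  set X := toLE (x : Matrix.GeneralLinearGroup (Fin m ⊕ Fin m) F) with hX
  have hXO : X ∈ O (quadPlus m F) := (mem_isometryGroup_iff_toLE (Q := quadPlus m F)).1 x.2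
  have hX2 : X ^ 2 = 1 := by
    rw [hX, ← map_pow]
    have : (x : Matrix.GeneralLinearGroup (Fin m ⊕ Fin m) F) ^ 2 = 1 := congrArg Subtype.val hx
    rw [this, map_one]
  rw [rank_toLE, ← hX] at hs
  have hle : s ≤ m := by
    have h3 := Submodule.finrank_mono (mov_ti hXO hX2)
    have h4 := hnd.finrank_add_finrank_perp (mov X)
    omega
  have h6 := card_cent hnd hXO
  obtain ⟨k, hk⟩ : ∃ k, s = 2 * k := by
    obtain ⟨k, hk⟩ := heven
    exact ⟨k, by omega⟩
  have hts : ∀ w ∈ mov X, quadPlus m F w = 0 := by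
    intro w hw
    obtain ⟨v, rfl⟩ := (mov_toLE _ _).1 hw
    exact halt v
  have h7 := ClSpInv3.card_alt (gamL hnd hXO) (by
    intro v
    have := Q_mov hnd hXO v
    rw [hts _ v.2] at this
    exact neg_eq_zero.1 this.symm) (gamL_nondeg hnd hXO) k (by rw [hs, hk])
  have h8 := ClSympOrd.card_Spg (F := F) k
  have e2 : s / 2 = k := by omega
  rw [card_Omega, e2]
  split_ifs with hsm
  · -- the maximal case
    have h5 := card_fix_ts hχ m s 0 (by omega) (mov X) hts hs
    have hall : ∀ g : (Fin m ⊕ Fin m → F) ≃ₗ[F] (Fin m ⊕ Fin m → F), g ∈ Cen (quadPlus m F) X → g ∈ Om (quadPlus m F) := by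
      intro g hg
      obtain ⟨hgO, hgx⟩ := mem_Cen.1 hg
      apply mem_Om_of_mts hnd hgen hfr (U := mov X) ⟨by rw [hs, hsm], hts⟩ hgO
      apply Submodule.eq_of_le_of_finrank_eq
      · rintro _ ⟨w, hw, rfl⟩
        obtain ⟨u, rfl⟩ := mem_mov.1 hw
        rw [mem_mov]
        refine ⟨g u, ?_⟩
        show _ = g (X u - u)
        rw [map_sub, cen_apply hgx]
      · exact LinearEquiv.finrank_map_eq g (mov X)
    have h9 : Nat.card {g : (Fin m ⊕ Fin m → F) ≃ₗ[F] (Fin m ⊕ Fin m → F) // g ∈ Cen (quadPlus m F) X ∧ g ∈ Om (quadPlus m F)} = Nat.card (Cen (quadPlus m F) X) := by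
      apply Nat.card_congr
      exact Equiv.subtypeEquivRight fun g => ⟨fun h => h.1, fun h => ⟨h, hall g h⟩⟩
    rw [h9, h6, h7, h8, h5, hcF, hF, ClOrthOrd.card_O_plus_zero]
    rw [← Finset.prod_range (fun i => q ^ (2 * (i + 1)) - 1)]
    have e3 : 2 * m * s - (3 * s ^ 2 + s) / 2 = s * (s - 1) / 2 + 2 * s * 0 := by
      rw [hk, ← hsm, hk]
      have a1 : (3 * (2 * k) ^ 2 + 2 * k) / 2 = 6 * k ^ 2 + k := by
        have : 3 * (2 * k) ^ 2 + 2 * k = 2 * (6 * k ^ 2 + k) := by ring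
        rw [this, Nat.mul_div_cancel_left _ (by norm_num)]
      have a3 : 2 * k * (2 * k - 1) / 2 = 2 * k ^ 2 - k := by
        rw [mul_assoc, Nat.mul_div_cancel_left _ (by norm_num)]
        rcases Nat.eq_zero_or_pos k with rfl | hk0
        · rfl
        · obtain ⟨i, rfl⟩ : ∃ i, k = i + 1 := ⟨k - 1, by omega⟩
          have : 2 * (i + 1) - 1 = 2 * i + 1 := by omega
          rw [this]
          have : 2 * (i + 1) ^ 2 = (i + 1) * (2 * i + 1) + (i + 1) := by ring
          omega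
      rw [a1, a3]
      have : 2 * (2 * k) * (2 * k) = 8 * k ^ 2 := by ring
      omega
    rw [e3]
    ring
  · obtain ⟨n, hn⟩ : ∃ n, s + (n + 1) = m := ⟨m - s - 1, by omega⟩
    have h5 := card_fix_ts hχ m s (n + 1) hn (mov X) hts hs
    have h10 := ClOrthOrd.card_O_plus (F := F) n
    obtain ⟨v, hv, hvQ⟩ : ∃ v ∈ perp (quadPlus m F) (mov X), quadPlus m F v ≠ 0 := by
      by_contra hcon
      push Not at hcon
      have a1 := Submodule.finrank_mono (le_perp_of_ts hcon)
      have a2 := hnd.finrank_add_finrank_perp (perp (quadPlus m F) (mov X))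
      have a3 := hnd.finrank_add_finrank_perp (mov X)
      omega
    have h1 := card_half hnd hgen (C := Cen (quadPlus m F) X) inf_le_left (fix_le_cen hnd hXO (refl_mem_Fix hv)) (mov_refl hvQ hnd)
    rw [h7, h8, h5, h10, hcF, hF] at h6
    rw [h6] at h1
    have e1 : m - s = n + 1 := by omega
    have e1' : m - s - 1 = n := by omega
    rw [e1', e1, ← Finset.prod_range (fun i => q ^ (2 * (i + 1)) - 1), ← Finset.prod_range (fun i => q ^ (2 * (i + 1)) - 1)]
    apply Nat.eq_of_mul_eq_mul_left (by norm_num : 0 < 2)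
    rw [h1]
    have e3 : 2 * m * s - (3 * s ^ 2 + s) / 2 = s * (s - 1) / 2 + 2 * s * (n + 1) := by
      rw [← hn, hk]
      have a1 : (3 * (2 * k) ^ 2 + 2 * k) / 2 = 6 * k ^ 2 + k := by
        have : 3 * (2 * k) ^ 2 + 2 * k = 2 * (6 * k ^ 2 + k) := by ring
        rw [this, Nat.mul_div_cancel_left _ (by norm_num)]
      have a3 : 2 * k * (2 * k - 1) / 2 = 2 * k ^ 2 - k := by
        rw [mul_assoc, Nat.mul_div_cancel_left _ (by norm_num)]
        rcases Nat.eq_zero_or_pos k with rfl | hk0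
        · rfl
        · obtain ⟨i, rfl⟩ : ∃ i, k = i + 1 := ⟨k - 1, by omega⟩
          have : 2 * (i + 1) - 1 = 2 * i + 1 := by omega
          rw [this]
          have : 2 * (i + 1) ^ 2 = (i + 1) * (2 * i + 1) + (i + 1) := by ring
          omega
      rw [a1, a3]
      have a5 : 2 * (2 * k + (n + 1)) * (2 * k) = 8 * k ^ 2 + 4 * k * (n + 1) := by ring
      have a6 : 2 * (2 * k) * (n + 1) = 4 * k * (n + 1) := by ring
      have a4 : k ≤ 2 * k ^ 2 := by nlinarith [Nat.zero_le k, sq_nonneg k]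
      omega
    rw [e3]
    ring


end Cfsg.Agent.S2684
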