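import Cfsg.Statements.S2685
import Cfsg.Agent.Lib.InvOmega67

set_option autoImplicit false
open Cfsg

namespace Cfsg.Agent.S2685


open QuadraticMap Module Cfsg.Agent.Lib Cfsg.Agent.Lib.Quad Cfsg.Agent.Lib.GaussSign67 Cfsg.Agent.Lib.NsPt67 Cfsg.Agent.Lib.ClIso Cfsg.Agent.Lib.ClSymp Cfsg.Agent.Lib.InvO67

/-- For the hyperbolic form Q = Σ x_j y_j on F^(2m) over a finite field with q elements, q even (excluding m = 2 over the field of two elements), and an involution x of the orthogonal group with s = rank(x − 1) even and Q not vanishing on the image of x − 1 (f(v, xv) ≠ 0 for some v, where f(u, w) = Q(u + w) − Q(u) − Q(w) is the bilinear form of Q; type c_s, which lies in Ω): its centraliser in Ω (the commutator subgroup of the orthogonal group) has order q^(2m(s−1) − (3s² − 5s)/2 − 1) · |Sp_(s−2)(q)| · |Sp_(2m−2s)(q)|. -/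
theorem result {F : Type*} [Field F] [Fintype F] [CharP F 2] {q : ℕ} (hF : Fintype.card F = q) {m s : ℕ} (h : Fintype.card F ≠ 2 ∨ m ≠ 2) (x : ↥(Cfsg.isometryGroup F (Cfsg.quadFormPlus m F))) (hx : x ^ 2 = 1) (hs : (((x : Matrix.GeneralLinearGroup (Fin m ⊕ Fin m) F) : Matrix (Fin m ⊕ Fin m) (Fin m ⊕ Fin m) F) - 1).rank = s) (heven : Even s) (hna : ∃ v : Fin m ⊕ Fin m → F, Cfsg.quadFormPlus m F ((((x : Matrix.GeneralLinearGroup (Fin m ⊕ Fin m) F) : Matrix (Fin m ⊕ Fin m) (Fin m ⊕ Fin m) F) - 1).mulVec v) ≠ 0) : Nat.card {g : ↥(Cfsg.Omega F (Cfsg.quadFormPlus m F)) // (g : ↥(Cfsg.isometryGroup F (Cfsg.quadFormPlus m F))) * x = x * (g : ↥(Cfsg.isometryGroup F (Cfsg.quadFormPlus m F)))} = q ^ (2 * m * (s - 1) - (3 * s ^ 2 - 5 * s) / 2 - 1) * ((q : ℕ) ^ (((s - 2) / 2) ^ 2) * ∏ i : Fin ((s - 2) / 2), (q ^ (2 * ((i : ℕ) + 1)) - 1)) * ((q : ℕ) ^ ((m - s) ^ 2) * ∏ i : Fin (m - s), (q ^ (2 * ((i : ℕ) + 1)) - 1)) :=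 by
  classical
  obtain ⟨χ, hχ, hχ1⟩ := exists_char F
  have hnd : Nd (quadPlus m F) := nd_quadPlus
  have hfr : finrank F (Fin m ⊕ Fin m → F) = 2 * m := finrank_plus
  have hgen : GenHyp (quadPlus m F) := genHyp_of_card (by
    rcases h with h | h
    · exact Or.inl h
    · right; omega)
  have hcF : Nat.card F = q := by rw [Nat.card_eq_fintype_card, hF]
  set X := toLE (x : Matrix.GeneralLinearGroup (Fin m ⊕ Fin m) F) with hX
  have hXO : X ∈ O (quadPlus m F) := (mem_isometryGroup_iff_toLE (Q := quadPlus m F)).1 x.2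
  have hX2 : X ^ 2 = 1 := by
    rw [hX, ← map_pow]
    have : (x : Matrix.GeneralLinearGroup (Fin m ⊕ Fin m) F) ^ 2 = 1 := congrArg Subtype.val hx
    rw [this, map_one]
  rw [rank_toLE, ← hX] at hs
  have hle : s ≤ m := by
    have h3 := Submodule.finrank_mono (mov_ti hXO hX2)
    have h4 := hnd.finrank_add_finrank_perp (mov X)
    omega
  have h6 := card_cent hnd hXO
  obtain ⟨v0, hv0⟩ := hna
  have hne : ∃ w ∈ mov X, quadPlus m F w ≠ 0 := ⟨_, (mov_toLE _ _).2 ⟨v0, rfl⟩, hv0⟩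
  obtain ⟨k, hk⟩ : ∃ k, s = 2 * k + 2 := by
    obtain ⟨j, hj⟩ := heven
    rcases Nat.eq_zero_or_pos j with h0 | h0
    · exfalso
      obtain ⟨w, hw, hwQ⟩ := hne
      have h1 : finrank F (mov X) = 0 := by omega
      rw [Submodule.finrank_eq_zero] at h1
      rw [h1, Submodule.mem_bot] at hw
      rw [hw, QuadraticMap.map_zero] at hwQ
      exact hwQ rfl
    · exact ⟨j - 1, by omega⟩
  obtain ⟨U, w, hU, hUd, hw, hwU, hUw⟩ := mov_split hnd hXO hX2 hne (s := 2 * k + 1) (by rw [hs, hk])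
  have hwm : w ∈ mov X := by rw [← hUw]; exact Submodule.mem_sup_right (Submodule.mem_span_singleton_self w)
  have hwC : refl (quadPlus m F) w ∈ Cen (quadPlus m F) X := fix_le_cen hnd hXO (refl_mem_Fix (mov_ti hXO hX2 hwm))
  have h1 := card_half hnd hgen (C := Cen (quadPlus m F) X) inf_le_left hwC (mov_refl (by rw [hw]; exact one_ne_zero) hnd)
  obtain ⟨n, hn⟩ : ∃ n, 2 * k + 1 + (n + 1) = m := ⟨m - s, by omega⟩
  have h5 := card_fix_ns hχ hn hU hUd hw hwU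
  rw [hUw] at h5
  have h7 := InvForm67.card_nonalt (gamL hnd hXO) (gamL_symm hnd hXO hX2) (gamL_nondeg hnd hXO) (by
    refine ⟨⟨w, hwm⟩, fun h0 => ?_⟩
    have := Q_mov hnd hXO ⟨w, hwm⟩
    rw [h0, neg_zero] at this
    have h9 : quadPlus m F w = 0 := this
    rw [hw] at h9
    exact one_ne_zero h9) (k := k) (by rw [hs, hk])
  have h8 := ClSympOrd.card_Spg (F := F) k
  rw [card_Omega]
  rw [h7, h8, h5, hcF, hF] at h6
  rw [h6] at h1
  have e1 : m - s = n := by omega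
  have e2 : (s - 2) / 2 = k := by omega
  rw [e1, e2, ← Finset.prod_range (fun i => q ^ (2 * (i + 1)) - 1), ← Finset.prod_range (fun i => q ^ (2 * (i + 1)) - 1)]
  set A := ∏ i ∈ Finset.range k, (q ^ (2 * (i + 1)) - 1)
  set B := ∏ i ∈ Finset.range n, (q ^ (2 * (i + 1)) - 1)
  apply Nat.eq_of_mul_eq_mul_left (by norm_num : 0 < 2)
  rw [h1]
  have e3 : 2 * m * (s - 1) - (3 * s ^ 2 - 5 * s) / 2 - 1 = 2 * k ^ 2 + 5 * k + 2 + 4 * k * n + 2 * n := by
    have a1 : 3 * s ^ 2 - 5 * s = 2 * ((k + 1) * (6 * k + 1)) := by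
      have : 3 * s ^ 2 = 2 * ((k + 1) * (6 * k + 1)) + 5 * s := by rw [hk]; ring
      omega
    rw [a1, Nat.mul_div_cancel_left _ (by norm_num)]
    have a2 : 2 * m * (s - 1) = (k + 1) * (6 * k + 1) + 1 + (2 * k ^ 2 + 5 * k + 2 + 4 * k * n + 2 * n) := by
      have : s - 1 = 2 * k + 1 := by omega
      rw [this, ← hn]; ring
    omega
  have e4 : (2 * k + 1) * (2 * k + 1 - 1) / 2 + 2 * (2 * k + 1) * n + (2 * k + 1) + n ^ 2 = (2 * k ^ 2 + 3 * k + 1 + 4 * k * n + 2 * n) + n ^ 2 := by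
    have a3 : (2 * k + 1) * (2 * k + 1 - 1) / 2 = 2 * k ^ 2 + k := by
      have : (2 * k + 1) * (2 * k + 1 - 1) = 2 * (2 * k ^ 2 + k) := by
        rw [Nat.add_sub_cancel]; ring
      rw [this, Nat.mul_div_cancel_left _ (by norm_num)]
    rw [a3]
    ring
  have e5 : 2 * k ^ 2 + 5 * k + 2 + 4 * k * n + 2 * n = (2 * k + 1) + (2 * k ^ 2 + 3 * k + 1 + 4 * k * n + 2 * n) := by ring
  rw [e3, e4, pow_add _ _ (n ^ 2), e5, pow_add _ (2 * k + 1)]
  ring


end Cfsg.Agent.S2685
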