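import Cfsg.Statements.S2697
import Cfsg.Agent.Lib.PSLField

set_option autoImplicit false
open Cfsg

namespace Cfsg.Agent.S2697

open Lib.PSLAut Lib.SplitCount

/-- Let T = PSL_n(F) be simple over a finite field (n ≥ 2; |F| ≥ 4 when n = 2) and let x be a field automorphism or a graph-field automorphism of T of prime order r. Then an element y of the coset Inndiag(T)·x (that is, y = δ x with δ in the inner-diagonal group, the image of PGL_n(F)) has order r if and only if y is conjugate to x by an element of Inndiag(T). -/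
theorem result {F : Type*} [Field F] [Fintype F] {p f : ℕ} [Fact p.Prime] (hF : Fintype.card F = p ^ f) (hf : 1 ≤ f) {n : ℕ} (hn : 2 ≤ n) (hs : n = 2 → 4 ≤ Fintype.card F) (x δ : MulAut (Matrix.ProjectiveSpecialLinearGroup (Fin n) F)) (hx : Cfsg.IsFieldAutClassPSL x ∨ Cfsg.IsGraphFieldAutClassPSL x) {r : ℕ} (hr : r.Prime) (hxr : orderOf x = r) (hδ : δ ∈ Cfsg.inndiagPSL n F) :
    orderOf (δ * x) = r ↔ Cfsg.IsConjUnder (Cfsg.inndiagPSL n F) x (δ * x) := by
  classical
  have hnorm := inndiag_normal (F := F) hn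
  constructor
  · intro ho
    rcases hx with ⟨α, σ, hσ, hα⟩ | ⟨hn3, α, φ, γ, σ, hσ, hφ, hγ, hα⟩
    · rw [isStdField_iff] at hα
      rw [← isConjUnder_conj (normal_conj_iff α)]
      have h1 : α * (δ * x) * α⁻¹ = (α * δ * α⁻¹) * fd σ := by rw [← hα]; group
      have h2 : α * δ * α⁻¹ ∈ inndiagPSL n F := hnorm.conj_mem _ hδ _
      rw [inndiag_eq] at h2
      obtain ⟨g, hg⟩ := h2
      have h3 : orderOf σ = r := by
        rw [← orderOf_fd hn σ, ← hα, orderOf_conj, hxr]
      have h4 : orderOf (dg g * fd σ) = r := by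
        rw [hg, ← h1, orderOf_conj, ho]
      obtain ⟨k, hk⟩ := exists_conj_fd hn h3 hr.pos g (by rw [← h4, pow_orderOf_eq_one])
      rw [h1, hα, ← hg]
      exact ⟨dg k, by rw [inndiag_eq]; exact ⟨k, rfl⟩, hk⟩
    · rw [isStdField_iff] at hφ
      rw [isInvT_iff] at hγ
      subst hφ hγ
      rw [← isConjUnder_conj (normal_conj_iff α)]
      have h1 : α * (δ * x) * α⁻¹ = (α * δ * α⁻¹) * (fd σ * io) := by rw [← hα]; group
      have h2 : α * δ * α⁻¹ ∈ inndiagPSL n F := hnorm.conj_mem _ hδ _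
      rw [inndiag_eq] at h2
      obtain ⟨g, hg⟩ := h2
      have h3 : (fd σ * io : MulAut (Matrix.ProjectiveSpecialLinearGroup (Fin n) F)) ^ r = 1 := by
        rw [← hα, ← hxr, ← orderOf_conj α x, pow_orderOf_eq_one]
      obtain ⟨hr2, hσ2⟩ := prime_order_graph_field hn3 hσ hr h3
      have h4 : orderOf (dg g * (fd σ * io)) = 2 := by
        rw [hg, ← h1, orderOf_conj, ho, hr2]
      obtain ⟨k, hk⟩ := exists_conj_fd_io hn3 hσ2 g (by rw [← h4, pow_orderOf_eq_one])
      rw [h1, hα, ← hg]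
      exact ⟨dg k, by rw [inndiag_eq]; exact ⟨k, rfl⟩, hk⟩
  · rintro ⟨h, -, e⟩
    rw [e, orderOf_conj, hxr]

end Cfsg.Agent.S2697
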