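import Cfsg.Statements.S2700
import Cfsg.Agent.Lib.PSLGraph
import Cfsg.Agent.Lib.SimForm5
-- import your own Cfsg.Agent.* helpers here

set_option autoImplicit false
open Cfsg

namespace Cfsg.Agent.S2700

/-- Let T = PSL_n(F) over a finite field of odd order with n = 2m ≥ 4 even, and G = Inndiag(T) the image of PGL_n(F). The involutory graph automorphisms of T fall into exactly three G-classes, with representatives γ₁, γ₂, γ₃ whose centralizers in G are isomorphic respectively to the projective conformal symplectic group PGSp_n(F), the projective conformal orthogonal group of the plus-type form Σ xᵢ yᵢ, and that of a minus-type form Σ xᵢ yᵢ + z₁² + a z₁ z₂ + b z₂² (anisotropic binary part) in dimension n. -/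
theorem result {F : Type*} [Field F] [Fintype F] (hodd : Odd (Fintype.card F)) {n m : ℕ} (hm : 2 ≤ m) (hnm : n = 2 * m) :
    ∃ (γ₁ γ₂ γ₃ : MulAut (Matrix.ProjectiveSpecialLinearGroup (Fin n) F)) (a b : F), (∀ z₁ z₂ : F, z₁ ^ 2 + a * z₁ * z₂ + b * z₂ ^ 2 = 0 → z₁ = 0 ∧ z₂ = 0) ∧ Cfsg.IsGraphAutClassPSL γ₁ ∧ orderOf γ₁ = 2 ∧ Cfsg.IsGraphAutClassPSL γ₂ ∧ orderOf γ₂ = 2 ∧ Cfsg.IsGraphAutClassPSL γ₃ ∧ orderOf γ₃ = 2 ∧ ¬ Cfsg.IsConjUnder (Cfsg.inndiagPSL n F) γ₁ γ₂ ∧ ¬ Cfsg.IsConjUnder (Cfsg.inndiagPSL n F) γ₁ γ₃ ∧ ¬ Cfsg.IsConjUnder (Cfsg.inndiagPSL n F) γ₂ γ₃ ∧ (∀ γ : MulAut (Matrix.ProjectiveSpecialLinearGroup (Fin n) F), Cfsg.IsGraphAutClassPSL γ → orderOf γ = 2 → Cfsg.IsConjUnder (Cfsg.inndiagPSL n F) γ₁ γ ∨ Cfsg.IsConjUnder (Cfsg.inndiagPSL n F) γ₂ γ ∨ Cfsg.IsConjUnder (Cfsg.inndiagPSL n F) γ₃ γ) ∧ Nonempty (↥(Cfsg.inndiagPSL n F ⊓ Subgroup.centralizer {γ₁}) ≃* Cfsg.PGSp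 m F) ∧ Nonempty (↥(Cfsg.inndiagPSL n F ⊓ Subgroup.centralizer {γ₂}) ≃* Cfsg.PGO F (Cfsg.quadFormPlus m F)) ∧ Nonempty (↥(Cfsg.inndiagPSL n F ⊓ Subgroup.centralizer {γ₃}) ≃* Cfsg.PGO F (Cfsg.quadFormMinus (m - 1) F a b)) := by
  have h2 : (2 : F) ≠ 0 := Lib.Quad.two_ne_zero_of_odd rfl hodd
  have hm1 : 1 ≤ m := by omega
  have hn3 : 3 ≤ n := by omega
  have hn2 : 2 ≤ n := by omega
  obtain ⟨a, b, hab⟩ := Lib.SimForm.exists_aniso (K := F) h2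
  obtain ⟨g₁, hs1, hγ1, ho1⟩ := Lib.PSLGraph.exists_graph (F := F) hn3 (κ := Fin m ⊕ Fin m) (by simp; omega)
    Lib.SimForm.symp_nd (c := -1) (fun x y => by
      have := Lib.PSpAut.B_skew y x
      rw [Units.val_neg, Units.val_one, neg_one_mul]; exact this)
  obtain ⟨g₂, hs2, hγ2, ho2⟩ := Lib.PSLGraph.exists_graph (F := F) hn3 (κ := Fin m ⊕ Fin m) (by simp; omega)
    (C := QuadraticMap.polarBilin (Lib.Quad.quadPlus m F)) (fun x hx => Lib.Quad.nd_quadPlus.eq_zero hx) (c := 1) (fun x y => by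
      rw [Units.val_one, one_mul]; exact QuadraticMap.polar_comm _ _ _)
  obtain ⟨g₃, hs3, hγ3, ho3⟩ := Lib.PSLGraph.exists_graph (F := F) hn3 (κ := (Fin (m - 1) ⊕ Fin (m - 1)) ⊕ Fin 2) (by simp; omega)
    (C := QuadraticMap.polarBilin (Lib.Quad.quadMinus (m - 1) F a b)) (fun x hx => (Lib.SimForm.nd_minus h2 (m - 1) hab).eq_zero hx) (c := 1) (fun x y => by
      rw [Units.val_one, one_mul]; exact QuadraticMap.polar_comm _ _ _)
  refine ⟨_, _, _, a, b, hab, hγ1, ho1, hγ2, ho2, hγ3, ho3, ?_, ?_, ?_, ?_, ?_, ?_, ?_⟩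
  · rw [Lib.PSLGraph.isConjUnder_iff hn2]
    intro h
    exact Lib.SimForm.not_simil_symp_plus h2 hm1 ((hs1.symm.trans h).trans hs2)
  · rw [Lib.PSLGraph.isConjUnder_iff hn2]
    intro h
    exact Lib.SimForm.not_simil_symp_minus h2 a b ((hs1.symm.trans h).trans hs3)
  · rw [Lib.PSLGraph.isConjUnder_iff hn2]
    intro h
    exact Lib.SimForm.not_simil_plus_minus h2 hm1 hab ((hs2.symm.trans h).trans hs3)
  · intro γ hγ ho
    obtain ⟨g, rfl, hg⟩ := Lib.PSLGraph.graph_form hγ ho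
    rw [Lib.PSLGraph.isConjUnder_iff hn2, Lib.PSLGraph.isConjUnder_iff hn2, Lib.PSLGraph.isConjUnder_iff hn2]
    rcases Lib.SimForm.even_cases h2 hm1 hnm hab (Lib.PSLGraph.Bf_nd g) hg with h | h | h
    · left; exact hs1.trans h.symm
    · right; left; exact hs2.trans h.symm
    · right; right; exact hs3.trans h.symm
  · obtain ⟨e1⟩ := Lib.PSLGraph.centralizer_graph hn2 g₁
    obtain ⟨e2⟩ := Lib.SimForm.projQuot_simil hs1
    obtain ⟨e3⟩ := Lib.SimForm.proj_symp (K := F) (m := m)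
    exact ⟨(e1.trans e2).trans e3⟩
  · obtain ⟨e1⟩ := Lib.PSLGraph.centralizer_graph hn2 g₂
    obtain ⟨e2⟩ := Lib.SimForm.projQuot_simil hs2
    obtain ⟨e3⟩ := Lib.SimForm.proj_plus (K := F) (m := m) h2
    exact ⟨(e1.trans e2).trans e3⟩
  · obtain ⟨e1⟩ := Lib.PSLGraph.centralizer_graph hn2 g₃
    obtain ⟨e2⟩ := Lib.SimForm.projQuot_simil hs3
    obtain ⟨e3⟩ := Lib.SimForm.proj_minus (K := F) (m := m - 1) h2 a b
    exact ⟨(e1.trans e2).trans e3⟩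

end Cfsg.Agent.S2700
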