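import Cfsg.Statements.S2701
import Cfsg.Agent.Lib.PSLGraph
import Cfsg.Agent.Lib.SimForm5
-- import your own Cfsg.Agent.* helpers here

set_option autoImplicit false
open Cfsg

namespace Cfsg.Agent.S2701

/-- Let T = PSL_n(F) over a finite field of characteristic 2 with n = 2m ≥ 4 even, and G = Inndiag(T) the image of PGL_n(F). The involutory graph automorphisms of T fall into exactly two G-classes, with representatives γ₁ and γ₃ whose centralizers in G are isomorphic respectively to the symplectic group Sp_n(F) and to the centralizer in Sp_n(F) of a symplectic transvection. -/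
theorem result {F : Type*} [Field F] [Fintype F] [CharP F 2] {n m : ℕ} (hm : 2 ≤ m) (hnm : n = 2 * m) :
    ∃ (γ₁ γ₃ : MulAut (Matrix.ProjectiveSpecialLinearGroup (Fin n) F)) (t : ↥(Matrix.symplecticGroup (Fin m) F)), Cfsg.IsTransvection (t : Matrix (Fin m ⊕ Fin m) (Fin m ⊕ Fin m) F) ∧ Cfsg.IsGraphAutClassPSL γ₁ ∧ orderOf γ₁ = 2 ∧ Cfsg.IsGraphAutClassPSL γ₃ ∧ orderOf γ₃ = 2 ∧ ¬ Cfsg.IsConjUnder (Cfsg.inndiagPSL n F) γ₁ γ₃ ∧ (∀ γ : MulAut (Matrix.ProjectiveSpecialLinearGroup (Fin n) F), Cfsg.IsGraphAutClassPSL γ → orderOf γ = 2 → Cfsg.IsConjUnder (Cfsg.inndiagPSL n F) γ₁ γ ∨ Cfsg.IsConjUnder (Cfsg.inndiagPSL n F) γ₃ γ) ∧ Nonempty (↥(Cfsg.inndiagPSL n F ⊓ Subgroup.centralizer {γ₁}) ≃* ↥(Matrix.symplecticGroup (Fin m) F)) ∧ Nonempty (↥(Cfsg.inndiagPSL n F ⊓ Subgroup.centralizer {γ₃}) ≃* ↥(Subgroup.centralizer ({t} : Set ↥(Matrix.symplecticGroup (Fin m) F)))) := by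
  have hm1 : 1 ≤ m := by omega
  have hn3 : 3 ≤ n := by omega
  have hn2 : 2 ≤ n := by omega
  have he := Lib.PSpAut.e_ne (F := F) (⟨0, hm1⟩ : Fin m)
  obtain ⟨g₁, hs1, hγ1, ho1⟩ := Lib.PSLGraph.exists_graph (F := F) hn3 (κ := Fin m ⊕ Fin m) (by simp; omega)
    Lib.SimForm.symp_nd (c := -1) (fun x y => by
      have := Lib.PSpAut.B_skew y x
      rw [Units.val_neg, Units.val_one, neg_one_mul]; exact this)
  obtain ⟨g₃, hs3, hγ3, ho3⟩ := Lib.PSLGraph.exists_graph (F := F) hn3 (κ := Fin m ⊕ Fin m) (by simp; omega)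
    (Lib.SimForm.formE_nd (Lib.PSpAut.e (F := F) (⟨0, hm1⟩ : Fin m))) (c := 1) (fun x y => by
      rw [Units.val_one, one_mul]; exact Lib.SimForm.formE_symm _ _ _)
  refine ⟨_, _, _, Lib.SimForm.isTransvection_tM he, hγ1, ho1, hγ3, ho3, ?_, ?_, ?_, ?_⟩
  · rw [Lib.PSLGraph.isConjUnder_iff hn2]
    intro h
    exact Lib.SimForm.not_simil_symp_formE he ((hs1.symm.trans h).trans hs3)
  · intro γ hγ ho
    obtain ⟨g, rfl, hg⟩ := Lib.PSLGraph.graph_form hγ ho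
    rw [Lib.PSLGraph.isConjUnder_iff hn2, Lib.PSLGraph.isConjUnder_iff hn2]
    rcases Lib.SimForm.even_cases_two hnm he (Lib.PSLGraph.Bf_nd g) hg with h | h
    · left; exact hs1.trans h.symm
    · right; exact hs3.trans h.symm
  · obtain ⟨e1⟩ := Lib.PSLGraph.centralizer_graph hn2 g₁
    obtain ⟨e2⟩ := Lib.SimForm.projQuot_simil hs1
    obtain ⟨e3⟩ := Lib.SimForm.pgsp_two (K := F) hm1
    exact ⟨(e1.trans e2).trans e3⟩
  · obtain ⟨e1⟩ := Lib.PSLGraph.centralizer_graph hn2 g₃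
    obtain ⟨e2⟩ := Lib.SimForm.projQuot_simil hs3
    obtain ⟨e3⟩ := Lib.SimForm.proj_formE (K := F) he
    exact ⟨(e1.trans e2).trans e3⟩

end Cfsg.Agent.S2701
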