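import Cfsg.Statements.S2702
import Cfsg.Agent.Lib.PSLGraph2
-- import your own Cfsg.Agent.* helpers here

set_option autoImplicit false
open Cfsg

namespace Cfsg.Agent.S2702

/-- Let T = PSL_n(F) over the field with q = p^f elements, n ≥ 3, G = Inndiag(T) the image of PGL_n(F), and γ an involutory graph automorphism of T. The G-class of γ is the union of exactly c T-classes, where: if n is even and q is odd, c = gcd(n/2, q − 1) when C_G(γ) is isomorphic to the projective conformal symplectic group PGSp_n(F) (symplectic type) and c = gcd(n, q − 1)/2 otherwise; and c = gcd(n, q − 1) when n is odd or q is even. -/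
theorem result {F : Type*} [Field F] [Fintype F] {p f : ℕ} [Fact p.Prime] (hF : Fintype.card F = p ^ f) (hf : 1 ≤ f) {n : ℕ} (hn : 3 ≤ n) (γ : MulAut (Matrix.ProjectiveSpecialLinearGroup (Fin n) F)) (hγ : Cfsg.IsGraphAutClassPSL γ) (hγ2 : orderOf γ = 2) :
    ((Even n ∧ Odd p ∧ Nonempty (↥(Cfsg.inndiagPSL n F ⊓ Subgroup.centralizer {γ}) ≃* Cfsg.PGSp (n / 2) F)) → Cfsg.splitClassCount (Cfsg.inndiagPSL n F) (Cfsg.Inn (Matrix.ProjectiveSpecialLinearGroup (Fin n) F)) γ = Nat.gcd (n / 2) (p ^ f - 1)) ∧ ((Even n ∧ Odd p ∧ ¬ Nonempty (↥(Cfsg.inndiagPSL n F ⊓ Subgroup.centralizer {γ}) ≃* Cfsg.PGSp (n / 2) F)) → Cfsg.splitClassCount (Cfsg.inndiagPSL n F) (Cfsg.Inn (Matrix.ProjectiveSpecialLinearGroup (Fin n) F)) γ = Nat.gcd n (p ^ f - 1) / 2) ∧ (¬ (Even n ∧ Odd p) → Cfsg.splitClassCount (Cfsg.inndiagPSL n F) (Cfsg.Inn (Matrix.ProjectiveSpecialLinearGroup (Fin n) F)) γ = Nat.gcd n (p ^ f - 1)) := by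
  classical
  have hn2 : 2 ≤ n := by omega
  obtain ⟨g, rfl, hE⟩ := Lib.PSLGraph.graph_form hγ hγ2
  have hE : Lib.SimForm.Eps (Lib.PSLGraph.Bf g) := hE
  have hnd := Lib.PSLGraph.Bf_nd g
  rw [Lib.PSLGraph.split_graph hn2]
  have hcu : Nat.card Fˣ = p ^ f - 1 := by rw [Nat.card_eq_fintype_card, Fintype.card_units, hF]
  have hc : CharP F p := charP_of_card_eq_prime_pow hF
  have h20 : Odd p → (2 : F) ≠ 0 := by
    intro ho h
    have h1 : ((2 : ℕ) : F) = 0 := by exact_mod_cast h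
    rw [CharP.cast_eq_zero_iff F p] at h1
    have h3 := (Nat.prime_dvd_prime_iff_eq (Fact.out : p.Prime) Nat.prime_two).1 h1
    rw [h3] at ho
    exact absurd ho (by decide)
  obtain ⟨e1⟩ := Lib.PSLGraph.centralizer_graph hn2 g
  refine ⟨?_, ?_, ?_⟩
  · rintro ⟨he, ho, ⟨e2⟩⟩
    obtain ⟨m, hm⟩ := he
    have hnm : n = 2 * m := by omega
    have hm1 : 1 ≤ m := by omega
    have hdiv : n / 2 = m := by omega
    rw [hdiv] at e2 ⊢
    have h2 := h20 ho
    rcases hE.sym_or_alt h2 with h | h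
    · exact absurd ⟨e1.symm.trans e2⟩ (Lib.SimForm.not_iso h2 hm1 hnm hnd h)
    · have hs : Lib.SimForm.Simil (Lib.PSLGraph.Bf g) (Lib.ClIso.sympForm (Fin m) F) :=
        Lib.SimForm.simil_symp h hnd (by simp [hnm])
      rw [Lib.SimForm.SD_simil hs, Lib.SimForm.SD_symp m hm1, Lib.SimForm.index_pow, hcu]
  · rintro ⟨he, ho, hno⟩
    obtain ⟨m, hm⟩ := he
    have hnm : n = 2 * m := by omega
    have hm1 : 1 ≤ m := by omega
    have hdiv : n / 2 = m := by omega
    rw [hdiv] at hno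
    have h2 := h20 ho
    rcases hE.sym_or_alt h2 with h | h
    · have hs := Lib.SimForm.simil_qf h2 h
      rw [Lib.SimForm.SD_simil hs, Lib.SimForm.SD_orth h2 hm1 (by rw [Fintype.card_fin, hnm]) (Lib.SimForm.nd_qf h2 h hnd),
        Lib.SimForm.index_pow_neg h2, hcu, ← hnm]
    · exfalso
      apply hno
      have hs : Lib.SimForm.Simil (Lib.PSLGraph.Bf g) (Lib.ClIso.sympForm (Fin m) F) :=
        Lib.SimForm.simil_symp h hnd (by simp [hnm])
      obtain ⟨e2⟩ := Lib.SimForm.projQuot_simil hs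
      obtain ⟨e3⟩ := Lib.SimForm.proj_symp (K := F) (m := m)
      exact ⟨(e1.trans e2).trans e3⟩
  · intro hno
    have hSD : Lib.SimForm.SD (Lib.PSLGraph.Bf g) = (powMonoidHom n : Fˣ →* Fˣ).range := by
      rcases Nat.even_or_odd n with he | ho
      · have hp2 : p = 2 := by
          rcases (Fact.out : p.Prime).eq_two_or_odd' with h | h
          · exact h
          · exact absurd ⟨he, h⟩ hno
        have : CharP F 2 := by rw [← hp2]; exact hc
        rw [Lib.SimForm.SD_two hnd, Fintype.card_fin]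
      · rw [Lib.SimForm.SD_odd hnd (by rw [Fintype.card_fin]; exact ho), Fintype.card_fin]
    rw [hSD, Lib.SimForm.index_pow, hcu]

end Cfsg.Agent.S2702
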