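import Cfsg.Statements.S2703
import Cfsg.Agent.Lib.PSLGraph
import Cfsg.Agent.Lib.SimForm5
-- import your own Cfsg.Agent.* helpers here

set_option autoImplicit false
open Cfsg

namespace Cfsg.Agent.S2703

/-- Let T = PSL_n(F) over the field with q elements, q odd, n = 2m ≥ 4 even, and ι the inverse-transpose automorphism. Its centralizer in G = Inndiag(T) (the image of PGL_n(F)) is isomorphic to the projective conformal orthogonal group of the plus-type form Σ xᵢ yᵢ in dimension n when n(q − 1)/4 is even, and to that of a minus-type form (Σ xᵢ yᵢ + z₁² + a z₁ z₂ + b z₂² with anisotropic binary part) when n(q − 1)/4 is odd. -/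
theorem result {F : Type*} [Field F] [Fintype F] (hodd : Odd (Fintype.card F)) {n m : ℕ} (hm : 2 ≤ m) (hnm : n = 2 * m) (ι : MulAut (Matrix.ProjectiveSpecialLinearGroup (Fin n) F)) (hι : Cfsg.IsInverseTransposeAutPSL ι) :
    (Even (n * (Fintype.card F - 1) / 4) → Nonempty (↥(Cfsg.inndiagPSL n F ⊓ Subgroup.centralizer {ι}) ≃* Cfsg.PGO F (Cfsg.quadFormPlus m F))) ∧ (¬ Even (n * (Fintype.card F - 1) / 4) → ∃ a b : F, (∀ z₁ z₂ : F, z₁ ^ 2 + a * z₁ * z₂ + b * z₂ ^ 2 = 0 → z₁ = 0 ∧ z₂ = 0) ∧ Nonempty (↥(Cfsg.inndiagPSL n F ⊓ Subgroup.centralizer {ι}) ≃* Cfsg.PGO F (Cfsg.quadFormMinus (m - 1) F a b))) := by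
  have h2 : (2 : F) ≠ 0 := Lib.Quad.two_ne_zero_of_odd rfl hodd
  have hm1 : 1 ≤ m := by omega
  have hn3 : 3 ≤ n := by omega
  have hn2 : 2 ≤ n := by omega
  rw [Lib.PSLAut.isInvT_iff] at hι
  subst hι
  obtain ⟨q, hq⟩ : ∃ q, q = Fintype.card F := ⟨_, rfl⟩
  rw [← hq] at hodd ⊢
  -- arithmetic
  have harith : IsSquare ((-1 : F) ^ m) ↔ Even (n * (q - 1) / 4) := by
    have hsq : IsSquare (-1 : F) ↔ q % 4 ≠ 3 := by rw [hq]; exact FiniteField.isSquare_neg_one_iff
    obtain ⟨k, hk⟩ := hodd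
    have e1 : n * (q - 1) / 4 = m * k := by
      rw [hnm, hk, Nat.add_sub_cancel, show 2 * m * (2 * k) = (m * k) * 4 by ring, Nat.mul_div_cancel _ (by norm_num)]
    rw [e1]
    rcases Nat.even_or_odd m with he | ho
    · rw [he.neg_one_pow]
      exact ⟨fun _ => he.mul_right _, fun _ => ⟨1, by norm_num⟩⟩
    · rw [ho.neg_one_pow, hsq, Nat.even_mul]
      have hne : ¬ Even m := Nat.not_even_iff_odd.2 ho
      rw [Nat.even_iff (n := k)]
      constructor
      · intro h
        right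
        omega
      · rintro (h | h)
        · exact absurd h hne
        · omega
  have hio : (Lib.PSLAut.io : MulAut (Matrix.ProjectiveSpecialLinearGroup (Fin n) F)) = Lib.PSLAut.dg 1 * Lib.PSLAut.io := by
    rw [map_one, one_mul]
  rw [hio]
  obtain ⟨e1⟩ := Lib.PSLGraph.centralizer_graph hn2 (1 : Matrix.GeneralLinearGroup (Fin n) F)
  have hB : ∀ x y, Lib.PSLGraph.Bf (1 : Matrix.GeneralLinearGroup (Fin n) F) x y = x ⬝ᵥ y := by
    intro x y
    rw [Lib.PSLGraph.Bf_apply, inv_one, Units.val_one, Matrix.one_mulVec]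
  have hsym : ∀ x y, Lib.PSLGraph.Bf (1 : Matrix.GeneralLinearGroup (Fin n) F) x y = Lib.PSLGraph.Bf 1 y x := by
    intro x y
    rw [hB, hB, dotProduct_comm]
  have hnd := Lib.SimForm.nd_qf h2 hsym (Lib.PSLGraph.Bf_nd 1)
  have hfr : Module.finrank F (Fin n → F) = 2 * m := by simp [hnm]
  have hdet : (LinearMap.BilinForm.toMatrix (Pi.basisFun F (Fin n))
      (QuadraticMap.polarBilin (Lib.SimForm.qf (Lib.PSLGraph.Bf (1 : Matrix.GeneralLinearGroup (Fin n) F))))).det = 2 ^ n := by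
    have h3 : LinearMap.BilinForm.toMatrix (Pi.basisFun F (Fin n))
      (QuadraticMap.polarBilin (Lib.SimForm.qf (Lib.PSLGraph.Bf (1 : Matrix.GeneralLinearGroup (Fin n) F)))) = (2 : F) • 1 := by
      ext i j
      rw [LinearMap.BilinForm.toMatrix_apply, QuadraticMap.polarBilin_apply_apply, Lib.SimForm.polar_qf hsym, hB,
        Matrix.smul_apply, Pi.basisFun_apply, Pi.basisFun_apply, single_dotProduct, one_mul, smul_eq_mul, Matrix.one_apply,
        Pi.single_apply]
    rw [h3, Matrix.det_smul, Matrix.det_one, mul_one, Fintype.card_fin]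
  have hsq2 : IsSquare ((2 : F) ^ n) := ⟨2 ^ m, by rw [hnm, two_mul, pow_add]⟩
  have h20 : (2 : F) ^ n ≠ 0 := pow_ne_zero _ h2
  have hplus := Lib.Quad.det_gram_plus (F := F) (m := m)
  rw [← harith]
  constructor
  · intro h
    have hs : Lib.SimForm.Simil (Lib.PSLGraph.Bf (1 : Matrix.GeneralLinearGroup (Fin n) F))
        (QuadraticMap.polarBilin (Lib.Quad.quadPlus m F)) := by
      refine (Lib.SimForm.simil_qf h2 hsym).trans (Lib.SimForm.isometry_of_disc h2 hnd Lib.Quad.nd_quadPlus (by rw [hfr, Lib.Quad.finrank_plus])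
        (Pi.basisFun F (Fin n)) (Pi.basisFun F (Fin m ⊕ Fin m)) ?_)
      rw [hdet, hplus]
      exact hsq2.mul h
    obtain ⟨e2⟩ := Lib.SimForm.projQuot_simil hs
    obtain ⟨e3⟩ := Lib.SimForm.proj_plus (K := F) (m := m) h2
    exact ⟨(e1.trans e2).trans e3⟩
  · intro h
    obtain ⟨a, b, hab⟩ := Lib.SimForm.exists_aniso (K := F) h2
    refine ⟨a, b, hab, ?_⟩
    have hs : Lib.SimForm.Simil (Lib.PSLGraph.Bf (1 : Matrix.GeneralLinearGroup (Fin n) F))
        (QuadraticMap.polarBilin (Lib.Quad.quadMinus (m - 1) F a b)) := by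
      rcases Lib.SimForm.simil_even_cases h2 hm1 hnd hfr hab with h3 | h3
      · exfalso
        apply h
        have h4 := Lib.SimForm.isSquare_of_simil hnd Lib.Quad.nd_quadPlus (by rw [hfr]; exact even_two_mul m) h3
          (Pi.basisFun F (Fin n)) (Pi.basisFun F (Fin m ⊕ Fin m))
        rw [hdet, hplus] at h4
        exact Lib.Quad.isSquare_of_mul_left h20 hsq2 h4
      · exact (Lib.SimForm.simil_qf h2 hsym).trans h3
    obtain ⟨e2⟩ := Lib.SimForm.projQuot_simil hs
    obtain ⟨e3⟩ := Lib.SimForm.proj_minus (K := F) (m := m - 1) h2 a b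
    exact ⟨(e1.trans e2).trans e3⟩

end Cfsg.Agent.S2703
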