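import Cfsg.Statements.S2704
import Cfsg.Agent.Lib.PSLField3

set_option autoImplicit false
open Cfsg

namespace Cfsg.Agent.S2704

open Lib.PSLAut Lib.SplitCount Lib.Descent

/-- Let T = PSL_n(F) over the field F with p^f elements, n ≥ 3, and G = Inndiag(T) the image of PGL_n(F). If x is an involutory graph-field automorphism of T then f is even; x is G-conjugate to every other involutory graph-field automorphism; C_G(x) is isomorphic to the projective general unitary group PGU_n(q₀) with q₀² = p^f, realised over F itself through the Hermitian form Σ uᵢ vᵢ^{q₀}; and the G-class of x is the union of exactly gcd(n, q₀ − 1) T-classes. -/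
theorem result {F : Type*} [Field F] [Fintype F] {p f : ℕ} [Fact p.Prime] (hF : Fintype.card F = p ^ f) (hf : 1 ≤ f) {n : ℕ} (hn : 3 ≤ n) (x : MulAut (Matrix.ProjectiveSpecialLinearGroup (Fin n) F)) (hx : Cfsg.IsGraphFieldAutClassPSL x) (hx2 : orderOf x = 2) :
    Even f ∧ (∀ y : MulAut (Matrix.ProjectiveSpecialLinearGroup (Fin n) F), Cfsg.IsGraphFieldAutClassPSL y → orderOf y = 2 → Cfsg.IsConjUnder (Cfsg.inndiagPSL n F) x y) ∧ Nonempty (↥(Cfsg.inndiagPSL n F ⊓ Subgroup.centralizer {x}) ≃* Cfsg.PGU n F (p ^ (f / 2))) ∧ Cfsg.splitClassCount (Cfsg.inndiagPSL n F) (Cfsg.Inn (Matrix.ProjectiveSpecialLinearGroup (Fin n) F)) x = Nat.gcd n (p ^ (f / 2) - 1) := by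
  classical
  have hnorm := inndiag_normal (F := F) (n := n) (by omega)
  -- normal form
  have key : ∀ y : MulAut (Matrix.ProjectiveSpecialLinearGroup (Fin n) F), Cfsg.IsGraphFieldAutClassPSL y → orderOf y = 2 →
      ∃ (α : MulAut (Matrix.ProjectiveSpecialLinearGroup (Fin n) F)) (σ : F ≃+* F), orderOf σ = 2 ∧ α * y * α⁻¹ = fd σ * io := by
    rintro y ⟨-, α, φ, γ, σ, hσ, hφ, hγ, hα⟩ hy
    rw [isStdField_iff] at hφ
    rw [isInvT_iff] at hγ
    subst hφ hγ
    refine ⟨α, σ, ?_, hα⟩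
    refine (prime_order_graph_field hn hσ Nat.prime_two ?_).2
    rw [← hα, ← hy, ← orderOf_conj α y, pow_orderOf_eq_one]
  obtain ⟨α, σ, h2, hα⟩ := key x hx hx2
  have hσ : ∀ x, σ x = x ^ (p ^ (f / 2)) := Lib.FFAut.eq_pow_of_orderOf_two hF hf h2
  have hf2 : 2 ∣ f := by
    rw [← h2, ← Lib.FFAut.card_aut hF]
    exact orderOf_dvd_natCard σ
  have hq : Fintype.card F = (p ^ (f / 2)) ^ 2 := by
    rw [hF, ← pow_mul, Nat.div_mul_cancel hf2]
  have hD : ∀ (α y : MulAut (Matrix.ProjectiveSpecialLinearGroup (Fin n) F)), α * y * α⁻¹ = fd σ * io →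
      IsConjUnder (inndiagPSL n F) y (fd σ * io) := by
    intro β y hβ
    have hy : y = β⁻¹ * (fd σ * io) * (β⁻¹)⁻¹ := by rw [← hβ]; group
    have hcomm : fd σ * io * io = (io * (fd σ * io) : MulAut (Matrix.ProjectiveSpecialLinearGroup (Fin n) F)) := by
      rw [← mul_assoc io, io_fd]
    obtain ⟨g, τ, h⟩ := aut_psl (F := F) (n := n) (by omega) β⁻¹
    apply isConjUnder_symm
    refine ⟨dg g, by rw [inndiag_eq]; exact ⟨g, rfl⟩, ?_⟩
    have hτ : fd τ * (fd σ * io) = (fd σ * io * fd τ : MulAut (Matrix.ProjectiveSpecialLinearGroup (Fin n) F)) := by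
      rw [mul_assoc (fd σ), io_fd, ← mul_assoc, ← mul_assoc, ← map_mul, ← map_mul]
      have hcyc := Lib.FFAut.isCyclic_aut (F := F)
      congr 2
      exact (IsCyclic.commGroup (α := F ≃+* F)).mul_comm τ σ
    have h3 : ∀ t : MulAut (Matrix.ProjectiveSpecialLinearGroup (Fin n) F), t * (fd σ * io) = fd σ * io * t →
        (dg g * t) * (fd σ * io) * (dg g * t)⁻¹ = dg g * (fd σ * io) * (dg g)⁻¹ := by
      intro t ht
      rw [mul_inv_rev, mul_assoc (dg g) t, ht]
      group
    rcases h with h | h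
    · rw [hy, h]
      exact h3 _ hτ
    · rw [hy, h, mul_assoc (dg g)]
      apply h3
      rw [mul_assoc (fd τ), ← hcomm, ← mul_assoc, hτ, mul_assoc]
  refine ⟨even_iff_two_dvd.2 hf2, ?_, ?_, ?_⟩
  · intro y hy hy2
    obtain ⟨β, τ, h2', hβ⟩ := key y hy hy2
    have hτ : τ = σ := by
      ext z
      rw [Lib.FFAut.eq_pow_of_orderOf_two hF hf h2', hσ]
    rw [hτ] at hβ
    exact isConjUnder_trans (hD _ _ hα) (isConjUnder_symm (hD _ _ hβ))
  · obtain ⟨e⟩ := centralizer_fd_io (n := n) (by omega) h2 hσ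
    refine ⟨(centEquiv (inndiagPSL n F) α x (normal_conj_iff α)).trans ?_⟩
    rw [hα]
    exact e
  · rw [← splitClassCount_conj _ _ α x (normal_conj_iff α) (normal_conj_iff α), hα, split_fd_io (by omega) h2 hσ hq]

end Cfsg.Agent.S2704
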