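import Cfsg.Statements.S2705
import Cfsg.Agent.Lib.PSUField2
-- import your own Cfsg.Agent.* helpers here

set_option autoImplicit false
open Cfsg

namespace Cfsg.Agent.S2705

/-- Let T = PSU_n(q) be simple (n ≥ 3, (n, q) ≠ (3, 2), q = p^f), realised over the field F with q² elements, G = Inndiag(T) the image of PGU_n(q) in Aut(T), and x a field automorphism of T (conjugate to a standard field automorphism of odd order) of odd prime order r. Then r divides f; C_G(x) is isomorphic to PGU_n(q₀) with q₀ = p^(f/r), realised over a field F₀ with q₀² elements; and the G-class of x is the union of exactly gcd(n, (q + 1)/(q₀ + 1)) T-classes. -/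
theorem result {F : Type*} [Field F] [Fintype F] {p f q : ℕ} [Fact p.Prime] (hq : q = p ^ f) (hf : 1 ≤ f) (hF : Fintype.card F = q ^ 2) {n : ℕ} (hn : 3 ≤ n) (hs : ¬ (n = 3 ∧ q = 2)) (x : MulAut (Cfsg.PSU n F q)) (hx : Cfsg.IsFieldAutClassPSU x) {r : ℕ} (hr : r.Prime) (hro : Odd r) (hxr : orderOf x = r) (F₀ : Type*) [Field F₀] [Fintype F₀] (hF₀ : Fintype.card F₀ = p ^ (2 * (f / r))) :
    r ∣ f ∧ Nonempty (↥(Cfsg.inndiagPSU n F q ⊓ Subgroup.centralizer {x}) ≃* Cfsg.PGU n F₀ (p ^ (f / r))) ∧ Cfsg.splitClassCount (Cfsg.inndiagPSU n F q) (Cfsg.Inn (Cfsg.PSU n F q)) x = Nat.gcd n ((q + 1) / (p ^ (f / r) + 1)) := by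
  classical
  have hq' : n = 3 → q ≠ 2 := fun h3 h2 => hs ⟨h3, h2⟩
  have hnorm := Lib.PSUAut.inndiag_normal hF hn hq'
  obtain ⟨α, φ, σ, -, hσo, hφ, hα⟩ := hx
  rw [Lib.PSUAut.isStdField_iff] at hφ
  rw [hφ] at hα
  have h3 : orderOf σ = r := by
    rw [← Lib.PSUAut.orderOf_fd hF hn σ, ← hα, Lib.SplitCount.orderOf_conj, hxr]
  have hF' : Fintype.card F = p ^ (2 * f) := by rw [hF, hq, ← pow_mul, mul_comm]
  have hdvd : r ∣ 2 * f := by
    rw [← h3, ← Lib.FFAut.card_aut hF']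
    exact orderOf_dvd_natCard σ
  have hrf : r ∣ f := (Nat.Coprime.dvd_mul_left (Nat.Coprime.symm (Nat.coprime_two_left.2 hro))).1 hdvd
  obtain ⟨k, rfl⟩ := hrf
  have hk : r * k / r = k := Nat.mul_div_cancel_left k hr.pos
  have hk2 : 2 * (r * k) / r = 2 * k := by
    rw [← mul_assoc, mul_comm 2 r, mul_assoc]; exact Nat.mul_div_cancel_left _ hr.pos
  rw [hk] at hF₀ ⊢
  obtain ⟨-, ι, hι⟩ := Lib.FFAut.exists_embedding hF' (by omega) h3 hr.pos F₀ (by rw [hF₀, hk2])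
  have hF₀' : Fintype.card F₀ = (p ^ k) ^ 2 := by rw [hF₀, ← pow_mul, mul_comm]
  have hpow : ∀ x : F₀, x ^ q = x ^ (p ^ k) := by
    intro x
    have : q = (p ^ k) ^ r := by rw [hq, ← pow_mul, mul_comm]
    rw [this]
    exact Lib.PSUAut.pow_eq_of_odd hF₀' hro x
  refine ⟨dvd_mul_right _ _, ?_, ?_⟩
  · obtain ⟨e⟩ := Lib.PSUAut.centralizer_fd hF hF₀' hn h3 hr.pos hι hpow
    refine ⟨(Lib.SplitCount.centEquiv (inndiagPSU n F q) α x (Lib.SplitCount.normal_conj_iff α)).trans ?_⟩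
    rw [hα]
    exact e
  · rw [← Lib.SplitCount.splitClassCount_conj _ _ α x (Lib.SplitCount.normal_conj_iff α)
      (Lib.SplitCount.normal_conj_iff α), hα, Lib.PSUAut.split_fd hF hF₀' hn h3 hr.pos hι hpow]

end Cfsg.Agent.S2705
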