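import Cfsg.Statements.S2707
import Cfsg.Agent.Lib.PSUGraph2
import Cfsg.Agent.Lib.SimForm5
-- import your own Cfsg.Agent.* helpers here

set_option autoImplicit false
open Cfsg

namespace Cfsg.Agent.S2707

/-- Let T = PSU_n(q) with n = 2m ≥ 4 even and q odd, realised over the field F with q² elements, and G = Inndiag(T) the image of PGU_n(q). The involutory graph automorphisms of T fall into exactly three G-classes, with representatives whose centralizers in G are isomorphic respectively to the projective conformal symplectic group PGSp_n(F₀), the projective conformal orthogonal group of the plus-type form Σ xᵢ yᵢ, and that of a minus-type form Σ xᵢ yᵢ + z₁² + a z₁ z₂ + b z₂² (anisotropic binary part) in dimension n, all over a field F₀ with q elements. -/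
theorem result {F : Type*} [Field F] [Fintype F] {q : ℕ} (hodd : Odd q) (hF : Fintype.card F = q ^ 2) {n m : ℕ} (hm : 2 ≤ m) (hnm : n = 2 * m) (F₀ : Type*) [Field F₀] [Fintype F₀] (hF₀ : Fintype.card F₀ = q) :
    ∃ (γ₁ γ₂ γ₃ : MulAut (Cfsg.PSU n F q)) (a b : F₀), (∀ z₁ z₂ : F₀, z₁ ^ 2 + a * z₁ * z₂ + b * z₂ ^ 2 = 0 → z₁ = 0 ∧ z₂ = 0) ∧ Cfsg.IsGraphAutClassPSU γ₁ ∧ orderOf γ₁ = 2 ∧ Cfsg.IsGraphAutClassPSU γ₂ ∧ orderOf γ₂ = 2 ∧ Cfsg.IsGraphAutClassPSU γ₃ ∧ orderOf γ₃ = 2 ∧ ¬ Cfsg.IsConjUnder (Cfsg.inndiagPSU n F q) γ₁ γ₂ ∧ ¬ Cfsg.IsConjUnder (Cfsg.inndiagPSU n F q) γ₁ γ₃ ∧ ¬ Cfsg.IsConjUnder (Cfsg.inndiagPSU n F q) γ₂ γ₃ ∧ (∀ γ : MulAut (Cfsg.PSU n F q), Cfsg.IsGraphAutClassPSU γ → orderOf γ = 2 → Cfsg.IsConjUnder (Cfsg.inndiagPSU n F q) γ₁ γ ∨ Cfsg.IsConjUnder (Cfsg.inndiagPSU n F q) γ₂ γ ∨ Cfsg.IsConjUnder (Cfsg.inndiagPSU n F q) γ₃ γ) ∧ Nonempty (↥(Cfsg.inndiagPSU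 n F q ⊓ Subgroup.centralizer {γ₁}) ≃* Cfsg.PGSp m F₀) ∧ Nonempty (↥(Cfsg.inndiagPSU n F q ⊓ Subgroup.centralizer {γ₂}) ≃* Cfsg.PGO F₀ (Cfsg.quadFormPlus m F₀)) ∧ Nonempty (↥(Cfsg.inndiagPSU n F q ⊓ Subgroup.centralizer {γ₃}) ≃* Cfsg.PGO F₀ (Cfsg.quadFormMinus (m - 1) F₀ a b)) := by
  obtain ⟨ι, hι⟩ := Lib.PSUGraph.exists_iota hF F₀ hF₀
  have h2 : (2 : F₀) ≠ 0 := Lib.Quad.two_ne_zero_of_odd rfl (by rw [hF₀]; exact hodd)
  have hm1 : 1 ≤ m := by omega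
  have hn3 : 3 ≤ n := by omega
  have hn1 : 1 ≤ n := by omega
  obtain ⟨a, b, hab⟩ := Lib.SimForm.exists_aniso (K := F₀) h2
  obtain ⟨g₁, s₁, A₁, z₁, w₁, R₁, hs1, hγ1, ho1⟩ := Lib.PSUGraph.exists_graph hF hn3 hι (κ := Fin m ⊕ Fin m) (by simp; omega)
    Lib.SimForm.symp_nd ⟨-1, by norm_num, (fun x y => by
      have := Lib.PSpAut.B_skew y x
      rw [neg_one_mul]; exact this)⟩
  obtain ⟨g₂, s₂, A₂, z₂, w₂, R₂, hs2, hγ2, ho2⟩ := Lib.PSUGraph.exists_graph hF hn3 hι (κ := Fin m ⊕ Fin m) (by simp; omega)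
    (C := QuadraticMap.polarBilin (Lib.Quad.quadPlus m F₀)) (fun x hx => Lib.Quad.nd_quadPlus.eq_zero hx) ⟨1, by norm_num, (fun x y => by
      rw [one_mul]; exact QuadraticMap.polar_comm _ _ _)⟩
  obtain ⟨g₃, s₃, A₃, z₃, w₃, R₃, hs3, hγ3, ho3⟩ := Lib.PSUGraph.exists_graph hF hn3 hι (κ := (Fin (m - 1) ⊕ Fin (m - 1)) ⊕ Fin 2) (by simp; omega)
    (C := QuadraticMap.polarBilin (Lib.Quad.quadMinus (m - 1) F₀ a b)) (fun x hx => (Lib.SimForm.nd_minus h2 (m - 1) hab).eq_zero hx)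
    ⟨1, by norm_num, (fun x y => by rw [one_mul]; exact QuadraticMap.polar_comm _ _ _)⟩
  refine ⟨_, _, _, a, b, hab, hγ1, ho1, hγ2, ho2, hγ3, ho3, ?_, ?_, ?_, ?_, ?_, ?_, ?_⟩
  · rw [Lib.PSUGraph.isConjUnder_iff hF hι hn3 R₁ R₂]
    intro h
    exact Lib.SimForm.not_simil_symp_plus h2 hm1 ((hs1.symm.trans h).trans hs2)
  · rw [Lib.PSUGraph.isConjUnder_iff hF hι hn3 R₁ R₃]
    intro h
    exact Lib.SimForm.not_simil_symp_minus h2 a b ((hs1.symm.trans h).trans hs3)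
  · rw [Lib.PSUGraph.isConjUnder_iff hF hι hn3 R₂ R₃]
    intro h
    exact Lib.SimForm.not_simil_plus_minus h2 hm1 hab ((hs2.symm.trans h).trans hs3)
  · intro γ hγ ho
    obtain ⟨g, s, A, z, w, rfl, R⟩ := Lib.PSUGraph.graph_form hF hn1 hι hγ ho
    rw [Lib.PSUGraph.isConjUnder_iff hF hι hn3 R₁ R, Lib.PSUGraph.isConjUnder_iff hF hι hn3 R₂ R, Lib.PSUGraph.isConjUnder_iff hF hι hn3 R₃ R]
    rcases Lib.SimForm.even_cases h2 hm1 hnm hab (Lib.PSLGraph.Bf_nd s) (Lib.PSUGraph.rel_eps hF hn1 hι R) with h | h | h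
    · left; exact hs1.trans h.symm
    · right; left; exact hs2.trans h.symm
    · right; right; exact hs3.trans h.symm
  · obtain ⟨e1⟩ := Lib.PSUGraph.centralizer_graph hF hι hn3 R₁
    obtain ⟨e2⟩ := Lib.SimForm.projQuot_simil hs1
    obtain ⟨e3⟩ := Lib.SimForm.proj_symp (K := F₀) (m := m)
    exact ⟨(e1.trans e2).trans e3⟩
  · obtain ⟨e1⟩ := Lib.PSUGraph.centralizer_graph hF hι hn3 R₂
    obtain ⟨e2⟩ := Lib.SimForm.projQuot_simil hs2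
    obtain ⟨e3⟩ := Lib.SimForm.proj_plus (K := F₀) (m := m) h2
    exact ⟨(e1.trans e2).trans e3⟩
  · obtain ⟨e1⟩ := Lib.PSUGraph.centralizer_graph hF hι hn3 R₃
    obtain ⟨e2⟩ := Lib.SimForm.projQuot_simil hs3
    obtain ⟨e3⟩ := Lib.SimForm.proj_minus (K := F₀) (m := m - 1) h2 a b
    exact ⟨(e1.trans e2).trans e3⟩

end Cfsg.Agent.S2707
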