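import Cfsg.Statements.S2708
import Cfsg.Agent.Lib.PSUGraph2
import Cfsg.Agent.Lib.SimForm5
-- import your own Cfsg.Agent.* helpers here

set_option autoImplicit false
open Cfsg

namespace Cfsg.Agent.S2708

/-- Let T = PSU_n(q) with n = 2m ≥ 4 even and q even, realised over the field F (of characteristic 2) with q² elements, and G = Inndiag(T) the image of PGU_n(q). The involutory graph automorphisms of T fall into exactly two G-classes, with representatives whose centralizers in G are isomorphic respectively to the symplectic group Sp_n(F₀) and to the centralizer in Sp_n(F₀) of a symplectic transvection, F₀ a field with q elements. -/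
theorem result {F : Type*} [Field F] [Fintype F] [CharP F 2] {q : ℕ} (hF : Fintype.card F = q ^ 2) {n m : ℕ} (hm : 2 ≤ m) (hnm : n = 2 * m) (F₀ : Type*) [Field F₀] [Fintype F₀] (hF₀ : Fintype.card F₀ = q) :
    ∃ (γ₁ γ₃ : MulAut (Cfsg.PSU n F q)) (t : ↥(Matrix.symplecticGroup (Fin m) F₀)), Cfsg.IsTransvection (t : Matrix (Fin m ⊕ Fin m) (Fin m ⊕ Fin m) F₀) ∧ Cfsg.IsGraphAutClassPSU γ₁ ∧ orderOf γ₁ = 2 ∧ Cfsg.IsGraphAutClassPSU γ₃ ∧ orderOf γ₃ = 2 ∧ ¬ Cfsg.IsConjUnder (Cfsg.inndiagPSU n F q) γ₁ γ₃ ∧ (∀ γ : MulAut (Cfsg.PSU n F q), Cfsg.IsGraphAutClassPSU γ → orderOf γ = 2 → Cfsg.IsConjUnder (Cfsg.inndiagPSU n F q) γ₁ γ ∨ Cfsg.IsConjUnder (Cfsg.inndiagPSU n F q) γ₃ γ) ∧ Nonempty (↥(Cfsg.inndiagPSU n F q ⊓ Subgroup.centralizer {γ₁}) ≃* ↥(Matrix.symplecticGroup (Fin m) F₀)) ∧ Nonempty (↥(Cfsg.inndiagPSU n F q ⊓ Subgroup.centralizer {γ₃}) ≃* ↥(Subgroup.centralizer ({t} : Set ↥(Matrix.symplecticGroup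 (Fin m) F₀)))) := by
  obtain ⟨ι, hι⟩ := Lib.PSUGraph.exists_iota hF F₀ hF₀
  have hc : CharP F₀ 2 := RingHom.charP ι ι.injective 2
  have hm1 : 1 ≤ m := by omega
  have hn3 : 3 ≤ n := by omega
  have hn1 : 1 ≤ n := by omega
  have he := Lib.PSpAut.e_ne (F := F₀) (⟨0, hm1⟩ : Fin m)
  obtain ⟨g₁, s₁, A₁, z₁, w₁, R₁, hs1, hγ1, ho1⟩ := Lib.PSUGraph.exists_graph hF hn3 hι (κ := Fin m ⊕ Fin m) (by simp; omega)
    Lib.SimForm.symp_nd ⟨-1, by norm_num, (fun x y => by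
      have := Lib.PSpAut.B_skew y x
      rw [neg_one_mul]; exact this)⟩
  obtain ⟨g₃, s₃, A₃, z₃, w₃, R₃, hs3, hγ3, ho3⟩ := Lib.PSUGraph.exists_graph hF hn3 hι (κ := Fin m ⊕ Fin m) (by simp; omega)
    (Lib.SimForm.formE_nd (Lib.PSpAut.e (F := F₀) (⟨0, hm1⟩ : Fin m))) ⟨1, by norm_num, (fun x y => by
      rw [one_mul]; exact Lib.SimForm.formE_symm _ _ _)⟩
  refine ⟨_, _, _, Lib.SimForm.isTransvection_tM he, hγ1, ho1, hγ3, ho3, ?_, ?_, ?_, ?_⟩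
  · rw [Lib.PSUGraph.isConjUnder_iff hF hι hn3 R₁ R₃]
    intro h
    exact Lib.SimForm.not_simil_symp_formE he ((hs1.symm.trans h).trans hs3)
  · intro γ hγ ho
    obtain ⟨g, s, A, z, w, rfl, R⟩ := Lib.PSUGraph.graph_form hF hn1 hι hγ ho
    rw [Lib.PSUGraph.isConjUnder_iff hF hι hn3 R₁ R, Lib.PSUGraph.isConjUnder_iff hF hι hn3 R₃ R]
    rcases Lib.SimForm.even_cases_two hnm he (Lib.PSLGraph.Bf_nd s) (Lib.PSUGraph.rel_eps hF hn1 hι R) with h | h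
    · left; exact hs1.trans h.symm
    · right; exact hs3.trans h.symm
  · obtain ⟨e1⟩ := Lib.PSUGraph.centralizer_graph hF hι hn3 R₁
    obtain ⟨e2⟩ := Lib.SimForm.projQuot_simil hs1
    obtain ⟨e3⟩ := Lib.SimForm.pgsp_two (K := F₀) hm1
    exact ⟨(e1.trans e2).trans e3⟩
  · obtain ⟨e1⟩ := Lib.PSUGraph.centralizer_graph hF hι hn3 R₃
    obtain ⟨e2⟩ := Lib.SimForm.projQuot_simil hs3
    obtain ⟨e3⟩ := Lib.SimForm.proj_formE (K := F₀) he
    exact ⟨(e1.trans e2).trans e3⟩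

end Cfsg.Agent.S2708
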