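import Cfsg.Statements.S2709
import Cfsg.Agent.Lib.PSUGraph3
import Cfsg.Agent.Lib.SimForm5
-- import your own Cfsg.Agent.* helpers here

set_option autoImplicit false
open Cfsg

namespace Cfsg.Agent.S2709

/-- Let T = PSU_n(q) be simple (n ≥ 3, (n,q) ≠ (3,2), q = p^f), realised over the field F with q² elements, G = Inndiag(T) the image of PGU_n(q), and γ an involutory graph automorphism of T. The G-class of γ is the union of exactly c T-classes, where: if n is even and q is odd, c = gcd(n/2, q + 1) when C_G(γ) is isomorphic to PGSp_n(F₀) for a field F₀ with q elements (symplectic type) and c = gcd(n, q + 1)/2 otherwise; and c = gcd(n, q + 1) when n is odd or q is even. -/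
theorem result {F : Type*} [Field F] [Fintype F] {p f q : ℕ} [Fact p.Prime] (hq : q = p ^ f) (hf : 1 ≤ f) (hF : Fintype.card F = q ^ 2) {n : ℕ} (hn : 3 ≤ n) (hs : ¬ (n = 3 ∧ q = 2)) (F₀ : Type*) [Field F₀] [Fintype F₀] (hF₀ : Fintype.card F₀ = q) (γ : MulAut (Cfsg.PSU n F q)) (hγ : Cfsg.IsGraphAutClassPSU γ) (hγ2 : orderOf γ = 2) :
    ((Even n ∧ Odd q ∧ Nonempty (↥(Cfsg.inndiagPSU n F q ⊓ Subgroup.centralizer {γ}) ≃* Cfsg.PGSp (n / 2) F₀)) → Cfsg.splitClassCount (Cfsg.inndiagPSU n F q) (Cfsg.Inn (Cfsg.PSU n F q)) γ = Nat.gcd (n / 2) (q + 1)) ∧ ((Even n ∧ Odd q ∧ ¬ Nonempty (↥(Cfsg.inndiagPSU n F q ⊓ Subgroup.centralizer {γ}) ≃* Cfsg.PGSp (n / 2) F₀)) → Cfsg.splitClassCount (Cfsg.inndiagPSU n F q) (Cfsg.Inn (Cfsg.PSU n F q)) γ = Nat.gcd n (q + 1) / 2) ∧ (¬ (Even n ∧ Odd q) → Cfsg.splitClassCount (Cfsg.inndiagPSU n F q) (Cfsg.Inn (Cfsg.PSU n F q)) γ = Nat.gcd n (q + 1)) := by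
  obtain ⟨ι, hι⟩ := Lib.PSUGraph.exists_iota hF F₀ hF₀
  have hn1 : 1 ≤ n := by omega
  obtain ⟨g, s, A, z, w, rfl, R⟩ := Lib.PSUGraph.graph_form hF hn1 hι hγ hγ2
  have hE := Lib.PSUGraph.rel_eps hF hn1 hι R
  have hnd := Lib.PSLGraph.Bf_nd s
  have h20 : Odd q → (2 : F₀) ≠ 0 := fun ho => Lib.Quad.two_ne_zero_of_odd rfl (by rw [hF₀]; exact ho)
  obtain ⟨e1⟩ := Lib.PSUGraph.centralizer_graph hF hι hn R
  refine ⟨?_, ?_, ?_⟩
  · rintro ⟨he, ho, ⟨e2⟩⟩
    obtain ⟨m, hm⟩ := he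
    have hnm : n = 2 * m := by omega
    have hm1 : 1 ≤ m := by omega
    have hdiv : n / 2 = m := by omega
    rw [hdiv] at e2 ⊢
    have h2 := h20 ho
    rcases hE.sym_or_alt h2 with h | h
    · exact absurd ⟨e1.symm.trans e2⟩ (Lib.SimForm.not_iso h2 hm1 hnm hnd h)
    · have hs : Lib.SimForm.Simil (Lib.PSLGraph.Bf s) (Lib.ClIso.sympForm (Fin m) F₀) :=
        Lib.SimForm.simil_symp h hnd (by simp [hnm])
      exact Lib.PSUGraph.split_symp hF hι hn hnm R (fun d c => by rw [Lib.SimForm.DM_simil hs, Lib.SimForm.DM_symp])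
  · rintro ⟨he, ho, hno⟩
    obtain ⟨m, hm⟩ := he
    have hnm : n = 2 * m := by omega
    have hm1 : 1 ≤ m := by omega
    have hdiv : n / 2 = m := by omega
    rw [hdiv] at hno
    have h2 := h20 ho
    rcases hE.sym_or_alt h2 with h | h
    · have hs := Lib.SimForm.simil_qf h2 h
      exact Lib.PSUGraph.split_orth hF hι hn hnm ho R (fun d c => by
        rw [Lib.SimForm.DM_simil hs, Lib.SimForm.DM_orth h2 hm1 (by rw [Fintype.card_fin, hnm]) (Lib.SimForm.nd_qf h2 h hnd)])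
    · exfalso
      apply hno
      have hs : Lib.SimForm.Simil (Lib.PSLGraph.Bf s) (Lib.ClIso.sympForm (Fin m) F₀) :=
        Lib.SimForm.simil_symp h hnd (by simp [hnm])
      obtain ⟨e2⟩ := Lib.SimForm.projQuot_simil hs
      obtain ⟨e3⟩ := Lib.SimForm.proj_symp (K := F₀) (m := m)
      exact ⟨(e1.trans e2).trans e3⟩
  · intro hno
    apply Lib.PSUGraph.split_sq hF hι hn R
    intro d c hdc
    have hsq := Lib.SimForm.DM_sq hnd hdc
    rw [Fintype.card_fin] at hsq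
    rcases Nat.even_or_odd n with he | ho
    · have hp2 : p = 2 := by
        rcases (Fact.out : p.Prime).eq_two_or_odd' with h | h
        · exact h
        · exact absurd ⟨he, by rw [hq]; exact h.pow⟩ hno
      have hc : CharP F₀ p := charP_of_card_eq_prime_pow (by rw [hF₀, hq])
      have : CharP F₀ 2 := by rw [← hp2]; exact hc
      obtain ⟨x, hx⟩ := Lib.Quad.isSquare_of_charTwo (c : F₀)
      have hx0 : x ≠ 0 := by rintro rfl; rw [mul_zero] at hx; exact c.ne_zero hx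
      have h1 : Units.mk0 x hx0 * Units.mk0 x hx0 = c := Units.ext hx.symm
      refine ⟨Units.mk0 x hx0, h1, ?_⟩
      rw [← h1, ← pow_two, ← pow_mul, mul_comm 2, pow_mul] at hsq
      have h3 := congrArg Units.val hsq
      rw [Units.val_pow_eq_pow_val, Units.val_pow_eq_pow_val] at h3
      have h5 : (2 : F₀) = 0 := CharTwo.two_eq_zero
      have h6 : (((Units.mk0 x hx0 ^ n : F₀ˣ) : F₀) - d) * (((Units.mk0 x hx0 ^ n : F₀ˣ) : F₀) - d) = 0 := by
        linear_combination -h3 + ((d : F₀) ^ 2 - ((Units.mk0 x hx0 ^ n : F₀ˣ) : F₀) * d) * h5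
      exact Units.ext (sub_eq_zero.1 (mul_self_eq_zero.1 h6))
    · obtain ⟨k, hk⟩ := ho
      have h1 : (d * (c ^ k)⁻¹) ^ 2 = c := by
        rw [mul_pow, hsq, inv_pow, ← pow_mul, mul_comm k 2, hk, pow_succ, mul_comm (c ^ (2 * k)) c, mul_inv_cancel_right]
      refine ⟨d * (c ^ k)⁻¹, by rw [← pow_two, h1], ?_⟩
      rw [hk, pow_succ, pow_mul, h1, mul_comm, inv_mul_cancel_right]

end Cfsg.Agent.S2709
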