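import Cfsg.Statements.S2710
import Cfsg.Agent.Lib.PSUGraph2
import Cfsg.Agent.Lib.SimForm5
-- import your own Cfsg.Agent.* helpers here

set_option autoImplicit false
open Cfsg

namespace Cfsg.Agent.S2710

/-- Let T = PSU_n(q) with n ≥ 4 divisible by 4 (n = 2m) and q odd, realised over the field F with q² elements, G = Inndiag(T) the image of PGU_n(q), and φ the standard field automorphism of T attached to the q-th power map of F (it induces inverse-transpose on the unitary matrices and is a graph automorphism). Its centralizer in G is isomorphic to the projective conformal orthogonal group of the plus-type form Σ xᵢ yᵢ in dimension n over a field F₀ with q elements. (Dimensions n ≡ 2 (mod 4) are not covered.) -/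
theorem result {F : Type*} [Field F] [Fintype F] {q : ℕ} (hodd : Odd q) (hF : Fintype.card F = q ^ 2) {n m : ℕ} (hm : 2 ≤ m) (hnm : n = 2 * m) (h4 : 4 ∣ n) (F₀ : Type*) [Field F₀] [Fintype F₀] (hF₀ : Fintype.card F₀ = q) (σ : F ≃+* F) (hσ : ∀ a : F, σ a = a ^ q) (φ : MulAut (Cfsg.PSU n F q)) (hφ : Cfsg.IsFieldAutPSUOf σ φ) :
    Nonempty (↥(Cfsg.inndiagPSU n F q ⊓ Subgroup.centralizer {φ}) ≃* Cfsg.PGO F₀ (Cfsg.quadFormPlus m F₀)) := by
  obtain ⟨ι, hι⟩ := Lib.PSUGraph.exists_iota hF F₀ hF₀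
  have h2 : (2 : F₀) ≠ 0 := Lib.Quad.two_ne_zero_of_odd rfl (by rw [hF₀]; exact hodd)
  have hm1 : 1 ≤ m := by omega
  have hn3 : 3 ≤ n := by omega
  have hσ' : σ = Lib.PSUAut.brE hF := by
    ext x
    rw [hσ, Lib.PSUAut.brE_apply]
  rw [Lib.PSUAut.isStdField_iff] at hφ
  subst hφ
  subst hσ'
  have R : Lib.PSUGraph.Rel (Lib.PSUAut.brE hF) ι (1 : Cfsg.GU n F q).1 1 1 1 1 := by
    constructor
    · show (1 : Matrix.GeneralLinearGroup (Fin n) F) = _
      simp
    · simp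
  have hio : (Lib.PSUAut.fd (Lib.PSUAut.brE hF) : MulAut (Cfsg.PSU n F q)) =
      Lib.PSUAut.dg 1 * Lib.PSUAut.fd (Lib.PSUAut.brE hF) := by
    rw [map_one, one_mul]
  rw [hio]
  obtain ⟨e1⟩ := Lib.PSUGraph.centralizer_graph hF hι hn3 R
  have hB : ∀ x y, Lib.PSLGraph.Bf (1 : Matrix.GeneralLinearGroup (Fin n) F₀) x y = x ⬝ᵥ y := by
    intro x y
    rw [Lib.PSLGraph.Bf_apply, inv_one, Units.val_one, Matrix.one_mulVec]
  have hsym : ∀ x y, Lib.PSLGraph.Bf (1 : Matrix.GeneralLinearGroup (Fin n) F₀) x y = Lib.PSLGraph.Bf 1 y x := by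
    intro x y
    rw [hB, hB, dotProduct_comm]
  have hnd := Lib.SimForm.nd_qf h2 hsym (Lib.PSLGraph.Bf_nd 1)
  have hfr : Module.finrank F₀ (Fin n → F₀) = 2 * m := by simp [hnm]
  have hdet : (LinearMap.BilinForm.toMatrix (Pi.basisFun F₀ (Fin n))
      (QuadraticMap.polarBilin (Lib.SimForm.qf (Lib.PSLGraph.Bf (1 : Matrix.GeneralLinearGroup (Fin n) F₀))))).det = 2 ^ n := by
    have h3 : LinearMap.BilinForm.toMatrix (Pi.basisFun F₀ (Fin n))
      (QuadraticMap.polarBilin (Lib.SimForm.qf (Lib.PSLGraph.Bf (1 : Matrix.GeneralLinearGroup (Fin n) F₀)))) = (2 : F₀) • 1 := by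
      ext i j
      rw [LinearMap.BilinForm.toMatrix_apply, QuadraticMap.polarBilin_apply_apply, Lib.SimForm.polar_qf hsym, hB,
        Matrix.smul_apply, Pi.basisFun_apply, Pi.basisFun_apply, single_dotProduct, one_mul, smul_eq_mul, Matrix.one_apply,
        Pi.single_apply]
    rw [h3, Matrix.det_smul, Matrix.det_one, mul_one, Fintype.card_fin]
  have hsq2 : IsSquare ((2 : F₀) ^ n) := ⟨2 ^ m, by rw [hnm, two_mul, pow_add]⟩
  have hplus := Lib.Quad.det_gram_plus (F := F₀) (m := m)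
  have hmev : Even m := by
    rw [Nat.even_iff]
    omega
  have hs : Lib.SimForm.Simil (Lib.PSLGraph.Bf (1 : Matrix.GeneralLinearGroup (Fin n) F₀))
      (QuadraticMap.polarBilin (Lib.Quad.quadPlus m F₀)) := by
    refine (Lib.SimForm.simil_qf h2 hsym).trans (Lib.SimForm.isometry_of_disc h2 hnd Lib.Quad.nd_quadPlus (by rw [hfr, Lib.Quad.finrank_plus])
      (Pi.basisFun F₀ (Fin n)) (Pi.basisFun F₀ (Fin m ⊕ Fin m)) ?_)
    rw [hdet, hplus, hmev.neg_one_pow, mul_one]
    exact hsq2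
  obtain ⟨e2⟩ := Lib.SimForm.projQuot_simil hs
  obtain ⟨e3⟩ := Lib.SimForm.proj_plus (K := F₀) (m := m) h2
  exact ⟨(e1.trans e2).trans e3⟩

end Cfsg.Agent.S2710
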