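import Cfsg.Statements.S2711
import Cfsg.Agent.Lib.PSUField2
-- import your own Cfsg.Agent.* helpers here

set_option autoImplicit false
open Cfsg

namespace Cfsg.Agent.S2711

/-- Let T = PSU_n(q) be simple (n ≥ 3, (n,q) ≠ (3,2)), realised over the field F with q² elements, and let x be a field automorphism of T (conjugate to a standard field automorphism of odd order) of prime order r. Then an element y of the coset Inndiag(T)·x (y = δ x with δ in the image of PGU_n(q)) has order r if and only if y is conjugate to x by an element of Inndiag(T). (T has no graph-field automorphisms.) -/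
theorem result {F : Type*} [Field F] [Fintype F] {p f q : ℕ} [Fact p.Prime] (hq : q = p ^ f) (hf : 1 ≤ f) (hF : Fintype.card F = q ^ 2) {n : ℕ} (hn : 3 ≤ n) (hs : ¬ (n = 3 ∧ q = 2)) (x δ : MulAut (Cfsg.PSU n F q)) (hx : Cfsg.IsFieldAutClassPSU x) {r : ℕ} (hr : r.Prime) (hxr : orderOf x = r) (hδ : δ ∈ Cfsg.inndiagPSU n F q) :
    orderOf (δ * x) = r ↔ Cfsg.IsConjUnder (Cfsg.inndiagPSU n F q) x (δ * x) := by
  classical
  have hq' : n = 3 → q ≠ 2 := fun h3 h2 => hs ⟨h3, h2⟩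
  have hnorm := Lib.PSUAut.inndiag_normal hF hn hq'
  constructor
  · intro ho
    obtain ⟨α, φ, σ, -, hσo, hφ, hα⟩ := hx
    rw [Lib.PSUAut.isStdField_iff] at hφ
    rw [hφ] at hα
    rw [← Lib.SplitCount.isConjUnder_conj (Lib.SplitCount.normal_conj_iff α)]
    have h1 : α * (δ * x) * α⁻¹ = (α * δ * α⁻¹) * Lib.PSUAut.fd σ := by rw [← hα]; group
    have h2 : α * δ * α⁻¹ ∈ inndiagPSU n F q := hnorm.conj_mem _ hδ _
    rw [Lib.PSUAut.inndiag_eq] at h2
    obtain ⟨g, hg⟩ := h2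
    have h3 : orderOf σ = r := by
      rw [← Lib.PSUAut.orderOf_fd hF hn σ, ← hα, Lib.SplitCount.orderOf_conj, hxr]
    have hro : Odd r := by rw [← h3]; exact hσo
    have h4 : orderOf (Lib.PSUAut.dg g * Lib.PSUAut.fd σ) = r := by
      rw [hg, ← h1, Lib.SplitCount.orderOf_conj, ho]
    have hF' : Fintype.card F = p ^ (2 * f) := by rw [hF, hq, ← pow_mul, mul_comm]
    have hdvd : r ∣ 2 * f := by
      rw [← h3, ← Lib.FFAut.card_aut hF']
      exact orderOf_dvd_natCard σ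
    have hrf : r ∣ f := (Nat.Coprime.dvd_mul_left (Nat.Coprime.symm (Nat.coprime_two_left.2 hro))).1 hdvd
    obtain ⟨k, rfl⟩ := hrf
    have : Finite (Lib.FFAut.fixed σ) := inferInstance
    let _ : Fintype (Lib.FFAut.fixed σ) := Fintype.ofFinite _
    have hF₀ : Fintype.card (Lib.FFAut.fixed σ) = (p ^ k) ^ 2 := by
      have h5 := Lib.FFAut.card_fixed_pow σ
      rw [h3, hF'] at h5
      rw [← Nat.card_eq_fintype_card]
      apply Nat.pow_left_injective hr.ne_zero
      show _ ^ r = _ ^ r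
      rw [h5]; ring
    have hpow : ∀ x : Lib.FFAut.fixed σ, x ^ q = x ^ (p ^ k) := by
      intro x
      have : q = (p ^ k) ^ r := by rw [hq, ← pow_mul, mul_comm]
      rw [this]
      exact Lib.PSUAut.pow_eq_of_odd hF₀ hro x
    obtain ⟨w, hw⟩ := Lib.PSUAut.exists_conj_fd hF hF₀ (ι := (Lib.FFAut.fixed σ).subtype) hn h3 hro
      (fun x => ⟨fun hx => ⟨⟨x, hx⟩, rfl⟩, by rintro ⟨y, rfl⟩; exact y.2⟩) hpow g (by rw [← h4, pow_orderOf_eq_one])
    rw [h1, hα, ← hg]
    exact ⟨Lib.PSUAut.dg w, by rw [Lib.PSUAut.inndiag_eq]; exact ⟨w, rfl⟩, hw⟩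
  · rintro ⟨h, -, e⟩
    rw [e, Lib.SplitCount.orderOf_conj, hxr]

end Cfsg.Agent.S2711
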