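import Cfsg.Statements.S2712
import Cfsg.Agent.Lib.PSpField2

set_option autoImplicit false
open Cfsg

namespace Cfsg.Agent.S2712

open Lib.PSpAut Lib.SplitCount

/-- `gcd (2, (p^f - 1) / (p^(f/r) - 1)) = gcd (gcd (2, p^f - 1), r)` for `r ∣ f`. -/
theorem gcd_aux {p f r : ℕ} (hp : p.Prime) (hf : 1 ≤ f) (hr : r ∣ f) :
    Nat.gcd 2 ((p ^ f - 1) / (p ^ (f / r) - 1)) = Nat.gcd (Nat.gcd 2 (p ^ f - 1)) r := by
  obtain ⟨k, rfl⟩ := hr
  have hr0 : 0 < r := Nat.pos_of_ne_zero (by rintro rfl; simp at hf)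
  have hk0 : 0 < k := Nat.pos_of_ne_zero (by rintro rfl; simp at hf)
  rw [Nat.mul_div_cancel_left k hr0, mul_comm r k, pow_mul]
  obtain ⟨q, hq⟩ : ∃ q, q = p ^ k := ⟨_, rfl⟩
  have hq2 : 2 ≤ q := by rw [hq]; exact hp.two_le.trans (Nat.le_self_pow hk0.ne' p)
  rw [← hq, ← Nat.geomSum_eq hq2]
  rcases Nat.even_or_odd q with he | ho
  · -- q even: both sides are 1
    have h1 : Odd (∑ i ∈ Finset.range r, q ^ i) := by
      obtain ⟨s, rfl⟩ : ∃ s, r = s + 1 := ⟨r - 1, by omega⟩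
      rw [Finset.sum_range_succ']
      rw [pow_zero]
      refine Even.add_one ?_
      refine Finset.even_sum _ fun i _ => ?_
      exact he.pow_of_ne_zero (by omega)
    have h2 : Odd (q ^ r - 1) := by
      have : Even (q ^ r) := he.pow_of_ne_zero (by omega)
      have h3 : 1 ≤ q ^ r := Nat.one_le_pow _ _ (by omega)
      obtain ⟨t, ht⟩ := this
      exact ⟨t - 1, by omega⟩
    rw [(Nat.coprime_two_left.2 h1), (Nat.coprime_two_left.2 h2), Nat.gcd_one_left]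
  · have h2 : 2 ∣ q ^ r - 1 := by
      have : Odd (q ^ r) := ho.pow
      obtain ⟨t, ht⟩ := this
      exact ⟨t, by omega⟩
    rw [Nat.gcd_eq_left h2]
    have h3 : (∑ i ∈ Finset.range r, q ^ i) ≡ r [MOD 2] := by
      have : (∑ i ∈ Finset.range r, q ^ i) ≡ ∑ i ∈ Finset.range r, 1 [MOD 2] := by
        refine Nat.ModEq.sum fun i _ => ?_
        have : Odd (q ^ i) := ho.pow
        exact Nat.odd_iff.1 this
      simpa using this
    rw [Nat.gcd_comm, Nat.gcd_comm 2 r]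
    exact h3.gcd_eq

/-- Let T = PSp_{2m}(F) be simple over the field F with p^f elements (m ≥ 2, (2m, |F|) ≠ (4, 2)), G = Inndiag(T) the image of the projective conformal symplectic group PGSp_{2m}(F), and x a field automorphism of T of prime order r. Then r divides f; C_G(x) is isomorphic to PGSp_{2m}(F₀) for a field F₀ with p^(f/r) elements; and the G-class of x is the union of exactly gcd(gcd(2, p^f − 1), r) T-classes. -/
theorem result {F : Type*} [Field F] [Fintype F] {p f : ℕ} [Fact p.Prime] (hF : Fintype.card F = p ^ f) (hf : 1 ≤ f) {m : ℕ} (hm : 2 ≤ m) (hs : m = 2 → 3 ≤ Fintype.card F) (x : MulAut (Cfsg.PSp m F)) (hx : Cfsg.IsFieldAutClassPSp x) {r : ℕ} (hr : r.Prime) (hxr : orderOf x = r) (F₀ : Type*) [Field F₀] [Fintype F₀] (hF₀ : Fintype.card F₀ = p ^ (f / r)) :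
    r ∣ f ∧ Nonempty (↥(Cfsg.inndiagPSp m F ⊓ Subgroup.centralizer {x}) ≃* Cfsg.PGSp m F₀) ∧ Cfsg.splitClassCount (Cfsg.inndiagPSp m F) (Cfsg.Inn (Cfsg.PSp m F)) x = Nat.gcd (Nat.gcd 2 (p ^ f - 1)) r := by
  classical
  have hnorm := inndiag_normal (F := F) hm
  obtain ⟨α, σ, hσ, hα⟩ := hx
  rw [isStdField_iff] at hα
  have h3 : orderOf σ = r := by
    rw [← orderOf_fd hm σ, ← hα, orderOf_conj, hxr]
  obtain ⟨hrf, ι, hι⟩ := Lib.FFAut.exists_embedding hF hf h3 hr.pos F₀ hF₀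
  refine ⟨hrf, ?_, ?_⟩
  · obtain ⟨e⟩ := centralizer_fd hm h3 hr.pos hι
    refine ⟨(centEquiv (inndiagPSp m F) α x (normal_conj_iff α)).trans ?_⟩
    rw [hα]
    exact e
  · rw [← splitClassCount_conj _ _ α x (normal_conj_iff α) (normal_conj_iff α), hα, split_fd hm h3 hr.pos hι, hF, hF₀]
    exact gcd_aux Fact.out hf hrf

end Cfsg.Agent.S2712
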