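import Cfsg.Statements.S2713
import Cfsg.Agent.Lib.PSpField2

set_option autoImplicit false
open Cfsg

namespace Cfsg.Agent.S2713

open Lib.PSpAut Lib.SplitCount

/-- Let T = PSp_{2m}(F) be simple over a finite field (m ≥ 2, (2m, |F|) ≠ (4, 2)) and let x be a field automorphism of T of prime order r. Then an element y of the coset Inndiag(T)·x (y = δ x with δ in the image of the projective conformal symplectic group) has order r if and only if y is conjugate to x by an element of Inndiag(T). -/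
theorem result {F : Type*} [Field F] [Fintype F] {m : ℕ} (hm : 2 ≤ m) (hs : m = 2 → 3 ≤ Fintype.card F) (x δ : MulAut (Cfsg.PSp m F)) (hx : Cfsg.IsFieldAutClassPSp x) {r : ℕ} (hr : r.Prime) (hxr : orderOf x = r) (hδ : δ ∈ Cfsg.inndiagPSp m F) :
    orderOf (δ * x) = r ↔ Cfsg.IsConjUnder (Cfsg.inndiagPSp m F) x (δ * x) := by
  classical
  have hnorm := inndiag_normal (F := F) hm
  constructor
  · intro ho
    obtain ⟨α, σ, hσ, hα⟩ := hx
    rw [isStdField_iff] at hα
    rw [← isConjUnder_conj (normal_conj_iff α)]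
    have h1 : α * (δ * x) * α⁻¹ = (α * δ * α⁻¹) * fd σ := by rw [← hα]; group
    have h2 : α * δ * α⁻¹ ∈ inndiagPSp m F := hnorm.conj_mem _ hδ _
    rw [inndiag_eq] at h2
    obtain ⟨g, hg⟩ := h2
    have h3 : orderOf σ = r := by
      rw [← orderOf_fd hm σ, ← hα, orderOf_conj, hxr]
    have h4 : orderOf (dg g * fd σ) = r := by
      rw [hg, ← h1, orderOf_conj, ho]
    obtain ⟨k, hk⟩ := exists_conj_fd hm h3 hr.pos g (by rw [← h4, pow_orderOf_eq_one])
    rw [h1, hα, ← hg]
    exact ⟨dg k, by rw [inndiag_eq]; exact ⟨k, rfl⟩, hk⟩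
  · rintro ⟨h, -, e⟩
    rw [e, orderOf_conj, hxr]

end Cfsg.Agent.S2713
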