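import Cfsg.Statements.S2714
import Cfsg.Agent.Lib.OFldH
import Cfsg.Agent.Lib.PSLField2

set_option autoImplicit false
open Cfsg

namespace Cfsg.Agent.S2714

open Lib.OFld Lib.Quad Lib.POmAut Lib.SplitCount

/-- Let T = Ω_{2m+1}(F) (m ≥ 3, |F| = p^f odd; realised as PΩ of the form x₀² + Σ xᵢ yᵢ), G = Inndiag(T) the image of the conformal orthogonal group in Aut(T), and x a field automorphism of T of prime order r. Then r divides f; C_G(x) is isomorphic to Inndiag(Ω_{2m+1}(F₀)) for a field F₀ with p^(f/r) elements; and the G-class of x is a single T-class when r is odd and the union of exactly two T-classes when r = 2. -/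
theorem result {F : Type*} [Field F] [Fintype F] {p f : ℕ} [Fact p.Prime] (hF : Fintype.card F = p ^ f) (hf : 1 ≤ f) (hodd : Odd (Fintype.card F)) {m : ℕ} (hm : 3 ≤ m) (x : MulAut (Cfsg.POmega F (Cfsg.quadFormOdd m F))) (hx : Cfsg.IsFieldAutClassPOmega (Cfsg.quadFormOdd m F) x) {r : ℕ} (hr : r.Prime) (hxr : orderOf x = r) (F₀ : Type*) [Field F₀] [Fintype F₀] (hF₀ : Fintype.card F₀ = p ^ (f / r)) :
    r ∣ f ∧ Nonempty (↥(Cfsg.inndiagPOmegaOdd m F ⊓ Subgroup.centralizer {x}) ≃* ↥(Cfsg.inndiagPOmegaOdd m F₀)) ∧ (Odd r → Cfsg.splitClassCount (Cfsg.inndiagPOmegaOdd m F) (Cfsg.Inn (Cfsg.POmega F (Cfsg.quadFormOdd m F))) x = 1) ∧ (r = 2 → Cfsg.splitClassCount (Cfsg.inndiagPOmegaOdd m F) (Cfsg.Inn (Cfsg.POmega F (Cfsg.quadFormOdd m F))) x = 2) := by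
  have h2 := two_ne_zero_of_odd hodd
  obtain ⟨α, φ, σ, hσ, hφ, hα⟩ := hx
  have hn := (fm_odd h2 hm).normal (surj_odd h2 hm)
  have S := sg_odd (m := m) σ
  have hφ' : φ = S.fd := (S.isFieldAut_iff φ).1 hφ
  have hσr : orderOf σ = r := (fm_odd h2 hm).order_of_class S hr hσ (hα.trans hφ') hxr
  obtain ⟨hrf, ι₀, hι⟩ := Lib.FFAut.exists_embedding hF hf hσr hr.pos F₀ hF₀
  have D := ds_odd (m := m) hι
  have h20 : (2 : F₀) ≠ 0 := fun e => h2 (by rw [← map_ofNat ι₀ 2, e, map_zero])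
  have hx' : α * x * α⁻¹ = D.toSg.fd := hα.trans hφ'
  rw [inndiag_odd_eq, inndiag_odd_eq]
  have hs := split_conj hn hx'
  refine ⟨hrf, cent_iso (fm_odd h2 hm) D (gd_odd h20 hm) (fun g => by simp) hσr hr.pos hx', fun hro => ?_, fun hr2 => ?_⟩
  · refine hs.trans ?_
    rw [← MonoidHom.range_eq_map]
    exact split_of_odd D (gd_odd h2 hm) (gd_odd h20 hm) (n := m) (by simp; ring) (by omega) h2 hσr hr.pos hro
  · subst hr2
    refine hs.trans ?_
    rw [← MonoidHom.range_eq_map]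
    exact split_of_two D (gd_odd h2 hm) (gd_odd h20 hm) (n := m) (by simp; ring) (by omega) h2 hσr

end Cfsg.Agent.S2714
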