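import Cfsg.Statements.S2718
import Cfsg.Agent.Lib.POmGraph2
-- import your own Cfsg.Agent.* helpers here

set_option autoImplicit false
open Cfsg

namespace Cfsg.Agent.S2718

set_option maxHeartbeats 2000000 in
open Cfsg.Agent.Lib Cfsg.Agent.Lib.POmAut Cfsg.Agent.Lib.Quad in
/-- Let T = PΩ⁺_{2m}(F) with m ≥ 4 and |F| = q odd, G = Inndiag(T), and γ an involutory graph automorphism of T induced by a similarity (one interchanging the two classes of maximal totally singular subspaces). Then the G-class of γ is either a single T-class or the union of exactly two T-classes, and it is the union of two unless m is odd and q ≡ 3 (mod 4). -/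
theorem result {F : Type*} [Field F] [Fintype F] (hodd : Odd (Fintype.card F)) {m : ℕ} (hm : 4 ≤ m) (γ : MulAut (Cfsg.POmega F (Cfsg.quadFormPlus m F))) (hγ : Cfsg.IsSimilarityGraphAutPOmegaPlus m γ) (hγ2 : orderOf γ = 2) :
    (Cfsg.splitClassCount (Cfsg.inndiagPOmegaPlus m F) (Cfsg.Inn (Cfsg.POmega F (Cfsg.quadFormPlus m F))) γ = 1 ∨ Cfsg.splitClassCount (Cfsg.inndiagPOmegaPlus m F) (Cfsg.Inn (Cfsg.POmega F (Cfsg.quadFormPlus m F))) γ = 2) ∧ (¬ (Odd m ∧ Fintype.card F % 4 = 3) → Cfsg.splitClassCount (Cfsg.inndiagPOmegaPlus m F) (Cfsg.Inn (Cfsg.POmega F (Cfsg.quadFormPlus m F))) γ = 2) := by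
  have h2 : (2 : F) ≠ 0 := ClUtil.odd_card_iff_two_ne_zero.1 hodd
  have h := hypPlus (m := m) h2 hm
  obtain ⟨c, v, hc, D⟩ := exists_dat_plus h
  obtain ⟨g, hg, hnp, hind⟩ := hγ
  have he : h.eps ⟨g, hg⟩ = -1 :=
    (Int.units_eq_one_or _).resolve_left (fun he => hnp ((pres_plus h ⟨g, hg⟩).2 he))
  have hγg : γ = dg (Q := quadPlus m F) ⟨g, hg⟩ := (isInduced_iff (Q := quadPlus m F) ⟨g, hg⟩ γ).1 hind
  have e1 := inndiag_plus_eq h
  have hγγ : γ * γ = 1 := by rw [← pow_two, ← hγ2, pow_orderOf_eq_one]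
  have hgg : dg (Q := quadPlus m F) ⟨g, hg⟩ * dg (Q := quadPlus m F) ⟨g, hg⟩ = 1 := by
    rw [hγg] at hγγ; exact hγγ
  by_cases hA : CaseA (quadPlus m F)
  · have h3 := h.split_A (by omega) hA D.sig D.eps ⟨g, hg⟩ hgg he
    rw [← e1, ← hγg] at h3
    exact ⟨Or.inr h3, fun _ => h3⟩
  · have h3 := h.split_B hA D.sig D.eps γ
    rw [← e1] at h3
    exact ⟨h3, fun h4 => absurd ((caseA_plus_iff h2).2 h4) hA⟩

end Cfsg.Agent.S2718
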