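import Cfsg.Statements.S2719
import Cfsg.Agent.Lib.POmSemi
-- import your own Cfsg.Agent.* helpers here

set_option autoImplicit false
open Cfsg

namespace Cfsg.Agent.S2719

set_option maxHeartbeats 2000000 in
open Cfsg.Agent.Lib Cfsg.Agent.Lib.POmAut Cfsg.Agent.Lib.Quad in
/-- Let T = PΩ⁻_{2m+2}(F) with m ≥ 3 and |F| = q odd (form with anisotropic binary part z₁² + a z₁ z₂ + b z₂²), G = Inndiag(T), and γ an involutory graph automorphism of T (an automorphism in the image of the semisimilarity group, not inner-diagonal, of order 2). Then the G-class of γ is either a single T-class or the union of exactly two T-classes, and it is the union of two unless m is even and q ≡ 1 (mod 4). -/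
theorem result {F : Type*} [Field F] [Fintype F] (hodd : Odd (Fintype.card F)) {m : ℕ} (hm : 3 ≤ m) (a b : F) (hab : (∀ z₁ z₂ : F, z₁ ^ 2 + a * z₁ * z₂ + b * z₂ ^ 2 = 0 → z₁ = 0 ∧ z₂ = 0)) (γ : MulAut (Cfsg.POmega F (Cfsg.quadFormMinus m F a b))) (hγ : Cfsg.IsGraphAutClassPOmegaMinus m a b γ) (hγ2 : orderOf γ = 2) :
    (Cfsg.splitClassCount (Cfsg.inndiagPOmegaMinus m F a b) (Cfsg.Inn (Cfsg.POmega F (Cfsg.quadFormMinus m F a b))) γ = 1 ∨ Cfsg.splitClassCount (Cfsg.inndiagPOmegaMinus m F a b) (Cfsg.Inn (Cfsg.POmega F (Cfsg.quadFormMinus m F a b))) γ = 2) ∧ (¬ (Even m ∧ Fintype.card F % 4 = 1) → Cfsg.splitClassCount (Cfsg.inndiagPOmegaMinus m F a b) (Cfsg.Inn (Cfsg.POmega F (Cfsg.quadFormMinus m F a b))) γ = 2) := by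
  have h2 : (2 : F) ≠ 0 := ClUtil.odd_card_iff_two_ne_zero.1 hodd
  have h := hypMinus (m := m) h2 hab hm
  obtain ⟨ε, hε⟩ := h.exists_nonsquare
  have hε0 : ε ≠ 0 := by
    rintro rfl
    exact hε ⟨0, by simp⟩
  obtain ⟨s, t, hst, v, D⟩ := exists_dat_minus (c := Units.mk0 ε hε0) h hab hε
  obtain ⟨hγ3, hγ4, _⟩ := hγ
  have hγγ : γ * γ = 1 := by
    have h5 := pow_orderOf_eq_one γ
    rwa [hγ2, pow_two] at h5
  obtain ⟨g, hγg⟩ := exists_dg h2 hm hab γ hγγ
  have e1 := inndiag_minus_eq h hab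
  have he : h.eps g = -1 := by
    refine (Int.units_eq_one_or _).resolve_left fun he => hγ4 ?_
    rw [e1]
    exact ⟨g, he, hγg.symm⟩
  have hgg : dg (Q := quadMinus m F a b) g * dg (Q := quadMinus m F a b) g = 1 := by
    rw [hγg] at hγγ; exact hγγ
  by_cases hA : CaseA (quadMinus m F a b)
  · have h3 := h.split_A (by omega) hA D.sig D.eps g hgg he
    rw [← e1, ← hγg] at h3
    exact ⟨Or.inr h3, fun _ => h3⟩
  · have h3 := h.split_B hA D.sig D.eps γ
    rw [← e1] at h3
    refine ⟨h3, fun h4 => ?_⟩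
    rcases Nat.even_or_odd m with he' | ho
    · exfalso
      apply hA
      rw [caseA_minus_iff h2 hab]
      refine ⟨he', ?_⟩
      obtain ⟨r, hr⟩ := hodd
      have : ¬ (Fintype.card F % 4 = 1) := fun h5 => h4 ⟨he', h5⟩
      omega
    · have hk : Even (m + 1) := Odd.add_one ho
      have h5 := h.split_B_even hk hA D.sig D.eps g hgg he
      rw [← e1, ← hγg] at h5
      exact h5

end Cfsg.Agent.S2719
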