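import Cfsg.Statements.S2721
import Cfsg.Agent.Lib.POmSS
-- import your own Cfsg.Agent.* helpers here

set_option autoImplicit false
open Cfsg

namespace Cfsg.Agent.S2721

set_option maxHeartbeats 2000000 in
open Cfsg.Agent.Lib Cfsg.Agent.Lib.POmAut Cfsg.Agent.Lib.Quad in
/-- Let T = PΩ⁻_{2m+2}(F) (m ≥ 3, F finite of odd characteristic p), G = Inndiag(T), and let x be an automorphism of T induced by a similarity of the form (an element of the image G̃ of the conformal orthogonal group) of odd prime order r ≠ p. Then the T-class, the PSO-class and the G-class of x coincide (conjugacy under inner automorphisms, under the image of the special orthogonal group, and under G), and the PO-class of x coincides with its G̃-class. (In characteristic 2 the first equality fails: there the special orthogonal group is the full orthogonal group and some such classes split.) -/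
theorem result {F : Type*} [Field F] [Fintype F] {p : ℕ} [Fact p.Prime] [CharP F p] (hp : p ≠ 2) {m : ℕ} (hm : 3 ≤ m) (a b : F) (hab : (∀ z₁ z₂ : F, z₁ ^ 2 + a * z₁ * z₂ + b * z₂ ^ 2 = 0 → z₁ = 0 ∧ z₂ = 0)) (x : MulAut (Cfsg.POmega F (Cfsg.quadFormMinus m F a b))) (hx : x ∈ Cfsg.pgoAut F (Cfsg.quadFormMinus m F a b)) {r : ℕ} (hr : r.Prime) (hro : Odd r) (hrp : r ≠ p) (hxr : orderOf x = r) :
    (∀ y : MulAut (Cfsg.POmega F (Cfsg.quadFormMinus m F a b)), (Cfsg.IsConjUnder (Cfsg.Inn (Cfsg.POmega F (Cfsg.quadFormMinus m F a b))) x y ↔ Cfsg.IsConjUnder (Cfsg.inndiagPOmegaMinus m F a b) x y) ∧ (Cfsg.IsConjUnder (Cfsg.psoAut F (Cfsg.quadFormMinus m F a b)) x y ↔ Cfsg.IsConjUnder (Cfsg.inndiagPOmegaMinus m F a b) x y)) ∧ (∀ y : MulAut (Cfsg.POmega F (Cfsg.quadFormMinus m F a b)), Cfsg.IsConjUnder (Cfsg.poAut F (Cfsg.quadFormMinus m F a b)) x y ↔ Cfsg.IsConjUnder (Cfsg.pgoAut F (Cfsg.quadFormMinus m F a b)) x y) := by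
  have h2 : (2 : F) ≠ 0 := by
    intro h0
    have h1 : ((2 : ℕ) : F) = 0 := by exact_mod_cast h0
    have h3 := (CharP.cast_eq_zero_iff F p 2).1 h1
    exact hp ((Nat.prime_dvd_prime_iff_eq Fact.out Nat.prime_two).1 h3)
  have hrp' : ¬ p ∣ r := fun h0 => hrp ((Nat.prime_dvd_prime_iff_eq Fact.out hr).1 h0).symm
  have hxr' : x ^ r = 1 := by
    have h5 := pow_orderOf_eq_one x
    rwa [hxr] at h5
  have h := hypMinus (m := m) h2 hab hm
  obtain ⟨ε, hε⟩ := h.exists_nonsquare
  have hε0 : ε ≠ 0 := by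
    rintro rfl
    exact hε ⟨0, by simp⟩
  obtain ⟨s, t, hst, v, D⟩ := exists_dat_minus (c := Units.mk0 ε hε0) h hab hε
  have e1 := inndiag_minus_eq h hab
  have key := h.classes (p := p) hx hro hrp' hxr' D.sig
  rw [← e1] at key
  exact key

end Cfsg.Agent.S2721
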