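import Cfsg.Statements.S2723
import Cfsg.Agent.Lib.POmPlus
-- import your own Cfsg.Agent.* helpers here

set_option autoImplicit false
open Cfsg

namespace Cfsg.Agent.S2723

open Cfsg.Agent.Lib Cfsg.Agent.Lib.POmAut Cfsg.Agent.Lib.Quad in
/-- Let T = PΩ⁺_{2m}(F) with m ≥ 4 and |F| = q odd. The image of the special orthogonal group in Aut(T) contains the inner automorphism group T with index 1 (they coincide) when m is odd and q ≡ 3 (mod 4), and with index 2 otherwise (the index is 2 exactly when the discriminant of the form is a square). -/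
theorem result {F : Type*} [Field F] [Fintype F] (hodd : Odd (Fintype.card F)) {m : ℕ} (hm : 4 ≤ m) :
    ((Odd m ∧ Fintype.card F % 4 = 3) → (Cfsg.Inn (Cfsg.POmega F (Cfsg.quadFormPlus m F))).relIndex (Cfsg.psoAut F (Cfsg.quadFormPlus m F)) = 1) ∧ (¬ (Odd m ∧ Fintype.card F % 4 = 3) → (Cfsg.Inn (Cfsg.POmega F (Cfsg.quadFormPlus m F))).relIndex (Cfsg.psoAut F (Cfsg.quadFormPlus m F)) = 2) := by
  have h2 : (2 : F) ≠ 0 := ClUtil.odd_card_iff_two_ne_zero.1 hodd
  have h := hypPlus (m := m) h2 hm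
  obtain ⟨c, v, hc, D⟩ := exists_dat_plus h
  constructor
  · intro h3
    have h4 := Dat.so_inn_B h (fun hA => (caseA_plus_iff h2).1 hA h3)
    rw [coe_quadPlus] at h4
    exact h4
  · intro h3
    have h4 := D.so_inn_A ((caseA_plus_iff h2).2 h3)
    rw [coe_quadPlus] at h4
    exact h4

end Cfsg.Agent.S2723
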