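import Cfsg.Statements.S2724
import Cfsg.Agent.Lib.POmPlus
-- import your own Cfsg.Agent.* helpers here

set_option autoImplicit false
open Cfsg

namespace Cfsg.Agent.S2724

open Cfsg.Agent.Lib Cfsg.Agent.Lib.POmAut Cfsg.Agent.Lib.Quad in
/-- Let T = PΩ⁺_{2m}(F) with m ≥ 4 and |F| = q odd. The image G̃ of the conformal orthogonal group in Aut(T), taken modulo the inner automorphism group T, is elementary abelian of order 4 when m is odd and q ≡ 3 (mod 4), and dihedral of order 8 otherwise. -/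
theorem result {F : Type*} [Field F] [Fintype F] (hodd : Odd (Fintype.card F)) {m : ℕ} (hm : 4 ≤ m) :
    ((Odd m ∧ Fintype.card F % 4 = 3) → (∃ φ : ↥(Cfsg.pgoAut F (Cfsg.quadFormPlus m F)) →* Multiplicative (ZMod 2 × ZMod 2), Function.Surjective φ ∧ φ.ker = (Cfsg.Inn (Cfsg.POmega F (Cfsg.quadFormPlus m F))).subgroupOf (Cfsg.pgoAut F (Cfsg.quadFormPlus m F)))) ∧ (¬ (Odd m ∧ Fintype.card F % 4 = 3) → (∃ φ : ↥(Cfsg.pgoAut F (Cfsg.quadFormPlus m F)) →* DihedralGroup 4, Function.Surjective φ ∧ φ.ker = (Cfsg.Inn (Cfsg.POmega F (Cfsg.quadFormPlus m F))).subgroupOf (Cfsg.pgoAut F (Cfsg.quadFormPlus m F)))) := by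
  have h2 : (2 : F) ≠ 0 := ClUtil.odd_card_iff_two_ne_zero.1 hodd
  have h := hypPlus (m := m) h2 hm
  obtain ⟨c, v, hc, D⟩ := exists_dat_plus h
  constructor
  · intro h3
    exact D.pgo_inn_B (fun hA => (caseA_plus_iff h2).1 hA h3)
  · intro h3
    exact D.pgo_inn_A ((caseA_plus_iff h2).2 h3)

end Cfsg.Agent.S2724
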