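import Cfsg.Statements.S2725
import Cfsg.Agent.Lib.POmPlus
-- import your own Cfsg.Agent.* helpers here

set_option autoImplicit false
open Cfsg

namespace Cfsg.Agent.S2725

open Cfsg.Agent.Lib Cfsg.Agent.Lib.POmAut Cfsg.Agent.Lib.Quad in
/-- Let T = PΩ⁺_{2m}(F) with m ≥ 4 and |F| = q odd. The inner-diagonal group G = Inndiag(T) (image of the class-preserving similarities) taken modulo the inner automorphism group T is cyclic of order 2 when m is odd and q ≡ 3 (mod 4), cyclic of order 4 when m is odd and q ≡ 1 (mod 4), and elementary abelian of order 4 when m is even. -/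
theorem result {F : Type*} [Field F] [Fintype F] (hodd : Odd (Fintype.card F)) {m : ℕ} (hm : 4 ≤ m) :
    ((Odd m ∧ Fintype.card F % 4 = 3) → (∃ φ : ↥(Cfsg.inndiagPOmegaPlus m F) →* Multiplicative (ZMod 2), Function.Surjective φ ∧ φ.ker = (Cfsg.Inn (Cfsg.POmega F (Cfsg.quadFormPlus m F))).subgroupOf (Cfsg.inndiagPOmegaPlus m F))) ∧ ((Odd m ∧ Fintype.card F % 4 = 1) → (∃ φ : ↥(Cfsg.inndiagPOmegaPlus m F) →* Multiplicative (ZMod 4), Function.Surjective φ ∧ φ.ker = (Cfsg.Inn (Cfsg.POmega F (Cfsg.quadFormPlus m F))).subgroupOf (Cfsg.inndiagPOmegaPlus m F))) ∧ (Even m → (∃ φ : ↥(Cfsg.inndiagPOmegaPlus m F) →* Multiplicative (ZMod 2 × ZMod 2), Function.Surjective φ ∧ φ.ker = (Cfsg.Inn (Cfsg.POmega F (Cfsg.quadFormPlus m F))).subgroupOf (Cfsg.inndiagPOmegaPlus m F))) := by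
  have h2 : (2 : F) ≠ 0 := ClUtil.odd_card_iff_two_ne_zero.1 hodd
  have h := hypPlus (m := m) h2 hm
  obtain ⟨c, v, hc, D⟩ := exists_dat_plus h
  have e1 := inndiag_plus_eq h
  refine ⟨fun h3 => ?_, fun h3 => ?_, fun h3 => ?_⟩
  · have h5 := desc_of _ (D.twoB (fun hA => (caseA_plus_iff h2).1 hA h3))
    rw [← e1] at h5
    exact h5
  · have hA : CaseA (quadPlus m F) := (caseA_plus_iff h2).2 (fun h4 => by omega)
    have h5 := desc_of _ (D.cyc4 hA (dlG_odd h hA hc h3.1))
    rw [← e1] at h5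
    exact h5
  · have hA : CaseA (quadPlus m F) := (caseA_plus_iff h2).2 (fun h4 => by
      exact Nat.not_even_iff_odd.2 h4.1 h3)
    have h5 := desc_of _ (D.klein hA (dlG_even h c h3))
    rw [← e1] at h5
    exact h5

end Cfsg.Agent.S2725
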