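import Cfsg.Statements.S2726
import Cfsg.Agent.Lib.POmMinus
-- import your own Cfsg.Agent.* helpers here

set_option autoImplicit false
open Cfsg

namespace Cfsg.Agent.S2726

open Cfsg.Agent.Lib Cfsg.Agent.Lib.POmAut Cfsg.Agent.Lib.Quad in
/-- Let T = PΩ⁻_{2m+2}(F) with m ≥ 3 and |F| = q odd (form with anisotropic binary part). Inside Aut(T), the image G̃ of the conformal orthogonal group of the form modulo the image of the special orthogonal group is elementary abelian of order 4. -/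
theorem result {F : Type*} [Field F] [Fintype F] (hodd : Odd (Fintype.card F)) {m : ℕ} (hm : 3 ≤ m) (a b : F) (hab : (∀ z₁ z₂ : F, z₁ ^ 2 + a * z₁ * z₂ + b * z₂ ^ 2 = 0 → z₁ = 0 ∧ z₂ = 0)) :
    (∃ φ : ↥(Cfsg.pgoAut F (Cfsg.quadFormMinus m F a b)) →* Multiplicative (ZMod 2 × ZMod 2), Function.Surjective φ ∧ φ.ker = (Cfsg.psoAut F (Cfsg.quadFormMinus m F a b)).subgroupOf (Cfsg.pgoAut F (Cfsg.quadFormMinus m F a b))) := by
  have h2 : (2 : F) ≠ 0 := ClUtil.odd_card_iff_two_ne_zero.1 hodd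
  have h := hypMinus (m := m) h2 hab hm
  obtain ⟨ε, hε⟩ := h.exists_nonsquare
  have hε0 : ε ≠ 0 := by rintro rfl; exact hε ⟨0, by simp⟩
  obtain ⟨s, t, hst, v, D⟩ := exists_dat_minus h hab (c := Units.mk0 ε hε0) hε
  have h4 := D.pgo_pso
  rw [coe_quadMinus] at h4
  exact h4

end Cfsg.Agent.S2726
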