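import Cfsg.Statements.S2729
import Cfsg.Agent.Lib.POmMinus
-- import your own Cfsg.Agent.* helpers here

set_option autoImplicit false
open Cfsg

namespace Cfsg.Agent.S2729

set_option maxHeartbeats 2000000 in
open Cfsg.Agent.Lib Cfsg.Agent.Lib.POmAut Cfsg.Agent.Lib.Quad in
/-- Let T = PΩ⁻_{2m+2}(F) with m ≥ 3 and |F| = q odd (form with anisotropic binary part). The inner-diagonal group G = Inndiag(T) (image of the class-preserving similarities) taken modulo the inner automorphism group T is cyclic of order 4 when m is even and q ≡ 3 (mod 4), and of order 2 otherwise. -/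
theorem result {F : Type*} [Field F] [Fintype F] (hodd : Odd (Fintype.card F)) {m : ℕ} (hm : 3 ≤ m) (a b : F) (hab : (∀ z₁ z₂ : F, z₁ ^ 2 + a * z₁ * z₂ + b * z₂ ^ 2 = 0 → z₁ = 0 ∧ z₂ = 0)) :
    ((Even m ∧ Fintype.card F % 4 = 3) → (∃ φ : ↥(Cfsg.inndiagPOmegaMinus m F a b) →* Multiplicative (ZMod 4), Function.Surjective φ ∧ φ.ker = (Cfsg.Inn (Cfsg.POmega F (Cfsg.quadFormMinus m F a b))).subgroupOf (Cfsg.inndiagPOmegaMinus m F a b))) ∧ (¬ (Even m ∧ Fintype.card F % 4 = 3) → (∃ φ : ↥(Cfsg.inndiagPOmegaMinus m F a b) →* Multiplicative (ZMod 2), Function.Surjective φ ∧ φ.ker = (Cfsg.Inn (Cfsg.POmega F (Cfsg.quadFormMinus m F a b))).subgroupOf (Cfsg.inndiagPOmegaMinus m F a b))) := by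
  have h2 : (2 : F) ≠ 0 := ClUtil.odd_card_iff_two_ne_zero.1 hodd
  have h := hypMinus (m := m) h2 hab hm
  obtain ⟨ε, hε⟩ := h.exists_nonsquare
  have hε0 : ε ≠ 0 := by rintro rfl; exact hε ⟨0, by simp⟩
  obtain ⟨s, t, hst, v, D⟩ := exists_dat_minus h hab (c := Units.mk0 ε hε0) hε
  have e1 := inndiag_minus_eq h hab
  constructor
  · intro h3
    have hns : ¬ IsSquare (-1 : F) := by
      rw [FiniteField.isSquare_neg_one_iff]
      simpa using h3.2
    have hns' : ¬ IsSquare (((-1 : Fˣ) : F)) := by simpa using hns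
    obtain ⟨s', t', hst', v', D'⟩ := exists_dat_minus h hab (c := -1) hns'
    have hA := (caseA_minus_iff (m := m) h2 hab).2 h3
    have h5 := desc_of _ (D'.cyc4 hA (d_sq_minus h hA hab (by simp) hns D'.qv0))
    rw [← e1] at h5
    exact h5
  · intro h3
    have h5 := desc_of _ (D.twoB (fun hA => h3 ((caseA_minus_iff h2 hab).1 hA)))
    rw [← e1] at h5
    exact h5

end Cfsg.Agent.S2729
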