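import Cfsg.Statements.S2738

set_option autoImplicit false
open Cfsg

namespace Cfsg.Agent.S2738

theorem exists_omega (F : Type*) [Field F] [Fintype F] (hF : Fintype.card F = 4) :
    ∃ w : F, w ≠ 1 ∧ w ^ 3 = 1 := by
  classical
  have h : ∃ w : F, w ∉ ({0, 1} : Finset F) := by
    by_contra hc
    push Not at hc
    have h1 : (Finset.univ : Finset F) ⊆ {0, 1} := fun x _ => hc x
    have h2 := Finset.card_le_card h1
    have h3 : ({0, 1} : Finset F).card ≤ 2 := Finset.card_le_two
    rw [Finset.card_univ, hF] at h2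
    omega
  obtain ⟨w, hw⟩ := h
  simp only [Finset.mem_insert, Finset.mem_singleton, not_or] at hw
  refine ⟨w, hw.2, ?_⟩
  have := FiniteField.pow_card_sub_one_eq_one w hw.1
  rwa [hF] at this

/-- The special linear group SL(3, 4) has centre of order 3 and does not split over it: no subgroup is a complement to the centre (so SL(3, 4) is a non-split central extension of PSL(3, 4) by a group of order 3). -/
theorem result (F : Type*) [Field F] [Fintype F] (hF : Fintype.card F = 4) : Nat.card ↥(Subgroup.center (Matrix.SpecialLinearGroup (Fin 3) F)) = 3 ∧ ¬ ∃ K : Subgroup (Matrix.SpecialLinearGroup (Fin 3) F), Subgroup.IsComplement' (Subgroup.center (Matrix.SpecialLinearGroup (Fin 3) F)) K := by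
  classical
  constructor
  · rw [Nat.card_congr (Matrix.SpecialLinearGroup.center_equiv_rootsOfUnity' (R := F) (0 : Fin 3)).toEquiv]
    have hu : rootsOfUnity (Fintype.card (Fin 3)) F = ⊤ := by
      rw [eq_top_iff]
      intro u _
      rw [mem_rootsOfUnity, Fintype.card_fin]
      apply Units.ext
      have := FiniteField.pow_card_sub_one_eq_one (u : F) u.ne_zero
      rw [hF] at this
      simpa using this
    rw [hu, Subgroup.card_top, Nat.card_units, Nat.card_eq_fintype_card, hF]
  · rintro ⟨K, hK⟩
    obtain ⟨w, hw1, hw3⟩ := exists_omega F hF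
    let a : Matrix.SpecialLinearGroup (Fin 3) F := ⟨!![1, 0, 0; 0, w, 0; 0, 0, w ^ 2], by
      simp [Matrix.det_fin_three]
      linear_combination hw3⟩
    let b : Matrix.SpecialLinearGroup (Fin 3) F := ⟨!![0, 0, 1; 1, 0, 0; 0, 1, 0], by
      simp [Matrix.det_fin_three]⟩
    let z : Matrix.SpecialLinearGroup (Fin 3) F := ⟨!![w, 0, 0; 0, w, 0; 0, 0, w], by
      simp [Matrix.det_fin_three]
      linear_combination hw3⟩
    have hz : z ∈ Subgroup.center (Matrix.SpecialLinearGroup (Fin 3) F) := by
      rw [Matrix.SpecialLinearGroup.mem_center_iff]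
      refine ⟨w, ?_, ?_⟩
      · rw [Fintype.card_fin]; exact hw3
      · ext i j
        fin_cases i <;> fin_cases j <;> simp [z]
    have hab : a * b = z * (b * a) := by
      ext i j
      rw [Matrix.SpecialLinearGroup.coe_mul, Matrix.SpecialLinearGroup.coe_mul,
        Matrix.SpecialLinearGroup.coe_mul]
      fin_cases i <;> fin_cases j <;>
        simp [a, b, z, Matrix.mul_apply, Fin.sum_univ_three]
      · linear_combination -hw3
      · ring
    obtain ⟨⟨z1, k1⟩, h1 : (z1 : Matrix.SpecialLinearGroup (Fin 3) F) * k1 = a⟩ := hK.2 a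
    obtain ⟨⟨z2, k2⟩, h2 : (z2 : Matrix.SpecialLinearGroup (Fin 3) F) * k2 = b⟩ := hK.2 b
    have c1 := Subgroup.mem_center_iff.1 z1.2
    have c2 := Subgroup.mem_center_iff.1 z2.2
    have e1 : (k1 : Matrix.SpecialLinearGroup (Fin 3) F) * k2 = z * (k2 * k1) := by
      rw [← h1, ← h2] at hab
      have l : (z1 : Matrix.SpecialLinearGroup (Fin 3) F) * k1 * (z2 * k2) =
          (z1 * z2) * (k1 * k2) := by
        rw [mul_assoc, ← mul_assoc (k1 : Matrix.SpecialLinearGroup (Fin 3) F), c2 k1]
        simp [mul_assoc]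
      have r : z * ((z2 : Matrix.SpecialLinearGroup (Fin 3) F) * k2 * (z1 * k1)) =
          (z1 * z2) * (z * (k2 * k1)) := by
        have cz := Subgroup.mem_center_iff.1 hz
        calc z * ((z2 : Matrix.SpecialLinearGroup (Fin 3) F) * k2 * (z1 * k1))
            = z * (z2 * (k2 * z1) * k1) := by simp [mul_assoc]
          _ = z * (z2 * (z1 * k2) * k1) := by rw [c1 k2]
          _ = z * (z2 * z1) * (k2 * k1) := by simp [mul_assoc]
          _ = z * (z1 * z2) * (k2 * k1) := by rw [c1 z2]
          _ = (z1 * z2) * z * (k2 * k1) := by rw [cz (z1 * z2)]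
          _ = (z1 * z2) * (z * (k2 * k1)) := by simp [mul_assoc]
      rw [l, r] at hab
      exact mul_left_cancel hab
    have hzK : z ∈ K := by
      have : z = k1 * k2 * (k2 * k1 : Matrix.SpecialLinearGroup (Fin 3) F)⁻¹ := by
        rw [e1]; group
      rw [this]
      exact K.mul_mem (K.mul_mem k1.2 k2.2) (K.inv_mem (K.mul_mem k2.2 k1.2))
    have hbot := hK.disjoint.le_bot (Subgroup.mem_inf.2 ⟨hz, hzK⟩)
    rw [Subgroup.mem_bot] at hbot
    apply hw1
    have := congrArg (fun g : Matrix.SpecialLinearGroup (Fin 3) F =>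
      (g : Matrix (Fin 3) (Fin 3) F) 0 0) hbot
    simpa [z] using this

end Cfsg.Agent.S2738
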