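import Cfsg.Statements.S2739

set_option autoImplicit false
open scoped Pointwise
open Cfsg

namespace Cfsg.Agent.S2739

open Matrix

variable {F : Type*} [Field F]

/-- second coefficient of the characteristic polynomial -/
def sm (g : Matrix (Fin 3) (Fin 3) F) : F :=
  g 0 0 * g 1 1 - g 0 1 * g 1 0 + (g 0 0 * g 2 2 - g 0 2 * g 2 0) + (g 1 1 * g 2 2 - g 1 2 * g 2 1)

def tm (g : Matrix (Fin 3) (Fin 3) F) : F := g 0 0 + g 1 1 + g 2 2

theorem det_sub (g : Matrix (Fin 3) (Fin 3) F) (r : F) :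
    (g - r • (1 : Matrix (Fin 3) (Fin 3) F)).det = -(r ^ 3 - tm g * r ^ 2 + sm g * r - g.det) := by
  simp only [Matrix.det_fin_three, tm, sm, Matrix.sub_apply, Matrix.smul_apply, Matrix.one_apply,
    smul_eq_mul]
  simp
  ring

theorem cayley (g : Matrix (Fin 3) (Fin 3) F) :
    g * g * g = tm g • (g * g) - sm g • g + g.det • (1 : Matrix (Fin 3) (Fin 3) F) := by
  ext i j
  simp only [Matrix.det_fin_three, tm, sm, Matrix.sub_apply, Matrix.smul_apply, Matrix.one_apply,
    smul_eq_mul, Matrix.add_apply, Matrix.mul_apply, Fin.sum_univ_three]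
  fin_cases i <;> fin_cases j <;> simp <;> ring

theorem exists_omega (F : Type*) [Field F] [Fintype F] (hF : Fintype.card F = 4) :
    ∃ w : F, w ≠ 1 ∧ w ^ 3 = 1 := by
  classical
  have h : ∃ w : F, w ∉ ({0, 1} : Finset F) := by
    by_contra hc
    push Not at hc
    have h1 : (Finset.univ : Finset F) ⊆ {0, 1} := fun x _ => hc x
    have h2 := Finset.card_le_card h1
    have h3 : ({0, 1} : Finset F).card ≤ 2 := Finset.card_le_two
    rw [Finset.card_univ, hF] at h2
    omega
  obtain ⟨w, hw⟩ := h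
  simp only [Finset.mem_insert, Finset.mem_singleton, not_or] at hw
  refine ⟨w, hw.2, ?_⟩
  have := FiniteField.pow_card_sub_one_eq_one w hw.1
  rwa [hF] at this

theorem two_eq_zero (F : Type*) [Field F] [Fintype F] (hF : Fintype.card F = 4) : (2 : F) = 0 := by
  have h : ((4 : ℕ) : F) = 0 := by
    rw [← hF]; exact FiniteField.cast_card_eq_zero F
  have h2 : (2 : F) * 2 = 0 := by
    have : (2 : F) * 2 = ((4 : ℕ) : F) := by norm_num
    rw [this, h]
  rcases mul_eq_zero.1 h2 with h | h <;> exact h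

theorem cube_of_ne [Fintype F] (hF : Fintype.card F = 4) {x : F} (hx : x ≠ 0) : x ^ 3 = 1 := by
  have := FiniteField.pow_card_sub_one_eq_one x hx
  rwa [hF] at this

/-- A non-scalar matrix of determinant one whose cube is scalar has cube one. -/
theorem cube_eq_one [Fintype F] (hF : Fintype.card F = 4) (g : Matrix (Fin 3) (Fin 3) F)
    (hdet : g.det = 1) (hns : ∀ r : F, g ≠ r • (1 : Matrix (Fin 3) (Fin 3) F)) (c : F)
    (hc : g * g * g = c • (1 : Matrix (Fin 3) (Fin 3) F)) : c = 1 := by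
  by_contra hc1
  have h2 := two_eq_zero F hF
  have hch := cayley g
  rw [hc, hdet] at hch
  set t := tm g
  set s := sm g
  have hc0 : c ≠ 0 := by
    rintro rfl
    have : (g * g * g).det = 0 := by
      rw [hc, zero_smul, Matrix.det_zero]
    rw [Matrix.det_mul, Matrix.det_mul, hdet] at this
    simp at this
  by_cases ht : t = 0
  · rw [ht, zero_smul, zero_sub] at hch
    by_cases hs : s = 0
    · rw [hs, zero_smul, neg_zero, zero_add] at hch
      have := congrFun (congrFun hch 0) 0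
      simp at this
      exact hc1 this
    · apply hns ((1 - c) / s)
      have : s • g = (1 - c) • (1 : Matrix (Fin 3) (Fin 3) F) := by
        rw [sub_smul, hch]; abel
      rw [div_eq_inv_mul, mul_smul, ← this, smul_smul, inv_mul_cancel₀ hs, one_smul]
  · -- g^2 = a g + b
    obtain ⟨a, b, hab⟩ : ∃ a b : F, g * g = a • g + b • (1 : Matrix (Fin 3) (Fin 3) F) := by
      refine ⟨s / t, (c - 1) / t, ?_⟩
      have : t • (g * g) = s • g + (c - 1) • (1 : Matrix (Fin 3) (Fin 3) F) := by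
        rw [sub_smul, hch]; abel
      rw [div_eq_inv_mul, div_eq_inv_mul, mul_smul, mul_smul, ← smul_add, ← this, smul_smul,
        inv_mul_cancel₀ ht, one_smul]
    have h3 : g * g * g = (a ^ 2 + b) • g + (a * b) • (1 : Matrix (Fin 3) (Fin 3) F) := by
      have : g * g * g = a • (g * g) + b • g := by
        conv_lhs => rw [hab]
        rw [Matrix.add_mul, Matrix.smul_mul, Matrix.smul_mul, Matrix.one_mul]
      rw [this, hab, smul_add, smul_smul, smul_smul, add_smul, pow_two]
      abel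
    have h4 : a ^ 2 + b = 0 := by
      by_contra hne
      apply hns ((c - a * b) / (a ^ 2 + b))
      have : (a ^ 2 + b) • g = (c - a * b) • (1 : Matrix (Fin 3) (Fin 3) F) := by
        rw [sub_smul, ← hc, h3]; abel
      rw [div_eq_inv_mul, mul_smul, ← this, smul_smul, inv_mul_cancel₀ hne, one_smul]
    rw [h4, zero_smul, zero_add, hc] at h3
    have h5 := congrFun (congrFun h3 0) 0
    simp at h5
    have ha : a ≠ 0 := by
      rintro rfl
      simp at h5
      exact hc0 h5
    have ha3 := cube_of_ne hF ha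
    apply hc1
    linear_combination h5 + a * h4 - ha3 - h2

/-- Diagonalization. -/
theorem exists_conj_diag [Fintype F] (hF : Fintype.card F = 4) {w : F} (hw1 : w ≠ 1)
    (hw3 : w ^ 3 = 1) (g : Matrix (Fin 3) (Fin 3) F)
    (hdet : g.det = 1) (hns : ∀ r : F, g ≠ r • (1 : Matrix (Fin 3) (Fin 3) F))
    (hc : g * g * g = 1) :
    ∃ P : Matrix (Fin 3) (Fin 3) F, P.det = 1 ∧
      g * P = P * Matrix.diagonal ![1, w, w ^ 2] := by
  have h2 := two_eq_zero F hF
  have hw : w ^ 2 + w + 1 = 0 := by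
    have : (w - 1) * (w ^ 2 + w + 1) = 0 := by linear_combination hw3
    rcases mul_eq_zero.1 this with h | h
    · exact absurd (sub_eq_zero.1 h) hw1
    · exact h
  have hw0 : w ≠ 0 := by
    rintro rfl
    simp at hw
  -- roots
  have hroot : ∀ r : F, (g - r • (1 : Matrix (Fin 3) (Fin 3) F)).det =
      -(r ^ 3 - tm g * r ^ 2 + sm g * r - 1) := by
    intro r; rw [det_sub, hdet]
  have hprod : (g - (1 : F) • (1 : Matrix (Fin 3) (Fin 3) F)) * (g - w • (1 : Matrix (Fin 3) (Fin 3) F)) *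
      (g - (w ^ 2) • (1 : Matrix (Fin 3) (Fin 3) F)) = 0 := by
    have e : (g - (1 : F) • (1 : Matrix (Fin 3) (Fin 3) F)) * (g - w • (1 : Matrix (Fin 3) (Fin 3) F)) *
      (g - (w ^ 2) • (1 : Matrix (Fin 3) (Fin 3) F)) =
        g * g * g - (w ^ 2 + w + 1) • (g * g) + (w ^ 2 + w + 1) • (w • g) +
          (-(w ^ 3)) • (1 : Matrix (Fin 3) (Fin 3) F) := by
      simp only [Matrix.sub_mul, Matrix.mul_sub, Matrix.smul_mul, Matrix.mul_smul, Matrix.one_mul,
        Matrix.mul_one, one_smul, add_smul, smul_sub, smul_smul, neg_smul, pow_succ,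
        pow_zero, one_mul, add_mul]
      abel
    rw [e, hc, hw, hw3]
    simp
  -- the eigenvalue candidates
  have key : ∀ a b c : F, (∀ M : Matrix (Fin 3) (Fin 3) F,
      M = (g - a • (1 : Matrix (Fin 3) (Fin 3) F)) * (g - b • (1 : Matrix (Fin 3) (Fin 3) F)) *
      (g - c • (1 : Matrix (Fin 3) (Fin 3) F)) → M = 0) →
      (g - a • (1 : Matrix (Fin 3) (Fin 3) F)).det = 0 ∨
      (g - b • (1 : Matrix (Fin 3) (Fin 3) F)).det = 0 := by
    intro a b c h
    by_contra hcon
    push Not at hcon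
    have h1 := h _ rfl
    have i1 : IsUnit (g - a • (1 : Matrix (Fin 3) (Fin 3) F)).det := isUnit_iff_ne_zero.2 hcon.1
    have i2 : IsUnit (g - b • (1 : Matrix (Fin 3) (Fin 3) F)).det := isUnit_iff_ne_zero.2 hcon.2
    have h3 : g - c • (1 : Matrix (Fin 3) (Fin 3) F) = 0 := by
      have := congrArg (fun M => (g - b • (1 : Matrix (Fin 3) (Fin 3) F))⁻¹ *
        ((g - a • (1 : Matrix (Fin 3) (Fin 3) F))⁻¹ * M)) h1
      simp only [Matrix.mul_zero] at this
      rw [Matrix.mul_assoc, Matrix.nonsing_inv_mul_cancel_left _ _ i1,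
        Matrix.nonsing_inv_mul_cancel_left _ _ i2] at this
      exact this
    exact hns c (sub_eq_zero.1 h3)
  have hcomm : ∀ a b : F, (g - a • (1 : Matrix (Fin 3) (Fin 3) F)) * (g - b • (1 : Matrix (Fin 3) (Fin 3) F)) =
      (g - b • (1 : Matrix (Fin 3) (Fin 3) F)) * (g - a • (1 : Matrix (Fin 3) (Fin 3) F)) := by
    intro a b
    simp only [Matrix.sub_mul, Matrix.mul_sub, Matrix.smul_mul, Matrix.mul_smul, Matrix.one_mul,
        Matrix.mul_one, smul_sub, smul_smul, mul_comm a b]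
    abel
  have k1 := key 1 w (w ^ 2) (fun M hM => hM.trans hprod)
  have k2 := key 1 (w ^ 2) w (fun M hM => by
    rw [hM, Matrix.mul_assoc, hcomm (w ^ 2) w, ← Matrix.mul_assoc, hprod])
  have k3 := key w (w ^ 2) 1 (fun M hM => by
    rw [hM, Matrix.mul_assoc, hcomm (w ^ 2) 1, ← Matrix.mul_assoc, hcomm w 1, hprod])
  -- hence trace and second coefficient vanish
  have hts : tm g = 0 ∧ sm g = 0 := by
    have aux : ∀ a b : F, a ≠ b → a ≠ 0 → a ^ 3 = 1 → b ≠ 0 → b ^ 3 = 1 →
        (g - a • (1 : Matrix (Fin 3) (Fin 3) F)).det = 0 →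
        (g - b • (1 : Matrix (Fin 3) (Fin 3) F)).det = 0 → tm g = 0 ∧ sm g = 0 := by
      intro a b hab ha0 ha hb0 hb h1 h2
      rw [hroot] at h1 h2
      have e1 : a * (sm g - tm g * a) = 0 := by linear_combination -h1 - ha
      have e2 : b * (sm g - tm g * b) = 0 := by linear_combination -h2 - hb
      have e3 : sm g - tm g * a = 0 := (mul_eq_zero.1 e1).resolve_left ha0
      have e4 : sm g - tm g * b = 0 := (mul_eq_zero.1 e2).resolve_left hb0
      have e5 : tm g * (a - b) = 0 := by linear_combination e4 - e3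
      have e6 : tm g = 0 := (mul_eq_zero.1 e5).resolve_right (sub_ne_zero.2 hab)
      refine ⟨e6, ?_⟩
      rw [e6] at e3
      linear_combination e3
    have w2 : (w ^ 2) ^ 3 = 1 := by rw [← pow_mul, mul_comm, pow_mul, hw3, one_pow]
    have w20 : w ^ 2 ≠ 0 := pow_ne_zero 2 hw0
    have n1 : (1 : F) ≠ w := hw1.symm
    have n2 : (1 : F) ≠ w ^ 2 := by
      intro h
      apply hw1
      have : w ^ 3 = w := by rw [pow_succ, ← h, one_mul]
      rw [← this, hw3]
    have n3 : w ≠ w ^ 2 := by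
      intro h
      apply hw1
      have : w * (w - 1) = 0 := by linear_combination -h
      exact sub_eq_zero.1 ((mul_eq_zero.1 this).resolve_left hw0)
    rcases k1 with a1 | a1
    · rcases k3 with a2 | a2
      · exact aux 1 w n1 one_ne_zero (one_pow 3) hw0 hw3 a1 a2
      · exact aux 1 (w ^ 2) n2 one_ne_zero (one_pow 3) w20 w2 a1 a2
    · rcases k2 with a2 | a2
      · exact aux 1 w n1 one_ne_zero (one_pow 3) hw0 hw3 a2 a1
      · exact aux w (w ^ 2) n3 hw0 hw3 w20 w2 a1 a2
  have hall : ∀ r : F, r ^ 3 = 1 → ∃ v : Fin 3 → F, v ≠ 0 ∧ g *ᵥ v = r • v := by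
    intro r hr
    have hd : (g - r • (1 : Matrix (Fin 3) (Fin 3) F)).det = 0 := by
      rw [hroot, hts.1, hts.2, hr]; ring
    obtain ⟨v, hv, hv2⟩ := Matrix.exists_mulVec_eq_zero_iff.2 hd
    refine ⟨v, hv, ?_⟩
    rw [Matrix.sub_mulVec, Matrix.smul_mulVec, Matrix.one_mulVec, sub_eq_zero] at hv2
    exact hv2
  obtain ⟨v0, hv0, e0⟩ := hall 1 (one_pow 3)
  obtain ⟨v1, hv1, e1⟩ := hall w hw3
  obtain ⟨v2, hv2, e2⟩ := hall (w ^ 2) (by rw [← pow_mul, mul_comm, pow_mul, hw3, one_pow])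
  rw [one_smul] at e0
  let P : Matrix (Fin 3) (Fin 3) F := Matrix.of fun i j => ![v0, v1, v2] j i
  have hP : P.det ≠ 0 := by
    intro hd
    obtain ⟨c, hc0, hcP⟩ := Matrix.exists_mulVec_eq_zero_iff.2 hd
    have q0 : c 0 • v0 + c 1 • v1 + c 2 • v2 = 0 := by
      rw [← hcP]
      ext i
      simp [P, Matrix.mulVec, dotProduct, Fin.sum_univ_three]
      ring
    have q1 : c 0 • v0 + (w * c 1) • v1 + (w ^ 2 * c 2) • v2 = 0 := by
      have := congrArg (fun v => g *ᵥ v) q0
      simp only [Matrix.mulVec_add, Matrix.mulVec_smul, e0, e1, e2, smul_smul, Matrix.mulVec_zero]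
        at this
      rw [← this, mul_comm w, mul_comm (w ^ 2)]
    have q2 : c 0 • v0 + (w ^ 2 * c 1) • v1 + (w * c 2) • v2 = 0 := by
      have := congrArg (fun v => g *ᵥ v) q1
      simp only [Matrix.mulVec_add, Matrix.mulVec_smul, e0, e1, e2, smul_smul, Matrix.mulVec_zero]
        at this
      rw [← this]
      congr 2
      · congr 1; ring
      · linear_combination (-w * c 2) * hw3
    apply hc0
    have z0 : c 0 • v0 = 0 := by
      have : c 0 • v0 = (c 0 • v0 + c 1 • v1 + c 2 • v2) + (c 0 • v0 + (w * c 1) • v1 + (w ^ 2 * c 2) • v2) +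
          (c 0 • v0 + (w ^ 2 * c 1) • v1 + (w * c 2) • v2) := by
        ext i
        simp only [Pi.add_apply, Pi.smul_apply, smul_eq_mul]
        linear_combination (-(c 1 * v1 i) - c 2 * v2 i) * hw - c 0 * v0 i * h2
      rw [this, q0, q1, q2]; simp
    have z1 : c 1 • v1 = 0 := by
      have : c 1 • v1 = (c 0 • v0 + c 1 • v1 + c 2 • v2) + (w ^ 2) • (c 0 • v0 + (w * c 1) • v1 + (w ^ 2 * c 2) • v2) +
          w • (c 0 • v0 + (w ^ 2 * c 1) • v1 + (w * c 2) • v2) := by
        ext i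
        simp only [Pi.add_apply, Pi.smul_apply, smul_eq_mul]
        linear_combination (-(c 0 * v0 i) - c 2 * v2 i) * hw - c 1 * v1 i * h2 - (2 * c 1 * v1 i + w * c 2 * v2 i) * hw3
      rw [this, q0, q1, q2]; simp
    have z2 : c 2 • v2 = 0 := by
      rw [z0, z1, zero_add, zero_add] at q0
      exact q0
    ext i
    fin_cases i
    · exact (smul_eq_zero.1 z0).resolve_right hv0
    · exact (smul_eq_zero.1 z1).resolve_right hv1
    · exact (smul_eq_zero.1 z2).resolve_right hv2
  have hgP : g * P = P * Matrix.diagonal ![1, w, w ^ 2] := by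
    ext i j
    rw [Matrix.mul_diagonal]
    have h0 := congrFun e0 i
    have h1 := congrFun e1 i
    have h2 := congrFun e2 i
    simp only [Matrix.mulVec, dotProduct, Fin.sum_univ_three, Pi.smul_apply, smul_eq_mul] at h0 h1 h2
    fin_cases j
    · simp [P, Matrix.mul_apply, Fin.sum_univ_three, h0]
    · simp [P, Matrix.mul_apply, Fin.sum_univ_three, h1, mul_comm]
    · simp [P, Matrix.mul_apply, Fin.sum_univ_three, h2, mul_comm]
  refine ⟨P * Matrix.diagonal ![(P.det)⁻¹, 1, 1], ?_, ?_⟩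
  · rw [Matrix.det_mul, Matrix.det_diagonal, Fin.prod_univ_three]
    simp [hP]
  · rw [← Matrix.mul_assoc, hgP, Matrix.mul_assoc, Matrix.mul_assoc, Matrix.diagonal_mul_diagonal,
      Matrix.diagonal_mul_diagonal]
    congr 2
    ext i
    exact mul_comm _ _

/-- Every subgroup of order three is conjugate to a standard one. -/
theorem exists_conj_std [Fintype F] (hF : Fintype.card F = 4) {w : F} (hw1 : w ≠ 1)
    (hw3 : w ^ 3 = 1) (D : Matrix.SpecialLinearGroup (Fin 3) F)
    (hD : (D : Matrix (Fin 3) (Fin 3) F) = Matrix.diagonal ![1, w, w ^ 2])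
    (X : Subgroup (Matrix.ProjectiveSpecialLinearGroup (Fin 3) F)) (hX : Nat.card ↥X = 3) :
    ∃ g : Matrix.ProjectiveSpecialLinearGroup (Fin 3) F,
      X = MulAut.conj g • Subgroup.zpowers
        (QuotientGroup.mk D : Matrix.ProjectiveSpecialLinearGroup (Fin 3) F) := by
  have : Fact (Nat.Prime 3) := ⟨Nat.prime_three⟩
  have : Finite X := Nat.finite_of_card_ne_zero (by rw [hX]; norm_num)
  obtain ⟨x, hx⟩ := exists_prime_orderOf_dvd_card' (G := X) 3 (by rw [hX])
  have hx' : orderOf (x : Matrix.ProjectiveSpecialLinearGroup (Fin 3) F) = 3 := by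
    rw [Subgroup.orderOf_coe, hx]
  have hXz : X = Subgroup.zpowers (x : Matrix.ProjectiveSpecialLinearGroup (Fin 3) F) := by
    symm
    apply Subgroup.eq_of_le_of_card_ge
    · rw [Subgroup.zpowers_le]; exact x.2
    · rw [hX, Nat.card_zpowers, hx']
  obtain ⟨g, hg⟩ := QuotientGroup.mk_surjective (x : Matrix.ProjectiveSpecialLinearGroup (Fin 3) F)
  have hg3 : g ^ 3 ∈ Subgroup.center (Matrix.SpecialLinearGroup (Fin 3) F) := by
    have h3 := pow_orderOf_eq_one (x : Matrix.ProjectiveSpecialLinearGroup (Fin 3) F)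
    rw [hx'] at h3
    rw [← QuotientGroup.eq_one_iff, QuotientGroup.mk_pow, hg, h3]
  have hgns : g ∉ Subgroup.center (Matrix.SpecialLinearGroup (Fin 3) F) := by
    intro h
    rw [← QuotientGroup.eq_one_iff, hg] at h
    rw [h, orderOf_one] at hx'
    norm_num at hx'
  have hns : ∀ r : F, (g : Matrix (Fin 3) (Fin 3) F) ≠ r • (1 : Matrix (Fin 3) (Fin 3) F) := by
    intro r hr
    apply hgns
    rw [Matrix.SpecialLinearGroup.mem_center_iff]
    have hdet := g.2
    refine ⟨r, ?_, ?_⟩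
    · have := g.2
      rw [hr, Matrix.det_smul, Matrix.det_one, mul_one] at this
      exact this
    · rw [hr, Matrix.smul_one_eq_diagonal]; rfl
  obtain ⟨c, hc, hc2⟩ := Matrix.SpecialLinearGroup.mem_center_iff.1 hg3
  have hc3 : (g : Matrix (Fin 3) (Fin 3) F) * g * g = c • (1 : Matrix (Fin 3) (Fin 3) F) := by
    have : ((g ^ 3 : Matrix.SpecialLinearGroup (Fin 3) F) : Matrix (Fin 3) (Fin 3) F) =
        (g : Matrix (Fin 3) (Fin 3) F) * g * g := by
      rw [pow_succ, pow_two]; rfl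
    rw [← this, ← hc2, Matrix.smul_one_eq_diagonal]; rfl
  have hc1 := cube_eq_one hF _ g.2 hns c hc3
  rw [hc1, one_smul] at hc3
  obtain ⟨P, hP1, hP2⟩ := exists_conj_diag hF hw1 hw3 _ g.2 hns hc3
  let P' : Matrix.SpecialLinearGroup (Fin 3) F := ⟨P, hP1⟩
  have hconj : g = P' * D * P'⁻¹ := by
    rw [eq_mul_inv_iff_mul_eq]
    apply Subtype.ext
    show (g : Matrix (Fin 3) (Fin 3) F) * P = P * D
    rw [hP2, hD]
  refine ⟨QuotientGroup.mk P', ?_⟩
  rw [hXz, ← hg, hconj]
  ext y
  constructor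
  · rintro ⟨k, rfl⟩
    refine ⟨(QuotientGroup.mk D : Matrix.ProjectiveSpecialLinearGroup (Fin 3) F) ^ k, ⟨k, rfl⟩, ?_⟩
    show QuotientGroup.mk P' * (QuotientGroup.mk D : Matrix.ProjectiveSpecialLinearGroup (Fin 3) F) ^ k * (QuotientGroup.mk P')⁻¹ = _
    rw [← conj_zpow]; rfl
  · rintro ⟨z, ⟨k, rfl⟩, rfl⟩
    refine ⟨k, ?_⟩
    show _ = QuotientGroup.mk P' * (QuotientGroup.mk D : Matrix.ProjectiveSpecialLinearGroup (Fin 3) F) ^ k * (QuotientGroup.mk P')⁻¹
    rw [← conj_zpow]; rfl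

/-- In the projective special linear group PSL(3, 4) all subgroups of order 3 are conjugate. -/
theorem result (F : Type*) [Field F] [Fintype F] (hF : Fintype.card F = 4) (X Y : Subgroup (Matrix.ProjectiveSpecialLinearGroup (Fin 3) F)) (hX : Nat.card ↥X = 3) (hY : Nat.card ↥Y = 3) : ∃ g : Matrix.ProjectiveSpecialLinearGroup (Fin 3) F, MulAut.conj g • X = Y := by
  obtain ⟨w, hw1, hw3⟩ := exists_omega F hF
  let D : Matrix.SpecialLinearGroup (Fin 3) F := ⟨Matrix.diagonal ![1, w, w ^ 2], by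
    rw [Matrix.det_diagonal, Fin.prod_univ_three]
    simp
    linear_combination hw3⟩
  obtain ⟨g, hg⟩ := exists_conj_std hF hw1 hw3 D rfl X hX
  obtain ⟨h, hh⟩ := exists_conj_std hF hw1 hw3 D rfl Y hY
  refine ⟨h * g⁻¹, ?_⟩
  rw [hg, hh, map_mul, mul_smul, map_inv, inv_smul_smul]

end Cfsg.Agent.S2739
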