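import Cfsg.Statements.S2759
import Cfsg.Agent.Lib.Involve
import Cfsg.Agent.Lib.LocTrace
import Cfsg.Agent.S2758
import Cfsg.Agent.Lib.SylowRel

set_option autoImplicit false
open Cfsg

namespace Cfsg.Agent.S2759

open Subgroup

/-- lift a `p`-element -/
theorem lift_pelement {A Q : Type*} [Group A] [Group Q] [Finite A] (f : A →* Q) (hf : Function.Surjective f)
    {p : ℕ} [hp : Fact p.Prime] (q : Q) (hq : ∃ k, orderOf q = p ^ k) : ∃ a, f a = q ∧ ∃ j, orderOf a = p ^ j := by
  obtain ⟨k, hk⟩ := hq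
  obtain ⟨g, rfl⟩ := hf q
  obtain ⟨b, m, hm, hbm⟩ := Nat.exists_eq_pow_mul_and_not_dvd (orderOf_pos g).ne' p hp.out.ne_one
  have hm0 : m ≠ 0 := by rintro rfl; simp at hm
  have hc : IsCoprime (m : ℤ) ((p ^ k : ℕ) : ℤ) := by
    rw [Nat.isCoprime_iff_coprime]
    exact Nat.Coprime.pow_right k ((Nat.Prime.coprime_iff_not_dvd hp.out).2 hm).symm
  obtain ⟨u, v, huv⟩ := hc
  have ho : orderOf (g ^ m) = p ^ b := by
    rw [orderOf_pow_of_dvd hm0 (by rw [hbm]; exact dvd_mul_left _ _), hbm, Nat.mul_div_cancel _ (Nat.pos_of_ne_zero hm0)]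
  refine ⟨(g ^ m) ^ u, ?_, ?_⟩
  · have h1 : f g = f g ^ (u * (m : ℤ) + v * ((p ^ k : ℕ) : ℤ)) := by rw [huv, zpow_one]
    rw [map_zpow, map_pow]
    conv_rhs => rw [h1]
    rw [zpow_add, zpow_mul (f g) v, zpow_natCast _ (p ^ k), ← hk]
    have h2 : (f g ^ v) ^ orderOf (f g) = 1 := by
      rw [← zpow_natCast, ← zpow_mul, mul_comm, zpow_mul, zpow_natCast, pow_orderOf_eq_one, one_zpow]
    rw [h2, mul_one, mul_comm u, zpow_mul, zpow_natCast]
  · have h2 : orderOf ((g ^ m) ^ u) ∣ p ^ b := by
      rw [← ho]; exact orderOf_dvd_of_mem_zpowers (Subgroup.zpow_mem_zpowers _ _)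
    obtain ⟨j, -, hj⟩ := (Nat.dvd_prime_pow hp.out).1 h2
    exact ⟨j, hj⟩

section X

variable {L : Type*} [Group L] (V : Subgroup L) [hVn : V.Normal]

/-- action on the nonidentity elements -/
def act (g : L) : Equiv.Perm {v : V // v ≠ 1} where
  toFun v := ⟨⟨g * v * g⁻¹, hVn.conj_mem _ v.1.2 _⟩, fun h => v.2 (by
    have h1 : g * (v : L) * g⁻¹ = 1 := congrArg Subtype.val h
    apply Subtype.ext
    have h2 : g * ((v : V) : L) = g := by rwa [mul_inv_eq_one] at h1
    simpa using h2)⟩
  invFun v := ⟨⟨g⁻¹ * v * g, by simpa using hVn.conj_mem _ v.1.2 g⁻¹⟩, fun h => v.2 (by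
    have h1 : g⁻¹ * (v : L) * g = 1 := congrArg Subtype.val h
    apply Subtype.ext
    have h2 : ((v : V) : L) = 1 := by
      have := congrArg (fun t => g * t * g⁻¹) h1
      simpa [mul_assoc] using this
    exact h2)⟩
  left_inv v := by
    apply Subtype.ext; apply Subtype.ext
    simp [mul_assoc]
  right_inv v := by
    apply Subtype.ext; apply Subtype.ext
    simp [mul_assoc]

def actHom : L →* Equiv.Perm {v : V // v ≠ 1} where
  toFun := act V
  map_one' := by
    ext v
    simp [act]
  map_mul' g h := by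
    ext v
    simp [act, mul_assoc]

theorem ker_actHom : (actHom V).ker = centralizer (V : Set L) := by
  ext g
  rw [MonoidHom.mem_ker, mem_centralizer_iff]
  constructor
  · intro h v hv
    by_cases h1 : v = 1
    · rw [h1]; simp
    have h2 := congrArg (fun σ => (((σ ⟨⟨v, hv⟩, fun h => h1 (congrArg Subtype.val h)⟩ : {v : V // v ≠ 1}) : V) : L)) h
    have h3 : g * v * g⁻¹ = v := h2
    exact (mul_inv_eq_iff_eq_mul.1 h3).symm
  · intro h
    apply Equiv.ext
    intro v
    apply Subtype.ext; apply Subtype.ext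
    have := h v.1 v.1.2
    change g * (v : L) * g⁻¹ = v
    rw [mul_inv_eq_iff_eq_mul]
    exact this.symm

variable [Finite L]

theorem index_centralizer (hV : Nat.card V = 4) (hnc : ∃ x y : L, x * y * x⁻¹ * y⁻¹ ∉ centralizer (V : Set L)) :
    (centralizer (V : Set L)).index = 6 := by
  classical
  have hcard : Nat.card {v : V // v ≠ 1} = 3 := by
    have := Fintype.ofFinite V
    rw [Nat.card_eq_fintype_card, Fintype.card_subtype_compl, Fintype.card_subtype_eq,
      ← Nat.card_eq_fintype_card, hV]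
  have h1 : (centralizer (V : Set L)).index = Nat.card (actHom V).range := by
    rw [← ker_actHom, Subgroup.index_ker]
  have h2 : Nat.card (actHom V).range ∣ 6 := by
    have h3 : Nat.card (Equiv.Perm {v : V // v ≠ 1}) = 6 := by
      rw [Nat.card_perm, hcard]; rfl
    rw [← h3]
    exact Subgroup.card_subgroup_dvd_card _
  rw [h1]
  -- not commutative
  have hnc' : ¬ IsMulCommutative (actHom V).range := by
    intro hc
    obtain ⟨x, y, hxy⟩ := hnc
    apply hxy
    rw [← ker_actHom, MonoidHom.mem_ker]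
    have h3 := hc.is_comm.comm ⟨actHom V x, x, rfl⟩ ⟨actHom V y, y, rfl⟩
    have h4 : actHom V x * actHom V y = actHom V y * actHom V x := congrArg Subtype.val h3
    rw [map_mul, map_mul, map_mul, map_inv, map_inv, h4]
    group
  have h5 : Nat.card (actHom V).range ∈ Nat.divisors 6 := Nat.mem_divisors.2 ⟨h2, by norm_num⟩
  have h6 : Nat.divisors 6 = {1, 2, 3, 6} := by decide
  rw [h6] at h5
  simp only [Finset.mem_insert, Finset.mem_singleton] at h5
  rcases h5 with h | h | h | h
  · exfalso; apply hnc'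
    have : Subsingleton (actHom V).range := (Nat.card_eq_one_iff_unique.1 h).1
    exact ⟨⟨fun a b => Subsingleton.elim _ _⟩⟩
  · exfalso; apply hnc'
    have : Fact (Nat.Prime 2) := ⟨Nat.prime_two⟩
    have := isCyclic_of_prime_card h
    infer_instance
  · exfalso; apply hnc'
    have : Fact (Nat.Prime 3) := ⟨Nat.prime_three⟩
    have := isCyclic_of_prime_card h
    infer_instance
  · exact h

theorem lemmaX (hV : Nat.card V = 4) (hmin : ∀ N : Subgroup L, N.Normal → N ≤ V → N = ⊥ ∨ N = V)
    (hnc : ∃ x y : L, x * y * x⁻¹ * y⁻¹ ∉ centralizer (V : Set L)) :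
    Cfsg.Involves (Equiv.Perm (Fin 4)) L := by
  have h3 : Fact (Nat.Prime 3) := ⟨Nat.prime_three⟩
  set C := centralizer (V : Set L) with hC
  have hCi : C.index = 6 := index_centralizer V hV hnc
  have hCn : C.Normal := by rw [hC, ← ker_actHom]; infer_instance
  obtain ⟨Y⟩ : Nonempty (Sylow 3 L) := inferInstance
  set M := C ⊔ (Y : Subgroup L) with hM
  have hYi : ¬ 3 ∣ (Y : Subgroup L).index := Y.not_dvd_index
  have hMi : ¬ 3 ∣ M.index := fun h => hYi (h.trans (Subgroup.index_dvd_of_le le_sup_right))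
  have hmul : C.relIndex M * M.index = 6 := by
    rw [← hCi]; exact Subgroup.relIndex_mul_index le_sup_left
  have hrel : ∃ k, C.relIndex M = 3 ^ k := by
    have h4 : C.relIndex M = C.relIndex (Y : Subgroup L) := by
      rw [hM, sup_comm, Subgroup.relIndex_sup_right]
    obtain ⟨k, hk⟩ := IsPGroup.iff_card.1 Y.isPGroup'
    have h5 : C.relIndex (Y : Subgroup L) ∣ 3 ^ k := by
      rw [← hk]; exact Subgroup.relIndex_dvd_card _ _
    obtain ⟨j, -, hj⟩ := (Nat.dvd_prime_pow Nat.prime_three).1 h5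
    exact ⟨j, h4.trans hj⟩
  have hM2 : M.index = 2 := by
    obtain ⟨k, hk⟩ := hrel
    rw [hk] at hmul
    rcases k with _ | _ | k
    · rw [pow_zero, one_mul] at hmul
      exact absurd ⟨2, hmul⟩ hMi
    · omega
    · exfalso
      have : 9 ∣ 6 := by
        rw [← hmul, show k + 1 + 1 = k + 2 from rfl, pow_add]
        exact dvd_mul_of_dvd_left (dvd_mul_of_dvd_right (by norm_num) _) _
      exact absurd this (by decide)
  have hYC : ¬ (Y : Subgroup L) ≤ C := by
    intro h
    apply hYi
    have : C.index ∣ (Y : Subgroup L).index := Subgroup.index_dvd_of_le h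
    rw [hCi] at this
    exact (by norm_num : 3 ∣ 6).trans this
  have hMn : M.Normal := Subgroup.normal_of_index_eq_two hM2
  set N := Subgroup.normalizer ((Y : Subgroup L) : Set L) with hN
  have hF : N ⊔ M = ⊤ := Sylow.normalizer_sup_eq_top' Y le_sup_right
  have hNC : N ⊔ C = ⊤ := by
    rw [eq_top_iff, ← hF, hM]
    exact sup_le le_sup_left (sup_le le_sup_right (Subgroup.le_normalizer.trans le_sup_left))
  -- C_V(Y) = 1
  have hVab : V ≤ centralizer (V : Set L) := by
    have h4 : Nat.card V = 2 ^ 2 := by rw [hV]; norm_num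
    have : Fact (Nat.Prime 2) := ⟨Nat.prime_two⟩
    exact Subgroup.le_centralizer_iff_isMulCommutative.2 (IsPGroup.isMulCommutative_of_card_eq_prime_sq h4)
  have hCVY : V ⊓ centralizer ((Y : Subgroup L) : Set L) = ⊥ := by
    have hn : (V ⊓ centralizer ((Y : Subgroup L) : Set L)).Normal := by
      rw [← Subgroup.normalizer_eq_top_iff, eq_top_iff, ← hNC]
      refine sup_le ?_ ?_
      · refine Cfsg.Agent.Lib.LocBase.le_normalizer_inf ?_ ?_
        · rw [Subgroup.normalizer_eq_top]; exact le_top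
        · exact Cfsg.Agent.Lib.LocBase.le_normalizer_centralizer le_rfl
      · intro c hc
        rw [Subgroup.mem_normalizer_iff]
        intro v
        have key : ∀ c ∈ C, ∀ v ∈ V ⊓ centralizer ((Y : Subgroup L) : Set L), c * v * c⁻¹ = v := by
          intro c hc v hv
          have := mem_centralizer_iff.1 hc v (mem_inf.1 hv).1
          rw [← this, mul_inv_cancel_right]
        constructor
        · intro hv
          have := key c hc v hv
          rw [this]; exact hv
        · intro hv
          have h6 := key c⁻¹ (C.inv_mem hc) _ hv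
          have h7 : c⁻¹ * (c * v * c⁻¹) * c⁻¹⁻¹ = v := by group
          rw [h7] at h6
          rw [h6]; exact hv
    rcases hmin _ hn inf_le_left with h | h
    · exact h
    · exfalso
      apply hYC
      rw [inf_eq_left] at h
      rw [hC, Subgroup.le_centralizer_iff]
      exact h
  have hVN : V ⊓ N = ⊥ := by
    rw [eq_bot_iff, ← hCVY]
    refine le_inf inf_le_left ?_
    intro n hn
    obtain ⟨hnV, hnN⟩ := mem_inf.1 hn
    rw [mem_centralizer_iff]
    intro u hu
    have h4 : n * u * n⁻¹ * u⁻¹ ∈ V ⊓ (Y : Subgroup L) := by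
      refine mem_inf.2 ⟨?_, ?_⟩
      · have : n * u * n⁻¹ * u⁻¹ = n * (u * n⁻¹ * u⁻¹) := by group
        rw [this]
        exact V.mul_mem hnV (hVn.conj_mem _ (V.inv_mem hnV) _)
      · exact (Y : Subgroup L).mul_mem ((Subgroup.mem_normalizer_iff.1 hnN u).1 hu) ((Y : Subgroup L).inv_mem hu)
    have h5 : V ⊓ (Y : Subgroup L) = ⊥ := by
      rw [← disjoint_iff]
      apply Subgroup.disjoint_of_coprime_natCard
      rw [hV]
      obtain ⟨k, hk⟩ := IsPGroup.iff_card.1 Y.isPGroup'
      rw [hk]
      exact Nat.Coprime.pow_right k (by norm_num)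
    rw [h5, mem_bot] at h4
    have h6 := mul_inv_eq_one.1 h4
    exact (mul_inv_eq_iff_eq_mul.1 h6).symm
  -- the group E = V N and its action on the cosets of N
  set E := V ⊔ N with hE
  set N' := N.subgroupOf E with hN'
  have hEcard : Nat.card E = 4 * Nat.card N := by
    have h4 : Nat.card V * V.relIndex E = Nat.card E := by
      rw [← Subgroup.relIndex_bot_left, ← Subgroup.relIndex_bot_left]
      exact Subgroup.relIndex_mul_relIndex ⊥ V E bot_le le_sup_left
    have h5 : V.relIndex E = Nat.card N := by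
      rw [hE, sup_comm, Subgroup.relIndex_sup_right, ← Subgroup.inf_relIndex_right, hVN,
        Subgroup.relIndex_bot_left]
    rw [← h4, h5, hV]
  have hNE : N ≤ E := le_sup_right
  have hNpos : 0 < Nat.card N := Nat.card_pos
  have hidx : N'.index = 4 := by
    have h4 : Nat.card N * N.relIndex E = Nat.card E := by
      rw [← Subgroup.relIndex_bot_left, ← Subgroup.relIndex_bot_left]
      exact Subgroup.relIndex_mul_relIndex ⊥ N E bot_le hNE
    rw [hEcard, mul_comm] at h4
    exact Nat.eq_of_mul_eq_mul_right hNpos h4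
  have hD : Nat.card (C ⊓ N : Subgroup L) * 6 = Nat.card N := by
    have h4 : Nat.card (C ⊓ N : Subgroup L) * (C ⊓ N).relIndex N = Nat.card N := by
      rw [← Subgroup.relIndex_bot_left, ← Subgroup.relIndex_bot_left]
      exact Subgroup.relIndex_mul_relIndex ⊥ _ N bot_le inf_le_right
    have h5 : (C ⊓ N).relIndex N = 6 := by
      rw [Subgroup.inf_relIndex_right, ← Subgroup.relIndex_sup_right, hNC, Subgroup.relIndex_top_right, hCi]
    rw [h5] at h4
    exact h4
  -- the kernel
  have hker : (MulAction.toPermHom E (E ⧸ N')).ker = N'.normalCore := (Subgroup.normalCore_eq_ker N').symm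
  have hcore : (N'.normalCore).map E.subtype ≤ C ⊓ N := by
    rintro _ ⟨k, hk, rfl⟩
    have hkN : (k : L) ∈ N := Subgroup.mem_subgroupOf.1 (Subgroup.normalCore_le N' hk)
    refine mem_inf.2 ⟨?_, hkN⟩
    rw [hC, mem_centralizer_iff]
    intro v hv
    have hvE : v ∈ E := (le_sup_left : V ≤ E) hv
    have h4 : (⟨v, hvE⟩ : E) * k * (⟨v, hvE⟩ : E)⁻¹ * k⁻¹ ∈ N'.normalCore :=
      (N'.normalCore).mul_mem ((Subgroup.normalCore_normal N').conj_mem k hk _) ((N'.normalCore).inv_mem hk)
    have h5 : v * (k : L) * v⁻¹ * (k : L)⁻¹ ∈ N := Subgroup.mem_subgroupOf.1 (Subgroup.normalCore_le N' h4)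
    have h6 : v * (k : L) * v⁻¹ * (k : L)⁻¹ ∈ V := by
      have : v * (k : L) * v⁻¹ * (k : L)⁻¹ = v * ((k : L) * v⁻¹ * (k : L)⁻¹) := by group
      rw [this]
      exact V.mul_mem hv (hVn.conj_mem _ (V.inv_mem hv) _)
    have h7 : v * (k : L) * v⁻¹ * (k : L)⁻¹ ∈ V ⊓ N := mem_inf.2 ⟨h6, h5⟩
    rw [hVN, mem_bot] at h7
    have h8 := mul_inv_eq_one.1 h7
    exact mul_inv_eq_iff_eq_mul.1 h8
  have hcd : Nat.card (N'.normalCore) ∣ Nat.card (C ⊓ N : Subgroup L) := by
    have := Subgroup.card_dvd_of_le hcore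
    rwa [Subgroup.card_map_of_injective E.subtype_injective] at this
  have hrange : Nat.card (MulAction.toPermHom E (E ⧸ N')).range * Nat.card (N'.normalCore) = Nat.card E := by
    rw [← hker, mul_comm, ← Subgroup.index_ker]
    exact Subgroup.card_mul_index _
  have hcq : Nat.card (E ⧸ N') = 4 := hidx
  have hperm : Nat.card (Equiv.Perm (E ⧸ N')) = 24 := by
    rw [Nat.card_perm, hcq]; rfl
  have htop : (MulAction.toPermHom E (E ⧸ N')).range = ⊤ := by
    apply Subgroup.eq_top_of_le_card
    rw [hperm]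
    have h4 : Nat.card (N'.normalCore) ≤ Nat.card (C ⊓ N : Subgroup L) := Nat.le_of_dvd Nat.card_pos hcd
    have h5 : 0 < Nat.card (N'.normalCore) := Nat.card_pos
    by_contra hlt
    push Not at hlt
    have h6 : Nat.card (MulAction.toPermHom E (E ⧸ N')).range * Nat.card (N'.normalCore) <
        24 * Nat.card (N'.normalCore) := Nat.mul_lt_mul_of_pos_right hlt h5
    rw [hrange, hEcard, ← hD] at h6
    omega
  have hsurj : Function.Surjective (MulAction.toPermHom E (E ⧸ N')) := MonoidHom.range_eq_top.1 htop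
  obtain ⟨e⟩ : Nonempty ((E ⧸ N') ≃ Fin 4) := by
    have : Finite (E ⧸ N') := inferInstance
    exact ⟨Finite.equivFinOfCardEq hcq⟩
  exact Cfsg.Agent.Lib.Involve.involves_of_hom
    ((Equiv.permCongrHom e).toMonoidHom.comp (MulAction.toPermHom E (E ⧸ N')))
    ((Equiv.permCongrHom e).surjective.comp hsurj)

omit hVn in
theorem mem_normalizer_of_forall {A : Subgroup L} {g : L} (h : ∀ a ∈ A, g * a * g⁻¹ ∈ A) :
    g ∈ Subgroup.normalizer (A : Set L) := by
  rw [Cfsg.Agent.Lib.SylowRel.mem_normalizer_iff_cj]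
  have h1 : Cfsg.Agent.Lib.SylowRel.cj g A ≤ A := by
    rintro _ ⟨a, ha, rfl⟩
    exact h a ha
  exact Subgroup.eq_of_le_of_card_ge h1 (Cfsg.Agent.Lib.SylowRel.card_cj g A).ge

/-- A minimal normal `2`-subgroup on which an inverted element of order `3` acts has order `4`. -/
theorem card_four (hV2 : IsPGroup 2 V) (hmin : ∀ N : Subgroup L, N.Normal → N ≤ V → N = ⊥ ∨ N = V)
    (x y : L) (hgen : closure {x, y} ⊔ V = ⊤) (hy : y ∉ centralizer (V : Set L))
    (hy3 : y ^ 3 ∈ centralizer (V : Set L)) (hxy : x * y * x⁻¹ * y ∈ centralizer (V : Set L))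
    (hx : ∃ k, orderOf x = 2 ^ k) : Nat.card V = 4 := by
  have h2 : Fact (Nat.Prime 2) := ⟨Nat.prime_two⟩
  have hV1 : V ≠ ⊥ := by
    rintro rfl
    apply hy
    rw [mem_centralizer_iff]
    intro h hh
    rw [SetLike.mem_coe, mem_bot] at hh
    rw [hh]; simp
  -- normality criterion
  have hnorm : ∀ A : Subgroup L, A ≤ V → V ≤ centralizer (A : Set L) → (∀ a ∈ A, x * a * x⁻¹ ∈ A) →
      (∀ a ∈ A, y * a * y⁻¹ ∈ A) → A.Normal := by
    intro A _ hVA hxA hyA
    rw [← Subgroup.normalizer_eq_top_iff, eq_top_iff, ← hgen]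
    refine sup_le ?_ (hVA.trans (Subgroup.centralizer_le_normalizer _))
    rw [Subgroup.closure_le]
    rintro g (rfl | rfl)
    · exact mem_normalizer_of_forall hxA
    · exact mem_normalizer_of_forall hyA
  -- V is abelian
  have hVab : V ≤ centralizer (V : Set L) := by
    obtain ⟨u, huV, hu1, huC⟩ := Cfsg.Agent.Lib.LocTrace.exists_fixed (p := 2) hV2 hV2 Subgroup.le_normalizer hV1
    have hn : (V ⊓ centralizer (V : Set L)).Normal := by
      have hCn : (centralizer (V : Set L)).Normal := by rw [← ker_actHom]; infer_instance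
      infer_instance
    rcases hmin _ hn inf_le_left with h | h
    · exfalso
      apply hu1
      rw [← mem_bot, ← h]
      exact mem_inf.2 ⟨huV, huC⟩
    · exact inf_eq_left.1 h
  have hcomm : ∀ a ∈ V, ∀ b ∈ V, a * b = b * a := fun a ha b hb => mem_centralizer_iff.1 (hVab hb) a ha
  -- an involution of V commuting with x
  obtain ⟨v, hvV, hv1, hv2, hvx⟩ : ∃ v ∈ V, v ≠ 1 ∧ v * v = 1 ∧ x * v = v * x := by
    have hX : IsPGroup 2 (zpowers x) := by
      obtain ⟨k, hk⟩ := hx
      exact IsPGroup.of_card (n := k) (by rw [Nat.card_zpowers, hk])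
    obtain ⟨u, huV, hu1, huC⟩ := Cfsg.Agent.Lib.LocTrace.exists_fixed (p := 2) hV2 hX
      (by rw [Subgroup.normalizer_eq_top]; exact le_top) hV1
    obtain ⟨k, hk⟩ := (IsPGroup.iff_orderOf.1 hV2) ⟨u, huV⟩
    rw [Subgroup.orderOf_mk] at hk
    rcases k with _ | k
    · rw [pow_zero] at hk
      exact absurd (orderOf_eq_one_iff.1 hk) hu1
    refine ⟨u ^ (2 ^ k), V.pow_mem huV _, ?_, ?_, ?_⟩
    · intro h
      have := orderOf_dvd_of_pow_eq_one h
      rw [hk] at this
      exact absurd (Nat.le_of_dvd (by positivity) this) (not_le.2 (Nat.pow_lt_pow_right (by norm_num) (Nat.lt_succ_self k)))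
    · rw [← pow_add, ← two_mul, ← pow_succ', ← hk, pow_orderOf_eq_one]
    · have : Commute x u := mem_centralizer_iff.1 huC x (mem_zpowers x)
      exact this.pow_right _
  set c := x * y * x⁻¹ * y with hc
  have hxyc : x * y * x⁻¹ = c * y⁻¹ := by rw [hc]; group
  -- C_V(y) = 1
  have hCy : ∀ u ∈ V, y * u = u * y → u = 1 := by
    have hn : (V ⊓ centralizer ({y} : Set L)).Normal := by
      apply hnorm _ inf_le_left (hVab.trans (centralizer_le inf_le_left))
      · intro a ha
        obtain ⟨haV, hay⟩ := mem_inf.1 ha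
        rw [mem_centralizer_singleton_iff] at hay
        have h1 : x * a * x⁻¹ ∈ V := hVn.conj_mem a haV x
        refine mem_inf.2 ⟨h1, ?_⟩
        rw [mem_centralizer_singleton_iff]
        set b := x * a * x⁻¹ with hb
        have h3 : b * (x * y * x⁻¹) = (x * y * x⁻¹) * b := by
          calc b * (x * y * x⁻¹) = x * (a * y) * x⁻¹ := by rw [hb]; group
            _ = x * (y * a) * x⁻¹ := by rw [hay]
            _ = (x * y * x⁻¹) * b := by rw [hb]; group
        have h4 : b * c = c * b := mem_centralizer_iff.1 hxy b h1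
        rw [hxyc] at h3
        have h5 : c * (b * y⁻¹) = c * (y⁻¹ * b) := by
          rw [← mul_assoc, ← h4, mul_assoc, h3, mul_assoc]
        have h6 := mul_left_cancel h5
        have h7 : Commute b y⁻¹ := h6
        exact (Commute.inv_right_iff.1 h7)
      · intro a ha
        obtain ⟨haV, hay⟩ := mem_inf.1 ha
        rw [mem_centralizer_singleton_iff] at hay
        have : y * a * y⁻¹ = a := by rw [← hay, mul_inv_cancel_right]
        rw [this]; exact ha
    intro u hu hyu
    have hmem : u ∈ V ⊓ centralizer ({y} : Set L) :=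
      mem_inf.2 ⟨hu, mem_centralizer_singleton_iff.2 hyu.symm⟩
    rcases hmin _ hn inf_le_left with h | h
    · rw [h] at hmem; exact mem_bot.1 hmem
    · exfalso
      apply hy
      rw [inf_eq_left] at h
      rw [mem_centralizer_iff]
      intro a ha
      exact mem_centralizer_singleton_iff.1 (h ha)
  set w := y * v * y⁻¹ with hw
  have hwV : w ∈ V := hVn.conj_mem v hvV y
  have hw2 : w * w = 1 := by
    rw [hw]
    calc y * v * y⁻¹ * (y * v * y⁻¹) = y * (v * v) * y⁻¹ := by group
      _ = 1 := by rw [hv2]; group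
  set z := y * w * y⁻¹ with hz
  have hzV : z ∈ V := hVn.conj_mem w hwV y
  have hyz : y * z * y⁻¹ = v := by
    have h3 : v * y ^ 3 = y ^ 3 * v := mem_centralizer_iff.1 hy3 v hvV
    have h4 : y ^ 3 = y * y * y := by rw [pow_succ, sq]
    rw [h4] at h3
    calc y * z * y⁻¹ = y * y * y * v * (y * y * y)⁻¹ := by rw [hz, hw]; group
      _ = v := by rw [← h3, mul_inv_cancel_right]
  have hprod : v * w * z = 1 := by
    apply hCy _ (V.mul_mem (V.mul_mem hvV hwV) hzV)
    rw [← mul_inv_eq_iff_eq_mul]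
    calc y * (v * w * z) * y⁻¹ = (y * v * y⁻¹) * (y * w * y⁻¹) * (y * z * y⁻¹) := by group
      _ = w * z * v := by rw [hyz]
      _ = v * w * z := by rw [hcomm (w * z) (V.mul_mem hwV hzV) v hvV, ← mul_assoc]
  have hzvw : z = v * w := by
    have h3 : z = (v * w)⁻¹ := by
      rw [eq_inv_iff_mul_eq_one, hcomm z hzV _ (V.mul_mem hvV hwV)]
      exact hprod
    rw [h3, mul_inv_rev, inv_eq_of_mul_eq_one_left hw2, inv_eq_of_mul_eq_one_left hv2]
    exact hcomm w hwV v hvV
  -- the subgroup generated by v, w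
  set W := closure ({v, w} : Set L) with hW
  have hvW : v ∈ W := subset_closure (by simp)
  have hwW : w ∈ W := subset_closure (by simp)
  have hWV : W ≤ V := by
    rw [hW, closure_le]
    rintro a (rfl | rfl)
    · exact hvV
    · exact hwV
  have hWn : W.Normal := by
    apply hnorm W hWV (hVab.trans (centralizer_le hWV))
    · have : W ≤ W.comap (MulAut.conj x).toMonoidHom := by
        conv_lhs => rw [hW]
        rw [closure_le]
        rintro a (rfl | rfl)
        · change x * a * x⁻¹ ∈ W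
          rw [hvx, mul_inv_cancel_right]; exact hvW
        · change x * w * x⁻¹ ∈ W
          have h3 : x * w * x⁻¹ = z := by
            have h4 : y * z * y⁻¹ * c = c * (y * z * y⁻¹) := by
              rw [hyz]; exact mem_centralizer_iff.1 hxy v hvV
            have h5 : y⁻¹ * v * y = z := by rw [← hyz]; group
            have h6 : z * c = c * z := mem_centralizer_iff.1 hxy z hzV
            have h7 : x * v * x⁻¹ = v := by rw [hvx, mul_inv_cancel_right]
            calc x * w * x⁻¹ = (x * y * x⁻¹) * (x * v * x⁻¹) * (x * y * x⁻¹)⁻¹ := by rw [hw]; group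
              _ = (c * y⁻¹) * v * (c * y⁻¹)⁻¹ := by rw [hxyc, h7]
              _ = c * (y⁻¹ * v * y) * c⁻¹ := by group
              _ = z := by rw [h5, ← h6, mul_inv_cancel_right]
          rw [h3, hzvw]
          exact W.mul_mem hvW hwW
      intro a ha
      exact this ha
    · have : W ≤ W.comap (MulAut.conj y).toMonoidHom := by
        conv_lhs => rw [hW]
        rw [closure_le]
        rintro a (rfl | rfl)
        · change y * a * y⁻¹ ∈ W
          exact hwW
        · change y * w * y⁻¹ ∈ W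
          have : y * w * y⁻¹ = v * w := hzvw
          rw [this]
          exact W.mul_mem hvW hwW
      intro a ha
      exact this ha
  have hWeq : W = V := by
    rcases hmin W hWn hWV with h | h
    · exfalso
      apply hv1
      rw [h] at hvW
      exact mem_bot.1 hvW
    · exact h
  have hvw : v ≠ w := by
    intro h
    apply hv1
    apply hCy v hvV
    rw [← mul_inv_eq_iff_eq_mul]
    exact h.symm
  have hw1 : w ≠ 1 := by
    intro h
    rw [hw] at h
    apply hv1
    have := congrArg (fun t => y⁻¹ * t * y) h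
    simpa [mul_assoc] using this
  have hcl : (V : Set L) ⊆ {1, v, w, v * w} := by
    intro g hg
    rw [SetLike.mem_coe, ← hWeq] at hg
    have hvwc := hcomm v hvV w hwV
    induction hg using closure_induction with
    | mem a ha =>
      rcases ha with rfl | rfl <;> simp
    | one => simp
    | mul a b _ _ iha ihb =>
      have e1 : w * v = v * w := hvwc.symm
      have e2 : w * (v * w) = v := by rw [← mul_assoc, e1, mul_assoc, hw2, mul_one]
      have e3 : v * (v * w) = w := by rw [← mul_assoc, hv2, one_mul]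
      have e4 : v * w * v = w := by rw [mul_assoc, e1, e3]
      have e5 : v * w * w = v := by rw [mul_assoc, hw2, mul_one]
      have e6 : v * w * (v * w) = 1 := by rw [mul_assoc, e2, hv2]
      have key : ∀ a ∈ ({1, v, w, v * w} : Set L), ∀ b ∈ ({1, v, w, v * w} : Set L),
          a * b ∈ ({1, v, w, v * w} : Set L) := by
        intro a ha b hb
        simp only [Set.mem_insert_iff, Set.mem_singleton_iff] at ha hb ⊢
        rcases ha with ha | ha | ha | ha <;> rcases hb with hb | hb | hb | hb <;> rw [ha, hb]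
        · left; rw [mul_one]
        · right; left; rw [one_mul]
        · right; right; left; rw [one_mul]
        · right; right; right; rw [one_mul]
        · right; left; rw [mul_one]
        · left; exact hv2
        · right; right; right; rfl
        · right; right; left; exact e3
        · right; right; left; rw [mul_one]
        · right; right; right; exact e1
        · left; exact hw2
        · right; left; exact e2
        · right; right; right; rw [mul_one]
        · right; right; left; exact e4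
        · right; left; exact e5
        · left; exact e6
      exact key a iha b ihb
    | inv a _ iha =>
      have e1 : v⁻¹ = v := inv_eq_of_mul_eq_one_left hv2
      have e2 : w⁻¹ = w := inv_eq_of_mul_eq_one_left hw2
      rcases iha with rfl | rfl | rfl | rfl
      · simp
      · rw [e1]; simp
      · rw [e2]; simp
      · rw [mul_inv_rev, e1, e2, ← hvwc]; simp
  have hle : Nat.card V ≤ 4 := by
    have h3 : Nat.card V = (V : Set L).ncard := rfl
    rw [h3]
    refine (Set.ncard_le_ncard hcl (Set.toFinite _)).trans ?_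
    refine (Set.ncard_insert_le _ _).trans ?_
    have := (Set.ncard_insert_le v ({w, v * w} : Set L))
    have h4 := (Set.ncard_insert_le w ({v * w} : Set L))
    rw [Set.ncard_singleton] at h4
    omega
  have hge : 3 ≤ Nat.card V := by
    have h3 : Nat.card V = (V : Set L).ncard := rfl
    rw [h3]
    have h4 : ({1, v, w} : Set L) ⊆ (V : Set L) := by
      rintro a (rfl | rfl | rfl)
      · exact V.one_mem
      · exact hvV
      · exact hwV
    refine le_trans ?_ (Set.ncard_le_ncard h4 (Set.toFinite _))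
    rw [Set.ncard_insert_of_notMem (by simp [hv1.symm, hw1.symm]), Set.ncard_pair hvw]
  obtain ⟨k, hk⟩ := IsPGroup.iff_card.1 hV2
  rcases k with _ | _ | _ | k
  · rw [hk] at hge; norm_num at hge
  · rw [hk] at hge; norm_num at hge
  · rw [hk]; norm_num
  · exfalso
    rw [hk] at hle
    have : 2 ^ 3 ≤ 2 ^ (k + 1 + 1 + 1) := Nat.pow_le_pow_right (by norm_num) (by omega)
    omega

end X

theorem three_step {G : Type*} [Group G] [Finite G] (T : Subgroup G) (hT : IsPGroup 2 T) (x y : G)
    (hx : ∃ k, orderOf x = 2 ^ k) (hyo : ∃ k, orderOf y = 3 ^ k) (hxN : x ∈ normalizer (T : Set G))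
    (hyN : y ∈ normalizer (T : Set G)) (hy : y ∉ centralizer (T : Set G))
    (hy3 : y ^ 3 ∈ centralizer (T : Set G)) (hxy : x * y * x⁻¹ * y ∈ centralizer (T : Set G)) :
    Cfsg.Involves (Equiv.Perm (Fin 4)) G := by
  have h2 : Fact (Nat.Prime 2) := ⟨Nat.prime_two⟩
  set H := closure ({x, y} : Set G) with hH
  have hxH : x ∈ H := subset_closure (by simp)
  have hyH : y ∈ H := subset_closure (by simp)
  have hHT : H ≤ normalizer (T : Set G) := by
    rw [hH, closure_le]
    rintro g (rfl | rfl)
    · exact hxN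
    · exact hyN
  -- minimal `H`-invariant subgroup not centralised by `y`
  obtain ⟨T0, hT0m⟩ := Set.Finite.exists_minimal (s := {A : Subgroup G | A ≤ T ∧ H ≤ normalizer (A : Set G) ∧
    y ∉ centralizer (A : Set G)}) (Set.toFinite _) ⟨T, le_rfl, hHT, hy⟩
  obtain ⟨⟨hT0T, hHT0, hyT0⟩, hmin0⟩ := hT0m
  -- maximal normal subgroup
  obtain ⟨B, hBm⟩ := Set.Finite.exists_maximal (s := {B : Subgroup G | B < T0 ∧
    T0 ⊔ H ≤ normalizer (B : Set G)}) (Set.toFinite _) ⟨⊥, by
      refine ⟨bot_lt_iff_ne_bot.2 ?_, ?_⟩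
      · rintro rfl
        apply hyT0
        rw [mem_centralizer_iff]
        intro h hh
        rw [SetLike.mem_coe, mem_bot] at hh
        rw [hh]; simp
      · rw [Subgroup.normalizer_eq_top]; exact le_top⟩
  obtain ⟨⟨hBT0, hMB⟩, hmaxB⟩ := hBm
  set M := T0 ⊔ H with hM
  have hT0M : T0 ≤ M := le_sup_left
  have hHM : H ≤ M := le_sup_right
  have hMT0 : M ≤ normalizer (T0 : Set G) := sup_le Subgroup.le_normalizer hHT0
  have hyB : y ∈ centralizer (B : Set G) := by
    by_contra hc
    have := hmin0 (y := B) ⟨hBT0.le.trans hT0T, hHM.trans hMB, hc⟩ hBT0.le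
    exact hBT0.not_ge this
  have hT02 : IsPGroup 2 T0 := hT.to_le hT0T
  -- `y` acts nontrivially on `T0 / B`
  have hyTB : ∃ t ∈ T0, t * y * t⁻¹ * y⁻¹ ∉ B := by
    by_contra hc
    push Not at hc
    apply hyT0
    have hK : zpowers y ≤ normalizer (T0 : Set G) := by
      rw [zpowers_le]; exact hHT0 hyH
    have h1 : zpowers y ≤ centralizer (B : Set G) := by
      rw [zpowers_le]; exact hyB
    have h3 : ⁅T0, zpowers y⁆ ≤ B := by
      have hBn : zpowers y ≤ normalizer (B : Set G) := h1.trans (Subgroup.centralizer_le_normalizer _)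
      rw [zpowers_eq_closure, commutator_comm]
      apply Cfsg.Agent.Lib.LocBase.commutator_closure_le
      · rw [← zpowers_eq_closure]; exact hBn
      · rintro a ha t ht
        rw [Set.mem_singleton_iff] at ha
        rw [ha, commutatorElement_def]
        have := B.inv_mem (hc t ht)
        have e : (t * y * t⁻¹ * y⁻¹)⁻¹ = y * t * y⁻¹ * t⁻¹ := by group
        rwa [e] at this
    have h4 := Cfsg.Agent.Lib.LocBase.pRes_le_centralizer_of_chain (p := 2) hT02 hK
      ((commutator_mono le_rfl (Cfsg.Agent.Lib.LocBase.pRes_le 2 _)).trans h3)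
      ((Cfsg.Agent.Lib.LocBase.pRes_le 2 _).trans h1)
    apply h4
    apply Cfsg.Agent.Lib.LocBase.mem_pRes (mem_zpowers y)
    obtain ⟨k, hk⟩ := hyo
    rw [hk]
    exact Nat.Coprime.pow_left k (by norm_num)
  -- the quotient
  have hBM : B ≤ M := hBT0.le.trans hT0M
  have hBn : (B.subgroupOf M).Normal := Subgroup.normal_subgroupOf_of_le_normalizer hMB
  have hT0n : (T0.subgroupOf M).Normal := Subgroup.normal_subgroupOf_of_le_normalizer hMT0
  set π := QuotientGroup.mk' (B.subgroupOf M) with hπ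
  have hπs : Function.Surjective π := QuotientGroup.mk'_surjective _
  have hπ1 : ∀ m : M, π m = 1 ↔ (m : G) ∈ B := by
    intro m
    rw [hπ, QuotientGroup.mk'_apply, QuotientGroup.eq_one_iff, mem_subgroupOf]
  set V := (T0.subgroupOf M).map π with hV
  have hVn : V.Normal := hT0n.map π hπs
  set x' : M := ⟨x, hHM hxH⟩ with hx'
  set y' : M := ⟨y, hHM hyH⟩ with hy'
  have hmin : ∀ N : Subgroup (M ⧸ B.subgroupOf M), N.Normal → N ≤ V → N = ⊥ ∨ N = V := by
    intro N hN hNV
    set A : Subgroup G := (N.comap π).map M.subtype with hA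
    have hAT0 : A ≤ T0 := by
      rintro _ ⟨a, ha, rfl⟩
      obtain ⟨t, ht, h3⟩ := hNV ha
      have h4 : π (t⁻¹ * a) = 1 := by rw [map_mul, map_inv, h3, inv_mul_cancel]
      rw [hπ1] at h4
      have h5 : (a : G) = t * ((t⁻¹ * a : M) : G) := by
        rw [Subgroup.coe_mul, Subgroup.coe_inv, mul_inv_cancel_left]
      change (a : G) ∈ T0
      rw [h5]
      exact T0.mul_mem ht (hBT0.le h4)
    have hAM : M ≤ normalizer (A : Set G) := by
      have hNc : (N.comap π).Normal := hN.comap π
      intro m hm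
      apply mem_normalizer_of_forall
      rintro _ ⟨a, ha, rfl⟩
      exact ⟨⟨m, hm⟩ * a * ⟨m, hm⟩⁻¹, hNc.conj_mem a ha _, rfl⟩
    have hBA : B ≤ A := by
      intro b hb
      refine ⟨⟨b, hBM hb⟩, ?_, rfl⟩
      rw [SetLike.mem_coe, mem_comap, (hπ1 ⟨b, hBM hb⟩).2 hb]
      exact N.one_mem
    by_cases hAT : A = T0
    · right
      apply le_antisymm hNV
      rintro _ ⟨t, ht, rfl⟩
      have h3 : (t : G) ∈ A := by rw [hAT]; exact ht
      obtain ⟨a, ha, h4⟩ := h3
      have h5 : a = t := Subtype.ext h4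
      rw [← h5]; exact ha
    · left
      have h3 : A ≤ B := hmaxB (y := A) ⟨lt_of_le_of_ne hAT0 hAT, hAM⟩ hBA
      rw [eq_bot_iff]
      intro n hn
      obtain ⟨a, rfl⟩ := hπs n
      rw [mem_bot, hπ1]
      exact h3 ⟨a, hn, rfl⟩
  have hVmem : ∀ c : M, (c : G) ∈ centralizer (T : Set G) → π c ∈ centralizer (V : Set (M ⧸ B.subgroupOf M)) := by
    intro c hc
    rw [mem_centralizer_iff]
    rintro _ ⟨t, ht, rfl⟩
    rw [← map_mul, ← map_mul]
    congr 1
    exact Subtype.ext (mem_centralizer_iff.1 hc t (hT0T ht))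
  have hyV : π y' ∉ centralizer (V : Set (M ⧸ B.subgroupOf M)) := by
    intro hc
    obtain ⟨t, ht, htB⟩ := hyTB
    apply htB
    have h3 := mem_centralizer_iff.1 hc (π ⟨t, hT0M ht⟩) ⟨⟨t, hT0M ht⟩, ht, rfl⟩
    rw [← mul_inv_eq_iff_eq_mul, ← mul_inv_eq_one, ← map_mul, ← map_inv, ← map_inv, ← map_mul, ← map_mul, hπ1] at h3
    exact h3
  have hgen : closure {π x', π y'} ⊔ V = ⊤ := by
    rw [eq_top_iff]
    have h3 : M ≤ ((closure {π x', π y'} ⊔ V).comap π).map M.subtype := by
      refine sup_le ?_ ?_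
      · intro t ht
        exact ⟨⟨t, hT0M ht⟩, (le_sup_right : V ≤ _) ⟨⟨t, hT0M ht⟩, ht, rfl⟩, rfl⟩
      · rw [hH, closure_le]
        rintro g (rfl | rfl)
        · exact ⟨x', (le_sup_left : closure {π x', π y'} ≤ _) (subset_closure (by simp)), rfl⟩
        · exact ⟨y', (le_sup_left : closure {π x', π y'} ≤ _) (subset_closure (by simp)), rfl⟩
    intro q _
    obtain ⟨m, rfl⟩ := hπs q
    obtain ⟨m', hm', h4⟩ := h3 m.2
    have h5 : m' = m := Subtype.ext h4
    rw [← h5]; exact hm'
  have hcard := card_four V ((hT02.comap_subtype).map π) hmin (π x') (π y') hgen hyV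
    (by rw [← map_pow]; exact hVmem _ hy3)
    (by rw [← map_mul, ← map_inv, ← map_mul, ← map_mul]; exact hVmem _ hxy)
    (by
      obtain ⟨k, hk⟩ := hx
      have h3 : orderOf (π x') ∣ 2 ^ k := by
        rw [← hk]
        refine (orderOf_map_dvd π x').trans ?_
        rw [hx', Subgroup.orderOf_mk]
      obtain ⟨j, -, hj⟩ := (Nat.dvd_prime_pow Nat.prime_two).1 h3
      exact ⟨j, hj⟩)
  have hS4 : Cfsg.Involves (Equiv.Perm (Fin 4)) (M ⧸ B.subgroupOf M) := by
    apply lemmaX V hcard hmin
    refine ⟨π x', π y', ?_⟩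
    intro hc
    apply hyV
    have h3 : π (x' * y' * x'⁻¹ * y') ∈ centralizer (V : Set (M ⧸ B.subgroupOf M)) := hVmem _ hxy
    rw [map_mul, map_mul, map_mul, map_inv] at h3
    have h4 : π y' ^ 3 ∈ centralizer (V : Set (M ⧸ B.subgroupOf M)) := by
      rw [← map_pow]; exact hVmem _ hy3
    have h5 : π y' = π y' ^ 3 * ((π x' * π y' * (π x')⁻¹ * (π y')⁻¹)⁻¹ * (π x' * π y' * (π x')⁻¹ * π y'))⁻¹ := by
      have e : π y' ^ 3 = π y' * π y' * π y' := by rw [pow_succ, sq]
      rw [e]; group
    rw [h5]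
    exact Subgroup.mul_mem _ h4 (Subgroup.inv_mem _ (Subgroup.mul_mem _ (Subgroup.inv_mem _ hc) h3))
  refine Cfsg.Agent.Lib.Involve.involves_trans hS4 ?_
  exact Cfsg.Agent.Lib.Involve.involves_of_hom π hπs

open Equiv


def isV (σ : Perm (Fin 4)) : Prop := σ = 1 ∨ (σ * σ = 1 ∧ ∀ i, σ i ≠ i)
instance : DecidablePred isV := fun σ => by unfold isV; infer_instance

def V4 : Subgroup (Perm (Fin 4)) where
  carrier := {σ | isV σ}
  one_mem' := Or.inl rfl
  mul_mem' := by
    have : ∀ σ τ : Perm (Fin 4), isV σ → isV τ → isV (σ * τ) := by decide +kernel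
    intro a b ha hb
    exact this a b ha hb
  inv_mem' := by
    have : ∀ σ : Perm (Fin 4), isV σ → isV σ⁻¹ := by decide +kernel
    intro a ha
    exact this a ha

theorem V4_normal : V4.Normal := by
  constructor
  have : ∀ σ : Perm (Fin 4), isV σ → ∀ τ : Perm (Fin 4), isV (τ * σ * τ⁻¹) := by decide +kernel
  exact this

theorem V4_card : Nat.card V4 = 4 := by
  have h : Nat.card V4 = Nat.card {σ : Perm (Fin 4) // isV σ} := rfl
  rw [h, Nat.card_eq_fintype_card]
  decide +kernel

theorem V4_centralizer {σ : Perm (Fin 4)} (h : ∀ v ∈ V4, v * σ = σ * v) : σ ∈ V4 := by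
  have : ∀ σ : Perm (Fin 4), (∀ v, isV v → v * σ = σ * v) → isV σ := by decide +kernel
  exact this σ h

theorem V4_nc : ∃ x y : Perm (Fin 4), x * y * x⁻¹ * y⁻¹ ∉ Subgroup.centralizer (V4 : Set (Perm (Fin 4))) := by
  have : ∃ x y : Perm (Fin 4), ¬ isV (x * y * x⁻¹ * y⁻¹) := by decide +kernel
  obtain ⟨x, y, h⟩ := this
  refine ⟨x, y, fun hc => h ?_⟩
  exact V4_centralizer (fun v hv => Subgroup.mem_centralizer_iff.1 hc v hv)

theorem V4_sq : ∀ v ∈ V4, v * v = 1 := by
  have : ∀ v, isV v → v * v = 1 := by decide +kernel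
  exact this

theorem perm_three : Nonempty (Perm (Fin 3) ≃* DihedralGroup 3) := by
  have h3 : Fact (Nat.Prime 3) := ⟨Nat.prime_three⟩
  have ho : orderOf (finRotate 3) = 3 := orderOf_eq_prime (by decide +kernel) (by decide +kernel)
  have hs : orderOf (swap (0 : Fin 3) 1) = 2 := orderOf_eq_prime (by decide +kernel) (by decide +kernel)
  refine Cfsg.Agent.Lib.Involve.dihedral_equiv (swap (0 : Fin 3) 1) (finRotate 3) (by decide +kernel) ho
    (by decide +kernel) ?_ ?_
  · intro h
    have := orderOf_dvd_of_mem_zpowers h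
    rw [ho, hs] at this
    exact absurd this (by decide)
  · apply Subgroup.eq_top_of_card_eq
    have hc : Nat.card (Perm (Fin 3)) = 6 := by rw [Nat.card_perm, Nat.card_fin]; rfl
    rw [hc]
    have h1 : Nat.card (Subgroup.closure {swap (0 : Fin 3) 1, finRotate 3}) ∣ 6 := by
      rw [← hc]; exact Subgroup.card_subgroup_dvd_card _
    have h4 : 3 ∣ Nat.card (Subgroup.closure {swap (0 : Fin 3) 1, finRotate 3}) := by
      exact (dvd_of_eq ho.symm).trans (Subgroup.orderOf_dvd_natCard _ (Subgroup.subset_closure (by simp)))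
    have h5 : 2 ∣ Nat.card (Subgroup.closure {swap (0 : Fin 3) 1, finRotate 3}) := by
      exact (dvd_of_eq hs.symm).trans (Subgroup.orderOf_dvd_natCard _ (Subgroup.subset_closure (by simp)))
    have h6 : 6 ∣ Nat.card (Subgroup.closure {swap (0 : Fin 3) 1, finRotate 3}) :=
      Nat.Coprime.mul_dvd_of_dvd_of_dvd (by norm_num : Nat.Coprime 2 3) h5 h4
    exact Nat.dvd_antisymm h1 h6

/-- `S₄` maps onto `S₃` with kernel `V₄`. -/
theorem exists_four_three : ∃ f : Perm (Fin 4) →* Perm (Fin 3), Function.Surjective f ∧ f.ker = V4 := by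
  have hn := V4_normal
  have hc : Subgroup.centralizer (V4 : Set (Perm (Fin 4))) = V4 := by
    apply le_antisymm
    · intro σ hσ
      exact V4_centralizer (fun v hv => Subgroup.mem_centralizer_iff.1 hσ v hv)
    · have h4 : Nat.card V4 = 2 ^ 2 := by rw [V4_card]; norm_num
      have : Fact (Nat.Prime 2) := ⟨Nat.prime_two⟩
      exact Subgroup.le_centralizer_iff_isMulCommutative.2 (IsPGroup.isMulCommutative_of_card_eq_prime_sq h4)
  have hi := index_centralizer V4 V4_card V4_nc
  have hcard : Nat.card {v : V4 // v ≠ 1} = 3 := by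
    classical
    have := Fintype.ofFinite V4
    rw [Nat.card_eq_fintype_card, Fintype.card_subtype_compl, Fintype.card_subtype_eq,
      ← Nat.card_eq_fintype_card, V4_card]
  have hsurj : Function.Surjective (actHom V4) := by
    rw [← MonoidHom.range_eq_top]
    apply Subgroup.eq_top_of_card_eq
    rw [← Subgroup.index_ker, ker_actHom, hi, Nat.card_perm, hcard]
    rfl
  have e : {v : V4 // v ≠ 1} ≃ Fin 3 := Finite.equivFinOfCardEq hcard
  refine ⟨(Equiv.permCongrHom e).toMonoidHom.comp (actHom V4), (Equiv.permCongrHom e).surjective.comp hsurj, ?_⟩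
  refine Eq.trans ?_ ((ker_actHom V4).trans hc)
  ext σ
  rw [MonoidHom.mem_ker, MonoidHom.mem_ker]
  exact (Equiv.permCongrHom e).map_eq_one_iff

theorem involves_of_hom2 {A Q H : Type*} [Group A] [Group Q] [Group H] (ν : A →* Q) (f : A →* H)
    (hf : Function.Surjective f) (hker : ν.ker ≤ f.ker) : Cfsg.Involves H Q := by
  have hs : Function.Surjective ν.rangeRestrict := MonoidHom.rangeRestrict_surjective ν
  refine Cfsg.Agent.Lib.Involve.involves_of_hom (K := ν.range)
    (MonoidHom.liftOfSurjective ν.rangeRestrict hs ⟨f, by rw [MonoidHom.ker_rangeRestrict]; exact hker⟩) ?_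
  intro h
  obtain ⟨a, rfl⟩ := hf h
  refine ⟨ν.rangeRestrict a, ?_⟩
  exact MonoidHom.liftOfRightInverse_comp_apply _ _ _ _ _

/-- For a finite group G, the symmetric group of degree 4 is involved in G if and only if there is a 2-subgroup T of G such that the symmetric group of degree 3 is involved in N(T)/C(T). -/
theorem result {G : Type*} [Group G] [Finite G] : Cfsg.Involves (Equiv.Perm (Fin 4)) G ↔ ∃ T : Subgroup G, IsPGroup 2 ↥T ∧ Cfsg.Involves (Equiv.Perm (Fin 3)) (↥(Subgroup.normalizer (T : Set G)) ⧸ (Subgroup.centralizer (T : Set G)).subgroupOf (Subgroup.normalizer (T : Set G))) := by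
  have h2 : Fact (Nat.Prime 2) := ⟨Nat.prime_two⟩
  have h3 : Fact (Nat.Prime 3) := ⟨Nat.prime_three⟩
  constructor
  · intro h
    obtain ⟨K, f, hf⟩ := Cfsg.Agent.Lib.Involve.exists_hom h
    obtain ⟨g, hg, hgk⟩ := exists_four_three
    set M := (g.comp f).ker with hM
    have hMV : ∀ k : K, k ∈ M ↔ f k ∈ V4 := by
      intro k
      rw [hM, ← hgk]; rfl
    obtain ⟨P⟩ : Nonempty (Sylow 2 M) := inferInstance
    set T' : Subgroup K := (P : Subgroup M).map M.subtype with hT'
    have hF : normalizer (T' : Set K) ⊔ M = ⊤ := Sylow.normalizer_sup_eq_top P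
    -- f(T') = V4
    have hfT : ∀ v ∈ V4, ∃ t ∈ T', f t = v := by
      let fM : M →* V4 :=
        { toFun := fun m => ⟨f (m : K), (hMV m).1 m.2⟩
          map_one' := Subtype.ext (map_one f)
          map_mul' := fun a b => Subtype.ext (map_mul f (a : K) (b : K)) }
      have hfMs : Function.Surjective fM := by
        rintro ⟨v, hv⟩
        obtain ⟨k, rfl⟩ := hf v
        exact ⟨⟨k, (hMV k).2 hv⟩, rfl⟩
      have h5 : ¬ 2 ∣ ((P : Subgroup M).map fM).index := fun h => P.not_dvd_index (h.trans ((P : Subgroup M).index_map_dvd hfMs))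
      have h6 : ((P : Subgroup M).map fM).index ∣ 2 ^ 2 := by
        have : (2 ^ 2 : ℕ) = Nat.card V4 := by rw [V4_card]; norm_num
        rw [this]; exact Subgroup.index_dvd_card _
      obtain ⟨i, -, hi⟩ := (Nat.dvd_prime_pow Nat.prime_two).1 h6
      have h7 : ((P : Subgroup M).map fM).index = 1 := by
        rcases i with _ | i
        · rw [hi, pow_zero]
        · exact absurd (hi ▸ dvd_pow_self 2 (Nat.succ_ne_zero i)) h5
      rw [Subgroup.index_eq_one] at h7
      intro v hv
      have h8 : (⟨v, hv⟩ : V4) ∈ (P : Subgroup M).map fM := h7 ▸ Subgroup.mem_top _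
      obtain ⟨m, hm, h9⟩ := h8
      exact ⟨m, ⟨m, hm, rfl⟩, congrArg Subtype.val h9⟩
    refine ⟨T'.map K.subtype, (P.2.map _).map _, ?_⟩
    set T := T'.map K.subtype with hT
    have hNT : ∀ n : normalizer (T' : Set K), ((n : K) : G) ∈ normalizer (T : Set G) := by
      intro n
      apply mem_normalizer_of_forall
      rintro _ ⟨t, ht, rfl⟩
      exact ⟨n * t * (n : K)⁻¹, (Subgroup.mem_normalizer_iff.1 n.2 t).1 ht, rfl⟩
    set ν : normalizer (T' : Set K) →* normalizer (T : Set G) :=
      { toFun := fun n => ⟨((n : K) : G), hNT n⟩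
        map_one' := rfl
        map_mul' := fun _ _ => rfl } with hν
    apply involves_of_hom2 ((QuotientGroup.mk' _).comp ν) ((g.comp f).comp (normalizer (T' : Set K)).subtype)
    · intro s
      obtain ⟨k, rfl⟩ := (hg.comp hf) s
      have : k ∈ normalizer (T' : Set K) ⊔ M := hF ▸ Subgroup.mem_top k
      obtain ⟨n, hn, m, hm, rfl⟩ := Subgroup.mem_sup_of_normal_right.1 this
      refine ⟨⟨n, hn⟩, ?_⟩
      change (g.comp f) n = (g.comp f) (n * m)
      rw [map_mul, MonoidHom.mem_ker.1 hm, mul_one]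
    · intro n hn
      rw [MonoidHom.mem_ker] at hn
      have h4 : ν n ∈ (centralizer (T : Set G)).subgroupOf (normalizer (T : Set G)) :=
        (QuotientGroup.eq_one_iff _).1 hn
      rw [mem_subgroupOf] at h4
      change (n : K) ∈ M
      rw [hMV]
      apply V4_centralizer
      intro v hv
      obtain ⟨t, ht, rfl⟩ := hfT v hv
      rw [← map_mul, ← map_mul]
      congr 1
      exact Subtype.ext (mem_centralizer_iff.1 h4 t ⟨t, ht, rfl⟩)
  · rintro ⟨T, hT, h⟩
    obtain ⟨e⟩ := perm_three
    have h4 := Cfsg.Agent.Lib.Involve.involves_of_equiv e h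
    obtain ⟨x, y, ⟨k, hk⟩, ⟨j, hj⟩, hy1, hxy⟩ := (Cfsg.Agent.S2758.result (p := 3) (by norm_num)).2.1 h4
    have hj0 : j ≠ 0 := by
      rintro rfl
      rw [pow_zero] at hj
      exact hy1 (orderOf_eq_one_iff.1 hj)
    obtain ⟨i, rfl⟩ := Nat.exists_eq_succ_of_ne_zero hj0
    set y1 := y ^ (3 ^ i) with hy1'
    have hy1o : orderOf y1 = 3 := by
      rw [hy1', orderOf_pow_of_dvd (pow_ne_zero _ (by norm_num)) (by rw [hj]; exact pow_dvd_pow 3 (Nat.le_succ i)), hj,
        Nat.succ_eq_add_one, Nat.pow_div (Nat.le_succ i) (by norm_num)]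
      simp
    have hxy1 : x * y1 * x⁻¹ = y1⁻¹ := by
      rw [hy1', ← conj_pow, hxy, inv_pow]
    have hfs := QuotientGroup.mk'_surjective ((centralizer (T : Set G)).subgroupOf (normalizer (T : Set G)))
    obtain ⟨a, ha, ja, hja⟩ := lift_pelement (p := 2) _ hfs x ⟨k, hk⟩
    obtain ⟨b, hb, jb, hjb⟩ := lift_pelement (p := 3) _ hfs y1 ⟨1, by rw [hy1o, pow_one]⟩
    have hmem : ∀ n : normalizer (T : Set G), QuotientGroup.mk' ((centralizer (T : Set G)).subgroupOf (normalizer (T : Set G))) n = 1
        ↔ (n : G) ∈ centralizer (T : Set G) := by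
      intro n
      rw [QuotientGroup.mk'_apply, QuotientGroup.eq_one_iff, mem_subgroupOf]
    apply three_step T hT a b ⟨ja, by rw [← hja]; exact Subgroup.orderOf_coe a⟩
      ⟨jb, by rw [← hjb]; exact Subgroup.orderOf_coe b⟩ a.2 b.2
    · rw [← hmem, hb]
      intro h5
      rw [h5, orderOf_one] at hy1o
      norm_num at hy1o
    · have : ((b ^ 3 : normalizer (T : Set G)) : G) = (b : G) ^ 3 := rfl
      rw [← this, ← hmem, map_pow, hb, ← hy1o, pow_orderOf_eq_one]
    · have : ((a * b * a⁻¹ * b : normalizer (T : Set G)) : G) = a * b * (a : G)⁻¹ * b := rfl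
      rw [← this, ← hmem, map_mul, map_mul, map_mul, map_inv, ha, hb, hxy1, inv_mul_cancel]

end Cfsg.Agent.S2759
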