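import Cfsg.Statements.S2760
import Cfsg.Agent.Lib.LocBase

set_option autoImplicit false
open Cfsg

namespace Cfsg.Agent.S2760

open Subgroup Cfsg Cfsg.Agent.Lib.LocBase in
theorem aux {G : Type*} [Group G] [Finite G] {p : ℕ} [Fact p.Prime] {H : Subgroup G}
    (hR : IsCharP p (pRes p H)) : IsCharP p H := by
  unfold IsCharP
  set C := H ⊓ centralizer (pCoreOf p H : Set G) with hC
  have hHC : H ≤ normalizer (C : Set G) :=
    le_normalizer_inf le_normalizer (le_normalizer_centralizer (le_normalizer_pCoreOf p H))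
  have h0 : pCoreOf p (pRes p H) ≤ pCoreOf p H := by
    apply Cfsg.Agent.Lib.LocBase.le_pCoreOf ((Cfsg.Agent.Lib.LocBase.pCoreOf_le _).trans (pRes_le p H))
    · exact (le_normalizer_pRes p H).trans (normalizer_le_normalizer_pCoreOf p _)
    · exact isPGroup_pCoreOf p _
  have h1 : pRes p C ≤ pRes p H := pRes_mono inf_le_left
  have h2 : pRes p C ≤ centralizer (pCoreOf p (pRes p H) : Set G) :=
    (pRes_le p C).trans (inf_le_right.trans (centralizer_le h0))
  have h3 : pRes p C ≤ pCoreOf p (pRes p H) := (le_inf h1 h2).trans hR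
  have h4 : IsPGroup p ↥(pRes p C) := (isPGroup_pCoreOf p _).to_le h3
  have h5 : IsPGroup p C := by
    rw [isPGroup_iff_pRes_eq_bot] at h4 ⊢
    rwa [pRes_pRes] at h4
  exact Cfsg.Agent.Lib.LocBase.le_pCoreOf inf_le_left hHC h5

/-- Let G be a finite group with C_G(O₂(G)) ≤ O₂(G) and H a subgroup of G such that H is normal in G, or the subgroup O²(H) generated by the elements of H of odd order is normal in G. Then C_H(O₂(H)) ≤ O₂(H). -/
theorem result {G : Type*} [Group G] [Finite G] (hchar : Subgroup.centralizer (Cfsg.pCore 2 G : Set G) ≤ Cfsg.pCore 2 G) (H : Subgroup G) (hH : H.Normal ∨ ((Cfsg.pResidual 2 ↥H).map H.subtype).Normal) : Subgroup.centralizer (Cfsg.pCore 2 ↥H : Set ↥H) ≤ Cfsg.pCore 2 ↥H := by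
  have hf : Fact (Nat.Prime 2) := ⟨Nat.prime_two⟩
  rw [← Cfsg.Agent.Lib.LocBase.isCharP_top] at hchar
  rw [← Cfsg.Agent.Lib.LocBase.isCharP_iff]
  rcases hH with hH | hH
  · exact hchar.of_normal le_top (by rw [Subgroup.normalizer_eq_top])
  · apply aux
    rw [Cfsg.Agent.Lib.LocBase.map_pResidual] at hH
    exact hchar.of_normal le_top (by rw [Subgroup.normalizer_eq_top])

end Cfsg.Agent.S2760
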