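import Cfsg.Statements.S2762
import Cfsg.Agent.Lib.QdAffine

set_option autoImplicit false
open Cfsg

namespace Cfsg.Agent.S2762

open Cfsg.Agent.Lib.QdAffine Matrix

variable {F : Type*} [Field F]

/-- translations as an additive equivalence -/
def psi (F : Type*) [Field F] : Additive ↥(block (F := F)).ker ≃+ (Fin 2 → F) where
  toFun v := ![ent (Additive.toMul v).1 0 2, ent (Additive.toMul v).1 1 2]
  invFun w := Additive.ofMul ⟨tr w, tr_mem_ker w⟩
  left_inv v := by
    apply Subtype.ext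
    exact ((mem_ker_iff _).1 (Additive.toMul v).2).symm
  right_inv w := by
    ext i
    fin_cases i <;> rfl
  map_add' v w := by
    have hv := (mem_ker_iff _).1 (Additive.toMul v).2
    have hw := (mem_ker_iff _).1 (Additive.toMul w).2
    have h : ((Additive.toMul (v + w)).1 : ↥(qdOver F)) =
        (Additive.toMul v).1 * (Additive.toMul w).1 := rfl
    rw [h]
    conv_lhs => rw [hv, hw, ← tr_add]
    ext i
    fin_cases i <;> rfl

theorem mem_emb_range (M : ↥(qdOver F)) :
    M ∈ (emb (F := F)).range ↔ ent M 0 2 = 0 ∧ ent M 1 2 = 0 := by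
  constructor
  · rintro ⟨A, rfl⟩
    exact ⟨rfl, rfl⟩
  · rintro ⟨h0, h1⟩
    refine ⟨block M, ?_⟩
    have := eq_tr_mul_emb M
    rw [h0, h1] at this
    have h2 : tr (![0, 0] : Fin 2 → F) = 1 := by
      rw [← tr_zero]; congr 1; ext i; fin_cases i <;> rfl
    rw [h2, one_mul] at this
    exact this.symm

theorem natural_module (F : Type*) [Field F] :
    IsNaturalSL2Module F (block (F := F)).ker (emb (F := F)).range := by
  refine ⟨?_, (block (F := F)).comp (emb (F := F)).range.subtype, psi F, ?_, ?_, ?_⟩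
  · rw [Subgroup.normalizer_eq_top]
    exact le_top
  · intro A
    exact ⟨⟨emb A, A, rfl⟩, block_emb A⟩
  · ext ⟨M, A, rfl⟩
    rw [MonoidHom.mem_ker, Subgroup.mem_subgroupOf]
    constructor
    · intro h
      have h1 : A = 1 := by
        have : block (emb A) = 1 := h
        rwa [block_emb] at this
      show emb A ∈ _
      rw [h1, map_one]
      exact Subgroup.one_mem _
    · intro h
      have hc := Subgroup.mem_centralizer_iff.1 h
      show block (emb A) = 1
      rw [block_emb]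
      have key : ∀ v : Fin 2 → F, (A : Matrix (Fin 2) (Fin 2) F) *ᵥ v = v := by
        intro v
        apply tr_injective
        have h1 := hc (tr v) (tr_mem_ker v)
        have h2 := conj_tr (emb A) v
        rw [block_emb] at h2
        rw [← h2]
        show emb A * tr v * (emb A)⁻¹ = tr v
        rw [mul_inv_eq_iff_eq_mul]
        exact h1.symm
      ext i j
      have h3 := congrFun (key (Pi.single j 1)) i
      rw [Matrix.mulVec_single_one] at h3
      rw [Matrix.SpecialLinearGroup.coe_one, Matrix.one_apply]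
      simpa [Matrix.col_apply, Pi.single_apply] using h3
  · rintro ⟨M, A, rfl⟩ ⟨v, hv⟩
    have hv' := (mem_ker_iff _).1 hv
    refine ⟨⟨emb A * v * (emb A)⁻¹, ?_⟩, rfl, ?_⟩
    · exact (inferInstance : (block (F := F)).ker.Normal).conj_mem v hv _
    · have h1 : emb A * v * (emb A)⁻¹ = tr ((A : Matrix (Fin 2) (Fin 2) F) *ᵥ ![ent v 0 2, ent v 1 2]) := by
        conv_lhs => rw [hv', conj_tr, block_emb]
      have h2 : ∀ u : ↥(block (F := F)).ker, ∀ w : Fin 2 → F, u.1 = tr w → psi F (Additive.ofMul u) = w := by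
        intro u w hu
        ext i
        fin_cases i
        · show ent u.1 0 2 = w 0
          rw [hu]; rfl
        · show ent u.1 1 2 = w 1
          rw [hu]; rfl
      rw [h2 _ _ h1]
      show _ = ((block (emb A) : Matrix.SpecialLinearGroup (Fin 2) F) : Matrix (Fin 2) (Fin 2) F) *ᵥ _
      rw [block_emb]
      rfl

/-- Structure of Qd over a finite field F of characteristic p (the affine subgroup of SL₃(F)): its largest normal p-subgroup is the group of translations (matrices with upper-left block the identity), the block-diagonal matrices form a complement isomorphic to SL₂(F), and the translation subgroup is a natural SL₂(F)-module for that complement. -/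
theorem result {F : Type*} [Field F] [Fintype F] {p : ℕ} [Fact p.Prime] [CharP F p] : (∀ M : ↥(Cfsg.qdOver F), M ∈ Cfsg.pCore p ↥(Cfsg.qdOver F) ↔ ((M : Matrix.SpecialLinearGroup (Fin 3) F) : Matrix (Fin 3) (Fin 3) F) 0 0 = 1 ∧ ((M : Matrix.SpecialLinearGroup (Fin 3) F) : Matrix (Fin 3) (Fin 3) F) 0 1 = 0 ∧ ((M : Matrix.SpecialLinearGroup (Fin 3) F) : Matrix (Fin 3) (Fin 3) F) 1 0 = 0 ∧ ((M : Matrix.SpecialLinearGroup (Fin 3) F) : Matrix (Fin 3) (Fin 3) F) 1 1 = 1) ∧ ∃ K : Subgroup ↥(Cfsg.qdOver F), (∀ M : ↥(Cfsg.qdOver F), M ∈ K ↔ ((M : Matrix.SpecialLinearGroup (Fin 3) F) : Matrix (Fin 3) (Fin 3) F) 0 2 = 0 ∧ ((M : Matrix.SpecialLinearGroup (Fin 3) F) : Matrix (Fin 3) (Fin 3) F) 1 2 = 0) ∧ K ⊓ Cfsg.pCore p ↥(Cfsg.qdOver F) = ⊥ ∧ K ⊔ Cfsg.pCore p ↥(Cfsg.qdOver F) = ⊤ ∧ Nonempty (↥K ≃* Matrix.SpecialLinearGroup (Fin 2) F) ∧ Cfsg.IsNaturalSL2Module F (Cfsg.pCore p ↥(Cfsg.qdOver F)) K := by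
  have hpc : Cfsg.pCore p ↥(Cfsg.qdOver F) = (Cfsg.Agent.Lib.QdAffine.block (F := F)).ker :=
    Cfsg.Agent.Lib.QdAffine.pCore_eq_ker
  rw [hpc]
  refine ⟨?_, (Cfsg.Agent.Lib.QdAffine.emb (F := F)).range, ?_, ?_, ?_, ?_, natural_module F⟩
  · intro M
    rw [MonoidHom.mem_ker, Cfsg.Agent.Lib.QdAffine.block_eq_one_iff]
    rfl
  · intro M
    exact mem_emb_range M
  · rw [eq_bot_iff]
    rintro M ⟨⟨A, rfl⟩, hM⟩
    have h1 : Cfsg.Agent.Lib.QdAffine.block (Cfsg.Agent.Lib.QdAffine.emb A) = 1 := hM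
    rw [Cfsg.Agent.Lib.QdAffine.block_emb] at h1
    rw [h1, map_one]
    exact Subgroup.one_mem _
  · rw [eq_top_iff]
    intro M _
    rw [Cfsg.Agent.Lib.QdAffine.eq_tr_mul_emb M]
    exact Subgroup.mul_mem _ (Subgroup.mem_sup_right (Cfsg.Agent.Lib.QdAffine.tr_mem_ker _))
      (Subgroup.mem_sup_left ⟨_, rfl⟩)
  · refine ⟨(MonoidHom.ofInjective (f := Cfsg.Agent.Lib.QdAffine.emb (F := F)) ?_).symm⟩
    intro A B h
    have := congrArg Cfsg.Agent.Lib.QdAffine.block h
    rwa [Cfsg.Agent.Lib.QdAffine.block_emb, Cfsg.Agent.Lib.QdAffine.block_emb] at this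

end Cfsg.Agent.S2762
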