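import Cfsg.Statements.S2772
import Cfsg.Agent.Lib.AmR

set_option autoImplicit false
open Cfsg

namespace Cfsg.Agent.S2772

open Cfsg.Agent.Lib Cfsg.Agent.Lib.AmG Cfsg.Agent.Lib.ZN Cfsg.Agent.Lib.LocBase Cfsg.Agent.Lib.TvStruct

/-- Sims' Theorem in local form: let H be a finite non-abelian simple group and G a maximal subgroup of H with C_G(O₂(G)) ≤ O₂(G), such that N_H(S) is not contained in G for a Sylow 2-subgroup S of G and G/O₂(G) is dihedral of order 2q for a prime q. Then G is isomorphic to the symmetric group of degree 4 or to its direct product with a group of order 2. -/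
theorem result {H : Type*} [Group H] [Finite H] [IsSimpleGroup H] (hna : ¬ IsMulCommutative H) (G : Subgroup H) (hG : IsCoatom G) (hchar : Subgroup.centralizer (Cfsg.pCore 2 ↥G : Set ↥G) ≤ Cfsg.pCore 2 ↥G) (S : Sylow 2 ↥G) (hN : ¬ Subgroup.normalizer (((S : Subgroup ↥G).map G.subtype : Subgroup H) : Set H) ≤ G) (q : ℕ) (hq : q.Prime) (hD : Nonempty (↥G ⧸ Cfsg.pCore 2 ↥G ≃* DihedralGroup q)) : Nonempty (↥G ≃* Equiv.Perm (Fin 4)) ∨ Nonempty (↥G ≃* Equiv.Perm (Fin 4) × Multiplicative (ZMod 2)) := by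
  have hfact : Fact (Nat.Prime 2) := ⟨Nat.prime_two⟩
  set T : Subgroup H := (S : Subgroup ↥G).map G.subtype with hTd
  have hsyl : IsSyl 2 T G := isSyl_map_subtype S
  have hidx : (Cfsg.pCoreOf 2 G).relIndex G = 2 * q := by
    show ((Cfsg.pCoreOf 2 G).subgroupOf G).index = 2 * q
    rw [pCoreOf_subgroupOf]
    obtain ⟨e⟩ := hD
    rw [Subgroup.index_eq_card, Nat.card_congr e.toEquiv]
    have : NeZero q := ⟨hq.ne_zero⟩
    rw [Nat.card_eq_fintype_card, DihedralGroup.card]
  have hGtop : G ≠ ⊤ := hG.1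
  have hnorm : ∀ N : Subgroup H, N.Normal → N ≤ G → N = ⊥ := by
    intro N hN hle
    rcases hN.eq_bot_or_eq_top with e | e
    · exact e
    · exfalso; apply hGtop; rw [eq_top_iff, ← e]; exact hle
  have hnt : ∀ N : Subgroup H, N ≤ G → G ≤ Subgroup.normalizer (N : Set H) → N ≠ ⊥ →
      Subgroup.normalizer (N : Set H) = G := by
    intro N hN hle hne
    by_contra hcon
    have h1 : G < Subgroup.normalizer (N : Set H) := lt_of_le_of_ne hle (Ne.symm hcon)
    have h2 := hG.2 _ h1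
    exact hne (hnorm N (Subgroup.normalizer_eq_top_iff.mp h2) hN)
  have hcore : Cfsg.pCoreOf 2 G ≠ ⊥ := by
    intro e
    have h1 : Cfsg.pCore 2 ↥G = ⊥ := by
      have h2 := pCoreOf_subgroupOf 2 G
      rw [e, Subgroup.bot_subgroupOf] at h2
      exact h2.symm
    rw [h1] at hchar
    have h2 : (⊤ : Subgroup ↥G) ≤ ⊥ := by
      refine le_trans ?_ hchar
      intro x _ y hy
      have hy' : y = 1 := hy
      rw [hy']; simp
    have h3 : G = ⊥ := by
      rw [eq_bot_iff]
      intro x hx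
      have := h2 (Subgroup.mem_top (⟨x, hx⟩ : ↥G))
      rw [Subgroup.mem_bot] at this
      exact congrArg Subtype.val this
    rw [h3, Subgroup.relIndex_bot_right] at hidx
    omega
  have hcent : Subgroup.centralizer (Cfsg.pCoreOf 2 G : Set H) ≤ Cfsg.pCoreOf 2 G := by
    have h1 := hnt _ (pCoreOf_le G) (le_normalizer_pCoreOf 2 G) hcore
    intro x hx
    have hxG : x ∈ G := by
      rw [← h1]; exact Subgroup.centralizer_le_normalizer _ hx
    have h2 : (⟨x, hxG⟩ : ↥G) ∈ Subgroup.centralizer (Cfsg.pCore 2 ↥G : Set ↥G) := by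
      intro y hy
      have h3 : (y : H) ∈ Cfsg.pCoreOf 2 G := ⟨y, hy, rfl⟩
      exact Subtype.ext (hx y h3)
    exact ⟨_, hchar h2, rfl⟩
  obtain ⟨g, hgN, hgG⟩ := SetLike.not_le_iff_exists.mp hN
  have hGbot : G ≠ ⊥ := by
    intro e
    apply hcore
    rw [eq_bot_iff]
    calc Cfsg.pCoreOf 2 G ≤ G := pCoreOf_le G
      _ = ⊥ := e
  have hNG : Subgroup.normalizer (G : Set H) = G := hnt G le_rfl Subgroup.le_normalizer hGbot
  have hsp : SP T G g q := by
    refine ⟨hsyl, hcent, hidx, hq, hgN, ?_⟩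
    intro N hN h1 h2
    by_contra hne
    have h3 := hnt N (hN.trans hsyl.le) h1 hne
    rw [h3] at h2
    apply hgG
    rw [← hNG]
    exact mem_normalizer_of_map_conj_le h2
  exact hsp.final

end Cfsg.Agent.S2772
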