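import Cfsg.Statements.S2779
import Cfsg.Agent.Lib.NatSL2

set_option autoImplicit false
open Cfsg

namespace Cfsg.Agent.S2779

open Cfsg.Agent.Lib.NatSL2 Cfsg.Agent.Lib.ClSL2 Matrix in
theorem aux {G : Type*} [Group G] {F : Type*} [Field F] {V L : Subgroup G} (C : Param F V L)
    {T : Subgroup G} (hTL : T ≤ L) (hT : ∀ l : L, (l : G) ∈ T ↔ ∃ b : F, C.ρ l = uS b) :
    V ⊓ Subgroup.centralizer (T : Set G) = C.W ∧ (∀ v ∈ V, ∀ t ∈ T, v * t * v⁻¹ * t⁻¹ ∈ C.W) ∧
    ∀ s ∈ T, s ≠ 1 → V ⊓ Subgroup.centralizer ({s} : Set G) = C.W ∧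
      (∀ w ∈ C.W, ∃ v ∈ V, v * s * v⁻¹ * s⁻¹ = w) ∧
      (∀ v ∈ V, v ∉ C.W → ∀ w ∈ C.W, ∃ t ∈ T, w = v * t * v⁻¹ * t⁻¹) := by
  have hlift : ∀ b : F, ∃ l : L, (l : G) ∈ T ∧ C.ρ l = uS b := by
    intro b
    refine ⟨C.ρ.symm (uS b), (hT _).2 ⟨b, ?_⟩, ?_⟩ <;> simp
  have h1 : V ⊓ Subgroup.centralizer (T : Set G) = C.W := by
    apply le_antisymm
    · obtain ⟨l, hl, hl2⟩ := hlift 1
      rw [← C.inf_centralizer_singleton hl2 one_ne_zero]
      apply inf_le_inf_left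
      apply Subgroup.centralizer_le
      simpa using hl
    · intro v hv
      refine Subgroup.mem_inf.2 ⟨C.W_le hv, ?_⟩
      rw [Subgroup.mem_centralizer_iff]
      intro t ht
      obtain ⟨b, hb⟩ := (hT ⟨t, hTL ht⟩).1 ht
      by_cases hb0 : b = 0
      · rw [hb0, uS_zero] at hb
        have h2 : (⟨t, hTL ht⟩ : L) = 1 := by
          apply C.ρ.injective
          rw [hb, map_one]
        have h3 : t = 1 := congrArg Subtype.val h2
        rw [h3]; simp
      · have := C.inf_centralizer_singleton hb hb0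
        rw [← this] at hv
        exact (Subgroup.mem_centralizer_singleton_iff.1 (Subgroup.mem_inf.1 hv).2).symm
  refine ⟨h1, ?_, ?_⟩
  · intro v hv t ht
    obtain ⟨b, hb⟩ := (hT ⟨t, hTL ht⟩).1 ht
    obtain ⟨x, rfl⟩ := (C.mem v).1 hv
    have h2 := C.commutator_e ⟨t, hTL ht⟩ x
    rw [hb] at h2
    have h2' : C.e x * t * (C.e x)⁻¹ * t⁻¹ = C.e (x - mulVec (uS b : SpecialLinearGroup (Fin 2) F).1 x) := h2
    rw [h2', C.e_mem_W, Param.mulVec_uS]
    simp
  · intro s hs hs1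
    obtain ⟨b, hb⟩ := (hT ⟨s, hTL hs⟩).1 hs
    have hb0 : b ≠ 0 := by
      rintro rfl
      rw [uS_zero] at hb
      have h2 : (⟨s, hTL hs⟩ : L) = 1 := by
        apply C.ρ.injective
        rw [hb, map_one]
      exact hs1 (congrArg Subtype.val h2)
    refine ⟨C.inf_centralizer_singleton hb hb0, ?_, ?_⟩
    · rintro _ ⟨a, rfl⟩
      refine ⟨C.e ![0, -a / b], C.e_mem _, ?_⟩
      have h2 := C.commutator_e ⟨s, hTL hs⟩ ![0, -a / b]
      rw [hb] at h2
      have h2' : C.e ![0, -a / b] * s * (C.e ![0, -a / b])⁻¹ * s⁻¹ =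
        C.e (![0, -a / b] - mulVec (uS b : SpecialLinearGroup (Fin 2) F).1 ![0, -a / b]) := h2
      rw [h2', Param.mulVec_uS]
      congr 1
      ext i
      fin_cases i
      · simp; field_simp
      · simp
    · intro v hv hvW
      rintro _ ⟨a, rfl⟩
      obtain ⟨x, rfl⟩ := (C.mem v).1 hv
      rw [C.e_mem_W] at hvW
      obtain ⟨l, hl, hl2⟩ := hlift (-a / x 1)
      refine ⟨l, hl, ?_⟩
      rw [C.commutator_e, hl2]
      have h2' : C.e (x - mulVec (uS (-a / x 1) : SpecialLinearGroup (Fin 2) F).1 x) = C.e ![a, 0] := by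
        rw [Param.mulVec_uS]
        congr 1
        ext i
        fin_cases i
        · simp; field_simp
        · simp
      exact h2'.symm

/-- Let L act on the elementary abelian p-group V (inside a finite group, by conjugation, faithfully) as SL₂(F) on its natural module, F a field with p^n elements, and let S be a Sylow p-subgroup of L. Then [V, S, S] = 1; |V| = p^(2n) and |C_V(S)| = p^n; and for every nonidentity s ∈ S and every v ∈ V outside C_V(S): C_V(s) = C_V(S) = [V, S] = [V, s] = the subgroup generated by the commutators [v, t], t ∈ S. -/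
theorem result {G : Type*} [Group G] [Finite G] {p : ℕ} [Fact p.Prime] {F : Type*} [Field F] [Fintype F] (n : ℕ) (hF : Fintype.card F = p ^ n) (V L : Subgroup G) (hnat : Cfsg.IsNaturalSL2Module F V L) (hf : L ⊓ Subgroup.centralizer (V : Set G) = ⊥) (S : Sylow p ↥L) (T : Subgroup G) (hT : T = ((S : Subgroup ↥L).map L.subtype)) : ⁅⁅V, T⁆, T⁆ = ⊥ ∧ Nat.card V = p ^ (2 * n) ∧ Nat.card ↥(V ⊓ Subgroup.centralizer ((T : Subgroup G) : Set G)) = p ^ n ∧ ∀ s ∈ T, s ≠ 1 → (V ⊓ Subgroup.centralizer ({s} : Set G)) = (V ⊓ Subgroup.centralizer ((T : Subgroup G) : Set G)) ∧ ⁅V, T⁆ = (V ⊓ Subgroup.centralizer ((T : Subgroup G) : Set G)) ∧ ⁅V, Subgroup.zpowers s⁆ = (V ⊓ Subgroup.centralizer ((T : Subgroup G) : Set G)) ∧ ∀ v ∈ V, v ∉ Subgroup.centralizer (T : Set G) → Subgroup.closure {x : G | ∃ t ∈ T, x = v * t * v⁻¹ * t⁻¹} = (V ⊓ Subgroup.centralizer ((T : Subgroup G) : Set G)) := by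
  obtain ⟨C, hC⟩ := Cfsg.Agent.Lib.NatSL2.exists_param_sylow hF hnat hf S
  have hTL : T ≤ L := by
    rw [hT]; rintro _ ⟨l, -, rfl⟩; exact l.2
  have hCT : ∀ l : L, (l : G) ∈ T ↔ ∃ b : F, C.ρ l = Cfsg.Agent.Lib.ClSL2.uS b := by
    intro l
    rw [← hC, hT]
    constructor
    · rintro ⟨l', hl', h⟩
      have : l' = l := Subtype.ext h
      rw [← this]; exact hl'
    · intro h; exact ⟨l, h, rfl⟩
  obtain ⟨h1, h2, h3⟩ := aux C hTL hCT
  have hVT : ⁅V, T⁆ ≤ C.W := Subgroup.commutator_le.2 h2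
  have hWT : ⁅C.W, T⁆ = ⊥ := by
    rw [Subgroup.commutator_eq_bot_iff_le_centralizer, ← h1]
    exact inf_le_right
  refine ⟨?_, ?_, ?_, ?_⟩
  · rw [eq_bot_iff, ← hWT]
    exact Subgroup.commutator_mono hVT le_rfl
  · rw [C.card_V, hF, ← pow_mul, mul_comm]
  · rw [h1, C.card_W, hF]
  · intro s hs hs1
    obtain ⟨h4, h5, h6⟩ := h3 s hs hs1
    rw [h1]
    have hsT : Subgroup.zpowers s ≤ T := by rwa [Subgroup.zpowers_le]
    have h7 : C.W ≤ ⁅V, Subgroup.zpowers s⁆ := by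
      intro w hw
      obtain ⟨v, hv, rfl⟩ := h5 w hw
      exact Subgroup.commutator_mem_commutator hv (Subgroup.mem_zpowers s)
    have h8 : ⁅V, Subgroup.zpowers s⁆ ≤ ⁅V, T⁆ := Subgroup.commutator_mono le_rfl hsT
    refine ⟨h4, le_antisymm hVT (h7.trans h8), le_antisymm (h8.trans hVT) h7, ?_⟩
    intro v hv hvC
    have hvW : v ∉ C.W := by
      intro h
      rw [← h1] at h
      exact hvC h.2
    apply le_antisymm
    · rw [Subgroup.closure_le]
      rintro _ ⟨t, ht, rfl⟩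
      exact h2 v hv t ht
    · intro w hw
      obtain ⟨t, ht, h⟩ := h6 v hv hvW w hw
      exact Subgroup.subset_closure ⟨t, ht, h⟩

end Cfsg.Agent.S2779
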