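import Cfsg.Statements.S2780
import Cfsg.Agent.Lib.NatSL2
import Cfsg.Agent.S2779
import Cfsg.Agent.Lib.SylowRel

set_option autoImplicit false
open Cfsg

namespace Cfsg.Agent.S2780

open Cfsg.Agent.Lib.NatSL2 Cfsg.Agent.Lib.ClSL2 Matrix

section
variable {G : Type*} [Group G] {F : Type*} [Field F] {V L : Subgroup G}

/-- the split torus element `diag(t, t⁻¹)` -/
def dg (t : Fˣ) : SpecialLinearGroup (Fin 2) F := ⟨!![(t : F), 0; 0, (t⁻¹ : Fˣ)], by simp [det_fin_two]⟩

theorem mulVec_dg (t : Fˣ) (x : Fin 2 → F) : mulVec (dg t).1 x = ![(t : F) * x 0, (t⁻¹ : Fˣ) * x 1] := by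
  have h : (dg t).1 = !![(t : F), 0; 0, (t⁻¹ : Fˣ)] := rfl
  rw [h]
  ext i
  fin_cases i <;> simp [mulVec, dotProduct, Fin.sum_univ_two]

theorem dg_conj_uS (t : Fˣ) (b : F) : dg t * uS b * (dg t)⁻¹ = uS (t * b * t) := by
  rw [mul_inv_eq_iff_eq_mul]
  apply Subtype.ext
  have h1 : (dg t * uS b).1 = !![(t : F), 0; 0, (t⁻¹ : Fˣ)] * !![1, b; 0, 1] := by
    rw [← coe_uS b]; rfl
  have h2 : (uS (t * b * t) * dg t).1 = !![1, t * b * t; 0, 1] * !![(t : F), 0; 0, (t⁻¹ : Fˣ)] := by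
    rw [← coe_uS]; rfl
  rw [h1, h2]
  ext i j
  fin_cases i <;> fin_cases j <;> simp [Matrix.mul_apply, Fin.sum_univ_two, mul_assoc]

/-- an element fixing a nonzero vector has trace `2` -/
theorem trace_of_fixed {g : SpecialLinearGroup (Fin 2) F} {x : Fin 2 → F} (hx : x ≠ 0)
    (h : mulVec g.1 x = x) : g.1 0 0 + g.1 1 1 = 2 := by
  have hdet : g.1 0 0 * g.1 1 1 - g.1 0 1 * g.1 1 0 = 1 := by
    rw [← det_fin_two]; exact g.2
  have h0 : g.1 0 0 * x 0 + g.1 0 1 * x 1 = x 0 := by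
    have := congrFun h 0
    simpa [mulVec, dotProduct, Fin.sum_univ_two] using this
  have h1 : g.1 1 0 * x 0 + g.1 1 1 * x 1 = x 1 := by
    have := congrFun h 1
    simpa [mulVec, dotProduct, Fin.sum_univ_two] using this
  have e0 : (2 - g.1 0 0 - g.1 1 1) * x 0 = 0 := by
    linear_combination (g.1 1 1 - 1) * h0 - g.1 0 1 * h1 - x 0 * hdet
  have e1 : (2 - g.1 0 0 - g.1 1 1) * x 1 = 0 := by
    linear_combination (g.1 0 0 - 1) * h1 - g.1 1 0 * h0 - x 1 * hdet
  have : x 0 ≠ 0 ∨ x 1 ≠ 0 := by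
    by_contra hc
    push Not at hc
    exact hx (by ext i; fin_cases i <;> simp [hc])
  rcases this with h | h
  · have := (mul_eq_zero.1 e0).resolve_right h
    linear_combination -this
  · have := (mul_eq_zero.1 e1).resolve_right h
    linear_combination -this

/-- elements of the Borel subgroup normalise the unitriangular subgroup -/
theorem borel_conj {M : SpecialLinearGroup (Fin 2) F} (hM : M.1 1 0 = 0) (b : F) :
    ∃ b', M * uS b * M⁻¹ = uS b' := by
  have hdet : M.1 0 0 * M.1 1 1 = 1 := by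
    have := M.2
    rw [det_fin_two, hM, mul_zero, sub_zero] at this
    exact this
  have h1 : M.1 1 1 ≠ 0 := right_ne_zero_of_mul_eq_one hdet
  refine ⟨M.1 0 0 * b / M.1 1 1, ?_⟩
  rw [mul_inv_eq_iff_eq_mul]
  apply Subtype.ext
  have h2 : (M * uS b).1 = M.1 * !![1, b; 0, 1] := by
    rw [← coe_uS b]; rfl
  have h3 : (uS (M.1 0 0 * b / M.1 1 1) * M).1 = !![1, M.1 0 0 * b / M.1 1 1; 0, 1] * M.1 := by
    rw [← coe_uS]; rfl
  rw [h2, h3]
  ext i j
  fin_cases i <;> fin_cases j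
  · simp [Matrix.mul_apply, Fin.sum_univ_two, hM]
  · simp [Matrix.mul_apply, Fin.sum_univ_two]
    field_simp
    ring
  · simp [Matrix.mul_apply, Fin.sum_univ_two, hM]
  · simp [Matrix.mul_apply, Fin.sum_univ_two, hM]

theorem mem_normalizer_of_borel (C : Param F V L) {T : Subgroup G} (hTL : T ≤ L)
    (hT : ∀ l : L, (l : G) ∈ T ↔ ∃ b : F, C.ρ l = uS b) {g : L} (hg : (C.ρ g).1 1 0 = 0) :
    (g : G) ∈ Subgroup.normalizer (T : Set G) := by
  have key : ∀ (k : L), (C.ρ k).1 1 0 = 0 → ∀ t ∈ T, (k : G) * t * (k : G)⁻¹ ∈ T := by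
    intro k hk t ht
    obtain ⟨b, hb⟩ := (hT ⟨t, hTL ht⟩).1 ht
    have : ((k * ⟨t, hTL ht⟩ * k⁻¹ : L) : G) ∈ T := by
      rw [hT]
      obtain ⟨b', hb'⟩ := borel_conj hk b
      exact ⟨b', by rw [map_mul, map_mul, map_inv, hb, hb']⟩
    exact this
  have hinv : (C.ρ g⁻¹).1 1 0 = 0 := by
    rw [map_inv]
    have : (C.ρ g)⁻¹.1 = adjugate (C.ρ g).1 := rfl
    rw [this, adjugate_fin_two]
    simp [hg]
  rw [Subgroup.mem_normalizer_iff]
  intro t
  constructor
  · exact key g hg t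
  · intro ht
    have := key g⁻¹ hinv _ ht
    simpa [mul_assoc] using this

end

/-- Let L act on the elementary abelian p-group V (inside a finite group, faithfully) as SL₂(F) on its natural module, F a field with p^n elements, S a Sylow p-subgroup of L. Then: for every g ∈ L not normalizing S, V is the internal direct product of C_V(S) and C_V(gSg⁻¹); every nonidentity element of L of order prime to p acts on V without nonidentity fixed points; and C_V(S) and V/C_V(S) are irreducible for N_L(S): the only N_L(S)-invariant subgroups of C_V(S) are 1 and C_V(S), and the only N_L(S)-invariant subgroups between C_V(S) and V are those two. -/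
theorem result {G : Type*} [Group G] [Finite G] {p : ℕ} [Fact p.Prime] {F : Type*} [Field F] [Fintype F] (n : ℕ) (hF : Fintype.card F = p ^ n) (V L : Subgroup G) (hnat : Cfsg.IsNaturalSL2Module F V L) (hf : L ⊓ Subgroup.centralizer (V : Set G) = ⊥) (S : Sylow p ↥L) (T : Subgroup G) (hT : T = ((S : Subgroup ↥L).map L.subtype)) : (∀ g ∈ L, g ∉ Subgroup.normalizer (T : Set G) → Cfsg.IsInternalDirectProduct (V ⊓ Subgroup.centralizer ((T : Subgroup G) : Set G)) (V ⊓ Subgroup.centralizer ((T.map (MulAut.conj g).toMonoidHom : Subgroup G) : Set G)) V) ∧ (∀ x ∈ L, x ≠ 1 → (orderOf x).Coprime p → (V ⊓ Subgroup.centralizer ({x} : Set G)) = ⊥) ∧ (∀ U : Subgroup G, U ≤ (V ⊓ Subgroup.centralizer ((T : Subgroup G) : Set G)) → L ⊓ Subgroup.normalizer (T : Set G) ≤ Subgroup.normalizer (U : Set G) → U = ⊥ ∨ U = (V ⊓ Subgroup.centralizer ((T : Subgroup G) : Set G))) ∧ (∀ U : Subgroup G, (V ⊓ Subgroup.centralizer ((T : Subgroup G) : Set G)) ≤ U → U ≤ V →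 L ⊓ Subgroup.normalizer (T : Set G) ≤ Subgroup.normalizer (U : Set G) → U = (V ⊓ Subgroup.centralizer ((T : Subgroup G) : Set G)) ∨ U = V) := by
  obtain ⟨C, hC⟩ := Cfsg.Agent.Lib.NatSL2.exists_param_sylow hF hnat hf S
  have hp : p.Prime := Fact.out
  have hchar : CharP F p := Cfsg.Agent.Lib.NatSL2.charP_of_card hF
  have hTL : T ≤ L := by
    rw [hT]; rintro _ ⟨l, -, rfl⟩; exact l.2
  have hCT : ∀ l : L, (l : G) ∈ T ↔ ∃ b : F, C.ρ l = Cfsg.Agent.Lib.ClSL2.uS b := by
    intro l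
    rw [← hC, hT]
    constructor
    · rintro ⟨l', hl', h⟩
      have : l' = l := Subtype.ext h
      rw [← this]; exact hl'
    · intro h; exact ⟨l, h, rfl⟩
  obtain ⟨h1, h2, h3⟩ := Cfsg.Agent.S2779.aux C hTL hCT
  have hcomm : ∀ a ∈ V, ∀ b ∈ V, a * b = b * a := by
    intro a ha b hb
    obtain ⟨x, rfl⟩ := (C.mem a).1 ha
    obtain ⟨y, rfl⟩ := (C.mem b).1 hb
    rw [← C.add, ← C.add, add_comm]
  have hdgN : ∀ t : Fˣ, ∃ l : L, (l : G) ∈ L ⊓ Subgroup.normalizer (T : Set G) ∧ C.ρ l = dg t := by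
    intro t
    refine ⟨C.ρ.symm (dg t), Subgroup.mem_inf.2 ⟨SetLike.coe_mem _, ?_⟩, by simp⟩
    apply mem_normalizer_of_borel C hTL hCT
    rw [MulEquiv.apply_symm_apply]
    rfl
  rw [h1]
  refine ⟨?_, ?_, ?_, ?_⟩
  · intro g hg hgN
    have hc : (C.ρ ⟨g, hg⟩).1 1 0 ≠ 0 := by
      intro h
      exact hgN (mem_normalizer_of_borel C hTL hCT (g := ⟨g, hg⟩) h)
    set M := (C.ρ ⟨g, hg⟩).1 with hM
    have hW' : V ⊓ Subgroup.centralizer ((T.map (MulAut.conj g).toMonoidHom : Subgroup G) : Set G) =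
        C.W.map (MulAut.conj g).toMonoidHom := by
      have hVg : V.map (MulAut.conj g).toMonoidHom = V :=
        Cfsg.Agent.Lib.SylowRel.mem_normalizer_iff_cj.1 (hnat.1 hg)
      have h5 := Cfsg.Agent.Lib.SylowRel.cj_centralizer g T
      have h6 := Cfsg.Agent.Lib.SylowRel.cj_inf g V (Subgroup.centralizer (T : Set G))
      rw [h1, h5] at h6
      have h7 : Cfsg.Agent.Lib.SylowRel.cj g V = V := hVg
      rw [h7] at h6
      exact h6.symm
    rw [hW']
    have hgact : ∀ a : F, g * C.e ![a, 0] * g⁻¹ = C.e ![a * M 0 0, a * M 1 0] := by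
      intro a
      have := C.act ⟨g, hg⟩ ![a, 0]
      refine this.trans ?_
      congr 1
      ext i
      fin_cases i <;> simp [mulVec, dotProduct, Fin.sum_univ_two, hM, mul_comm]
    have hWV : C.W.map (MulAut.conj g).toMonoidHom ≤ V := by
      rintro _ ⟨_, ⟨a, rfl⟩, rfl⟩
      have := hgact a
      change g * C.e ![a, 0] * g⁻¹ ∈ V
      rw [this]; exact C.e_mem _
    refine ⟨C.W_le, hWV, ?_, ?_, ?_⟩
    · intro a ha b hb
      exact hcomm a (C.W_le ha) b (hWV hb)
    · rw [eq_bot_iff]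
      rintro _ ⟨hv, ⟨_, ⟨a, rfl⟩, rfl⟩⟩
      have h5 : g * C.e ![a, 0] * g⁻¹ ∈ C.W := hv
      change g * C.e ![a, 0] * g⁻¹ ∈ ⊥
      rw [hgact] at h5 ⊢
      rw [C.e_mem_W] at h5
      have ha : a = 0 := by simpa [hc] using h5
      rw [Subgroup.mem_bot, C.e_eq_one, ha]
      ext i
      fin_cases i <;> simp
    · apply le_antisymm (sup_le C.W_le hWV)
      intro v hv
      obtain ⟨x, rfl⟩ := (C.mem v).1 hv
      have h5 : C.e x = C.e ![x 0 - x 1 / M 1 0 * M 0 0, 0] * (g * C.e ![x 1 / M 1 0, 0] * g⁻¹) := by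
        rw [hgact, ← C.add]
        congr 1
        ext i
        fin_cases i
        · simp
        · simp; field_simp
      rw [h5]
      exact Subgroup.mul_mem_sup ⟨_, rfl⟩ ⟨_, ⟨_, rfl⟩, rfl⟩
  · intro x hx hx1 hxo
    rw [eq_bot_iff]
    intro v hv
    obtain ⟨hvV, hvx⟩ := Subgroup.mem_inf.1 hv
    obtain ⟨y, rfl⟩ := (C.mem v).1 hvV
    rw [Subgroup.mem_centralizer_singleton_iff] at hvx
    by_contra hne
    have hy : y ≠ 0 := by
      rintro rfl
      exact hne (by rw [C.e_zero]; exact Subgroup.one_mem _)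
    have h4 := (C.commute_iff ⟨x, hx⟩ y).1 hvx.symm
    have h5 := trace_of_fixed hy h4
    have h6 : orderOf (C.ρ ⟨x, hx⟩) = p := by
      rw [Cfsg.Agent.Lib.SL2Unip.orderOf_eq_char_iff]
      refine ⟨?_, h5⟩
      intro h7
      apply hx1
      have : (⟨x, hx⟩ : L) = 1 := C.ρ.injective (by rw [h7, map_one])
      exact congrArg Subtype.val this
    rw [MulEquiv.orderOf_eq, Subgroup.orderOf_mk] at h6
    rw [h6, Nat.coprime_self] at hxo
    exact hp.one_lt.ne' hxo
  · intro U hUW hUN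
    by_cases hU : U = ⊥
    · exact Or.inl hU
    right
    apply le_antisymm hUW
    obtain ⟨u, huU, hu1⟩ : ∃ u ∈ U, u ≠ 1 := by
      by_contra hc
      push Not at hc
      exact hU ((Subgroup.eq_bot_iff_forall U).2 hc)
    obtain ⟨a, ha⟩ := hUW huU
    have ha0 : a ≠ 0 := by
      rintro rfl
      apply hu1
      rw [← ha, C.e_eq_one]
      ext i
      fin_cases i <;> simp
    rintro _ ⟨b, rfl⟩
    by_cases hb : b = 0
    · rw [hb, (C.e_eq_one).2 (by ext i; fin_cases i <;> simp)]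
      exact Subgroup.one_mem _
    obtain ⟨l, hl, hl2⟩ := hdgN (Units.mk0 (b / a) (div_ne_zero hb ha0))
    have h5 := (Subgroup.mem_normalizer_iff.1 (hUN hl) _).1 huU
    rw [← ha, C.act, hl2, mulVec_dg] at h5
    convert h5 using 2
    ext i
    fin_cases i
    · simp; field_simp
    · simp
  · intro U hWU hUV hUN
    by_cases hU : U = C.W
    · exact Or.inl hU
    right
    apply le_antisymm hUV
    obtain ⟨u, huU, huW⟩ : ∃ u ∈ U, u ∉ C.W := by
      by_contra hc
      push Not at hc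
      exact hU (le_antisymm hc hWU)
    obtain ⟨x, rfl⟩ := (C.mem u).1 (hUV huU)
    rw [C.e_mem_W] at huW
    intro v hv
    obtain ⟨y, rfl⟩ := (C.mem v).1 hv
    by_cases hy : y 1 = 0
    · exact hWU (C.e_mem_W.2 hy)
    obtain ⟨l, hl, hl2⟩ := hdgN (Units.mk0 (x 1 / y 1) (div_ne_zero huW hy))
    have h5 := (Subgroup.mem_normalizer_iff.1 (hUN hl) _).1 huU
    rw [C.act, hl2, mulVec_dg] at h5
    have h6 : C.e y = C.e ![y 0 - x 1 / y 1 * x 0, 0] * C.e ![x 1 / y 1 * x 0, y 1] := by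
      rw [← C.add]
      congr 1
      ext i
      fin_cases i <;> simp
    rw [h6]
    refine U.mul_mem (hWU ⟨_, rfl⟩) ?_
    convert h5 using 2
    ext i
    fin_cases i
    · simp
    · simp; field_simp

end Cfsg.Agent.S2780
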