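import Cfsg.Statements.S2781
import Cfsg.Agent.Lib.LocTrace

set_option autoImplicit false
open Cfsg

namespace Cfsg.Agent.S2781

/-- Let H act faithfully by conjugation on the elementary abelian p-subgroup V of a finite group, let O^p(H) be the subgroup of H generated by its elements of order prime to p, and T a Sylow p-subgroup of O^p(H). If V is generated by the H-conjugates of C_V(T) (V is the smallest H-invariant subgroup containing C_V(T)), then V = [V, O^p(H)]·C_V(O^p(H)). -/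
theorem result {G : Type*} [Group G] [Finite G] {p : ℕ} [Fact p.Prime] (V H : Subgroup G) (hV : Cfsg.IsElementaryAbelian p V) (hHV : H ≤ Subgroup.normalizer (V : Set G)) (hf : H ⊓ Subgroup.centralizer (V : Set G) = ⊥) (R : Subgroup G) (hR : R = (Cfsg.pResidual p ↥H).map H.subtype) (S : Sylow p ↥R) (T : Subgroup G) (hT : T = ((S : Subgroup ↥R).map R.subtype)) (hgen : ∀ W : Subgroup G, H ≤ Subgroup.normalizer (W : Set G) → (V ⊓ Subgroup.centralizer ((T : Subgroup G) : Set G)) ≤ W → V ≤ W) : ⁅V, R⁆ ⊔ (V ⊓ Subgroup.centralizer ((R : Subgroup G) : Set G)) = V := by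
  have hRdef : R = Cfsg.Agent.Lib.LocBase.pRes p H := by
    rw [hR, Cfsg.Agent.Lib.LocBase.map_pResidual]
  have hRH : R ≤ H := hRdef ▸ Cfsg.Agent.Lib.LocBase.pRes_le p H
  have hHR : H ≤ Subgroup.normalizer (R : Set G) := hRdef ▸ Cfsg.Agent.Lib.LocBase.le_normalizer_pRes p H
  have hVc : V ≤ Subgroup.centralizer (V : Set G) := by
    have := hV.1
    exact Subgroup.le_centralizer_iff_isMulCommutative.2 this
  have hVp : IsPGroup p V := by
    intro v
    exact ⟨1, by rw [pow_one]; exact Subtype.ext (hV.2 v v.2)⟩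
  have hRV : R ≤ Subgroup.normalizer (V : Set G) := hRH.trans hHV
  have hTS : Cfsg.Agent.Lib.LocBase.IsSyl p T R := hT ▸ Cfsg.Agent.Lib.LocBase.isSyl_map_subtype S
  apply le_antisymm
  · refine sup_le ?_ inf_le_left
    exact Cfsg.Agent.Lib.LocBase.commutator_le_left_of_le hRV
  · apply hgen
    · refine Cfsg.Agent.Lib.LocBase.le_normalizer_sup ?_ ?_
      · exact Cfsg.Agent.Lib.LocBase.le_normalizer_commutator hHV hHR
      · exact Cfsg.Agent.Lib.LocBase.le_normalizer_inf hHV (Cfsg.Agent.Lib.LocBase.le_normalizer_centralizer hHR)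
    · intro z hz
      obtain ⟨hzV, hzT⟩ := Subgroup.mem_inf.1 hz
      obtain ⟨c, hcV, hcR, w, hw, -, rfl⟩ := Cfsg.Agent.Lib.LocTrace.gaschutz hVc hVp hRV hTS hzV hzT
      refine Subgroup.mul_mem _ ?_ ?_
      · exact (le_sup_right : _ ≤ ⁅V, R⁆ ⊔ _) (Subgroup.mem_inf.2 ⟨hcV, hcR⟩)
      · exact (le_sup_left : ⁅V, R⁆ ≤ _) (Subgroup.commutator_mono le_rfl (Cfsg.Agent.Lib.LocBase.pRes_le p R) hw)

end Cfsg.Agent.S2781
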