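import Cfsg.Statements.S2791
import Cfsg.Agent.Lib.LocMore
import Cfsg.Agent.Lib.PReduced

set_option autoImplicit false
open Cfsg

namespace Cfsg.Agent.S2791

open Subgroup Cfsg.Agent.Lib.LocBase Cfsg.Agent.Lib.LocMore Cfsg.Agent.Lib.PReduced
open scoped commutatorElement

variable {G : Type*} [Group G] [Finite G] {p : ℕ} [hp : Fact p.Prime]

/-- the case `x ∈ N(F)`, `F` fully normalized. -/
theorem normalizer_case {S A F : Subgroup G} (hS : IsPGroup p S) (hA : A ≤ centralizer (A : Set G)) (hAS : A ≤ S)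
    (hSA : S ≤ normalizer (A : Set G)) (hsc : ∀ x ∈ A, ∀ g : G, g * x * g⁻¹ ∈ S → g * x * g⁻¹ ∈ A)
    (hFS : F ≤ S) (hfn : IsSyl p (S ⊓ normalizer (F : Set G)) (normalizer (F : Set G)))
    (ih : ∀ D : Subgroup G, F < D → D ≤ S → ∀ g : G, D.map (MulAut.conj g).toMonoidHom ≤ S →
      ∃ n ∈ normalizer (A : Set G), ∀ d ∈ D, n * d * n⁻¹ = g * d * g⁻¹)
    {x : G} (hx : x ∈ normalizer (F : Set G)) : ∃ n ∈ normalizer (A : Set G), ∀ d ∈ F, n * d * n⁻¹ = x * d * x⁻¹ := by
  have hF : IsPGroup p F := hS.to_le hFS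
  set N := normalizer (F : Set G) with hN
  have hAF : N ≤ normalizer ((A ⊓ F : Subgroup G) : Set G) := by
    intro g hg
    apply mem_normalizer_of_map_conj_le
    rintro _ ⟨a, ⟨ha, haF⟩, rfl⟩
    have h1 : g * a * g⁻¹ ∈ F := (mem_normalizer_iff.mp hg a).mp haF
    exact ⟨hsc a ha g (hFS h1), h1⟩
  set B := A ⊓ N with hB
  have hBN : B ≤ N := inf_le_right
  have h1 : ⁅F, B⁆ ≤ A ⊓ F := by
    apply le_inf
    · exact (commutator_mono le_rfl inf_le_left).trans (commutator_le_right_of_le (hFS.trans hSA))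
    · exact commutator_le_left_of_le inf_le_right
  set K := ncl N B with hK
  have hKN : K ≤ N := ncl_le hBN le_normalizer
  have hNK : N ≤ normalizer (K : Set G) := le_normalizer_ncl N B
  have h2 : ⁅F, K⁆ ≤ A ⊓ F := commutator_ncl_le le_rfl hAF hBN h1
  have h3 : K ≤ centralizer ((A ⊓ F : Subgroup G) : Set G) := by
    apply ncl_le
    · exact inf_le_left.trans (hA.trans (Subgroup.centralizer_le inf_le_left))
    · exact le_normalizer_centralizer hAF
  have h4 : pRes p K ≤ centralizer (F : Set G) :=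
    pRes_le_centralizer_of_chain hF hKN ((commutator_mono le_rfl (pRes_le _ _)).trans h2) ((pRes_le _ _).trans h3)
  have hR : IsSyl p ((S ⊓ N) ⊓ K) K := hfn.inf_normal hKN hNK
  set R := (S ⊓ N) ⊓ K with hRdef
  obtain ⟨k, hk, y, ⟨hyN, hyR⟩, e⟩ := hR.frattini hKN hNK hx
  have hkR : k ∈ pRes p K ⊔ R := by rw [sup_comm, hR.sup_pRes]; exact hk
  obtain ⟨a, ha, r, hr, e2⟩ := exists_mul_of_mem_sup_of_le (hR.le.trans (le_normalizer_pRes p K)) hkR
  have hx' : r * y ∈ N := N.mul_mem hr.1.2 hyN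
  have hx'R : r * y ∈ normalizer (R : Set G) := mul_mem (le_normalizer hr) hyR
  have hxx : ∀ d ∈ F, x * d * x⁻¹ = (r * y) * d * (r * y)⁻¹ := by
    intro d hd
    have h5 : (r * y) * d * (r * y)⁻¹ ∈ F := (mem_normalizer_iff.mp hx' d).mp hd
    have h6 := mem_centralizer_iff.mp (h4 ha) _ h5
    calc x * d * x⁻¹ = a * ((r * y) * d * (r * y)⁻¹) * a⁻¹ := by rw [e, e2]; group
      _ = _ := by rw [← h6]; group
  have hBR : B ≤ R := le_inf (le_inf (inf_le_left.trans hAS) inf_le_right) (le_ncl N B)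
  have hBx : (B.map (MulAut.conj (r * y)).toMonoidHom) ≤ B := by
    rintro _ ⟨b, hb, rfl⟩
    have h5 : (r * y) * b * (r * y)⁻¹ ∈ R := (mem_normalizer_iff.mp hx'R b).mp (hBR hb)
    exact ⟨hsc b hb.1 _ h5.1.1, h5.1.2⟩
  by_cases hlt : F < F ⊔ B
  · have hle : F ⊔ B ≤ S := sup_le hFS (inf_le_left.trans hAS)
    obtain ⟨n, hn, h7⟩ := ih (F ⊔ B) hlt hle (r * y) (by
      rw [Subgroup.map_sup, map_conj_eq_of_mem hx']
      exact (sup_le_sup_left hBx F).trans hle)
    exact ⟨n, hn, fun d hd => by rw [h7 d ((le_sup_left : F ≤ F ⊔ B) hd), hxx d hd]⟩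
  · have hBF : B ≤ F := by
      by_contra hne
      exact hlt (lt_of_le_of_ne le_sup_left fun e => hne (by rw [e]; exact le_sup_right))
    have hAleF : A ≤ F := by
      have h8 : F = A ⊔ F := by
        apply eq_of_inf_normalizer_le (hS.to_le (sup_le hAS hFS)) le_sup_right
        rintro z ⟨hz1, hz2⟩
        obtain ⟨a', ha', f, hf, e3⟩ := exists_mul_of_mem_sup_of_le (A := A) (B := F) (hFS.trans hSA) hz1
        have h9 : a' ∈ B := by
          refine ⟨ha', ?_⟩
          have : a' = z * f⁻¹ := by rw [e3]; group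
          rw [this]
          exact N.mul_mem hz2 (N.inv_mem (le_normalizer hf))
        rw [e3]; exact F.mul_mem (hBF h9) hf
      rw [h8]; exact le_sup_left
    refine ⟨x, ?_, fun _ _ => rfl⟩
    apply mem_normalizer_of_map_conj_le
    rintro _ ⟨a', ha', rfl⟩
    exact hsc a' ha' x (hFS ((mem_normalizer_iff.mp hx a').mp (hAleF ha')))

theorem main {S A : Subgroup G} (hS : IsSyl p S ⊤) (hA : A ≤ centralizer (A : Set G)) (hAS : A ≤ S)
    (hsc : ∀ x ∈ A, ∀ g : G, g * x * g⁻¹ ∈ S → g * x * g⁻¹ ∈ A) :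
    ∀ m : ℕ, ∀ D : Subgroup G, D ≤ S → Nat.card ↥S - Nat.card ↥D = m → ∀ g : G, D.map (MulAut.conj g).toMonoidHom ≤ S →
      ∃ n ∈ normalizer (A : Set G), ∀ d ∈ D, n * d * n⁻¹ = g * d * g⁻¹ := by
  have hSA : S ≤ normalizer (A : Set G) := by
    intro s hs
    apply mem_normalizer_of_map_conj_le
    rintro _ ⟨a, ha, rfl⟩
    exact hsc a ha s (S.mul_mem (S.mul_mem hs (hAS ha)) (S.inv_mem hs))
  intro m
  induction m using Nat.strong_induction_on with
  | _ m ih =>
  intro D hDS hm g hg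
  have hcard : ∀ X : Subgroup G, X ≤ S → Nat.card ↥D < Nat.card ↥X → Nat.card ↥S - Nat.card ↥X < m := by
    intro X hX h1
    have h2 : Nat.card ↥X ≤ Nat.card ↥S := Nat.le_of_dvd Nat.card_pos (Subgroup.card_dvd_of_le hX)
    omega
  have hltc : ∀ X Y : Subgroup G, X < Y → Nat.card ↥X < Nat.card ↥Y := by
    intro X Y h; exact Set.ncard_lt_ncard h (Set.toFinite _)
  by_cases hDeq : D = S
  · refine ⟨g, ?_, fun _ _ => rfl⟩
    apply mem_normalizer_of_map_conj_le
    rintro _ ⟨a, ha, rfl⟩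
    exact hsc a ha g (hg ⟨a, by rw [hDeq]; exact hAS ha, rfl⟩)
  have hDlt : D < S := lt_of_le_of_ne hDS hDeq
  -- a fully normalized conjugate
  obtain ⟨h₀, hh₀, hmax⟩ := Set.exists_max_image {h : G | D.map (MulAut.conj h).toMonoidHom ≤ S}
    (fun h => Nat.card ↥(S ⊓ normalizer (D.map (MulAut.conj h).toMonoidHom : Set G))) (Set.toFinite _)
    ⟨1, by rw [Set.mem_ofPred_eq, map_conj_one]; exact hDS⟩
  set F := D.map (MulAut.conj h₀).toMonoidHom with hF
  have hFS : F ≤ S := hh₀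
  have hcardF : Nat.card ↥F = Nat.card ↥D := card_map_conj D h₀
  have hfn : IsSyl p (S ⊓ normalizer (F : Set G)) (normalizer (F : Set G)) := by
    obtain ⟨R, hR, hle⟩ := exists_isSyl_ge (hS.pgroup.to_le inf_le_left) (inf_le_right : S ⊓ normalizer (F : Set G) ≤ normalizer (F : Set G))
    obtain ⟨y, _, hy⟩ := hS.exists_conj_le hR.pgroup le_top
    have hFR : F ≤ R := (le_inf hFS le_normalizer).trans hle
    have h1 := hmax (y * h₀) (by
      rw [Set.mem_ofPred_eq, map_conj_mul]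
      exact (map_mono hFR).trans hy)
    have h2 : R.map (MulAut.conj y).toMonoidHom ≤ S ⊓ normalizer (D.map (MulAut.conj (y * h₀)).toMonoidHom : Set G) := by
      apply le_inf hy
      rw [map_conj_mul, ← map_conj_normalizer]
      exact map_mono hR.le
    have h3 := Nat.le_of_dvd Nat.card_pos (Subgroup.card_dvd_of_le h2)
    rw [card_map_conj] at h3
    have h4 : S ⊓ normalizer (F : Set G) = R := Subgroup.eq_of_le_of_card_ge hle (h3.trans h1)
    rw [h4]; exact hR
  -- transport to `F`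
  have htrans : ∀ h : G, D.map (MulAut.conj h).toMonoidHom ≤ S → ∃ n : G, n ∈ normalizer (A : Set G) ∧ ∃ m' : G,
      (D.map (MulAut.conj h).toMonoidHom).map (MulAut.conj m').toMonoidHom = F ∧
      ∀ d ∈ D.map (MulAut.conj h).toMonoidHom, n * d * n⁻¹ = m' * d * m'⁻¹ := by
    intro h hh
    set D' := D.map (MulAut.conj h).toMonoidHom with hD'
    have hD'lt : D' < S := by
      refine lt_of_le_of_ne hh fun e => ?_
      have h5 : Nat.card ↥D' = Nat.card ↥D := card_map_conj D h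
      rw [e] at h5
      exact (hltc D S hDlt).ne h5.symm
    have h6 := lt_inf_normalizer hS.pgroup hD'lt
    have e1 : D'.map (MulAut.conj (h₀ * h⁻¹)).toMonoidHom = F := by
      rw [hD', ← map_conj_mul]; congr 3; group
    have h7 : (S ⊓ normalizer (D' : Set G)).map (MulAut.conj (h₀ * h⁻¹)).toMonoidHom ≤ normalizer (F : Set G) := by
      have h10 := Subgroup.map_mono (f := (MulAut.conj (h₀ * h⁻¹)).toMonoidHom) (inf_le_right : S ⊓ normalizer (D' : Set G) ≤ normalizer (D' : Set G))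
      rwa [map_conj_normalizer, e1] at h10
    obtain ⟨y, hy, hle⟩ := hfn.exists_conj_le (isPGroup_map_conj (hS.pgroup.to_le inf_le_left) _) h7
    rw [← map_conj_mul] at hle
    have h8 : Nat.card ↥D < Nat.card ↥(S ⊓ normalizer (D' : Set G)) := by
      have h5 : Nat.card ↥D' = Nat.card ↥D := card_map_conj D h
      rw [← h5]; exact hltc _ _ h6
    obtain ⟨n, hn, h9⟩ := ih _ (hcard _ inf_le_left h8) (S ⊓ normalizer (D' : Set G)) inf_le_left rfl
      (y * (h₀ * h⁻¹)) (hle.trans inf_le_left)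
    refine ⟨n, hn, y * (h₀ * h⁻¹), ?_, fun d hd => h9 d (h6.le hd)⟩
    rw [map_conj_mul, e1, map_conj_eq_of_mem hy]
  obtain ⟨n₁, hn₁, m₁, e₁, a₁⟩ := htrans 1 (by rw [map_conj_one]; exact hDS)
  rw [map_conj_one] at e₁ a₁
  obtain ⟨n₂, hn₂, m₂, e₂, a₂⟩ := htrans g hg
  have hx : m₂ * g * m₁⁻¹ ∈ normalizer (F : Set G) := by
    apply mem_normalizer_of_map_conj_eq
    have e3 : (D.map (MulAut.conj m₁).toMonoidHom).map (MulAut.conj (m₂ * g * m₁⁻¹)).toMonoidHom = F := by
      rw [← map_conj_mul]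
      have e4 : m₂ * g * m₁⁻¹ * m₁ = m₂ * g := by group
      rw [e4, map_conj_mul, e₂]
    rwa [e₁] at e3
  obtain ⟨n₃, hn₃, a₃⟩ := normalizer_case hS.pgroup hA hAS hSA hsc hFS hfn (by
    intro D' hlt hle g' hg'
    exact ih _ (hcard D' hle (by rw [← hcardF]; exact hltc _ _ hlt)) D' hle rfl g' hg') hx
  refine ⟨n₂⁻¹ * n₃ * n₁, mul_mem (mul_mem (inv_mem hn₂) hn₃) hn₁, ?_⟩
  intro d hd
  have h1 := a₁ d hd
  have h2 : m₁ * d * m₁⁻¹ ∈ F := by rw [← e₁]; exact ⟨d, hd, rfl⟩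
  have h3 := a₃ _ h2
  have h4 : g * d * g⁻¹ ∈ D.map (MulAut.conj g).toMonoidHom := ⟨d, hd, rfl⟩
  have h5 := a₂ _ h4
  calc n₂⁻¹ * n₃ * n₁ * d * (n₂⁻¹ * n₃ * n₁)⁻¹ = n₂⁻¹ * (n₃ * (n₁ * d * n₁⁻¹) * n₃⁻¹) * n₂ := by group
    _ = n₂⁻¹ * (m₂ * (g * d * g⁻¹) * m₂⁻¹) * n₂ := by rw [h1, h3]; group
    _ = n₂⁻¹ * (n₂ * (g * d * g⁻¹) * n₂⁻¹) * n₂ := by rw [h5]
    _ = g * d * g⁻¹ := by group

/-- Let S be a Sylow p-subgroup of the finite group G and A an abelian subgroup of S that is strongly closed in S with respect to G. Then A controls strong fusion in G: for some Sylow p-subgroup T containing A, whenever a subset of T is conjugated into T by an element of G, the same elementwise conjugation is induced by an element of N_G(A). -/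
theorem result {G : Type*} [Group G] [Finite G] {p : ℕ} [Fact p.Prime] (S : Sylow p G) (A : Subgroup G) (hA : IsMulCommutative ↥A) (hsc : Cfsg.IsStronglyClosed A (S : Subgroup G)) : Cfsg.ControlsStrongFusion p A := by
  refine ⟨S, hsc.1, ?_⟩
  intro X hX
  refine ⟨hX, ?_⟩
  intro g hg
  have hA' : A ≤ centralizer (A : Set G) := le_centralizer_iff_isMulCommutative.mpr hA
  have hD : closure X ≤ (S : Subgroup G) := (closure_le _).mpr hX
  have hDg : (closure X).map (MulAut.conj g).toMonoidHom ≤ (S : Subgroup G) := by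
    rw [MonoidHom.map_closure, closure_le]
    rintro _ ⟨x, hx, rfl⟩
    exact hg ⟨x, hx, rfl⟩
  obtain ⟨n, hn, h⟩ := main (isSyl_top S) hA' hsc.1 hsc.2 _ (closure X) hD rfl g hDg
  exact ⟨n, hn, fun a ha => (h a (subset_closure ha)).symm⟩

end Cfsg.Agent.S2791
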