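import Cfsg.Statements.S2792
import Cfsg.Agent.Lib.Yoshida2
import Cfsg.Agent.Lib.LocTrace
import Cfsg.Agent.Lib.FrattiniP

set_option autoImplicit false
open Cfsg

namespace Cfsg.Agent.S2792

open Subgroup Cfsg.Agent.Lib.LocBase Cfsg.Agent.Lib.Yoshida

/-- Let S be a Sylow p-subgroup of the finite group G and W a subgroup of S weakly closed in S with respect to G. If S ∩ G' ≠ S ∩ (N_G(W))', then there are x ∈ S, z ∈ W and a maximal subgroup W₀ of W such that the iterated commutator [x, z; p−1] (with [x, z] = x⁻¹z⁻¹xz and [x, z; i+1] = [[x, z; i], z]) lies in W₀ but not in the Frattini subgroup of W₀; in particular [x, z; p−1] ≠ 1. -/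
theorem result {G : Type*} [Group G] [Finite G] {p : ℕ} [Fact p.Prime] (S : Sylow p G) (W : Subgroup G) (hW : Cfsg.IsWeaklyClosed W (S : Subgroup G)) (h : (S : Subgroup G) ⊓ commutator G ≠ (S : Subgroup G) ⊓ ⁅Subgroup.normalizer (W : Set G), Subgroup.normalizer (W : Set G)⁆) : ∃ x ∈ (S : Subgroup G), ∃ z ∈ W, ∃ W₀ : Subgroup ↥W, IsCoatom W₀ ∧ (fun y : G => y⁻¹ * z⁻¹ * y * z)^[p - 1] x ∈ W₀.map W.subtype ∧ (fun y : G => y⁻¹ * z⁻¹ * y * z)^[p - 1] x ∉ ((frattini ↥W₀).map W₀.subtype).map W.subtype := by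
  have hp : Fact p.Prime := inferInstance
  have hSN : (S : Subgroup G) ≤ Subgroup.normalizer (W : Set G) := by
    intro s hs
    apply mem_normalizer_of_map_conj_eq
    apply hW.2
    rintro _ ⟨w, hw, rfl⟩
    exact S.mul_mem (S.mul_mem hs (hW.1 hw)) (S.inv_mem hs)
  obtain ⟨φ, hφ⟩ := exists_hom S hSN h
  obtain ⟨Y, Q, u, ν, hYS, hWY, hQY, hQn, hQi, hWQ, huQ, hz⟩ := core S hW rfl φ hφ
  -- choose `z ∈ W \ Q`
  have hWQ' : ¬ W ≤ Q := by
    intro hle
    have h1 : Q = Y := by rw [← hWQ, sup_eq_right.mpr hle]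
    rw [h1, Subgroup.relIndex_self] at hQi
    exact hp.out.one_lt.ne hQi
  obtain ⟨z, hzW, hzQ⟩ := SetLike.not_le_iff_exists.mp hWQ'
  have hzn : z ∈ Subgroup.normalizer (Q : Set G) := hQn (hWY hzW)
  have hc := iter_eq_sum hzn (toF_addOn ν) huQ
  have hne : toF ν ((fun y : G => y⁻¹ * z⁻¹ * y * z)^[p - 1] u) ≠ 0 := by
    rw [hc]
    exact toF_sum_ne_zero (hz z (hWY hzW) hzQ)
  have hmemQ := iter_mem hzn huQ (p - 1)
  set c := (fun y : G => y⁻¹ * z⁻¹ * y * z)^[p - 1] u with hcdef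
  have hcW : c ∈ W := by
    have hp1 : p - 1 = (p - 2) + 1 := by have := hp.out.two_le; omega
    rw [hcdef, hp1, Function.iterate_succ_apply']
    set c' := (fun y : G => y⁻¹ * z⁻¹ * y * z)^[p - 2] u with hc'
    have h1 : c' ∈ Q := iter_mem hzn huQ (p - 2)
    have h2 : c' ∈ Subgroup.normalizer (W : Set G) := hSN (hYS (hQY h1))
    have h3 := conj_mem_of_le_normalizer' (K := Subgroup.zpowers c') (A := W) (by rwa [Subgroup.zpowers_le])
      (Subgroup.mem_zpowers c') (W.inv_mem hzW)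
    exact W.mul_mem h3 hzW
  have hWn : Q.relIndex W = p := by
    have h1 : Q.relIndex (Q ⊔ W) = Q.relIndex W := by
      have hn : (Q.subgroupOf (Q ⊔ W)).Normal := normal_subgroupOf_of_le_normalizer
        (by rw [sup_comm, hWQ]; exact hQn)
      exact Cfsg.Agent.Lib.LocTrace.relIndex_sup_of_le_normalizer (hWY.trans hQn)
    rw [← h1, sup_comm, hWQ, hQi]
  refine ⟨u, hYS (hQY huQ), z, hzW, Q.subgroupOf W, ?_, ?_, ?_⟩
  · apply Cfsg.Agent.Lib.FrattiniP.isCoatom_of_index_prime hp.out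
    exact hWn
  · rw [Subgroup.subgroupOf_map_subtype]
    exact ⟨hmemQ, hcW⟩
  · rintro ⟨_, ⟨w, hw, rfl⟩, hwc⟩
    have hwc' : ((w : ↥W) : G) = c := hwc
    let δ : ↥(Q.subgroupOf W) →* Multiplicative (ZMod p) :=
      { toFun := fun w => ν ⟨((w : ↥W) : G), w.2⟩
        map_one' := map_one ν
        map_mul' := fun a b => map_mul ν ⟨_, a.2⟩ ⟨_, b.2⟩ }
    have h1 : δ w = 1 := Cfsg.Agent.Lib.TateApps.hom_eq_one_of_mem_frattini δ hw
    apply hne
    unfold toF
    rw [← hwc', fx_of_mem ν (show ((w : ↥W) : G) ∈ Q from w.2)]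
    exact congrArg Multiplicative.toAdd h1

end Cfsg.Agent.S2792
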