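import Cfsg.Statements.S2793
import Cfsg.Agent.Lib.H72NgG
import Cfsg.Agent.Lib.H72NgMain
import Cfsg.Agent.Lib.QdCtrl
-- import your own Cfsg.Agent.* helpers here

set_option autoImplicit false
open Cfsg

namespace Cfsg.Agent.S2793

/-- Let p be an odd prime, S a Sylow p-subgroup of the finite group G, J(S) the subgroup generated by the abelian subgroups of S of largest order, and suppose Z(J(S)) does not control strong fusion in G. Put H = N_G(Z(J(S))). Then the group F(p) of upper triangular 3 × 3 matrices (a b c; 0 a⁻¹ d; 0 0 1) over the field with p elements is involved in H, and Z(J(S)) contains a subgroup C of order p with |N_H(C) : C_H(C)| = p − 1. -/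
theorem result {G : Type*} [Group G] [Finite G] {p : ℕ} [Fact p.Prime] (hp : p ≠ 2) (S : Sylow p G) (h : ¬ Cfsg.ControlsStrongFusion p (Cfsg.centerThompsonAOf (S : Subgroup G))) (H : Subgroup G) (hH : H = Subgroup.normalizer ((Cfsg.centerThompsonAOf (S : Subgroup G)) : Set G)) : Cfsg.Involves ↥(Cfsg.fOver (ZMod p)) ↥H ∧ ∃ C : Subgroup G, C ≤ (Cfsg.centerThompsonAOf (S : Subgroup G)) ∧ Nat.card C = p ∧ (H ⊓ Subgroup.centralizer (C : Set G)).relIndex (H ⊓ Subgroup.normalizer (C : Set G)) = p - 1 := by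
  have hS := Lib.CFSylow.sylIn_sylow S
  have hzj : Cfsg.centerThompsonAOf (S : Subgroup G) = Lib.GLAMain.zj (S : Subgroup G) :=
    Lib.ZJThm.centerThompsonAOf_eq _
  have hnot : ¬ Lib.CFControl.SF (Lib.GLAMain.zj (S : Subgroup G)) ⊤ (S : Subgroup G) := by
    intro h1
    apply h
    rw [hzj]
    exact ⟨S, Lib.H72Ng.zj_le _, fun A hA => Lib.ClosedWF.controlsStrongFusionOf_of_sf h1 hA⟩
  rw [hzj] at hH
  subst hH
  rw [hzj]
  refine ⟨?_, Lib.H72Ng.exists_C hp hS hnot⟩
  apply Lib.H72NgF.involves_of_RF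
  exact (Lib.GLAMain.sf_or hp Lib.H72NgF.RF_climb (Lib.H72NgF.RF_key hp) hS).resolve_left hnot


end Cfsg.Agent.S2793
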