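import Cfsg.Statements.S2794
import Cfsg.Agent.Lib.QdNot2

set_option autoImplicit false
open Cfsg

namespace Cfsg.Agent.S2794

/-- For an odd prime p and a finite group G, the group Qd(p) is not involved in G if and only if in every section K/R of G, for every Sylow p-subgroup S* of K/R, the centre of J(S*) (J generated by the abelian subgroups of largest order) controls strong fusion in K/R. -/
theorem result {G : Type*} [Group G] [Finite G] {p : ℕ} [Fact p.Prime] (hp : p ≠ 2) : ¬ Cfsg.Involves ↥(Cfsg.qd p) G ↔ ∀ (K R : Subgroup G) [hR : (R.subgroupOf K).Normal], ∀ T : Sylow p (K ⧸ R.subgroupOf K), Cfsg.ControlsStrongFusion p (Cfsg.centerThompsonAOf (T : Subgroup (K ⧸ R.subgroupOf K))) := by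
  constructor
  · intro h K R hR T
    have hfin : Finite (K ⧸ R.subgroupOf K) := inferInstance
    have h' : ¬ Cfsg.Involves ↥(Cfsg.qd p) (K ⧸ R.subgroupOf K) := fun h' =>
      h (Lib.QdCtrl.involves_trans h' (Lib.QdCtrl.involves_of_isSec (Lib.CFSection.isSec_KR K R)))
    have hS := Lib.CFSylow.sylIn_sylow T
    have h1 := Lib.QdCtrl.ctrl_of_qd_free (Or.inl rfl : Lib.ClosedZJ.IsZJ p Lib.ClosedPS.Wab) hp h' _ _ hS
      (Lib.ClosedCF.ClosedIn.self _ _)
    rw [Lib.ClosedPS.induced_Wab] at h1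
    refine ⟨T, ?_, fun A hA => Lib.ClosedWF.controlsStrongFusionOf_of_sf h1 hA⟩
    rw [← Lib.ClosedPS.induced_Wab]
    exact Lib.CFFusion.functor_le (Lib.CFSection.isConjugacyFunctor_induced Lib.ClosedPS.isChar_Wab)
      hS.isPGroup
  · rintro h ⟨K, R, hR, ⟨e⟩⟩
    obtain ⟨S⟩ : Nonempty (Sylow p (K ⧸ R.subgroupOf K)) := inferInstance
    have h1 := h K R S
    rw [← Lib.ClosedPS.induced_Wab] at h1
    exact Lib.QdNot2.not_controls e S Lib.ClosedPS.isChar_Wab h1

end Cfsg.Agent.S2794
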