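import Cfsg.Statements.S2807
import Cfsg.Agent.Lib.Yoshida2

set_option autoImplicit false
open Cfsg

namespace Cfsg.Agent.S2807

open Subgroup Cfsg.Agent.Lib.LocBase Cfsg.Agent.Lib.Yoshida

/-- Let S be a Sylow p-subgroup of the finite group G. If S ∩ G' ≠ S ∩ (N_G(S))' (derived subgroups), then the wreath product Z_p ≀ Z_p — realised as a Sylow p-subgroup of the symmetric group of degree p² — is a homomorphic image of S. -/
theorem result {G : Type*} [Group G] [Finite G] {p : ℕ} [Fact p.Prime] (S : Sylow p G) (h : (S : Subgroup G) ⊓ commutator G ≠ (S : Subgroup G) ⊓ ⁅Subgroup.normalizer ((S : Subgroup G) : Set G), Subgroup.normalizer ((S : Subgroup G) : Set G)⁆) : ∃ (P : Sylow p (Equiv.Perm (Fin (p ^ 2)))) (f : ↥(S : Subgroup G) →* ↥(P : Subgroup (Equiv.Perm (Fin (p ^ 2))))), Function.Surjective f := by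
  have hp : Fact p.Prime := inferInstance
  have hW : Cfsg.IsWeaklyClosed (S : Subgroup G) (S : Subgroup G) := by
    refine ⟨le_rfl, fun g hg => ?_⟩
    apply Subgroup.eq_of_le_of_card_ge hg
    rw [card_map_conj]
  obtain ⟨φ, hφ⟩ := exists_hom S Subgroup.le_normalizer h
  obtain ⟨Y, Q, u, ν, hYS, hWY, hQY, hQn, hQi, hWQ, huQ, hz⟩ := core S hW rfl φ hφ
  have hY : Y = (S : Subgroup G) := le_antisymm hYS hWY
  subst hY
  have hQne : ¬ (S : Subgroup G) ≤ Q := by
    intro hle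
    have h1 : Q = (S : Subgroup G) := le_antisymm hQY hle
    rw [h1, Subgroup.relIndex_self] at hQi
    exact hp.out.one_lt.ne hQi
  obtain ⟨z, hzS, hzQ⟩ := SetLike.not_le_iff_exists.mp hQne
  have hn : (Q.subgroupOf (S : Subgroup G)).Normal := normal_subgroupOf_of_le_normalizer hQn
  let ν' : ↥(Q.subgroupOf (S : Subgroup G)) →* Multiplicative (ZMod p) :=
    { toFun := fun w => ν ⟨((w : ↥(S : Subgroup G)) : G), w.2⟩
      map_one' := map_one ν
      map_mul' := fun a b => map_mul ν ⟨_, a.2⟩ ⟨_, b.2⟩ }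
  have hfx : ∀ x : ↥(S : Subgroup G), fx ν' x = fx ν (x : G) := by
    intro x
    by_cases hx : x ∈ Q.subgroupOf (S : Subgroup G)
    · rw [fx_of_mem ν' hx, fx_of_mem ν (show (x : G) ∈ Q from hx)]
      rfl
    · rw [fx_of_not_mem ν' hx, fx_of_not_mem ν (show (x : G) ∉ Q from hx)]
  refine wreath (P := ↥(S : Subgroup G)) S.2 (Q.subgroupOf (S : Subgroup G)) hQi ν' (u := ⟨u, hQY huQ⟩) (z := ⟨z, hzS⟩)
    huQ hzQ ?_
  have := hz z hzS hzQ
  intro h1
  apply this
  rw [← h1]
  refine Finset.prod_congr rfl fun i _ => ?_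
  rw [hfx]
  push_cast
  rfl

end Cfsg.Agent.S2807
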