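import Cfsg.Statements.S2856
import Cfsg.Agent.Lib.AmalgamVIter

set_option autoImplicit false
open Cfsg

namespace Cfsg.Agent.S2856

open Cfsg.Agent.Lib.CosetGraph Cfsg.Agent.Lib.AmalgamCharP Cfsg.Agent.Lib.AmalgamVIter

/-- Let (M₁, M₂) be an amalgam pair in X satisfying the rank-two standing hypothesis (characteristic p, the normalizers in M₁ and in M₂ of a Sylow p-subgroup of M₁ ∩ M₂ equal and contained in M₁ ∩ M₂, and strongly p-embedded residues), λ a vertex of the coset graph, L_λ the subgroup of its stabilizer generated by the p-elements, Q_λ = O_p of the stabilizer, O^p(L_λ) the subgroup of L_λ generated by its elements of order prime to p, and V_λ^{(k)} the subgroup generated by the Z_μ over the vertices μ at distance at most k from λ (Z_μ being generated by the Ω₁(Z(S)), S a Sylow p-subgroup of the stabilizer of μ). If n ≥ 1 and V_λ^{(n)} ≤ Q_λ, then O^p(L_λ) does not centralize V_λ^{(n)}/[V_λ^{(n)}, Q_λ], that is, [V_λ^{(n)}, O^p(L_λ)] is not contained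 in [V_λ^{(n)}, Q_λ]. -/
theorem result {X : Type*} [Group X] {p : ℕ} [Fact p.Prime] (M₁ M₂ : Subgroup X) (h : Cfsg.IsSpeAmalgamPair p M₁ M₂) (lam : Cfsg.CosetVertex M₁ M₂) (n : ℕ) (hn : 1 ≤ n) (V : Subgroup X) (hV : V = Cfsg.vertexVIter p M₁ M₂ n lam) (hVQ : V ≤ Cfsg.vertexQ p lam) : ¬ ⁅V, ((Cfsg.pResidual p ↥(Cfsg.pElementClosure p (MulAction.stabilizer X lam))).map (Cfsg.pElementClosure p (MulAction.stabilizer X lam)).subtype)⁆ ≤ ⁅V, Cfsg.vertexQ p lam⁆ := by
  intro hcon
  subst hV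
  have hgen : M₁ ⊔ M₂ = ⊤ := h.1.1.1
  have f1 := finite_stabilizer h.1.2.1 h.1.2.2.1 lam
  have hQH : Cfsg.vertexQ p lam ≤ MulAction.stabilizer X lam := pCoreOf_le _
  have fQ : Finite ↥(Cfsg.vertexQ p lam) :=
    Finite.Set.subset (MulAction.stabilizer X lam : Set X) (fun x hx => hQH hx)
  refine main h lam n hn hVQ ?_
  intro lam' hadj hle
  have h1 : Cfsg.vertexVIter p M₁ M₂ (n - 1) lam' ≤ Cfsg.vertexVIter p M₁ M₂ n lam :=
    vertexVIter_mono hgen hadj.symm (by omega)
  have h2 : Cfsg.vertexQ p lam ≤ Subgroup.normalizer (Cfsg.vertexVIter p M₁ M₂ (n - 1) lam' : Set X) := by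
    refine ((vertexQ_le_neighbourKernel h.1 lam).trans (neighbourKernel_le_neighbour hadj)).trans ?_
    exact stabilizer_le_normalizer_vertexVIter hgen h.1.2.1 h.1.2.2.1 _ _
  have h3 := eq_of_le_sup_commutator (p := p) (isPGroup_pCoreOf _) hVQ h1 h2 (hle.trans (sup_le_sup le_rfl hcon))
  exact h3.le


end Cfsg.Agent.S2856
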