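import Cfsg.Statements.S2941
import Cfsg.Agent.Lib.LocBase

set_option autoImplicit false
open Cfsg

namespace Cfsg.Agent.S2941

open Subgroup Cfsg.Agent.Lib.LocBase
open scoped commutatorElement

theorem closure_odd_eq_pRes {G : Type*} [Group G] (K : Subgroup G) :
    Subgroup.closure {g : G | g ∈ K ∧ Odd (orderOf g)} = pRes 2 K := by
  unfold pRes
  congr 1
  ext x
  simp only [Set.mem_ofPred_eq, Nat.coprime_two_right]

/-- Let G be a finite group of characteristic 2 type in which every 2-local subgroup is solvable and the centralizer of Ω₁(Z(S)) lies in N_G(S) for every Sylow 2-subgroup S, and let T be a nontrivial 2-subgroup and K a J(T)-component (J the Thompson subgroup generated by the elementary abelian 2-subgroups of largest order). If a subgroup Q is normalized by ⟨K, J(T)⟩ and normalizes J(T), then Q normalizes K. -/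
theorem result {G : Type*} [Group G] [Finite G] (hL : Cfsg.IsCharacteristicTwoType G) (hN : ∀ N : Subgroup G, Cfsg.IsTwoLocal N → Group.IsSolvable ↥N)
    (hZ : ∀ S : Sylow 2 G, Subgroup.centralizer (Cfsg.omegaCenterOf (S : Subgroup G) : Set G) ≤ Subgroup.normalizer ((S : Subgroup G) : Set G)) (T : Subgroup G) (hT : IsPGroup 2 ↥T) (hT1 : T ≠ ⊥) (K : Subgroup G) (hK : Cfsg.IsJComponent T K)
    (Q : Subgroup G) (hQ1 : K ⊔ Cfsg.thompsonSubgroupOf 2 T ≤ Subgroup.normalizer (Q : Set G)) (hQ2 : Q ≤ Subgroup.normalizer (Cfsg.thompsonSubgroupOf 2 T : Set G)) :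
    Q ≤ Subgroup.normalizer (K : Set G) := by
  obtain ⟨h1, h2, -⟩ := hK
  set J := Cfsg.thompsonSubgroupOf 2 T with hJ
  have hJT : J ≤ T := map_subtype_le _
  have hJp : IsPGroup 2 J := hT.to_le hJT
  rw [closure_odd_eq_pRes] at h1
  have hKX : K ≤ K ⊔ J := le_sup_left
  have hJX : J ≤ K ⊔ J := le_sup_right
  -- J normalizes K
  have hJK : J ≤ normalizer (K : Set G) := by
    rw [Subgroup.le_normalizer_iff_commutator_le_left]
    exact h2.le
  have hXK : K ⊔ J ≤ normalizer (K : Set G) := sup_le le_normalizer hJK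
  have hpX : pRes 2 (K ⊔ J) = K := by
    apply le_antisymm
    · apply pRes_le_of_pow_mem
      intro x hx
      obtain ⟨a, ha, b, hb, rfl⟩ := exists_mul_of_mem_sup_of_le hJK hx
      obtain ⟨k, hk⟩ := hJp ⟨b, hb⟩
      have hk' : b ^ 2 ^ k = 1 := by
        have := congrArg Subtype.val hk
        simpa using this
      refine ⟨k, ?_⟩
      have := mul_pow_mem_coset ha (hJK hb) (2 ^ k)
      rw [hk'] at this
      simpa using this
    · conv_lhs => rw [← h1]
      exact pRes_mono hKX
  have hQX : Q ≤ normalizer ((K ⊔ J : Subgroup G) : Set G) := by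
    -- X = ⟨J^x⟩
    have hX : K ⊔ J = ⨆ x : ↥(K ⊔ J), J.map (MulAut.conj (x : G)).toMonoidHom := by
      apply le_antisymm
      · refine sup_le ?_ ?_
        · refine h2.ge.trans ?_
          rw [commutator_le]
          intro k hk j hj
          rw [commutatorElement_def]
          apply mul_mem
          · have : k * j * k⁻¹ ∈ J.map (MulAut.conj ((⟨k, hKX hk⟩ : ↥(K ⊔ J)) : G)).toMonoidHom :=
              ⟨j, hj, rfl⟩
            exact (le_iSup (fun x : ↥(K ⊔ J) => J.map (MulAut.conj (x : G)).toMonoidHom) ⟨k, hKX hk⟩) this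
          · have : j⁻¹ ∈ J.map (MulAut.conj ((1 : ↥(K ⊔ J)) : G)).toMonoidHom :=
              ⟨j⁻¹, J.inv_mem hj, by simp⟩
            exact (le_iSup (fun x : ↥(K ⊔ J) => J.map (MulAut.conj (x : G)).toMonoidHom) 1) this
        · intro j hj
          have : j ∈ J.map (MulAut.conj ((1 : ↥(K ⊔ J)) : G)).toMonoidHom :=
              ⟨j, hj, by simp⟩
          exact (le_iSup (fun x : ↥(K ⊔ J) => J.map (MulAut.conj (x : G)).toMonoidHom) 1) this
      · apply iSup_le
        rintro ⟨x, hx⟩
        rintro _ ⟨j, hj, rfl⟩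
        exact mul_mem (mul_mem hx (hJX hj)) (inv_mem hx)
    intro q hq
    rw [hX]
    apply mem_normalizer_of_map_conj_le
    rw [Subgroup.map_iSup]
    apply iSup_mono
    rintro ⟨x, hx⟩
    -- q J^x q⁻¹ = x (x⁻¹ q x) J (x⁻¹ q⁻¹ x) x⁻¹
    have hq' : x⁻¹ * q * x ∈ Q := conj_mem_of_le_normalizer' hQ1 hx hq
    have h3 := map_conj_eq_of_mem (hQ2 hq')
    rw [← map_conj_mul]
    have e : q * x = x * (x⁻¹ * q * x) := by group
    change J.map (MulAut.conj (q * x)).toMonoidHom ≤ J.map (MulAut.conj x).toMonoidHom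
    rw [e, map_conj_mul, h3]
  have := hQX.trans (normalizer_le_normalizer_pRes 2 (K ⊔ J))
  rwa [hpX] at this

end Cfsg.Agent.S2941
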