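import Cfsg.Statements.S2942
import Cfsg.Agent.Lib.ZNComp2

set_option autoImplicit false
open Cfsg

namespace Cfsg.Agent.S2942

open Cfsg.Agent.Lib.ZN Cfsg.Agent.Lib.LocBase

/-- Let G be a finite group of characteristic 2 type in which every 2-local subgroup is solvable and the centralizer of Ω₁(Z(S)) lies in N_G(S) for every Sylow 2-subgroup S, and let T be a nontrivial 2-subgroup (below, J is the Thompson subgroup generated by the elementary abelian 2-subgroups of largest order). If L is a subgroup in which T is a Sylow 2-subgroup, with J(T) not contained in O₂(L) and C_G(O₂(L)) ≤ O₂(L), then every J(T)-component contained in L is subnormal in L. -/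
theorem result {G : Type*} [Group G] [Finite G] (hL : Cfsg.IsCharacteristicTwoType G) (hN : ∀ N : Subgroup G, Cfsg.IsTwoLocal N → Group.IsSolvable ↥N)
    (hZ : ∀ S : Sylow 2 G, Subgroup.centralizer (Cfsg.omegaCenterOf (S : Subgroup G) : Set G) ≤ Subgroup.normalizer ((S : Subgroup G) : Set G)) (T : Subgroup G) (hT : IsPGroup 2 ↥T) (hT1 : T ≠ ⊥) (L : Subgroup G) (hLT : L ∈ Cfsg.jOvergroups T)
    (K : Subgroup G) (hK : Cfsg.IsJComponent T K) (hKL : K ≤ L) : (K.subgroupOf L).IsSubnormal := by
  have h := LH_iff.mp hLT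
  rw [← subn_iff hKL]
  exact h.comp_subn ⟨hL, hN, hZ⟩ (CL3.of_comp hK) hKL

end Cfsg.Agent.S2942

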