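import Cfsg.Statements.S2943
import Cfsg.Agent.Lib.ZNComp2

set_option autoImplicit false
open Cfsg

namespace Cfsg.Agent.S2943

open Cfsg.Agent.Lib.ZN Cfsg.Agent.Lib.LocBase

/-- Let G be a finite group of characteristic 2 type in which every 2-local subgroup is solvable and the centralizer of Ω₁(Z(S)) lies in N_G(S) for every Sylow 2-subgroup S, and let T be a nontrivial 2-subgroup (below, J is the Thompson subgroup generated by the elementary abelian 2-subgroups of largest order), L a subgroup in which T is a Sylow 2-subgroup with J(T) not contained in O₂(L) and C_G(O₂(L)) ≤ O₂(L), and K a J(T)-component contained in L. If Z(T) meets W_K = [Ω₁(Z(O₂(K))), K] nontrivially, then T normalizes K. -/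
theorem result {G : Type*} [Group G] [Finite G] (hL : Cfsg.IsCharacteristicTwoType G) (hN : ∀ N : Subgroup G, Cfsg.IsTwoLocal N → Group.IsSolvable ↥N)
    (hZ : ∀ S : Sylow 2 G, Subgroup.centralizer (Cfsg.omegaCenterOf (S : Subgroup G) : Set G) ≤ Subgroup.normalizer ((S : Subgroup G) : Set G)) (T : Subgroup G) (hT : IsPGroup 2 ↥T) (hT1 : T ≠ ⊥) (L : Subgroup G) (hLT : L ∈ Cfsg.jOvergroups T)
    (K : Subgroup G) (hK : Cfsg.IsJComponent T K) (hKL : K ≤ L)
    (hZW : T ⊓ Subgroup.centralizer (T : Set G) ⊓ Cfsg.wOf K ≠ ⊥) : T ≤ Subgroup.normalizer (K : Set G) := by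
  have h := LH_iff.mp hLT
  have hZN : ZNHyp G := ⟨hL, hN, hZ⟩
  have hc := CL3.of_comp hK
  obtain ⟨z, hz1'⟩ := Subgroup.ne_bot_iff_exists_ne_one.mp hZW
  have hz := z.2
  have hz1 : (z : G) ≠ 1 := fun e => hz1' (Subtype.ext e)
  obtain ⟨hzZ, hzW⟩ := Subgroup.mem_inf.mp hz
  obtain ⟨hzT, hzC⟩ := Subgroup.mem_inf.mp hzZ
  intro t ht
  have htL : t ∈ L := h.syl.le ht
  have htN : t ∈ Subgroup.normalizer (JJ T : Set G) := normalizer_le_normalizer_JJ T (Subgroup.le_normalizer ht)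
  have hc' := hc.conj_of_mem htN
  have hKL' : cj t K ≤ L := by
    have := Subgroup.map_mono (f := (MulAut.conj t).toMonoidHom) hKL
    rwa [map_conj_eq_of_mem (Subgroup.le_normalizer htL)] at this
  by_contra hcon
  have hne : K ≠ cj t K := fun e => hcon (mem_normalizer_of_map_conj_eq e.symm)
  have h1 := h.comp_inf hZN hc hKL hc' hKL' hne
  have hzW : (z : G) ∈ (⁅VL T L, K⁆ : Subgroup G) := (h.wOf_eq hZN hK hKL).le hzW
  have h2 : ((⁅VL T L, K⁆ : Subgroup G)).map (MulAut.conj t).toMonoidHom = ⁅VL T L, cj t K⁆ := by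
    rw [Subgroup.map_commutator, map_conj_eq_of_mem (le_normalizer_VL T L htL)]
  have h3 : (z : G) ∈ ((⁅VL T L, K⁆ : Subgroup G)).map (MulAut.conj t).toMonoidHom := by
    refine ⟨z, hzW, ?_⟩
    show t * z * t⁻¹ = z
    rw [Subgroup.mem_centralizer_iff.mp hzC t ht]
    group
  rw [h2] at h3
  have h4 : (z : G) ∈ (⊥ : Subgroup G) := by
    rw [← h1]; exact Subgroup.mem_inf.mpr ⟨hzW, h3⟩
  exact hz1 (Subgroup.mem_bot.mp h4)

end Cfsg.Agent.S2943
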