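import Cfsg.Statements.S2950
import Cfsg.Agent.Lib.ZNGen

set_option autoImplicit false
open Cfsg

namespace Cfsg.Agent.S2950

open Cfsg.Agent.Lib Cfsg.Agent.Lib.ZN Cfsg.Agent.Lib.LocBase

/-- Uniqueness of the maximal 2-local overgroup. Let G be a finite group of characteristic 2 type in which every 2-local subgroup is solvable and the centralizer of Ω₁(Z(S)) lies in N_G(S) for every Sylow 2-subgroup S; suppose O₂(G) = 1, fix a Sylow 2-subgroup S and a 2-local subgroup M containing N_G(J(S)) (J the Thompson subgroup generated by the elementary abelian 2-subgroups of largest order). Let T be maximal (for the order of a largest elementary abelian subgroup, then the order of J(T), then the order of T) among the nontrivial 2-subgroups of M lying in a 2-local subgroup not inside M, and let K be a J(T)-component not contained in M with J(T) the Thompson subgroup of every Sylow 2-subgroup of N_G(W_K) containing J(T), and O₂(⟨K, T⟩) ≠ 1. Then there is exactly one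 maximal 2-local subgroup L of G containing ⟨K, J(T)⟩; moreover K is subnormal in L and T is a Sylow 2-subgroup of L. -/
theorem result {G : Type*} [Group G] [Finite G] (hL : Cfsg.IsCharacteristicTwoType G) (hN : ∀ N : Subgroup G, Cfsg.IsTwoLocal N → Group.IsSolvable ↥N)
    (hZ : ∀ S : Sylow 2 G, Subgroup.centralizer (Cfsg.omegaCenterOf (S : Subgroup G) : Set G) ≤ Subgroup.normalizer ((S : Subgroup G) : Set G)) (hO : Cfsg.pCore 2 G = ⊥) (S : Sylow 2 G) (M : Subgroup G) (hM : Cfsg.IsTwoLocal M)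
    (hMJ : Subgroup.normalizer (Cfsg.thompsonSubgroupOf 2 (S : Subgroup G) : Set G) ≤ M) (T : Subgroup G) (hT : T ∈ Cfsg.maxStraddlingTwoSubgroups M)
    (K : Subgroup G) (hK : K ∈ Cfsg.jComponentsOutside M T) :
    ∃ L : Subgroup G, Cfsg.IsMaximalTwoLocal L ∧ K ⊔ Cfsg.thompsonSubgroupOf 2 T ≤ L ∧
      (∀ L' : Subgroup G, Cfsg.IsMaximalTwoLocal L' → K ⊔ Cfsg.thompsonSubgroupOf 2 T ≤ L' → L' = L) ∧
      (K.subgroupOf L).IsSubnormal ∧ Cfsg.IsSylowTwoIn T L := by
  have hZN : ZNHyp G := ⟨hL, hN, hZ⟩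
  have hMH : MHyp G M S := ⟨hM, hMJ⟩
  obtain ⟨hK0, hKM, hcore⟩ := hK
  have hKz := Zero.of_mem hT.1.1 hK0
  have hKx := hKz.facts
  have hKp : IsPGroup 2 ↥(Cfsg.pCoreOf 2 (K ⊔ T)) := isPGroup_pCoreOf 2 _
  obtain ⟨L, hLmax, hLle⟩ := exists_maximal_twoLocal
    (N := Subgroup.normalizer (Cfsg.pCoreOf 2 (K ⊔ T) : Set G)) ⟨_, hKp, hcore, rfl⟩
  have hKTL : K ⊔ T ≤ L := (le_normalizer_pCoreOf 2 _).trans hLle
  have hKL : K ≤ L := le_sup_left.trans hKTL
  have hTL : T ≤ L := le_sup_right.trans hKTL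
  have hJL : JJ T ≤ L := (JJ_le T).trans hTL
  have hLM : ¬ L ≤ M := fun hle => hKM (hKL.trans hle)
  have hLH := strad_syl hZN hMH hT hLmax.1 hLM hTL
  have hNloc : Cfsg.IsTwoLocal (Subgroup.normalizer (K : Set G)) := by
    rw [hKz.normalizer_eq hZN]
    exact ⟨_, ThompsonJ.elemAb_isPGroup EA_wOf, hKx.W_ne, rfl⟩
  obtain ⟨LK, hLK, hNLK⟩ := exists_maximal_twoLocal hNloc
  have e1 := unique_maximal hZN hMH hT hKx hKM hLK hNLK hLmax hKL hJL
  refine ⟨L, hLmax, sup_le hKL hJL, ?_, ?_, isSylowTwoIn_iff.mpr hLH.syl⟩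
  · intro L' hL' hle
    have e2 := unique_maximal hZN hMH hT hKx hKM hLK hNLK hL' (le_sup_left.trans hle) (le_sup_right.trans hle)
    rw [e1, e2]
  · rw [← subn_iff hKL]
    exact hLH.comp_subn hZN hKx.cl3 hKL

end Cfsg.Agent.S2950
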