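import Cfsg.Statements.S2953
import Cfsg.Agent.Lib.AmP

set_option autoImplicit false
open Cfsg

namespace Cfsg.Agent.S2953

open Cfsg.Agent.Lib Cfsg.Agent.Lib.AmG Cfsg.Agent.Lib.ZN Cfsg.Agent.Lib.LocBase

/-- Let G be a finite group of characteristic 2 type in which every 2-local subgroup is solvable and the centralizer of Ω₁(Z(S)) lies in N_G(S) for every Sylow 2-subgroup S; suppose O₂(G) = 1, fix a Sylow 2-subgroup S and a 2-local subgroup M containing N_G(J(S)) (J the Thompson subgroup generated by the elementary abelian 2-subgroups of largest order). Let T be maximal (for the order of a largest elementary abelian subgroup, then the order of J(T), then the order of T) among the nontrivial 2-subgroups of M lying in a 2-local subgroup not inside M. Then there are two distinct J(T)-components K₁, K₂ such that, with Pᵢ = ⟨Kᵢ, T⟩: C_G(O₂(Pᵢ)) ≤ O₂(Pᵢ), T is a Sylow 2-subgroup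 of Pᵢ, O₂(Pᵢ) has index 6 in Pᵢ with Pᵢ/O₂(Pᵢ) non-abelian, [Ω₁(Z(T)), Pᵢ] ≠ 1, O₂(⟨P₁, P₂⟩) = 1, and each Pᵢ lies in exactly one maximal 2-local subgroup Lᵢ of G, in which T is a Sylow 2-subgroup. -/
theorem result {G : Type*} [Group G] [Finite G] (hL : Cfsg.IsCharacteristicTwoType G) (hN : ∀ N : Subgroup G, Cfsg.IsTwoLocal N → Group.IsSolvable ↥N)
    (hZ : ∀ S : Sylow 2 G, Subgroup.centralizer (Cfsg.omegaCenterOf (S : Subgroup G) : Set G) ≤ Subgroup.normalizer ((S : Subgroup G) : Set G)) (hO : Cfsg.pCore 2 G = ⊥) (S : Sylow 2 G) (M : Subgroup G) (hM : Cfsg.IsTwoLocal M)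
    (hMJ : Subgroup.normalizer (Cfsg.thompsonSubgroupOf 2 (S : Subgroup G) : Set G) ≤ M) (T : Subgroup G) (hT : T ∈ Cfsg.maxStraddlingTwoSubgroups M) :
    ∃ K₁ K₂ : Subgroup G, K₁ ≠ K₂ ∧ Cfsg.IsJComponent T K₁ ∧ Cfsg.IsJComponent T K₂ ∧
      Cfsg.pCoreOf 2 ((K₁ ⊔ T) ⊔ (K₂ ⊔ T)) = ⊥ ∧
      ∀ P ∈ [K₁ ⊔ T, K₂ ⊔ T],
        Subgroup.centralizer (Cfsg.pCoreOf 2 P : Set G) ≤ Cfsg.pCoreOf 2 P ∧ Cfsg.IsSylowTwoIn T P ∧
        (Cfsg.pCoreOf 2 P).relIndex P = 6 ∧ ¬ ⁅P, P⁆ ≤ Cfsg.pCoreOf 2 P ∧ ⁅Cfsg.omegaCenterOf T, P⁆ ≠ ⊥ ∧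
        ∃ L : Subgroup G, Cfsg.IsMaximalTwoLocal L ∧ P ≤ L ∧ Cfsg.IsSylowTwoIn T L ∧
          ∀ L' : Subgroup G, Cfsg.IsMaximalTwoLocal L' → P ≤ L' → L' = L := by
  have hZN : ZNHyp G := ⟨hL, hN, hZ⟩
  have hMH : MHyp G M S := ⟨hM, hMJ⟩
  obtain ⟨L'', hL'', hTL'', hLn⟩ := hT.1.2.2.2
  obtain ⟨K₁, _, _, _, hK₁⟩ := exists_outside hZN hMH hT hL'' hTL'' hLn
  obtain ⟨L₁, h₁⟩ := exists_pk hZN hMH hT hK₁
  obtain ⟨S', hS'⟩ := hT.1.1.exists_le_sylow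
  obtain ⟨K₂, L₂, h₂, hne⟩ := second' hZN hO h₁ hS'
  have hp₁ := pf_of hZN hO h₁ hS'
  have hp₂ := pf_of hZN hO h₂ hS'
  have hside : ∀ K L₀ : Subgroup G, Pk T K L₀ → PF T K →
        Subgroup.centralizer (Cfsg.pCoreOf 2 (K ⊔ T) : Set G) ≤ Cfsg.pCoreOf 2 (K ⊔ T) ∧ Cfsg.IsSylowTwoIn T (K ⊔ T) ∧
        (Cfsg.pCoreOf 2 (K ⊔ T)).relIndex (K ⊔ T) = 6 ∧ ¬ ⁅K ⊔ T, K ⊔ T⁆ ≤ Cfsg.pCoreOf 2 (K ⊔ T) ∧
        ⁅Cfsg.omegaCenterOf T, K ⊔ T⁆ ≠ ⊥ ∧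
        ∃ L : Subgroup G, Cfsg.IsMaximalTwoLocal L ∧ (K ⊔ T) ≤ L ∧ Cfsg.IsSylowTwoIn T L ∧
          ∀ L' : Subgroup G, Cfsg.IsMaximalTwoLocal L' → (K ⊔ T) ≤ L' → L' = L := by
    intro K L₀ h hp
    have hcore := hp.core_eq h.syl_P
    refine ⟨?_, isSylowTwoIn_iff.mpr h.syl_P, ?_, ?_, ?_, L₀, h.uq.max, sup_le h.KL h.TL, isSylowTwoIn_iff.mpr h.lh.syl, ?_⟩
    · rw [hcore]; exact h.cent_Q hp
    · rw [hcore]
      have h1 := SubgroupTools.card_mul_relIndex_of_le (show QQ T K ≤ K ⊔ T from inf_le_left.trans le_sup_right)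
      rw [hp.card_P, hp.card_T] at h1
      have h2 : 0 < Nat.card (QQ T K) := Nat.card_pos
      apply Nat.eq_of_mul_eq_mul_left h2
      rw [h1]
      show 3 * (2 * Nat.card (QQ T K)) = Nat.card (QQ T K) * 6
      ring
    · rw [hcore]
      intro hle
      apply hp.X.not_isPGroup
      apply hp.Tp.to_le
      calc K = ⁅K, JJ T⁆ := hp.X.comm.symm
        _ ≤ ⁅K ⊔ T, K ⊔ T⁆ := Subgroup.commutator_mono le_sup_left ((JJ_le T).trans le_sup_right)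
        _ ≤ QQ T K := hle
        _ ≤ T := inf_le_left
    · intro hb
      rw [Subgroup.commutator_eq_bot_iff_le_centralizer] at hb
      have h1 := hp.card_R
      have h2 : RR₀ T K ≤ ⊥ := by
        rw [← hp.W_inf_cent]
        exact le_inf inf_le_right (inf_le_left.trans hb)
      rw [le_bot_iff.mp h2, Subgroup.card_bot] at h1
      omega
    · intro L' hL' hle
      exact h.uq.uniq L' hL' (le_sup_left.trans hle) ((JJ_le T).trans (le_sup_right.trans hle))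
  refine ⟨K₁, K₂, ?_, (isJComponent_iff h₁.Tp).mpr h₁.X, (isJComponent_iff h₁.Tp).mpr h₂.X, ?_, ?_⟩
  · intro e
    apply hne
    subst e
    exact h₁.uq.uniq L₂ h₂.uq.max h₂.KL ((JJ_le T).trans h₂.TL)
  · by_contra hb
    have hle := le_normalizer_pCoreOf 2 ((K₁ ⊔ T) ⊔ (K₂ ⊔ T))
    have hloc : Cfsg.IsTwoLocal (Subgroup.normalizer (Cfsg.pCoreOf 2 ((K₁ ⊔ T) ⊔ (K₂ ⊔ T)) : Set G)) :=
      ⟨_, isPGroup_pCoreOf 2 _, hb, rfl⟩
    obtain ⟨L', hL', hle'⟩ := exists_maximal_twoLocal hloc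
    have hT' : JJ T ≤ L' := (JJ_le T).trans ((le_sup_right.trans le_sup_left).trans (hle.trans hle'))
    have e1 := h₁.uq.uniq L' hL' ((le_sup_left.trans le_sup_left).trans (hle.trans hle')) hT'
    have e2 := h₂.uq.uniq L' hL' ((le_sup_left.trans le_sup_right).trans (hle.trans hle')) hT'
    exact hne (e2.symm.trans e1)
  · intro P hP
    rcases List.mem_cons.mp hP with rfl | hP
    · exact hside K₁ L₁ h₁ hp₁
    · rw [List.mem_singleton] at hP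
      subst hP
      exact hside K₂ L₂ h₂ hp₂

end Cfsg.Agent.S2953
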