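import Cfsg.Statements.S2954
import Cfsg.Agent.Lib.AmP

set_option autoImplicit false
open Cfsg

namespace Cfsg.Agent.S2954

open Cfsg.Agent.Lib Cfsg.Agent.Lib.AmG Cfsg.Agent.Lib.ZN Cfsg.Agent.Lib.LocBase

/-- Let G be a finite group of characteristic 2 type in which every 2-local subgroup is solvable and the centralizer of Ω₁(Z(S)) lies in N_G(S) for every Sylow 2-subgroup S; suppose O₂(G) = 1, fix a Sylow 2-subgroup S and a 2-local subgroup M containing N_G(J(S)) (J the Thompson subgroup generated by the elementary abelian 2-subgroups of largest order). If T is maximal (for the order of a largest elementary abelian subgroup, then the order of J(T), then the order of T) among the nontrivial 2-subgroups of M lying in a 2-local subgroup not inside M, then there are two distinct maximal 2-local subgroups P₁, P₂ of G, each having T as a Sylow 2-subgroup, that are both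 isomorphic to the symmetric group on four letters or both isomorphic to its direct product with a group of order 2. -/
theorem result {G : Type*} [Group G] [Finite G] (hL : Cfsg.IsCharacteristicTwoType G) (hN : ∀ N : Subgroup G, Cfsg.IsTwoLocal N → Group.IsSolvable ↥N)
    (hZ : ∀ S : Sylow 2 G, Subgroup.centralizer (Cfsg.omegaCenterOf (S : Subgroup G) : Set G) ≤ Subgroup.normalizer ((S : Subgroup G) : Set G)) (hO : Cfsg.pCore 2 G = ⊥) (S : Sylow 2 G) (M : Subgroup G) (hM : Cfsg.IsTwoLocal M)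
    (hMJ : Subgroup.normalizer (Cfsg.thompsonSubgroupOf 2 (S : Subgroup G) : Set G) ≤ M) (T : Subgroup G) (hT : T ∈ Cfsg.maxStraddlingTwoSubgroups M) :
    ∃ P₁ P₂ : Subgroup G, P₁ ≠ P₂ ∧ Cfsg.IsMaximalTwoLocal P₁ ∧ Cfsg.IsMaximalTwoLocal P₂ ∧
      Cfsg.IsSylowTwoIn T P₁ ∧ Cfsg.IsSylowTwoIn T P₂ ∧
      ((Nonempty (↥P₁ ≃* Equiv.Perm (Fin 4)) ∧ Nonempty (↥P₂ ≃* Equiv.Perm (Fin 4))) ∨
        (Nonempty (↥P₁ ≃* Equiv.Perm (Fin 4) × Multiplicative (ZMod 2)) ∧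
          Nonempty (↥P₂ ≃* Equiv.Perm (Fin 4) × Multiplicative (ZMod 2)))) := by
  have hZN : ZNHyp G := ⟨hL, hN, hZ⟩
  have hMH : MHyp G M S := ⟨hM, hMJ⟩
  obtain ⟨L'', hL'', hTL'', hLn⟩ := hT.1.2.2.2
  obtain ⟨K₁, _, _, _, hK₁⟩ := exists_outside hZN hMH hT hL'' hTL'' hLn
  obtain ⟨L₁, h₁⟩ := exists_pk hZN hMH hT hK₁
  obtain ⟨S', hS'⟩ := hT.1.1.exists_le_sylow
  obtain ⟨K₂, L₂, h₂, hne⟩ := second' hZN hO h₁ hS'
  have hp₁ := pf_of hZN hO h₁ hS'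
  have hp₂ := pf_of hZN hO h₂ hS'
  have hf₁ := pk_faith h₁ h₂ (Ne.symm hne)
  have hf₂ := pk_faith h₂ h₁ hne
  have hc₁ := pair_main hp₁ hp₂ hf₁
  have hc₂ := pair_main hp₂ hp₁ hf₂
  have hQ₁ := Q_eq_ZZ hp₁ hp₂ hc₁ hf₁
  have hQ₂ := Q_eq_ZZ hp₂ hp₁ hc₂ hf₂
  have e₁ := h₁.L_eq hZN hp₁ hQ₁
  have e₂ := h₂.L_eq hZN hp₂ hQ₂
  obtain ⟨w₁, hw₁, hw₁Q⟩ := exists_w hp₁ hp₂ hc₁
  obtain ⟨w₂, hw₂, hw₂Q⟩ := exists_w hp₂ hp₁ hc₂
  have hi₁ := iso_of hp₁ hQ₁ (hp₂.W_le_T hw₂) ((ThompsonJ.elemAb_iff.mp EA_wOf).2 w₂ hw₂) hw₂Q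
  have hi₂ := iso_of hp₂ hQ₂ (hp₁.W_le_T hw₁) ((ThompsonJ.elemAb_iff.mp EA_wOf).2 w₁ hw₁) hw₁Q
  rw [← e₁] at hi₁
  rw [← e₂] at hi₂
  refine ⟨L₁, L₂, Ne.symm hne, h₁.uq.max, h₂.uq.max, isSylowTwoIn_iff.mpr h₁.lh.syl, isSylowTwoIn_iff.mpr h₂.lh.syl, ?_⟩
  have hcard := card_Z₀_cases hp₁.X (by rw [← hp₁.ZT]; exact hp₁.Zcard)
  rw [← hp₁.ZT] at hcard
  rcases hcard with hc | hc
  · left; exact ⟨hi₁.1 hc, hi₂.1 hc⟩
  · right; exact ⟨hi₁.2 hc, hi₂.2 hc⟩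

end Cfsg.Agent.S2954
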