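import Cfsg.Statements.S3084
import Cfsg.Agent.Lib.H31XO

set_option autoImplicit false
open Cfsg

namespace Cfsg.Agent.S3084

/-- Let K be a group acting faithfully and linearly on a finite-dimensional vector space U of dimension 2n ≥ 2 over the field with two elements, preserving a quadratic form q whose polar bilinear form is non-degenerate and which vanishes on some n-dimensional subspace (a non-singular form of plus type). Then there is a finite group R with a normal extraspecial 2-subgroup Q of order 2^(2n+1), an isomorphism of R/Q with K, and a surjective homomorphism χ from Q onto (the additive group of) U with kernel the centre of Q, such that χ carries conjugation by any r in R to the action of the image of r in K, and an element a of Q squares to the identity exactly when q vanishes at χ(a). -/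
theorem result {K : Type*} [Group K] {U : Type*} [AddCommGroup U] [Module (ZMod 2) U] [Module.Finite (ZMod 2) U] (n : ℕ) (hn1 : 1 ≤ n) (hn : Module.finrank (ZMod 2) U = 2 * n) (ρ : Representation (ZMod 2) K U) (hρ : Function.Injective ρ) (q : QuadraticForm (ZMod 2) U) (hq : ∀ (k : K) (u : U), q (ρ k u) = q u) (hnd : (QuadraticMap.polarBilin q).Nondegenerate) (hplus : ∃ W : Submodule (ZMod 2) U, Module.finrank (ZMod 2) ↥W = n ∧ ∀ w ∈ W, q w = 0) : ∃ (R : Type) (_ : Group R) (_ : Finite R) (Q : Subgroup R) (hN : Q.Normal) (e : R ⧸ Q ≃* K) (χ : ↥Q →* Multiplicative U), Cfsg.IsExtraspecial 2 ↥Q ∧ Nat.card ↥Q = 2 ^ (2 * n + 1) ∧ Function.Surjective χ ∧ χ.ker = Subgroup.center ↥Q ∧ (∀ (r : R) (a : ↥Q), χ ⟨r * a * r⁻¹, hN.conj_mem (a : R) a.2 r⟩ = Multiplicative.ofAdd (ρ (e (r : R ⧸ Q)) (Multiplicative.toAdd (χ a)))) ∧ ∀ a : ↥Q, a * a = 1 ↔ q (Multiplicative.toAdd (χ a)) = 0 := by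
  classical
  let ε : U ≃ₗ[ZMod 2] (Fin (2 * n) → ZMod 2) := (Module.finBasisOfFinrankEq (ZMod 2) U hn).equivFun
  let ρV : K →* ((Fin (2 * n) → ZMod 2) →ₗ[ZMod 2] (Fin (2 * n) → ZMod 2)) :=
    { toFun := fun k => ε.toLinearMap ∘ₗ (ρ k) ∘ₗ ε.symm.toLinearMap
      map_one' := by
        apply LinearMap.ext
        intro v
        show ε (ρ 1 (ε.symm v)) = v
        rw [map_one]
        exact ε.apply_symm_apply v
      map_mul' := by
        intro x y
        apply LinearMap.ext
        intro v
        show ε (ρ (x * y) (ε.symm v)) = ε (ρ x (ε.symm (ε (ρ y (ε.symm v)))))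
        rw [map_mul, ε.symm_apply_apply]
        rfl }
  have hρV : ∀ k v, ρV k v = ε (ρ k (ε.symm v)) := fun _ _ => rfl
  let φ := MonoidHom.toHomUnits ρV
  have hφ : ∀ k, ((φ k : ((Fin (2 * n) → ZMod 2) →ₗ[ZMod 2] (Fin (2 * n) → ZMod 2))ˣ) :
      (Fin (2 * n) → ZMod 2) →ₗ[ZMod 2] (Fin (2 * n) → ZMod 2)) = ρV k := fun _ => rfl
  have hφi : Function.Injective φ := by
    intro x y h
    have h1 : ρV x = ρV y := by rw [← hφ, ← hφ, h]
    apply hρ
    apply LinearMap.ext
    intro u
    have h2 := LinearMap.congr_fun h1 (ε u)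
    rw [hρV, hρV, ε.symm_apply_apply] at h2
    exact ε.injective h2
  let eK : K ≃* φ.range := MonoidHom.ofInjective hφi
  let ρ0 : Representation (ZMod 2) φ.range (Fin (2 * n) → ZMod 2) := (Units.coeHom _).comp φ.range.subtype
  have hρ0 : ∀ k v, ρ0 (eK k) v = ε (ρ k (ε.symm v)) := fun _ _ => rfl
  obtain ⟨f0, hf0⟩ := LinearMap.BilinMap.toQuadraticMap_surjective (R := ZMod 2) (M := U) (N := ZMod 2) q
  have hf0' : ∀ u, f0 u u = q u := fun u => by rw [← hf0]; rfl
  let f := f0.compl₁₂ ε.symm.toLinearMap ε.symm.toLinearMap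
  have hf : ∀ u v, f u v = f0 (ε.symm u) (ε.symm v) := fun _ _ => rfl
  have : Finite (Module.End (ZMod 2) (Fin (2 * n) → ZMod 2)) :=
    Finite.of_injective (fun g => (g : (Fin (2 * n) → ZMod 2) → (Fin (2 * n) → ZMod 2))) DFunLike.coe_injective
  have hfin : Finite φ.range := by
    apply Finite.of_injective (fun x : φ.range => (x.1 : (Fin (2 * n) → ZMod 2) →ₗ[ZMod 2] (Fin (2 * n) → ZMod 2)))
    intro x y h
    exact Subtype.ext (Units.ext h)
  have hpol : ∀ u v, f0 u v + f0 v u = QuadraticMap.polarBilin q u v := by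
    intro u v
    rw [QuadraticMap.polarBilin_apply_apply, QuadraticMap.polar, ← hf0', ← hf0', ← hf0', map_add f0, LinearMap.add_apply,
      map_add, map_add]
    abel
  obtain ⟨R, i1, i2, Q, hN, e, χ, h1, h2, h3, h4, h5, h6⟩ := Cfsg.Agent.Lib.H31XO.main_V ρ0 (f := f) (by
    intro w hw
    have h1 : ε.symm w = 0 := by
      apply hnd.1
      intro v
      rw [← hpol]
      have := hw (ε v)
      rw [hf, hf, ε.symm_apply_apply] at this
      exact this
    have h2 := congrArg ε h1
    rw [ε.apply_symm_apply, map_zero] at h2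
    exact h2) (by
    intro k v
    obtain ⟨k', rfl⟩ := eK.surjective k
    rw [hρ0, hf, hf, ε.symm_apply_apply, hf0', hf0', hq]) n hn1 (by
    rw [Nat.card_eq_fintype_card, Fintype.card_pi_const, ZMod.card])
  refine ⟨R, i1, i2, Q, hN, e.trans eK.symm, (AddMonoidHom.toMultiplicative ε.symm.toAddMonoidHom).comp χ, h1, h2, ?_, ?_, ?_, ?_⟩
  · intro u
    obtain ⟨x, hx⟩ := h3 (Multiplicative.ofAdd (ε (Multiplicative.toAdd u)))
    refine ⟨x, ?_⟩
    rw [MonoidHom.comp_apply, hx]
    show Multiplicative.ofAdd (ε.symm (ε (Multiplicative.toAdd u))) = u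
    rw [ε.symm_apply_apply]
    rfl
  · rw [← h4]
    ext x
    rw [MonoidHom.mem_ker, MonoidHom.mem_ker]
    constructor
    · intro h
      have h' : ε.symm (Multiplicative.toAdd (χ x)) = 0 := h
      have h'' : Multiplicative.toAdd (χ x) = 0 := by
        have := congrArg ε h'
        rwa [ε.apply_symm_apply, map_zero] at this
      exact h''
    · intro h
      rw [MonoidHom.comp_apply, h, map_one]
  · intro r a
    rw [MonoidHom.comp_apply, h5]
    obtain ⟨k, hk⟩ := eK.surjective (e (r : R ⧸ Q))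
    have e1 : (e.trans eK.symm) (r : R ⧸ Q) = k := by
      rw [MulEquiv.trans_apply, ← hk, MulEquiv.symm_apply_apply]
    rw [e1, ← hk]
    show Multiplicative.ofAdd (ε.symm (ρ0 (eK k) (Multiplicative.toAdd (χ a)))) =
      Multiplicative.ofAdd (ρ k (ε.symm (Multiplicative.toAdd (χ a))))
    rw [hρ0, ε.symm_apply_apply]
  · intro a
    rw [h6]
    show f (Multiplicative.toAdd (χ a)) (Multiplicative.toAdd (χ a)) = 0 ↔ q (ε.symm (Multiplicative.toAdd (χ a))) = 0
    rw [hf, hf0']

end Cfsg.Agent.S3084
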