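import Cfsg.Statements.S3085
import Cfsg.Agent.Lib.ExtraCount

set_option autoImplicit false
open Cfsg

namespace Cfsg.Agent.S3085

open Subgroup Cfsg.Agent.Lib
open scoped commutatorElement Classical

section
variable {Q : Type*} [Group Q]

/-- Elementwise data: a central involution `z`; any two elements commute up to `z`. -/
structure Z2 (z : Q) : Prop where
  cen : ∀ y : Q, z * y = y * z
  ne : z ≠ 1
  sq : z * z = 1
  comm : ∀ a b : Q, a * b = b * a ∨ a * b = b * a * z
  uniq : ∀ c : Q, (∀ y : Q, c * y = y * c) → c = 1 ∨ c = z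

variable {z : Q}

theorem Z2.both (h : Z2 z) {x y y' : Q} (h1 : ¬ x * y = y * x) (h2 : ¬ x * y' = y' * x) :
    x * (y * y') = y * y' * x := by
  have h1' := (h.comm x y).resolve_left h1
  have h2' := (h.comm x y').resolve_left h2
  calc x * (y * y') = (x * y) * y' := by group
    _ = y * (x * (z * y')) := by rw [h1']; group
    _ = y * (x * y') * z := by rw [h.cen y']; group
    _ = y * y' * x * (z * z) := by rw [h2']; group
    _ = y * y' * x := by rw [h.sq, mul_one]

theorem Z2.right (h : Z2 z) {x y y' : Q} (h1 : x * y = y * x) (h2 : ¬ x * y' = y' * x) :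
    ¬ x * (y * y') = y * y' * x := by
  intro h3
  apply h2
  have : y * (x * y') = y * (y' * x) := by
    calc y * (x * y') = (y * x) * y' := by group
      _ = x * (y * y') := by rw [← h1]; group
      _ = y * (y' * x) := by rw [h3]; group
  exact mul_left_cancel this

theorem Z2.left (h : Z2 z) {x y y' : Q} (h1 : ¬ x * y = y * x) (h2 : x * y' = y' * x) :
    ¬ x * (y * y') = y * y' * x := by
  intro h3
  apply h1
  have : (x * y) * y' = (y * x) * y' := by
    calc (x * y) * y' = x * (y * y') := by group
      _ = y * (x * y') := by rw [h3, h2]; group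
      _ = (y * x) * y' := by group
  exact mul_right_cancel this

theorem both' {x y y' : Q} (h1 : x * y = y * x) (h2 : x * y' = y' * x) : x * (y * y') = y * y' * x := by
  calc x * (y * y') = (x * y) * y' := by group
    _ = y * (x * y') := by rw [h1]; group
    _ = y * y' * x := by rw [h2]; group

theorem self_iff {x y : Q} : x * (y * x) = y * x * x ↔ x * y = y * x := by
  constructor
  · intro h
    have : (x * y) * x = (y * x) * x := by rw [← h]; group
    exact mul_right_cancel this
  · intro h
    rw [← mul_assoc, h]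

theorem self_iff' {x y : Q} : x * (y * x⁻¹) = y * x⁻¹ * x ↔ x * y = y * x := by
  constructor
  · intro h
    have h2 : x * y = x * (y * x⁻¹) * x := by group
    rw [h2, h]; group
  · intro h
    rw [← mul_assoc, h]; group

/-- The lift of a transvection. -/
noncomputable def tau (h : Z2 z) (x : Q) (hx : x * x = z) : MulAut Q where
  toFun y := if x * y = y * x then y else y * x
  invFun y := if x * y = y * x then y else y * x⁻¹
  left_inv y := by
    by_cases h1 : x * y = y * x
    · simp [h1]
    · simp only [h1, if_false, self_iff]; group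
  right_inv y := by
    by_cases h1 : x * y = y * x
    · simp [h1]
    · simp only [h1, if_false, self_iff']; group
  map_mul' y y' := by
    by_cases h1 : x * y = y * x
    · by_cases h2 : x * y' = y' * x
      · simp only [h1, h2, if_true, both' h1 h2]
      · simp only [h1, h2, if_true, if_false, h.right h1 h2]; group
    · by_cases h2 : x * y' = y' * x
      · simp only [h1, h2, if_true, if_false, h.left h1 h2]
        rw [mul_assoc, mul_assoc, h2]
      · simp only [h1, h2, if_true, if_false, h.both h1 h2]
        have h3 := (h.comm x y').resolve_left h2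
        calc y * y' = y * y' * (z * z) := by rw [h.sq, mul_one]
          _ = y * y' * (x * x * z) := by rw [hx]
          _ = y * (y' * x) * (x * z) := by group
          _ = y * (y' * x) * (z * x) := by rw [h.cen x]
          _ = y * (y' * x * z) * x := by group
          _ = y * (x * y') * x := by rw [← h3]
          _ = y * x * (y' * x) := by group

theorem tau_of_comm (h : Z2 z) {x : Q} (hx : x * x = z) {y : Q} (hy : x * y = y * x) : tau h x hx y = y := by
  show (if x * y = y * x then y else y * x) = y
  rw [if_pos hy]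

theorem tau_of_not (h : Z2 z) {x : Q} (hx : x * x = z) {y : Q} (hy : ¬ x * y = y * x) :
    tau h x hx y = y * x := by
  show (if x * y = y * x then y else y * x) = y * x
  rw [if_neg hy]

theorem tau_sq (h : Z2 z) {x : Q} (hx : x * x = z) : tau h x hx * tau h x hx = MulAut.conj x := by
  ext y
  rw [MulAut.mul_apply, MulAut.conj_apply]
  by_cases hy : x * y = y * x
  · rw [tau_of_comm h hx hy, tau_of_comm h hx hy, hy]; group
  · rw [tau_of_not h hx hy, tau_of_not h hx (by rwa [self_iff])]
    have h1 := (h.comm x y).resolve_left hy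
    rw [h1, mul_assoc, hx, mul_assoc _ z, h.cen, ← mul_assoc]; group

theorem tau_comm (h : Z2 z) {x x' : Q} (hx : x * x = z) (hx' : x' * x' = z) (hc : x * x' = x' * x) :
    tau h x hx * tau h x' hx' = tau h x' hx' * tau h x hx := by
  ext y
  rw [MulAut.mul_apply, MulAut.mul_apply]
  by_cases h1 : x * y = y * x
  · by_cases h2 : x' * y = y * x'
    · rw [tau_of_comm h hx' h2, tau_of_comm h hx h1, tau_of_comm h hx' h2]
    · rw [tau_of_not h hx' h2, tau_of_comm h hx h1, tau_of_not h hx' h2, tau_of_comm h hx (both' h1 hc)]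
  · by_cases h2 : x' * y = y * x'
    · rw [tau_of_comm h hx' h2, tau_of_not h hx h1, tau_of_comm h hx' (both' h2 hc.symm)]
    · rw [tau_of_not h hx' h2, tau_of_not h hx h1, tau_of_not h hx (h.left h1 hc),
        tau_of_not h hx' (h.left h2 hc.symm), mul_assoc, mul_assoc, hc]

theorem tau_conj (f : MulAut Q) (w : Q) : f * MulAut.conj w = MulAut.conj (f w) * f := by
  ext y
  simp [MulAut.mul_apply, MulAut.conj_apply]

theorem fix_z (h : Z2 z) (f : MulAut Q) : f z = z := by
  have h1 : ∀ y : Q, f z * y = y * f z := by
    intro y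
    obtain ⟨y, rfl⟩ := f.surjective y
    rw [← map_mul, ← map_mul, h.cen]
  rcases h.uniq _ h1 with h2 | h2
  · exfalso
    apply h.ne
    rw [← map_one f] at h2
    exact f.injective h2
  · exact h2

theorem exists_eps (h : Z2 z) (w b : Q) : ∃ ε : Q, (ε = 1 ∨ ε = z) ∧ w * b * w⁻¹ = b * ε := by
  rcases h.comm w b with h1 | h1
  · exact ⟨1, Or.inl rfl, by rw [h1]; group⟩
  · refine ⟨z, Or.inr rfl, ?_⟩
    rw [h1, mul_assoc _ z, h.cen]; group

/-- The key computation: complement elements. -/
theorem key (h : Z2 z) (L : Subgroup (MulAut Q)) (hL : ∀ f ∈ L, (∃ w : Q, f = MulAut.conj w) → f = 1)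
    (hsur : ∀ f : MulAut Q, ∃ w : Q, MulAut.conj w * f ∈ L)
    {x : Q} (hx : x * x = z) (hxc : ∃ y, ¬ x * y = y * x) :
    ∃ w : Q, ¬ w * x = x * w ∧ ∀ x' : Q, x' * x' = z → x * x' = x' * x →
      (∃ y, x * y = y * x ∧ ¬ x' * y = y * x') → w * x' = x' * w := by
  obtain ⟨w, hw⟩ := hsur (tau h x hx)
  refine ⟨w, ?_, ?_⟩
  · intro hwx
    obtain ⟨y, hy⟩ := hxc
    have h1 : (MulAut.conj w * tau h x hx) * (MulAut.conj w * tau h x hx) = 1 := by
      refine hL _ (L.mul_mem hw hw) ⟨w * tau h x hx w * x, ?_⟩
      calc (MulAut.conj w * tau h x hx) * (MulAut.conj w * tau h x hx)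
          = MulAut.conj w * (tau h x hx * MulAut.conj w) * tau h x hx := by group
        _ = MulAut.conj w * MulAut.conj (tau h x hx w) * (tau h x hx * tau h x hx) := by
            rw [tau_conj]; group
        _ = MulAut.conj (w * tau h x hx w * x) := by rw [tau_sq, map_mul, map_mul]
    have h2 := congrArg (fun f : MulAut Q => f y) h1
    simp only [MulAut.mul_apply, MulAut.one_apply, MulAut.conj_apply] at h2
    rw [tau_of_not h hx hy] at h2
    obtain ⟨ε, hε, hε2⟩ := exists_eps h w (y * x)
    rw [hε2] at h2
    have hcomm : ¬ x * (y * x) = y * x * x := by rwa [self_iff]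
    have hεc : ∀ u : Q, ε * u = u * ε := by
      intro u
      rcases hε with rfl | rfl
      · simp
      · exact h.cen u
    have hεε : ε * ε = 1 := by
      rcases hε with rfl | rfl
      · simp
      · exact h.sq
    have hcomm2 : ¬ x * (y * x * ε) = y * x * ε * x := h.left hcomm (hεc x).symm
    rw [tau_of_not h hx hcomm2] at h2
    have h3 : w * (y * x * ε * x) * w⁻¹ = (w * (y * x) * w⁻¹) * ε * (w * x * w⁻¹) := by
      calc w * (y * x * ε * x) * w⁻¹ = w * (y * x) * (ε * x) * w⁻¹ := by group
        _ = w * (y * x) * (ε * w⁻¹ * (w * x * w⁻¹)) := by group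
        _ = w * (y * x) * (w⁻¹ * ε * (w * x * w⁻¹)) := by rw [hεc w⁻¹]
        _ = _ := by group
    rw [h3, hε2, hwx] at h2
    apply h.ne
    have h4 : y * x * ε * ε * (x * w * w⁻¹) = y * (x * x) := by
      calc y * x * ε * ε * (x * w * w⁻¹) = y * x * (ε * ε) * x := by group
        _ = y * (x * x) := by rw [hεε]; group
    rw [h4, hx] at h2
    calc z = y⁻¹ * (y * z) := by group
      _ = 1 := by rw [h2]; group
  · rintro x' hx' hc ⟨y, hy1, hy2⟩
    by_contra hwx
    obtain ⟨w', hw'⟩ := hsur (tau h x' hx')
    have h1 : (MulAut.conj w * tau h x hx) * (MulAut.conj w' * tau h x' hx') =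
        (MulAut.conj w' * tau h x' hx') * (MulAut.conj w * tau h x hx) := by
      rw [← mul_inv_eq_one]
      refine hL _ (L.mul_mem (L.mul_mem hw hw') (L.inv_mem (L.mul_mem hw' hw)))
        ⟨(w * tau h x hx w') * (w' * tau h x' hx' w)⁻¹, ?_⟩
      have e1 : (MulAut.conj w * tau h x hx) * (MulAut.conj w' * tau h x' hx') =
          MulAut.conj (w * tau h x hx w') * (tau h x hx * tau h x' hx') := by
        calc (MulAut.conj w * tau h x hx) * (MulAut.conj w' * tau h x' hx')
            = MulAut.conj w * (tau h x hx * MulAut.conj w') * tau h x' hx' := by group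
          _ = _ := by rw [tau_conj, map_mul]; group
      have e2 : (MulAut.conj w' * tau h x' hx') * (MulAut.conj w * tau h x hx) =
          MulAut.conj (w' * tau h x' hx' w) * (tau h x hx * tau h x' hx') := by
        calc (MulAut.conj w' * tau h x' hx') * (MulAut.conj w * tau h x hx)
            = MulAut.conj w' * (tau h x' hx' * MulAut.conj w) * tau h x hx := by group
          _ = MulAut.conj (w' * tau h x' hx' w) * (tau h x' hx' * tau h x hx) := by
              rw [tau_conj, map_mul]; group
          _ = _ := by rw [tau_comm h hx hx' hc]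
      rw [e1, e2, map_mul MulAut.conj (w * _) _, map_inv]; group
    have h2 := congrArg (fun f : MulAut Q => f y) h1
    simp only [MulAut.mul_apply, MulAut.conj_apply] at h2
    rw [tau_of_not h hx' hy2, tau_of_comm h hx hy1] at h2
    obtain ⟨ε', hε', hε2'⟩ := exists_eps h w' (y * x')
    obtain ⟨ε, hε, hε2⟩ := exists_eps h w y
    have hεc : ∀ u : Q, ε * u = u * ε := by
      intro u
      rcases hε with rfl | rfl
      · simp
      · exact h.cen u
    have hεc' : ∀ u : Q, ε' * u = u * ε' := by
      intro u
      rcases hε' with rfl | rfl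
      · simp
      · exact h.cen u
    have hwx' := (h.comm w x').resolve_left hwx
    rw [hε2', hε2] at h2
    have h3 : x * (y * x' * ε') = y * x' * ε' * x :=
      both' (both' hy1 hc) (hεc' x).symm
    have h4 : ¬ x' * (y * ε) = y * ε * x' := h.left hy2 (hεc x').symm
    rw [tau_of_comm h hx h3, tau_of_not h hx' h4] at h2
    have h5 : w * (y * x' * ε') * w⁻¹ = y * ε * x' * z * ε' := by
      calc w * (y * x' * ε') * w⁻¹ = (w * y * w⁻¹) * (w * x') * (ε' * w⁻¹) := by group
        _ = (y * ε) * (x' * w * z) * (w⁻¹ * ε') := by rw [hε2, hwx', hεc' w⁻¹]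
        _ = y * ε * x' * w * (z * w⁻¹) * ε' := by group
        _ = y * ε * x' * z * ε' := by rw [h.cen w⁻¹]; group
    have h6 : w' * (y * ε * x') * w'⁻¹ = y * x' * ε' * ε := by
      calc w' * (y * ε * x') * w'⁻¹ = w' * (y * (ε * x')) * w'⁻¹ := by group
        _ = w' * (y * x') * (ε * w'⁻¹) := by rw [hεc x']; group
        _ = (w' * (y * x') * w'⁻¹) * ε := by rw [hεc w'⁻¹]; group
        _ = _ := by rw [hε2']
    rw [h5, h6] at h2
    apply h.ne
    have h7 : y * ε * x' * z * ε' = y * x' * ε' * ε * z := by
      calc y * ε * x' * z * ε' = y * (ε * x') * (z * ε') := by group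
        _ = y * (x' * ε) * (ε' * z) := by rw [hεc x', h.cen ε']
        _ = y * x' * (ε * ε') * z := by group
        _ = y * x' * (ε' * ε) * z := by rw [hεc ε']
        _ = _ := by group
    rw [h7] at h2
    exact mul_eq_left.mp h2

/-- Existence of separating elements. -/
theorem exists_sep (h : Z2 z) {x g : Q} (hg : ¬ (g = 1 ∨ g = z)) (hxg : ¬ (x * g = 1 ∨ x * g = z)) :
    ∃ y, x * y = y * x ∧ ¬ g * y = y * g := by
  by_contra hcon
  push Not at hcon
  have h1 : ∃ y, ¬ g * y = y * g := by
    by_contra h2
    push Not at h2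
    exact hg (h.uniq g h2)
  obtain ⟨y', hy'⟩ := h1
  have hxy' : ¬ x * y' = y' * x := fun h2 => hy' (hcon y' h2)
  apply hxg
  apply h.uniq
  intro y
  by_cases h2 : x * y = y * x
  · have h3 := hcon y h2
    calc x * g * y = x * (g * y) := by group
      _ = (x * y) * g := by rw [h3]; group
      _ = y * (x * g) := by rw [h2]; group
  · have h3 : ¬ g * y = y * g := by
      intro h3
      have h4 := hcon (y * y') (h.both h2 hxy')
      exact h.right h3 hy' h4
    have h2' := (h.comm x y).resolve_left h2
    have h3' := (h.comm g y).resolve_left h3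
    calc x * g * y = x * (g * y) := by group
      _ = (x * y) * g * z := by rw [h3']; group
      _ = y * x * (z * g) * z := by rw [h2']; group
      _ = y * (x * g) * (z * z) := by rw [h.cen g]; group
      _ = y * (x * g) := by rw [h.sq, mul_one]

end

/-- Let Q be an extraspecial 2-group of order 2^(2n+1) with n ≥ 3 that is of plus type (it contains an elementary abelian subgroup of order 2^(n+1)). Then the group of inner automorphisms of Q has no complement in the full automorphism group of Q: the extension of the inner automorphism group (elementary abelian of order 2^(2n)) by the outer automorphism group (the orthogonal group of plus type) does not split. -/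
theorem result {Q : Type*} [Group Q] [Finite Q] (n : ℕ) (hn : 3 ≤ n) (hQ : Cfsg.IsExtraspecial 2 Q) (hcard : Nat.card Q = 2 ^ (2 * n + 1)) (hplus : ∃ E : Subgroup Q, Cfsg.IsElementaryAbelian 2 E ∧ Nat.card ↥E = 2 ^ (n + 1)) (L : Subgroup (MulAut Q)) : ¬ (Cfsg.Inn Q).IsComplement' L := by
  intro hcompl
  have hE := ExtraCount.Hyp.of_isExtraspecial hQ
  -- the central involution
  obtain ⟨z, hzc, hz1⟩ : ∃ z ∈ Subgroup.center Q, z ≠ 1 := by
    have h2 := hE.card_center
    by_contra hcon
    push Not at hcon
    have : Subgroup.center Q = ⊥ := by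
      rw [eq_bot_iff]
      intro y hy
      exact Subgroup.mem_bot.mpr (hcon y hy)
    rw [this, Subgroup.card_bot] at h2
    omega
  have hz : Z2 z := by
    refine ⟨fun y => (Subgroup.mem_center_iff.mp hzc y).symm, hz1, hE.mul_self hzc, ?_, ?_⟩
    · intro a b
      by_cases hab : a * b = b * a
      · exact Or.inl hab
      · right
        have h1 : ⁅a, b⁆ ≠ 1 := fun h => hab (commutatorElement_eq_one_iff_mul_comm.mp h)
        have h2 : ⁅a, b⁆ = z := hE.eq_of_ne_one (hE.comm_mem a b) hzc h1 hz1
        have h3 : a * b = ⁅a, b⁆ * (b * a) := by rw [commutatorElement_def]; group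
        rw [h3, h2]
        exact (Subgroup.mem_center_iff.mp hzc _).symm
    · intro c hc
      by_cases h1 : c = 1
      · exact Or.inl h1
      · exact Or.inr (hE.eq_of_ne_one (Subgroup.mem_center_iff.mpr fun y => (hc y).symm) hzc h1 hz1)
  have hsqz : ∀ x : Q, x * x ≠ 1 → x * x = z := by
    intro x hx
    have h1 := hE.sq_mem x
    rw [pow_two] at h1
    exact hE.eq_of_ne_one h1 hzc hx hz1
  obtain ⟨E, hEel, hEcard⟩ := hplus
  have hEcomm : ∀ a ∈ E, ∀ b ∈ E, a * b = b * a := fun a ha b hb =>
    congrArg Subtype.val (hEel.1.is_comm.comm ⟨a, ha⟩ ⟨b, hb⟩)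
  have hEsq : ∀ a ∈ E, a * a = 1 := fun a ha => by
    have := hEel.2 a ha
    rwa [pow_two] at this
  -- choose `s` and `t`
  have hEbig : 16 ≤ Nat.card E := by
    rw [hEcard]
    calc 16 = 2 ^ 4 := by norm_num
      _ ≤ 2 ^ (n + 1) := Nat.pow_le_pow_right (by norm_num) (by omega)
  have hfin : ∀ F : Finset Q, F.card < 16 → ∃ s ∈ E, s ∉ F := by
    intro F hF
    by_contra hcon
    push Not at hcon
    have h1 : Nat.card E ≤ F.card := by
      have h2 : (E : Set Q) ⊆ (F : Set Q) := fun x hx => hcon x hx
      have h3 := Set.ncard_le_ncard h2 (Finset.finite_toSet F)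
      rw [Set.ncard_coe_finset] at h3
      exact h3
    omega
  obtain ⟨s, hsE, hs⟩ := hfin {1, z} (lt_of_le_of_lt (Finset.card_le_two) (by norm_num))
  obtain ⟨t, htE, ht⟩ := hfin {1, z, s, z * s} (lt_of_le_of_lt (Finset.card_le_four) (by norm_num))
  simp only [Finset.mem_insert, Finset.mem_singleton, not_or] at hs ht
  have hss := hEsq s hsE
  have htt := hEsq t htE
  have hst := hEcomm s hsE t htE
  -- choose `a`
  obtain ⟨a, has, hat, haa⟩ : ∃ a : Q, a * s = s * a ∧ a * t = t * a ∧ a * a ≠ 1 := by
    by_contra hcon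
    push Not at hcon
    have hidx : ∀ u : Q, u * u = 1 → (Subgroup.centralizer (Subgroup.zpowers u : Set Q)).index ≤ 2 := by
      intro u hu
      have h1 := hE.card_centralizer_mul (Subgroup.zpowers u)
      have h2 : Nat.card (Subgroup.zpowers u) ≤ 2 := by
        rw [Nat.card_zpowers]
        exact Nat.le_of_dvd (by norm_num) (orderOf_dvd_of_pow_eq_one (by rw [pow_two]; exact hu))
      have h3 : Nat.card Q ≤ Nat.card (Subgroup.centralizer (Subgroup.zpowers u : Set Q)) * 2 := by
        calc Nat.card Q ≤ Nat.card Q * Nat.card (Subgroup.zpowers u ⊓ Subgroup.center Q : Subgroup Q) :=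
              Nat.le_mul_of_pos_right _ Nat.card_pos
          _ = Nat.card (Subgroup.centralizer (Subgroup.zpowers u : Set Q)) * Nat.card (Subgroup.zpowers u) :=
              h1.symm
          _ ≤ _ := Nat.mul_le_mul_left _ h2
      rw [← Subgroup.card_mul_index (Subgroup.centralizer (Subgroup.zpowers u : Set Q))] at h3
      exact Nat.le_of_mul_le_mul_left h3 Nat.card_pos
    set C := Subgroup.centralizer (Subgroup.zpowers s : Set Q) ⊓ Subgroup.centralizer (Subgroup.zpowers t : Set Q)
      with hC
    have hCi : C.index ≤ 4 := by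
      calc C.index ≤ _ * _ := Subgroup.index_inf_le
        _ ≤ 2 * 2 := Nat.mul_le_mul (hidx s hss) (hidx t htt)
    have hCsq : ∀ c ∈ C, c * c = 1 := by
      intro c hc
      apply hcon c
      · exact (Subgroup.mem_centralizer_iff.mp hc.1 s (Subgroup.mem_zpowers s)).symm
      · exact (Subgroup.mem_centralizer_iff.mp hc.2 t (Subgroup.mem_zpowers t)).symm
    have hCcomm : ∀ c ∈ C, ∀ d ∈ C, c * d = d * c := by
      intro c hc d hd
      have h1 := hCsq (c * d) (C.mul_mem hc hd)
      have h2 := hCsq c hc
      have h3 := hCsq d hd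
      calc c * d = c * (c * d * (c * d)) * d := by rw [h1, mul_one]
        _ = (c * c) * d * c * (d * d) := by group
        _ = d * c := by rw [h2, h3]; group
    have hCle : C ≤ Subgroup.centralizer (C : Set Q) := by
      intro c hc
      rw [Subgroup.mem_centralizer_iff]
      intro d hd
      exact hCcomm d hd c hc
    have h1 := hE.card_centralizer_mul C
    have h2 : Nat.card C * Nat.card C ≤ Nat.card Q * 2 := by
      calc Nat.card C * Nat.card C ≤ Nat.card (Subgroup.centralizer (C : Set Q)) * Nat.card C :=
            Nat.mul_le_mul_right _ (Subgroup.card_le_of_le hCle)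
        _ = Nat.card Q * Nat.card (C ⊓ Subgroup.center Q : Subgroup Q) := h1
        _ ≤ Nat.card Q * 2 := by
            apply Nat.mul_le_mul_left
            rw [← hE.card_center]
            exact Subgroup.card_le_of_le inf_le_right
    have h3 : Nat.card Q ≤ Nat.card C * 4 := by
      rw [← Subgroup.card_mul_index C]
      exact Nat.mul_le_mul_left _ hCi
    have h4 : Nat.card Q * Nat.card Q ≤ Nat.card Q * 32 := by
      calc Nat.card Q * Nat.card Q ≤ (Nat.card C * 4) * (Nat.card C * 4) := Nat.mul_le_mul h3 h3
        _ = (Nat.card C * Nat.card C) * 16 := by ring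
        _ ≤ (Nat.card Q * 2) * 16 := Nat.mul_le_mul_right _ h2
        _ = Nat.card Q * 32 := by ring
    have h5 : Nat.card Q ≤ 32 := Nat.le_of_mul_le_mul_left h4 Nat.card_pos
    have h6 : 128 ≤ Nat.card Q := by
      rw [hcard]
      calc 128 = 2 ^ 7 := by norm_num
        _ ≤ 2 ^ (2 * n + 1) := Nat.pow_le_pow_right (by norm_num) (by omega)
    omega
  have haz := hsqz a haa
  have hane : ∀ g : Q, g * g = z → ¬ (g = 1 ∨ g = z) := by
    rintro g hg (rfl | rfl)
    · exact hz1 (by rw [← hg, mul_one])
    · exact hz1 (by rw [← hg]; exact hz.sq)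
  have hL : ∀ f ∈ L, (∃ w : Q, f = MulAut.conj w) → f = 1 := by
    rintro f hf ⟨w, rfl⟩
    have h1 := hcompl.disjoint
    rw [Subgroup.disjoint_def] at h1
    exact h1 ⟨w, rfl⟩ hf
  have hsur : ∀ f : MulAut Q, ∃ w : Q, MulAut.conj w * f ∈ L := by
    intro f
    obtain ⟨⟨⟨i, w, rfl⟩, l⟩, hil⟩ := hcompl.2 f
    refine ⟨w⁻¹, ?_⟩
    have h1 : MulAut.conj w * (l : MulAut Q) = f := hil
    rw [← h1, ← mul_assoc, ← map_mul, inv_mul_cancel, map_one, one_mul]
    exact l.2
  obtain ⟨w, hw1, hw2⟩ := key hz L hL hsur haz (by
    by_contra hcon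
    push Not at hcon
    exact hane a haz (hz.uniq a hcon))
  -- the three other elements
  have test : ∀ g : Q, g * g = 1 → a * g = g * a → g ≠ 1 → g ≠ z → w * (a * g) = a * g * w := by
    intro g hg hag hg1 hgz
    have hgg : (a * g) * (a * g) = z := by
      calc (a * g) * (a * g) = a * (g * a) * g := by group
        _ = (a * a) * (g * g) := by rw [← hag]; group
        _ = z := by rw [hg, haz, mul_one]
    apply hw2 (a * g) hgg
    · rw [← mul_assoc, mul_assoc a g a, ← hag]; group
    · apply exists_sep hz (hane _ hgg)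
      rw [← mul_assoc, haz]
      rintro (h1 | h1)
      · apply hgz
        calc g = (z * z) * g := by rw [hz.sq, one_mul]
          _ = z * (z * g) := by group
          _ = z := by rw [h1, mul_one]
      · exact hg1 (mul_eq_left.mp h1)
  have t1 := test s hss has hs.1 hs.2
  have t2 := test t htt hat ht.1 ht.2.1
  have t3 := test (s * t) (by
      calc s * t * (s * t) = s * (t * s) * t := by group
        _ = (s * s) * (t * t) := by rw [← hst]; group
        _ = 1 := by rw [hss, htt, mul_one])
    (by
      calc a * (s * t) = (a * s) * t := by group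
        _ = s * (a * t) := by rw [has]; group
        _ = s * t * a := by rw [hat]; group)
    (by
      intro h1
      apply ht.2.2.1
      calc t = s * (s * t) := by rw [← mul_assoc, hss, one_mul]
        _ = s := by rw [h1, mul_one])
    (by
      intro h1
      apply ht.2.2.2
      calc t = s * (s * t) := by rw [← mul_assoc, hss, one_mul]
        _ = z * s := by rw [h1, hz.cen])
  apply hw1
  have hprod : (a * s) * (a * t) * (a * (s * t)) = z * a := by
    calc (a * s) * (a * t) * (a * (s * t)) = a * (s * a) * t * a * s * t := by group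
      _ = a * a * s * (t * a) * s * t := by rw [← has]; group
      _ = a * a * (s * a) * t * s * t := by rw [← hat]; group
      _ = (a * a) * a * s * (t * s) * t := by rw [← has]; group
      _ = (a * a) * a * (s * s) * (t * t) := by rw [← hst]; group
      _ = z * a := by rw [hss, htt, haz]; group
  have h1 : w * (z * a) = z * a * w := by
    rw [← hprod]
    calc w * ((a * s) * (a * t) * (a * (s * t))) = (w * (a * s)) * (a * t) * (a * (s * t)) := by group
      _ = (a * s) * (w * (a * t)) * (a * (s * t)) := by rw [t1]; group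
      _ = (a * s) * (a * t) * (w * (a * (s * t))) := by rw [t2]; group
      _ = _ := by rw [t3]; group
  have h2 : z * (w * a) = z * (a * w) := by
    calc z * (w * a) = w * (z * a) := by rw [← mul_assoc, hz.cen]; group
      _ = z * (a * w) := by rw [h1]; group
  exact mul_left_cancel h2

end Cfsg.Agent.S3085
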