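import Cfsg.Statements.S3356

set_option autoImplicit false
open Cfsg

namespace Cfsg.Agent.S3356

section aux
open MulAction
open scoped Pointwise

/-- if all stabilizers of points of an invariant set have order `c` then `|T| ∣ c |S|`. -/
theorem card_dvd {T X : Type*} [Group T] [Finite T] [MulAction T X] [Finite X] (S : Set X)
    (hS : ∀ t : T, ∀ x ∈ S, t • x ∈ S) (c : ℕ) (hc : ∀ x ∈ S, Nat.card (stabilizer T x) = c) :
    Nat.card T ∣ c * Nat.card S := by
  classical
  haveI := Fintype.ofFinite T
  haveI := Fintype.ofFinite X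
  letI : MulAction T S :=
    { smul := fun t x => ⟨t • (x : X), hS t x x.2⟩
      one_smul := fun x => Subtype.ext (one_smul T (x : X))
      mul_smul := fun a b x => Subtype.ext (mul_smul a b (x : X)) }
  have hst : ∀ x : S, Nat.card (stabilizer T x) = c := by
    intro x
    rw [← hc x x.2]
    congr 1
    have : stabilizer T x = stabilizer T (x : X) := by
      ext t
      simp only [mem_stabilizer_iff]
      constructor
      · intro h
        exact congrArg Subtype.val h
      · intro h
        exact Subtype.ext h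
    rw [this]
  have h1 := Nat.card_congr (MulAction.selfEquivSigmaOrbitsQuotientStabilizer T S)
  rw [h1, Nat.card_sigma, Finset.mul_sum]
  apply Finset.dvd_sum
  intro ω _
  have h2 := (stabilizer T (Quotient.out ω)).card_mul_index
  rw [hst] at h2
  rw [← h2]
  exact dvd_refl _

section
variable {H N : Type*} [Group H] [Group N] [Finite H] [Finite N] [MulDistribMulAction H N]

theorem coprime_of (c : ℕ) (hc : ∀ x : N, x ≠ 1 → Nat.card (stabilizer H x) = c) (k : ℕ)
    (hk : Nat.card H = c * k) (hc0 : 0 < c) : Nat.Coprime k (Nat.card N) := by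
  classical
  haveI := Fintype.ofFinite N
  have h1 := card_dvd (T := H) (X := N) {x : N | x ≠ 1} (by
    intro t x hx h
    apply hx
    rw [← smul_one t] at h
    exact MulAction.injective t h) c (by
    intro x hx
    exact hc x hx)
  rw [hk] at h1
  have h2 : k ∣ Nat.card {x : N | x ≠ 1} := Nat.dvd_of_mul_dvd_mul_left hc0 h1
  have h3 : Nat.card {x : N | x ≠ 1} + 1 = Nat.card N := by
    have := Set.ncard_add_ncard_compl ({1} : Set N)
    rw [Set.ncard_singleton] at this
    have h4 : ({1} : Set N)ᶜ = {x : N | x ≠ 1} := by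
      ext x; simp
    rw [h4] at this
    have h5 : Nat.card {x : N | x ≠ 1} = Set.ncard {x : N | x ≠ 1} := rfl
    rw [h5]
    omega
  rw [← h3]
  obtain ⟨m, hm⟩ := h2
  rw [hm]
  have : Nat.Coprime k (k * m + 1) := by
    rw [Nat.coprime_mul_left_add_right]
    exact Nat.coprime_one_right k
  exact this

/-- all elements of a block whose size divides `|N|` have the same stabilizer. -/
theorem block (c : ℕ) (hc : ∀ x : N, x ≠ 1 → Nat.card (stabilizer H x) = c) (hc0 : 0 < c)
    (S : Set N) (hS1 : (1 : N) ∉ S) (hdvd : Nat.card S ∣ Nat.card N)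
    (hbl : ∀ h : H, ∀ y ∈ S, h • y ∈ S → ∀ z ∈ S, h • z ∈ S) :
    ∀ y ∈ S, ∀ z ∈ S, stabilizer H y = stabilizer H z := by
  classical
  -- the set stabilizer
  intro y hy z hz
  let T : Subgroup H := stabilizer H S
  have hTmem : ∀ h : H, h ∈ T ↔ ∀ w ∈ S, h • w ∈ S := fun h =>
    MulAction.mem_stabilizer_set' (Set.toFinite S)
  have hst : ∀ w ∈ S, stabilizer H w ≤ T := by
    intro w hw h hh
    rw [mem_stabilizer_iff] at hh
    rw [hTmem]
    exact hbl h w hw (by rw [hh]; exact hw)
  have hcT : ∀ w ∈ S, Nat.card (stabilizer T w) = c := by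
    intro w hw
    rw [← hc w (fun h => hS1 (h ▸ hw))]
    have : stabilizer T w = (stabilizer H w).subgroupOf T := by
      ext t
      simp only [mem_stabilizer_iff, Subgroup.mem_subgroupOf]
      rfl
    rw [this]
    exact Nat.card_congr (Subgroup.subgroupOfEquivOfLe (hst w hw)).toEquiv
  have h1 := card_dvd (T := T) (X := N) S (by
    intro t x hx
    exact (hTmem t).1 t.2 x hx) c hcT
  have hy1 : y ≠ 1 := fun h => hS1 (h ▸ hy)
  have hz1 : z ≠ 1 := fun h => hS1 (h ▸ hz)
  obtain ⟨k, hk⟩ : c ∣ Nat.card H := by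
    rw [← hc y hy1]; exact Subgroup.card_subgroup_dvd_card _
  obtain ⟨k', hk'⟩ : c ∣ Nat.card T := by
    rw [← hc y hy1]; exact Subgroup.card_dvd_of_le (hst y hy)
  have hcop := coprime_of c hc k hk hc0
  rw [hk'] at h1
  have h2 : k' ∣ Nat.card S := Nat.dvd_of_mul_dvd_mul_left hc0 h1
  have h3 : k' ∣ k := by
    have := Subgroup.card_subgroup_dvd_card T
    rw [hk, hk'] at this
    exact Nat.dvd_of_mul_dvd_mul_left hc0 this
  have h4 : k' = 1 := by
    have : k' ∣ Nat.gcd k (Nat.card N) := Nat.dvd_gcd h3 (h2.trans hdvd)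
    rw [hcop] at this
    exact Nat.dvd_one.1 this
  rw [h4, mul_one] at hk'
  have h5 : ∀ w ∈ S, stabilizer H w = T := by
    intro w hw
    apply Subgroup.eq_of_le_of_card_ge (hst w hw)
    rw [hk', hc w (fun h => hS1 (h ▸ hw))]
  rw [h5 y hy, h5 z hz]

variable [FaithfulSMul H N]

theorem irred (c : ℕ) (hc : ∀ x : N, x ≠ 1 → Nat.card (stabilizer H x) = c) (hc1 : 1 < c)
    (M : Subgroup N) (hM : ∀ h : H, ∀ m ∈ M, h • m ∈ M) : M = ⊥ ∨ M = ⊤ := by
  classical
  by_contra hcon
  push Not at hcon
  obtain ⟨hbot, htop⟩ := hcon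
  obtain ⟨m₀, hm₀, hm₀1⟩ := (Subgroup.bot_or_exists_ne_one M).resolve_left hbot
  have hc0 : 0 < c := by omega
  -- the stabilizer of any x outside M is the stabilizer of m₀
  have key : ∀ x : N, x ∉ M → stabilizer H x = stabilizer H m₀ := by
    intro x hx
    have hx1 : x ≠ 1 := fun h => hx (h ▸ M.one_mem)
    have hS : ∀ y z : N, x⁻¹ * y ∈ M → x⁻¹ * z ∈ M → stabilizer H y = stabilizer H z := by
      intro y z hy hz
      refine block c hc hc0 {y : N | x⁻¹ * y ∈ M} ?_ ?_ ?_ y hy z hz
      · intro h
        change x⁻¹ * 1 ∈ M at h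
        rw [mul_one] at h
        exact hx (by simpa using M.inv_mem h)
      · have : Nat.card {y : N | x⁻¹ * y ∈ M} = Nat.card M := by
          refine Nat.card_congr ⟨fun y => ⟨x⁻¹ * y, y.2⟩, fun m => ⟨x * m, ?_⟩, ?_, ?_⟩
          · change x⁻¹ * (x * m) ∈ M
            rw [inv_mul_cancel_left]; exact m.2
          · intro y
            ext
            simp
          · intro y
            ext
            simp
        rw [this]
        exact Subgroup.card_subgroup_dvd_card M
      · intro h u hu hhu v hv
        change x⁻¹ * u ∈ M at hu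
        change x⁻¹ * (h • u) ∈ M at hhu
        change x⁻¹ * v ∈ M at hv
        change x⁻¹ * (h • v) ∈ M
        have h1 : u⁻¹ * v ∈ M := by
          have := M.mul_mem (M.inv_mem hu) hv
          have e : (x⁻¹ * u)⁻¹ * (x⁻¹ * v) = u⁻¹ * v := by group
          rwa [e] at this
        have h2 : h • (u⁻¹ * v) ∈ M := hM h _ h1
        have h3 : x⁻¹ * (h • v) = (x⁻¹ * (h • u)) * (h • (u⁻¹ * v)) := by
          rw [smul_mul', smul_inv']
          group
        rw [h3]
        exact M.mul_mem hhu h2
    have h1 : stabilizer H x ≤ stabilizer H m₀ := by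
      intro h hh
      have h2 : h ∈ stabilizer H (x * m₀) := by
        rw [← hS x (x * m₀) (by simp) (by simpa using hm₀)]
        exact hh
      rw [mem_stabilizer_iff] at hh h2 ⊢
      rw [smul_mul', hh] at h2
      exact mul_left_cancel h2
    apply Subgroup.eq_of_le_of_card_ge h1
    rw [hc x hx1, hc m₀ hm₀1]
  obtain ⟨x, hx⟩ : ∃ x : N, x ∉ M := by
    by_contra h
    push Not at h
    exact htop ((Subgroup.eq_top_iff' M).2 h)
  -- so the stabilizer of m₀ is trivial
  have h5 : ∀ h ∈ stabilizer H m₀, h = 1 := by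
    intro h hh
    have h6 : ∀ y : N, y ∉ M → h • y = y := by
      intro y hy
      have := key y hy
      rw [← mem_stabilizer_iff, this]
      exact hh
    apply FaithfulSMul.eq_of_smul_eq_smul (α := N)
    intro y
    rw [one_smul]
    by_cases hy : y ∈ M
    · have h7 : x * y ∉ M := by
        intro h8
        exact hx (by simpa using M.mul_mem h8 (M.inv_mem hy))
      have h8 := h6 _ h7
      rw [smul_mul', h6 x hx] at h8
      exact mul_left_cancel h8
    · exact h6 y hy
  have h6 : stabilizer H m₀ = ⊥ := by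
    rw [eq_bot_iff]
    intro h hh
    exact Subgroup.mem_bot.2 (h5 h hh)
  have h7 := hc m₀ hm₀1
  rw [h6, Subgroup.card_bot] at h7
  omega

theorem comm (c : ℕ) (hc : ∀ x : N, x ≠ 1 → Nat.card (stabilizer H x) = c) (hc1 : 1 < c)
    (x y : N) : x * y = y * x := by
  classical
  have hc0 : 0 < c := by omega
  -- conjugate elements have equal stabilizers
  have key : ∀ x g : N, stabilizer H x = stabilizer H (g * x * g⁻¹) := by
    intro x g
    by_cases hx1 : x = 1
    · rw [hx1]; simp
    refine block c hc hc0 {y : N | IsConj x y} ?_ ?_ ?_ x (IsConj.refl x) (g * x * g⁻¹) ?_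
    · intro h
      exact hx1 (isConj_one_left.1 h)
    · have h1 : {y : N | IsConj x y} = MulAction.orbit (ConjAct N) x := by
        ext y
        rw [ConjAct.mem_orbit_conjAct]
        exact isConj_comm
      rw [h1]
      have h3 : Finite (ConjAct N) := ‹Finite N›
      have h2 := Nat.card_congr (MulAction.orbitEquivQuotientStabilizer (ConjAct N) x)
      have h4 : Nat.card N = Nat.card (ConjAct N) := rfl
      rw [h2, h4]
      have h5 := (stabilizer (ConjAct N) x).card_mul_index
      rw [← h5]
      exact dvd_mul_left _ _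
    · intro h u hu hhu v hv
      have h1 : IsConj u v := (IsConj.symm hu).trans hv
      have h2 : IsConj (h • u) (h • v) := by
        rw [isConj_iff] at h1 ⊢
        obtain ⟨c, hc⟩ := h1
        refine ⟨h • c, ?_⟩
        rw [← hc, smul_mul', smul_mul', smul_inv']
      exact IsConj.trans hhu h2
    · exact isConj_iff.2 ⟨g, rfl⟩
  have hmul : ∀ (h : H) (u v : N), h • u = u → h • v = v → h • (u * v) = u * v := by
    intro h u v hu hv
    rw [smul_mul', hu, hv]
  have hinv : ∀ (h : H) (u : N), h • u = u → h • u⁻¹ = u⁻¹ := by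
    intro h u hu
    rw [smul_inv', hu]
  have heq : ∀ u v : N, u ≠ 1 → v ≠ 1 → (∀ h : H, h • u = u → h • v = v) →
      stabilizer H u = stabilizer H v := by
    intro u v hu hv h
    apply Subgroup.eq_of_le_of_card_ge (fun t ht => h t ht)
    rw [hc u hu, hc v hv]
  have hcongr : ∀ u v : N, stabilizer H u = stabilizer H v → ∀ h : H, h • u = u → h • v = v := by
    intro u v huv h hu
    have : h ∈ stabilizer H u := hu
    rw [huv] at this
    exact this
  -- claim 1
  have claim1 : ∀ u v : N, u ≠ 1 → v ≠ 1 → stabilizer H u ≠ stabilizer H v → u * v = v * u := by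
    intro u v hu hv huv
    by_contra hne
    have hz : u * v * u⁻¹ * v⁻¹ ≠ 1 := by
      intro h
      apply hne
      rw [mul_inv_eq_one, mul_inv_eq_iff_eq_mul] at h
      exact h
    apply huv
    have e1 : stabilizer H u = stabilizer H (u * v * u⁻¹ * v⁻¹) := by
      apply heq u _ hu hz
      intro h hh
      have h1 := hcongr u _ (key u v) h hh
      have h2 := hmul h _ _ hh (hinv h _ h1)
      have e : u * (v * u * v⁻¹)⁻¹ = u * v * u⁻¹ * v⁻¹ := by group
      rwa [e] at h2
    have e2 : stabilizer H v = stabilizer H (u * v * u⁻¹ * v⁻¹) := by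
      apply heq v _ hv hz
      intro h hh
      have h1 := hcongr v _ (key v u) h hh
      exact hmul h _ _ h1 (hinv h _ hh)
    rw [e1, e2]
  have claim2 : ∀ u : N, u ≠ 1 → ∃ v : N, v ≠ 1 ∧ stabilizer H u ≠ stabilizer H v := by
    intro u hu
    by_contra hcon
    push Not at hcon
    have h1 : stabilizer H u = ⊥ := by
      rw [eq_bot_iff]
      intro h hh
      rw [Subgroup.mem_bot]
      apply FaithfulSMul.eq_of_smul_eq_smul (α := N)
      intro v
      rw [one_smul]
      by_cases hv : v = 1
      · rw [hv, smul_one]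
      · exact hcongr u v (hcon v hv) h hh
    have h2 := hc u hu
    rw [h1, Subgroup.card_bot] at h2
    omega
  by_cases hx : x = 1
  · rw [hx]; simp
  by_cases hy : y = 1
  · rw [hy]; simp
  by_cases hxy : stabilizer H x = stabilizer H y
  · obtain ⟨v, hv, hxv⟩ := claim2 x hx
    have h1 : x * v = v * x := claim1 x v hx hv hxv
    have h2 : y * v ≠ 1 := by
      intro h
      apply hxv
      apply heq x v hx hv
      intro t ht
      have h3 := hcongr x y hxy t ht
      have h4 : v = y⁻¹ := by rw [← mul_eq_one_iff_inv_eq'.1 h]; simp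
      rw [h4]
      exact hinv t y h3
    have h3 : stabilizer H x ≠ stabilizer H (y * v) := by
      intro h
      apply hxv
      apply heq x v hx hv
      intro t ht
      have h4 := hcongr x y hxy t ht
      have h5 := hcongr x _ h t ht
      have h6 := hmul t _ _ (hinv t y h4) h5
      simpa using h6
    have h4 := claim1 x (y * v) hx h2 h3
    -- x (y v) = (y v) x = y x v
    have h5 : x * y * v = y * x * v := by
      rw [mul_assoc, h4, mul_assoc, ← h1, mul_assoc]
    exact mul_right_cancel h5
  · exact claim1 x y hx hy hxy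

end

theorem main {G Ω : Type*} [Group G] [Finite G]
    [MulAction G Ω] [FaithfulSMul G Ω] [Finite Ω]
    (hhalf : ∀ a b c : Ω, b ≠ a → c ≠ a →
      Nat.card (MulAction.orbit (MulAction.stabilizer G a) b) = Nat.card (MulAction.orbit (MulAction.stabilizer G a) c))
    (N : Subgroup G) [hN : N.Normal] (hNt : MulAction.IsPretransitive N Ω) (hNr : ∀ a : Ω, MulAction.stabilizer N a = ⊥)
    (hnotF : ∃ a b : Ω, a ≠ b ∧ MulAction.stabilizer G a ⊓ MulAction.stabilizer G b ≠ ⊥) :
    (∃ p : ℕ, p.Prime ∧ IsMulCommutative N ∧ ∀ x ∈ N, x ^ p = 1) ∧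
    (∀ M : Subgroup G, M.Normal → M ≠ ⊥ → N ≤ M) := by
  classical
  obtain ⟨a, b, hab, hnab⟩ := hnotF
  obtain ⟨H, hHdef⟩ : ∃ H : Subgroup G, H = stabilizer G a := ⟨_, rfl⟩
  have hHa : ∀ h : H, (h : G) • a = a := by
    intro h
    have h1 : (h : G) ∈ stabilizer G a := hHdef ▸ h.2
    exact h1
  letI act : MulDistribMulAction H N := MulDistribMulAction.compHom N ((MulAut.conjNormal (H := N)).comp H.subtype)
  have hact : ∀ (h : H) (x : N), ((h • x : N) : G) = (h : G) * x * (h : G)⁻¹ := by
    intro h x
    rfl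
  have hinj : ∀ x y : N, (x : G) • a = (y : G) • a → x = y := by
    intro x y hxy
    have h1 : (y⁻¹ * x) ∈ stabilizer N a := by
      rw [mem_stabilizer_iff, mul_smul]
      have : (x • a : Ω) = y • a := hxy
      rw [this, inv_smul_smul]
    rw [hNr a, Subgroup.mem_bot] at h1
    exact (inv_mul_eq_one.1 h1).symm
  have hactp : ∀ (h : H) (x : N), ((h • x : N) : G) • a = (h : G) • (x : G) • a := by
    intro h x
    rw [hact, mul_smul, mul_smul]
    congr 2
    rw [inv_smul_eq_iff]
    exact (hHa h).symm
  have hsurj : ∀ ω : Ω, ∃ x : N, (x : G) • a = ω := by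
    intro ω
    obtain ⟨x, hx⟩ := hNt.exists_smul_eq a ω
    exact ⟨x, hx⟩
  haveI hfaith : FaithfulSMul H N := by
    constructor
    intro h₁ h₂ h
    apply Subtype.ext
    apply FaithfulSMul.eq_of_smul_eq_smul (α := Ω)
    intro ω
    obtain ⟨x, rfl⟩ := hsurj ω
    rw [← hactp, ← hactp, h x]
  obtain ⟨n₀, hn₀⟩ := hsurj b
  have hn₀1 : n₀ ≠ 1 := by
    intro h
    rw [h] at hn₀
    apply hab
    rw [← hn₀]
    simp
  have hstab : ∀ x : N, stabilizer H x = stabilizer H ((x : G) • a) := by
    intro x
    ext h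
    rw [mem_stabilizer_iff, mem_stabilizer_iff]
    constructor
    · intro hh
      change (h : G) • (x : G) • a = (x : G) • a
      rw [← hactp, hh]
    · intro hh
      apply hinj
      rw [hactp]
      exact hh
  obtain ⟨c, hcdef⟩ : ∃ c, c = Nat.card (stabilizer H n₀) := ⟨_, rfl⟩
  have hc : ∀ x : N, x ≠ 1 → Nat.card (stabilizer H x) = c := by
    intro x hx
    have h1 : (x : G) • a ≠ a := by
      intro h
      apply hx
      apply hinj
      rw [h]; simp
    have h2 := hhalf a ((x : G) • a) b h1 hab.symm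
    rw [← hHdef] at h2
    have horb : ∀ y : Ω, Nat.card (MulAction.orbit H y) * Nat.card (stabilizer H y) = Nat.card H := by
      intro y
      rw [Nat.card_congr (MulAction.orbitEquivQuotientStabilizer H y)]
      have := (stabilizer H y).card_mul_index
      rw [mul_comm] at this
      exact this
    have h3 := horb ((x : G) • a)
    have h4 := horb b
    rw [h2, ← h4] at h3
    haveI : Nonempty (MulAction.orbit H b) := ⟨⟨b, MulAction.mem_orbit_self b⟩⟩
    have hpos : 0 < Nat.card (MulAction.orbit H b) := Nat.card_pos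
    have h5 := Nat.eq_of_mul_eq_mul_left hpos h3
    rw [hcdef, hstab, hstab, hn₀]
    exact h5
  have hc1 : 1 < c := by
    rw [hcdef, hstab, hn₀]
    obtain ⟨g, hg, hg1⟩ := (Subgroup.bot_or_exists_ne_one _).resolve_left hnab
    have hgH : g ∈ H := by rw [hHdef]; exact hg.1
    have : (⟨g, hgH⟩ : H) ∈ stabilizer H b := hg.2
    rw [Finite.one_lt_card_iff_nontrivial]
    refine ⟨⟨⟨⟨g, hgH⟩, this⟩, 1, ?_⟩⟩
    intro h
    apply hg1
    have := congrArg (fun z : stabilizer H b => ((z : H) : G)) h
    simpa using this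
  have hirr := irred (H := H) (N := N) c hc hc1
  have hcomm := comm (H := H) (N := N) c hc hc1
  have hirr' : ∀ M : Subgroup G, M.Normal → M ⊓ N = ⊥ ∨ N ≤ M := by
    intro M hM
    rcases hirr (M.subgroupOf N) (by
      intro h m hm
      rw [Subgroup.mem_subgroupOf] at hm ⊢
      rw [hact]
      exact hM.conj_mem _ hm _) with h | h
    · left
      rw [eq_bot_iff]
      intro g hg
      rw [Subgroup.subgroupOf_eq_bot] at h
      exact h.le_bot hg
    · right
      exact Subgroup.subgroupOf_eq_top.1 h
  refine ⟨?_, ?_⟩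
  · -- elementary abelian
    have hcard : Nat.card N ≠ 1 := by
      intro h
      apply hn₀1
      haveI := (Nat.card_eq_one_iff_unique.1 h).1
      exact Subsingleton.elim _ _
    obtain ⟨p, hp, hpd⟩ := Nat.exists_prime_and_dvd hcard
    haveI := Fact.mk hp
    refine ⟨p, hp, ⟨⟨fun x y => hcomm x y⟩⟩, ?_⟩
    obtain ⟨z, hz⟩ := exists_prime_orderOf_dvd_card' p hpd
    let P : Subgroup N :=
      { carrier := {x : N | x ^ p = 1}
        mul_mem' := by
          intro x y hx hy
          change (x * y) ^ p = 1
          rw [(show Commute x y from hcomm x y).mul_pow, hx, hy, one_mul]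
        one_mem' := one_pow p
        inv_mem' := by
          intro x hx
          change x⁻¹ ^ p = 1
          rw [inv_pow, hx, inv_one] }
    have hP : ∀ x : N, x ∈ P ↔ x ^ p = 1 := fun x => Iff.rfl
    rcases hirr P (by
      intro h m hm
      rw [hP] at hm ⊢
      rw [← smul_pow', hm, smul_one]) with h | h
    · exfalso
      have h1 : z ∈ P := by
        rw [hP, ← hz, pow_orderOf_eq_one]
      rw [h, Subgroup.mem_bot] at h1
      rw [h1, orderOf_one] at hz
      exact hp.one_lt.ne hz
    · intro x hx
      have h1 : (⟨x, hx⟩ : N) ∈ P := by rw [h]; exact Subgroup.mem_top _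
      rw [hP] at h1
      exact congrArg Subtype.val h1
  · intro M hM hM1
    rcases hirr' M hM with h | h
    · exfalso
      apply hM1
      rw [eq_bot_iff]
      intro m hm
      -- m centralizes N
      have hcen : ∀ n : N, m * n = n * m := by
        intro n
        have h1 : m * n * m⁻¹ * (n : G)⁻¹ ∈ M ⊓ N := by
          refine ⟨?_, ?_⟩
          · have e : m * n * m⁻¹ * (n : G)⁻¹ = m * ((n : G) * m⁻¹ * (n : G)⁻¹) := by group
            rw [e]
            exact M.mul_mem hm (hM.conj_mem _ (M.inv_mem hm) _)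
          · exact N.mul_mem (hN.conj_mem _ n.2 _) (N.inv_mem n.2)
        rw [h, Subgroup.mem_bot, mul_inv_eq_one, mul_inv_eq_iff_eq_mul] at h1
        exact h1
      obtain ⟨n, hn⟩ := hsurj (m • a)
      have h1 : m = n := by
        apply FaithfulSMul.eq_of_smul_eq_smul (α := Ω)
        intro ω
        obtain ⟨x, rfl⟩ := hsurj ω
        rw [← mul_smul, hcen x, mul_smul, ← hn, ← mul_smul, ← mul_smul]
        congr 1
        exact congrArg Subtype.val (hcomm x n)
      have h2 : m ∈ M ⊓ N := ⟨hm, by rw [h1]; exact n.2⟩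
      rw [h] at h2
      exact h2
    · exact h

end aux

/-- Let G be a finite 3/2-transitive permutation group: G acts faithfully and transitively on a finite set, the point stabilizers are non-trivial, and for each point a all orbits of G_a on the remaining points have the same size. Suppose G has a regular normal subgroup N and G is not a Frobenius group (some two-point stabilizer is non-trivial). Then N is an elementary abelian p-group for some prime p, and every non-trivial normal subgroup of G contains N (so N is the unique minimal normal subgroup). -/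
theorem result {G Ω : Type*} [Group G] [Finite G]
    [MulAction G Ω] [FaithfulSMul G Ω] [Finite Ω] (htrans : MulAction.IsPretransitive G Ω)
    (hne : ∀ a : Ω, MulAction.stabilizer G a ≠ ⊥)
    (hhalf : ∀ a b c : Ω, b ≠ a → c ≠ a →
      Nat.card (MulAction.orbit (MulAction.stabilizer G a) b) = Nat.card (MulAction.orbit (MulAction.stabilizer G a) c))
    (N : Subgroup G) [hN : N.Normal] (hNt : MulAction.IsPretransitive N Ω) (hNr : ∀ a : Ω, MulAction.stabilizer N a = ⊥)
    (hnotF : ∃ a b : Ω, a ≠ b ∧ MulAction.stabilizer G a ⊓ MulAction.stabilizer G b ≠ ⊥) :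
    (∃ p : ℕ, p.Prime ∧ IsMulCommutative N ∧ ∀ x ∈ N, x ^ p = 1) ∧
    (∀ M : Subgroup G, M.Normal → M ≠ ⊥ → N ≤ M) := by
  exact main hhalf N hNt hNr hnotF

end Cfsg.Agent.S3356
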