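import Cfsg.Statements.S3362
import Cfsg.Agent.Lib.M12Gens

set_option autoImplicit false
open Cfsg

namespace Cfsg.Agent.S3362

/-- An explicit construction of the Mathieu groups of degrees 11 and 12. On the points 0, …, 11 let s = (3 4 5)(6 7 8)(9 10 11), t = (3 6 9)(4 7 10)(5 8 11), u = (4 6 5 9)(7 8 11 10), v = (4 7 5 11)(6 10 9 8), w = (4 10 5 8)(6 11 9 7), x₁ = (0 3)(6 7)(8 10)(9 11), x₂ = (0 1)(6 9)(7 10)(8 11), x₃ = (1 2)(6 11)(7 9)(8 10) (each written as a product of transpositions). Then the group M₁₂ generated by all eight permutations is sharply 5-transitive on the 12 points and has order 95040, and the group M₁₁ generated by the first seven has order 7920 and is the stabilizer of the point 2 in M₁₂. -/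
theorem result
    (s t u v w x₁ x₂ x₃ : Equiv.Perm (Fin 12))
    (hs : s = Equiv.swap (3 : Fin 12) 5 * Equiv.swap (3 : Fin 12) 4 * Equiv.swap (6 : Fin 12) 8 * Equiv.swap (6 : Fin 12) 7 * Equiv.swap (9 : Fin 12) 11 * Equiv.swap (9 : Fin 12) 10) (ht : t = Equiv.swap (3 : Fin 12) 9 * Equiv.swap (3 : Fin 12) 6 * Equiv.swap (4 : Fin 12) 10 * Equiv.swap (4 : Fin 12) 7 * Equiv.swap (5 : Fin 12) 11 * Equiv.swap (5 : Fin 12) 8)
    (hu : u = Equiv.swap (4 : Fin 12) 9 * Equiv.swap (4 : Fin 12) 5 * Equiv.swap (4 : Fin 12) 6 * Equiv.swap (7 : Fin 12) 10 * Equiv.swap (7 : Fin 12) 11 * Equiv.swap (7 : Fin 12) 8) (hv : v = Equiv.swap (4 : Fin 12) 11 * Equiv.swap (4 : Fin 12) 5 * Equiv.swap (4 : Fin 12) 7 * Equiv.swap (6 : Fin 12) 8 * Equiv.swap (6 : Fin 12) 9 * Equiv.swap (6 : Fin 12) 10) (hw : w = Equiv.swap (4 : Fin 12) 8 * Equiv.swap (4 : Fin 12) 5 * Equiv.swap (4 : Fin 12) 10 * Equiv.swap (6 : Fin 12) 7 * Equiv.swap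 (6 : Fin 12) 9 * Equiv.swap (6 : Fin 12) 11)
    (hx₁ : x₁ = Equiv.swap (0 : Fin 12) 3 * Equiv.swap (6 : Fin 12) 7 * Equiv.swap (8 : Fin 12) 10 * Equiv.swap (9 : Fin 12) 11) (hx₂ : x₂ = Equiv.swap (0 : Fin 12) 1 * Equiv.swap (6 : Fin 12) 9 * Equiv.swap (7 : Fin 12) 10 * Equiv.swap (8 : Fin 12) 11)
    (hx₃ : x₃ = Equiv.swap (1 : Fin 12) 2 * Equiv.swap (6 : Fin 12) 11 * Equiv.swap (7 : Fin 12) 9 * Equiv.swap (8 : Fin 12) 10)
    (M₁₂ M₁₁ : Subgroup (Equiv.Perm (Fin 12))) (hM₁₂ : M₁₂ = Subgroup.closure {s, t, u, v, w, x₁, x₂, x₃})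
    (hM₁₁ : M₁₁ = Subgroup.closure {s, t, u, v, w, x₁, x₂}) :
    MulAction.IsMultiplyPretransitive M₁₂ (Fin 12) 5 ∧ (∀ y : Fin 5 ↪ Fin 12, MulAction.stabilizer M₁₂ y = ⊥) ∧
    Nat.card M₁₂ = 95040 ∧ Nat.card M₁₁ = 7920 ∧
    M₁₁ = M₁₂ ⊓ MulAction.stabilizer (Equiv.Perm (Fin 12)) (2 : Fin 12) := by
  have h12 : M₁₂ = Lib.M12Gens.M12' := by
    rw [hM₁₂, hs, ht, hu, hv, hw, hx₁, hx₂, hx₃]
    unfold Lib.M12Gens.M12'
    congr 1
    ext g
    constructor
    · rintro (rfl | rfl | rfl | rfl | rfl | rfl | rfl | rfl)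
      exacts [⟨0, rfl⟩, ⟨1, rfl⟩, ⟨2, rfl⟩, ⟨3, rfl⟩, ⟨4, rfl⟩, ⟨5, rfl⟩, ⟨6, rfl⟩, ⟨7, rfl⟩]
    · rintro ⟨k, rfl⟩
      fin_cases k
      · left; rfl
      · right; left; rfl
      · right; right; left; rfl
      · right; right; right; left; rfl
      · right; right; right; right; left; rfl
      · right; right; right; right; right; left; rfl
      · right; right; right; right; right; right; left; rfl
      · right; right; right; right; right; right; right; rfl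
  have h11 : M₁₁ = Lib.M12Gens.M11' := by
    rw [hM₁₁, hs, ht, hu, hv, hw, hx₁, hx₂]
    unfold Lib.M12Gens.M11'
    congr 1
    ext g
    constructor
    · rintro (rfl | rfl | rfl | rfl | rfl | rfl | rfl)
      exacts [⟨0, rfl⟩, ⟨1, rfl⟩, ⟨2, rfl⟩, ⟨3, rfl⟩, ⟨4, rfl⟩, ⟨5, rfl⟩, ⟨6, rfl⟩]
    · rintro ⟨k, rfl⟩
      fin_cases k
      · left; rfl
      · right; left; rfl
      · right; right; left; rfl
      · right; right; right; left; rfl
      · right; right; right; right; left; rfl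
      · right; right; right; right; right; left; rfl
      · right; right; right; right; right; right; rfl
  subst h12
  subst h11
  exact ⟨Lib.M12Gens.M12_pretransitive, Lib.M12Gens.M12_sharp, Lib.M12Gens.card_M12, Lib.M12Gens.card_M11,
    Lib.M12Gens.M11_eq⟩

end Cfsg.Agent.S3362
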