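import Cfsg.Statements.S3370
import Mathlib
import Cfsg.Agent.Lib.QuatRec

set_option autoImplicit false
open Cfsg

namespace Cfsg.Agent.S3370

theorem isUnit_of_odd_dvd {S : ℤ} (hS : Odd S) {n : ℕ} (h : S ∣ 2 ^ n) : S = 1 ∨ S = -1 := by
  have hc : IsCoprime S 2 := by
    obtain ⟨k, hk⟩ := hS
    exact ⟨1, -k, by rw [hk]; ring⟩
  have hc2 : IsCoprime S (2 ^ n) := hc.pow_right
  exact Int.isUnit_iff.1 (hc2.isUnit_of_dvd' (dvd_refl S) h)

theorem nt1 {p j n : ℕ} (hp : Odd p) (hp3 : 3 ≤ p) (hj : 1 ≤ j) (h : 2 ^ n = p ^ j + 1) : j = 1 := by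
  rcases Nat.even_or_odd j with ⟨m, hm⟩ | ⟨m, hm⟩
  · exfalso
    obtain ⟨k, hk⟩ := hp
    have h1 : p ^ j % 4 = 1 := by
      rw [hm, ← two_mul, pow_mul, Nat.pow_mod]
      have : p ^ 2 % 4 = 1 := by
        rw [hk]
        have : (2 * k + 1) ^ 2 = 4 * (k ^ 2 + k) + 1 := by ring
        rw [this]; omega
      rw [this]; simp
    have h2 : 3 ^ 1 ≤ p ^ j := by
      calc 3 ^ 1 ≤ 3 ^ j := Nat.pow_le_pow_right (by norm_num) hj
        _ ≤ p ^ j := Nat.pow_le_pow_left hp3 j
    have hn : 2 ≤ n := by
      by_contra hcon
      have : n = 0 ∨ n = 1 := by omega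
      rcases this with rfl | rfl
      · rw [pow_zero] at h; omega
      · rw [pow_one] at h; omega
    obtain ⟨l, rfl⟩ : ∃ l, n = l + 2 := ⟨n - 2, by omega⟩
    rw [pow_add] at h
    omega
  · have key : ∀ m : ℕ, ∃ S : ℤ, Odd S ∧ (p : ℤ) ^ (2 * m + 1) + 1 = (p + 1) * S := by
      intro m
      induction m with
      | zero => exact ⟨1, odd_one, by ring⟩
      | succ m ih =>
        obtain ⟨S, hS, hS'⟩ := ih
        refine ⟨(p : ℤ) ^ 2 * S - (p - 1), ?_, ?_⟩
        · have hpo : Odd (p : ℤ) := by exact_mod_cast hp
          exact ((hpo.pow).mul hS).sub_even (hpo.sub_odd odd_one)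
        · have : (p : ℤ) ^ (2 * (m + 1) + 1) + 1 = p ^ 2 * ((p : ℤ) ^ (2 * m + 1) + 1) - (p ^ 2 - 1) := by ring
          rw [this, hS']; ring
    obtain ⟨S, hS, hS'⟩ := key m
    rw [← hm] at hS'
    have h1 : ((2 : ℤ)) ^ n = (p + 1) * S := by
      rw [← hS']; exact_mod_cast h
    have hpos : (0 : ℤ) < (p : ℤ) ^ j + 1 := by positivity
    rcases isUnit_of_odd_dvd hS (n := n) ⟨p + 1, by rw [h1]; ring⟩ with h2 | h2
    · rw [h2, mul_one] at hS'
      have h3 : (p : ℤ) ^ j = p ^ 1 := by linarith
      have h4 : p ^ j = p ^ 1 := by exact_mod_cast h3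
      exact Nat.pow_right_injective (by omega : 2 ≤ p) h4
    · rw [h2] at hS'
      have : (0 : ℤ) ≤ p := by positivity
      linarith

theorem nt2 {q j n : ℕ} (hq : Odd q) (hq3 : 3 ≤ q) (hn : 2 ≤ n) (h : q ^ n = 2 ^ j + 1) : q = 3 ∧ n = 2 := by
  rcases Nat.even_or_odd n with ⟨m, hm⟩ | ⟨m, hm⟩
  · have hx : 3 ≤ q ^ m := by
      calc 3 ≤ q := hq3
        _ = q ^ 1 := (pow_one q).symm
        _ ≤ q ^ m := Nat.pow_le_pow_right (by omega) (by omega)
    set x := q ^ m with hxdef
    have h1 : (x - 1) * (x + 1) = 2 ^ j := by
      rw [hm, pow_add, ← hxdef] at h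
      have : (x - 1) * (x + 1) = x * x - 1 := by
        obtain ⟨y, hy⟩ : ∃ y, x = y + 1 := ⟨x - 1, by omega⟩
        rw [hy]; simp only [Nat.add_sub_cancel]
        have : (y + 1) * (y + 1) = y * (y + 1 + 1) + 1 := by ring
        rw [this]; simp
      rw [this, h]; simp
    obtain ⟨a, _, ha⟩ := (Nat.dvd_prime_pow Nat.prime_two).1 (Dvd.intro _ h1)
    obtain ⟨b, _, hb⟩ := (Nat.dvd_prime_pow Nat.prime_two).1 (Dvd.intro_left _ h1)
    have hab : 2 ^ b = 2 ^ a + 2 := by omega
    have ha1 : a = 1 := by
      rcases Nat.lt_or_ge a 2 with h2 | h2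
      · interval_cases a
        · exfalso; omega
        · rfl
      · exfalso
        obtain ⟨c, rfl⟩ : ∃ c, a = c + 2 := ⟨a - 2, by omega⟩
        have hb2 : b ≠ 0 := by rintro rfl; omega
        have hb3 : b ≠ 1 := by rintro rfl; omega
        obtain ⟨d, rfl⟩ : ∃ d, b = d + 2 := ⟨b - 2, by omega⟩
        rw [pow_add, pow_add] at hab
        omega
    subst ha1
    have hx3 : x = 3 := by omega
    rw [hxdef] at hx3
    have hm1 : m = 1 := by
      have : q ^ m ≤ 3 := hx3.le
      by_contra hm1
      have hm2 : 2 ≤ m := by omega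
      have : q ^ 2 ≤ q ^ m := Nat.pow_le_pow_right (by omega) hm2
      have : 3 ^ 2 ≤ q ^ 2 := Nat.pow_le_pow_left hq3 2
      omega
    subst hm1
    rw [pow_one] at hx3
    exact ⟨hx3, by omega⟩
  · exfalso
    obtain ⟨r, rfl⟩ : ∃ r, q = r + 1 := ⟨q - 1, by omega⟩
    have key : ∀ m : ℕ, 1 ≤ m → ∃ S : ℕ, Odd S ∧ 1 < S ∧ (r + 1) ^ (2 * m + 1) = r * S + 1 := by
      have hr : Even r := by
        obtain ⟨k, hk⟩ := hq
        exact ⟨k, by omega⟩
      have step : ∀ T : ℕ, Odd T → Odd ((r + 1) ^ 2 * T + (r + 2)) := by
        intro T hT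
        exact ((hq.pow).mul hT).add_even (hr.add even_two)
      intro m hm
      induction m, hm using Nat.le_induction with
      | base => exact ⟨(r + 1) ^ 2 * 1 + (r + 2), step 1 odd_one, by nlinarith, by ring⟩
      | succ m _ ih =>
        obtain ⟨S, hS, hS1, hS'⟩ := ih
        refine ⟨(r + 1) ^ 2 * S + (r + 2), step S hS, by nlinarith, ?_⟩
        have : (r + 1) ^ (2 * (m + 1) + 1) = (r + 1) ^ 2 * (r + 1) ^ (2 * m + 1) := by ring
        rw [this, hS']; ring
    obtain ⟨S, hS, hS1, hS'⟩ := key m (by omega)
    rw [← hm, h] at hS'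
    have h2 : 2 ^ j = r * S := by omega
    have h3 : S ∣ 2 ^ j := ⟨r, by rw [h2]; ring⟩
    obtain ⟨a, _, ha⟩ := (Nat.dvd_prime_pow Nat.prime_two).1 h3
    rcases Nat.eq_zero_or_pos a with h4 | h4
    · rw [h4, pow_zero] at ha; omega
    · obtain ⟨c, rfl⟩ : ∃ c, a = c + 1 := ⟨a - 1, by omega⟩
      obtain ⟨k, hk⟩ := hS
      rw [pow_succ] at ha
      omega

theorem two_ne : (2 : ZMod 3) ≠ 0 := by decide

theorem aux48 (k : ℕ) (h8 : 8 ∣ 2 ^ k) (h48 : 2 ^ k ∣ 48) : 2 ^ k = 8 ∨ 2 ^ k = 16 := by
  have hle := Nat.le_of_dvd (by norm_num) h48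
  have : k < 6 := by
    by_contra hcon
    have : 2 ^ 6 ≤ 2 ^ k := Nat.pow_le_pow_right (by norm_num) (by omega)
    omega
  interval_cases k
  · norm_num at h8
  · norm_num at h8
  · norm_num at h8
  · left; norm_num
  · right; norm_num
  · norm_num at h48

/-- an element of `GL(V)`, `V` of order 9, satisfying `X² = 1 - X`. -/
theorem exists_X {V : Type*} [AddCommGroup V] [Module (ZMod 3) V] [Finite V] (hV : Nat.card V = 9) :
    Nat.card (V ≃ₗ[ZMod 3] V) = 48 ∧ ∃ X : V ≃ₗ[ZMod 3] V, ∀ v : V, X (X v) = v - X v := by
  have hfr : Module.finrank (ZMod 3) V = 2 := by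
    have h1 := Module.natCard_eq_pow_finrank (K := ZMod 3) (V := V)
    rw [hV, Nat.card_zmod] at h1
    have h2 : (3 : ℕ) ^ 2 = 3 ^ Module.finrank (ZMod 3) V := by rw [← h1]; norm_num
    exact (Nat.pow_right_injective (le_refl 2 |>.trans (by norm_num : 2 ≤ 3)) h2).symm
  have e : V ≃ₗ[ZMod 3] (Fin 2 → ZMod 3) := by
    apply LinearEquiv.ofFinrankEq
    rw [hfr, Module.finrank_fin_fun]
  constructor
  · have e1 : (V ≃ₗ[ZMod 3] V) ≃ ((Fin 2 → ZMod 3) ≃ₗ[ZMod 3] (Fin 2 → ZMod 3)) :=
      { toFun := fun f => e.symm.trans (f.trans e)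
        invFun := fun f => e.trans (f.trans e.symm)
        left_inv := fun f => by ext v; simp
        right_inv := fun f => by ext v; simp }
    rw [Nat.card_congr e1,
      ← Nat.card_congr (LinearMap.GeneralLinearGroup.generalLinearEquiv (ZMod 3) (Fin 2 → ZMod 3)).toEquiv,
      ← Nat.card_congr (Matrix.GeneralLinearGroup.toLin (n := Fin 2) (R := ZMod 3)).toEquiv,
      Matrix.card_GL_field]
    simp [Fin.prod_univ_two, ZMod.card]
  · let X0 : (Fin 2 → ZMod 3) ≃ₗ[ZMod 3] (Fin 2 → ZMod 3) :=
      { toFun := fun v => ![v 1, v 0 + 2 * v 1]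
        map_add' := by intro v w; ext i; fin_cases i <;> simp <;> ring
        map_smul' := by intro c v; ext i; fin_cases i <;> simp; ring
        invFun := fun v => ![v 1 - 2 * v 0, v 0]
        left_inv := by intro v; ext i; fin_cases i <;> simp
        right_inv := by intro v; ext i; fin_cases i <;> simp }
    have hX0 : ∀ v, X0 (X0 v) = v - X0 v := by
      intro v
      ext i
      fin_cases i
      · show (X0 v) 1 = v 0 - (X0 v) 0
        show v 0 + 2 * v 1 = v 0 - v 1
        have : (2 : ZMod 3) = -1 := rfl
        rw [this]; ring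
      · show (X0 v) 0 + 2 * (X0 v) 1 = v 1 - (X0 v) 1
        show v 1 + 2 * (v 0 + 2 * v 1) = v 1 - (v 0 + 2 * v 1)
        have : (2 : ZMod 3) = -1 := rfl
        rw [this]; ring
    refine ⟨e.trans (X0.trans e.symm), fun v => ?_⟩
    apply e.injective
    simp only [LinearEquiv.trans_apply, LinearEquiv.apply_symm_apply, map_sub]
    exact hX0 (e v)

/-- Let q be a prime, V a non-trivial finite vector space over the field with q elements, and G a non-trivial finite p-group (p prime) acting faithfully and linearly on V and transitively on the non-zero vectors. Then either q = 2 and G has prime order p = |V| − 1; or p = 2, V has q elements with q = 2^m + 1 and G is cyclic of order 2^m; or p = 2, q = 3, V has 9 elements and G is cyclic of order 8, quaternion of order 8, or semidihedral of order 16. -/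
theorem result (q : ℕ) [Fact q.Prime] {V : Type*} [AddCommGroup V] [Module (ZMod q) V] [Finite V] [Nontrivial V]
    {G : Type*} [Group G] [Finite G] [Nontrivial G] (p : ℕ) [Fact p.Prime] (hG : IsPGroup p G)
    (ρ : G →* (V ≃ₗ[ZMod q] V)) (hρ : Function.Injective ρ)
    (htrans : ∀ v w : V, v ≠ 0 → w ≠ 0 → ∃ g : G, ρ g v = w) :
    (q = 2 ∧ p = Nat.card V - 1 ∧ Nat.card G = p) ∨
    (p = 2 ∧ Nat.card V = q ∧ (∃ m : ℕ, q = 2 ^ m + 1 ∧ Nat.card G = 2 ^ m) ∧ IsCyclic G) ∨
    (p = 2 ∧ q = 3 ∧ Nat.card V = 9 ∧
      ((IsCyclic G ∧ Nat.card G = 8) ∨ Nonempty (G ≃* QuaternionGroup 2) ∨ (Cfsg.IsQuasiDihedral G ∧ Nat.card G = 16))) := by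
  have hqp : q.Prime := Fact.out
  have hpp : p.Prime := Fact.out
  have mulact : ∀ (a b : G) (v : V), ρ (a * b) v = ρ a (ρ b v) := by
    intro a b v; rw [map_mul]; rfl
  have oneact : ∀ v : V, ρ 1 v = v := by intro v; rw [map_one]; rfl
  have hne : ∀ (g : G) (v : V), v ≠ 0 → ρ g v ≠ 0 := by
    intro g v hv h
    exact hv ((ρ g).map_eq_zero_iff.1 h)
  let act : MulAction G {v : V // v ≠ 0} :=
    { smul := fun g v => ⟨ρ g v, hne g v v.2⟩
      one_smul := fun v => Subtype.ext (oneact v)
      mul_smul := fun a b v => Subtype.ext (mulact a b v) }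
  have hsm : ∀ (g : G) (v : {v : V // v ≠ 0}), ((g • v : {v : V // v ≠ 0}) : V) = ρ g v := fun _ _ => rfl
  have htr : MulAction.IsPretransitive G {v : V // v ≠ 0} := by
    constructor
    intro v w
    obtain ⟨g, hg⟩ := htrans v w v.2 w.2
    exact ⟨g, Subtype.ext hg⟩
  obtain ⟨v₀, hv₀⟩ := exists_ne (0 : V)
  have hcardX : Nat.card {v : V // v ≠ 0} = Nat.card V - 1 := by
    classical
    have := Fintype.ofFinite V
    rw [Nat.card_eq_fintype_card, Nat.card_eq_fintype_card, Fintype.card_subtype_compl]
    simp
  have hidx := MulAction.index_stabilizer_of_transitive G (⟨v₀, hv₀⟩ : {v : V // v ≠ 0})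
  rw [hcardX] at hidx
  have hmi := (MulAction.stabilizer G (⟨v₀, hv₀⟩ : {v : V // v ≠ 0})).card_mul_index
  rw [hidx] at hmi
  obtain ⟨k, hk⟩ := (IsPGroup.iff_card (p := p)).1 hG
  have hdvd : Nat.card V - 1 ∣ p ^ k := by rw [← hk, ← hmi]; exact dvd_mul_left _ _
  obtain ⟨j, hjk, hj⟩ := (Nat.dvd_prime_pow hpp).1 hdvd
  have hcV : Nat.card V = q ^ Module.finrank (ZMod q) V := by
    rw [Module.natCard_eq_pow_finrank (K := ZMod q), Nat.card_zmod]
  set n := Module.finrank (ZMod q) V with hn
  have hn1 : 1 ≤ n := by
    have := Module.finrank_pos (R := ZMod q) (M := V)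
    omega
  have hV1 : 1 < Nat.card V := Finite.one_lt_card
  have heq : q ^ n = p ^ j + 1 := by rw [← hcV]; omega
  have hk0 : k ≠ 0 := by
    rintro rfl
    have : 1 < Nat.card G := Finite.one_lt_card
    rw [hk, pow_zero] at this
    omega
  -- injectivity of the permutation representation
  have hinjperm : Function.Injective (MulAction.toPermHom G {v : V // v ≠ 0}) := by
    rw [injective_iff_map_eq_one]
    intro g hg
    apply hρ
    rw [map_one]
    ext v
    show ρ g v = v
    by_cases hv : v = 0
    · rw [hv, map_zero]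
    · have h1 := congrArg (fun f : Equiv.Perm {v : V // v ≠ 0} => ((f ⟨v, hv⟩ : {v : V // v ≠ 0}) : V)) hg
      exact h1
  by_cases hq2 : q = 2
  · left
    subst hq2
    have hj1 : 1 ≤ j := by
      by_contra hcon
      have hj0 : j = 0 := by omega
      rw [hj0, pow_zero] at hj
      -- only one nonzero vector
      have h1 : Nat.card G ∣ Nat.card (Equiv.Perm {v : V // v ≠ 0}) :=
        Subgroup.card_dvd_of_injective _ hinjperm
      rw [Nat.card_perm, hcardX, hj] at h1
      have : 1 < Nat.card G := Finite.one_lt_card
      have h2 := Nat.le_of_dvd (by simp) h1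
      simp at h2
      omega
    have hpo : Odd p := by
      rcases hpp.eq_two_or_odd' with h | h
      · exfalso
        rw [h] at heq
        obtain ⟨a, ha⟩ : ∃ a, n = a + 1 := ⟨n - 1, by omega⟩
        obtain ⟨b, hb⟩ : ∃ b, j = b + 1 := ⟨j - 1, by omega⟩
        rw [ha, hb, pow_succ, pow_succ] at heq
        omega
      · exact h
    have hp3 : 3 ≤ p := by
      have := hpp.two_le
      obtain ⟨a, ha⟩ := hpo
      omega
    have hj11 := nt1 hpo hp3 hj1 heq
    rw [hj11, pow_one] at hj
    refine ⟨rfl, hj.symm, ?_⟩
    have h1 : Nat.card G ∣ Nat.card (Equiv.Perm {v : V // v ≠ 0}) :=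
      Subgroup.card_dvd_of_injective _ hinjperm
    rw [Nat.card_perm, hcardX, hj, hk] at h1
    have hk1 : k = 1 := by
      by_contra hk1
      have hk2 : 2 ≤ k := by omega
      have h2 : p ^ 2 ∣ p.factorial := (pow_dvd_pow p hk2).trans h1
      rw [← Nat.mul_factorial_pred hpp.ne_zero, sq] at h2
      have h3 := Nat.dvd_of_mul_dvd_mul_left hpp.pos h2
      have h4 := (hpp.dvd_factorial).1 h3
      have := hpp.two_le
      omega
    rw [hk, hk1, pow_one]
  · right
    have hqo : Odd q := hqp.odd_of_ne_two hq2
    have hq3 : 3 ≤ q := by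
      have := hqp.two_le
      omega
    have hp2 : p = 2 := by
      rcases hpp.eq_two_or_odd' with h | h
      · exact h
      · exfalso
        have h1 : Odd (q ^ n) := hqo.pow
        have h2 : Odd (p ^ j) := h.pow
        rw [heq] at h1
        exact (Nat.not_odd_iff_even.2 (h2.add_odd odd_one)) h1
    subst hp2
    by_cases hn2 : 2 ≤ n
    · right
      obtain ⟨hq', hn'⟩ := nt2 hqo hq3 hn2 heq
      have hV9 : Nat.card V = 9 := by rw [hcV, hq', hn']; norm_num
      subst hq'
      obtain ⟨hGL, X, hX⟩ := exists_X hV9
      have hdvd48 : Nat.card G ∣ 48 := by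
        rw [← hGL]; exact Subgroup.card_dvd_of_injective ρ hρ
      rw [hV9] at hmi
      simp only [Nat.reduceSub] at hmi
      refine ⟨rfl, rfl, hV9, ?_⟩
      have hkc : Nat.card G = 8 ∨ Nat.card G = 16 := by
        have h8 : 8 ∣ Nat.card G := ⟨_, by rw [← hmi]; ring⟩
        rw [hk] at h8 hdvd48 ⊢
        exact aux48 k h8 hdvd48
      have hsmul_ne : ∀ v : V, v ≠ 0 → v ≠ -v := by
        intro v hv h
        apply hv
        have h2 : (2 : ZMod 3) • v = 0 := by
          rw [two_smul]; nth_rewrite 1 [h]; simp
        have h3 : (2 : ZMod 3) ≠ 0 := two_ne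
        exact (smul_eq_zero.1 h2).resolve_left h3
      rcases hkc with hc | hc
      · -- order 8
        have hst : ∀ (g : G) (v : V), v ≠ 0 → ρ g v = v → g = 1 := by
          intro g v hv hg
          have h1 := MulAction.index_stabilizer_of_transitive G (⟨v, hv⟩ : {v : V // v ≠ 0})
          have h2 := (MulAction.stabilizer G (⟨v, hv⟩ : {v : V // v ≠ 0})).card_mul_index
          rw [h1, hcardX, hV9, hc] at h2
          have h3 : Nat.card (MulAction.stabilizer G (⟨v, hv⟩ : {v : V // v ≠ 0})) = 1 := by omega
          have h4 := Subgroup.eq_bot_of_card_eq _ h3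
          have h5 : g ∈ MulAction.stabilizer G (⟨v, hv⟩ : {v : V // v ≠ 0}) := Subtype.ext hg
          rw [h4] at h5
          exact h5
        have hneg : ∀ x : G, orderOf x = 2 → ∀ v, ρ x v = -v := by
          intro x hx v
          have hx1 : x ≠ 1 := by intro h; rw [h, orderOf_one] at hx; omega
          have hxx : x * x = 1 := by rw [← sq, ← hx, pow_orderOf_eq_one]
          have h1 : ρ x (v + ρ x v) = v + ρ x v := by
            rw [map_add, ← mulact, hxx, oneact]; abel
          by_contra h2
          exact hx1 (hst x _ (fun h3 => h2 (neg_eq_of_add_eq_zero_right h3).symm) h1)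
        rcases Lib.QuatRec.cyclic_or_quaternion_of_card_eight hc (by
          intro x y hx hy
          apply hρ
          ext v
          rw [hneg x hx, hneg y hy]) with h | h
        · exact Or.inl ⟨h, hc⟩
        · exact Or.inr (Or.inl h)
      · -- order 16
        right; right
        refine ⟨?_, hc⟩
        have hXp : ∀ Y : V ≃ₗ[ZMod 3] V, (∀ v : V, Y (Y v) = v - Y v) →
            ∀ v, (Y ^ 4) v = -v := by
          intro Y hY v
          have e1 : (Y ^ 4) v = Y (Y (Y (Y v))) := rfl
          rw [e1, hY (Y (Y v)), hY v, map_sub, hY v]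
          have h3 : (3 : ZMod 3) • (v - Y v) = 0 := by
            have : (3 : ZMod 3) = 0 := rfl
            rw [this, zero_smul]
          have h4 : (3 : ZMod 3) • (v - Y v) = (v - Y v) + (v - Y v) + (v - Y v) := by
            have : (3 : ZMod 3) = 1 + 1 + 1 := rfl
            rw [this, add_smul, add_smul, one_smul]
          rw [h4] at h3
          have h5 : v - Y v - (Y v - (v - Y v)) = -v + ((v - Y v) + (v - Y v) + (v - Y v)) := by abel
          rw [h5, h3, add_zero]
        have hfinV : Finite (V ≃ₗ[ZMod 3] V) := Finite.of_injective (fun f => (f : V → V))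
          (fun f g h => by ext v; exact congrFun h v)
        -- conjugate X into ρ(G)
        have hrange : Nat.card ρ.range = 16 := by
          rw [← hc]
          exact Nat.card_congr (MonoidHom.ofInjective hρ).toEquiv.symm
        have hPcard : Nat.card ρ.range = 2 ^ (Nat.card (V ≃ₗ[ZMod 3] V)).factorization 2 := by
          rw [hGL, hrange]
          have : (48 : ℕ).factorization 2 = 4 := by
            rw [show (48 : ℕ) = 2 ^ 4 * 3 by norm_num, Nat.factorization_mul (by norm_num) (by norm_num)]
            rw [Finsupp.add_apply, Nat.Prime.factorization_pow Nat.prime_two, Finsupp.single_eq_same,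
              Nat.factorization_eq_zero_of_not_dvd (by norm_num : ¬ 2 ∣ 3)]
          rw [this]; norm_num
        let P : Sylow 2 (V ≃ₗ[ZMod 3] V) := Sylow.ofCard ρ.range hPcard
        have hX8 : X ^ 8 = 1 := by
          ext v
          have e1 : (X ^ 8) v = (X ^ 4) ((X ^ 4) v) := by
            rw [show (8 : ℕ) = 4 + 4 by norm_num, pow_add]; rfl
          rw [e1, hXp X hX, hXp X hX, neg_neg]; rfl
        have hXpg : IsPGroup 2 (Subgroup.zpowers X) := by
          rw [IsPGroup.iff_card, Nat.card_zpowers]
          obtain ⟨i, _, hi⟩ := (Nat.dvd_prime_pow Nat.prime_two).1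
            (show orderOf X ∣ 2 ^ 3 from orderOf_dvd_of_pow_eq_one (by rw [show (2:ℕ)^3 = 8 by norm_num]; exact hX8))
          exact ⟨i, hi⟩
        obtain ⟨Q, hQ⟩ := hXpg.exists_le_sylow
        obtain ⟨c, hcQ⟩ := MulAction.exists_smul_eq (V ≃ₗ[ZMod 3] V) Q P
        have hXc : c * X * c⁻¹ ∈ (P : Subgroup (V ≃ₗ[ZMod 3] V)) := by
          rw [← hcQ, Sylow.coe_subgroup_smul, Subgroup.mem_pointwise_smul_iff_inv_smul_mem, ← map_inv,
            MulAut.smul_def, MulAut.conj_apply]
          have : c⁻¹ * (c * X * c⁻¹) * c⁻¹⁻¹ = X := by group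
          rw [this]
          exact hQ (Subgroup.mem_zpowers X)
        obtain ⟨x, hx⟩ : ∃ x : G, ρ x = c * X * c⁻¹ := hXc
        have hxr : ∀ v, ρ x (ρ x v) = v - ρ x v := by
          intro v
          have e1 : ρ x (ρ x v) = (ρ x * ρ x) v := rfl
          rw [e1, hx]
          have e2 : c * X * c⁻¹ * (c * X * c⁻¹) = c * X * X * c⁻¹ := by group
          rw [e2]
          show c (X (X (c⁻¹ v))) = v - c (X (c⁻¹ v))
          rw [hX, map_sub]
          have e3 : c (c⁻¹ v) = v := by
            show (c * c⁻¹) v = v
            rw [mul_inv_cancel]; rfl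
          rw [e3]
        have hx4 : ∀ v, ρ (x ^ 4) v = -v := by
          intro v; rw [map_pow]; exact hXp (ρ x) hxr v
        have hx8 : x ^ 8 = 1 := by
          apply hρ
          ext v
          rw [show (8 : ℕ) = 4 + 4 by norm_num, pow_add, mulact, hx4, hx4, neg_neg, oneact]
        have hx4' : x ^ 4 ≠ 1 := by
          intro h
          have := hx4 v₀
          rw [h, oneact] at this
          exact hsmul_ne v₀ hv₀ this
        have hxo : orderOf x = 8 := by
          have := orderOf_eq_prime_pow (p := 2) (n := 2) (x := x) (by norm_num; exact hx4') (by norm_num; exact hx8)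
          simpa using this
        -- the stabiliser of v₀
        have hstab2 : Nat.card (MulAction.stabilizer G (⟨v₀, hv₀⟩ : {v : V // v ≠ 0})) = 2 := by omega
        obtain ⟨⟨y, hy⟩, hy1, hyu⟩ := (Nat.card_eq_two_iff' (1 : MulAction.stabilizer G (⟨v₀, hv₀⟩ : {v : V // v ≠ 0}))).1 hstab2
        have hyv : ρ y v₀ = v₀ := congrArg Subtype.val hy
        have hy1' : y ≠ 1 := fun h => hy1 (Subtype.ext h)
        have hyo : orderOf y = 2 := by
          have h1 : (⟨y, hy⟩ : MulAction.stabilizer G (⟨v₀, hv₀⟩ : {v : V // v ≠ 0})) ^ 2 = 1 := by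
            rw [← hstab2, pow_card_eq_one']
          have h2 : y ^ 2 = 1 := congrArg Subtype.val h1
          exact orderOf_eq_prime h2 hy1'
        have hyy : y * y = 1 := by rw [← sq, ← hyo, pow_orderOf_eq_one]
        have hyinv : y⁻¹ = y := inv_eq_of_mul_eq_one_right hyy
        have hidx2 : (Subgroup.zpowers x).index = 2 := by
          have := (Subgroup.zpowers x).card_mul_index
          rw [Nat.card_zpowers, hxo, hc] at this
          omega
        have hnorm : (Subgroup.zpowers x).Normal := Subgroup.normal_of_index_eq_two hidx2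
        have hxy : y * x * y⁻¹ ∈ Subgroup.zpowers x := hnorm.conj_mem x (Subgroup.mem_zpowers x) y
        obtain ⟨l, hl⟩ : ∃ l : ℕ, x ^ l = y * x * y⁻¹ := mem_powers_iff_mem_zpowers.2 hxy
        rw [← Nat.div_add_mod l 8, pow_add, pow_mul, hx8, one_pow, one_mul] at hl
        have hlt : l % 8 < 8 := Nat.mod_lt _ (by norm_num)
        -- relation for y x y⁻¹
        have hrel : ∀ v, ρ (y * x * y⁻¹) (ρ (y * x * y⁻¹) v) = v - ρ (y * x * y⁻¹) v := by
          intro v
          have e1 : ∀ u, ρ (y * x * y⁻¹) u = ρ y (ρ x (ρ y u)) := by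
            intro u; rw [mulact, mulact, hyinv]
          have e2 : ∀ u, ρ y (ρ y u) = u := by intro u; rw [← mulact, hyy, oneact]
          rw [e1, e1, e2, hxr, map_sub, e2]
        have hord : orderOf (y * x * y⁻¹) = 8 := by
          have := MulEquiv.orderOf_eq (MulAut.conj y) x
          rw [MulAut.conj_apply] at this
          rw [this, hxo]
        have hfin : y * x * y⁻¹ = x ^ 3 := by
          rw [← hl] at hrel hord ⊢
          have hx2 : ∀ v, ρ (x ^ 2) v = v - ρ x v := by
            intro v; rw [sq, mulact, hxr]
          interval_cases hm : l % 8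
          · rw [pow_zero, orderOf_one] at hord; omega
          · exfalso
            rw [pow_one] at hl
            -- y commutes with x
            have hcom : ∀ v, ρ y (ρ x v) = ρ x (ρ y v) := by
              intro v
              rw [← mulact, ← mulact]
              have : y * x = x * y := by
                have := congrArg (fun t => t * y) hl
                simp only [inv_mul_cancel_right] at this
                exact this.symm
              rw [this]
            -- y fixes v₀ and x v₀, hence all
            have hall : ∀ v : V, ρ y v = v := by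
              let W : Submodule (ZMod 3) V := LinearMap.ker ((ρ y : V →ₗ[ZMod 3] V) - LinearMap.id)
              have hW : ∀ v, v ∈ W ↔ ρ y v = v := by
                intro v
                simp only [W, LinearMap.mem_ker, LinearMap.sub_apply, LinearMap.id_apply, LinearEquiv.coe_coe]
                rw [sub_eq_zero]
              have h1 : Nat.card W ∣ 3 ^ 2 := by
                have := AddSubgroup.card_addSubgroup_dvd_card W.toAddSubgroup
                rw [hV9] at this
                exact this
              obtain ⟨i, hi, hi'⟩ := (Nat.dvd_prime_pow Nat.prime_three).1 h1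
              have hWn : Nontrivial W := ⟨⟨⟨v₀, (hW _).2 hyv⟩, 0, fun h => hv₀ (congrArg Subtype.val h)⟩⟩
              have hWlt : 1 < Nat.card W := Finite.one_lt_card
              interval_cases i
              · omega
              · exfalso
                -- W has 3 elements: 0, w, -w ; x preserves W
                have hxW : ∀ w ∈ W, ρ x w ∈ W := by
                  intro w hw
                  rw [hW] at hw ⊢
                  rw [hcom, hw]
                have h2 : Nat.card W = 3 := by rw [hi']; norm_num
                have hxv : ρ x v₀ ∈ W := hxW _ ((hW _).2 hyv)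
                have h5 : ρ x v₀ = v₀ ∨ ρ x v₀ = -v₀ := by
                  by_contra hcon
                  push Not at hcon
                  have hinj : Function.Injective
                    (![⟨0, W.zero_mem⟩, ⟨v₀, (hW _).2 hyv⟩, ⟨-v₀, W.neg_mem ((hW _).2 hyv)⟩, ⟨ρ x v₀, hxv⟩] : Fin 4 → W) := by
                    have a1 := hsmul_ne v₀ hv₀
                    have a2 := hne x v₀ hv₀
                    have a3 : (-v₀) ≠ 0 := neg_ne_zero.2 hv₀
                    intro i j hij
                    fin_cases i <;> fin_cases j <;>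
                      first
                      | rfl
                      | (exfalso
                         have := congrArg Subtype.val hij
                         simp at this
                         first
                         | exact hv₀ this
                         | exact hv₀ this.symm
                         | exact a1 this
                         | exact a1 this.symm
                         | exact a2 this
                         | exact a2 this.symm
                         | exact hcon.1 this
                         | exact hcon.1 this.symm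
                         | exact hcon.2 this
                         | exact hcon.2 this.symm)
                  have := Nat.card_le_card_of_injective _ hinj
                  rw [h2] at this
                  simp at this
                have h6 := hxr v₀
                rcases h5 with h5 | h5
                · rw [h5, h5, sub_self] at h6
                  exact hv₀ h6
                · rw [h5, map_neg, h5, neg_neg, sub_neg_eq_add] at h6
                  exact hv₀ (by
                    have := h6.symm
                    simpa using this)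
              · have h3 : W = ⊤ := by
                  apply SetLike.coe_injective
                  apply Set.eq_of_subset_of_ncard_le (Set.subset_univ _)
                  show (Set.univ : Set V).ncard ≤ (W : Set V).ncard
                  rw [Set.ncard_univ, hV9]
                  have : (W : Set V).ncard = Nat.card W := rfl
                  rw [this, hi']; norm_num
                intro v
                rw [← hW, h3]; trivial
            exact hy1' (hρ (by ext v; rw [hall v, oneact]))
          · exfalso
            rw [orderOf_pow_of_dvd (by norm_num) (by rw [hxo]; norm_num), hxo] at hord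
            omega
          · rfl
          · exfalso
            rw [orderOf_pow_of_dvd (by norm_num) (by rw [hxo]; norm_num), hxo] at hord
            omega
          · exfalso
            have e5 : ∀ v, ρ (x ^ 5) v = -(ρ x v) := by
              intro v
              rw [show (5 : ℕ) = 4 + 1 by norm_num, pow_add, pow_one, mulact, hx4]
            have h1 := hrel v₀
            rw [e5, e5, map_neg, neg_neg, hxr] at h1
            have h2 : -(ρ x v₀) = -(-(ρ x v₀)) := by
              rw [sub_eq_add_neg, sub_eq_add_neg] at h1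
              exact add_left_cancel h1
            have h3 : ρ x v₀ = -(ρ x v₀) := neg_injective h2
            exact hsmul_ne _ (hne x v₀ hv₀) h3
          · exfalso
            have h1 : (x ^ 6) ^ 4 = 1 := by
              rw [← pow_mul, show 6 * 4 = 8 * 3 by norm_num, pow_mul, hx8, one_pow]
            have h2 := orderOf_dvd_of_pow_eq_one h1
            rw [hord] at h2
            omega
          · exfalso
            have e7 : ∀ v, ρ x (ρ (x ^ 7) v) = v := by
              intro v
              rw [← mulact, ← pow_succ', hx8, oneact]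
            have h1 := hrel v₀
            have h2 := congrArg (fun u => ρ x (ρ x u)) h1
            simp only [map_sub, e7] at h2
            rw [hxr] at h2
            -- v₀ = v₀ - x v₀ - x v₀
            have h3 : v₀ + ρ x v₀ + ρ x v₀ = v₀ := by
              nth_rewrite 1 [h2]; abel
            have h4 : ρ x v₀ + ρ x v₀ = 0 := by
              have : v₀ + (ρ x v₀ + ρ x v₀) = v₀ + 0 := by rw [add_zero, ← add_assoc]; exact h3
              exact add_left_cancel this
            exact hsmul_ne _ (hne x v₀ hv₀) (eq_neg_of_add_eq_zero_left h4)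
        refine ⟨3, le_refl _, by rw [hc]; norm_num, x, y, by rw [hxo]; norm_num, hyo, ?_⟩
        rw [hfin]
        norm_num
    · left
      have hn11 : n = 1 := by omega
      have hVq : Nat.card V = q := by rw [hcV, hn11, pow_one]
      rw [hn11, pow_one] at heq
      have hdet : Function.Injective (fun g : G => LinearMap.det (ρ g : V →ₗ[ZMod q] V)) := by
        have hscal : ∀ g : G, ∃ c : ZMod q, (ρ g : V →ₗ[ZMod q] V) = c • LinearMap.id := by
          intro g
          have hex : ∃ c : ZMod q, ρ g v₀ = c • v₀ := by
            have := (finrank_eq_one_iff_of_nonzero' v₀ hv₀).1 (by rw [← hn]; exact hn11) (ρ g v₀)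
            obtain ⟨c, hc⟩ := this
            exact ⟨c, hc.symm⟩
          obtain ⟨c, hc⟩ := hex
          refine ⟨c, ?_⟩
          ext v
          obtain ⟨d, hd⟩ := (finrank_eq_one_iff_of_nonzero' v₀ hv₀).1 (by rw [← hn]; exact hn11) v
          rw [← hd]
          simp only [LinearEquiv.coe_coe, map_smul, LinearMap.smul_apply, LinearMap.id_apply, hc]
        intro g h hgh
        obtain ⟨c, hc⟩ := hscal g
        obtain ⟨d, hd⟩ := hscal h
        simp only [hc, hd, LinearMap.det_smul, LinearMap.det_id, mul_one] at hgh
        rw [← hn, hn11, pow_one, pow_one] at hgh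
        apply hρ
        ext v
        have h1 : (ρ g : V →ₗ[ZMod q] V) v = (ρ h : V →ₗ[ZMod q] V) v := by rw [hc, hd, hgh]
        exact h1
      let D : G →* ZMod q :=
        { toFun := fun g : G => LinearMap.det (ρ g : V →ₗ[ZMod q] V)
          map_one' := by
            rw [map_one]
            exact LinearMap.det_id
          map_mul' := by
            intro a b
            rw [map_mul]
            exact LinearMap.det_comp _ _ }
      have hcyc : IsCyclic G := isCyclic_of_injective_ringHom D hdet
      have hle : Nat.card G ≤ q - 1 := by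
        -- D maps into nonzero elements
        have hDne : ∀ g, D g ≠ 0 := by
          intro g h
          have h1 : D g * D g⁻¹ = 1 := by rw [← map_mul, mul_inv_cancel, map_one]
          rw [h, zero_mul] at h1
          exact zero_ne_one h1
        have h1 : Nat.card G ≤ Nat.card {c : ZMod q // c ≠ 0} := by
          apply Nat.card_le_card_of_injective (fun g => ⟨D g, hDne g⟩)
          intro a b hab
          exact hdet (congrArg Subtype.val hab)
        have h2 : Nat.card {c : ZMod q // c ≠ 0} = q - 1 := by
          classical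
          rw [Nat.card_eq_fintype_card, Fintype.card_subtype_compl]
          simp [ZMod.card]
        omega
      have hcG : Nat.card G = 2 ^ j := by
        have h1 : 2 ^ j ≤ Nat.card G := by
          rw [hk]; exact Nat.pow_le_pow_right (by norm_num) hjk
        omega
      exact ⟨rfl, hVq, ⟨j, heq, hcG⟩, hcyc⟩

end Cfsg.Agent.S3370
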