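import Cfsg.Statements.S3371
import Cfsg.Agent.Lib.H56HalfC
-- import your own Cfsg.Agent.* helpers here

set_option autoImplicit false
open Cfsg Cfsg.Agent.Lib.H56Half

namespace Cfsg.Agent.S3371

/-- Let q be a prime, V a non-trivial finite vector space over the field with q elements, and G a finite p-group (p prime) acting faithfully and linearly on V such that all G-orbits on the non-zero vectors have the same size. Then one of the following holds: G is cyclic or generalized quaternion and acts semiregularly on the non-zero vectors; or V has q² elements with q = 2^m − 1 and G is dihedral of order 2^(m+1) or semidihedral of order 2^(m+2); or V has q² elements with q = 2^m + 1 and, in suitable coordinates V = F_q², G is exactly the group of maps (x, y) ↦ (a x, ± a⁻¹ y) and (x, y) ↦ (± a⁻¹ y, a x) with a ≠ 0; or V has 81 elements (q = 3) and G is a 2-group. -/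
theorem result (q : ℕ) [Fact q.Prime] {V : Type*} [AddCommGroup V] [Module (ZMod q) V] [Finite V] [Nontrivial V]
    {G : Type*} [Group G] [Finite G] (p : ℕ) [Fact p.Prime] (hG : IsPGroup p G)
    (ρ : G →* (V ≃ₗ[ZMod q] V)) (hρ : Function.Injective ρ)
    (hhalf : ∀ v w : V, v ≠ 0 → w ≠ 0 → Nat.card {u : V | ∃ g : G, ρ g v = u} = Nat.card {u : V | ∃ g : G, ρ g w = u}) :
    ((IsCyclic G ∨ ∃ n : ℕ, Nonempty (G ≃* QuaternionGroup n)) ∧ ∀ v : V, v ≠ 0 → ∀ g : G, ρ g v = v → g = 1) ∨
    (Nat.card V = q ^ 2 ∧ ∃ m : ℕ, q = 2 ^ m - 1 ∧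
      (Nonempty (G ≃* DihedralGroup (2 ^ m)) ∨ (Cfsg.IsQuasiDihedral G ∧ Nat.card G = 2 ^ (m + 2)))) ∨
    (Nat.card V = q ^ 2 ∧ (∃ m : ℕ, q = 2 ^ m + 1) ∧
      ∃ e : V ≃ₗ[ZMod q] (Fin 2 → ZMod q), ∀ f : (Fin 2 → ZMod q) ≃ₗ[ZMod q] (Fin 2 → ZMod q),
        (∃ g : G, f = e.symm.trans ((ρ g).trans e)) ↔
        ∃ a s : ZMod q, a ≠ 0 ∧ (s = 1 ∨ s = -1) ∧
          ((∀ v, f v = ![a * v 0, s * a⁻¹ * v 1]) ∨ (∀ v, f v = ![s * a⁻¹ * v 1, a * v 0]))) ∨
    (Nat.card V = 81 ∧ q = 3 ∧ p = 2) := by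
  classical
  have hs : ∀ v w : V, v ≠ 0 → w ≠ 0 → Nat.card (stab q ρ v) = Nat.card (stab q ρ w) :=
    fun v w hv hw => card_stab_eq q ρ hhalf hv hw
  by_cases hreg : ∃ v : V, v ≠ 0 ∧ stab q ρ v = ⊥
  · left
    obtain ⟨v0, hv0, hv0s⟩ := hreg
    have hall : ∀ v : V, v ≠ 0 → ∀ g : G, ρ g v = v → g = 1 := by
      intro v hv g hg
      have h1 : Nat.card (stab q ρ v) = 1 := by
        rw [hs v v0 hv hv0, hv0s, Subgroup.card_bot]
      have h2 : stab q ρ v = ⊥ := Subgroup.card_eq_one.1 h1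
      have h3 : g ∈ stab q ρ v := hg
      rw [h2] at h3
      exact h3
    refine ⟨?_, hall⟩
    let act : G →* MulAut (Multiplicative V) :=
      { toFun := fun g => AddEquiv.toMultiplicative (ρ g).toAddEquiv
        map_one' := by
          ext v
          show Multiplicative.ofAdd (ρ 1 (Multiplicative.toAdd v)) = v
          rw [map_one]; rfl
        map_mul' := by
          intro a b
          ext v
          show Multiplicative.ofAdd (ρ (a * b) (Multiplicative.toAdd v)) =
            Multiplicative.ofAdd (ρ a (ρ b (Multiplicative.toAdd v)))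
          rw [map_mul]; rfl }
    have hf : Lib.FrobAction.IsFPF act := by
      intro a ha v hv
      by_contra hv1
      apply ha
      apply hall (Multiplicative.toAdd v) (fun h => hv1 (by
        rw [← ofAdd_toAdd v, h]; rfl)) a
      exact hv
    haveI : Nontrivial (Multiplicative V) := inferInstance
    rcases Lib.FrobAction.pgroup_cyclic_or_quaternion hf hG with h | ⟨-, n, -, h⟩
    · exact Or.inl h
    · exact Or.inr ⟨_, h⟩
  right
  have hns : ∀ v : V, v ≠ 0 → stab q ρ v ≠ ⊥ := by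
    intro v hv h
    exact hreg ⟨v, hv, h⟩
  have hpq : p ≠ q := ne_char' q ρ p hG hρ hs hns
  have hG0 : (Nat.card G : ZMod q) ≠ 0 := by
    obtain ⟨k, hk⟩ := IsPGroup.iff_card.1 hG
    rw [hk, Nat.cast_pow]
    apply pow_ne_zero
    intro h
    rw [ZMod.natCast_eq_zero_iff] at h
    exact hpq ((Nat.prime_dvd_prime_iff_eq (Fact.out : q.Prime) (Fact.out : p.Prime)).1 h).symm
  have hirr : ∀ W : Submodule (ZMod q) V, (∀ g : G, ∀ w ∈ W, ρ g w ∈ W) → W = ⊥ ∨ W = ⊤ :=
    fun W hW => irreducible q ρ hρ hs hns hG0 W hW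
  obtain ⟨v0, hv0⟩ := exists_ne (0 : V)
  -- an element of order `p` fixing a vector
  obtain ⟨t, htv, hto⟩ : ∃ t : G, ρ t v0 = v0 ∧ orderOf t = p := by
    have hdvd : p ∣ Nat.card (stab q ρ v0) := by
      rcases (hG.to_subgroup (stab q ρ v0)).card_eq_or_dvd with h | h
      · exact absurd (Subgroup.card_eq_one.1 h) (hns v0 hv0)
      · exact h
    obtain ⟨⟨z, hzc⟩, hz⟩ := exists_prime_orderOf_dvd_card' p hdvd
    exact ⟨z, hzc, by rw [← hz]; exact (Subgroup.orderOf_mk z hzc).symm⟩
  have ht1 : t ≠ 1 := by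
    rintro rfl
    rw [orderOf_one] at hto
    exact (Fact.out : p.Prime).one_lt.ne hto
  have htc : ¬ ∀ g, g * t = t * g := by
    intro h
    exact hv0 (Lib.H56Imprim.fix_central q ρ hρ hirr h ht1 v0 htv)
  have hnab : ¬ ∀ a b : G, a * b = b * a := fun h => htc (fun g => h g t)
  have hnc : ¬ IsCyclic G := by
    intro h
    apply hnab
    intro a b
    have := h.isMulCommutative
    exact IsMulCommutative.is_comm.comm a b
  have hcard2 : 2 ∣ Nat.card G → p = 2 := by
    intro h
    obtain ⟨k, hk⟩ := IsPGroup.iff_card.1 hG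
    rw [hk] at h
    have := (Nat.prime_dvd_prime_iff_eq Nat.prime_two (Fact.out : p.Prime)).1 (Nat.prime_two.dvd_of_dvd_pow h)
    exact this.symm
  have h2q' : p = 2 → (2 : ZMod q) ≠ 0 := by
    intro hp2 h
    have h' : ((2 : ℕ) : ZMod q) = 0 := by exact_mod_cast h
    rw [ZMod.natCast_eq_zero_iff] at h'
    exact hpq (by rw [hp2]; exact ((Nat.prime_dvd_prime_iff_eq (Fact.out : q.Prime) Nat.prime_two).1 h').symm)
  have hnq : ∀ n : ℕ, ¬ Nonempty (G ≃* QuaternionGroup n) := by
    rintro n ⟨φ⟩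
    have hn0 : n ≠ 0 := by
      rintro rfl
      have h1 : Finite (QuaternionGroup 0) := Finite.of_equiv _ φ.toEquiv
      have h2 : Function.Injective (fun k : ℤ => (QuaternionGroup.a k : QuaternionGroup 0)) := by
        intro a b hab
        exact QuaternionGroup.a.inj hab
      have := Finite.of_injective _ h2
      exact not_finite ℤ
    haveI : NeZero n := ⟨hn0⟩
    have hp2 : p = 2 := by
      apply hcard2
      rw [Nat.card_congr φ.toEquiv, Nat.card_eq_fintype_card, QuaternionGroup.card]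
      exact ⟨2 * n, by ring⟩
    apply htc
    have htt : t * t = 1 := by
      rw [← pow_two, ← hp2, ← hto]; exact pow_orderOf_eq_one t
    have h1 : φ t * φ t = 1 := by rw [← map_mul, htt, map_one]
    have h2 : φ t ≠ 1 := fun h => ht1 (φ.injective (by rw [h, map_one]))
    intro g
    apply φ.injective
    rw [map_mul, map_mul]
    generalize φ t = τ at h1 h2
    generalize φ g = γ
    rcases τ with i | i
    · rw [QuaternionGroup.a_mul_a, QuaternionGroup.one_def] at h1
      have h3 : i + i = 0 := QuaternionGroup.a.inj h1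
      rcases γ with j | j
      · rw [QuaternionGroup.a_mul_a, QuaternionGroup.a_mul_a, add_comm]
      · rw [QuaternionGroup.xa_mul_a, QuaternionGroup.a_mul_xa]
        congr 1
        rw [sub_eq_add_neg, ← eq_neg_of_add_eq_zero_left h3]
    · exfalso
      rw [QuaternionGroup.xa_mul_xa, QuaternionGroup.one_def] at h1
      have h3 : (n : ZMod (2 * n)) + i - i = 0 := QuaternionGroup.a.inj h1
      rw [add_sub_cancel_right] at h3
      rw [ZMod.natCast_eq_zero_iff] at h3
      have := Nat.le_of_dvd (Nat.pos_of_ne_zero hn0) h3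
      omega
  by_cases hd : ∃ n : ℕ, Nonempty (G ≃* DihedralGroup n)
  · left
    obtain ⟨n, hn⟩ := hd
    have hp2 : p = 2 := by
      apply hcard2
      obtain ⟨φ⟩ := hn
      rw [Nat.card_congr φ.toEquiv, DihedralGroup.nat_card]
      exact ⟨n, rfl⟩
    subst hp2
    obtain ⟨h1, m, h2, h3⟩ := dihedral q ρ hρ hirr hns (h2q' rfl) hG hnab hn
    exact ⟨h1, m, h2, Or.inl h3⟩
  by_cases hsd : Cfsg.IsQuasiDihedral G
  · left
    have hp2 : p = 2 := by
      apply hcard2
      obtain ⟨n, -, hc, -⟩ := hsd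
      rw [hc]
      exact dvd_pow_self 2 (by omega)
    obtain ⟨h1, m, h2, h3⟩ := semidihedral q ρ hρ hirr hns (h2q' hp2) hsd
    exact ⟨h1, m, h2, Or.inr ⟨hsd, h3⟩⟩
  right
  have hnd : ∀ n : ℕ, ¬ Nonempty (G ≃* DihedralGroup n) := fun n h => hd ⟨n, h⟩
  obtain ⟨z, n, hz, hzo, hnp, hnz, hc⟩ := Lib.H56Imprim.exists_data p hG hnc hnq hnd hsd
  obtain ⟨H, W, hHi, hsup, hind, hHW, hker, hout⟩ :=
    Lib.H56Imprim.main q p hG ρ hρ hirr hnc hz hzo hnp hnz hc
  have hp2 : p = 2 := prime_two q ρ hρ hs hns p H W hHi hsup hind hHW hout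
  subst hp2
  have hcompl : IsCompl (W 0) (W 1) := by
    constructor
    · exact hind.pairwiseDisjoint (by decide)
    · rw [codisjoint_iff, eq_top_iff, ← hsup]
      apply iSup_le
      intro i
      fin_cases i
      · exact le_sup_left
      · exact le_sup_right
  have hsw : ∀ g ∉ H, (W 0).map (ρ g : V →ₗ[ZMod q] V) = W 1 ∧ (W 1).map (ρ g : V →ₗ[ZMod q] V) = W 0 := by
    intro g hg
    obtain ⟨σ, hσ, hσW⟩ := hout g hg
    obtain ⟨-, hnf⟩ := perm_no_fixed Nat.prime_two hσ
    have h0 : σ 0 = 1 := by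
      have := hnf 0
      revert this
      generalize σ 0 = x
      revert x
      decide
    have h1 : σ 1 = 0 := by
      have := hnf 1
      revert this
      generalize σ 1 = x
      revert x
      decide
    exact ⟨by rw [hσW, h0], by rw [hσW, h1]⟩
  have hfin := two_case q ρ hρ hs hns (h2q' rfl) hirr H hHi (W 0) (W 1) hcompl
    (fun h hh w hw => hHW h hh 0 w hw) (fun h hh w hw => hHW h hh 1 w hw) (hker 0)
    (fun g hg w hw => by rw [← (hsw g hg).1]; exact Submodule.mem_map_of_mem hw)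
    (fun g hg w hw => by rw [← (hsw g hg).2]; exact Submodule.mem_map_of_mem hw) hG
  rcases hfin with h | ⟨h, h3⟩
  · exact Or.inl h
  · exact Or.inr ⟨h, h3, rfl⟩

end Cfsg.Agent.S3371
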