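import Cfsg.Statements.S3375
import Mathlib

set_option autoImplicit false
open Cfsg

namespace Cfsg.Agent.S3375

/-- Let γ be an automorphism of order 2 of a finite group H. (i) If γ fixes only the identity, then H is abelian and γ inverts every element. (ii) If γ has exactly two fixed points and H has a subgroup of index 2, then H has a γ-invariant abelian subgroup of index 2 on which γ acts by inversion. -/
theorem result {H : Type*} [Group H] [Finite H] (γ : MulAut H) (hγ : orderOf γ = 2) :
    ((∀ h : H, γ h = h → h = 1) → (∀ a b : H, a * b = b * a) ∧ ∀ h : H, γ h = h⁻¹) ∧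
    ((Nat.card {h : H // γ h = h} = 2 ∧ ∃ M : Subgroup H, M.index = 2) →
      ∃ A : Subgroup H, A.index = 2 ∧ IsMulCommutative A ∧ (∀ a ∈ A, γ a ∈ A) ∧ ∀ a ∈ A, γ a = a⁻¹) := by
  have hinv : ∀ h : H, γ (γ h) = h := by
    intro h
    have h1 : γ ^ 2 = 1 := by rw [← hγ, pow_orderOf_eq_one]
    have h2 := congrArg (fun f : MulAut H => f h) h1
    simpa [sq] using h2
  have hcomm_of_inv : ∀ A : Subgroup H, (∀ a ∈ A, γ a = a⁻¹) → ∀ a ∈ A, ∀ b ∈ A, a * b = b * a := by
    intro A hA a ha b hb
    have h1 := hA (a * b) (A.mul_mem ha hb)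
    rw [map_mul, hA a ha, hA b hb, mul_inv_rev] at h1
    have h2 := congrArg (fun t => t⁻¹) h1
    simpa using h2.symm
  refine ⟨?_, ?_⟩
  · intro hfix
    have hF : MonoidHom.FixedPointFree γ := hfix
    have hI : Function.Involutive γ := hinv
    exact ⟨fun a b => hF.commute_all_of_involutive hI a b,
      fun h => congrFun (hF.coe_eq_inv_of_involutive hI) h⟩
  · rintro ⟨hcard, M, hM⟩
    -- an invariant subgroup of index 2
    obtain ⟨A, hA2, hAinv⟩ : ∃ A : Subgroup H, A.index = 2 ∧ ∀ a : H, γ a ∈ A ↔ a ∈ A := by
      by_cases hMinv : ∀ a : H, γ a ∈ M ↔ a ∈ M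
      · exact ⟨M, hM, hMinv⟩
      · push Not at hMinv
        have mm : ∀ a b : H, a * b ∈ M ↔ (a ∈ M ↔ b ∈ M) := fun a b =>
          Subgroup.mul_mem_iff_of_index_two hM
        let A : Subgroup H :=
          { carrier := {h | h ∈ M ↔ γ h ∈ M}
            mul_mem' := by
              intro a b ha hb
              simp only [Set.mem_ofPred_eq] at ha hb ⊢
              rw [map_mul, mm, mm, ha, hb]
            one_mem' := by simp [M.one_mem]
            inv_mem' := by
              intro a ha
              simp only [Set.mem_ofPred_eq] at ha ⊢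
              rw [map_inv, M.inv_mem_iff, M.inv_mem_iff, ha] }
        have hmemA : ∀ h : H, h ∈ A ↔ (h ∈ M ↔ γ h ∈ M) := fun h => Iff.rfl
        refine ⟨A, ?_, ?_⟩
        · obtain ⟨a, ha⟩ := hMinv
          rw [Subgroup.index_eq_two_iff]
          refine ⟨a, fun b => ?_⟩
          rw [hmemA, hmemA, map_mul, mm, mm]
          unfold Xor
          tauto
        · intro a
          rw [hmemA, hmemA, hinv]
          tauto
    have mA : ∀ a b : H, a * b ∈ A ↔ (a ∈ A ↔ b ∈ A) := fun a b =>
          Subgroup.mul_mem_iff_of_index_two hA2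
    let C : Subgroup H :=
      { carrier := {h | γ h = h}
        mul_mem' := by
          intro a b ha hb
          simp only [Set.mem_ofPred_eq] at ha hb ⊢
          rw [map_mul, ha, hb]
        one_mem' := by simp
        inv_mem' := by
          intro a ha
          simp only [Set.mem_ofPred_eq] at ha ⊢
          rw [map_inv, ha] }
    have hC : Nat.card C = 2 := hcard
    have hCm : ∀ h : H, h ∈ C ↔ γ h = h := fun h => Iff.rfl
    have hidx : C.index = Nat.card A := by
      have h1 := C.card_mul_index
      have h2 := A.card_mul_index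
      rw [hC] at h1
      rw [hA2] at h2
      omega
    have hmemf : ∀ h : H, h * (γ h)⁻¹ ∈ A := by
      intro h
      rw [mA, A.inv_mem_iff, hAinv]
    let f : H ⧸ C → A := fun q => Quotient.liftOn' q (fun h => (⟨h * (γ h)⁻¹, hmemf h⟩ : A)) (by
      intro a b hab
      rw [QuotientGroup.leftRel_apply, hCm, map_mul, map_inv] at hab
      apply Subtype.ext
      show a * (γ a)⁻¹ = b * (γ b)⁻¹
      have : γ b = γ a * (a⁻¹ * b) := by rw [← hab]; group
      rw [this]; group)
    have hfinj : Function.Injective f := by
      intro q1 q2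
      induction q1 using QuotientGroup.induction_on with | _ a => ?_
      induction q2 using QuotientGroup.induction_on with | _ b => ?_
      intro hab
      have h1 : a * (γ a)⁻¹ = b * (γ b)⁻¹ := congrArg Subtype.val hab
      rw [QuotientGroup.eq, hCm, map_mul, map_inv]
      have h2 : γ b = (γ a) * a⁻¹ * b := by
        have := congrArg (fun t => t⁻¹ * b) h1
        simp only [mul_inv_rev, inv_inv] at this
        rw [this]; group
      rw [h2]; group
    have hfsurj : Function.Surjective f := by
      have hfin : Finite (H ⧸ C) := inferInstance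
      apply ((Nat.bijective_iff_injective_and_card f).2 ⟨hfinj, ?_⟩).2
      rw [← hidx]; rfl
    have hAi : ∀ a ∈ A, γ a = a⁻¹ := by
      intro a ha
      obtain ⟨q, hq⟩ := hfsurj ⟨a, ha⟩
      induction q using QuotientGroup.induction_on with | _ h => ?_
      have h1 : h * (γ h)⁻¹ = a := congrArg Subtype.val hq
      rw [← h1, map_mul, map_inv, hinv]; group
    refine ⟨A, hA2, ⟨⟨fun a b => Subtype.ext (hcomm_of_inv A hAi a a.2 b b.2)⟩⟩,
      fun a ha => (hAinv a).2 ha, hAi⟩

end Cfsg.Agent.S3375
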