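import Cfsg.Statements.S3380
import Cfsg.Agent.Lib.H56Imprim
-- import your own Cfsg.Agent.* helpers here

set_option autoImplicit false
open Cfsg

namespace Cfsg.Agent.S3380

/-- Let a finite p-group G act faithfully and irreducibly on a non-trivial finite vector space V over the field with q elements (q prime), and suppose G is not cyclic, generalized quaternion, dihedral or semidihedral. Then G has a subgroup H of index p and V is the direct sum of p subspaces, each invariant under H, on none of which H acts faithfully, and which every element of G outside H permutes in a single p-cycle. -/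
theorem result
    (q : ℕ) [Fact q.Prime] {V : Type*} [AddCommGroup V] [Module (ZMod q) V] [Finite V] [Nontrivial V]
    {G : Type*} [Group G] [Finite G] (p : ℕ) [Fact p.Prime] (hG : IsPGroup p G)
    (ρ : G →* (V ≃ₗ[ZMod q] V)) (hρ : Function.Injective ρ)
    (hirr : ∀ W : Submodule (ZMod q) V, (∀ g : G, ∀ w ∈ W, ρ g w ∈ W) → W = ⊥ ∨ W = ⊤)
    (hnc : ¬ IsCyclic G) (hnq : ∀ n : ℕ, ¬ Nonempty (G ≃* QuaternionGroup n))
    (hnd : ∀ n : ℕ, ¬ Nonempty (G ≃* DihedralGroup n)) (hnsd : ¬ Cfsg.IsQuasiDihedral G) :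
    ∃ (H : Subgroup G) (W : Fin p → Submodule (ZMod q) V), H.index = p ∧
      iSup W = ⊤ ∧ iSupIndep W ∧
      (∀ h ∈ H, ∀ i, ∀ w ∈ W i, ρ h w ∈ W i) ∧
      (∀ i, ∃ h ∈ H, h ≠ 1 ∧ ∀ w ∈ W i, ρ h w = w) ∧
      ∀ g : G, g ∉ H → ∃ σ : Equiv.Perm (Fin p), orderOf σ = p ∧ ∀ i, (W i).map (ρ g : V →ₗ[ZMod q] V) = W (σ i) := by
  obtain ⟨z, n, hz, hzo, hnp, hnz, hc⟩ := Lib.H56Imprim.exists_data p hG hnc hnq hnd hnsd
  exact Lib.H56Imprim.main q p hG ρ hρ hirr hnc hz hzo hnp hnz hc

end Cfsg.Agent.S3380
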