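import Cfsg.Statements.S3381
import Mathlib

set_option autoImplicit false
open Cfsg

namespace Cfsg.Agent.S3381

/-- Let G be a finite group acting faithfully and linearly on a non-trivial finite vector space V over the field with q elements (q prime) so that every non-zero vector has a stabilizer of order 2, and suppose G has a central involution. Then V has q^(2r) elements for some r and G contains exactly q^r + 1 non-central involutions. -/
theorem result
    (q : ℕ) [Fact q.Prime] {V : Type*} [AddCommGroup V] [Module (ZMod q) V] [Finite V] [Nontrivial V]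
    {G : Type*} [Group G] [Finite G] (ρ : G →* (V ≃ₗ[ZMod q] V)) (hρ : Function.Injective ρ)
    (hstab : ∀ v : V, v ≠ 0 → Nat.card {g : G // ρ g v = v} = 2)
    (z : G) (hz : orderOf z = 2) (hzc : z ∈ Subgroup.center G) :
    ∃ r : ℕ, Nat.card V = q ^ (2 * r) ∧
      Nat.card {g : G // orderOf g = 2 ∧ g ∉ Subgroup.center G} = q ^ r + 1 := by
  have mulact : ∀ (a b : G) (v : V), ρ (a * b) v = ρ a (ρ b v) := by
    intro a b v; rw [map_mul]; rfl
  have oneact : ∀ v : V, ρ 1 v = v := by intro v; rw [map_one]; rfl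
  have hcen : ∀ y : G, y ∈ Subgroup.center G → ∀ (g : G) (v : V), ρ g (ρ y v) = ρ y (ρ g v) := by
    intro y hy g v
    rw [← mulact, ← mulact, Subgroup.mem_center_iff.1 hy g]
  -- unique involution fixing a nonzero vector
  have hst : ∀ v : V, v ≠ 0 → ∃ g : G, g ≠ 1 ∧ orderOf g = 2 ∧ ρ g v = v ∧
      ∀ h : G, ρ h v = v → h = 1 ∨ h = g := by
    intro v hv
    have h2 := hstab v hv
    rw [Nat.card_eq_two_iff' (⟨1, oneact v⟩ : {g : G // ρ g v = v})] at h2
    obtain ⟨⟨g, hg⟩, hg1, hgu⟩ := h2
    have hg1' : g ≠ 1 := fun h => hg1 (Subtype.ext h)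
    have hu : ∀ h : G, ρ h v = v → h = 1 ∨ h = g := by
      intro h hh
      by_cases h1 : h = 1
      · exact Or.inl h1
      · right
        have := hgu ⟨h, hh⟩ (fun h' => h1 (congrArg Subtype.val h'))
        exact congrArg Subtype.val this
    refine ⟨g, hg1', ?_, hg, hu⟩
    have h3 : ρ (g * g) v = v := by rw [mulact, hg, hg]
    rcases hu _ h3 with h | h
    · rw [orderOf_eq_prime_iff]
      exact ⟨by rw [sq]; exact h, hg1'⟩
    · exact absurd (by simpa using h) hg1'
  have huniq : ∀ (v : V), v ≠ 0 → ∀ g h : G, g ≠ 1 → h ≠ 1 → ρ g v = v → ρ h v = v → g = h := by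
    intro v hv g h hg hh hgv hhv
    obtain ⟨k, _, _, _, hk⟩ := hst v hv
    rcases hk g hgv with h1 | h1
    · exact absurd h1 hg
    · rcases hk h hhv with h2 | h2
      · exact absurd h2 hh
      · rw [h1, h2]
  -- central involutions act as -1, and q is odd
  have key : ∀ y : G, orderOf y = 2 → y ∈ Subgroup.center G →
      (∀ v : V, ρ y v = v → v = 0) := by
    intro y hy hyc w hw
    by_contra hw0
    have hy1 : y ≠ 1 := by intro h; rw [h, orderOf_one] at hy; omega
    have hyy : ∀ v : V, ρ y (ρ y v) = v := by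
      intro v
      rw [← mulact]
      have : y * y = 1 := by rw [← sq, ← hy, pow_orderOf_eq_one]
      rw [this, oneact]
    have hall : ∀ v : V, ρ y v = v := by
      intro v
      by_contra hv
      have hv0 : v ≠ 0 := by rintro rfl; exact hv (map_zero _)
      obtain ⟨t, ht1, _, htv, _⟩ := hst v hv0
      set u := v - ρ y v with hu
      have hu0 : u ≠ 0 := by
        intro h
        exact hv (sub_eq_zero.1 h).symm
      have htu : ρ t u = u := by
        rw [hu, map_sub, hcen y hyc, htv]
      have hyu : ρ y u = -u := by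
        rw [hu, map_sub, hyy]; abel
      by_cases hq2 : q = 2
      · subst hq2
        have h2 : -u = u := by
          have h3 : (2 : ZMod 2) • u = 0 := by
            have : (2 : ZMod 2) = 0 := rfl
            rw [this, zero_smul]
          rw [two_smul] at h3
          exact (eq_neg_of_add_eq_zero_left h3).symm
        rw [h2] at hyu
        have h4 := huniq u hu0 y t hy1 ht1 hyu htu
        rw [← h4] at htv
        exact hv htv
      · have h2 : (2 : ZMod q) ≠ 0 := by
          intro h
          have h5 : ((2 : ℕ) : ZMod q) = 0 := by exact_mod_cast h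
          rw [ZMod.natCast_eq_zero_iff] at h5
          exact hq2 ((Nat.prime_dvd_prime_iff_eq Fact.out Nat.prime_two).1 h5)
        have half : ∀ a b : V, a + a = b + b → a = b := by
          intro a b hab
          have h6 : (2 : ZMod q) • a = (2 : ZMod q) • b := by rw [two_smul, two_smul, hab]
          exact smul_right_injective V h2 h6
        have huw : u + w ≠ 0 := by
          intro h
          have h7 : w = -u := (neg_eq_of_add_eq_zero_right h).symm
          rw [h7, map_neg, hyu, neg_neg] at hw
          have h8 : u = 0 := by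
            apply half
            have := congrArg (fun t => t + u) hw
            simpa using this
          exact hu0 h8
        obtain ⟨s, hs1, _, hsv, _⟩ := hst _ huw
        rw [map_add] at hsv
        have h9 : -(ρ s u) + ρ s w = -u + w := by
          have := congrArg (ρ y) hsv
          rw [map_add, map_add, ← hcen y hyc, ← hcen y hyc, hyu, hw, map_neg] at this
          exact this
        have hsw : ρ s w = w := by
          apply half
          calc ρ s w + ρ s w = (ρ s u + ρ s w) + (-(ρ s u) + ρ s w) := by abel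
            _ = (u + w) + (-u + w) := by rw [hsv, h9]
            _ = w + w := by abel
        have hsu : ρ s u = u := by
          have := hsv
          rw [hsw] at this
          exact add_right_cancel this
        have h10 := huniq w hw0 s y hs1 hy1 hsw hw
        have h11 := huniq u hu0 s t hs1 ht1 hsu htu
        rw [← h11, h10] at htv
        exact hv htv
    exact hy1 (hρ (by ext v; rw [hall v, map_one]; rfl))
  have keyneg : ∀ y : G, orderOf y = 2 → y ∈ Subgroup.center G → ∀ v : V, ρ y v = -v := by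
    intro y hy hyc v
    have hyy : ρ y (ρ y v) = v := by
      rw [← mulact]
      have : y * y = 1 := by rw [← sq, ← hy, pow_orderOf_eq_one]
      rw [this, oneact]
    have h1 : ρ y (v + ρ y v) = v + ρ y v := by rw [map_add, hyy]; abel
    have h2 := key y hy hyc _ h1
    exact (neg_eq_of_add_eq_zero_right h2).symm
  have hzneg := keyneg z hz hzc
  have hz1 : z ≠ 1 := by intro h; rw [h, orderOf_one] at hz; omega
  -- q is odd
  have hq2 : (2 : ZMod q) ≠ 0 := by
    intro h
    obtain ⟨v, hv⟩ := exists_ne (0 : V)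
    apply hv
    apply key z hz hzc
    rw [hzneg]
    have h3 : (2 : ZMod q) • v = 0 := by rw [h, zero_smul]
    rw [two_smul] at h3
    exact (eq_neg_of_add_eq_zero_left h3).symm
  have half : ∀ a b : V, a + a = b + b → a = b := by
    intro a b hab
    have h6 : (2 : ZMod q) • a = (2 : ZMod q) • b := by rw [two_smul, two_smul, hab]
    exact smul_right_injective V hq2 h6
  -- non central involutions
  let P : G → Prop := fun g => orderOf g = 2 ∧ g ∉ Subgroup.center G
  have hP : ∀ g : G, P g ↔ (orderOf g = 2 ∧ g ≠ z) := by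
    intro g
    constructor
    · rintro ⟨h1, h2⟩
      exact ⟨h1, fun h => h2 (h ▸ hzc)⟩
    · rintro ⟨h1, h2⟩
      refine ⟨h1, fun h3 => h2 ?_⟩
      apply hρ
      ext v
      rw [keyneg g h1 h3, hzneg]
  have hPone : ∀ g : G, P g → g ≠ 1 := by
    intro g hg h
    rw [h] at hg
    have := hg.1
    rw [orderOf_one] at this
    omega
  have hPsq : ∀ g : G, P g → g * g = 1 := by
    intro g hg
    rw [← sq, ← hg.1, pow_orderOf_eq_one]
  have hPz : ∀ g : G, P g → P (g * z) := by
    intro g hg
    rw [hP] at hg ⊢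
    refine ⟨?_, ?_⟩
    · rw [orderOf_eq_prime_iff]
      have hzz : z * z = 1 := by rw [← sq, ← hz, pow_orderOf_eq_one]
      have hgg : g * g = 1 := by rw [← sq, ← hg.1, pow_orderOf_eq_one]
      refine ⟨?_, ?_⟩
      · rw [sq]
        have h1 : z * g = g * z := (Subgroup.mem_center_iff.1 hzc g).symm
        calc g * z * (g * z) = g * (z * g) * z := by group
          _ = g * (g * z) * z := by rw [h1]
          _ = (g * g) * (z * z) := by group
          _ = 1 := by rw [hgg, hzz, one_mul]
      · intro h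
        apply hg.2
        have h2 := congrArg (fun t => t * z) h
        simp only [mul_assoc, hzz, mul_one, one_mul] at h2
        exact h2
    · intro h
      have h2 : g = 1 := by simpa using h
      rw [h2, orderOf_one] at hg
      omega
  have hPfix : ∀ v : V, v ≠ 0 → ∃ g : G, P g ∧ ρ g v = v := by
    intro v hv
    obtain ⟨g, hg1, hg2, hgv, _⟩ := hst v hv
    refine ⟨g, (hP g).2 ⟨hg2, ?_⟩, hgv⟩
    intro h
    rw [h] at hgv
    exact hv (key z hz hzc v hgv)
  -- fixed subspaces
  let F : G → Submodule (ZMod q) V := fun g =>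
    LinearMap.ker ((ρ g : V →ₗ[ZMod q] V) - LinearMap.id)
  have hF : ∀ (g : G) (v : V), v ∈ F g ↔ ρ g v = v := by
    intro g v
    simp only [F, LinearMap.mem_ker, LinearMap.sub_apply, LinearMap.id_apply, LinearEquiv.coe_coe]
    rw [sub_eq_zero]
  have hcardF : ∀ g : G, Nat.card (F g) = Nat.card {v : V // ρ g v = v} := by
    intro g
    exact Nat.card_congr (Equiv.subtypeEquivRight (hF g))
  -- nontrivial fixed space
  have hPne : ∀ g : G, P g → ∃ v : V, v ≠ 0 ∧ ρ g v = v := by
    intro g hg
    by_contra hcon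
    push Not at hcon
    apply ((hP g).1 hg).2
    apply hρ
    ext v
    rw [hzneg]
    have hgg : ρ g (ρ g v) = v := by rw [← mulact, hPsq g hg, oneact]
    have h1 : ρ g (v + ρ g v) = v + ρ g v := by rw [map_add, hgg]; abel
    by_contra h2
    exact hcon (v + ρ g v) (fun h3 => h2 (neg_eq_of_add_eq_zero_right h3).symm) h1
  have hprod : ∀ g : G, P g → Nat.card (F g) * Nat.card (F (g * z)) = Nat.card V := by
    intro g hg
    rw [← Nat.card_prod]
    apply Nat.card_congr
    have hgg : ∀ v, ρ g (ρ g v) = v := by intro v; rw [← mulact, hPsq g hg, oneact]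
    refine Equiv.ofBijective (fun x => (x.1 : V) + (x.2 : V)) ⟨?_, ?_⟩
    · rintro ⟨⟨a, ha⟩, ⟨b, hb⟩⟩ ⟨⟨a', ha'⟩, ⟨b', hb'⟩⟩ hab
      simp only at hab
      rw [hF] at ha ha' hb hb'
      rw [mulact, hzneg, map_neg, neg_eq_iff_eq_neg] at hb hb'
      have h1 := congrArg (ρ g) hab
      rw [map_add, map_add, ha, ha', hb, hb'] at h1
      have h2 : a = a' := by
        apply half
        calc a + a = (a + b) + (a + -b) := by abel
          _ = (a' + b') + (a' + -b') := by rw [hab, h1]
          _ = a' + a' := by abel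
      subst h2
      have h3 : b = b' := add_left_cancel hab
      subst h3
      rfl
    · intro v
      obtain ⟨c, hc⟩ : ∃ c : ZMod q, c * 2 = 1 := ⟨2⁻¹, inv_mul_cancel₀ hq2⟩
      refine ⟨(⟨c • (v + ρ g v), ?_⟩, ⟨c • (v - ρ g v), ?_⟩), ?_⟩
      · rw [hF, map_smul, map_add, hgg, add_comm]
      · rw [hF, mulact, hzneg, map_neg, map_smul, map_sub, hgg, ← smul_neg, neg_sub]
      · show c • (v + ρ g v) + c • (v - ρ g v) = v
        rw [← smul_add]
        have : v + ρ g v + (v - ρ g v) = (2 : ZMod q) • v := by rw [two_smul]; abel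
        rw [this, smul_smul, hc, one_smul]
  have hle : ∀ g h : G, P g → P h → g ≠ h → Nat.card (F g) * Nat.card (F h) ≤ Nat.card V := by
    intro g h hg hh hgh
    rw [← Nat.card_prod]
    apply Nat.card_le_card_of_injective (fun x : F g × F h => (x.1 : V) + (x.2 : V))
    rintro ⟨⟨a, ha⟩, ⟨b, hb⟩⟩ ⟨⟨a', ha'⟩, ⟨b', hb'⟩⟩ hab
    simp only at hab
    have h1 : a - a' = b' - b := by
      rw [sub_eq_sub_iff_add_eq_add, hab, add_comm]
    have h2 : a - a' ∈ F g := (F g).sub_mem ha ha'
    have h3 : a - a' ∈ F h := by rw [h1]; exact (F h).sub_mem hb' hb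
    have h4 : a - a' = 0 := by
      by_contra h5
      exact hgh (huniq _ h5 g h (hPone g hg) (hPone h hh) ((hF _ _).1 h2) ((hF _ _).1 h3))
    have h5 : a = a' := sub_eq_zero.1 h4
    have h6 : b = b' := by rw [h4] at h1; exact (sub_eq_zero.1 h1.symm).symm
    subst h5; subst h6; rfl
  have hpos : ∀ g : G, 0 < Nat.card (F g) := fun g => Nat.card_pos
  have hsq : ∀ g : G, P g → Nat.card (F g) * Nat.card (F g) = Nat.card V := by
    intro g hg
    obtain ⟨a, ha0, ha⟩ := hPne g hg
    obtain ⟨b, hb0, hb⟩ := hPne _ (hPz g hg)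
    have hgb : ρ g b = -b := by
      rw [mulact, hzneg, map_neg, neg_eq_iff_eq_neg] at hb
      exact hb
    have hab : a + b ≠ 0 := by
      intro h
      have h1 : a = -b := eq_neg_of_add_eq_zero_left h
      rw [h1, map_neg, hgb, neg_neg] at ha
      exact hb0 (half b 0 (by rw [add_zero]; nth_rewrite 1 [ha]; simp))
    obtain ⟨g', hg', hg'ab⟩ := hPfix _ hab
    have hne1 : g' ≠ g := by
      rintro rfl
      rw [map_add, ha, hgb] at hg'ab
      have h1 := add_left_cancel hg'ab
      exact hb0 (half b 0 (by rw [add_zero]; nth_rewrite 1 [← h1]; simp))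
    have hne2 : g' ≠ g * z := by
      rintro rfl
      rw [map_add, hb, mulact, hzneg, map_neg, ha] at hg'ab
      have h1 := add_right_cancel hg'ab
      exact ha0 (half a 0 (by rw [add_zero]; nth_rewrite 1 [← h1]; simp))
    have hzz : z * z = 1 := by rw [← sq, ← hz, pow_orderOf_eq_one]
    have hne3 : g' * z ≠ g := by
      rintro rfl
      apply hne2
      rw [mul_assoc, hzz, mul_one]
    have e1 := hprod g hg
    have e2 := hprod g' hg'
    have i1 := hle g' g hg' hg hne1
    have i2 := hle g' (g * z) hg' (hPz g hg) hne2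
    have i3 := hle (g' * z) g (hPz g' hg') hg hne3
    have i4 := hle (g' * z) (g * z) (hPz g' hg') (hPz g hg) (fun h => hne1 (mul_right_cancel h))
    have p1 := hpos g
    have p2 := hpos (g * z)
    have p3 := hpos g'
    have p4 := hpos (g' * z)
    generalize Nat.card (F g) = A at *
    generalize Nat.card (F (g * z)) = B at *
    generalize Nat.card (F g') = C at *
    generalize Nat.card (F (g' * z)) = D at *
    rw [← e1] at i1 i2 i3 i4 e2 ⊢
    have j1 : C ≤ B := Nat.le_of_mul_le_mul_right (by linarith [mul_comm A B]) p1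
    have j2 : C ≤ A := Nat.le_of_mul_le_mul_right i2 p2
    have j3 : D ≤ B := Nat.le_of_mul_le_mul_right (by linarith [mul_comm A B]) p1
    have j4 : D ≤ A := Nat.le_of_mul_le_mul_right i4 p2
    -- C * D = A * B with C, D ≤ A, B
    have k1 : A ≤ B := by
      by_contra hcon
      push Not at hcon
      have : C * D ≤ B * B := Nat.mul_le_mul j1 j3
      have : B * B < A * B := Nat.mul_lt_mul_of_pos_right hcon p2
      omega
    have k2 : B ≤ A := by
      by_contra hcon
      push Not at hcon
      have : C * D ≤ A * A := Nat.mul_le_mul j2 j4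
      have : A * A < A * B := Nat.mul_lt_mul_of_pos_left hcon p1
      omega
    rw [le_antisymm k1 k2]
  -- conclude
  obtain ⟨v₀, hv₀⟩ := exists_ne (0 : V)
  obtain ⟨g₀, hg₀, hg₀v⟩ := hPfix v₀ hv₀
  have hFp : ∃ r : ℕ, Nat.card (F g₀) = q ^ r := by
    refine ⟨Module.finrank (ZMod q) (F g₀), ?_⟩
    rw [Module.natCard_eq_pow_finrank (K := ZMod q), Nat.card_zmod]
  obtain ⟨r, hr⟩ := hFp
  have hV : Nat.card V = q ^ (2 * r) := by
    rw [← hsq g₀ hg₀, hr, two_mul, pow_add]
  refine ⟨r, hV, ?_⟩
  have hFr : ∀ g : G, P g → Nat.card (F g) = q ^ r := by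
    intro g hg
    have h1 := hsq g hg
    rw [← hsq g₀ hg₀, hr] at h1
    exact Nat.mul_self_inj.1 h1
  have hq1 : 1 < q ^ r := by
    rw [← hr]
    have : Nontrivial (F g₀) := ⟨⟨⟨v₀, (hF _ _).2 hg₀v⟩, 0, fun h => hv₀ (congrArg Subtype.val h)⟩⟩
    exact Finite.one_lt_card
  -- counting
  have hcount : Nat.card {v : V // v ≠ 0} =
      Nat.card (Σ g : {g : G // P g}, {v : V // v ≠ 0 ∧ ρ g.1 v = v}) := by
    symm
    apply Nat.card_congr
    refine Equiv.ofBijective (fun x => ⟨x.2.1, x.2.2.1⟩) ⟨?_, ?_⟩
    · rintro ⟨⟨g, hg⟩, ⟨v, hv0, hv⟩⟩ ⟨⟨g', hg'⟩, ⟨v', hv0', hv'⟩⟩ h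
      simp only [Subtype.mk.injEq] at h
      subst h
      have := huniq v hv0 g g' (hPone g hg) (hPone g' hg') hv hv'
      subst this
      rfl
    · rintro ⟨v, hv⟩
      obtain ⟨g, hg, hgv⟩ := hPfix v hv
      exact ⟨⟨⟨g, hg⟩, ⟨v, hv, hgv⟩⟩, rfl⟩
  have hneV : ∀ (W : Type _) [AddCommGroup W] [Finite W], Nat.card {v : W // v ≠ 0} = Nat.card W - 1 := by
    intro W _ _
    classical
    have := Fintype.ofFinite W
    rw [Nat.card_eq_fintype_card, Nat.card_eq_fintype_card, Fintype.card_subtype_compl]
    simp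
  have hfib : ∀ g : {g : G // P g}, Nat.card {v : V // v ≠ 0 ∧ ρ g.1 v = v} = q ^ r - 1 := by
    intro g
    rw [← hFr g.1 g.2, ← hneV (F g.1)]
    apply Nat.card_congr
    refine ⟨fun x => ⟨⟨x.1, (hF _ _).2 x.2.2⟩, fun h => x.2.1 (congrArg Subtype.val h)⟩,
      fun x => ⟨x.1.1, fun h => x.2 (Subtype.ext h), (hF _ _).1 x.1.2⟩, fun x => rfl, fun x => rfl⟩
  have hfin : Fintype {g : G // P g} := Fintype.ofFinite _
  rw [Nat.card_sigma, Finset.sum_congr rfl (fun g _ => hfib g), Finset.sum_const, Finset.card_univ,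
    ← Nat.card_eq_fintype_card, hneV V, hV, smul_eq_mul] at hcount
  have hfac : q ^ (2 * r) - 1 = (q ^ r + 1) * (q ^ r - 1) := by
    rw [two_mul, pow_add]
    have : q ^ r * q ^ r = q ^ r ^ 1 * q ^ r := by simp
    rw [Nat.add_mul, Nat.mul_sub, one_mul]
    have h1 : q ^ r * 1 ≤ q ^ r * q ^ r := Nat.mul_le_mul_left _ hq1.le
    omega
  rw [hfac] at hcount
  exact (Nat.eq_of_mul_eq_mul_right (by omega) hcount).symm

end Cfsg.Agent.S3381
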