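import Cfsg.Statements.S3382
import Mathlib

set_option autoImplicit false
open Cfsg

namespace Cfsg.Agent.S3382

/-- diagonal maps -/
def diagE {q : ℕ} (a b : (ZMod q)ˣ) : (Fin 2 → ZMod q) ≃ₗ[ZMod q] (Fin 2 → ZMod q) :=
  { toFun := fun v => ![a * v 0, b * v 1]
    map_add' := by intro v w; ext i; fin_cases i <;> simp <;> ring
    map_smul' := by intro c v; ext i; fin_cases i <;> simp <;> ring
    invFun := fun v => ![(a⁻¹ : (ZMod q)ˣ) * v 0, (b⁻¹ : (ZMod q)ˣ) * v 1]
    left_inv := by intro v; ext i; fin_cases i <;> simp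
    right_inv := by intro v; ext i; fin_cases i <;> simp }

def swE (q : ℕ) : (Fin 2 → ZMod q) ≃ₗ[ZMod q] (Fin 2 → ZMod q) :=
  { toFun := fun v => ![v 1, v 0]
    map_add' := by intro v w; ext i; fin_cases i <;> simp
    map_smul' := by intro c v; ext i; fin_cases i <;> simp
    invFun := fun v => ![v 1, v 0]
    left_inv := by intro v; ext i; fin_cases i <;> simp
    right_inv := by intro v; ext i; fin_cases i <;> simp }

theorem diagE_mul {q : ℕ} (a b c d : (ZMod q)ˣ) : diagE a b * diagE c d = diagE (a * c) (b * d) := by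
  apply LinearEquiv.ext
  intro v
  show ![a * (c * v 0), b * (d * v 1)] = ![((a * c : (ZMod q)ˣ) : ZMod q) * v 0, ((b * d : (ZMod q)ˣ) : ZMod q) * v 1]
  rw [Units.val_mul, Units.val_mul, mul_assoc, mul_assoc]

theorem diagE_one {q : ℕ} : (diagE 1 1 : (Fin 2 → ZMod q) ≃ₗ[ZMod q] (Fin 2 → ZMod q)) = 1 := by
  apply LinearEquiv.ext
  intro v
  ext i; fin_cases i <;> simp [diagE]

theorem diagE_pow {q : ℕ} (a b : (ZMod q)ˣ) (n : ℕ) : diagE a b ^ n = diagE (a ^ n) (b ^ n) := by
  induction n with
  | zero => rw [pow_zero, pow_zero, pow_zero, diagE_one]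
  | succ n ih => rw [pow_succ, ih, diagE_mul, ← pow_succ, ← pow_succ]

theorem swE_mul_diagE {q : ℕ} (a b : (ZMod q)ˣ) : swE q * diagE a b = diagE b a * swE q := by
  apply LinearEquiv.ext
  intro v
  rfl

theorem swE_sq {q : ℕ} : swE q * swE q = 1 := by
  apply LinearEquiv.ext
  intro v
  ext i; fin_cases i <;> rfl

theorem diagE_inj {q : ℕ} {a b c d : (ZMod q)ˣ} (h : diagE a b = diagE c d) : a = c ∧ b = d := by
  have h1 := congrArg (fun f : (Fin 2 → ZMod q) ≃ₗ[ZMod q] (Fin 2 → ZMod q) => f ![1, 1]) h
  have h2 := congrFun h1 0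
  have h3 := congrFun h1 1
  simp [diagE] at h2 h3
  exact ⟨Units.ext h2, Units.ext h3⟩

theorem diagE_ne {q : ℕ} (hq : 1 < q) (a b c d : (ZMod q)ˣ) : diagE a b ≠ diagE c d * swE q := by
  intro h
  have := Fact.mk hq
  have h1 := congrArg (fun f : (Fin 2 → ZMod q) ≃ₗ[ZMod q] (Fin 2 → ZMod q) => f ![1, 0]) h
  have h2 := congrFun h1 0
  have h3 : (a : ZMod q) * 1 = c * 0 := h2
  rw [mul_one, mul_zero] at h3
  exact a.ne_zero h3

/-- chain lemma -/
theorem chain {T : Type*} [Group T] (α : MulAut T) (r : ℕ) (hr : Odd r) (hα : α ^ r = 1) (x c : T)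
    (hx : α x = x * c) (hc : α c = c) (N : ℕ) (hN : c ^ (2 ^ N) = 1) : c = 1 := by
  have h1 : ∀ n : ℕ, (α ^ n) x = x * c ^ n := by
    intro n
    induction n with
    | zero => simp
    | succ n ih =>
      rw [pow_succ', MulAut.mul_apply, ih, map_mul, map_pow, hc, hx, pow_succ', mul_assoc]
  have h2 := h1 r
  rw [hα, MulAut.one_apply] at h2
  have h3 : c ^ r = 1 := by
    have : x * 1 = x * c ^ r := by rw [mul_one]; exact h2
    exact (mul_left_cancel this).symm
  have h4 : Nat.Coprime r (2 ^ N) := by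
    apply Nat.Coprime.pow_right
    exact hr.coprime_two_right
  have h5 := Nat.dvd_gcd (orderOf_dvd_of_pow_eq_one h3) (orderOf_dvd_of_pow_eq_one hN)
  rw [Nat.Coprime] at h4
  rw [h4] at h5
  exact orderOf_eq_one_iff.1 (Nat.dvd_one.1 h5)

/-- Let q = 2^m + 1 be a prime other than 5. Then the automorphism group of the group of linear maps of F_q² of the forms (x, y) ↦ (a x, ± a⁻¹ y) and (x, y) ↦ (± a⁻¹ y, a x) with a ≠ 0 is itself a 2-group. -/
theorem result (q m : ℕ) [Fact q.Prime] (hq : q = 2 ^ m + 1) (hq5 : q ≠ 5)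
    (T : Subgroup ((Fin 2 → ZMod q) ≃ₗ[ZMod q] (Fin 2 → ZMod q)))
    (hT : ∀ f, f ∈ T ↔ ∃ a s : ZMod q, a ≠ 0 ∧ (s = 1 ∨ s = -1) ∧
      ((∀ v, f v = ![a * v 0, s * a⁻¹ * v 1]) ∨ (∀ v, f v = ![s * a⁻¹ * v 1, a * v 0]))) :
    IsPGroup 2 (MulAut T) := by
  have hqp : q.Prime := Fact.out
  -- restate membership
  have hTm : ∀ f, f ∈ T ↔ ∃ a b : (ZMod q)ˣ, (a * b = 1 ∨ a * b = -1) ∧ (f = diagE a b ∨ f = diagE a b * swE q) := by
    intro f
    rw [hT]
    constructor
    · rintro ⟨a, s, ha, hs, hf⟩
      have hsu : IsUnit s := by rcases hs with rfl | rfl <;> simp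
      obtain ⟨s', hs'⟩ := hsu
      have hs1 : s' = 1 ∨ s' = -1 := by
        rcases hs with h | h
        · left; apply Units.ext; rw [hs', h]; rfl
        · right; apply Units.ext; rw [hs', h]; rfl
      set a' : (ZMod q)ˣ := Units.mk0 a ha with ha'
      have hb : (((s' * a'⁻¹ : (ZMod q)ˣ)) : ZMod q) = s * a⁻¹ := by
        rw [Units.val_mul, hs', ha']; simp
      rcases hf with hf | hf
      · refine ⟨a', s' * a'⁻¹, ?_, Or.inl ?_⟩
        · have : a' * (s' * a'⁻¹) = s' := by rw [mul_comm s', mul_inv_cancel_left]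
          rw [this]; exact hs1
        · apply LinearEquiv.ext; intro v
          rw [hf v]
          show _ = ![(a' : ZMod q) * v 0, ((s' * a'⁻¹ : (ZMod q)ˣ) : ZMod q) * v 1]
          rw [hb]; rfl
      · refine ⟨s' * a'⁻¹, a', ?_, Or.inr ?_⟩
        · have : (s' * a'⁻¹) * a' = s' := by rw [inv_mul_cancel_right]
          rw [this]; exact hs1
        · apply LinearEquiv.ext; intro v
          rw [hf v]
          show _ = ![((s' * a'⁻¹ : (ZMod q)ˣ) : ZMod q) * v 1, (a' : ZMod q) * v 0]
          rw [hb]; rfl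
    · rintro ⟨a, b, hab, hf⟩
      rcases hf with rfl | rfl
      · refine ⟨a, a * b, a.ne_zero, ?_, Or.inl ?_⟩
        · rcases hab with h | h
          · left; have := congrArg Units.val h; simpa using this
          · right; have := congrArg Units.val h; simpa using this
        · intro v
          show ![(a : ZMod q) * v 0, (b : ZMod q) * v 1] = _
          have : (a : ZMod q) * b * (a : ZMod q)⁻¹ = b := by
            field_simp
          rw [this]
      · refine ⟨b, a * b, b.ne_zero, ?_, Or.inr ?_⟩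
        · rcases hab with h | h
          · left; have := congrArg Units.val h; simpa using this
          · right; have := congrArg Units.val h; simpa using this
        · intro v
          show ![(a : ZMod q) * v 1, (b : ZMod q) * v 0] = _
          have : (a : ZMod q) * b * (b : ZMod q)⁻¹ = a := by
            field_simp
          rw [this]
  have hfinE : Finite ((Fin 2 → ZMod q) ≃ₗ[ZMod q] (Fin 2 → ZMod q)) := by
    apply Finite.of_injective (fun f : (Fin 2 → ZMod q) ≃ₗ[ZMod q] (Fin 2 → ZMod q) => (f : (Fin 2 → ZMod q) → (Fin 2 → ZMod q)))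
    intro f g h
    exact LinearEquiv.ext (fun v => congrFun h v)
  have hfinA : Finite (MulAut T) := by
    apply Finite.of_injective (fun f : MulAut T => (f : T → T))
    intro f g h
    exact MulEquiv.ext (fun v => congrFun h v)
  -- reduce to odd order automorphisms
  suffices hmain : ∀ (α : MulAut T) (r : ℕ), Odd r → α ^ r = 1 → α = 1 by
    intro α
    obtain ⟨k, r, hr, hkr⟩ := Nat.exists_eq_two_pow_mul_odd (orderOf_pos α).ne'
    refine ⟨k, hmain _ r hr ?_⟩
    rw [← pow_mul, ← hkr, pow_orderOf_eq_one]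
  intro α r hr hα
  -- elements
  let dT : ∀ a b : (ZMod q)ˣ, (a * b = 1 ∨ a * b = -1) → T := fun a b h =>
    ⟨diagE a b, (hTm _).2 ⟨a, b, h, Or.inl rfl⟩⟩
  let sT : T := ⟨swE q, (hTm _).2 ⟨1, 1, Or.inl (one_mul 1), Or.inr (by rw [diagE_one, one_mul])⟩⟩
  have hsT : sT * sT = 1 := Subtype.ext swE_sq
  have hcov : ∀ t : T, ∃ (a b : (ZMod q)ˣ) (h : a * b = 1 ∨ a * b = -1), t = dT a b h ∨ t = dT a b h * sT := by
    rintro ⟨t, ht⟩
    obtain ⟨a, b, h, h2⟩ := (hTm t).1 ht
    refine ⟨a, b, h, ?_⟩
    rcases h2 with h2 | h2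
    · left; exact Subtype.ext h2
    · right; exact Subtype.ext h2
  have hcardU : Nat.card (ZMod q)ˣ = 2 ^ m := by
    rw [Nat.card_eq_fintype_card, ZMod.card_units_eq_totient, Nat.totient_prime hqp, hq]; simp
  have hupow : ∀ u : (ZMod q)ˣ, u ^ (2 ^ m) = 1 := by
    intro u; rw [← hcardU]; exact pow_card_eq_one'
  have hDpow : ∀ a b h, (dT a b h) ^ (2 ^ m) = 1 := by
    intro a b h
    apply Subtype.ext
    show diagE a b ^ (2 ^ m) = 1
    rw [diagE_pow, hupow, hupow, diagE_one]
  have hq1 : 1 < q := hqp.one_lt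
  by_cases hm0 : m = 0
  · -- q = 2
    subst hm0
    have hsub : Subsingleton (ZMod q)ˣ := by
      rw [← Finite.card_le_one_iff_subsingleton, hcardU]; simp
    have hcov2 : ∀ t : T, t = 1 ∨ t = sT := by
      intro t
      obtain ⟨a, b, h, h2⟩ := hcov t
      have h1 : dT a b h = 1 := by
        apply Subtype.ext
        show diagE a b = 1
        rw [Subsingleton.elim a 1, Subsingleton.elim b 1, diagE_one]
      rw [h1, one_mul] at h2
      exact h2
    ext t : 1
    rcases hcov2 t with rfl | rfl
    · simp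
    · rcases hcov2 (α sT) with h | h
      · rw [MulAut.one_apply]
        have : sT = 1 := by
          apply α.injective; rw [h, map_one]
        rw [this, map_one]
      · rw [h]; rfl
  -- q odd
  have hm1 : 1 ≤ m := by omega
  have hne11 : (1 : (ZMod q)ˣ) ≠ -1 := by
    intro h
    have h1 := congrArg Units.val h
    simp only [Units.val_one, Units.val_neg] at h1
    have h2 : (2 : ZMod q) = 0 := by
      have : (2 : ZMod q) = 1 + 1 := by norm_num
      rw [this]; nth_rewrite 1 [h1]; ring
    have h3 : ((2 : ℕ) : ZMod q) = 0 := by exact_mod_cast h2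
    rw [ZMod.natCast_eq_zero_iff] at h3
    have h4 := (Nat.prime_dvd_prime_iff_eq hqp Nat.prime_two).1 h3
    have : 2 ^ 1 ≤ 2 ^ m := Nat.pow_le_pow_right (by norm_num) hm1
    omega
  have hsq1 : ∀ a : (ZMod q)ˣ, a ^ 2 = 1 → a = 1 ∨ a = -1 := by
    intro a ha
    have h1 : (a : ZMod q) ^ 2 = 1 := by
      have := congrArg Units.val ha
      simpa using this
    rw [sq] at h1
    rcases mul_self_eq_one_iff.1 h1 with h | h
    · left; exact Units.ext (by simpa using h)
    · right; exact Units.ext (by simpa using h)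
  have e_ab : (1 : (ZMod q)ˣ) * (-1) = 1 ∨ (1 : (ZMod q)ˣ) * (-1) = -1 := Or.inr (one_mul _)
  have z_ab : (-1 : (ZMod q)ˣ) * (-1) = 1 ∨ (-1 : (ZMod q)ˣ) * (-1) = -1 := Or.inl (by simp)
  set e : T := dT 1 (-1) e_ab with hedef
  set z : T := dT (-1) (-1) z_ab with hzdef
  have he2 : e ^ 2 = 1 := by
    apply Subtype.ext
    show diagE 1 (-1) ^ 2 = 1
    rw [diagE_pow]; simp [diagE_one]
  have hz2 : z ^ 2 = 1 := by
    apply Subtype.ext
    show diagE (-1) (-1) ^ 2 = 1
    rw [diagE_pow]; simp [diagE_one]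
  have hz1 : z ≠ 1 := by
    intro h
    have h1 : diagE (-1) (-1) = diagE (1 : (ZMod q)ˣ) 1 := by
      rw [diagE_one]; exact congrArg Subtype.val h
    exact hne11 (diagE_inj h1).1.symm
  -- squares of anti-diagonal elements
  have hantisq : ∀ a b h, (dT a b h * sT) ^ 2 = 1 ∨ (dT a b h * sT) ^ 2 = z := by
    intro a b h
    have h1 : ((dT a b h * sT) ^ 2 : T) = ⟨diagE (a * b) (b * a), (hTm _).2 ⟨a * b, b * a, by
        rw [mul_comm b a]; rcases h with h | h <;> rw [h] <;> simp, Or.inl rfl⟩⟩ := by
      apply Subtype.ext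
      show (diagE a b * swE q) ^ 2 = diagE (a * b) (b * a)
      rw [sq]
      have : diagE a b * swE q * (diagE a b * swE q) = diagE a b * (swE q * diagE a b) * swE q := by group
      rw [this, swE_mul_diagE, ← mul_assoc, mul_assoc, swE_sq, mul_one, diagE_mul]
    rcases h with h | h
    · left; rw [h1]; apply Subtype.ext
      show diagE (a * b) (b * a) = 1
      rw [mul_comm b a, h, diagE_one]
    · right; rw [h1]; apply Subtype.ext
      show diagE (a * b) (b * a) = diagE (-1) (-1)
      rw [mul_comm b a, h]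
  have hTpow : ∀ t : T, ∃ N, t ^ (2 ^ N) = 1 := by
    intro t
    obtain ⟨a, b, h, h2⟩ := hcov t
    rcases h2 with rfl | rfl
    · exact ⟨m, hDpow a b h⟩
    · refine ⟨2, ?_⟩
      rw [show 2 ^ 2 = 2 * 2 by norm_num, pow_mul]
      rcases hantisq a b h with h3 | h3 <;> rw [h3]
      · simp
      · exact hz2
  have hchain : ∀ x c : T, α x = x * c → α c = c → c = 1 := by
    intro x c hx hc
    obtain ⟨N, hN⟩ := hTpow c
    exact chain α r hr hα x c hx hc N hN
  by_cases hm2 : m = 1
  · -- q = 3
    subst hm2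
    have hD2 : ∀ a b h, (dT a b h) ^ 2 = 1 := by
      intro a b h
      have := hDpow a b h
      simpa using this
    have hu : ∀ u : (ZMod q)ˣ, u = 1 ∨ u = -1 := fun u => hsq1 u (by have := hupow u; simpa using this)
    -- the element j of order 4
    set j : T := e * sT with hj
    have hj2 : j ^ 2 = z := by
      rcases hantisq 1 (-1) e_ab with h | h
      · exfalso
        have h1 : (diagE 1 (-1) * swE q) ^ 2 = 1 := congrArg Subtype.val h
        rw [sq] at h1
        have : diagE 1 (-1) * swE q * (diagE 1 (-1) * swE q) = diagE (1 : (ZMod q)ˣ) (-1) * (swE q * diagE 1 (-1)) * swE q := by group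
        rw [this, swE_mul_diagE, ← mul_assoc, mul_assoc, swE_sq, mul_one, diagE_mul, ← diagE_one] at h1
        have h2 := (diagE_inj h1).1
        rw [one_mul] at h2
        exact hne11 h2.symm
      · exact h
    -- elements whose square is z are j and j * z
    have hsqz : ∀ t : T, t ^ 2 = z → t = j ∨ t = j * z := by
      intro t ht
      obtain ⟨a, b, h, h2⟩ := hcov t
      rcases h2 with h2 | h2
      · exfalso
        rw [h2, hD2 a b h] at ht
        exact hz1 ht.symm
      · subst h2
        have h1 : (diagE a b * swE q) ^ 2 = diagE (-1) (-1) := congrArg Subtype.val ht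
        rw [sq] at h1
        have : diagE a b * swE q * (diagE a b * swE q) = diagE a b * (swE q * diagE a b) * swE q := by group
        rw [this, swE_mul_diagE, ← mul_assoc, mul_assoc, swE_sq, mul_one, diagE_mul] at h1
        have h3 := (diagE_inj h1).1
        rcases hu a with rfl | rfl
        · left
          rw [one_mul] at h3
          subst h3
          rfl
        · right
          have h4 : b = 1 := by
            have := congrArg (fun t => -t) h3
            simpa using this
          subst h4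
          apply Subtype.ext
          show diagE (-1) 1 * swE q = diagE 1 (-1) * swE q * diagE (-1) (-1)
          rw [mul_assoc (diagE 1 (-1)), swE_mul_diagE, ← mul_assoc, diagE_mul]
          simp
    have hαz : α z = z := by
      have h1 : (α j) ^ 2 = α z := by rw [← map_pow, hj2]
      have h2 : ∀ t : T, t ^ 2 = 1 ∨ t ^ 2 = z := by
        intro t
        obtain ⟨a, b, h, h2⟩ := hcov t
        rcases h2 with h2 | h2
        · left; rw [h2]; exact hD2 a b h
        · rw [h2]; exact hantisq a b h
      rcases h2 (α j) with h | h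
      · exfalso
        rw [h] at h1
        apply hz1
        apply α.injective
        rw [← h1, map_one]
      · rw [← h1, h]
    have hαj : α j = j := by
      have h1 : (α j) ^ 2 = z := by rw [← map_pow, hj2, hαz]
      rcases hsqz _ h1 with h | h
      · exact h
      · exact absurd (hchain j z h hαz) hz1
    -- every element is in ⟨j⟩ or ⟨j⟩ e: precisely t = j^i or t = j^i * e
    have hj4 : j ^ 4 = 1 := by rw [show 4 = 2 * 2 by norm_num, pow_mul, hj2, hz2]
    have hcomp : ∀ t : T, α t = t ∨ ∃ c, α c = c ∧ t = e * c := by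
      intro t
      obtain ⟨a, b, h, h2⟩ := hcov t
      rcases h2 with h2 | h2
      · rcases hu a with rfl | rfl <;> rcases hu b with rfl | rfl
        · left
          have : t = 1 := by rw [h2]; exact Subtype.ext diagE_one
          rw [this, map_one]
        · right; exact ⟨1, map_one α, by rw [h2, mul_one]⟩
        · right
          refine ⟨z, hαz, ?_⟩
          rw [h2]
          apply Subtype.ext
          show diagE (-1) 1 = diagE 1 (-1) * diagE (-1) (-1)
          rw [diagE_mul]; simp
        · left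
          have : t = z := h2
          rw [this, hαz]
      · rcases hu a with rfl | rfl <;> rcases hu b with rfl | rfl
        · right
          refine ⟨j, hαj, ?_⟩
          rw [h2]
          apply Subtype.ext
          show diagE 1 1 * swE q = diagE 1 (-1) * (diagE 1 (-1) * swE q)
          rw [← mul_assoc, diagE_mul]; simp
        · left
          have : t = j := h2
          rw [this, hαj]
        · left
          have : t = j * z := by
            rw [h2]
            apply Subtype.ext
            show diagE (-1) 1 * swE q = diagE 1 (-1) * swE q * diagE (-1) (-1)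
            rw [mul_assoc (diagE 1 (-1)), swE_mul_diagE, ← mul_assoc, diagE_mul]
            simp
          rw [this, map_mul, hαj, hαz]
        · right
          refine ⟨j * z, by rw [map_mul, hαj, hαz], ?_⟩
          rw [h2]
          apply Subtype.ext
          show diagE (-1) (-1) * swE q = diagE 1 (-1) * (diagE 1 (-1) * swE q * diagE (-1) (-1))
          rw [mul_assoc (diagE 1 (-1)) (swE q), swE_mul_diagE, ← mul_assoc (diagE 1 (-1)) (diagE (-1) (-1)), ← mul_assoc,
            diagE_mul, diagE_mul]
          simp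
    have hαe : α e = e := by
      rcases hcomp (α e) with h | ⟨c, hc, h⟩
      · exact α.injective h
      · have := hchain e c h hc
        rw [h, this, mul_one]
    ext t : 1
    rw [MulAut.one_apply]
    rcases hcomp t with h | ⟨c, hc, h⟩
    · exact h
    · rw [h, map_mul, hαe, hc]
  · -- m ≥ 3
    have hm3 : 3 ≤ m := by
      by_contra hcon
      have : m = 2 := by omega
      rw [this] at hq
      apply hq5
      rw [hq]; norm_num
    obtain ⟨ζ, hζ⟩ := (inferInstance : IsCyclic (ZMod q)ˣ).exists_generator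
    have hζo : orderOf ζ = 2 ^ m := by
      rw [← hcardU]; exact orderOf_eq_card_of_forall_mem_zpowers hζ
    have g_ab : ζ * ζ⁻¹ = 1 ∨ ζ * ζ⁻¹ = -1 := Or.inl (mul_inv_cancel ζ)
    set g : T := dT ζ ζ⁻¹ g_ab with hgdef
    have hg4 : g ^ 4 ≠ 1 := by
      intro h
      have h1 : diagE ζ ζ⁻¹ ^ 4 = 1 := congrArg Subtype.val h
      rw [diagE_pow, ← diagE_one] at h1
      have h2 := orderOf_dvd_of_pow_eq_one (diagE_inj h1).1
      rw [hζo] at h2
      have h3 := Nat.le_of_dvd (by norm_num) h2
      have : 2 ^ 3 ≤ 2 ^ m := Nat.pow_le_pow_right (by norm_num) hm3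
      omega
    let D : Subgroup T :=
      { carrier := {t | ∃ (a b : (ZMod q)ˣ) (h : a * b = 1 ∨ a * b = -1), t = dT a b h}
        mul_mem' := by
          rintro _ _ ⟨a, b, h, rfl⟩ ⟨c, d, h', rfl⟩
          refine ⟨a * c, b * d, ?_, Subtype.ext (diagE_mul a b c d)⟩
          have : a * c * (b * d) = (a * b) * (c * d) := by
            rw [mul_assoc, mul_assoc, mul_left_comm c b d]
          rw [this]
          rcases h with h | h <;> rcases h' with h' | h' <;> rw [h, h'] <;> simp
        one_mem' := ⟨1, 1, Or.inl (one_mul 1), Subtype.ext diagE_one.symm⟩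
        inv_mem' := by
          rintro _ ⟨a, b, h, rfl⟩
          have h' : a⁻¹ * b⁻¹ = 1 ∨ a⁻¹ * b⁻¹ = -1 := by
            rw [← mul_inv]
            rcases h with h | h <;> rw [h] <;> simp
          refine ⟨a⁻¹, b⁻¹, h', ?_⟩
          rw [inv_eq_iff_mul_eq_one]
          apply Subtype.ext
          show diagE a b * diagE a⁻¹ b⁻¹ = 1
          rw [diagE_mul, mul_inv_cancel, mul_inv_cancel, diagE_one] }
    have hDm : ∀ t : T, t ∈ D ↔ ∃ (a b : (ZMod q)ˣ) (h : a * b = 1 ∨ a * b = -1), t = dT a b h := fun t => Iff.rfl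
    have hDcomm : ∀ s ∈ D, ∀ t ∈ D, s * t = t * s := by
      rintro _ ⟨a, b, h, rfl⟩ _ ⟨c, d, h', rfl⟩
      apply Subtype.ext
      show diagE a b * diagE c d = diagE c d * diagE a b
      rw [diagE_mul, diagE_mul, mul_comm a, mul_comm b]
    have hgD : g ∈ D := ⟨_, _, g_ab, rfl⟩
    have heD : e ∈ D := ⟨_, _, e_ab, rfl⟩
    have hzD : z ∈ D := ⟨_, _, z_ab, rfl⟩
    have hnD : ∀ t : T, t ∉ D → (t ^ 2 = 1 ∨ t ^ 2 = z) := by
      intro t ht
      obtain ⟨a, b, h, h2⟩ := hcov t
      rcases h2 with h2 | h2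
      · exact absurd ⟨a, b, h, h2⟩ ht
      · rw [h2]; exact hantisq a b h
    have hnD4 : ∀ t : T, t ∉ D → t ^ 4 = 1 := by
      intro t ht
      rw [show 4 = 2 * 2 by norm_num, pow_mul]
      rcases hnD t ht with h | h <;> rw [h]
      · simp
      · exact hz2
    have hαg : α g ∈ D := by
      by_contra hcon
      have := hnD4 _ hcon
      rw [← map_pow] at this
      exact hg4 (by apply α.injective; rw [this, map_one])
    have hαD : ∀ d ∈ D, α d ∈ D := by
      intro d hd
      by_contra hcon
      have h1 := hnD4 _ hcon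
      have h2 : α (g * d) ∉ D := by
        intro h3
        rw [map_mul] at h3
        exact hcon ((Subgroup.mul_mem_cancel_left D hαg).1 h3)
      have h3 := hnD4 _ h2
      rw [← map_pow] at h1 h3
      have h4 : d ^ 4 = 1 := by apply α.injective; rw [h1, map_one]
      have h5 : (g * d) ^ 4 = 1 := by apply α.injective; rw [h3, map_one]
      have h6 : Commute g d := hDcomm g hgD d hd
      rw [h6.mul_pow, h4, mul_one] at h5
      exact hg4 h5
    -- involutions of D
    have hDinv : ∀ t ∈ D, t ^ 2 = 1 → t = 1 ∨ t = z ∨ t = e ∨ t = e * z := by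
      rintro _ ⟨a, b, h, rfl⟩ ht
      have h1 : diagE a b ^ 2 = 1 := congrArg Subtype.val ht
      rw [diagE_pow, ← diagE_one] at h1
      obtain ⟨h2, h3⟩ := diagE_inj h1
      rcases hsq1 a h2 with rfl | rfl <;> rcases hsq1 b h3 with rfl | rfl
      · left; exact Subtype.ext diagE_one
      · right; right; left; rfl
      · right; right; right
        apply Subtype.ext
        show diagE (-1) 1 = diagE 1 (-1) * diagE (-1) (-1)
        rw [diagE_mul]; simp
      · right; left; rfl
    -- squares
    have hsqne : ∀ t : T, t ^ 2 ≠ e ∧ t ^ 2 ≠ e * z := by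
      have key : ∀ t : T, ∀ c d : (ZMod q)ˣ, c * d = -1 → ∀ h, t ^ 2 ≠ dT c d h := by
        intro t c d hcd h ht
        by_cases htD : t ∈ D
        · obtain ⟨a, b, h', rfl⟩ := htD
          have h1 : diagE a b ^ 2 = diagE c d := congrArg Subtype.val ht
          rw [diagE_pow] at h1
          obtain ⟨h2, h3⟩ := diagE_inj h1
          rw [← h2, ← h3, ← mul_pow] at hcd
          rcases h' with h' | h' <;> rw [h'] at hcd <;> simp at hcd
          · exact hne11 hcd
          · exact hne11 hcd
        · rcases hnD t htD with h1 | h1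
          · rw [h1] at ht
            have h2 : diagE (1 : (ZMod q)ˣ) 1 = diagE c d := by rw [diagE_one]; exact congrArg Subtype.val ht
            obtain ⟨h3, h4⟩ := diagE_inj h2
            rw [← h3, ← h4, one_mul] at hcd
            exact hne11 hcd
          · rw [h1] at ht
            have h2 : diagE (-1 : (ZMod q)ˣ) (-1) = diagE c d := congrArg Subtype.val ht
            obtain ⟨h3, h4⟩ := diagE_inj h2
            rw [← h3, ← h4] at hcd
            simp at hcd
            exact hne11 hcd
      intro t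
      refine ⟨key t 1 (-1) (one_mul _) e_ab, ?_⟩
      have h1 : e * z = dT (-1) 1 (Or.inr (mul_one _)) := by
        apply Subtype.ext
        show diagE 1 (-1) * diagE (-1) (-1) = diagE (-1) 1
        rw [diagE_mul]; simp
      rw [h1]
      exact key t (-1) 1 (mul_one _) (Or.inr (mul_one _))
    -- z is a square
    obtain ⟨h, hh⟩ : ∃ h : T, h ^ 2 = z := by
      refine ⟨g ^ (2 ^ (m - 2)), ?_⟩
      apply Subtype.ext
      show (diagE ζ ζ⁻¹ ^ (2 ^ (m - 2))) ^ 2 = diagE (-1) (-1)
      rw [← pow_mul, ← pow_succ, show m - 2 + 1 = m - 1 by omega, diagE_pow]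
      have h1 : ζ ^ (2 ^ (m - 1)) = -1 := by
        rcases hsq1 (ζ ^ (2 ^ (m - 1))) (by
          rw [← pow_mul, ← pow_succ, show m - 1 + 1 = m by omega]; exact hupow ζ) with h2 | h2
        · exfalso
          have h3 := orderOf_dvd_of_pow_eq_one h2
          rw [hζo] at h3
          have h4 := Nat.le_of_dvd (by positivity) h3
          have h5 : 2 ^ (m - 1) < 2 ^ m := Nat.pow_lt_pow_right (by norm_num) (by omega)
          omega
        · exact h2
      rw [inv_pow, h1]; simp
    have hαz : α z = z := by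
      have h1 : α z ∈ D := hαD z hzD
      have h2 : (α z) ^ 2 = 1 := by rw [← map_pow, hz2, map_one]
      have h3 : α z = (α h) ^ 2 := by rw [← map_pow, hh]
      rcases hDinv _ h1 h2 with h4 | h4 | h4 | h4
      · exfalso; apply hz1; apply α.injective; rw [h4, map_one]
      · exact h4
      · exfalso; rw [h3] at h4; exact (hsqne _).1 h4
      · exfalso; rw [h3] at h4; exact (hsqne _).2 h4
    have hαe : α e = e := by
      have h1 : α e ∈ D := hαD e heD
      have h2 : (α e) ^ 2 = 1 := by rw [← map_pow, he2, map_one]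
      rcases hDinv _ h1 h2 with h4 | h4 | h4 | h4
      · exfalso
        have h5 : e = 1 := by apply α.injective; rw [h4, map_one]
        apply (hsqne 1).1
        rw [h5]; simp
      · exfalso
        have h5 : e = z := by apply α.injective; rw [h4, hαz]
        apply (hsqne h).1
        rw [hh, h5]
      · exact h4
      · exact absurd (hchain e z h4 hαz) hz1
    have hα4 : ∀ u ∈ D, u ^ 2 = 1 → α u = u := by
      intro u hu hu2
      rcases hDinv u hu hu2 with h4 | h4 | h4 | h4
      · rw [h4, map_one]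
      · rw [h4, hαz]
      · rw [h4, hαe]
      · rw [h4, map_mul, hαe, hαz]
    -- every element of D is g ^ k or g ^ k * e
    have hDgen : ∀ t ∈ D, ∃ k : ℤ, t = g ^ k ∨ t = g ^ k * e := by
      rintro _ ⟨a, b, hab, rfl⟩
      obtain ⟨k, hk⟩ := hζ a
      have hk' : ζ ^ k = a := hk
      have hgk : ((g ^ k : T) : (Fin 2 → ZMod q) ≃ₗ[ZMod q] (Fin 2 → ZMod q)) = diagE a a⁻¹ := by
        have hhom : ∀ k : ℤ, (diagE ζ ζ⁻¹) ^ k = diagE (ζ ^ k) (ζ ^ k)⁻¹ := by
          intro k
          obtain ⟨n, rfl | rfl⟩ := k.eq_nat_or_neg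
          · rw [zpow_natCast, zpow_natCast, diagE_pow, inv_pow]
          · rw [zpow_neg, zpow_neg, zpow_natCast, zpow_natCast, diagE_pow, inv_eq_iff_mul_eq_one,
              diagE_mul]
            simp [diagE_one]
        rw [← hk']
        exact hhom k
      refine ⟨k, ?_⟩
      rcases hab with hab | hab
      · left
        apply Subtype.ext
        rw [hgk]
        show diagE a b = diagE a a⁻¹
        rw [← eq_inv_of_mul_eq_one_right hab]
      · right
        apply Subtype.ext
        show diagE a b = ((g ^ k : T) : (Fin 2 → ZMod q) ≃ₗ[ZMod q] (Fin 2 → ZMod q)) * diagE 1 (-1)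
        rw [hgk, diagE_mul]
        have : b = a⁻¹ * -1 := by rw [← hab]; simp
        rw [mul_one, this]
    -- α fixes g ^ 2
    set c : T := g ^ 2 with hcdef
    have hco : ∀ i, c ^ (2 ^ i) = 1 → m ≤ i + 1 := by
      intro i hi
      rw [hcdef, ← pow_mul, ← pow_succ'] at hi
      have h1 : diagE ζ ζ⁻¹ ^ (2 ^ (i + 1)) = 1 := congrArg Subtype.val hi
      rw [diagE_pow, ← diagE_one] at h1
      have h2 := orderOf_dvd_of_pow_eq_one (diagE_inj h1).1
      rw [hζo] at h2
      exact (Nat.pow_dvd_pow_iff_le_right (by norm_num)).1 h2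
    have hcm : c ^ (2 ^ (m - 1)) = 1 := by
      rw [hcdef, ← pow_mul, ← pow_succ', show m - 1 + 1 = m by omega]
      exact hDpow _ _ g_ab
    obtain ⟨k, hk⟩ : ∃ k : ℤ, α c = c ^ k := by
      obtain ⟨k, hk⟩ := hDgen _ hαg
      refine ⟨k, ?_⟩
      rw [hcdef, map_pow]
      rcases hk with hk | hk
      · rw [hk, ← zpow_natCast, ← zpow_natCast, ← zpow_mul, ← zpow_mul, mul_comm]
      · have h6 : Commute (g ^ k) e := hDcomm _ (D.zpow_mem hgD k) e heD
        rw [hk, h6.mul_pow, he2, mul_one, ← zpow_natCast, ← zpow_natCast, ← zpow_mul, ← zpow_mul, mul_comm]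
    have hkodd : Odd k := by
      by_contra hcon
      rw [Int.not_odd_iff_even] at hcon
      obtain ⟨l, hl⟩ := hcon
      have h1 : α (c ^ (2 ^ (m - 2))) = 1 := by
        rw [map_pow, hk, hl, ← two_mul, zpow_mul]
        have : ((c ^ (2 : ℤ)) ^ l) ^ (2 ^ (m - 2)) = ((c ^ (2 ^ (m - 1) : ℕ))) ^ l := by
          rw [← zpow_natCast, ← zpow_mul, ← zpow_mul, ← zpow_natCast, ← zpow_mul]
          congr 1
          have : ((2 ^ (m - 1) : ℕ) : ℤ) = 2 * ((2 ^ (m - 2) : ℕ) : ℤ) := by
            have h7 : m - 1 = (m - 2) + 1 := by omega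
            rw [h7, pow_succ]; push_cast; ring
          rw [this]; ring
        rw [this, hcm, one_zpow]
      have h2 : c ^ (2 ^ (m - 2)) = 1 := by apply α.injective; rw [h1, map_one]
      have := hco _ h2
      omega
    obtain ⟨l, hl⟩ := hkodd
    have hcfix : ∀ i, i ≤ m - 1 → α (c ^ (2 ^ (m - 1 - i))) = c ^ (2 ^ (m - 1 - i)) := by
      intro i
      induction i with
      | zero => intro _; rw [Nat.sub_zero, hcm, map_one]
      | succ i ih =>
        intro hi
        have ih' := ih (by omega)
        set x := c ^ (2 ^ (m - 1 - (i + 1))) with hx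
        have hx2 : x ^ 2 = c ^ (2 ^ (m - 1 - i)) := by
          rw [hx, ← pow_mul, ← pow_succ, show m - 1 - (i + 1) + 1 = m - 1 - i by omega]
        rw [← hx2] at ih'
        have h1 : α x = x * (x ^ 2) ^ l := by
          rw [hx, map_pow, hk, hl]
          rw [← hx]
          have : (c ^ (2 * l + 1)) ^ (2 ^ (m - 1 - (i + 1))) = x ^ (2 * l + 1) := by
            rw [hx, ← zpow_natCast, ← zpow_natCast, ← zpow_mul, ← zpow_mul, mul_comm]
          rw [this, zpow_add, zpow_mul, zpow_one, ← zpow_natCast]
          rw [← Commute.eq (Commute.zpow_right (Commute.zpow_right (Commute.refl x) _) _)]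
          rfl
        have h2 : α ((x ^ 2) ^ l) = (x ^ 2) ^ l := by rw [map_zpow, ih']
        have h3 := hchain x _ h1 h2
        rw [h1, h3, mul_one]
    have hαc : α c = c := by
      have := hcfix (m - 1) le_rfl
      simpa using this
    have hαg' : α g = g := by
      set u := g⁻¹ * α g with hu
      have huD : u ∈ D := D.mul_mem (D.inv_mem hgD) hαg
      have hgu : α g = g * u := by rw [hu]; group
      have hu2 : u ^ 2 = 1 := by
        have h6 : Commute g⁻¹ (α g) := hDcomm _ (D.inv_mem hgD) _ hαg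
        rw [hu, h6.mul_pow, ← map_pow, ← hcdef, hαc, hcdef]; group
      have h7 := hchain g u hgu (hα4 u huD hu2)
      rw [hgu, h7, mul_one]
    have hαDfix : ∀ d ∈ D, α d = d := by
      intro d hd
      obtain ⟨k, hk | hk⟩ := hDgen d hd
      · rw [hk, map_zpow, hαg']
      · rw [hk, map_mul, map_zpow, hαg', hαe]
    -- the swap
    have hsD : sT ∉ D := by
      rintro ⟨a, b, h, hs⟩
      have h1 : swE q = diagE a b := congrArg Subtype.val hs
      exact diagE_ne hq1 a b 1 1 (by rw [diagE_one, one_mul]; exact h1.symm)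
    have hαs : α sT ∉ D := by
      intro hcon
      apply hsD
      have h1 := hαDfix _ hcon
      have h2 : α sT = sT := α.injective h1
      rw [← h2]; exact hcon
    have hsu : sT⁻¹ * α sT ∈ D := by
      obtain ⟨a, b, h, h2⟩ := hcov (α sT)
      rcases h2 with h2 | h2
      · exact absurd ⟨a, b, h, h2⟩ hαs
      · rw [h2]
        have h3 : b * a = 1 ∨ b * a = -1 := by rw [mul_comm]; exact h
        refine ⟨b, a, h3, ?_⟩
        have h4 : sT⁻¹ = sT := inv_eq_of_mul_eq_one_right hsT
        rw [h4]
        apply Subtype.ext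
        show swE q * (diagE a b * swE q) = diagE b a
        rw [← mul_assoc, swE_mul_diagE, mul_assoc, swE_sq, mul_one]
    have hαs' : α sT = sT := by
      have h1 : α sT = sT * (sT⁻¹ * α sT) := by group
      have h2 := hchain sT _ h1 (hαDfix _ hsu)
      rw [h1, h2, mul_one]
    ext t : 1
    rw [MulAut.one_apply]
    obtain ⟨a, b, h, h2⟩ := hcov t
    rcases h2 with h2 | h2
    · rw [h2]; exact hαDfix _ ⟨a, b, h, rfl⟩
    · rw [h2, map_mul, hαs', hαDfix _ ⟨a, b, h, rfl⟩]

end Cfsg.Agent.S3382
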