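import Cfsg.Statements.S3383
import Mathlib

set_option autoImplicit false
open Cfsg
open scoped Pointwise

namespace Cfsg.Agent.S3383

/-- Let H be a Frobenius complement in a finite group L and K the Frobenius kernel (as a subgroup). Then K is characteristic in L, and every normal subgroup of L either contains K or is contained in K. -/
theorem result {L : Type*} [Group L] [Finite L]
    (H : Subgroup L) (hH : Cfsg.IsFrobeniusComplement H)
    (K : Subgroup L) (hK : (K : Set L) = Cfsg.frobeniusKernel H) :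
    K.Characteristic ∧ ∀ N : Subgroup L, N.Normal → K ≤ N ∨ N ≤ K := by
  have hmem : ∀ x : L, x ∈ K ↔ (x = 1 ∨ ∀ g : L, x ∉ MulAut.conj g • H) := by
    intro x
    rw [← SetLike.mem_coe, hK]
    rfl
  have hconj : ∀ (g x : L), x ∈ MulAut.conj g • H ↔ g⁻¹ * x * g ∈ H := by
    intro g x
    rw [Subgroup.mem_pointwise_smul_iff_inv_smul_mem, ← map_inv, MulAut.smul_def, MulAut.conj_apply,
      inv_inv]
  have hKn : K.Normal := by
    constructor
    intro x hx g
    rw [hmem] at hx ⊢
    rcases hx with rfl | hx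
    · left; simp
    · right
      intro g' hg'
      apply hx (g⁻¹ * g')
      rw [hconj] at hg' ⊢
      have : (g⁻¹ * g')⁻¹ * x * (g⁻¹ * g') = g'⁻¹ * (g * x * g⁻¹) * g' := by group
      rw [this]; exact hg'
  have hKH : ∀ x ∈ K, x ∈ H → x = 1 := by
    intro x hx hxH
    rcases (hmem x).1 hx with h | h
    · exact h
    · exact absurd ((hconj 1 x).2 (by simpa using hxH)) (h 1)
  have main : ∀ N : Subgroup L, N.Normal → K ≤ N ∨ N ≤ K := by
    intro N hN
    by_cases hNK : N ≤ K
    · exact Or.inr hNK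
    left
    obtain ⟨n, hnN, hnK⟩ := SetLike.not_le_iff_exists.1 hNK
    rw [hmem] at hnK
    push Not at hnK
    obtain ⟨hn1, g, hg⟩ := hnK
    rw [hconj] at hg
    set h := g⁻¹ * n * g with hh
    have hhN : h ∈ N := by
      have := hN.conj_mem n hnN g⁻¹
      simpa [hh] using this
    have hh1 : h ≠ 1 := by
      intro h1
      apply hn1
      have : n = g * h * g⁻¹ := by rw [hh]; group
      rw [this, h1]; group
    let f : K → K := fun k => ⟨k * h * (k : L)⁻¹ * h⁻¹, by
      have e : (k : L) * h * (k : L)⁻¹ * h⁻¹ = k * (h * (k : L)⁻¹ * h⁻¹) := by group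
      rw [e]
      exact K.mul_mem k.2 (hKn.conj_mem _ (K.inv_mem k.2) h)⟩
    have hfinj : Function.Injective f := by
      intro k k' hkk
      have e1 : (k : L) * h * (k : L)⁻¹ * h⁻¹ = k' * h * (k' : L)⁻¹ * h⁻¹ := congrArg Subtype.val hkk
      have e2 : (k : L) * h * (k : L)⁻¹ = k' * h * (k' : L)⁻¹ := mul_right_cancel e1
      have hc : ((k' : L)⁻¹ * k) ∈ H := by
        by_contra hcon
        have h3 := hH.2.2 _ hcon
        have h4 : h ∈ H ⊓ (MulAut.conj ((k' : L)⁻¹ * k) • H) := by
          refine Subgroup.mem_inf.2 ⟨hg, ?_⟩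
          rw [hconj]
          have : ((k' : L)⁻¹ * k)⁻¹ * h * ((k' : L)⁻¹ * k) = (k : L)⁻¹ * (k' * h * (k' : L)⁻¹) * k := by
            group
          rw [this, ← e2]
          have : (k : L)⁻¹ * (k * h * (k : L)⁻¹) * k = h := by group
          rw [this]; exact hg
        rw [h3] at h4
        exact hh1 h4
      have hc2 : ((k' : L)⁻¹ * k) ∈ K := K.mul_mem (K.inv_mem k'.2) k.2
      have := hKH _ hc2 hc
      apply Subtype.ext
      exact (inv_mul_eq_one.1 this).symm
    have hfsurj := Finite.surjective_of_injective hfinj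
    intro x hx
    obtain ⟨k, hk⟩ := hfsurj ⟨x, hx⟩
    have : (k : L) * h * (k : L)⁻¹ * h⁻¹ = x := congrArg Subtype.val hk
    rw [← this]
    exact N.mul_mem (hN.conj_mem h hhN k) (N.inv_mem hhN)
  refine ⟨?_, main⟩
  rw [Subgroup.characteristic_iff_map_eq]
  intro φ
  have hn : (K.map φ.toMonoidHom).Normal := hKn.map _ φ.surjective
  have hcard : Nat.card (K.map φ.toMonoidHom) = Nat.card K :=
    Nat.card_congr (K.equivMapOfInjective φ.toMonoidHom φ.injective).toEquiv.symm
  rcases main _ hn with h | h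
  · exact (Subgroup.eq_of_le_of_card_ge h hcard.le).symm
  · exact Subgroup.eq_of_le_of_card_ge h hcard.ge

end Cfsg.Agent.S3383
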