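import Cfsg.Statements.S3420
import Cfsg.Agent.Lib.SimpleSection
import Cfsg.Agent.Lib.AltSpectrum
import Cfsg.Agent.Lib.TwoPrimes

set_option autoImplicit false
open Cfsg

namespace Cfsg.Agent.S3420

/-- general version: two odd primes in `(n/2, n]` suffice. -/
theorem general {G : Type*} [Group G] [Finite G] (n p1 p2 : ℕ) (hp1 : p1.Prime) (hp2 : p2.Prime)
    (h1 : n < 2 * p1) (h1' : p1 ≤ n) (h2 : n < 2 * p2) (h2' : p2 ≤ n) (h12 : p1 ≠ p2) (h4 : 4 ≤ n)
    (hcard : Nat.card G = Nat.card ↥(alternatingGroup (Fin n)))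
    (hspec : Set.range (orderOf : G → ℕ) = Set.range (orderOf : ↥(alternatingGroup (Fin n)) → ℕ)) :
    ∃ (N H : Subgroup G) (_ : N.Normal), H.Normal ∧ N < H ∧
      IsSimpleGroup (↥H ⧸ N.subgroupOf H) ∧ ¬ IsMulCommutative (↥H ⧸ N.subgroupOf H) ∧
      ∀ p : ℕ, p.Prime → n < 2 * p → p ≤ n → p ∣ Nat.card (↥H ⧸ N.subgroupOf H) := by
  let π : Set ℕ := {p | p.Prime ∧ n < 2 * p ∧ p ≤ n}
  obtain ⟨N, H, hN, hH, hlt, hs, hc, hd⟩ := Lib.SimpleSection.exists_simple_section (G := G) π
    (by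
      rintro p ⟨hp, hpn, hpn'⟩
      refine ⟨hp, ?_, ?_⟩
      · rw [hcard]; exact Lib.AltSpectrum.prime_dvd_card hp (by omega) hpn'
      · rw [hcard]; exact Lib.AltSpectrum.sq_not_dvd_card hp (by omega) hpn hpn')
    (by
      rintro p ⟨hp, hpn, hpn'⟩ q ⟨hq, hqn, hqn'⟩ hpq
      refine ⟨?_, ?_⟩
      · intro hdiv
        have hp0 : 0 < p - 1 := by omega
        obtain ⟨k, hk⟩ := hdiv
        have hk0 : k ≠ 0 := by rintro rfl; omega
        have hk2 : k < 2 := by
          by_contra h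
          push Not at h
          have : q * 2 ≤ q * k := Nat.mul_le_mul_left q h
          omega
        have hk1 : k = 1 := by omega
        subst hk1
        have e1 : p % 2 = 1 := (hp.eq_two_or_odd).resolve_left (by omega)
        have e2 : q % 2 = 1 := (hq.eq_two_or_odd).resolve_left (by omega)
        omega
      · intro g hg
        have h3 : p * q ∈ Set.range (orderOf : ↥(alternatingGroup (Fin n)) → ℕ) := by
          rw [← hspec]; exact ⟨g, hg⟩
        obtain ⟨h, hh⟩ := h3
        have h5 := Lib.AltSpectrum.add_le_of_dvd_orderOf hp hq hpq (h : Equiv.Perm (Fin n))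
          (by rw [Subgroup.orderOf_coe, hh]; exact Dvd.intro _ rfl)
          (by rw [Subgroup.orderOf_coe, hh]; exact Dvd.intro_left _ rfl)
        omega)
    p1 p2 ⟨hp1, h1, h1'⟩ ⟨hp2, h2, h2'⟩ h12
  exact ⟨N, H, hN, hH, hlt, hs, hc, fun p hp h3 h4 => hd p ⟨hp, h3, h4⟩⟩

/-- Let n ≥ 11 and let G be a finite group with the same order and the same set of element orders as the alternating group of degree n. Then G has normal subgroups N < H such that H/N is a non-abelian simple group whose order is divisible by every prime p with n/2 < p ≤ n. -/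
theorem result {G : Type*} [Group G] [Finite G] (n : ℕ) (hn : 11 ≤ n)
    (hcard : Nat.card G = Nat.card ↥(alternatingGroup (Fin n)))
    (hspec : Set.range (orderOf : G → ℕ) = Set.range (orderOf : ↥(alternatingGroup (Fin n)) → ℕ)) :
    ∃ (N H : Subgroup G) (_ : N.Normal), H.Normal ∧ N < H ∧
      IsSimpleGroup (↥H ⧸ N.subgroupOf H) ∧ ¬ IsMulCommutative (↥H ⧸ N.subgroupOf H) ∧
      ∀ p : ℕ, p.Prime → n < 2 * p → p ≤ n → p ∣ Nat.card (↥H ⧸ N.subgroupOf H) := by
  obtain ⟨p, q, hp, hq, h1, h2, h3⟩ := Lib.TwoPrimes.two_primes_half n hn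
  exact general n p q hp hq h1 (by omega) (by omega) h3 (by omega) (by omega) hcard hspec

end Cfsg.Agent.S3420
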