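import Cfsg.Statements.S3419
import Cfsg.Agent.S3420
import Cfsg.Agent.Lib.HallPi

set_option autoImplicit false
open Cfsg

namespace Cfsg.Agent.S3419

theorem not_solvable_of_pair {G : Type*} [Group G] [Finite G] (n p1 p2 : ℕ) (hp1 : p1.Prime) (hp2 : p2.Prime)
    (h1 : n < 2 * p1) (h1' : p1 ≤ n) (h2 : n < 2 * p2) (h2' : p2 ≤ n) (h12 : p1 ≠ p2) (h4 : 4 ≤ n)
    (hcard : Nat.card G = Nat.card ↥(alternatingGroup (Fin n)))
    (hspec : Set.range (orderOf : G → ℕ) = Set.range (orderOf : ↥(alternatingGroup (Fin n)) → ℕ)) :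
    ¬ Group.IsSolvable G := by
  intro hsol
  obtain ⟨N, H, hN, hH, hlt, hs, hc, -⟩ := S3420.general n p1 p2 hp1 hp2 h1 h1' h2 h2' h12 h4 hcard hspec
  have := hs
  have h3 : Group.IsSolvable (↥H ⧸ N.subgroupOf H) := inferInstance
  have h5 := IsSimpleGroup.comm_iff_isSolvable.2 h3
  exact hc ⟨⟨h5⟩⟩

/-- normal Sylow subgroup of prime order -/
theorem exists_normal_of_card {K : Type*} [Group K] [Finite K] (p m : ℕ) (hp : p.Prime) (hpm : ¬ p ∣ m)
    (hcard : Nat.card K = p * m) (hm : ∀ d, d ∣ m → d % p = 1 → d = 1) :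
    ∃ N : Subgroup K, N.Normal ∧ Nat.card N = p := by
  have := Fact.mk hp
  have hm0 : m ≠ 0 := by rintro rfl; exact hpm (dvd_zero p)
  obtain ⟨P⟩ : Nonempty (Sylow p K) := inferInstance
  have hfac : (Nat.card K).factorization p = 1 := by
    rw [hcard, Nat.factorization_mul hp.ne_zero hm0]
    simp [Nat.Prime.factorization_self hp, Nat.factorization_eq_zero_of_not_dvd hpm]
  have hP : Nat.card P.toSubgroup = p := by
    rw [P.card_eq_multiplicity, hfac, pow_one]
  have hindex : P.toSubgroup.index = m := by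
    have := P.toSubgroup.card_mul_index
    rw [hP, hcard] at this
    exact Nat.eq_of_mul_eq_mul_left hp.pos this
  have h1 := card_sylow_modEq_one p K
  have h2 : Nat.card (Sylow p K) ∣ m := hindex ▸ P.card_dvd_index
  have h3 : Nat.card (Sylow p K) = 1 := by
    apply hm _ h2
    have : Nat.card (Sylow p K) % p = 1 % p := h1
    rw [this, Nat.mod_eq_of_lt hp.one_lt]
  have : Subsingleton (Sylow p K) := (Nat.card_eq_one_iff_unique.1 h3).1
  exact ⟨P.toSubgroup, Sylow.normal_of_subsingleton P, hP⟩

theorem small_case {G : Type*} [Group G] [Finite G] (hsol : Group.IsSolvable G) (n p q a b : ℕ) (hp : p.Prime) (hq : q.Prime)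
    (hpq : p ≠ q) (hn : n < p + q) (hcard : Nat.card G = (p * a) * b) (hab : (p * a).Coprime b)
    (hprimes : ∀ r : ℕ, r.Prime → r ∣ p * a → r = p ∨ r = q) (hpa : ¬ p ∣ a) (hqa : q ∣ a)
    (hb : ∀ r : ℕ, r = p ∨ r = q → ¬ r ∣ b)
    (hm : ∀ d, d ∣ a → d % p = 1 → d = 1) (hqp : ¬ q ∣ p - 1)
    (hspec : Set.range (orderOf : G → ℕ) = Set.range (orderOf : ↥(alternatingGroup (Fin n)) → ℕ)) : False := by
  obtain ⟨H, hH⟩ := Lib.HallPi.exists_isPiHall (G := G) {p, q}
  have h1 := Lib.HallPi.isPiHall_iff.1 hH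
  have hHcard : Nat.card H = p * a := by
    have h2 : Nat.card H * H.index = (p * a) * b := by rw [← hcard]; exact H.card_mul_index
    apply Nat.dvd_antisymm
    · apply Nat.Coprime.dvd_of_dvd_mul_right (n := b)
      · rw [Nat.coprime_comm]
        apply Nat.Coprime.symm
        rw [Nat.coprime_iff_gcd_eq_one]
        by_contra hne
        obtain ⟨r, hr, hrd⟩ := Nat.exists_prime_and_dvd hne
        have h3 := h1.1 r hr (hrd.trans (Nat.gcd_dvd_left _ _))
        exact hb r h3 (hrd.trans (Nat.gcd_dvd_right _ _))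
      · rw [← h2]; exact Dvd.intro _ rfl
    · apply Nat.Coprime.dvd_of_dvd_mul_right (n := H.index)
      · rw [Nat.coprime_iff_gcd_eq_one]
        by_contra hne
        obtain ⟨r, hr, hrd⟩ := Nat.exists_prime_and_dvd hne
        have h3 := h1.2 r hr (hrd.trans (Nat.gcd_dvd_right _ _))
        exact h3 (hprimes r hr (hrd.trans (Nat.gcd_dvd_left _ _)))
      · rw [h2]; exact Dvd.intro _ rfl
  obtain ⟨N, hN, hNc⟩ := exists_normal_of_card p a hp hpa hHcard hm
  have := hN
  obtain ⟨g, hg⟩ := Lib.SimpleSection.frattini_pq N p q hp hq hpq (by rw [hNc])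
    (by
      rw [hNc]
      intro h
      have := Nat.le_of_dvd hp.pos h
      have h2 := hp.two_le
      nlinarith)
    (by
      rw [hNc]
      intro h
      exact hpq ((Nat.prime_dvd_prime_iff_eq hq hp).1 h).symm)
    (by rw [hHcard]; exact hqa.mul_left p) hqp
  have h3 : p * q ∈ Set.range (orderOf : ↥(alternatingGroup (Fin n)) → ℕ) := by
    rw [← hspec]; exact ⟨(g : G), by rw [Subgroup.orderOf_coe]; exact hg⟩
  obtain ⟨h, hh⟩ := h3
  have h5 := Lib.AltSpectrum.add_le_of_dvd_orderOf hp hq hpq (h : Equiv.Perm (Fin n))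
    (by rw [Subgroup.orderOf_coe, hh]; exact Dvd.intro _ rfl)
    (by rw [Subgroup.orderOf_coe, hh]; exact Dvd.intro_left _ rfl)
  omega

/-- Let n ≥ 5 and let G be a finite group with the same order and the same set of element orders as the alternating group of degree n. Then G is not solvable. -/
theorem result {G : Type*} [Group G] [Finite G] (n : ℕ) (hn : 5 ≤ n)
    (hcard : Nat.card G = Nat.card ↥(alternatingGroup (Fin n)))
    (hspec : Set.range (orderOf : G → ℕ) = Set.range (orderOf : ↥(alternatingGroup (Fin n)) → ℕ)) :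
    ¬ Group.IsSolvable G := by
  by_cases h11 : 11 ≤ n
  · obtain ⟨p, q, hp, hq, h1, h2, h3⟩ := Lib.TwoPrimes.two_primes_half n h11
    exact not_solvable_of_pair n p q hp hq h1 (by omega) (by omega) h3 (by omega) (by omega) hcard hspec
  have h2c := Lib.AltSpectrum.two_mul_card (n := n) (by omega)
  have hcases : n = 5 ∨ n = 6 ∨ n = 7 ∨ n = 8 ∨ n = 9 ∨ n = 10 := by omega
  rcases hcases with rfl | rfl | rfl | rfl | rfl | rfl
  · exact not_solvable_of_pair 5 3 5 (by norm_num) (by norm_num) (by norm_num) (by norm_num) (by norm_num)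
      (by norm_num) (by norm_num) (by norm_num) hcard hspec
  · intro hsol
    have hc : Nat.card G = (5 * 9) * 8 := by
      rw [hcard]
      have : Nat.factorial 6 = 720 := by decide
      omega
    refine small_case hsol 6 5 3 9 8 (by norm_num) (by norm_num) (by norm_num) (by norm_num) hc (by norm_num)
      ?_ (by norm_num) (by norm_num) ?_ ?_ (by norm_num) hspec
    · intro r hr h
      have h45 : r ∣ 3 ^ 2 * 5 := by simpa using h
      rcases (Nat.Prime.dvd_mul hr).1 h45 with h | h
      · exact Or.inr ((Nat.prime_dvd_prime_iff_eq hr (by norm_num)).1 (hr.dvd_of_dvd_pow h))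
      · exact Or.inl ((Nat.prime_dvd_prime_iff_eq hr (by norm_num)).1 h)
    · rintro r (rfl | rfl) <;> norm_num
    · intro d hd hd1
      have : d ≤ 9 := Nat.le_of_dvd (by norm_num) hd
      interval_cases d <;> omega
  · exact not_solvable_of_pair 7 5 7 (by norm_num) (by norm_num) (by norm_num) (by norm_num) (by norm_num)
      (by norm_num) (by norm_num) (by norm_num) hcard hspec
  · exact not_solvable_of_pair 8 5 7 (by norm_num) (by norm_num) (by norm_num) (by norm_num) (by norm_num)
      (by norm_num) (by norm_num) (by norm_num) hcard hspec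
  · exact not_solvable_of_pair 9 5 7 (by norm_num) (by norm_num) (by norm_num) (by norm_num) (by norm_num)
      (by norm_num) (by norm_num) (by norm_num) hcard hspec
  · intro hsol
    have hc : Nat.card G = (7 * 25) * 10368 := by
      rw [hcard]
      have : Nat.factorial 10 = 3628800 := by decide
      omega
    refine small_case hsol 10 7 5 25 10368 (by norm_num) (by norm_num) (by norm_num) (by norm_num) hc (by norm_num)
      ?_ (by norm_num) (by norm_num) ?_ ?_ (by norm_num) hspec
    · intro r hr h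
      have h45 : r ∣ 5 ^ 2 * 7 := by simpa using h
      rcases (Nat.Prime.dvd_mul hr).1 h45 with h | h
      · exact Or.inr ((Nat.prime_dvd_prime_iff_eq hr (by norm_num)).1 (hr.dvd_of_dvd_pow h))
      · exact Or.inl ((Nat.prime_dvd_prime_iff_eq hr (by norm_num)).1 h)
    · rintro r (rfl | rfl) <;> norm_num
    · intro d hd hd1
      have : d ≤ 25 := Nat.le_of_dvd (by norm_num) hd
      interval_cases d <;> omega

end Cfsg.Agent.S3419
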