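import Cfsg.Statements.S3704
import Mathlib

set_option autoImplicit false
open Cfsg

namespace Cfsg.Agent.S3704

open MulAction

section
variable {G Ω : Type*} [Group G] [MulAction G Ω] (H : Subgroup G)

/-- The translate of an `H`-invariant function by a coset of `H`. -/
noncomputable def tr (f : Ω → ℚ) (δ : G ⧸ H) (x : Ω) : ℚ := f ((δ.out)⁻¹ • x)

variable {H}

theorem tr_smul {f : Ω → ℚ} (hf : ∀ h ∈ H, ∀ x, f (h • x) = f x) (u : G) (δ : G ⧸ H) (x : Ω) :
    tr H f (u • δ) (u • x) = tr H f δ x := by
  have h1 : ((u • δ).out)⁻¹ * (u * δ.out) ∈ H := by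
    rw [← QuotientGroup.eq]
    rw [QuotientGroup.out_eq']
    conv_lhs => rw [← QuotientGroup.out_eq' δ]
    rfl
  unfold tr
  have h2 : ((u • δ).out)⁻¹ • u • x = (((u • δ).out)⁻¹ * (u * δ.out)) • ((δ.out)⁻¹ • x) := by
    simp [mul_smul]
  rw [h2, hf _ h1]

theorem tr_one {f : Ω → ℚ} (hf : ∀ h ∈ H, ∀ x, f (h • x) = f x) (x : Ω) :
    tr H f ((1 : G) : G ⧸ H) x = f x := by
  unfold tr
  apply hf
  apply H.inv_mem
  have : ((1:G)⁻¹ * ((1 : G) : G ⧸ H).out) ∈ H := by
    rw [← QuotientGroup.eq, QuotientGroup.out_eq']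
  simpa using this

variable (H) in
/-- The pairing -/
noncomputable def kk [Fintype (G ⧸ H)] (f g : Ω → ℚ) (x y : Ω) : ℚ := ∑ δ : G ⧸ H, tr H f δ x * tr H g δ y

theorem kk_smul [Fintype (G ⧸ H)] {f g : Ω → ℚ} (hf : ∀ h ∈ H, ∀ x, f (h • x) = f x) (hg : ∀ h ∈ H, ∀ x, g (h • x) = g x)
    (u : G) (x y : Ω) : kk H f g (u • x) (u • y) = kk H f g x y := by
  unfold kk
  rw [← Equiv.sum_comp (MulAction.toPerm u)]
  refine Finset.sum_congr rfl (fun δ _ => ?_)
  rw [MulAction.toPerm_apply, tr_smul hf, tr_smul hg]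

end

/-- Let G be a finite group acting faithfully and 2-transitively on a finite set Ω of size n, and let H be a subgroup of index n in G which is not transitive on Ω and fixes no point of Ω. Then H has exactly two orbits on Ω. -/
theorem result {G Ω : Type*} [Group G] [Finite G] [MulAction G Ω] [FaithfulSMul G Ω] [Finite Ω] (h2 : MulAction.IsMultiplyPretransitive G Ω 2) (H : Subgroup G) (hidx : H.index = Nat.card Ω) (hnt : ¬ MulAction.IsPretransitive H Ω) (hfix : ∀ a : Ω, ∃ h : H, h • a ≠ a) : Nat.card (MulAction.orbitRel.Quotient H Ω) = 2 := by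
  classical
  let _ : Fintype (G ⧸ H) := Fintype.ofFinite _
  let _ : Fintype Ω := Fintype.ofFinite _
  have ht : IsPretransitive G Ω := isPretransitive_of_is_two_pretransitive
  rw [is_two_pretransitive_iff] at h2
  -- choose an orbit
  have hex : ∃ a b : Ω, a ∉ orbit H b := by
    by_contra hcon
    push Not at hcon
    exact hnt ⟨fun x y => hcon y x⟩
  obtain ⟨x0, s0, hx0⟩ := hex
  let f : Ω → ℚ := fun x => if x ∈ orbit H s0 then 1 else 0
  have hf : ∀ h ∈ H, ∀ x, f (h • x) = f x := by
    intro h hh x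
    have : h • x ∈ orbit H s0 ↔ x ∈ orbit H s0 := by
      change (⟨h, hh⟩ : H) • x ∈ orbit H s0 ↔ _
      rw [← orbit_eq_iff, orbit_smul, orbit_eq_iff]
    simp only [f, this]
  have hff : ∀ x, f x * f x = f x := by
    intro x; simp only [f]; split_ifs <;> simp
  have hf01 : ∀ x, f x = 0 ∨ f x = 1 := by
    intro x; simp only [f]; split_ifs <;> simp
  have hs0 : f s0 = 1 := by simp [f]
  have hfx0 : f x0 = 0 := by simp only [f, if_neg hx0]
  have hne : s0 ≠ x0 := by
    intro h; rw [h, hfx0] at hs0; exact zero_ne_one hs0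
  set r := kk H f f s0 s0 with hr
  set l := kk H f f s0 x0 with hl
  have htr01 : ∀ δ x, tr H f δ x * tr H f δ x = tr H f δ x := fun δ x => hff _
  have hdiag : ∀ x, kk H f f x x = r := by
    intro x
    obtain ⟨u, hu⟩ := MulAction.exists_smul_eq G s0 x
    rw [← hu, kk_smul hf hf]
  have hoff : ∀ x y, x ≠ y → kk H f f x y = l := by
    intro x y hxy
    obtain ⟨u, hu1, hu2⟩ := h2 hne hxy
    rw [← hu1, ← hu2, kk_smul hf hf]
  have hrl : 0 < r - l := by
    have e : r - l = ∑ δ : G ⧸ H, tr H f δ s0 * (1 - tr H f δ x0) := by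
      rw [hr, hl]
      unfold kk
      rw [← Finset.sum_sub_distrib]
      refine Finset.sum_congr rfl (fun δ _ => ?_)
      rw [htr01]; ring
    rw [e]
    refine Finset.sum_pos' (fun δ _ => ?_) ⟨((1:G) : G ⧸ H), Finset.mem_univ _, ?_⟩
    · have a1 := hf01 ((δ.out)⁻¹ • s0)
      have a2 := hf01 ((δ.out)⁻¹ • x0)
      unfold tr
      rcases a1 with a1 | a1 <;> rcases a2 with a2 | a2 <;> rw [a1, a2] <;> norm_num
    · rw [tr_one hf, tr_one hf, hs0, hfx0]; norm_num
  have hl0 : 0 ≤ l := by
    rw [hl]; unfold kk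
    refine Finset.sum_nonneg (fun δ _ => ?_)
    have a1 := hf01 ((δ.out)⁻¹ • s0)
    have a2 := hf01 ((δ.out)⁻¹ • x0)
    unfold tr
    rcases a1 with a1 | a1 <;> rcases a2 with a2 | a2 <;> rw [a1, a2] <;> norm_num
  have hr0 : 0 < r := by linarith
  -- linear independence of the vectors f_y
  let vec : Ω → (G ⧸ H → ℚ) := fun y δ => tr H f δ y
  have hgram : ∀ x y, ∑ δ, vec x δ * vec y δ = (if x = y then r - l else 0) + l := by
    intro x y
    split_ifs with h
    · subst h
      rw [sub_add_cancel]
      exact hdiag x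
    · rw [zero_add]
      exact hoff x y h
  have hli : LinearIndependent ℚ vec := by
    rw [Fintype.linearIndependent_iff]
    intro c hc
    have h0 : ∑ δ, (∑ x, c x • vec x) δ * (∑ y, c y • vec y) δ = 0 := by
      rw [hc]; simp
    have h1 : ∑ δ, (∑ x, c x • vec x) δ * (∑ y, c y • vec y) δ = (r - l) * (∑ x, c x * c x) + l * ((∑ x, c x) * (∑ y, c y)) := by
      have e1 : ∀ δ, (∑ x, c x • vec x) δ * (∑ y, c y • vec y) δ = ∑ x, ∑ y, (c x * c y) * (vec x δ * vec y δ) := by
        intro δ
        rw [Finset.sum_apply, Finset.sum_mul_sum]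
        refine Finset.sum_congr rfl (fun x _ => Finset.sum_congr rfl (fun y _ => ?_))
        simp only [Pi.smul_apply, smul_eq_mul]; ring
      rw [Finset.sum_congr rfl (fun δ _ => e1 δ), Finset.sum_comm]
      have e2 : ∀ x, (∑ δ, ∑ y, (c x * c y) * (vec x δ * vec y δ)) = (r - l) * (c x * c x) + l * (c x * ∑ y, c y) := by
        intro x
        rw [Finset.sum_comm]
        have e3 : ∀ y, (∑ δ, (c x * c y) * (vec x δ * vec y δ)) = (if x = y then (c x * c y) * (r - l) else 0) + l * (c x * c y) := by
          intro y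
          rw [← Finset.mul_sum, hgram]
          split_ifs <;> ring
        rw [Finset.sum_congr rfl (fun y _ => e3 y), Finset.sum_add_distrib, Finset.sum_ite_eq]
        simp only [Finset.mem_univ, if_true]
        rw [Finset.mul_sum, Finset.mul_sum]; ring
      rw [Finset.sum_congr rfl (fun x _ => e2 x), Finset.sum_add_distrib, ← Finset.mul_sum, ← Finset.mul_sum, ← Finset.sum_mul]
    rw [h0] at h1
    have h3 : 0 ≤ (∑ x, c x) * (∑ y, c y) := mul_self_nonneg _
    have h4 : 0 ≤ ∑ x, c x * c x := Finset.sum_nonneg (fun x _ => mul_self_nonneg _)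
    have h5 : ∑ x, c x * c x = 0 := by
      nlinarith [mul_nonneg hl0 h3, mul_nonneg hrl.le h4]
    intro i
    have h6 := (Finset.sum_eq_zero_iff_of_nonneg (fun x _ => mul_self_nonneg (c x))).1 h5 i (Finset.mem_univ _)
    exact mul_self_eq_zero.mp h6
  have hspan : Submodule.span ℚ (Set.range vec) = ⊤ := by
    apply hli.span_eq_top_of_card_eq_finrank'
    rw [Module.finrank_fintype_fun_eq_card, ← Nat.card_eq_fintype_card, ← Nat.card_eq_fintype_card, ← hidx]
    rfl
  -- a vector orthogonal to all vec y is zero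
  have horth : ∀ w : G ⧸ H → ℚ, (∀ y, ∑ δ, w δ * vec y δ = 0) → w = 0 := by
    intro w hw
    have h1 : ∀ v ∈ Submodule.span ℚ (Set.range vec), ∑ δ, w δ * v δ = 0 := by
      intro v hv
      induction hv using Submodule.span_induction with
      | mem x h => obtain ⟨y, rfl⟩ := h; exact hw y
      | zero => simp
      | add x y _ _ hx hy => simp only [Pi.add_apply, mul_add, Finset.sum_add_distrib, hx, hy, add_zero]
      | smul a x _ hx =>
        have : ∀ δ, w δ * (a • x) δ = a * (w δ * x δ) := by intro δ; simp only [Pi.smul_apply, smul_eq_mul]; ring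
        rw [Finset.sum_congr rfl (fun δ _ => this δ), ← Finset.mul_sum, hx, mul_zero]
    have h2 := h1 w (by rw [hspan]; trivial)
    ext δ
    have h6 := (Finset.sum_eq_zero_iff_of_nonneg (fun x _ => mul_self_nonneg (w x))).1 h2 δ (Finset.mem_univ _)
    exact mul_self_eq_zero.mp h6
  -- every invariant function is a * f + c
  have hlin : ∀ g : Ω → ℚ, (∀ h ∈ H, ∀ x, g (h • x) = g x) → ∃ a c : ℚ, ∀ x, g x = a * f x + c := by
    intro g hg
    set a' := kk H g f s0 s0 with ha'
    set b' := kk H g f s0 x0 with hb'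
    have hgd : ∀ x, kk H g f x x = a' := by
      intro x
      obtain ⟨u, hu⟩ := MulAction.exists_smul_eq G s0 x
      rw [← hu, kk_smul hg hf]
    have hgo : ∀ x y, x ≠ y → kk H g f x y = b' := by
      intro x y hxy
      obtain ⟨u, hu1, hu2⟩ := h2 hne hxy
      rw [← hu1, ← hu2, kk_smul hg hf]
    let a := (a' - b') / (r - l)
    let c := (b' - a * l) / r
    refine ⟨a, c, ?_⟩
    have hsumf : ∀ y, ∑ δ, vec y δ = r := by
      intro y
      rw [← hdiag y]
      unfold kk
      exact Finset.sum_congr rfl (fun δ _ => (htr01 δ y).symm)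
    have hw : ∀ x, (fun δ => tr H g δ x - a * tr H f δ x - c) = (0 : G ⧸ H → ℚ) := by
      intro x
      apply horth
      intro y
      have e1 : ∀ δ, (tr H g δ x - a * tr H f δ x - c) * vec y δ = tr H g δ x * tr H f δ y - a * (tr H f δ x * tr H f δ y) - c * vec y δ := by
        intro δ; simp only [vec]; ring
      rw [Finset.sum_congr rfl (fun δ _ => e1 δ), Finset.sum_sub_distrib, Finset.sum_sub_distrib, ← Finset.mul_sum, ← Finset.mul_sum, hsumf]
      change kk H g f x y - a * kk H f f x y - c * r = 0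
      have hc : c * r = b' - a * l := by
        simp only [c]; field_simp
      have haa : a * (r - l) = a' - b' := by
        simp only [a]; field_simp
      by_cases hxy : x = y
      · subst hxy
        rw [hgd, hdiag, hc]
        linear_combination -haa
      · rw [hgo x y hxy, hoff x y hxy, hc]; ring
    intro x
    have h1 := congrFun (hw x) ((1:G) : G ⧸ H)
    simp only [Pi.zero_apply] at h1
    rw [tr_one hg, tr_one hf] at h1
    linarith
  -- conclude
  rw [Nat.card_eq_two_iff]
  refine ⟨(Quotient.mk'' s0 : MulAction.orbitRel.Quotient H Ω), (Quotient.mk'' x0 : MulAction.orbitRel.Quotient H Ω), ?_, ?_⟩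
  · intro h
    rw [Quotient.eq''] at h
    rw [MulAction.orbitRel_apply, MulAction.orbit_eq_iff.symm] at h
    exact hx0 (by rw [h]; exact mem_orbit_self _)
  · ext q
    simp only [Set.mem_insert_iff, Set.mem_singleton_iff, Set.mem_univ, iff_true]
    induction q using Quotient.inductionOn' with
    | h y =>
      by_cases hy : y ∈ orbit H s0
      · left
        exact Quotient.sound' hy
      · right
        let g : Ω → ℚ := fun z => if z ∈ orbit H x0 then 1 else 0
        have hg : ∀ h ∈ H, ∀ x, g (h • x) = g x := by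
          intro h hh x
          have : h • x ∈ orbit H x0 ↔ x ∈ orbit H x0 := by
            change (⟨h, hh⟩ : H) • x ∈ orbit H x0 ↔ _
            rw [← orbit_eq_iff, orbit_smul, orbit_eq_iff]
          simp only [g, this]
        obtain ⟨a, c, hac⟩ := hlin g hg
        have e1 := hac x0
        have e2 := hac y
        have e3 : g x0 = 1 := by simp [g]
        have e4 : f y = 0 := by simp only [f, if_neg hy]
        rw [e3, hfx0] at e1
        rw [e4, ← e1] at e2
        by_contra hcon
        have e5 : y ∉ orbit H x0 := fun h => hcon (Quotient.sound' h)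
        have e6 : g y = 0 := by simp only [g, if_neg e5]
        rw [e6] at e2
        exact zero_ne_one e2

end Cfsg.Agent.S3704
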