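import Cfsg.Statements.S3706
import Cfsg.Agent.Lib.H50Des6
-- import your own Cfsg.Agent.* helpers here

set_option autoImplicit false
open Cfsg

namespace Cfsg.Agent.S3706

/-- Let G be a finite group acting faithfully and 2-transitively on a finite set Ω of size n, and let H be a subgroup of index n in G which is not transitive on Ω and fixes no point of Ω. Suppose H acts unfaithfully on one of its orbits: some non-identity element of H fixes every point of that orbit. Then there are an integer m ≥ 2 and a finite field F with #Ω = (#F^(m+1) − 1)/(#F − 1), and G has a normal subgroup isomorphic to PSL_{m+1}(F) whose centralizer in G is trivial (so that G lies between PSL_{m+1}(F) and its automorphism group). -/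
theorem result {G Ω : Type*} [Group G] [Finite G] [MulAction G Ω] [FaithfulSMul G Ω] [Finite Ω] (h2 : MulAction.IsMultiplyPretransitive G Ω 2) (H : Subgroup G) (hidx : H.index = Nat.card Ω) (hnt : ¬ MulAction.IsPretransitive H Ω) (hfix : ∀ a : Ω, ∃ h : H, h • a ≠ a) (hunf : ∃ a : Ω, ∃ h : H, h ≠ 1 ∧ ∀ b ∈ MulAction.orbit H a, h • b = b) : ∃ (m : ℕ) (F : Type) (_ : Field F) (_ : Fintype F), 2 ≤ m ∧ Nat.card Ω = (Fintype.card F ^ (m + 1) - 1) / (Fintype.card F - 1) ∧ ∃ N : Subgroup G, N.Normal ∧ Nonempty (N ≃* Matrix.ProjectiveSpecialLinearGroup (Fin (m + 1)) F) ∧ Subgroup.centralizer (N : Set G) = ⊥ := by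
  have h2' : ∀ a b c d : Ω, a ≠ b → c ≠ d → ∃ g : G, g • a = c ∧ g • b = d :=
    fun a b c d hab hcd => MulAction.is_two_pretransitive_iff.1 h2 hab hcd
  have hf : ∀ g : G, (∀ a : Ω, g • a = a) → g = 1 := fun g hg =>
    FaithfulSMul.eq_of_smul_eq_smul (α := Ω) fun a => by rw [hg a, one_smul]
  exact Cfsg.Agent.Lib.H50Des.kantor_thm h2' hf H hidx hnt hfix hunf

end Cfsg.Agent.S3706
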