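import Cfsg.Statements.S3707
import Mathlib

set_option autoImplicit false
open Cfsg

namespace Cfsg.Agent.S3707

open scoped Pointwise

variable {G Ω : Type*} [Group G] [MulAction G Ω]

/-- `Λ` is a Jordan complement: its pointwise stabilizer is transitive off `Λ`. -/
def JC (G : Type*) {Ω : Type*} [Group G] [MulAction G Ω] (Λ : Set Ω) : Prop :=
  ∀ x ∉ Λ, ∀ y ∉ Λ, ∃ g : G, (∀ z ∈ Λ, g • z = z) ∧ g • x = y

theorem JC.smul {Λ : Set Ω} (h : JC G Λ) (g : G) : JC G (g • Λ) := by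
  intro x hx y hy
  have hx' : g⁻¹ • x ∉ Λ := fun h' => hx (Set.mem_smul_set_iff_inv_smul_mem.2 h')
  have hy' : g⁻¹ • y ∉ Λ := fun h' => hy (Set.mem_smul_set_iff_inv_smul_mem.2 h')
  obtain ⟨u, hu1, hu2⟩ := h _ hx' _ hy'
  refine ⟨g * u * g⁻¹, ?_, ?_⟩
  · intro z hz
    have hz' := Set.mem_smul_set_iff_inv_smul_mem.1 hz
    rw [mul_smul, mul_smul, hu1 _ hz', smul_inv_smul]
  · rw [mul_smul, mul_smul, hu2, smul_inv_smul]

theorem JC.inter {Λ Λ' : Set Ω} (h : JC G Λ) (h' : JC G Λ') (hu : Λ ∪ Λ' ≠ Set.univ) : JC G (Λ ∩ Λ') := by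
  obtain ⟨c, hc⟩ : ∃ c, c ∉ Λ ∪ Λ' := by
    by_contra hcon
    push Not at hcon
    exact hu (Set.eq_univ_of_forall hcon)
  have hc1 : c ∉ Λ := fun h => hc (Or.inl h)
  have hc2 : c ∉ Λ' := fun h => hc (Or.inr h)
  have key : ∀ x ∉ Λ ∩ Λ', ∃ g : G, (∀ z ∈ Λ ∩ Λ', g • z = z) ∧ g • x = c := by
    intro x hx
    by_cases hx1 : x ∈ Λ
    · have hx2 : x ∉ Λ' := fun h => hx ⟨hx1, h⟩
      obtain ⟨g, hg1, hg2⟩ := h' x hx2 c hc2
      exact ⟨g, fun z hz => hg1 z hz.2, hg2⟩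
    · obtain ⟨g, hg1, hg2⟩ := h x hx1 c hc1
      exact ⟨g, fun z hz => hg1 z hz.1, hg2⟩
  intro x hx y hy
  obtain ⟨g, hg1, hg2⟩ := key x hx
  obtain ⟨k, hk1, hk2⟩ := key y hy
  refine ⟨k⁻¹ * g, ?_, ?_⟩
  · intro z hz
    rw [mul_smul, hg1 z hz, inv_smul_eq_iff, hk1 z hz]
  · rw [mul_smul, hg2, inv_smul_eq_iff, hk2]

theorem exists_smul_ne (hprim : MulAction.IsPreprimitive G Ω) {S : Set Ω} (h1 : S.Nontrivial) (h2 : S ≠ Set.univ) :
    ∃ g : G, g • S ≠ S ∧ (g • S ∩ S).Nonempty := by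
  by_contra hcon
  push Not at hcon
  have hb : MulAction.IsBlock G S := by
    rw [MulAction.isBlock_iff_smul_eq_or_disjoint]
    intro g
    by_cases h : g • S = S
    · exact Or.inl h
    · right
      rw [Set.disjoint_iff_inter_eq_empty]
      exact hcon g h
  rcases hprim.isTrivialBlock_of_isBlock hb with h | h
  · exact Set.not_subsingleton_iff.2 h1 h
  · exact h2 h

theorem minimal_JC [Finite Ω] {Λ0 : Set Ω} (h0 : JC G Λ0) {c : ℕ} (hc : c ≤ Λ0.ncard) (hn : (Λ0ᶜ).Nontrivial) :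
    ∃ Λ : Set Ω, JC G Λ ∧ c ≤ Λ.ncard ∧ (Λᶜ).Nontrivial ∧
      ∀ g : G, g • Λ ≠ Λ → Λ ∪ g • Λ ≠ Set.univ → (Λ ∩ g • Λ).ncard < c := by
  obtain ⟨Λ, ⟨h1, h2, h3⟩, hmin⟩ := Set.Finite.exists_minimalFor (fun Λ : Set Ω => Λ.ncard)
    {Λ : Set Ω | JC G Λ ∧ c ≤ Λ.ncard ∧ (Λᶜ).Nontrivial} (Set.toFinite _) ⟨Λ0, h0, hc, hn⟩
  refine ⟨Λ, h1, h2, h3, ?_⟩
  intro g hg hu
  by_contra hcon
  push Not at hcon
  have h4 : (Λ ∩ g • Λ) ∈ {Λ : Set Ω | JC G Λ ∧ c ≤ Λ.ncard ∧ (Λᶜ).Nontrivial} := by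
    refine ⟨h1.inter (h1.smul g) hu, hcon, ?_⟩
    refine h3.mono ?_
    intro x hx hx'
    exact hx hx'.1
  have h5 : Λ.ncard ≤ (Λ ∩ g • Λ).ncard := by
    by_contra hlt
    push Not at hlt
    have h6 : Λ.ncard ≤ (Λ ∩ g • Λ).ncard := hmin h4 hlt.le
    omega
  have h6 : Λ ∩ g • Λ = Λ := Set.eq_of_subset_of_ncard_le Set.inter_subset_left h5
  have h7 : Λ ⊆ g • Λ := by
    intro x hx
    rw [← h6] at hx
    exact hx.2
  have h8 : Λ = g • Λ := Set.eq_of_subset_of_ncard_le h7 (by rw [Set.ncard_smul_set])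
  exact hg h8.symm

theorem compl_meet [Finite Ω] (hprim : MulAction.IsPreprimitive G Ω) {Λ : Set Ω} (hn : (Λᶜ).Nontrivial) (hne : Λ.Nonempty) :
    ∃ g : G, g • Λ ≠ Λ ∧ Λ ∪ g • Λ ≠ Set.univ := by
  obtain ⟨g, hg1, hg2⟩ := exists_smul_ne hprim hn (by
    intro h
    obtain ⟨x, hx⟩ := hne
    have : x ∈ Λᶜ := by rw [h]; trivial
    exact this hx)
  refine ⟨g, ?_, ?_⟩
  · intro h
    apply hg1
    rw [Set.smul_set_compl, h]
  · intro h
    obtain ⟨x, hx1, hx2⟩ := hg2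
    rw [Set.smul_set_compl] at hx1
    have : x ∈ Λ ∪ g • Λ := by rw [h]; trivial
    rcases this with h' | h'
    · exact hx2 h'
    · exact hx1 h'

theorem two_trans [Finite Ω] (hprim : MulAction.IsPreprimitive G Ω) {Λ0 : Set Ω} (h0 : JC G Λ0)
    (hne0 : Λ0.Nonempty) (hn0 : (Λ0ᶜ).Nontrivial) :
    ∀ a b c d : Ω, a ≠ b → c ≠ d → ∃ g : G, g • a = c ∧ g • b = d := by
  obtain ⟨Λ, h1, h2, h3, h4⟩ := minimal_JC h0 (c := 1) (by rw [Nat.one_le_iff_ne_zero, ← Nat.pos_iff_ne_zero, Set.ncard_pos]; exact hne0) hn0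
  have hne : Λ.Nonempty := by rw [← Set.ncard_pos]; omega
  have hl : Λ.ncard = 1 := by
    by_contra hcon
    have hl2 : 1 < Λ.ncard := by omega
    have hnt : Λ.Nontrivial := (Set.one_lt_ncard_iff_nontrivial).1 hl2
    obtain ⟨g, hg1, hg2⟩ := compl_meet (G := G) hprim h3 hne
    have e1 := h4 g hg1 hg2
    have e2 := Set.ncard_union_add_ncard_inter Λ (g • Λ)
    rw [Set.ncard_smul_set] at e2
    have e3 : (Λ ∪ g • Λ).ncard < Nat.card Ω := by
      rw [← Set.ncard_univ]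
      exact Set.ncard_lt_ncard (Set.ssubset_univ_iff.2 hg2)
    obtain ⟨k, hk1, hk2⟩ := exists_smul_ne (G := G) hprim hnt (by
      intro h
      obtain ⟨x, hx⟩ := h3.nonempty
      rw [h] at hx
      exact hx trivial)
    by_cases hu : Λ ∪ k • Λ = Set.univ
    · have e4 := Set.ncard_union_add_ncard_inter Λ (k • Λ)
      rw [Set.ncard_smul_set, hu, Set.ncard_univ] at e4
      omega
    · have e5 := h4 k hk1 hu
      have e6 : (Λ ∩ k • Λ).Nonempty := by rw [Set.inter_comm]; exact hk2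
      rw [← Set.ncard_pos] at e6
      omega
  obtain ⟨p, hp⟩ := Set.ncard_eq_one.1 hl
  have ht : MulAction.IsPretransitive G Ω := hprim.toIsPretransitive
  intro a b c d hab hcd
  obtain ⟨u, hu⟩ := MulAction.exists_smul_eq G a p
  obtain ⟨v, hv⟩ := MulAction.exists_smul_eq G c p
  have k1 : u • b ∉ Λ := by
    rw [hp, Set.mem_singleton_iff, ← hu]
    intro h; exact hab (smul_left_cancel u h).symm
  have k2 : v • d ∉ Λ := by
    rw [hp, Set.mem_singleton_iff, ← hv]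
    intro h; exact hcd (smul_left_cancel v h).symm
  obtain ⟨w, hw1, hw2⟩ := h1 _ k1 _ k2
  refine ⟨v⁻¹ * w * u, ?_, ?_⟩
  · rw [mul_smul, mul_smul, hu, hw1 p (by rw [hp]; rfl), inv_smul_eq_iff, hv]
  · rw [mul_smul, mul_smul, hw2, inv_smul_smul]

/-- Let G be a finite primitive permutation group on Ω of degree n and Γ ⊂ Ω a subset with 1 < #Γ ≤ n/2 such that the pointwise stabilizer of Ω ∖ Γ is transitive on Γ. Then G is 3-transitive on Ω. -/
theorem result {G Ω : Type*} [Group G] [Finite G] [MulAction G Ω] [FaithfulSMul G Ω] [Finite Ω] (hprim : MulAction.IsPreprimitive G Ω) (Γ : Set Ω) (h1 : 1 < Γ.ncard) (h2 : 2 * Γ.ncard ≤ Nat.card Ω) (htr : ∀ x ∈ Γ, ∀ y ∈ Γ, ∃ g : G, (∀ z ∉ Γ, g • z = z) ∧ g • x = y) : MulAction.IsMultiplyPretransitive G Ω 3 := by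
  have hJ : JC G Γᶜ := by
    intro x hx y hy
    rw [Set.notMem_compl_iff] at hx hy
    exact htr x hx y hy
  have hcompl : Γ.ncard + (Γᶜ).ncard = Nat.card Ω := Set.ncard_add_ncard_compl Γ
  have hΓn : Γ.Nontrivial := Set.one_lt_ncard_iff_nontrivial.1 h1
  have hcc : ((Γᶜ)ᶜ).Nontrivial := by rw [compl_compl]; exact hΓn
  have h2t := two_trans hprim hJ (by rw [← Set.ncard_pos]; omega) hcc
  obtain ⟨Λ, k1, k2, k3, k4⟩ := minimal_JC hJ (c := 2) (by omega) hcc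
  have hneΛ : Λ.Nonempty := by rw [← Set.ncard_pos]; omega
  have hΛu : Λ ≠ Set.univ := by
    intro h
    obtain ⟨x, hx⟩ := k3.nonempty
    rw [h] at hx
    exact hx trivial
  have h2l : 2 * Λ.ncard ≤ Nat.card Ω := by
    obtain ⟨g, hg1, hg2⟩ := compl_meet (G := G) hprim k3 hneΛ
    have e1 := k4 g hg1 hg2
    have e2 := Set.ncard_union_add_ncard_inter Λ (g • Λ)
    rw [Set.ncard_smul_set] at e2
    have e3 : (Λ ∪ g • Λ).ncard < Nat.card Ω := by
      rw [← Set.ncard_univ]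
      exact Set.ncard_lt_ncard (Set.ssubset_univ_iff.2 hg2)
    omega
  have hlines0 : ∀ g : G, 1 < (Λ ∩ g • Λ).ncard → g • Λ = Λ := by
    intro g hg
    by_contra hne
    by_cases hu : Λ ∪ g • Λ = Set.univ
    · have e4 := Set.ncard_union_add_ncard_inter Λ (g • Λ)
      rw [Set.ncard_smul_set, hu, Set.ncard_univ] at e4
      omega
    · have := k4 g hne hu
      omega
  have hlines : ∀ (g g' : G) (a b : Ω), a ≠ b → a ∈ g • Λ → b ∈ g • Λ → a ∈ g' • Λ → b ∈ g' • Λ → g • Λ = g' • Λ := by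
    intro g g' a b hab ha hb ha' hb'
    have e : (g⁻¹ * g') • Λ = Λ := by
      apply hlines0
      rw [Set.one_lt_ncard_iff_nontrivial]
      refine ⟨g⁻¹ • a, ⟨Set.mem_smul_set_iff_inv_smul_mem.1 ha, ?_⟩, g⁻¹ • b, ⟨Set.mem_smul_set_iff_inv_smul_mem.1 hb, ?_⟩, ?_⟩
      · rw [mul_smul]; exact Set.smul_mem_smul_set ha'
      · rw [mul_smul]; exact Set.smul_mem_smul_set hb'
      · intro h; exact hab (smul_left_cancel _ h)
    calc g • Λ = g • ((g⁻¹ * g') • Λ) := by rw [e]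
      _ = g' • Λ := by rw [smul_smul, mul_inv_cancel_left]
  have hl : Λ.ncard = 2 := by
    by_contra hcon
    have hl3 : 3 ≤ Λ.ncard := by omega
    obtain ⟨x, hx⟩ := hΓn.nonempty
    obtain ⟨p, hp, q, hq, hpq⟩ := Set.one_lt_ncard_iff_nontrivial.1 (show 1 < Λ.ncard by omega)
    have hline : ∀ a b : Ω, a ≠ b → ∃ g : G, a ∈ g • Λ ∧ b ∈ g • Λ := by
      intro a b hab
      obtain ⟨g, hg1, hg2⟩ := h2t p q a b hpq hab
      exact ⟨g, hg1 ▸ Set.smul_mem_smul_set hp, hg2 ▸ Set.smul_mem_smul_set hq⟩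
    have hthird : ∀ (g : G) (a b : Ω), ∃ c ∈ g • Λ, c ≠ a ∧ c ≠ b := by
      intro g a b
      by_contra hn
      push Not at hn
      have hsub : g • Λ ⊆ {a, b} := by
        intro c hc
        by_cases hca : c = a
        · left; exact hca
        · right; exact hn c hc hca
      have e1 := Set.ncard_le_ncard hsub
      have e2 := Set.ncard_insert_le a {b}
      rw [Set.ncard_singleton] at e2
      rw [Set.ncard_smul_set] at e1
      omega
    have claim1 : ∀ (g : G) (y z z' : Ω), y ∈ Γ → y ∈ g • Λ → z ∉ Γ → z' ∉ Γ → z ≠ z' → z ∈ g • Λ → z' ∈ g • Λ → Γ ⊆ g • Λ := by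
      intro g y z z' hy hyg hz hz' hzz hzg hzg' w hw
      obtain ⟨u, hu1, hu2⟩ := htr y hy w hw
      have e : (u * g) • Λ = g • Λ := by
        apply hlines _ _ z z' hzz _ _ hzg hzg'
        · rw [mul_smul]
          have := Set.smul_mem_smul_set (a := u) hzg
          rwa [hu1 z hz] at this
        · rw [mul_smul]
          have := Set.smul_mem_smul_set (a := u) hzg'
          rwa [hu1 z' hz'] at this
      rw [← e, ← hu2, mul_smul]
      exact Set.smul_mem_smul_set hyg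
    have claimK : ∀ (g : G) (z z' : Ω), x ∈ g • Λ → z ∉ Γ → z' ∉ Γ → z ≠ z' → z ∈ g • Λ → z' ∈ g • Λ → False := by
      intro g z z' hxg hz hz' hzz hzg hzg'
      have c1 := claim1 g x z z' hx hxg hz hz' hzz hzg hzg'
      obtain ⟨w, hw⟩ : ∃ w, w ∉ g • Λ := by
        by_contra hn
        push Not at hn
        apply hΛu
        have : g • Λ = Set.univ := Set.eq_univ_of_forall hn
        rwa [Set.smul_set_eq_univ] at this
      have hwx : x ≠ w := by rintro rfl; exact hw hxg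
      obtain ⟨g', hg1, hg2⟩ := hline x w hwx
      obtain ⟨c, hc, hcx, hcw⟩ := hthird g' x w
      have hcg : c ∉ g • Λ := by
        intro h
        have := hlines g g' x c hcx.symm hxg h hg1 hc
        rw [← this] at hg2
        exact hw hg2
      have c2 := claim1 g' x w c hx hg1 (fun h => hw (c1 h)) (fun h => hcg (c1 h)) hcw.symm hg2 hc
      obtain ⟨a, ha, b, hb, hab⟩ := hΓn
      have := hlines g g' a b hab (c1 ha) (c1 hb) (c2 ha) (c2 hb)
      rw [← this] at hg2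
      exact hw hg2
    have hex : ∀ z : Ω, z ∉ Γ → ∃ u : Ω, ∃ g : G, u ∈ Γ ∧ u ≠ x ∧ x ∈ g • Λ ∧ z ∈ g • Λ ∧ u ∈ g • Λ := by
      intro z hz
      have hxz : x ≠ z := by rintro rfl; exact hz hx
      obtain ⟨g, hg1, hg2⟩ := hline x z hxz
      obtain ⟨u, hu, hux, huz⟩ := hthird g x z
      refine ⟨u, g, ?_, hux, hg1, hg2, hu⟩
      by_contra huΓ
      exact claimK g z u hg1 hz huΓ huz.symm hg2 hu
    choose! U hU using hex
    have hle : (Γᶜ).ncard ≤ (Γ \ {x}).ncard := by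
      refine Set.ncard_le_ncard_of_injOn U ?_ ?_
      · intro z hz
        obtain ⟨g, hg1, hg2, _⟩ := hU z hz
        exact ⟨hg1, hg2⟩
      · intro z hz z' hz' heq
        by_contra hne
        obtain ⟨g, e1, e2, e3, e4, e5⟩ := hU z hz
        obtain ⟨g', f1, f2, f3, f4, f5⟩ := hU z' hz'
        rw [← heq] at f5
        have := hlines g g' x (U z) e2.symm e3 e5 f3 f5
        rw [← this] at f4
        exact claimK g z z' e3 hz hz' hne e4 f4
    have e6 : (Γ \ {x}).ncard < Γ.ncard := by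
      refine Set.ncard_lt_ncard ⟨Set.sdiff_subset, fun h => ?_⟩ (Set.toFinite _)
      exact (h hx).2 rfl
    omega
  obtain ⟨a, b, hab, hΛ⟩ := Set.ncard_eq_two.1 hl
  rw [MulAction.isMultiplyPretransitive_iff]
  intro x y
  have x01 : x 0 ≠ x 1 := fun h => by have := x.injective h; simp at this
  have y01 : y 0 ≠ y 1 := fun h => by have := y.injective h; simp at this
  have x02 : x 2 ≠ x 0 := fun h => by have := x.injective h; simp at this
  have y02 : y 2 ≠ y 0 := fun h => by have := y.injective h; simp at this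
  have x12 : x 2 ≠ x 1 := fun h => by have := x.injective h; simp at this
  have y12 : y 2 ≠ y 1 := fun h => by have := y.injective h; simp at this
  obtain ⟨g, hg1, hg2⟩ := h2t _ _ a b x01 hab
  obtain ⟨k, hk1, hk2⟩ := h2t _ _ a b y01 hab
  have m1 : g • x 2 ∉ Λ := by
    rw [hΛ]
    rintro (h | h)
    · rw [← hg1] at h; exact x02 (smul_left_cancel _ h)
    · rw [Set.mem_singleton_iff, ← hg2] at h; exact x12 (smul_left_cancel _ h)
  have m2 : k • y 2 ∉ Λ := by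
    rw [hΛ]
    rintro (h | h)
    · rw [← hk1] at h; exact y02 (smul_left_cancel _ h)
    · rw [Set.mem_singleton_iff, ← hk2] at h; exact y12 (smul_left_cancel _ h)
  obtain ⟨w, hw1, hw2⟩ := k1 _ m1 _ m2
  have wa : w • a = a := hw1 a (by rw [hΛ]; simp)
  have wb : w • b = b := hw1 b (by rw [hΛ]; simp)
  refine ⟨k⁻¹ * w * g, ?_⟩
  ext i
  rw [Function.Embedding.smul_apply]
  fin_cases i
  · change (k⁻¹ * w * g) • x 0 = y 0
    rw [mul_smul, mul_smul, hg1, wa, inv_smul_eq_iff, hk1]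
  · change (k⁻¹ * w * g) • x 1 = y 1
    rw [mul_smul, mul_smul, hg2, wb, inv_smul_eq_iff, hk2]
  · change (k⁻¹ * w * g) • x 2 = y 2
    rw [mul_smul, mul_smul, hw2, inv_smul_smul]

end Cfsg.Agent.S3707
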