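import Cfsg.Statements.S3732
import Cfsg.Agent.Lib.OW14

set_option autoImplicit false
open Cfsg

namespace Cfsg.Agent.S3732

open Cfsg.Agent.Lib.OW in
theorem t2_of {P L : Type*} [Membership P L]
    (h2t : ∀ p₁ p₂ q₁ q₂ : P, p₁ ≠ p₂ → q₁ ≠ q₂ →
      ∃ (σ : Equiv.Perm P) (τ : Equiv.Perm L), (∀ (p : P) (l : L), σ p ∈ τ l ↔ p ∈ l) ∧ σ p₁ = q₁ ∧ σ p₂ = q₂) :
    T2 (fun (p : P) (l : L) => p ∈ l) := by
  intro p q p' q' hpq hpq'
  obtain ⟨σ, τ, h1, h2, h3⟩ := h2t p q p' q' hpq hpq'
  exact ⟨⟨(σ, τ), h1⟩, h2, h3⟩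

theorem fin_functional {F : Type} [Field F] (c : Fin 3 → F) (hc : c ≠ 0) :
    ∃ W : Submodule F (Fin 3 → F), Module.finrank F W = 2 ∧
      ∀ v : Fin 3 → F, v ∈ W ↔ c 0 * v 0 + c 1 * v 1 + c 2 * v 2 = 0 := by
  classical
  let f : (Fin 3 → F) →ₗ[F] F :=
    c 0 • LinearMap.proj 0 + c 1 • LinearMap.proj 1 + c 2 • LinearMap.proj 2
  have hf : ∀ v, f v = c 0 * v 0 + c 1 * v 1 + c 2 * v 2 := fun v => rfl
  refine ⟨LinearMap.ker f, ?_, fun v => by rw [LinearMap.mem_ker, hf]⟩
  have hs : Function.Surjective f := by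
    apply LinearMap.surjective
    intro h0
    apply hc
    funext i
    have h1 : f (Pi.single i 1) = 0 := by rw [h0]; rfl
    rw [hf] at h1
    fin_cases i <;> simpa using h1
  have h1 := LinearMap.finrank_range_add_finrank_ker f
  rw [LinearMap.range_eq_top.2 hs, finrank_top, Module.finrank_self,
    Module.finrank_fin_fun] at h1
  omega

/-- The Ostrom–Wagner Theorem. Let Π be a finite projective plane (points P, lines L) whose collineation group is 2-transitive on points: for any two ordered pairs of distinct points there is a permutation of the points, together with a compatible permutation of the lines preserving incidence, carrying the first pair to the second. Then Π is Desarguesian: there is a finite field F and a bijection from P onto the points of the projective plane over F (the 1-dimensional subspaces of F³) under which the lines of Π correspond exactly to the 2-dimensional subspaces of F³. -/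
theorem result
    {P L : Type*} [Membership P L] [Fintype P] [Fintype L] [Configuration.ProjectivePlane P L]
    (h2t : ∀ p₁ p₂ q₁ q₂ : P, p₁ ≠ p₂ → q₁ ≠ q₂ →
      ∃ (σ : Equiv.Perm P) (τ : Equiv.Perm L), (∀ (p : P) (l : L), σ p ∈ τ l ↔ p ∈ l) ∧ σ p₁ = q₁ ∧ σ p₂ = q₂) :
    ∃ (F : Type) (_ : Field F) (_ : Fintype F) (φ : P ≃ Projectivization F (Fin 3 → F)),
      (∀ l : L, ∃ W : Submodule F (Fin 3 → F), Module.finrank F W = 2 ∧
          ∀ p : P, p ∈ l ↔ (φ p).submodule ≤ W) ∧
      (∀ W : Submodule F (Fin 3 → F), Module.finrank F W = 2 →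
          ∃ l : L, ∀ p : P, p ∈ l ↔ (φ p).submodule ≤ W) := by
  classical
  have hN := Cfsg.Agent.Lib.OW.ofMathlib (P := P) (L := L)
  have t2 := t2_of h2t
  have mf := Cfsg.Agent.Lib.OW.gleason hN t2 (Cfsg.Agent.Lib.OW.hasEl hN t2)
  obtain ⟨F, hF, hfin, vec, hcard, hv0, hcov⟩ := Cfsg.Agent.Lib.OW.coords hN mf
  letI := Fintype.ofFinite F
  have hsep : ∀ p q : P, Projectivization.mk F (vec p) (hv0 p) = Projectivization.mk F (vec q) (hv0 q) →
      p = q := by
    intro p q hpq
    rw [Projectivization.mk_eq_mk_iff'] at hpq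
    obtain ⟨a, ha⟩ := hpq
    have hinc : ∀ l : L, q ∈ l → p ∈ l := by
      intro l hl
      obtain ⟨c, -, hc⟩ := hcov l
      rw [hc p, ← ha]
      have h1 := (hc q).1 hl
      simp only [Pi.smul_apply, smul_eq_mul]
      linear_combination a * h1
    by_contra hne
    obtain ⟨l, hl⟩ := hN.dual.exists_pt q
    obtain ⟨m, hm, hml, -⟩ := hN.exists_line2 q l l
    have h1 := hinc l hl
    have h2 := hinc m hm
    rcases hN.uniq h1 hl h2 hm with h3 | h3
    · exact hne h3
    · exact hml h3.symm
  have hinj : Function.Injective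
      (fun p : P => Projectivization.mk F (vec p) (hv0 p)) := fun p q h => hsep p q h
  have hcardP : Nat.card (Projectivization F (Fin 3 → F)) = Nat.card P := by
    rw [Projectivization.card_of_finrank F (Fin 3 → F) (Module.finrank_fin_fun F), hN.cardP,
      hcard]
    simp only [Finset.sum_range_succ, Finset.sum_range_zero, pow_zero, pow_one]
    ring
  have hbij := (Nat.bijective_iff_injective_and_card
    (fun p : P => Projectivization.mk F (vec p) (hv0 p))).2 ⟨hinj, hcardP.symm⟩
  let φ : P ≃ Projectivization F (Fin 3 → F) := Equiv.ofBijective _ hbij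
  have hφ : ∀ p, (φ p).submodule = Submodule.span F {vec p} := fun p =>
    Projectivization.submodule_mk _ _
  have hpart : ∀ l : L, ∃ W : Submodule F (Fin 3 → F), Module.finrank F W = 2 ∧
      ∀ p : P, p ∈ l ↔ (φ p).submodule ≤ W := by
    intro l
    obtain ⟨c, hc0, hc⟩ := hcov l
    obtain ⟨W, hW1, hW2⟩ := fin_functional c hc0
    refine ⟨W, hW1, fun p => ?_⟩
    rw [hφ, Submodule.span_singleton_le_iff_mem, hW2]
    exact hc p
  refine ⟨F, hF, inferInstance, φ, hpart, ?_⟩
  intro W hW
  let b := Module.finBasisOfFinrankEq F W hW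
  have hb0 : ∀ i, ((b i : W) : Fin 3 → F) ≠ 0 := fun i h0 => b.ne_zero i (Subtype.ext h0)
  obtain ⟨p, hp⟩ := φ.surjective (Projectivization.mk F _ (hb0 0))
  obtain ⟨q, hq⟩ := φ.surjective (Projectivization.mk F _ (hb0 1))
  have hpq : p ≠ q := by
    rintro rfl
    have h1 := hp.symm.trans hq
    rw [Projectivization.mk_eq_mk_iff'] at h1
    obtain ⟨a, ha⟩ := h1
    have h2 : a • b 1 = b 0 := Subtype.ext ha
    have h3 := b.linearIndependent
    rw [Fintype.linearIndependent_iff] at h3
    have h4 := h3 ![1, -a] (by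
      rw [Fin.sum_univ_two]
      simp only [Matrix.cons_val_zero, Matrix.cons_val_one, one_smul, neg_smul, h2]
      exact add_neg_cancel _) 0
    exact one_ne_zero h4
  obtain ⟨l, hl1, hl2⟩ := hN.join p q hpq
  obtain ⟨W', hW'1, hW'2⟩ := hpart l
  have h1 : ((b 0 : W) : Fin 3 → F) ∈ W' := by
    have := (hW'2 p).1 hl1
    rw [hp, Projectivization.submodule_mk, Submodule.span_singleton_le_iff_mem] at this
    exact this
  have h2 : ((b 1 : W) : Fin 3 → F) ∈ W' := by
    have := (hW'2 q).1 hl2
    rw [hq, Projectivization.submodule_mk, Submodule.span_singleton_le_iff_mem] at this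
    exact this
  have hle : W ≤ W' := by
    intro w hw
    have h3 := b.sum_repr ⟨w, hw⟩
    rw [Fin.sum_univ_two] at h3
    have h4 := congrArg Subtype.val h3
    have h5 : w = (b.repr ⟨w, hw⟩ 0) • ((b 0 : W) : Fin 3 → F) +
        (b.repr ⟨w, hw⟩ 1) • ((b 1 : W) : Fin 3 → F) := h4.symm
    rw [h5]
    exact W'.add_mem (W'.smul_mem _ h1) (W'.smul_mem _ h2)
  have hWW : W = W' := Submodule.eq_of_le_of_finrank_eq hle (by rw [hW, hW'1])
  exact ⟨l, fun r => by rw [hWW]; exact hW'2 r⟩

end Cfsg.Agent.S3732
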