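import Cfsg.Statements.S3733
import Mathlib

set_option autoImplicit false
open Cfsg

namespace Cfsg.Agent.S3733

/-- Let A and V be subgroups of a finite group with V abelian and nontrivial and A normalizing V. Suppose a nonempty finite family of proper subgroups of A partitions A: every non-identity element of A lies in exactly one member. If the number of members minus one is coprime to the order of V, then some member B of the family has a non-identity fixed point on V, that is V ∩ C(B) ≠ 1. -/
theorem result {G : Type*} [Group G] [Finite G] (A V : Subgroup G) (hVab : IsMulCommutative V) (hV : V ≠ ⊥) (hAV : A ≤ Subgroup.normalizer (V : Set G)) (𝒜 : Finset (Subgroup G)) (hne : 𝒜.Nonempty) (hprop : ∀ B ∈ 𝒜, B < A) (hpart : ∀ a ∈ A, a ≠ 1 → ∃! B, B ∈ 𝒜 ∧ a ∈ B) (hk : (𝒜.card - 1).Coprime (Nat.card V)) : ∃ B ∈ 𝒜, V ⊓ Subgroup.centralizer (B : Set G) ≠ ⊥ := by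
  classical
  by_contra hcon
  push Not at hcon
  let _ : Fintype A := Fintype.ofFinite A
  let _ : CommGroup V := { (inferInstance : Group V) with mul_comm := fun a b => hVab.is_comm.comm a b }
  let act : A → V →* V := fun a =>
    { toFun := fun v => ⟨(a:G) * v * (a:G)⁻¹, ((hAV a.2) v).1 v.2⟩
      map_one' := by ext; simp
      map_mul' := fun v w => by ext; simp [mul_assoc] }
  have act_mul : ∀ (a b : A) (v : V), act (a * b) v = act a (act b v) := by
    intro a b v
    ext
    simp [act, mul_assoc]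
  let S : Subgroup G → Finset A := fun B => Finset.univ.filter (fun a => (a:G) ∈ B)
  have hfix : ∀ (B : Subgroup G), B ≤ A → ∀ v : V, ∀ b : A, (b:G) ∈ B →
      act b (∏ a ∈ S B, act a v) = ∏ a ∈ S B, act a v := by
    intro B hB v b hb
    rw [map_prod]
    refine Finset.prod_bij (fun a _ => b * a) ?_ ?_ ?_ ?_
    · intro a ha
      simp only [S, Finset.mem_filter, Finset.mem_univ, true_and] at ha ⊢
      exact B.mul_mem hb ha
    · intro a _ a' _ h
      exact mul_left_cancel h
    · intro a ha
      refine ⟨b⁻¹ * a, ?_, by simp⟩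
      simp only [S, Finset.mem_filter, Finset.mem_univ, true_and] at ha ⊢
      exact B.mul_mem (B.inv_mem hb) ha
    · intro a _
      exact (act_mul b a v).symm
  have hone : ∀ (B C : Subgroup G), C ∈ 𝒜 → C ≤ B → B ≤ A → ∀ v : V, (∏ a ∈ S B, act a v) = 1 := by
    intro B C hC hCB hB v
    have h1 : ((∏ a ∈ S B, act a v : V) : G) ∈ V ⊓ Subgroup.centralizer (C : Set G) := by
      refine Subgroup.mem_inf.mpr ⟨(∏ a ∈ S B, act a v : V).2, ?_⟩
      rw [Subgroup.mem_centralizer_iff]
      intro c hc
      have h2 := hfix B hB v ⟨c, hB (hCB hc)⟩ (hCB hc)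
      have h3 := congrArg (Subtype.val) h2
      simp only [act, MonoidHom.coe_mk, OneHom.coe_mk] at h3
      rw [mul_inv_eq_iff_eq_mul] at h3
      exact h3
    rw [hcon C hC] at h1
    rw [Subgroup.mem_bot] at h1
    exact Subtype.ext h1
  obtain ⟨C, hC⟩ := hne
  have hA := hone A C hC (hprop C hC).le le_rfl
  have hB : ∀ v : V, ∏ B ∈ 𝒜, ∏ a ∈ S B, act a v = 1 := by
    intro v
    exact Finset.prod_eq_one (fun B hB => hone B B hB le_rfl (hprop B hB).le v)
  have hcount : ∀ v : V, ∏ B ∈ 𝒜, ∏ a ∈ S B, act a v = ∏ a : A, (act a v) ^ (𝒜.filter (fun B => (a:G) ∈ B)).card := by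
    intro v
    have : ∀ B ∈ 𝒜, ∏ a ∈ S B, act a v = ∏ a : A, if (a:G) ∈ B then act a v else 1 := by
      intro B _
      simp only [S]
      rw [Finset.prod_filter]
    rw [Finset.prod_congr rfl this, Finset.prod_comm]
    refine Finset.prod_congr rfl (fun a _ => ?_)
    rw [← Finset.prod_filter, Finset.prod_const]
  have hcard : ∀ a : A, a ≠ 1 → (𝒜.filter (fun B => (a:G) ∈ B)).card = 1 := by
    intro a ha
    obtain ⟨B, ⟨hB1, hB2⟩, hB3⟩ := hpart a a.2 (by simpa using ha)
    rw [Finset.card_eq_one]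
    refine ⟨B, ?_⟩
    ext D
    simp only [Finset.mem_filter, Finset.mem_singleton]
    constructor
    · intro h; exact hB3 D h
    · rintro rfl; exact ⟨hB1, hB2⟩
  have hcard1 : (𝒜.filter (fun B => ((1:A):G) ∈ B)).card = 𝒜.card := by
    congr 1
    rw [Finset.filter_eq_self]
    intro B _
    simpa using B.one_mem
  have hpos : 0 < 𝒜.card := Finset.card_pos.mpr ⟨C, hC⟩
  have hpow : ∀ v : V, v ^ (𝒜.card - 1) = 1 := by
    intro v
    have h1 := hcount v
    rw [hB v] at h1
    have h2 := hA v
    have hSA : S A = Finset.univ := by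
      simp only [S]
      rw [Finset.filter_eq_self]
      intro a _
      exact a.2
    rw [hSA] at h2
    have e1 : ∏ a : A, (act a v) ^ (𝒜.filter (fun B => (a:G) ∈ B)).card
        = (∏ a : A, act a v) * v ^ (𝒜.card - 1) := by
      rw [← Finset.mul_prod_erase Finset.univ _ (Finset.mem_univ (1:A)),
        ← Finset.mul_prod_erase Finset.univ (fun a => act a v) (Finset.mem_univ (1:A)), hcard1]
      have e2 : ∏ a ∈ Finset.univ.erase (1:A), (act a v) ^ (𝒜.filter (fun B => (a:G) ∈ B)).card
          = ∏ a ∈ Finset.univ.erase (1:A), act a v := by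
        refine Finset.prod_congr rfl (fun a ha => ?_)
        rw [hcard a (Finset.ne_of_mem_erase ha), pow_one]
      rw [e2]
      have e3 : act 1 v = v := by
        ext
        simp [act]
      rw [e3]
      have e4 : v ^ 𝒜.card = v * v ^ (𝒜.card - 1) := by
        rw [← pow_succ']
        congr 1
        omega
      rw [e4, mul_assoc, mul_comm (v ^ (𝒜.card - 1)), mul_assoc]
    rw [e1, h2, one_mul] at h1
    exact h1.symm
  apply hV
  rw [Subgroup.eq_bot_iff_forall]
  intro x hx
  have h1 := hpow ⟨x, hx⟩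
  have h2 : orderOf (⟨x, hx⟩ : V) ∣ 𝒜.card - 1 := orderOf_dvd_of_pow_eq_one h1
  have h3 : orderOf (⟨x, hx⟩ : V) ∣ Nat.card V := orderOf_dvd_natCard _
  have h4 := Nat.eq_one_of_dvd_coprimes hk h2 h3
  rw [orderOf_eq_one_iff] at h4
  exact congrArg Subtype.val h4

end Cfsg.Agent.S3733
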