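import Cfsg.Statements.S3735
import Mathlib

set_option autoImplicit false
open Cfsg
open scoped Pointwise

namespace Cfsg.Agent.S3735

variable {G : Type*} [Group G]

theorem le_norm_iff (A U : Subgroup G) :
    A ≤ Subgroup.normalizer (U : Set G) ↔ ∀ a ∈ A, ∀ u ∈ U, a * u * a⁻¹ ∈ U := by
  constructor
  · intro h a ha u hu
    exact ((h ha) u).1 hu
  · intro h a ha n
    constructor
    · intro hn; exact h a ha n hn
    · intro hn
      have := h a⁻¹ (A.inv_mem ha) _ hn
      simpa [mul_assoc] using this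

theorem norm_sup {A U W : Subgroup G} (hU : A ≤ Subgroup.normalizer (U : Set G))
    (hW : A ≤ Subgroup.normalizer (W : Set G)) : A ≤ Subgroup.normalizer ((U ⊔ W : Subgroup G) : Set G) := by
  rw [le_norm_iff] at *
  intro a ha u hu
  have h1 : U ⊔ W ≤ (U ⊔ W).comap (MulAut.conj a).toMonoidHom := by
    refine sup_le ?_ ?_
    · intro x hx
      exact Subgroup.mem_sup_left (hU a ha x hx)
    · intro x hx
      exact Subgroup.mem_sup_right (hW a ha x hx)
  exact h1 hu

theorem norm_inf {A U W : Subgroup G} (hU : A ≤ Subgroup.normalizer (U : Set G))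
    (hW : A ≤ Subgroup.normalizer (W : Set G)) : A ≤ Subgroup.normalizer ((U ⊓ W : Subgroup G) : Set G) := by
  rw [le_norm_iff] at *
  intro a ha u hu
  rw [Subgroup.mem_inf] at *
  exact ⟨hU a ha u hu.1, hW a ha u hu.2⟩

/-- Clifford's Theorem for actions on finite abelian groups, first part. Let H and V be subgroups of a finite group with V abelian and H normalizing V, and let A be a normal subgroup of H. If every H-invariant subgroup of V has an H-invariant complement in V, then every A-invariant subgroup of V has an A-invariant complement in V. -/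
theorem result {G : Type*} [Group G] [Finite G] (H A V : Subgroup G) (hVab : IsMulCommutative V) (hHV : H ≤ Subgroup.normalizer (V : Set G)) (hAH : A ≤ H) (hAn : H ≤ Subgroup.normalizer (A : Set G)) (hss : ∀ U : Subgroup G, U ≤ V → H ≤ Subgroup.normalizer (U : Set G) → ∃ W : Subgroup G, W ≤ V ∧ H ≤ Subgroup.normalizer (W : Set G) ∧ U ⊓ W = ⊥ ∧ U ⊔ W = V) (U : Subgroup G) (hUV : U ≤ V) (hAU : A ≤ Subgroup.normalizer (U : Set G)) : ∃ W : Subgroup G, W ≤ V ∧ A ≤ Subgroup.normalizer (W : Set G) ∧ U ⊓ W = ⊥ ∧ U ⊔ W = V := by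
  classical
  let P : Subgroup G → Prop := fun T => T ≤ V ∧ A ≤ Subgroup.normalizer (T : Set G) ∧ T ≠ ⊥ ∧
    ∀ T' : Subgroup G, T' ≤ T → A ≤ Subgroup.normalizer (T' : Set G) → T' = ⊥ ∨ T' = T
  let S : Subgroup G := sSup {T | P T}
  have hSV : S ≤ V := sSup_le (fun T hT => hT.1)
  -- minimal ones exist below every nontrivial A-invariant one
  have hmin : ∀ W : Subgroup G, W ≤ V → A ≤ Subgroup.normalizer (W : Set G) → W ≠ ⊥ → ∃ T, P T ∧ T ≤ W := by
    intro W hWV hAW hW
    obtain ⟨T, hT, hTm⟩ := Set.Finite.exists_minimal (s := {T : Subgroup G | T ≤ W ∧ A ≤ Subgroup.normalizer (T : Set G) ∧ T ≠ ⊥})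
      (Set.toFinite _) ⟨W, le_rfl, hAW, hW⟩
    refine ⟨T, ⟨hT.1.trans hWV, hT.2.1, hT.2.2, ?_⟩, hT.1⟩
    intro T' hT'T hAT'
    by_cases h0 : T' = ⊥
    · exact Or.inl h0
    · right
      exact le_antisymm hT'T (hTm ⟨hT'T.trans hT.1, hAT', h0⟩ hT'T)
  -- conjugation
  have hconj : ∀ h ∈ H, ∀ T, P T → P (T.map (MulAut.conj h).toMonoidHom) := by
    intro h hh T hT
    obtain ⟨h1, h2, h3, h4⟩ := hT
    have inv_norm : ∀ g ∈ H, ∀ T : Subgroup G, A ≤ Subgroup.normalizer (T : Set G) →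
        A ≤ Subgroup.normalizer ((T.map (MulAut.conj g).toMonoidHom : Subgroup G) : Set G) := by
      intro g hg T hAT
      rw [le_norm_iff] at hAT ⊢
      rintro a ha _ ⟨t, ht, rfl⟩
      refine ⟨(g⁻¹ * a * g) * t * (g⁻¹ * a * g)⁻¹, hAT _ ?_ t ht, ?_⟩
      · have := (le_norm_iff H A).1 hAn g⁻¹ (H.inv_mem hg) a ha
        simpa using this
      · simp [mul_assoc]
    refine ⟨?_, inv_norm h hh T h2, ?_, ?_⟩
    · rintro _ ⟨t, ht, rfl⟩
      exact (le_norm_iff H V).1 hHV h hh t (h1 ht)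
    · intro h0
      apply h3
      rwa [Subgroup.map_eq_bot_iff_of_injective] at h0
      exact (MulAut.conj h).injective
    · intro T' hT'T hAT'
      have e : (T'.map (MulAut.conj h⁻¹).toMonoidHom).map (MulAut.conj h).toMonoidHom = T' := by
        rw [Subgroup.map_map]
        convert Subgroup.map_id T'
        ext x
        simp [mul_assoc]
      have e' : (T.map (MulAut.conj h).toMonoidHom).map (MulAut.conj h⁻¹).toMonoidHom = T := by
        rw [Subgroup.map_map]
        convert Subgroup.map_id T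
        ext x
        simp [mul_assoc]
      have hle : T'.map (MulAut.conj h⁻¹).toMonoidHom ≤ T := by
        rw [← e']
        exact Subgroup.map_mono hT'T
      rcases h4 _ hle (inv_norm _ (H.inv_mem hh) _ hAT') with h0 | h0
      · left
        rw [← e, h0, Subgroup.map_bot]
      · right
        rw [← e, h0]
  have hSH : H ≤ Subgroup.normalizer (S : Set G) := by
    rw [le_norm_iff]
    intro h hh s hs
    have h1 : S ≤ S.comap (MulAut.conj h).toMonoidHom := by
      refine sSup_le ?_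
      intro T hT x hx
      have h2 := hconj h hh T hT
      exact (le_sSup (a := T.map (MulAut.conj h).toMonoidHom) h2 : _ ≤ S) ⟨x, hx, rfl⟩
    exact h1 hs
  have hSeq : S = V := by
    obtain ⟨W, hWV, hHW, hSW, hSW'⟩ := hss S hSV hSH
    by_cases hW : W = ⊥
    · rw [hW, sup_bot_eq] at hSW'
      exact hSW'
    · exfalso
      obtain ⟨T, hT, hTW⟩ := hmin W hWV (hAH.trans hHW) hW
      have : T ≤ S ⊓ W := le_inf (le_sSup hT) hTW
      rw [hSW] at this
      exact hT.2.2.1 (le_bot_iff.mp this)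
  -- maximal complement
  obtain ⟨W, hW, hWm⟩ := Set.Finite.exists_maximal (s := {W : Subgroup G | W ≤ V ∧ A ≤ Subgroup.normalizer (W : Set G) ∧ U ⊓ W = ⊥})
      (Set.toFinite _) ⟨⊥, bot_le, by rw [le_norm_iff]; intro a _ u hu; rw [Subgroup.mem_bot] at *; simp [hu], by simp⟩
  refine ⟨W, hW.1, hW.2.1, hW.2.2, ?_⟩
  refine le_antisymm (sup_le hUV hW.1) ?_
  rw [← hSeq]
  refine sSup_le ?_
  intro T hT
  by_contra hTn
  have hnUW := norm_sup hAU hW.2.1
  have hTi : T ⊓ (U ⊔ W) = ⊥ := by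
    rcases hT.2.2.2 (T ⊓ (U ⊔ W)) inf_le_left (norm_inf hT.2.1 hnUW) with h0 | h0
    · exact h0
    · exact absurd (inf_eq_left.mp h0) hTn
  have hcomm : ∀ x ∈ V, ∀ y ∈ V, x * y = y * x := by
    intro x hx y hy
    have := hVab.is_comm.comm (⟨x, hx⟩ : V) ⟨y, hy⟩
    exact congrArg Subtype.val this
  have hmemsup : ∀ (X Y : Subgroup G), X ≤ V → Y ≤ V → ∀ z ∈ X ⊔ Y, ∃ x ∈ X, ∃ y ∈ Y, x * y = z := by
    intro X Y hX hY z hz
    have hle : X ≤ Subgroup.normalizer (Y : Set G) := by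
      rw [le_norm_iff]
      intro x hx y hy
      rw [hcomm x (hX hx) y (hY hy)]
      simpa using hy
    have h4 : z ∈ (X : Set G) * (Y : Set G) := by
      rw [← Subgroup.coe_mul_of_left_le_normalizer_right X Y hle]; exact hz
    obtain ⟨x, hx, y, hy, h5⟩ := h4
    exact ⟨x, hx, y, hy, h5⟩
  have hnew : U ⊓ (W ⊔ T) = ⊥ := by
    rw [Subgroup.eq_bot_iff_forall]
    intro u hu
    rw [Subgroup.mem_inf] at hu
    obtain ⟨w, hw, t, ht, hwt⟩ := hmemsup W T hW.1 hT.1 u hu.2
    have ht' : t ∈ T ⊓ (U ⊔ W) := by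
      refine Subgroup.mem_inf.mpr ⟨ht, ?_⟩
      have : t = w⁻¹ * u := by rw [← hwt]; group
      rw [this]
      exact Subgroup.mul_mem _ (Subgroup.inv_mem _ (Subgroup.mem_sup_right hw)) (Subgroup.mem_sup_left hu.1)
    rw [hTi, Subgroup.mem_bot] at ht'
    rw [ht', mul_one] at hwt
    have : u ∈ U ⊓ W := Subgroup.mem_inf.mpr ⟨hu.1, hwt ▸ hw⟩
    rw [hW.2.2, Subgroup.mem_bot] at this
    exact this
  have := hWm (y := W ⊔ T) ⟨sup_le hW.1 hT.1, norm_sup hW.2.1 hT.2.1, hnew⟩ le_sup_left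
  exact hTn ((le_sup_right.trans this).trans le_sup_right)

end Cfsg.Agent.S3735
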