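import Cfsg.Statements.S3736
import Mathlib
import Cfsg.Agent.Lib.HHRed

set_option autoImplicit false
open Cfsg

namespace Cfsg.Agent.S3736

/-- The Hall–Higman reduction for a minimal non-trivial action. Let B, A and P be subgroups of a finite group with P a p-group, B normalizing P, and A a normal subgroup of B of order prime to p. Suppose A does not centralize P but centralizes every proper B-invariant subgroup of P. Then [P, A] = P; P is elementary abelian or special; B acts irreducibly on P/Φ(P), that is, the only B-invariant subgroups of P containing Φ(P) are Φ(P) and P; and if p is odd then every element of P has order dividing p. -/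
theorem result {X : Type*} [Group X] [Finite X] {p : ℕ} [Fact p.Prime] (B A P : Subgroup X) (hP : IsPGroup p P) (hBP : B ≤ Subgroup.normalizer (P : Set X)) (hAB : A ≤ B) (hAn : B ≤ Subgroup.normalizer (A : Set X)) (hAp : (Nat.card A).Coprime p) (hnt : ⁅P, A⁆ ≠ ⊥) (hmin : ∀ U : Subgroup X, U < P → B ≤ Subgroup.normalizer (U : Set X) → ⁅U, A⁆ = ⊥) : ⁅P, A⁆ = P ∧ (Cfsg.IsElementaryAbelian p P ∨ Cfsg.IsSpecial p ↥P) ∧ (∀ U : Subgroup X, (frattini ↥P).map P.subtype ≤ U → U ≤ P → B ≤ Subgroup.normalizer (U : Set X) → U = (frattini ↥P).map P.subtype ∨ U = P) ∧ (p ≠ 2 → ∀ x ∈ P, x ^ p = 1) := by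
  obtain ⟨h1, h2, h3, h4, -⟩ := Cfsg.Agent.Lib.HHRed.main B A P hP hBP hAB hAn hAp hnt hmin
  exact ⟨h1, h2.imp id And.left, h3, h4⟩

end Cfsg.Agent.S3736
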