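import Cfsg.Statements.S3737
import Mathlib
import Cfsg.Agent.Lib.HHRed
import Cfsg.Agent.Lib.BaerTrick

set_option autoImplicit false
open Cfsg

namespace Cfsg.Agent.S3737

open Subgroup Cfsg.Agent.Lib
open scoped commutatorElement

universe u

/-- The exponent `p`, class two case. -/
theorem small {X : Type u} [Group X] [Finite X] {p : ℕ} [hpf : Fact p.Prime] (hp : p ≠ 2) (P Q G : Subgroup X)
    (hP : IsPGroup p P) (hQ : (Nat.card Q).Coprime p) (hPQ : P ≤ normalizer (Q : Set X)) (hG : IsPGroup p G)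
    (hPG : P ≤ normalizer (G : Set X)) (hQG : Q ≤ normalizer (G : Set X))
    (hC : G ⊓ centralizer (P : Set X) ≤ centralizer (Q : Set X)) (hexp : ∀ x ∈ G, x ^ p = 1)
    (hcl : ∀ x y : G, ⁅x, y⁆ ∈ center G) : Q ≤ centralizer (G : Set X) := by
  by_contra hcon
  set N : Subgroup X := normalizer (G : Set X) with hN
  set f : N →* MulAut G := G.normalizerMonoidHom with hf
  have hfv : ∀ (n : N) (x : G), ((f n x : G) : X) = (n : X) * x * (n : X)⁻¹ := fun n x => rfl
  have hPi : ∀ g ∈ P, ∀ hg : g ∈ N, f ⟨g, hg⟩ ∈ (P.subgroupOf N).map f := fun g hg hgN => ⟨⟨g, hgN⟩, hg, rfl⟩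
  have hQi : ∀ g ∈ Q, ∀ hg : g ∈ N, f ⟨g, hg⟩ ∈ (Q.subgroupOf N).map f := fun g hg hgN => ⟨⟨g, hgN⟩, hg, rfl⟩
  have hPp : IsPGroup p ↥((P.subgroupOf N).map f) := (hP.comap_subtype).map f
  have hQc : (Nat.card ↥((Q.subgroupOf N).map f)).Coprime p := by
    refine Nat.Coprime.coprime_dvd_left (card_map_dvd _ f) ?_
    rw [Nat.card_congr (subgroupOfEquivOfLe hQG).toEquiv]
    exact hQ
  have hPQn : (P.subgroupOf N).map f ≤ normalizer (((Q.subgroupOf N).map f : Subgroup _) : Set (MulAut G)) := by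
    rw [Subgroup.le_normalizer_iff]
    rintro _ ⟨g, hg, rfl⟩ _ ⟨a, ha, rfl⟩
    rw [← map_inv, ← map_mul, ← map_mul]
    exact ⟨g * a * g⁻¹, (mem_normalizer_iff.mp (hPQ hg) a).mp ha, rfl⟩
  have hne : ∃ a ∈ (Q.subgroupOf N).map f, ∃ x : G, a x ≠ x := by
    by_contra hall
    push Not at hall
    apply hcon
    intro a ha
    rw [mem_centralizer_iff]
    intro x hx
    have h1 := hall _ (hQi a ha (hQG ha)) ⟨x, hx⟩
    have h2 := congrArg Subtype.val h1
    rw [hfv] at h2
    exact (mul_inv_eq_iff_eq_mul.mp h2).symm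
  obtain ⟨x, hxP, a, ha, hxa⟩ := BaerTrick.main hp hG hcl
    (fun x => Subtype.ext (hexp x x.2)) _ _ hPp hQc hPQn hne
  obtain ⟨b, hb, rfl⟩ := ha
  apply hxa
  have hxc : (x : X) ∈ centralizer (P : Set X) := by
    rw [mem_centralizer_iff]
    intro g hg
    have h2 := congrArg Subtype.val (hxP _ (hPi g hg (hPG hg)))
    rw [hfv] at h2
    exact mul_inv_eq_iff_eq_mul.mp h2
  have h3 := mem_centralizer_iff.mp (hC ⟨x.2, hxc⟩) b hb
  apply Subtype.ext
  rw [hfv]
  exact mul_inv_eq_iff_eq_mul.mpr h3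

theorem main {X : Type u} [Group X] [Finite X] {p : ℕ} [hpf : Fact p.Prime] (hp : p ≠ 2) (P Q : Subgroup X)
    (hP : IsPGroup p P) (hQ : (Nat.card Q).Coprime p) (hPQ : P ≤ normalizer (Q : Set X)) :
    ∀ (n : ℕ) (G : Subgroup X), Nat.card G = n → IsPGroup p G → P ≤ normalizer (G : Set X) →
      Q ≤ normalizer (G : Set X) → G ⊓ centralizer (P : Set X) ≤ centralizer (Q : Set X) →
      Q ≤ centralizer (G : Set X) := by
  intro n
  induction n using Nat.strong_induction_on with
  | _ n ih =>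
  intro G hn hG hPG hQG hC
  by_contra hcon
  have hnt : ⁅G, Q⁆ ≠ ⊥ := fun h =>
    hcon (Components.le_centralizer_comm (Components.le_centralizer_iff_commutator.mpr h))
  have hmin : ∀ U : Subgroup X, U < G → P ⊔ Q ≤ normalizer (U : Set X) → ⁅U, Q⁆ = ⊥ := by
    intro U hU hBU
    have h1 := ih (Nat.card U) (hn ▸ GroupUtil.card_lt_card hU) U rfl (hG.to_le hU.le)
      (le_sup_left.trans hBU) (le_sup_right.trans hBU) ((inf_le_inf_right _ hU.le).trans hC)
    exact Components.le_centralizer_iff_commutator.mp (Components.le_centralizer_comm h1)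
  obtain ⟨h1, h2, h3, h4, h5⟩ := HHRed.main (P ⊔ Q) Q G hG (sup_le hPG hQG) le_sup_right
    (sup_le hPQ le_normalizer) hQ hnt hmin
  apply hcon
  refine small hp P Q G hP hQ hPQ hG hPG hQG hC (h4 hp) ?_
  intro x y
  rcases h2 with h2 | ⟨h2, -⟩
  · have h6 : ⁅x, y⁆ = 1 := by
      have := isMulCommutative_iff.mp h2.1 x y
      rw [commutatorElement_def, this]; group
    rw [h6]; exact one_mem _
  · exact PGroupClassTwo.comm_mem_center_of_special h2 x y

/-- Thompson's strengthening of the P × Q lemma for odd primes. Let p be an odd prime and let P, Q and G be subgroups of a finite group with P a p-group, Q of order prime to p and normalized by P, and G a p-group normalized by both P and Q. If every element of G centralized by P is centralized by Q, then Q centralizes G. -/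
theorem result {X : Type*} [Group X] [Finite X] {p : ℕ} [Fact p.Prime] (hp : p ≠ 2) (P Q G : Subgroup X) (hP : IsPGroup p P) (hQ : (Nat.card Q).Coprime p) (hPQ : P ≤ Subgroup.normalizer (Q : Set X)) (hG : IsPGroup p G) (hPG : P ≤ Subgroup.normalizer (G : Set X)) (hQG : Q ≤ Subgroup.normalizer (G : Set X)) (hC : G ⊓ Subgroup.centralizer (P : Set X) ≤ Subgroup.centralizer (Q : Set X)) : Q ≤ Subgroup.centralizer (G : Set X) := by
  exact main hp P Q hP hQ hPQ _ G rfl hG hPG hQG hC

end Cfsg.Agent.S3737
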