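import Cfsg.Statements.S3738
import Mathlib
import Cfsg.Agent.Lib.H62Rank2

set_option autoImplicit false
open Cfsg

namespace Cfsg.Agent.S3738

/-- Let d be a non-identity 3-element of a finite group and P a 2-subgroup normalized by d on which ⟨d⟩ acts faithfully (no non-identity power of d centralizes P) and without non-identity fixed points (C_P(d) = 1). If every abelian subgroup of P has 2-rank at most 2, then d has order 3. -/
theorem result {X : Type*} [Group X] [Finite X] (d : X) (n : ℕ) (hn : 1 ≤ n) (hd : orderOf d = 3 ^ n) (P : Subgroup X) (hP : IsPGroup 2 P) (hdP : d ∈ Subgroup.normalizer (P : Set X)) (hfaith : Subgroup.zpowers d ⊓ Subgroup.centralizer (P : Set X) = ⊥) (hfpf : P ⊓ Subgroup.centralizer {d} = ⊥) (hrank : ∀ V : Subgroup X, V ≤ P → IsMulCommutative V → Cfsg.PRankLE 2 2 V) : orderOf d = 3 :=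
  Cfsg.Agent.Lib.H62Rank2.orderOf_eq_three d n hn hd P hP hdP hfaith hfpf hrank

end Cfsg.Agent.S3738
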