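import Cfsg.Statements.S3739
import Mathlib
import Cfsg.Agent.Lib.H62Rank2

set_option autoImplicit false
open Cfsg

open Subgroup Cfsg.Agent.Lib Cfsg.Agent.Lib.H62Rank2
open scoped commutatorElement

namespace Cfsg.Agent.S3739

/-- Let G be a finite group with C_G(O₂(G)) ≤ O₂(G) containing an element of order 6, and let d be a non-identity 3-element of G normalizing a nontrivial elementary abelian 2-subgroup W with C_W(d) = 1. Then G has an elementary abelian subgroup of order 8. -/
theorem result {G : Type*} [Group G] [Finite G] (hchar : Subgroup.centralizer (Cfsg.pCore 2 G : Set G) ≤ Cfsg.pCore 2 G) (hsix : ∃ g : G, orderOf g = 6) (d : G) (hd1 : d ≠ 1) (hd : IsPGroup 3 ↥(Subgroup.zpowers d)) (W : Subgroup G) (hW : Cfsg.IsElementaryAbelian 2 W) (hW1 : W ≠ ⊥) (hdW : d ∈ Subgroup.normalizer (W : Set G)) (hfpf : W ⊓ Subgroup.centralizer {d} = ⊥) : ∃ E : Subgroup G, Cfsg.IsElementaryAbelian 2 E ∧ Nat.card E = 8 := by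
  by_contra hno
  have h2p : Fact (Nat.Prime 2) := ⟨Nat.prime_two⟩
  have h3p : Fact (Nat.Prime 3) := ⟨Nat.prime_three⟩
  have hR : ∀ E : Subgroup G, IsElementaryAbelian 2 E → Nat.card E ≤ 4 := by
    intro E hE
    by_contra hgt
    push Not at hgt
    obtain ⟨k, hk⟩ := IsPGroup.iff_card.mp (isPGroup_of_elementary hE)
    have hk3 : 3 ≤ k := by
      by_contra hlt
      push Not at hlt
      rw [hk] at hgt
      have : 2 ^ k ≤ 2 ^ 2 := Nat.pow_le_pow_right (by norm_num) (by omega)
      omega
    obtain ⟨K, hK⟩ := Sylow.exists_subgroup_card_pow_prime (G := E) 2 (n := 3) (by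
      rw [hk]; exact pow_dvd_pow 2 hk3)
    apply hno
    refine ⟨K.map E.subtype, ⟨?_, ?_⟩, ?_⟩
    · rw [isMulCommutative_iff_of_setLike]
      rintro _ ⟨a, -, rfl⟩ _ ⟨b, -, rfl⟩
      exact isMulCommutative_iff_of_setLike.mp hE.1 _ a.2 _ b.2
    · rintro _ ⟨a, -, rfl⟩
      exact hE.2 _ a.2
    · rw [card_map_of_injective E.subtype_injective, hK]; norm_num
  set Q := pCore 2 G with hQ
  have hQn : Q.Normal := pCore_normal 2 G
  have hQp : IsPGroup 2 Q := LocBase.isPGroup_pCore 2 G
  have hnorm : ∀ (H : Subgroup G), H ≤ normalizer (Q : Set G) := fun H => by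
    rw [normalizer_eq_top_iff.mpr hQn]; exact le_top
  have hWp := isPGroup_of_elementary hW
  -- QW
  have hQW : IsPGroup 2 ↥(Q ⊔ W) := LocBase.isPGroup_sup hQp hWp (hnorm W)
  have hdQW : d ∈ normalizer ((Q ⊔ W : Subgroup G) : Set G) :=
    LocBase.le_normalizer_sup (K := zpowers d) (hnorm _) (zpowers_le.mpr hdW) (mem_zpowers d)
  obtain ⟨hom, hcW, hdfix⟩ := omega_le hR hQW le_sup_right hW hW1 hdQW hdW hfpf
  -- Q ≠ 1
  have hQ1 : Q ≠ ⊥ := by
    intro h
    rw [h] at hchar
    apply hd1
    have : d ∈ centralizer ((⊥ : Subgroup G) : Set G) := by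
      rw [mem_centralizer_iff]
      intro x hx
      have : x = 1 := hx
      rw [this]; simp
    exact hchar this
  -- W ≤ Q
  have hWQ : W ≤ Q := by
    have h1 : Q ⊓ W = W := by
      apply eq_of_invariant hR hW hfpf inf_le_right
      · intro hbot
        obtain ⟨z, hz, -, hzo⟩ := PAct.exists_fixed_orderOf_eq hQp hQp hQ1 le_normalizer
        have h2 : z ∈ W := hom z (mem_sup_left hz) (by rw [← hzo]; exact pow_orderOf_eq_one z)
        have h3 : z ∈ Q ⊓ W := ⟨hz, h2⟩
        rw [hbot, mem_bot] at h3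
        rw [h3, orderOf_one] at hzo
        omega
      · exact LocBase.le_normalizer_inf (K := zpowers d) (hnorm _) (zpowers_le.mpr hdW) (mem_zpowers d)
    exact inf_eq_right.mp h1
  have hQWe : Q ⊔ W = Q := sup_eq_left.mpr hWQ
  rw [hQWe] at hom hcW hdfix
  have hWn : W.Normal := by
    constructor
    intro w hw g
    apply hom _ (hQn.conj_mem w (hWQ hw) g)
    rw [conj_pow, hW.2 w hw]; group
  have hgW : ∀ (H : Subgroup G), H ≤ normalizer (W : Set G) := fun H => by
    rw [normalizer_eq_top_iff.mpr hWn]; exact le_top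
  -- order of d
  obtain ⟨n, hn⟩ := IsPGroup.iff_orderOf.mp hd ⟨d, mem_zpowers d⟩
  rw [Subgroup.orderOf_mk] at hn
  have hn1 : 1 ≤ n := by
    rcases Nat.eq_zero_or_pos n with rfl | h
    · rw [pow_zero, orderOf_eq_one_iff] at hn
      exact absurd hn hd1
    · exact h
  have hd3 : orderOf d = 3 := by
    refine orderOf_eq_three d n hn1 hn Q hQp (hnorm _ (mem_zpowers d)) ?_ hdfix ?_
    · rw [eq_bot_iff]
      intro x hx
      have h1 : x ∈ Q := hchar hx.2
      exact (LocBase.eq_one_of_isPGroup_of_pow (p := 2) hQp h1 (n := 3 ^ n)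
        (Nat.Coprime.pow_left n (by norm_num)) (by
          have h2 : orderOf x ∣ 3 ^ n := by
            rw [← hn]
            exact orderOf_dvd_of_mem_zpowers hx.1
          exact orderOf_dvd_iff_pow_eq_one.mp h2)) ▸ mem_bot.mpr rfl
    · intro V hVQ hVc A hA hA2
      have h1 := hR (A.map V.subtype) ⟨by
        rw [isMulCommutative_iff_of_setLike]
        rintro _ ⟨a, ha, rfl⟩ _ ⟨b, hb, rfl⟩
        rw [← map_mul, ← map_mul, isMulCommutative_iff_of_setLike.mp hA a ha b hb], by
        rintro _ ⟨a, ha, rfl⟩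
        rw [← map_pow, hA2 a ha, map_one]⟩
      rw [card_map_of_injective V.subtype_injective] at h1
      exact h1
  have hd31 : orderOf d = 3 ^ 1 := by rw [hd3]; norm_num
  -- |W| = 4
  have hW4 : Nat.card W = 4 := by
    have h1 := card_ne_two_of_fpf hdW hfpf
    have h2 := hR W hW
    obtain ⟨k, hk⟩ := IsPGroup.iff_card.mp hWp
    have h3 : Nat.card W ≠ 1 := fun h => hW1 (card_eq_one.mp h)
    rcases k with _ | _ | _ | k
    · exact absurd (by simpa using hk) h3
    · exact absurd (by simpa using hk) h1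
    · simpa using hk
    · exfalso
      have h1 : 2 ^ (k + 1 + 1 + 1) ≥ 8 := by
        have h2 := Nat.one_le_two_pow (n := k)
        rw [pow_succ, pow_succ, pow_succ]; omega
      rw [hk] at h2
      omega
  -- e, s
  obtain ⟨g, hg⟩ := hsix
  set e := g ^ 2 with he
  set s := g ^ 3 with hs
  have heo : orderOf e = 3 := by
    rw [he, orderOf_pow_of_dvd (by norm_num) (by rw [hg]; norm_num), hg]
  have hso : orderOf s = 2 := by
    rw [hs, orderOf_pow_of_dvd (by norm_num) (by rw [hg]; norm_num), hg]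
  have heo1 : orderOf e = 3 ^ 1 := by rw [heo]; norm_num
  have hes : Commute e s := (Commute.refl g).pow_pow 2 3
  have heW : e ∈ centralizer (W : Set G) := by
    by_contra hcon
    set Z : Subgroup G := W ⊓ centralizer {e} with hZ
    have heZ : zpowers e ≤ normalizer (Z : Set G) :=
      LocBase.le_normalizer_inf (hgW _) (zpowers_le.mpr (by
        apply GroupUtil.centralizer_le_normalizer
        rw [mem_centralizer_iff]
        intro x hx
        exact (mem_centralizer_singleton_iff.mp hx)))
    have h1 := card_dvd_of_centralizer_le (D := zpowers e) (hgW _) heZ (inf_le_left : Z ≤ W) (by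
      intro y hy hy1 x hx hyx
      have h2 : Commute y x := by
        rw [mul_inv_eq_iff_eq_mul] at hyx
        exact hyx
      have h3 := commute_of_zpowers heo1 hy hy1 h2
      rw [Nat.sub_self, pow_zero, pow_one] at h3
      have h4 : x ∈ centralizer {e} := by
        rw [mem_centralizer_singleton_iff]
        exact h3.symm.eq
      exact ⟨hx, h4⟩)
    rw [Nat.card_zpowers, heo, hW4] at h1
    have hZd : Nat.card Z ∣ 4 := by rw [← hW4]; exact card_dvd_of_le inf_le_left
    have hZpos : 0 < Nat.card Z := Nat.card_pos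
    have hZle : Nat.card Z ≤ 4 := Nat.le_of_dvd (by norm_num) hZd
    have hcases : Nat.card Z = 1 ∨ Nat.card Z = 4 := by omega
    rcases hcases with h4 | h4
    · -- fixed point free
      have hfix : W ⊓ centralizer {e} = ⊥ := card_eq_one.mp h4
      have hsp : IsPGroup 2 ↥(zpowers s) := IsPGroup.of_card (n := 1) (by rw [Nat.card_zpowers, hso]; norm_num)
      have hPp : IsPGroup 2 ↥(Q ⊔ zpowers s) := LocBase.isPGroup_sup hQp hsp (hnorm _)
      have heP : e ∈ normalizer ((Q ⊔ zpowers s : Subgroup G) : Set G) := by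
        refine LocBase.le_normalizer_sup (K := zpowers e) (hnorm _) (zpowers_le.mpr ?_) (mem_zpowers e)
        apply GroupUtil.centralizer_le_normalizer
        rw [mem_centralizer_iff]
        rintro _ ⟨j, rfl⟩
        exact (hes.symm.zpow_left j).eq
      obtain ⟨-, -, h5⟩ := omega_le hR hPp (hWQ.trans le_sup_left) hW hW1 heP (hgW _ (mem_zpowers e)) hfix
      have h7 : s ∈ centralizer {e} := by
        rw [mem_centralizer_singleton_iff]; exact hes.symm.eq
      have h6 : s ∈ (Q ⊔ zpowers s) ⊓ centralizer {e} := ⟨mem_sup_right (mem_zpowers s), h7⟩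
      rw [h5, mem_bot] at h6
      rw [h6, orderOf_one] at hso
      omega
    · apply hcon
      have h5 : Z = W := Subgroup.eq_of_le_of_card_ge inf_le_left (by rw [h4, hW4])
      rw [mem_centralizer_iff]
      intro w hw
      have h6 : w ∈ Z := by rw [h5]; exact hw
      exact (mem_centralizer_singleton_iff.mp h6.2)
  -- f
  have hCn : (centralizer (W : Set G)).Normal := by
    constructor
    intro c hc y
    rw [mem_centralizer_iff] at hc ⊢
    intro w hw
    have h1 := hc (y⁻¹ * w * y) (by
      have := hWn.conj_mem w hw y⁻¹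
      simpa using this)
    have h2 : w * (y * c * y⁻¹) = y * ((y⁻¹ * w * y) * c) * y⁻¹ := by group
    rw [h2, h1]; group
  obtain ⟨f, hfo, hfW, hfd⟩ : ∃ f : G, orderOf f = 3 ∧ f ∈ centralizer (W : Set G) ∧ Commute d f := by
    obtain ⟨S, hS⟩ := hd.exists_le_sylow
    have hep : IsPGroup 3 ↥(zpowers e) := IsPGroup.of_card (n := 1) (by rw [Nat.card_zpowers, heo]; norm_num)
    obtain ⟨S', hS'⟩ := hep.exists_le_sylow
    obtain ⟨x, hx⟩ := MulAction.exists_smul_eq G S' S
    have h1 : x * e * x⁻¹ ∈ (S : Subgroup G) := by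
      rw [← hx, Sylow.coe_subgroup_smul, GroupUtil.mem_conj_smul]
      have : x⁻¹ * (x * e * x⁻¹) * x = e := by group
      rw [this]
      exact hS' (mem_zpowers e)
    have h2 : x * e * x⁻¹ ∈ centralizer (W : Set G) := hCn.conj_mem e heW x
    set N₁ : Subgroup G := (S : Subgroup G) ⊓ centralizer (W : Set G) with hN₁
    have hN₁ne : N₁ ≠ ⊥ := by
      intro h
      have h3 : x * e * x⁻¹ ∈ N₁ := ⟨h1, h2⟩
      rw [h, mem_bot, mul_inv_eq_one, mul_eq_left] at h3
      rw [h3, orderOf_one] at heo
      omega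
    have hSN : (S : Subgroup G) ≤ normalizer (N₁ : Set G) :=
      LocBase.le_normalizer_inf le_normalizer (by rw [normalizer_eq_top_iff.mpr hCn]; exact le_top)
    obtain ⟨z, hz, hzc, hzo⟩ := PAct.exists_fixed_orderOf_eq (S.isPGroup') (S.isPGroup'.to_le inf_le_left) hN₁ne hSN
    exact ⟨z, hzo, hz.2, hzc d (hS (mem_zpowers d))⟩
  have hfo1 : orderOf f = 3 ^ 1 := by rw [hfo]; norm_num
  set B : Subgroup G := zpowers d ⊔ zpowers f with hB
  have hBmem : ∀ b ∈ B, ∃ i j : ℤ, b = d ^ i * f ^ j := by
    intro b hb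
    have hle : zpowers f ≤ normalizer ((zpowers d : Subgroup G) : Set G) := by
      rw [zpowers_le]
      apply GroupUtil.centralizer_le_normalizer
      rw [mem_centralizer_iff]
      rintro _ ⟨j, rfl⟩
      exact (hfd.zpow_left j).eq
    obtain ⟨u, ⟨i, rfl⟩, v, ⟨j, rfl⟩, rfl⟩ := (GroupUtil.mem_sup_of_le_normalizer' hle).mp hb
    exact ⟨i, j, rfl⟩
  have hBc : IsMulCommutative B := by
    rw [isMulCommutative_iff_of_setLike]
    intro a ha b hb
    obtain ⟨i, j, rfl⟩ := hBmem a ha
    obtain ⟨k, l, rfl⟩ := hBmem b hb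
    have h1 : Commute (d ^ i) (f ^ l) := hfd.zpow_zpow i l
    have h2 : Commute (f ^ j) (d ^ k) := hfd.symm.zpow_zpow j k
    have h3 : Commute (d ^ i) (d ^ k) := (Commute.refl d).zpow_zpow i k
    have h4 : Commute (f ^ j) (f ^ l) := (Commute.refl f).zpow_zpow j l
    exact ((h3.mul_right h1).mul_left (h2.mul_right h4)).eq
  have hB3 : ∀ b ∈ B, b ^ 3 = 1 := by
    intro b hb
    obtain ⟨i, j, rfl⟩ := hBmem b hb
    have h1 : Commute (d ^ i) (f ^ j) := hfd.zpow_zpow i j
    rw [h1.mul_pow, ← zpow_natCast, ← zpow_natCast, ← zpow_mul, ← zpow_mul, mul_comm i, mul_comm j, zpow_mul,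
      zpow_mul, zpow_natCast, zpow_natCast]
    have h2 : d ^ 3 = 1 := by rw [← hd3]; exact pow_orderOf_eq_one d
    have h3 : f ^ 3 = 1 := by rw [← hfo]; exact pow_orderOf_eq_one f
    rw [h2, h3]; simp
  have hBp : IsPGroup 3 B := fun b => ⟨1, Subtype.ext (by simpa using hB3 b b.2)⟩
  have hcop : (Nat.card B).Coprime (Nat.card Q) := by
    obtain ⟨i, hi⟩ := IsPGroup.iff_card.mp hBp
    obtain ⟨j, hj⟩ := IsPGroup.iff_card.mp hQp
    rw [hi, hj]
    exact Nat.Coprime.pow _ _ (by norm_num)
  have hgen := AbGen.iSup_centralizer_eq hBc (hnorm B) hcop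
  have hfree : ∀ b : G, W ⊓ centralizer {b} = ⊥ → Q ⊓ centralizer {b} = ⊥ := fun b hb =>
    (omega_le hR hQp hWQ hW hW1 (hnorm _ (mem_zpowers b)) (hgW _ (mem_zpowers b)) hb).2.2
  have hfQ : f ∈ centralizer (Q : Set G) := by
    have h1 : Q ≤ centralizer {f} := by
      rw [← hgen]
      refine iSup₂_le fun B' hB' => ?_
      obtain ⟨hB'B, a, ha, haB⟩ := hB'
      have hB'1 : B' ≠ ⊥ := by
        rintro rfl
        rw [bot_sup_eq] at haB
        have h2 : Nat.card B ≤ 3 := by
          rw [← haB, Nat.card_zpowers]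
          exact Nat.le_of_dvd (by norm_num) (orderOf_dvd_of_pow_eq_one (hB3 a ha))
        have h3 : zpowers d = B := Subgroup.eq_of_le_of_card_ge le_sup_left (by
          rw [Nat.card_zpowers, hd3]; exact h2)
        have h4 : f ∈ zpowers d := by rw [h3]; exact mem_sup_right (mem_zpowers f)
        apply hW1
        rw [eq_bot_iff, ← hfpf]
        intro w hw
        have h6 : w ∈ centralizer {d} := by
          rw [mem_centralizer_singleton_iff]
          have h5 := commute_of_zpowers (x := w) hd31 h4 (by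
            intro h; rw [h, orderOf_one] at hfo; omega) (mem_centralizer_iff.mp hfW w hw).symm
          rw [Nat.sub_self, pow_zero, pow_one] at h5
          exact h5.symm.eq
        exact ⟨hw, h6⟩
      obtain ⟨b', hb'⟩ := Subgroup.ne_bot_iff_exists_ne_one.mp hB'1
      obtain ⟨b, hb⟩ := b'
      have hb1 : b ≠ 1 := fun h => hb' (Subtype.ext h)
      have h2 : Q ⊓ centralizer (B' : Set G) ≤ Q ⊓ centralizer {b} :=
        inf_le_inf_left _ (centralizer_le (by simpa using hb))
      refine h2.trans ?_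
      obtain ⟨i, j, hij⟩ := hBmem b (hB'B hb)
      by_cases hdi : d ^ i = 1
      · rw [hdi, one_mul] at hij
        rintro x ⟨-, hx⟩
        have h3 : Commute b x := (mem_centralizer_singleton_iff.mp hx).symm
        have h4 := commute_of_zpowers hfo1 (show b ∈ zpowers f by rw [hij]; exact zpow_mem (mem_zpowers f) j) hb1 h3
        rw [Nat.sub_self, pow_zero, pow_one] at h4
        rw [mem_centralizer_singleton_iff]
        exact h4.symm.eq
      · have h3 : W ⊓ centralizer {b} = ⊥ := by
          rw [eq_bot_iff, ← hfpf]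
          rintro w ⟨hw, hwb⟩
          have h4 : Commute b w := (mem_centralizer_singleton_iff.mp hwb).symm
          have h5 : Commute (f ^ j) w := ((show Commute f w from (mem_centralizer_iff.mp hfW w hw).symm).zpow_left j)
          have h6 : Commute (d ^ i) w := by
            have : d ^ i = b * (f ^ j)⁻¹ := by rw [hij]; group
            rw [this]
            exact h4.mul_left h5.inv_left
          have h7 := commute_of_zpowers hd31 (zpow_mem (mem_zpowers d) i) hdi h6
          rw [Nat.sub_self, pow_zero, pow_one] at h7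
          have h8 : w ∈ centralizer {d} := by
            rw [mem_centralizer_singleton_iff]
            exact h7.symm.eq
          exact ⟨hw, h8⟩
        rw [hfree b h3]
        exact bot_le
    rw [mem_centralizer_iff]
    intro q hq
    exact mem_centralizer_singleton_iff.mp (h1 hq)
  have hfQ' : f ∈ Q := hchar hfQ
  have hf1 : f = 1 := LocBase.eq_one_of_isPGroup_of_pow (p := 2) hQp hfQ' (n := 3) (by norm_num) (by
    rw [← hfo]; exact pow_orderOf_eq_one f)
  rw [hf1, orderOf_one] at hfo
  omega

end Cfsg.Agent.S3739
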