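import Cfsg.Statements.S3740
import Mathlib
import Cfsg.Agent.Lib.H62SL2P

set_option autoImplicit false
open Cfsg

namespace Cfsg.Agent.S3740

/-- Let F be a finite field of odd characteristic p and let a be a p-element of SL₂(F) normalizing a subgroup R of order prime to p with [R, a] ≠ 1. Then p = 3, R is a quaternion group of order 8, and R⟨a⟩ is isomorphic to SL₂(3). -/
theorem result (F : Type) [Field F] [Fintype F] {p : ℕ} [Fact p.Prime] [CharP F p] (hp : p ≠ 2) (a : Matrix.SpecialLinearGroup (Fin 2) F) (ha : IsPGroup p ↥(Subgroup.zpowers a)) (R : Subgroup (Matrix.SpecialLinearGroup (Fin 2) F)) (hR : (Nat.card R).Coprime p) (haR : a ∈ Subgroup.normalizer (R : Set (Matrix.SpecialLinearGroup (Fin 2) F))) (hnt : ⁅R, Subgroup.zpowers a⁆ ≠ ⊥) : p = 3 ∧ Nonempty (↥R ≃* QuaternionGroup 2) ∧ Nonempty (↥(R ⊔ Subgroup.zpowers a) ≃* Matrix.SpecialLinearGroup (Fin 2) (ZMod 3)) := by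
  obtain ⟨k, hk⟩ := ha ⟨a, Subgroup.mem_zpowers a⟩
  have hk' : a ^ p ^ k = 1 := by
    have := congrArg Subtype.val hk
    simpa using this
  apply Cfsg.Agent.Lib.H62SL2P.main hp hk' R hR haR
  intro h
  apply hnt
  rw [Subgroup.commutator_eq_bot_iff_le_centralizer, Subgroup.le_centralizer_iff, Subgroup.zpowers_le]
  exact h

end Cfsg.Agent.S3740
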