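import Cfsg.Statements.S3741
import Mathlib

set_option autoImplicit false
open Cfsg
open scoped Pointwise commutatorElement

namespace Cfsg.Agent.S3741

/-- In a finite p-group a subgroup of order p is centralized by whatever normalizes it. -/
theorem centralizes_of_card_prime {G : Type*} [Group G] [Finite G] {p : ℕ} [Fact p.Prime]
    (hG : IsPGroup p G) (A D : Subgroup G) (hAD : A ≤ Subgroup.normalizer (D : Set G))
    (hD : Nat.card D = p) : ⁅D, A⁆ = ⊥ := by
  have hle : ⁅D, A⁆ ≤ D := Subgroup.le_normalizer_iff_commutator_le_left.1 hAD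
  by_contra hne
  have heq : ⁅D, A⁆ = D := by
    have h1 : Nat.card ↥⁅D, A⁆ ∣ p := by rw [← hD]; exact Subgroup.card_dvd_of_le hle
    rcases (Nat.dvd_prime (Fact.out : p.Prime)).1 h1 with h2 | h2
    · exact absurd (Subgroup.card_eq_one.mp h2) hne
    · exact Subgroup.eq_of_le_of_card_ge hle (by rw [hD, h2])
  have hnil : Group.IsNilpotent G := hG.isNilpotent
  obtain ⟨n, hn⟩ := (Subgroup.nilpotent_iff_lowerCentralSeries (G := G)).1 hnil
  have hall : ∀ k, D ≤ (⊤ : Subgroup G).lowerCentralSeries k := by
    intro k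
    induction k with
    | zero => simp
    | succ k ih =>
      rw [Subgroup.lowerCentralSeries_succ, ← heq]
      exact Subgroup.commutator_mono ih le_top
  have h3 := hall n
  rw [hn] at h3
  apply hne
  rw [heq]
  exact le_bot_iff.mp h3

open Classical in
theorem count {G : Type*} [Group G] [Finite G] {p : ℕ} [Fact p.Prime] (A B D : Subgroup G)
    [Fintype A] [Fintype B]
    (hD : ⁅A, B⁆ = D) (hcard : Nat.card D = p) (hBD : ⁅D, B⁆ = ⊥) :
    p * (∑ a : A, ∑ b : B, if (a:G) * b = b * a then 1 else 0) + Nat.card ↥(A ⊓ Subgroup.centralizer (B : Set G)) * Nat.card B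
      = p * Nat.card ↥(A ⊓ Subgroup.centralizer (B : Set G)) * Nat.card B + Nat.card A * Nat.card B := by
  have hcomm : ∀ d ∈ D, ∀ b ∈ B, b * d = d * b := by
    intro d hd b hb
    rw [Subgroup.commutator_eq_bot_iff_le_centralizer] at hBD
    exact Subgroup.mem_centralizer_iff.mp (hBD hd) b hb
  have hmem : ∀ a ∈ A, ∀ b ∈ B, ⁅a, b⁆ ∈ D := fun a ha b hb => hD ▸ Subgroup.commutator_mem_commutator ha hb
  have key : ∀ a : A, p * (∑ b : B, if (a:G) * b = b * a then 1 else 0)
      = if (a:G) ∈ Subgroup.centralizer (B : Set G) then p * Nat.card B else Nat.card B := by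
    intro a
    let f : B →* D :=
      { toFun := fun b => ⟨⁅(a:G), (b:G)⁆, hmem a a.2 b b.2⟩
        map_one' := by ext; simp
        map_mul' := by
          intro x y
          ext
          simp only [Subgroup.coe_mul, commutatorElement_mul_right_eq_mul_conj]
          have := hcomm _ (hmem a a.2 y y.2) x x.2
          rw [mul_assoc ⁅(a:G), (x:G)⁆, this]
          group }
    have hf : ∀ b : B, f b = 1 ↔ (a:G) * b = b * a := by
      intro b
      rw [← commutatorElement_eq_one_iff_mul_comm]
      constructor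
      · intro h; exact congrArg Subtype.val h
      · intro h; exact Subtype.ext h
    have hsum : (∑ b : B, if (a:G) * b = b * a then 1 else 0) = Nat.card f.ker := by
      rw [Finset.sum_boole, Nat.cast_id, ← Fintype.card_subtype, ← Nat.card_eq_fintype_card]
      exact Nat.card_congr (Equiv.subtypeEquivRight (fun b => by rw [MonoidHom.mem_ker, hf]))
    rw [hsum]
    have hmul : Nat.card f.ker * Nat.card f.range = Nat.card B := by
      rw [← Subgroup.index_ker, Subgroup.card_mul_index]
    split_ifs with hc
    · have : f.ker = ⊤ := by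
        rw [eq_top_iff]
        intro b _
        rw [MonoidHom.mem_ker, hf]
        exact (Subgroup.mem_centralizer_iff.mp hc b b.2).symm
      rw [this, Subgroup.card_top]
    · have hr : Nat.card f.range = p := by
        have h1 : Nat.card f.range ∣ p := by
          rw [← hcard]
          exact Subgroup.card_subgroup_dvd_card _
        rcases (Nat.dvd_prime (Fact.out : p.Prime)).1 h1 with h2 | h2
        · exfalso
          apply hc
          rw [Subgroup.mem_centralizer_iff]
          intro b hb
          have h3 : f ⟨b, hb⟩ ∈ f.range := ⟨_, rfl⟩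
          rw [Subgroup.card_eq_one.mp h2, Subgroup.mem_bot, hf] at h3
          exact h3.symm
        · exact h2
      rw [hr] at hmul
      rw [← hmul, mul_comm]
  rw [Finset.mul_sum, Finset.sum_congr rfl (fun a _ => key a)]
  have hA0 : Nat.card ↥(A ⊓ Subgroup.centralizer (B : Set G)) = (Finset.univ.filter (fun a : A => (a:G) ∈ Subgroup.centralizer (B : Set G))).card := by
    rw [← Fintype.card_subtype, ← Nat.card_eq_fintype_card]
    refine Nat.card_congr ⟨fun x => ⟨⟨x.1, (Subgroup.mem_inf.mp x.2).1⟩, (Subgroup.mem_inf.mp x.2).2⟩,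
      fun x => ⟨x.1.1, Subgroup.mem_inf.mpr ⟨x.1.2, x.2⟩⟩, fun x => rfl, fun x => rfl⟩
  rw [Finset.sum_ite, Finset.sum_const, Finset.sum_const, smul_eq_mul, smul_eq_mul, ← hA0]
  have hsplit := Finset.card_filter_add_card_filter_not (s := (Finset.univ : Finset A)) (fun a : A => (a:G) ∈ Subgroup.centralizer (B : Set G))
  rw [← hA0, Finset.card_univ, ← Nat.card_eq_fintype_card] at hsplit
  rw [← hsplit]
  ring

/-- Let A and B be subgroups of a finite p-group with [A, B] ≤ A ∩ B and [A, B] of order at most p. Then |A : C_A(B)| = |B : C_B(A)|. -/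
theorem result {G : Type*} [Group G] [Finite G] {p : ℕ} [Fact p.Prime] (hG : IsPGroup p G) (A B : Subgroup G) (hAB : ⁅A, B⁆ ≤ A ⊓ B) (hcard : Nat.card ↥⁅A, B⁆ ≤ p) : (A ⊓ Subgroup.centralizer (B : Set G)).relIndex A = (B ⊓ Subgroup.centralizer (A : Set G)).relIndex B := by
  classical
  let _ : Fintype A := Fintype.ofFinite A
  let _ : Fintype B := Fintype.ofFinite B
  have hp : p.Prime := Fact.out
  obtain ⟨n, hn⟩ := (IsPGroup.iff_card.mp (hG.to_subgroup ⁅A, B⁆))
  have hcase : Nat.card ↥⁅A, B⁆ = 1 ∨ Nat.card ↥⁅A, B⁆ = p := by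
    rcases Nat.lt_or_ge n 1 with h | h
    · left
      have : n = 0 := by omega
      rw [hn, this, pow_zero]
    · right
      rw [hn] at hcard ⊢
      rcases Nat.lt_or_ge 1 n with h' | h'
      · have : p ^ 1 < p ^ n := Nat.pow_lt_pow_right hp.one_lt h'
        rw [pow_one] at this
        omega
      · have : n = 1 := by omega
        rw [this, pow_one]
  rcases hcase with h1 | h1
  · have h2 : ⁅A, B⁆ = ⊥ := Subgroup.card_eq_one.mp h1
    have h3 := (Subgroup.commutator_eq_bot_iff_le_centralizer.mp h2)
    have h4 : B ≤ Subgroup.centralizer (A : Set G) := by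
      rw [← Subgroup.commutator_eq_bot_iff_le_centralizer, Subgroup.commutator_comm]; exact h2
    rw [inf_eq_left.mpr h3, inf_eq_left.mpr h4, Subgroup.relIndex_self, Subgroup.relIndex_self]
  · have hB := centralizes_of_card_prime hG B ⁅A, B⁆ (Subgroup.normalizer_commutator_ge_right A B) h1
    have hA := centralizes_of_card_prime hG A ⁅A, B⁆ (Subgroup.normalizer_commutator_ge_left A B) h1
    have c1 := count (p := p) A B ⁅A, B⁆ rfl h1 hB
    have c2 := count (p := p) B A ⁅A, B⁆ (Subgroup.commutator_comm B A) h1 hA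
    have hsw : (∑ b : B, ∑ a : A, if (b:G) * a = a * b then 1 else 0) = (∑ a : A, ∑ b : B, if (a:G) * b = b * a then 1 else 0) := by
      rw [Finset.sum_comm]
      refine Finset.sum_congr rfl (fun a _ => Finset.sum_congr rfl (fun b _ => ?_))
      simp only [eq_comm]
    rw [hsw] at c2
    have i1 : Nat.card ↥(A ⊓ Subgroup.centralizer (B : Set G)) * (A ⊓ Subgroup.centralizer (B : Set G)).relIndex A = Nat.card A := by
      have := Subgroup.relIndex_mul_relIndex ⊥ (A ⊓ Subgroup.centralizer (B : Set G)) A bot_le inf_le_left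
      rwa [Subgroup.relIndex_bot_left, Subgroup.relIndex_bot_left] at this
    have i2 : Nat.card ↥(B ⊓ Subgroup.centralizer (A : Set G)) * (B ⊓ Subgroup.centralizer (A : Set G)).relIndex B = Nat.card B := by
      have := Subgroup.relIndex_mul_relIndex ⊥ (B ⊓ Subgroup.centralizer (A : Set G)) B bot_le inf_le_left
      rwa [Subgroup.relIndex_bot_left, Subgroup.relIndex_bot_left] at this
    have p1 : 0 < Nat.card ↥(A ⊓ Subgroup.centralizer (B : Set G)) := Nat.card_pos
    have p2 : 0 < Nat.card ↥(B ⊓ Subgroup.centralizer (A : Set G)) := Nat.card_pos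
    set N := (∑ a : A, ∑ b : B, if (a:G) * b = b * a then 1 else 0)
    set a0 := Nat.card ↥(A ⊓ Subgroup.centralizer (B : Set G))
    set b0 := Nat.card ↥(B ⊓ Subgroup.centralizer (A : Set G))
    set m := (A ⊓ Subgroup.centralizer (B : Set G)).relIndex A
    set n' := (B ⊓ Subgroup.centralizer (A : Set G)).relIndex B
    have e : (a0 : ℤ) * Nat.card B = b0 * Nat.card A := by
      have hp1 : (p : ℤ) - 1 ≠ 0 := by
        have := hp.one_lt
        omega
      apply mul_left_cancel₀ hp1
      have c1' : (p:ℤ) * N + a0 * Nat.card B = p * a0 * Nat.card B + Nat.card A * Nat.card B := by exact_mod_cast c1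
      have c2' : (p:ℤ) * N + b0 * Nat.card A = p * b0 * Nat.card A + Nat.card B * Nat.card A := by exact_mod_cast c2
      linear_combination -c1' + c2'
    have e' : a0 * Nat.card B = b0 * Nat.card A := by exact_mod_cast e
    rw [← i1, ← i2] at e'
    have : (a0 * b0) * n' = (a0 * b0) * m := by
      calc (a0 * b0) * n' = a0 * (b0 * n') := by ring
        _ = b0 * (a0 * m) := e'
        _ = (a0 * b0) * m := by ring
    exact (Nat.eq_of_mul_eq_mul_left (Nat.mul_pos p1 p2) this).symm

end Cfsg.Agent.S3741
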