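import Cfsg.Statements.S3743
import Mathlib
import Cfsg.Agent.Lib.Cores
import Cfsg.Agent.Lib.H32Cores
import Cfsg.Agent.Lib.PCoreTools

set_option autoImplicit false
open Cfsg

namespace Cfsg.Agent.S3743

open Subgroup

theorem piCore_characteristic (π : Set ℕ) (G : Type*) [Group G] : (piCore π G).Characteristic := by
  rw [Subgroup.characteristic_iff_map_le]
  intro φ
  rw [piCore, Subgroup.map_le_iff_le_comap]
  apply sSup_le
  intro N hN x hx
  rw [mem_comap]
  have hmem : N.map φ.toMonoidHom ∈
      {N : Subgroup G | N.Normal ∧ ∀ p : ℕ, p.Prime → p ∣ Nat.card N → p ∈ π} := by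
    refine ⟨hN.1.map _ φ.surjective, ?_⟩
    intro p hp hd
    rw [Subgroup.card_map_of_injective φ.injective] at hd
    exact hN.2 p hp hd
  exact (le_sSup hmem) ⟨x, hx, rfl⟩

theorem aux {G : Type*} [Group G] [Finite G] (π : Set ℕ) {K : Subgroup G} (hK : K.IsSubnormal) :
    ∀ A : Subgroup G, A ≤ K → K ≤ normalizer (A : Set G) → (∀ p : ℕ, p.Prime → p ∣ Nat.card A → p ∈ π) →
      A ≤ piCore π G := by
  induction hK with
  | top =>
    intro A _ hA hπ
    exact Cfsg.Agent.Lib.H32Cores.le_piCore (normalizer_eq_top_iff.mp (top_le_iff.mp hA)) hπ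
  | step H K hHK _ hN ih =>
    intro A hAH hHA hπ
    have hKH : K ≤ normalizer (H : Set G) := (normal_subgroupOf_iff_le_normalizer hHK).1 hN
    have h1 : A ≤ (piCore π H).map H.subtype := by
      have h2 : (A.subgroupOf H) ≤ piCore π H := by
        apply Cfsg.Agent.Lib.H32Cores.le_piCore
        · exact (normal_subgroupOf_iff_le_normalizer hAH).2 hHA
        · intro q hq hd
          apply hπ q hq
          rwa [Nat.card_congr (subgroupOfEquivOfLe hAH).toEquiv] at hd
      have h3 := map_mono (f := H.subtype) h2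
      rwa [subgroupOf_map_subtype, inf_eq_left.mpr hAH] at h3
    refine h1.trans (ih _ ((map_subtype_le _).trans hHK) ?_ ?_)
    · exact hKH.trans (Cfsg.Agent.Lib.PCoreTools.normalizer_le_of_characteristic (piCore_characteristic π H))
    · intro q hq hd
      rw [Subgroup.card_map_of_injective H.subtype_injective] at hd
      exact Cfsg.Agent.Lib.H32Cores.piCore_primes π H q hq hd

/-- In a finite group G, every subnormal nilpotent subgroup lies in the Fitting subgroup F(G), and, for a set of primes π, every subnormal subgroup all of whose prime divisors lie in π lies in O_π(G). -/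
theorem result {G : Type*} [Group G] [Finite G] (A : Subgroup G) (hA : A.IsSubnormal) : (Group.IsNilpotent A → A ≤ Cfsg.fittingSubgroup G) ∧ ∀ π : Set ℕ, (∀ p : ℕ, p.Prime → p ∣ Nat.card A → p ∈ π) → A ≤ Cfsg.piCore π G :=
  ⟨fun h => Cfsg.Agent.Lib.Cores.le_fittingSubgroup_of_isSubnormal hA h,
    fun π h => aux π hA A le_rfl le_normalizer h⟩

end Cfsg.Agent.S3743
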