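import Cfsg.Statements.S3744
import Mathlib
import Cfsg.Agent.Lib.PSolvTools

set_option autoImplicit false
open Cfsg

namespace Cfsg.Agent.S3744

open Subgroup Cfsg.Agent.Lib.HallPi Cfsg.Agent.Lib.PSolvTools

/-- A finite p-soluble group has a p-complement, all its p-complements are conjugate, and every subgroup of order prime to p lies in one of them. Here a p-complement is a subgroup of order prime to p whose index is a power of p. -/
theorem result {G : Type*} [Group G] [Finite G] {p : ℕ} [Fact p.Prime] (hG : Cfsg.IsPSolvable p G) : (∃ H : Subgroup G, (Nat.card H).Coprime p ∧ ∃ n : ℕ, H.index = p ^ n) ∧ (∀ H₁ H₂ : Subgroup G, (Nat.card H₁).Coprime p → (∃ n : ℕ, H₁.index = p ^ n) → (Nat.card H₂).Coprime p → (∃ n : ℕ, H₂.index = p ^ n) → ∃ g : G, H₂ = H₁.map (MulAut.conj g).toMonoidHom) ∧ (∀ U : Subgroup G, (Nat.card U).Coprime p → ∃ H : Subgroup G, (Nat.card H).Coprime p ∧ (∃ n : ℕ, H.index = p ^ n) ∧ ∃ g : G, U.map (MulAut.conj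 g).toMonoidHom ≤ H) := by
  have hp : p.Prime := Fact.out
  have hcop : ∀ H : Subgroup G, (Nat.card H).Coprime p ↔ ¬ p ∣ Nat.card H := fun H => by
    rw [Nat.coprime_comm, Nat.Prime.coprime_iff_not_dvd hp]
  refine ⟨?_, ?_, ?_⟩
  · obtain ⟨Q, h1, h2⟩ := exists_hall hp hG
    exact ⟨Q, (hcop Q).mpr h1, h2⟩
  · rintro H₁ H₂ h1 ⟨n, hn⟩ h2 ⟨m, hm⟩
    have hH : Cfsg.IsPiHall ({p} : Set ℕ)ᶜ H₁ := by
      rw [isPiHall_iff]
      exact ⟨(piNum_compl_iff hp).2 ((hcop H₁).mp h1), piNum_compl_compl hp (dvd_of_eq hn)⟩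
    obtain ⟨g, hg⟩ := exists_conj_le_of_sep H₁ H₂ hH ((piNum_compl_iff hp).2 ((hcop H₂).mp h2)) (sep hp hG H₂)
    refine ⟨g, ?_⟩
    change H₂ ≤ H₁.map (MulAut.conj g).toMonoidHom at hg
    refine eq_of_le_of_card_ge hg ?_
    have hc : Nat.card (H₁.map (MulAut.conj g).toMonoidHom) = Nat.card H₁ :=
      Subgroup.card_map_of_injective (MulAut.conj g).injective
    rw [hc]
    apply Nat.le_of_dvd Nat.card_pos
    have h3 : Nat.card H₁ ∣ Nat.card H₂ * H₂.index := by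
      rw [card_mul_index]; exact card_subgroup_dvd_card H₁
    rw [hm] at h3
    exact (Nat.Coprime.pow_right m h1).dvd_of_dvd_mul_right h3
  · intro U hU
    obtain ⟨Q, hUQ, h1, h2⟩ := exists_le_hall hp hG U ((hcop U).mp hU)
    refine ⟨Q, (hcop Q).mpr h1, h2, 1, ?_⟩
    rintro _ ⟨u, hu, rfl⟩
    simpa using hUQ hu

end Cfsg.Agent.S3744
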