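import Cfsg.Statements.S3746
import Mathlib
import Cfsg.Agent.Lib.Layer

set_option autoImplicit false
open Cfsg

namespace Cfsg.Agent.S3746

open Subgroup Cfsg.Agent.Lib.Components Cfsg.Agent.Lib.Layer

/-- Let Z ≤ Z(G) be a central subgroup of a finite group G and E a subgroup of G containing Z whose image E/Z is a component of G/Z (subnormal and quasisimple). Then the derived subgroup [E, E] is a component of G. -/
theorem result {G : Type*} [Group G] [Finite G] (Z : Subgroup G) (hZ : Z ≤ Subgroup.center G) [Z.Normal] (E : Subgroup G) (hZE : Z ≤ E) (hE : Cfsg.IsComponent (E.map (QuotientGroup.mk' Z))) : Cfsg.IsComponent ⁅E, E⁆ := by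
  have hEc : E = (E.map (QuotientGroup.mk' Z)).comap (QuotientGroup.mk' Z) := by
    rw [comap_map_eq, QuotientGroup.ker_mk', sup_eq_left.mpr hZE]
  have hEs : E.IsSubnormal := by
    rw [hEc]; exact hE.1.comap _
  have hZc : ∀ H : Subgroup G, H ≤ centralizer (Z : Set G) := by
    intro H
    refine le_centralizer_comm (hZ.trans ?_)
    exact center_le_centralizer _
  -- `E = [E, E] Z`
  have hsup : ⁅E, E⁆ ⊔ Z = E := by
    refine le_antisymm (sup_le (commutator_le_self E) hZE) ?_
    have h1 : E.map (QuotientGroup.mk' Z) = ⁅E, E⁆.map (QuotientGroup.mk' Z) := by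
      rw [map_commutator]
      exact (component_perfect hE).symm
    have h2 : E ≤ (⁅E, E⁆.map (QuotientGroup.mk' Z)).comap (QuotientGroup.mk' Z) := by
      rw [← h1]; exact le_comap_map _ _
    rwa [comap_map_eq, QuotientGroup.ker_mk'] at h2
  have hperf : ⁅⁅E, E⁆, ⁅E, E⁆⁆ = ⁅E, E⁆ := by
    have h1 := commutator_sup_central (H := ⁅E, E⁆) (Z := Z) (hZc _)
    rw [hsup] at h1
    exact h1.symm
  refine ⟨?_, ?_⟩
  · have h1 := isSubnormal_of_characteristic hEs (H := commutator E) inferInstance
    have h2 : (commutator E).map E.subtype = ⁅E, E⁆ := by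
      rw [commutator_def, map_commutator, ← MonoidHom.range_eq_map, range_subtype]
    rwa [h2] at h1
  · have hmap : ⁅E, E⁆.map (QuotientGroup.mk' Z) = E.map (QuotientGroup.mk' Z) := by
      rw [map_commutator]
      exact component_perfect hE
    have hq : Cfsg.IsQuasisimple ↥(⁅E, E⁆.map (QuotientGroup.mk' Z)) := by
      rw [hmap]; exact hE.2
    refine quasisimple_of_central_quotient (isPerfect_iff'.mpr hperf) ((QuotientGroup.mk' Z).subgroupMap ⁅E, E⁆)
      ?_ ((QuotientGroup.mk' Z).subgroupMap_surjective _) hq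
    intro x hx
    have h1 : (QuotientGroup.mk' Z) (x : G) = 1 := congrArg Subtype.val (MonoidHom.mem_ker.mp hx)
    have h2 : (x : G) ∈ Z := (QuotientGroup.eq_one_iff _).mp h1
    have h3 := mem_center_iff.mp (hZ h2)
    rw [mem_center_iff]
    intro y
    exact Subtype.ext (h3 y)

end Cfsg.Agent.S3746
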