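import Cfsg.Statements.S3747
import Mathlib
import Cfsg.Agent.Lib.Layer

set_option autoImplicit false
open Cfsg

namespace Cfsg.Agent.S3747

open Subgroup Cfsg.Agent.Lib.Components Cfsg.Agent.Lib.Layer

/-- an element of the product of pairwise commuting subgroups with trivial centre which centralizes all of them is
trivial. -/
theorem eq_one_of_centralizes {G : Type*} [Group G] {S : Set (Subgroup G)} (hS : S.Finite)
    (hc : ∀ K ∈ S, ∀ L ∈ S, K ≠ L → K ≤ centralizer (L : Set G)) (hZ : ∀ K ∈ S, center K = ⊥) {x : G}
    (hx : x ∈ sSup S) (hxc : ∀ K ∈ S, x ∈ centralizer (K : Set G)) : x = 1 := by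
  induction S, hS using Set.Finite.induction_on with
  | empty => simpa using hx
  | @insert K S hKS _ ih =>
    rw [sSup_insert] at hx
    have hKc : K ≤ centralizer ((sSup S : Subgroup G) : Set G) := by
      apply le_centralizer_sSup
      intro L hL
      exact hc K (Set.mem_insert _ _) L (Set.mem_insert_of_mem _ hL) (fun h => hKS (h ▸ hL))
    obtain ⟨k, hk, s, hs, rfl⟩ := (mem_sup_of_commute hKc).mp hx
    have hsc : s ∈ centralizer (K : Set G) := le_centralizer_comm hKc hs
    have hkc : k ∈ centralizer (K : Set G) := by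
      have h1 := hxc K (Set.mem_insert _ _)
      have h2 := mul_mem h1 (inv_mem hsc)
      rwa [mul_inv_cancel_right] at h2
    have hk1 : k = 1 := by
      have h3 : (⟨k, hk⟩ : K) ∈ center K := by
        rw [mem_center_iff]
        intro y
        exact Subtype.ext (mem_centralizer_iff.mp hkc y y.2)
      rw [hZ K (Set.mem_insert _ _), mem_bot] at h3
      exact congrArg Subtype.val h3
    subst hk1
    refine ih (fun K hK L hL => hc K (Set.mem_insert_of_mem _ hK) L (Set.mem_insert_of_mem _ hL))
      (fun K hK => hZ K (Set.mem_insert_of_mem _ hK)) ?_ (fun K hK => ?_)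
    · simpa using hs
    · simpa using hxc K (Set.mem_insert_of_mem _ hK)

/-- Let G be a finite group. (a) If K is a component of G with trivial centre, then the normal closure of K in G is a minimal normal subgroup of G. (b) If the Fitting subgroup of G is trivial, then the layer E(G) is generated by the minimal normal subgroups of G. -/
theorem result {G : Type*} [Group G] [Finite G] : (∀ K : Subgroup G, Cfsg.IsComponent K → Subgroup.center ↥K = ⊥ → (Subgroup.normalClosure (K : Set G) ≠ ⊥ ∧ ∀ N : Subgroup G, N.Normal → N ≤ Subgroup.normalClosure (K : Set G) → N = ⊥ ∨ N = Subgroup.normalClosure (K : Set G))) ∧ (Cfsg.fittingSubgroup G = ⊥ → sSup {N : Subgroup G | N ≠ ⊥ ∧ N.Normal ∧ ∀ N' : Subgroup G, N'.Normal → N' ≤ N → N' = ⊥ ∨ N' = N} = Cfsg.layer G) := by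
  have ha : ∀ K : Subgroup G, Cfsg.IsComponent K → Subgroup.center ↥K = ⊥ →
      (Subgroup.normalClosure (K : Set G) ≠ ⊥ ∧ ∀ N : Subgroup G, N.Normal →
        N ≤ Subgroup.normalClosure (K : Set G) → N = ⊥ ∨ N = Subgroup.normalClosure (K : Set G)) := by
    intro K hK hKZ
    refine ⟨fun h => component_ne_bot hK (le_bot_iff.mp (h ▸ subset_normalClosure)), ?_⟩
    intro N hN hNK
    rcases component_le_or_le_centralizer hK hN.isSubnormal with h1 | h1
    · right
      exact le_antisymm hNK (normalClosure_le_normal h1)
    · left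
      set S : Set (Subgroup G) := Set.range fun g : G => K.map (MulAut.conj g).toMonoidHom with hS
      have hSsup : normalClosure (K : Set G) = sSup S := by
        apply le_antisymm
        · rw [normalClosure, closure_le]
          intro x hx
          obtain ⟨a, ha, hax⟩ := Group.mem_conjugatesOfSet_iff.mp hx
          obtain ⟨c, hc⟩ := isConj_iff.mp hax
          have h2 : K.map (MulAut.conj c).toMonoidHom ≤ sSup S := le_sSup ⟨c, rfl⟩
          exact h2 ⟨a, ha, by simpa using hc⟩
        · apply sSup_le
          rintro _ ⟨g, rfl⟩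
          rintro _ ⟨a, ha, rfl⟩
          exact normalClosure_normal.conj_mem a (subset_normalClosure ha) g
      have hSc : ∀ L ∈ S, Cfsg.IsComponent L := by
        rintro _ ⟨g, rfl⟩
        exact isComponent_conj g hK
      have hSZ : ∀ L ∈ S, center L = ⊥ := by
        rintro _ ⟨g, rfl⟩
        rw [eq_bot_iff]
        rintro ⟨_, ⟨a, ha, rfl⟩⟩ hx
        have h3 : (⟨a, ha⟩ : K) ∈ center K := by
          rw [mem_center_iff] at hx ⊢
          rintro ⟨y, hy⟩
          have h4 := congrArg Subtype.val (hx ⟨(MulAut.conj g).toMonoidHom y, ⟨y, hy, rfl⟩⟩)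
          have h5 : (MulAut.conj g).toMonoidHom (y * a) = (MulAut.conj g).toMonoidHom (a * y) := by
            rw [map_mul, map_mul]; exact h4
          exact Subtype.ext ((MulAut.conj g).injective h5)
        rw [hKZ, mem_bot] at h3
        have h6 : a = 1 := congrArg Subtype.val h3
        subst h6
        rw [mem_bot]
        exact Subtype.ext (map_one _)
      rw [eq_bot_iff]
      intro x hx
      rw [mem_bot]
      refine eq_one_of_centralizes (S := S) (Set.toFinite _) (fun K hK L hL hne => components_commute (hSc K hK) (hSc L hL) hne)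
        hSZ (hSsup ▸ hNK hx) ?_
      rintro _ ⟨g, rfl⟩
      rw [mem_centralizer_iff]
      rintro _ ⟨a, ha, rfl⟩
      have h2 := mem_centralizer_iff.mp (h1 ha) (g⁻¹ * x * g) (by simpa using hN.conj_mem x hx g⁻¹)
      have h3 : g * (g⁻¹ * x * g * a) * g⁻¹ = g * (a * (g⁻¹ * x * g)) * g⁻¹ := by rw [h2]
      change g * a * g⁻¹ * x = x * (g * a * g⁻¹)
      calc g * a * g⁻¹ * x = g * (a * (g⁻¹ * x * g)) * g⁻¹ := by group
        _ = g * (g⁻¹ * x * g * a) * g⁻¹ := h3.symm
        _ = x * (g * a * g⁻¹) := by group
  refine ⟨ha, ?_⟩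
  intro hF
  have hgen : Cfsg.generalizedFittingSubgroup G = Cfsg.layer G := by
    rw [Cfsg.generalizedFittingSubgroup, hF, sup_bot_eq]
  apply le_antisymm
  · apply sSup_le
    rintro N ⟨hN1, hN, hNmin⟩
    have hLn : (Cfsg.layer G).Normal := by
      have := layer_characteristic G
      infer_instance
    rcases hNmin (N ⊓ Cfsg.layer G) inferInstance inf_le_left with h1 | h1
    · exfalso
      apply hN1
      have h2 : ⁅N, Cfsg.layer G⁆ = ⊥ := by
        rw [eq_bot_iff, ← h1]
        exact commutator_le_inf N _
      have h3 : N ≤ Cfsg.layer G := by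
        have h4 := centralizer_genFitting_le (G := G)
        rw [hgen] at h4
        exact (le_centralizer_iff_commutator.mpr h2).trans h4
      rw [inf_eq_left.mpr h3] at h1
      exact h1
    · exact inf_eq_left.mp h1
  · apply sSup_le
    intro K hK
    have hZ : center K = ⊥ := by
      have h1 : (center K).map K.subtype ≤ Cfsg.fittingSubgroup G := by
        apply subnormal_nilpotent_le_fitting
        · exact isSubnormal_of_characteristic hK.1 inferInstance
        · apply isNilpotent_of_le_centralizer
          rw [le_centralizer_iff_isMulCommutative]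
          infer_instance
      rw [hF, le_bot_iff, map_eq_bot_iff_of_injective _ K.subtype_injective] at h1
      exact h1
    refine le_trans (subset_normalClosure (s := (K : Set G))) (le_sSup ?_)
    have h2 := ha K hK hZ
    refine ⟨h2.1, normalClosure_normal, fun N' hN' hle => h2.2 N' hN' hle⟩

end Cfsg.Agent.S3747
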