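import Cfsg.Statements.S3748
import Mathlib
import Cfsg.Agent.Lib.Cores
import Cfsg.Agent.Lib.Subnormal

set_option autoImplicit false
open Cfsg

namespace Cfsg.Agent.S3748

open Subgroup

/-- Call a proper subgroup M of G primitive when M = N_G(N) for every non-trivial normal subgroup N of M. If M is a primitive subgroup of the finite group G, then no non-trivial subnormal subgroup of G is contained in M; in particular M ∩ F(G) = 1. -/
theorem result {G : Type*} [Group G] [Finite G] (M : Subgroup G) (hM : M ≠ ⊤) (hprim : ∀ N : Subgroup G, N ≤ M → M ≤ Subgroup.normalizer (N : Set G) → N ≠ ⊥ → Subgroup.normalizer (N : Set G) = M) : (∀ L : Subgroup G, L.IsSubnormal → L ≤ M → L = ⊥) ∧ M ⊓ Cfsg.fittingSubgroup G = ⊥ := by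
  have key : ∀ L : Subgroup G, L.IsSubnormal → L ≤ M → L = ⊥ := by
    set N : Subgroup G := sSup {U : Subgroup G | U.IsSubnormal ∧ U ≤ M} with hN
    have hNs : N.IsSubnormal := Cfsg.Agent.Lib.Subnormal.isSubnormal_sSup _ (fun U hU => hU.1)
    have hNM : N ≤ M := sSup_le (fun U hU => hU.2)
    have hMN : M ≤ normalizer (N : Set G) := by
      rw [le_normalizer_iff]
      intro m hm x hx
      have h1 : N ≤ N.comap (MulAut.conj m).toMonoidHom := by
        refine sSup_le ?_
        intro U hU y hy
        rw [mem_comap]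
        refine (le_sSup (a := U.map (MulAut.conj m).toMonoidHom) ⟨?_, ?_⟩ : _ ≤ N) ⟨y, hy, rfl⟩
        · exact hU.1.map (MulAut.conj m).surjective
        · rintro _ ⟨z, hz, rfl⟩
          exact M.mul_mem (M.mul_mem hm (hU.2 hz)) (M.inv_mem hm)
      exact h1 hx
    have hbot : N = ⊥ := by
      by_contra hne
      have h2 := hprim N hNM hMN hne
      rcases Subgroup.IsSubnormal.iff_eq_top_or_exists.1 hNs with h3 | ⟨K, hK1, hK2, hK3⟩
      · rw [h3, top_le_iff] at hNM
        exact hM hNM
      · have h4 : K ≤ M := by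
          rw [← h2]
          exact (normal_subgroupOf_iff_le_normalizer hK1.le).1 hK3
        have h5 : K ≤ N := le_sSup ⟨hK2, h4⟩
        exact absurd h5 (not_le_of_gt hK1)
    intro L hL hLM
    rw [← le_bot_iff, ← hbot]
    exact le_sSup ⟨hL, hLM⟩
  refine ⟨key, key _ ?_ inf_le_left⟩
  have h1 : Group.IsNilpotent (fittingSubgroup G) := Cfsg.Agent.Lib.Cores.isNilpotent_fittingSubgroup G
  have h2 := Cfsg.Agent.Lib.Subnormal.isSubnormal_of_isNilpotent ((M ⊓ fittingSubgroup G).subgroupOf (fittingSubgroup G))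
  exact h2.trans inf_le_right (Cfsg.Agent.Lib.Cores.fittingSubgroup_normal G).isSubnormal

end Cfsg.Agent.S3748
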