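import Cfsg.Statements.S3749
import Mathlib
import Cfsg.Agent.Lib.PrimSub
import Cfsg.Agent.Lib.PCoreTools

set_option autoImplicit false
open Cfsg

namespace Cfsg.Agent.S3749

open Subgroup Cfsg.Agent.Lib Cfsg.Agent.Lib.LocBase

/-- Call a proper subgroup M of G primitive when M = N_G(N) for every non-trivial normal subgroup N of M. Let M be a primitive subgroup of the finite group G, p a prime with O_p(M) ≠ 1, and N a normal subgroup of G with M ∩ N = 1. Then p does not divide the order of N; for every prime q there is exactly one Sylow q-subgroup of N normalized by M; and if the order of N has at least two prime divisors then M is not a maximal subgroup of G. -/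
theorem result {G : Type*} [Group G] [Finite G] (M : Subgroup G) (hM : M ≠ ⊤) (hprim : ∀ N : Subgroup G, N ≤ M → M ≤ Subgroup.normalizer (N : Set G) → N ≠ ⊥ → Subgroup.normalizer (N : Set G) = M) {p : ℕ} [Fact p.Prime] (hOp : Cfsg.pCore p ↥M ≠ ⊥) (N : Subgroup G) [N.Normal] (hMN : M ⊓ N = ⊥) : ¬ p ∣ Nat.card N ∧ (∀ q : ℕ, [Fact q.Prime] → ∃! Q : Sylow q ↥N, M ≤ Subgroup.normalizer ((Q : Subgroup ↥N).map N.subtype : Set G)) ∧ ((∃ q r : ℕ, q.Prime ∧ r.Prime ∧ q ≠ r ∧ q ∣ Nat.card N ∧ r ∣ Nat.card N) → ¬ IsCoatom M) := by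
  have hpp : p.Prime := Fact.out
  set P : Subgroup G := (Cfsg.pCore p M).map M.subtype with hP
  have hPM : P ≤ M := map_subtype_le _
  have hPp : IsPGroup p P := (isPGroup_pCore p M).map _
  have hMP : M ≤ normalizer (P : Set G) := by
    have := Layer.pCore_characteristic p M
    exact le_normalizer.trans (PCoreTools.normalizer_le_of_characteristic this)
  have hP1 : P ≠ ⊥ := by
    intro h
    exact hOp ((map_eq_bot_iff_of_injective _ M.subtype_injective).mp h)
  have hNP : normalizer (P : Set G) = M := hprim P hPM hMP hP1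
  have hCN : N ⊓ centralizer (P : Set G) = ⊥ := by
    rw [eq_bot_iff, ← hMN]
    exact le_inf (inf_le_right.trans (hNP ▸ centralizer_le_normalizer _)) inf_le_left
  have hn : ∀ H : Subgroup G, H ≤ normalizer (N : Set G) := fun H => le_normalizer_of_normal
  have h1 : ¬ p ∣ Nat.card N := fun hd => PrimSub.inf_centralizer_ne_bot hPp hd (hn P) hCN
  obtain ⟨k, hk⟩ := IsPGroup.iff_card.mp hPp
  have hcop : (Nat.card P).Coprime (Nat.card N) := by
    rw [hk]
    exact Nat.Coprime.pow_left k ((Nat.Prime.coprime_iff_not_dvd hpp).mpr h1)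
  have hsol : Group.IsSolvable P ∨ Group.IsSolvable N := Or.inl (by
    have := hPp.isNilpotent
    infer_instance)
  have hex : ∀ q : ℕ, [Fact q.Prime] → ∃! Q : Sylow q ↥N, M ≤ normalizer ((Q : Subgroup ↥N).map N.subtype : Set G) := by
    intro q hq
    -- uniqueness of the `P`-invariant Sylow subgroups
    have huniq : ∀ Q R : Subgroup G, Q ≤ N → R ≤ N → IsPGroup q Q → IsPGroup q R → ¬ q ∣ Q.relIndex N →
        ¬ q ∣ R.relIndex N → P ≤ normalizer (Q : Set G) → P ≤ normalizer (R : Set G) → Q = R := by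
      intro Q R hQ hR hQq hRq hQi hRi hPQ hPR
      obtain ⟨c, hc, hcQ⟩ := CoprimeAction.invariant_sylow_conj (hn P) hcop hsol hQ hR hQq hRq hQi hRi hPQ hPR
      rw [hCN, mem_bot] at hc
      rw [← hcQ, hc, map_one, one_smul]
    obtain ⟨Q₀, hQN, hQq, hQi, hPQ⟩ := CoprimeAction.exists_invariant_sylow (hn P) hcop hsol q
    obtain ⟨Q, hQ⟩ := CoprimeAction.exists_sylow_map_subtype_eq hQN hQq hQi
    have hMQ : M ≤ normalizer (Q₀ : Set G) := by
      intro m hm
      apply mem_normalizer_of_map_conj_eq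
      have hNm : N.map (MulAut.conj m).toMonoidHom = N := map_conj_eq_of_mem (hn M hm)
      have hPm : P.map (MulAut.conj m).toMonoidHom = P := map_conj_eq_of_mem (hMP hm)
      apply huniq
      · rw [← hNm]; exact map_mono hQN
      · exact hQN
      · exact hQq.map _
      · exact hQq
      · have h3 : (Q₀.map (MulAut.conj m).toMonoidHom).relIndex (N.map (MulAut.conj m).toMonoidHom) = Q₀.relIndex N :=
          relIndex_map_map_of_injective _ _ (MulAut.conj m).injective
        rw [hNm] at h3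
        rw [h3]; exact hQi
      · exact hQi
      · rw [← hPm, ← map_conj_normalizer]
        exact map_mono hPQ
      · exact hPQ
    refine ⟨Q, ?_, ?_⟩
    · change M ≤ normalizer ((Q : Subgroup ↥N).map N.subtype : Set G)
      rw [hQ]; exact hMQ
    · intro R hR
      obtain ⟨r1, r2, r3⟩ := CoprimeAction.sylow_map_subtype_props R
      have h4 := huniq _ _ r1 hQN r2 hQq r3 hQi (hPM.trans hR) hPQ
      rw [← hQ] at h4
      exact Sylow.ext (map_injective N.subtype_injective h4)
  refine ⟨h1, hex, ?_⟩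
  rintro ⟨q, r, hq, hr, hqr, hqN, hrN⟩ hcoatom
  have hqf : Fact q.Prime := ⟨hq⟩
  have hrf : Fact r.Prime := ⟨hr⟩
  obtain ⟨Q, hQ, -⟩ := hex q
  obtain ⟨q1, q2, q3⟩ := CoprimeAction.sylow_map_subtype_props Q
  set Q₀ : Subgroup G := (Q : Subgroup ↥N).map N.subtype with hQ₀
  have hQ1 : Q₀ ≠ ⊥ := by
    intro h
    rw [h, relIndex_bot_left] at q3
    exact q3 hqN
  have hQM : ¬ Q₀ ≤ M := fun h => hQ1 (by
    rw [eq_bot_iff, ← hMN]
    exact le_inf h q1)
  have htop : M ⊔ Q₀ = ⊤ := by
    apply hcoatom.2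
    exact lt_of_le_of_ne le_sup_left (fun h => hQM (h ▸ le_sup_right))
  apply hqr
  have h5 : N ≤ Q₀ := by
    intro x hx
    have h6 : x ∈ Q₀ ⊔ M := by rw [sup_comm, htop]; exact mem_top x
    obtain ⟨m, hm, y, hy, rfl⟩ := (SubgroupTools.mem_sup_of_le_normalizer' hQ).mp h6
    have hmN : m ∈ N := by
      have := mul_mem hx (inv_mem (q1 hy))
      rwa [mul_inv_cancel_right] at this
    have hm1 : m ∈ M ⊓ N := ⟨hm, hmN⟩
    rw [hMN, mem_bot] at hm1
    rw [hm1, one_mul]; exact hy
  obtain ⟨j, hj⟩ := IsPGroup.iff_card.mp q2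
  have h7 : r ∣ q ^ j := hj ▸ hrN.trans (card_dvd_of_le h5)
  exact ((Nat.prime_dvd_prime_iff_eq hr hq).mp (hr.dvd_of_dvd_pow h7)).symm

end Cfsg.Agent.S3749
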