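import Cfsg.Statements.S3750
import Mathlib
import Cfsg.Agent.Lib.PrimSub
import Cfsg.Agent.Lib.PCoreTools
import Cfsg.Agent.S3747

set_option autoImplicit false
open Cfsg

namespace Cfsg.Agent.S3750

open Subgroup Cfsg.Agent.Lib Cfsg.Agent.Lib.LocBase

/-- Call a proper subgroup M of G primitive when M = N_G(N) for every non-trivial normal subgroup N of M. Let M be a primitive subgroup of the finite group G and N a normal subgroup of G with M ∩ F*(N) ≠ 1. Then F(G) = 1 and F*(N) = F*(G) = E(G); in particular every minimal normal subgroup of G is contained in N. -/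
theorem result {G : Type*} [Group G] [Finite G] (M : Subgroup G) (hM : M ≠ ⊤) (hprim : ∀ N : Subgroup G, N ≤ M → M ≤ Subgroup.normalizer (N : Set G) → N ≠ ⊥ → Subgroup.normalizer (N : Set G) = M) (N : Subgroup G) [N.Normal] (hMF : M ⊓ (Cfsg.generalizedFittingSubgroup ↥N).map N.subtype ≠ ⊥) : Cfsg.fittingSubgroup G = ⊥ ∧ (Cfsg.generalizedFittingSubgroup ↥N).map N.subtype = Cfsg.generalizedFittingSubgroup G ∧ Cfsg.generalizedFittingSubgroup G = Cfsg.layer G ∧ ∀ K : Subgroup G, K.Normal → K ≠ ⊥ → (∀ K' : Subgroup G, K'.Normal → K' ≤ K → K' = ⊥ ∨ K' = K) → K ≤ N := by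
  set F : Subgroup G := (Cfsg.generalizedFittingSubgroup ↥N).map N.subtype with hF
  have hFN : F ≤ N := map_subtype_le _
  have hFn : F.Normal := Layer.map_subtype_normal (Layer.generalizedFittingSubgroup_characteristic ↥N)
  set X : Subgroup G := M ⊓ F with hX
  have hMX : M ≤ normalizer (X : Set G) := le_normalizer_inf le_normalizer le_normalizer_of_normal
  have hNX : normalizer (X : Set G) = M := hprim X inf_le_left hMX hMF
  -- a nontrivial normal subgroup does not centralize `X`
  have hkey : ∀ K : Subgroup G, K.Normal → K ≠ ⊥ → ¬ K ≤ centralizer (X : Set G) := by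
    intro K hK hK1 hKX
    have h1 : K ≤ M := hKX.trans ((centralizer_le_normalizer _).trans hNX.le)
    have h2 := hprim K h1 le_normalizer_of_normal hK1
    rw [normalizer_eq_top] at h2
    exact hM h2.symm
  have hmin : ∀ K : Subgroup G, K.Normal → K ≠ ⊥ →
      (∀ K' : Subgroup G, K'.Normal → K' ≤ K → K' = ⊥ ∨ K' = K) → K ≤ N := by
    intro K hK hK1 hKmin
    rcases hKmin (K ⊓ N) inferInstance inf_le_left with h1 | h1
    · exfalso
      apply hkey K hK hK1
      have h2 : ⁅K, N⁆ = ⊥ := by
        rw [eq_bot_iff, ← h1]; exact commutator_le_inf K N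
      exact (Components.le_centralizer_iff_commutator.mpr h2).trans (centralizer_le (inf_le_right.trans hFN))
    · exact inf_eq_left.mp h1
  have hFle : F ≤ Cfsg.generalizedFittingSubgroup G := by
    have hNs : N.IsSubnormal := (inferInstance : N.Normal).isSubnormal
    rw [hF, Cfsg.generalizedFittingSubgroup, Subgroup.map_sup]
    exact sup_le_sup (Layer.map_layer_le_of_subnormal hNs) (Layer.map_fitting_le_of_subnormal hNs)
  have hfit : Cfsg.fittingSubgroup G = ⊥ := by
    by_contra hne
    have hnil := Layer.isNilpotent_fittingSubgroup G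
    set K : Subgroup G := (center (Cfsg.fittingSubgroup G)).map (Cfsg.fittingSubgroup G).subtype with hK
    have hKn : K.Normal := by
      have h0 := Layer.fittingSubgroup_characteristic G
      have : (Cfsg.fittingSubgroup G).Normal := inferInstance
      exact Layer.map_subtype_normal inferInstance
    have hK1 : K ≠ ⊥ := by
      intro h
      have h1 := (map_eq_bot_iff_of_injective _ (Cfsg.fittingSubgroup G).subtype_injective).mp h
      have h2 : Nontrivial (Cfsg.fittingSubgroup G) := (nontrivial_iff_ne_bot _).mpr hne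
      have h3 := Group.IsNilpotent.center_ne_bot (G := Cfsg.fittingSubgroup G)
      exact h3 h1
    apply hkey K hKn hK1
    have h4 : K ≤ centralizer (Cfsg.generalizedFittingSubgroup G : Set G) := by
      rw [Cfsg.generalizedFittingSubgroup]
      apply Components.le_centralizer_sup
      · exact (map_subtype_le _).trans (Components.le_centralizer_comm Layer.layer_le_centralizer_fitting)
      · rintro _ ⟨z, hz, rfl⟩
        rw [mem_centralizer_iff]
        intro y hy
        exact congrArg Subtype.val (mem_center_iff.mp hz ⟨y, hy⟩)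
    exact h4.trans (centralizer_le (inf_le_right.trans hFle))
  have hgen : Cfsg.generalizedFittingSubgroup G = Cfsg.layer G := by
    rw [Cfsg.generalizedFittingSubgroup, hfit, sup_bot_eq]
  refine ⟨hfit, ?_, hgen, hmin⟩
  apply le_antisymm hFle
  rw [hgen]
  have hLN : Cfsg.layer G ≤ N := by
    rw [← (Cfsg.Agent.S3747.result (G := G)).2 hfit]
    apply sSup_le
    rintro K ⟨hK1, hK, hKmin⟩
    exact hmin K hK hK1 hKmin
  apply sSup_le
  intro K hK
  have h1 : K ≤ (Cfsg.layer ↥N).map N.subtype :=
    (Layer.component_le_iff_of_subnormal hK).mp (le_trans (le_sSup hK) hLN)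
  exact h1.trans (map_mono le_sup_left)

end Cfsg.Agent.S3750
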