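import Cfsg.Statements.S3751
import Mathlib
import Cfsg.Agent.Lib.PrimSub
import Cfsg.Agent.Lib.PCoreTools
import Cfsg.Agent.Lib.GroupUtil

set_option autoImplicit false
open Cfsg

namespace Cfsg.Agent.S3751

open Subgroup Cfsg.Agent.Lib Cfsg.Agent.Lib.LocBase
open scoped commutatorElement

/-- `L` is `p`-local. -/
def PL {G : Type*} [Group G] (p : ℕ) (L : Subgroup G) : Prop :=
  ∃ T : Subgroup G, IsPGroup p T ∧ T ≠ ⊥ ∧ L = normalizer (T : Set G)

/-- `M` is a maximal `p`-local subgroup. -/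
def MaxPL {G : Type*} [Group G] (p : ℕ) (M : Subgroup G) : Prop :=
  PL p M ∧ ∀ L : Subgroup G, PL p L → M ≤ L → L = M

section

variable {G : Type*} [Group G] [Finite G] {p : ℕ} [hp : Fact p.Prime]

theorem exists_max {L : Subgroup G} (hL : PL p L) : ∃ M : Subgroup G, MaxPL p M ∧ L ≤ M := by
  obtain ⟨M, hLM, hM⟩ := (Set.toFinite {M : Subgroup G | PL p M}).exists_le_maximal hL
  exact ⟨M, ⟨hM.prop, fun K hK hMK => (hM.eq_of_le hK hMK).symm⟩, hLM⟩

theorem PL.conj {L : Subgroup G} (hL : PL p L) (g : G) : PL p (L.map (MulAut.conj g).toMonoidHom) := by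
  obtain ⟨T, h1, h2, h3⟩ := hL
  refine ⟨T.map (MulAut.conj g).toMonoidHom, h1.map _, ?_, ?_⟩
  · intro h
    exact h2 ((map_eq_bot_iff_of_injective _ (MulAut.conj g).injective).mp h)
  · rw [h3, map_conj_normalizer]

theorem MaxPL.conj {M : Subgroup G} (hM : MaxPL p M) (g : G) : MaxPL p (M.map (MulAut.conj g).toMonoidHom) := by
  refine ⟨hM.1.conj g, fun L hL hle => ?_⟩
  have h1 := hM.2 _ (hL.conj g⁻¹) (by
    have := map_conj_mono g⁻¹ hle
    rwa [← map_conj_mul, inv_mul_cancel, map_conj_one] at this)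
  rw [← h1, ← map_conj_mul, mul_inv_cancel, map_conj_one]

theorem MaxPL.eq_normalizer {M : Subgroup G} (hM : MaxPL p M) {B : Subgroup G} (hB : IsPGroup p B) (hB1 : B ≠ ⊥)
    (h : M ≤ normalizer (B : Set G)) : normalizer (B : Set G) = M :=
  hM.2 _ ⟨B, hB, hB1, rfl⟩ h

theorem MaxPL.core_ne_bot {M : Subgroup G} (hM : MaxPL p M) : pCoreOf p M ≠ ⊥ := by
  obtain ⟨T, h1, h2, h3⟩ := hM.1
  intro h
  apply h2
  rw [eq_bot_iff, ← h]
  exact le_pCoreOf (h3 ▸ le_normalizer) h3.le h1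

theorem MaxPL.ne_top (hOp : Cfsg.pCore p G = ⊥) {M : Subgroup G} (hM : MaxPL p M) : M ≠ ⊤ := by
  obtain ⟨T, h1, h2, h3⟩ := hM.1
  rintro rfl
  apply h2
  rw [eq_bot_iff, ← hOp]
  have h4 : T.Normal := normalizer_eq_top_iff.mp h3.symm
  exact le_pCore h4 h1

theorem MaxPL.dvd {M : Subgroup G} (hM : MaxPL p M) : p ∣ Nat.card M := by
  obtain ⟨T, h1, h2, h3⟩ := hM.1
  have h4 : T ≤ M := h3 ▸ le_normalizer
  rcases h1.card_eq_or_dvd with h | h
  · exact absurd (card_eq_one.mp h) h2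
  · exact h.trans (card_dvd_of_le h4)

theorem MaxPL.normalizer_eq {M : Subgroup G} (hM : MaxPL p M) : normalizer (M : Set G) ≤ M := by
  have h1 := hM.eq_normalizer (isPGroup_pCoreOf p M) hM.core_ne_bot
    (le_normalizer.trans (normalizer_le_normalizer_pCoreOf p M))
  exact (normalizer_le_normalizer_pCoreOf p M).trans h1.le

theorem MaxPL.conj_ne {M : Subgroup G} (hM : MaxPL p M) {g : G} (hg : g ∉ M) :
    M.map (MulAut.conj g).toMonoidHom ≠ M := fun h =>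
  hg (hM.normalizer_eq (mem_normalizer_of_map_conj_eq h))

theorem MaxPL.char (hloc : Cfsg.IsOfLocalCharacteristic p G) {M : Subgroup G} (hM : MaxPL p M) :
    centralizer (Cfsg.pCore p ↥M : Set ↥M) ≤ Cfsg.pCore p ↥M := by
  obtain ⟨T, h1, h2, h3⟩ := hM.1
  subst h3
  exact hloc.2 T h1 h2

theorem MaxPL.prim (hloc : Cfsg.IsOfLocalCharacteristic p G) {M : Subgroup G} (hM : MaxPL p M) {A : Subgroup G}
    (hA1 : A ≠ ⊥) (hAM : A ≤ M) (hMA : M ≤ normalizer (A : Set G)) : normalizer (A : Set G) = M := by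
  have hB : pCoreOf p A ≠ ⊥ := by
    intro hbot
    have h1 : A ⊓ pCoreOf p M = ⊥ := by
      rw [eq_bot_iff, ← hbot]
      refine le_pCoreOf inf_le_left ?_ (isPGroup_mono (isPGroup_pCoreOf p M) inf_le_right)
      exact le_normalizer_inf le_normalizer (hAM.trans (le_normalizer.trans (normalizer_le_normalizer_pCoreOf p M)))
    have h2 : ⁅A, pCoreOf p M⁆ = ⊥ := by
      rw [eq_bot_iff, ← h1, commutator_le]
      intro a ha q hq
      have haq : q ∈ normalizer (A : Set G) := hMA (pCoreOf_le M hq)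
      have hqa : a ∈ normalizer (pCoreOf p M : Set G) :=
        normalizer_le_normalizer_pCoreOf p M (le_normalizer (hAM ha))
      refine ⟨?_, ?_⟩
      · have h3 : ⁅a, q⁆ = a * (q * a⁻¹ * q⁻¹) := by rw [commutatorElement_def]; group
        rw [h3]
        exact A.mul_mem ha ((mem_normalizer_iff.mp haq _).mp (A.inv_mem ha))
      · rw [commutatorElement_def]
        exact (pCoreOf p M).mul_mem ((mem_normalizer_iff.mp hqa _).mp hq) ((pCoreOf p M).inv_mem hq)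
    have h3 : A ≤ pCoreOf p M := by
      intro a ha
      have h4 : (⟨a, hAM ha⟩ : M) ∈ centralizer (Cfsg.pCore p ↥M : Set ↥M) := by
        rw [mem_centralizer_iff]
        intro q hq
        have h5 : (q : G) ∈ pCoreOf p M := ⟨q, hq, rfl⟩
        have h6 := mem_centralizer_iff.mp ((commutator_eq_bot_iff_le_centralizer.mp h2) ha) q h5
        exact Subtype.ext h6
      exact ⟨_, hM.char hloc h4, rfl⟩
    rw [inf_eq_left.mpr h3] at h1
    exact hA1 h1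
  have h1 := hM.eq_normalizer (isPGroup_pCoreOf p A) hB (hMA.trans (normalizer_le_normalizer_pCoreOf p A))
  exact le_antisymm ((normalizer_le_normalizer_pCoreOf p A).trans h1.le) hMA

/-- A pair of distinct maximal `p`-local subgroups with a common Sylow subgroup is a primitive pair. -/
theorem pair (hloc : Cfsg.IsOfLocalCharacteristic p G) {M₁ M₂ T : Subgroup G} (hM₁ : MaxPL p M₁) (hM₂ : MaxPL p M₂)
    (hne : M₁ ≠ M₂) (hT : IsPGroup p T) (h₁ : T ≤ M₁) (h₂ : T ≤ M₂)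
    (hs₁ : ∀ R : Subgroup G, IsPGroup p R → T ≤ R → R ≤ M₁ → R = T)
    (hs₂ : ∀ R : Subgroup G, IsPGroup p R → T ≤ R → R ≤ M₂ → R = T) :
    ∃ M₁ M₂ : Subgroup G, M₁ ≠ M₂ ∧ (∀ A : Subgroup G, A ≠ ⊥ → A ≤ M₁ ⊓ M₂ → (M₁ ≤ Subgroup.normalizer (A : Set G) → M₂ ⊓ Subgroup.normalizer (A : Set G) = M₁ ⊓ M₂) ∧ (M₂ ≤ Subgroup.normalizer (A : Set G) → M₁ ⊓ Subgroup.normalizer (A : Set G) = M₁ ⊓ M₂)) ∧ Subgroup.centralizer (Cfsg.pCore p ↥M₁ : Set ↥M₁) ≤ Cfsg.pCore p ↥M₁ ∧ Subgroup.centralizer (Cfsg.pCore p ↥M₂ : Set ↥M₂) ≤ Cfsg.pCore p ↥M₂ ∧ (Cfsg.pCore p ↥M₁).map M₁.subtype ⊔ (Cfsg.pCore p ↥M₂).map M₂.subtype ≤ M₁ ⊓ M₂ := by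
  have hcore : ∀ M : Subgroup G, T ≤ M → (∀ R : Subgroup G, IsPGroup p R → T ≤ R → R ≤ M → R = T) →
      pCoreOf p M ≤ T := by
    intro M hTM hs
    have h1 : IsPGroup p ↥(pCoreOf p M ⊔ T) := isPGroup_sup (isPGroup_pCoreOf p M) hT
      (hTM.trans (le_normalizer.trans (normalizer_le_normalizer_pCoreOf p M)))
    exact le_sup_left.trans (hs _ h1 le_sup_right (sup_le (pCoreOf_le M) hTM)).le
  refine ⟨M₁, M₂, hne, ?_, hM₁.char hloc, hM₂.char hloc, ?_⟩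
  · intro A hA1 hA
    refine ⟨fun h => ?_, fun h => ?_⟩
    · rw [hM₁.prim hloc hA1 (hA.trans inf_le_left) h, inf_comm]
    · rw [hM₂.prim hloc hA1 (hA.trans inf_le_right) h]
  · exact (sup_le (hcore M₁ h₁ hs₁) (hcore M₂ h₂ hs₂)).trans (le_inf h₁ h₂)

end

/-- Two distinct subgroups M₁, M₂ of G form a primitive pair when, for {i, j} = {1, 2}, every non-trivial normal subgroup A of M_i contained in M₁ ∩ M₂ satisfies N_{M_j}(A) = M₁ ∩ M₂; the pair has characteristic p when moreover C_{M_i}(O_p(M_i)) ≤ O_p(M_i) for both i and O_p(M₁)O_p(M₂) ≤ M₁ ∩ M₂. Let G be a finite group, p a prime dividing its order, with O_p(G) = 1 and every p-local subgroup of characteristic p. Then either G has a primitive pair of characteristic p, or every maximal p-local subgroup M of G is strongly p-embedded in G: M is a proper subgroup, p divides its order, and for every g ∉ M the order of M ∩ gMg⁻¹ is prime to p. -/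
theorem result {G : Type*} [Group G] [Finite G] {p : ℕ} [Fact p.Prime] (hloc : Cfsg.IsOfLocalCharacteristic p G) (hOp : Cfsg.pCore p G = ⊥) : (∃ M₁ M₂ : Subgroup G, M₁ ≠ M₂ ∧ (∀ A : Subgroup G, A ≠ ⊥ → A ≤ M₁ ⊓ M₂ → (M₁ ≤ Subgroup.normalizer (A : Set G) → M₂ ⊓ Subgroup.normalizer (A : Set G) = M₁ ⊓ M₂) ∧ (M₂ ≤ Subgroup.normalizer (A : Set G) → M₁ ⊓ Subgroup.normalizer (A : Set G) = M₁ ⊓ M₂)) ∧ Subgroup.centralizer (Cfsg.pCore p ↥M₁ : Set ↥M₁) ≤ Cfsg.pCore p ↥M₁ ∧ Subgroup.centralizer (Cfsg.pCore p ↥M₂ : Set ↥M₂) ≤ Cfsg.pCore p ↥M₂ ∧ (Cfsg.pCore p ↥M₁).map M₁.subtype ⊔ (Cfsg.pCore p ↥M₂).map M₂.subtype ≤ M₁ ⊓ M₂) ∨ (∀ M : Subgroup G, (∃ T : Subgroup G, IsPGroup p T ∧ T ≠ ⊥ ∧ M = Subgroup.normalizer (T : Set G)) → (∀ L : Subgroup G, (∃ T : Subgroup G, IsPGroup p T ∧ T ≠ ⊥ ∧ L = Subgroup.normalizer (T : Set G)) → M ≤ L → L = M) → M ≠ ⊤ ∧ p ∣ Nat.card M ∧ ∀ g : G, g ∉ M → ¬ p ∣ Nat.card ↥(M ⊓ M.map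 (MulAut.conj g).toMonoidHom)) := by
  have hpp : p.Prime := Fact.out
  rw [or_iff_not_imp_left]
  intro hno M hM1 hM2
  have hM : MaxPL p M := ⟨hM1, hM2⟩
  refine ⟨hM.ne_top hOp, hM.dvd, ?_⟩
  intro g hg hd
  apply hno
  -- the set of intersections
  set 𝒯 : Set (Subgroup G) := {T | IsPGroup p T ∧ T ≠ ⊥ ∧ ∃ M₁ M₂ : Subgroup G, MaxPL p M₁ ∧ MaxPL p M₂ ∧ M₁ ≠ M₂ ∧
    T ≤ M₁ ∧ T ≤ M₂} with h𝒯
  obtain ⟨x, hx⟩ := exists_prime_orderOf_dvd_card' p hd
  have hxo : orderOf (x : G) = p := by rw [orderOf_coe]; exact hx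
  have hT₀ : zpowers (x : G) ∈ 𝒯 := by
    refine ⟨?_, ?_, M, M.map (MulAut.conj g).toMonoidHom, hM, hM.conj g, (hM.conj_ne hg).symm, ?_, ?_⟩
    · apply IsPGroup.of_card (n := 1)
      rw [Nat.card_zpowers, hxo, pow_one]
    · intro h
      rw [zpowers_eq_bot] at h
      rw [h, orderOf_one] at hxo
      exact hpp.one_lt.ne hxo
    · rw [zpowers_le]; exact x.2.1
    · rw [zpowers_le]; exact x.2.2
  obtain ⟨T, hT, hmax⟩ := Set.Finite.exists_maximalFor (fun X : Subgroup G => Nat.card X) 𝒯 (Set.toFinite _) ⟨_, hT₀⟩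
  obtain ⟨hTp, hT1, M₁, M₂, hM₁, hM₂, hne, hTM₁, hTM₂⟩ := hT
  obtain ⟨M₃, hM₃, hNM₃⟩ := exists_max (p := p) (L := normalizer (T : Set G)) ⟨T, hTp, hT1, rfl⟩
  have hTM₃ : T ≤ M₃ := le_normalizer.trans hNM₃
  -- no bigger `p`-subgroup is in two maximal `p`-locals
  have hnot : ∀ R N₁ N₂ : Subgroup G, IsPGroup p R → T < R → MaxPL p N₁ → MaxPL p N₂ → R ≤ N₁ → R ≤ N₂ → N₁ = N₂ := by
    intro R N₁ N₂ hR hTR h1 h2 h3 h4
    by_contra hne
    have h5 : R ∈ 𝒯 := ⟨hR, fun h => hT1 (le_bot_iff.mp (h ▸ hTR.le)), N₁, N₂, h1, h2, hne, h3, h4⟩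
    have h6 := hmax h5
    have h7 : Nat.card T ≤ Nat.card R := Nat.le_of_dvd Nat.card_pos (card_dvd_of_le hTR.le)
    exact hTR.ne (eq_of_le_of_card_ge hTR.le (h6 h7))
  have hsyl : ∀ N : Subgroup G, MaxPL p N → N ≠ M₃ → ∀ R : Subgroup G, IsPGroup p R → T ≤ R → R ≤ N → R = T := by
    intro N hN hNe R hR hTR hRN
    by_contra hne
    have hlt : T < R := lt_of_le_of_ne hTR (Ne.symm hne)
    have h1 := GroupUtil.lt_inf_normalizer_of_isPGroup hR hlt
    apply hNe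
    exact hnot _ N M₃ (isPGroup_mono hR inf_le_left) h1 hN hM₃ (inf_le_left.trans hRN) (inf_le_right.trans hNM₃)
  obtain ⟨N, hN, hNe, hTN⟩ : ∃ N : Subgroup G, MaxPL p N ∧ N ≠ M₃ ∧ T ≤ N := by
    by_cases h1 : M₁ = M₃
    · exact ⟨M₂, hM₂, fun h => hne (h1.trans h.symm), hTM₂⟩
    · exact ⟨M₁, hM₁, h1, hTM₁⟩
  by_cases hs3 : ∀ R : Subgroup G, IsPGroup p R → T ≤ R → R ≤ M₃ → R = T
  · exact pair hloc hN hM₃ hNe hTp hTN hTM₃ (hsyl N hN hNe) hs3
  · push Not at hs3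
    obtain ⟨R, hR, hTR, hRM, hRT⟩ := hs3
    have hlt : T < R := lt_of_le_of_ne hTR (Ne.symm hRT)
    have h1 := GroupUtil.lt_inf_normalizer_of_isPGroup hR hlt
    obtain ⟨y, hy, hyT⟩ := SetLike.exists_of_lt h1
    have hyN : y ∉ N := by
      intro hyN
      apply hyT
      have h2 : IsPGroup p ↥(R ⊓ normalizer (T : Set G) ⊓ N) :=
        isPGroup_mono hR (inf_le_left.trans inf_le_left)
      have h3 := hsyl N hN hNe _ h2 (le_inf h1.le hTN) inf_le_right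
      rw [← h3]
      exact ⟨hy, hyN⟩
    have hTy : T.map (MulAut.conj y).toMonoidHom = T := map_conj_eq_of_mem hy.2
    refine pair hloc hN (hN.conj y) (hN.conj_ne hyN).symm hTp hTN ?_ (hsyl N hN hNe) ?_
    · rw [← hTy]; exact map_mono hTN
    · intro Q hQ hTQ hQN
      have h4 := hsyl N hN hNe (Q.map (MulAut.conj y⁻¹).toMonoidHom) (hQ.map _) (by
        have := map_conj_mono y⁻¹ hTQ
        rwa [← hTy, ← map_conj_mul, inv_mul_cancel, map_conj_one] at this) (by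
        have := map_conj_mono y⁻¹ hQN
        rwa [← map_conj_mul, inv_mul_cancel, map_conj_one] at this)
      have h5 := congrArg (fun X : Subgroup G => X.map (MulAut.conj y).toMonoidHom) h4
      rwa [← map_conj_mul, mul_inv_cancel, map_conj_one, hTy] at h5

end Cfsg.Agent.S3751
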