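import Cfsg.Statements.S3753
import Cfsg.Agent.Lib.PrimPairK

set_option autoImplicit false
open Cfsg

namespace Cfsg.Agent.S3753

open Cfsg.Agent.Lib.CFFusion (nz)

theorem pcore_normalized {G : Type*} [Group G] [Finite G] (p : ℕ) [Fact p.Prime] (M : Subgroup G) :
    M ≤ Subgroup.normalizer (((Cfsg.pCore p ↥M).map M.subtype : Subgroup G) : Set G) := by
  have hn : (Cfsg.pCore p ↥M).Normal := Cfsg.Agent.Lib.CFCore.pCore_normal p _
  rw [Cfsg.Agent.Lib.CFSylow.le_normalizer_iff]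
  rintro x hx _ ⟨y, hy, rfl⟩
  exact ⟨⟨x, hx⟩ * y * ⟨x, hx⟩⁻¹, hn.conj_mem y hy _, rfl⟩

/-- abelian Sylow 2-subgroups, `p = 2`: a 2-element of `M` is in `O_2(M)`. -/
theorem two_case {M : Type*} [Group M] [Finite M] (hab : ∀ T : Sylow 2 M, IsMulCommutative T)
    (hc : Subgroup.centralizer (Cfsg.pCore 2 M : Set M) ≤ Cfsg.pCore 2 M) {Q : Subgroup M}
    (hQ : IsPGroup 2 Q) : Q ≤ Cfsg.pCore 2 M := by
  have h2 : Fact (Nat.Prime 2) := ⟨Nat.prime_two⟩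
  obtain ⟨P, hP⟩ := hQ.exists_le_sylow
  have hcP : Cfsg.pCore 2 M ≤ P := Cfsg.Agent.Lib.CFCore.pCore_le (Cfsg.Agent.Lib.CFSylow.sylIn_sylow P)
  intro x hx
  apply hc
  rw [Subgroup.mem_centralizer_iff]
  intro y hy
  exact congrArg Subtype.val ((hab P).is_comm.comm (⟨y, hcP hy⟩ : P) ⟨x, hP hx⟩)

/-- Two distinct subgroups M₁, M₂ of G form a primitive pair when, for {i, j} = {1, 2}, every non-trivial normal subgroup A of M_i contained in M₁ ∩ M₂ satisfies N_{M_j}(A) = M₁ ∩ M₂; the pair has characteristic p when moreover C_{M_i}(O_p(M_i)) ≤ O_p(M_i) for both i and O_p(M₁)O_p(M₂) ≤ M₁ ∩ M₂. If the finite group G has a primitive pair (M₁, M₂) of characteristic p for some prime p, then M₁ or M₂ has non-abelian Sylow 2-subgroups. In particular no group of odd order has a primitive pair of characteristic p. -/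
theorem result {G : Type*} [Group G] [Finite G] {p : ℕ} [Fact p.Prime] (M₁ M₂ : Subgroup G) (hne : M₁ ≠ M₂) (hP : ∀ A : Subgroup G, A ≠ ⊥ → A ≤ M₁ ⊓ M₂ → (M₁ ≤ Subgroup.normalizer (A : Set G) → M₂ ⊓ Subgroup.normalizer (A : Set G) = M₁ ⊓ M₂) ∧ (M₂ ≤ Subgroup.normalizer (A : Set G) → M₁ ⊓ Subgroup.normalizer (A : Set G) = M₁ ⊓ M₂)) (hc₁ : Subgroup.centralizer (Cfsg.pCore p ↥M₁ : Set ↥M₁) ≤ Cfsg.pCore p ↥M₁) (hc₂ : Subgroup.centralizer (Cfsg.pCore p ↥M₂ : Set ↥M₂) ≤ Cfsg.pCore p ↥M₂) (hO : (Cfsg.pCore p ↥M₁).map M₁.subtype ⊔ (Cfsg.pCore p ↥M₂).map M₂.subtype ≤ M₁ ⊓ M₂) : (∃ S : Sylow 2 ↥M₁, ¬ IsMulCommutative (S : Subgroup ↥M₁)) ∨ (∃ S : Sylow 2 ↥M₂, ¬ IsMulCommutative (S : Subgroup ↥M₂)) := by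
  by_contra hcon
  push Not at hcon
  obtain ⟨hab₁, hab₂⟩ := hcon
  set O₁ := (Cfsg.pCore p ↥M₁).map M₁.subtype with hO₁
  set O₂ := (Cfsg.pCore p ↥M₂).map M₂.subtype with hO₂
  -- it is enough to find a common normalized subgroup
  have fin : ∀ A : Subgroup G, A ≠ ⊥ → A ≤ M₁ ⊓ M₂ → M₁ ≤ Subgroup.normalizer (A : Set G) →
      M₂ ≤ Subgroup.normalizer (A : Set G) → False := by
    intro A hA hAM h1 h2
    apply hne
    have e1 := (hP A hA hAM).1 h1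
    have e2 := (hP A hA hAM).2 h2
    rw [inf_eq_left.2 h2] at e1
    rw [inf_eq_left.2 h1] at e2
    rw [e2, ← e1]
  have hN₁ : M₁ ≤ Subgroup.normalizer (O₁ : Set G) := pcore_normalized p M₁
  have hN₂ : M₂ ≤ Subgroup.normalizer (O₂ : Set G) := pcore_normalized p M₂
  have hp₁ : IsPGroup p O₁ := (Cfsg.Agent.Lib.CFCore.pCore_isPGroup).map _
  have hp₂ : IsPGroup p O₂ := (Cfsg.Agent.Lib.CFCore.pCore_isPGroup).map _
  have hle₁ : O₁ ≤ M₁ ⊓ M₂ := le_sup_left.trans hO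
  have hle₂ : O₂ ≤ M₁ ⊓ M₂ := le_sup_right.trans hO
  have htriv : ∀ M : Subgroup G, Subgroup.centralizer (Cfsg.pCore p ↥M : Set ↥M) ≤ Cfsg.pCore p ↥M →
      (Cfsg.pCore p ↥M).map M.subtype = ⊥ → M = ⊥ := by
    intro M hc hb
    have hb' : Cfsg.pCore p ↥M = ⊥ := (Subgroup.map_eq_bot_iff_of_injective _ M.subtype_injective).1 hb
    rw [hb'] at hc
    rw [eq_bot_iff]
    intro x hx
    have h1 : (⟨x, hx⟩ : ↥M) ∈ (⊥ : Subgroup ↥M) := by
      apply hc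
      rw [Subgroup.mem_centralizer_iff]
      intro y hy
      rw [SetLike.mem_coe, Subgroup.mem_bot] at hy
      rw [hy, one_mul, mul_one]
    rw [Subgroup.mem_bot] at h1
    rw [Subgroup.mem_bot]
    exact congrArg Subtype.val h1
  by_cases hp2 : p = 2
  · subst hp2
    have e₁ : O₂ ≤ O₁ := by
      intro x hx
      have hx1 : x ∈ M₁ := (hle₂ hx).1
      have h1 : O₂.subgroupOf M₁ ≤ Cfsg.pCore 2 ↥M₁ :=
        two_case hab₁ hc₁ (hp₂.comap_of_injective _ M₁.subtype_injective)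
      exact ⟨⟨x, hx1⟩, h1 hx, rfl⟩
    have e₂ : O₁ ≤ O₂ := by
      intro x hx
      have hx1 : x ∈ M₂ := (hle₁ hx).2
      have h1 : O₁.subgroupOf M₂ ≤ Cfsg.pCore 2 ↥M₂ :=
        two_case hab₂ hc₂ (hp₁.comap_of_injective _ M₂.subtype_injective)
      exact ⟨⟨x, hx1⟩, h1 hx, rfl⟩
    have e : O₁ = O₂ := le_antisymm e₂ e₁
    by_cases hb : O₁ = ⊥
    · apply hne
      rw [htriv M₁ hc₁ hb, htriv M₂ hc₂ (e.symm.trans hb)]
    · exact fin O₁ hb hle₁ hN₁ (e ▸ hN₂)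
  · set S := O₁ ⊔ O₂ with hS
    have hSp : IsPGroup p S := by
      refine IsPGroup.to_sup_of_normal_right' hp₁ hp₂ ?_
      exact (hle₁.trans inf_le_right).trans hN₂
    have h1 := Cfsg.Agent.Lib.PrimPairK.kinf_sub_of_abelian hp2 hab₁ hc₁ hSp (hO.trans inf_le_left)
      le_sup_left
    have h2 := Cfsg.Agent.Lib.PrimPairK.kinf_sub_of_abelian hp2 hab₂ hc₂ hSp (hO.trans inf_le_right)
      le_sup_right
    by_cases hb : S = ⊥
    · apply hne
      have hb1 : O₁ = ⊥ := le_bot_iff.1 (le_sup_left.trans hb.le)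
      have hb2 : O₂ = ⊥ := le_bot_iff.1 (le_sup_right.trans hb.le)
      rw [htriv M₁ hc₁ hb1, htriv M₂ hc₂ hb2]
    · refine fin _ ?_ ?_ h1 h2
      · have hnt : Nontrivial ↥S := (Subgroup.nontrivial_iff_ne_bot S).2 hb
        have h3 := (Cfsg.Agent.Lib.KInf1.isChar_kInfLower p).1 ↥S hSp hnt
        intro h4
        exact h3 ((Subgroup.map_eq_bot_iff_of_injective _ S.subtype_injective).1 h4)
      · exact (Subgroup.map_subtype_le _).trans hO

end Cfsg.Agent.S3753
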