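import Cfsg.Statements.S3754
import Mathlib
import Cfsg.Agent.Lib.H62TwoConj

set_option autoImplicit false
open Cfsg

open Subgroup Cfsg.Agent.Lib
open scoped commutatorElement

namespace Cfsg.Agent.S3754

/-- Let M be a finite p-soluble group and A a p-subgroup of M with Φ(A) ≤ O_p(M) but A ≰ O_p(M). Then there is x ∈ O_{p,p'}(M) such that L = ⟨A, xAx⁻¹⟩ satisfies: x ∈ O^p(L) and O^p(L) ≤ O_{p,p'}(M); [O^p(L), A] = O^p(L); A ∩ O_p(L) has index p in A; and [A ∩ O_p(L), L] ≤ O_p(M). Here O^p(L) is the subgroup generated by the p'-elements of L and O_{p,p'}(M) the preimage of O_{p'}(M/O_p(M)). -/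
theorem result {M : Type*} [Group M] [Finite M] {p : ℕ} [Fact p.Prime] (hM : Cfsg.IsPSolvable p M) (A : Subgroup M) (hA : IsPGroup p A) (hΦ : (frattini ↥A).map A.subtype ≤ Cfsg.pCore p M) (hnot : ¬ A ≤ Cfsg.pCore p M) : ∃ x ∈ (Cfsg.pPrimeCore p (M ⧸ Cfsg.pCore p M)).comap (QuotientGroup.mk' (Cfsg.pCore p M)), x ∈ (Cfsg.pResidual p ↥(A ⊔ A.map (MulAut.conj x).toMonoidHom)).map (A ⊔ A.map (MulAut.conj x).toMonoidHom).subtype ∧ (Cfsg.pResidual p ↥(A ⊔ A.map (MulAut.conj x).toMonoidHom)).map (A ⊔ A.map (MulAut.conj x).toMonoidHom).subtype ≤ (Cfsg.pPrimeCore p (M ⧸ Cfsg.pCore p M)).comap (QuotientGroup.mk' (Cfsg.pCore p M)) ∧ ⁅(Cfsg.pResidual p ↥(A ⊔ A.map (MulAut.conj x).toMonoidHom)).map (A ⊔ A.map (MulAut.conj x).toMonoidHom).subtype, A⁆ = (Cfsg.pResidual p ↥(A ⊔ A.map (MulAut.conj x).toMonoidHom)).map (A ⊔ A.map (MulAut.conj x).toMonoidHom).subtype ∧ (A ⊓ (Cfsg.pCore p ↥(A ⊔ A.map (MulAut.conj x).toMonoidHom)).map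 (A ⊔ A.map (MulAut.conj x).toMonoidHom).subtype).relIndex A = p ∧ ⁅A ⊓ (Cfsg.pCore p ↥(A ⊔ A.map (MulAut.conj x).toMonoidHom)).map (A ⊔ A.map (MulAut.conj x).toMonoidHom).subtype, A ⊔ A.map (MulAut.conj x).toMonoidHom⁆ ≤ Cfsg.pCore p M := by
  classical
  have hp : p.Prime := Fact.out
  have hQn : (pCore p M).Normal := pCore_normal p M
  set π : M →* M ⧸ pCore p M := QuotientGroup.mk' (pCore p M) with hπ
  have hsurj : Function.Surjective π := QuotientGroup.mk'_surjective _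
  have hker : π.ker = pCore p M := QuotientGroup.ker_mk' _
  have hkerp : IsPGroup p π.ker := by rw [hker]; exact LocBase.isPGroup_pCore p M
  have hAcomm : IsMulCommutative (A.map π) := by
    rw [isMulCommutative_iff_of_setLike]
    rintro _ ⟨a, ha, rfl⟩ _ ⟨b, hb, rfl⟩
    have h1 : (⁅(⟨a, ha⟩ : A), (⟨b, hb⟩ : A)⁆ : A) ∈ frattini A :=
      H70Frattini.commutator_le_frattini hA (Subgroup.commutator_mem_commutator (mem_top _) (mem_top _))
    have h2 : ⁅a, b⁆ ∈ pCore p M := hΦ ⟨_, h1, rfl⟩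
    rw [← hker, MonoidHom.mem_ker, map_commutatorElement, commutatorElement_eq_one_iff_mul_comm] at h2
    exact h2
  have hexp : ∀ a ∈ A.map π, a ^ p = 1 := by
    rintro _ ⟨a, ha, rfl⟩
    have h1 : (⟨a, ha⟩ : A) ^ p ∈ frattini A := H70Frattini.pow_mem_frattini hA _
    have h2 : a ^ p ∈ pCore p M := hΦ ⟨_, h1, rfl⟩
    rw [← hker, MonoidHom.mem_ker, map_pow] at h2
    exact h2
  have hpsol : IsPSolvable p (M ⧸ pCore p M) := H32PSolv.isPSolvable_quotient hM _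
  have hcore : pCore p (M ⧸ pCore p M) = ⊥ := Fitting.pCore_quotient_pCore p
  have hC := PSolvDual.centralizer_pPrimeCore_le hpsol hcore
  have hKn : (pPrimeCore p (M ⧸ pCore p M)).Normal := pPrimeCore_normal p _
  have hKc : (Nat.card (pPrimeCore p (M ⧸ pCore p M))).Coprime p := H32Cores.pPrimeCore_coprime p
  have hne : ⁅pPrimeCore p (M ⧸ pCore p M), A.map π⁆ ≠ ⊥ := by
    intro h
    rw [commutator_eq_bot_iff_le_centralizer, le_centralizer_iff] at h
    have h1 := h.trans hC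
    have h2 : A.map π = ⊥ := by
      rw [eq_bot_iff, ← inf_eq_left.mpr h1]
      rw [SubgroupTools.inf_eq_bot_of_coprime']
      obtain ⟨k, hk⟩ := IsPGroup.iff_card.mp (hA.map π)
      rw [hk]
      exact (hKc.pow_right k).symm
    rw [Subgroup.map_eq_bot_iff, hker] at h2
    exact hnot h2
  obtain ⟨B, U, hBA, hidx, hUK, hUB, hAU, hUA, hmain⟩ := H62TwoConj.exists_pair hAcomm hexp (hA.map π)
    (by rw [normalizer_eq_top_iff.mpr hKn]; exact le_top) hKc hne
  obtain ⟨x, hx, h1, h2, h3, h4, h5⟩ := H62TwoConj.main π hsurj hkerp hBA hAcomm hA hidx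
    (Nat.Coprime.coprime_dvd_left (card_dvd_of_le hUK) hKc) hUB hAU hUA hmain
  refine ⟨x, hUK hx, ?_⟩
  rw [LocBase.map_pResidual]
  refine ⟨h1, ?_, h3, h4, ?_⟩
  · rw [← Subgroup.map_le_iff_le_comap, h2]
    exact hUK
  · rw [hker] at h5
    exact h5

end Cfsg.Agent.S3754
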