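import Cfsg.Statements.S3755
import Mathlib
import Cfsg.Agent.Lib.S3Sec
import Cfsg.Agent.Lib.AbGen
import Cfsg.Agent.Lib.PCoreTools
import Cfsg.Agent.Lib.GroupUtil
import Cfsg.Agent.Lib.Layer
import Cfsg.Agent.Lib.Cores

set_option autoImplicit false
open Cfsg

namespace Cfsg.Agent.S3755

open Subgroup Cfsg.Agent.Lib Cfsg.Agent.Lib.LocBase
open scoped commutatorElement

universe u

theorem relIndex_pos' {X : Type*} [Group X] [Finite X] (H K : Subgroup X) : 0 < H.relIndex K :=
  Nat.pos_of_ne_zero (index_ne_zero_of_finite (H := H.subgroupOf K))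

theorem main {X : Type u} [Group X] [Finite X] (M V K : Subgroup X) (hV : Cfsg.IsElementaryAbelian 2 V)
    (hMV : M ≤ normalizer (V : Set X)) (hfaith : M ⊓ centralizer (V : Set X) = ⊥) (hKM : K ≤ M)
    (hMK : M ≤ normalizer (K : Set X)) (hKodd : (Nat.card K).Coprime 2) (hcon : M ⊓ centralizer (K : Set X) ≤ K) :
    ∀ (n : ℕ) (A : Subgroup X), Nat.card A = n → A ≤ M → Cfsg.IsElementaryAbelian 2 A →
      (V ⊓ centralizer (A : Set X)).relIndex V < Nat.card A ^ 2 → Cfsg.Involves (Equiv.Perm (Fin 3)) ↥M := by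
  intro n
  induction n using Nat.strong_induction_on with
  | _ n ih =>
  intro A hn hAM hA hsmall
  have hpgV : ∀ W : Subgroup X, Cfsg.IsElementaryAbelian 2 W → IsPGroup 2 W := fun W hW v => ⟨1, by
    rw [pow_one]; exact Subtype.ext (hW.2 v v.2)⟩
  have hVp : IsPGroup 2 V := hpgV V hV
  have hAp : IsPGroup 2 A := hpgV A hA
  have hAK : A ≤ normalizer (K : Set X) := hAM.trans hMK
  obtain ⟨j, hj⟩ := IsPGroup.iff_card.mp hAp
  have hcop : (Nat.card A).Coprime (Nat.card K) := by
    rw [hj]; exact Nat.Coprime.pow_left j hKodd.symm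
  have hA1 : A ≠ ⊥ := by
    rintro rfl
    rw [card_bot, one_pow, Nat.lt_one_iff] at hsmall
    exact (relIndex_pos' _ _).ne' hsmall
  have hKA : ⁅K, A⁆ ≠ ⊥ := by
    intro h
    have h1 : A ≤ K := by
      refine le_trans (le_inf hAM ?_) hcon
      exact Components.le_centralizer_comm (Components.le_centralizer_iff_commutator.mpr h)
    have h2 : Nat.card A ∣ Nat.card K := card_dvd_of_le h1
    exact hA1 (card_eq_one.mp (Nat.Coprime.eq_one_of_dvd hcop h2))
  -- choose `B`
  obtain ⟨B, hBA, a, haA, hBa, hBne⟩ : ∃ B ≤ A, ∃ a ∈ A, B ⊔ zpowers a = A ∧ ⁅K ⊓ centralizer (B : Set X), A⁆ ≠ ⊥ := by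
    by_contra hcon'
    push Not at hcon'
    apply hKA
    rw [← AbGen.iSup_commutator_eq hA.1 hAK hcop, eq_bot_iff]
    refine iSup₂_le fun B hB => ?_
    obtain ⟨hB1, a, ha, hB2⟩ := hB
    rw [hcon' B hB1 a ha hB2]
  set KB : Subgroup X := K ⊓ centralizer (B : Set X) with hKB
  set V₁ : Subgroup X := V ⊓ centralizer (B : Set X) with hV₁
  have hV₁V : V₁ ≤ V := inf_le_left
  have hcomA : ∀ x ∈ A, ∀ y ∈ A, x * y = y * x := fun x hx y hy =>
    congrArg Subtype.val (isMulCommutative_iff.mp hA.1 ⟨x, hx⟩ ⟨y, hy⟩)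
  have hANB : A ≤ normalizer (B : Set X) := AbGen.le_normalizer_of_abelian hA.1 hBA
  have hAcB : A ≤ normalizer (centralizer (B : Set X) : Set X) := le_normalizer_centralizer hANB
  have hAKB : A ≤ normalizer (KB : Set X) := le_normalizer_inf hAK hAcB
  have hAV₁ : A ≤ normalizer (V₁ : Set X) := le_normalizer_inf (hAM.trans hMV) hAcB
  have hKBV₁ : KB ≤ normalizer (V₁ : Set X) :=
    le_normalizer_inf ((inf_le_left.trans hKM).trans hMV)
      (inf_le_right.trans ((centralizer_le_normalizer (B : Set X)).trans (le_normalizer_centralizer le_rfl)))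
  have ha2 : a * a = 1 := by rw [← pow_two]; exact hA.2 a haA
  -- `C_V(A) = C_{V₁}(a)`
  have hVA : V ⊓ centralizer (A : Set X) = V₁ ⊓ centralizer ((zpowers a : Subgroup X) : Set X) := by
    apply le_antisymm
    · refine le_inf (le_inf inf_le_left (inf_le_right.trans (centralizer_le hBA))) (inf_le_right.trans (centralizer_le ?_))
      rw [SetLike.coe_subset_coe, zpowers_le]; exact haA
    · refine le_inf (inf_le_left.trans inf_le_left) ?_
      rw [← hBa]
      exact Components.le_centralizer_sup (inf_le_left.trans inf_le_right) inf_le_right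
  have hcard : Nat.card A ≤ 2 * Nat.card B := by
    have h1 : zpowers a ≤ normalizer (B : Set X) := by rw [zpowers_le]; exact hANB haA
    have h2 := SubgroupTools.card_sup_mul_card_inf h1
    rw [hBa] at h2
    have h3 : Nat.card (zpowers a) ≤ 2 := by
      rw [Nat.card_zpowers]
      exact Nat.le_of_dvd (by norm_num) (orderOf_dvd_of_pow_eq_one (by rw [pow_two]; exact ha2))
    have h4 : 0 < Nat.card (B ⊓ zpowers a : Subgroup X) := Nat.card_pos
    calc Nat.card A ≤ Nat.card A * Nat.card (B ⊓ zpowers a : Subgroup X) := Nat.le_mul_of_pos_right _ h4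
      _ = Nat.card B * Nat.card (zpowers a) := h2
      _ ≤ Nat.card B * 2 := Nat.mul_le_mul_left _ h3
      _ = 2 * Nat.card B := mul_comm _ _
  have hBltA : Nat.card B < Nat.card A := by
    apply GroupUtil.card_lt_card
    refine lt_of_le_of_ne hBA ?_
    rintro rfl
    apply hBne
    rw [← Components.le_centralizer_iff_commutator]
    exact inf_le_right
  have hmulidx := relIndex_mul_relIndex (V ⊓ centralizer (A : Set X)) V₁ V
    (le_inf inf_le_left (inf_le_right.trans (centralizer_le hBA))) hV₁V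
  by_cases hcase : (V ⊓ centralizer (A : Set X)).relIndex V₁ ≤ 2
  · -- the transvection case
    rw [hVA] at hcase
    have hlow : (V₁ ⊓ centralizer ((zpowers a : Subgroup X) : Set X)).relIndex V₁ ≤ 2 := hcase
    obtain ⟨k, hk, hka⟩ : ∃ k ∈ KB, k * a ≠ a * k := by
      by_contra hcon'
      push Not at hcon'
      apply hBne
      rw [← Components.le_centralizer_iff_commutator]
      have h1 : KB ≤ centralizer ((zpowers a : Subgroup X) : Set X) := by
        intro k hk
        rw [mem_centralizer_iff]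
        rintro y hy
        obtain ⟨i, rfl⟩ := mem_zpowers_iff.mp hy
        have : Commute a k := (hcon' k hk).symm
        exact (this.zpow_left i).eq
      have h2 := Components.le_centralizer_sup (H := B) (K := zpowers a) (L := KB) inf_le_right h1
      rwa [hBa] at h2
    have hkM : k ∈ M := hKM hk.1
    have haM : a ∈ M := hAM haA
    set z : X := a * (k * a * k⁻¹) with hz
    have hainv : a⁻¹ = a := inv_eq_of_mul_eq_one_right ha2
    have hzKB : z ∈ KB := by
      have h1 : a * k * a⁻¹ ∈ KB := (mem_normalizer_iff.mp (hAKB haA) k).mp hk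
      rw [hainv] at h1
      have h2 : z = (a * k * a) * k⁻¹ := by rw [hz]; group
      rw [h2]
      exact KB.mul_mem h1 (KB.inv_mem hk)
    have hz1 : z ≠ 1 := by
      intro h
      apply hka
      have h1 : k * a * k⁻¹ = a⁻¹ := eq_inv_of_mul_eq_one_right h
      rw [hainv] at h1
      exact mul_inv_eq_iff_eq_mul.mp h1
    have hodd : Odd (orderOf z) := by
      have h1 : orderOf z ∣ Nat.card K := Subgroup.orderOf_dvd_natCard K hzKB.1
      exact Odd.of_dvd_nat ((Nat.coprime_two_right).mp hKodd) h1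
    -- index of the fixed points of `z`
    have hidx : (V₁ ⊓ centralizer ((zpowers z : Subgroup X) : Set X)).relIndex V₁ ≤ 4 := by
      set C₁ : Subgroup X := V₁ ⊓ centralizer ((zpowers a : Subgroup X) : Set X) with hC₁
      set C₂ : Subgroup X := C₁.map (MulAut.conj k).toMonoidHom with hC₂
      have hkV : V₁.map (MulAut.conj k).toMonoidHom = V₁ := map_conj_eq_of_mem (hKBV₁ hk)
      have h1 : C₂.relIndex V₁ ≤ 2 := by
        have h2 : C₂.relIndex (V₁.map (MulAut.conj k).toMonoidHom) = C₁.relIndex V₁ :=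
          relIndex_map_map_of_injective _ _ (MulAut.conj k).injective
        rw [hkV] at h2
        rw [h2]; exact hlow
      have h2 : (C₁ ⊓ C₂).relIndex V₁ ≤ C₁.relIndex V₁ * C₂.relIndex V₁ := relIndex_inf_le
      have h3 : (C₁ ⊓ C₂) ≤ V₁ ⊓ centralizer ((zpowers z : Subgroup X) : Set X) := by
        intro v hv
        refine mem_inf.mpr ⟨hv.1.1, ?_⟩
        obtain ⟨w, hw, hwv⟩ := hv.2
        have hwv' : k * w * k⁻¹ = v := hwv
        have e1 : Commute a v := mem_centralizer_iff.mp hv.1.2 a (mem_zpowers a)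
        have e2 : Commute a w := mem_centralizer_iff.mp hw.2 a (mem_zpowers a)
        have e3 : Commute (k * a * k⁻¹) v := by
          rw [← hwv']
          change k * a * k⁻¹ * (k * w * k⁻¹) = k * w * k⁻¹ * (k * a * k⁻¹)
          calc k * a * k⁻¹ * (k * w * k⁻¹) = k * (a * w) * k⁻¹ := by group
            _ = k * (w * a) * k⁻¹ := by rw [e2.eq]
            _ = k * w * k⁻¹ * (k * a * k⁻¹) := by group
        have e4 : Commute z v := e1.mul_left e3
        rw [mem_centralizer_iff]
        intro y hy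
        obtain ⟨i, rfl⟩ := mem_zpowers_iff.mp hy
        exact (e4.zpow_left i).eq
      have h4 := relIndex_dvd_of_le_left V₁ h3
      have h5 : 0 < (C₁ ⊓ C₂).relIndex V₁ := relIndex_pos' _ _
      calc (V₁ ⊓ centralizer ((zpowers z : Subgroup X) : Set X)).relIndex V₁ ≤ (C₁ ⊓ C₂).relIndex V₁ := Nat.le_of_dvd h5 h4
        _ ≤ C₁.relIndex V₁ * C₂.relIndex V₁ := h2
        _ ≤ 2 * 2 := Nat.mul_le_mul hlow h1
        _ = 4 := by norm_num
    have hV₁e : Cfsg.IsElementaryAbelian 2 V₁ := by
      refine ⟨?_, fun v hv => hV.2 v (hV₁V hv)⟩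
      rw [isMulCommutative_iff]
      intro x y
      have h6 := congrArg Subtype.val (isMulCommutative_iff.mp hV.1 ⟨x, hV₁V x.2⟩ ⟨y, hV₁V y.2⟩)
      exact Subtype.ext h6
    have h3 := S3Sec.pow_three_mem_centralizer hV₁e (hKBV₁ hzKB) hodd hidx
    have hz3 : z ^ 3 = 1 := by
      have h4 : zpowers (z ^ 3) ≤ KB := by rw [zpowers_le]; exact pow_mem hzKB 3
      have h5 : zpowers (z ^ 3) ≤ centralizer (V : Set X) := by
        refine CoprimeAction2.thompson_PxQ (p := 2) (P := B) (hAp.to_le hBA) ?_ ?_ _ V rfl hVp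
          ((hBA.trans hAM).trans hMV) ((h4.trans (inf_le_left.trans hKM)).trans hMV) ?_
        · exact Nat.Coprime.coprime_dvd_left (card_dvd_of_le (h4.trans inf_le_left)) hKodd
        · exact Components.le_centralizer_comm (h4.trans inf_le_right)
        · exact Components.le_centralizer_comm (by rw [zpowers_le]; exact h3)
      have h6 : z ^ 3 ∈ M ⊓ centralizer (V : Set X) :=
        ⟨pow_mem (hKM hzKB.1) 3, h5 (mem_zpowers _)⟩
      rwa [hfaith, mem_bot] at h6
    have hzM : z ∈ M := hKM hzKB.1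
    refine S3Sec.involves_perm_three (⟨z, hzM⟩ : M) ⟨a, haM⟩ (Subtype.ext hz3)
      (fun h => hz1 (congrArg Subtype.val h)) (Subtype.ext ha2) ?_
    apply Subtype.ext
    change a * z * a = z⁻¹
    rw [hz, mul_inv_rev, mul_inv_rev, mul_inv_rev, inv_inv, hainv]
    calc a * (a * (k * a * k⁻¹)) * a = (a * a) * (k * a * k⁻¹) * a := by group
      _ = k * (a * k⁻¹) * a := by rw [ha2]; group
  · -- induction
    push Not at hcase
    have h4 : 4 ≤ (V ⊓ centralizer (A : Set X)).relIndex V₁ := by
      have h5 : (V ⊓ centralizer (A : Set X)).relIndex V₁ ∣ Nat.card V₁ := relIndex_dvd_card _ _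
      obtain ⟨m, hm⟩ := IsPGroup.iff_card.mp (hVp.to_le hV₁V)
      rw [hm] at h5
      obtain ⟨i, -, hi⟩ := (Nat.dvd_prime_pow Nat.prime_two).mp h5
      rw [hi] at hcase ⊢
      have : 2 ≤ i := by
        by_contra hlt
        have : i = 0 ∨ i = 1 := by omega
        rcases this with rfl | rfl <;> norm_num at hcase
      calc 4 = 2 ^ 2 := by norm_num
        _ ≤ 2 ^ i := Nat.pow_le_pow_right (by norm_num) this
    refine ih (Nat.card B) (hn ▸ hBltA) B rfl (hBA.trans hAM) ?_ ?_
    · refine ⟨?_, fun v hv => hA.2 v (hBA hv)⟩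
      rw [isMulCommutative_iff]
      intro x y
      exact Subtype.ext (hcomA x (hBA x.2) y (hBA y.2))
    · change V₁.relIndex V < Nat.card B ^ 2
      have h5 : 4 * V₁.relIndex V < 4 * Nat.card B ^ 2 := by
        calc 4 * V₁.relIndex V ≤ (V ⊓ centralizer (A : Set X)).relIndex V₁ * V₁.relIndex V := Nat.mul_le_mul_right _ h4
          _ = (V ⊓ centralizer (A : Set X)).relIndex V := hmulidx
          _ < Nat.card A ^ 2 := hsmall
          _ ≤ (2 * Nat.card B) ^ 2 := Nat.pow_le_pow_left hcard 2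
          _ = 4 * Nat.card B ^ 2 := by ring
      omega

/-- Let M and V be subgroups of a finite group with V an elementary abelian 2-group, M normalizing V and acting faithfully on it (M ∩ C(V) = 1), and C_M(O_{2'}(M)) ≤ O_{2'}(M). If some elementary abelian 2-subgroup A of M satisfies |V : C_V(A)| < |A|², then M has a section isomorphic to the symmetric group of degree 3. -/
theorem result {X : Type*} [Group X] [Finite X] (M V : Subgroup X) (hV : Cfsg.IsElementaryAbelian 2 V) (hMV : M ≤ Subgroup.normalizer (V : Set X)) (hfaith : M ⊓ Subgroup.centralizer (V : Set X) = ⊥) (hcon : Subgroup.centralizer (Cfsg.pPrimeCore 2 ↥M : Set ↥M) ≤ Cfsg.pPrimeCore 2 ↥M) (A : Subgroup X) (hAM : A ≤ M) (hA : Cfsg.IsElementaryAbelian 2 A) (hsmall : (V ⊓ Subgroup.centralizer (A : Set X)).relIndex V < Nat.card A ^ 2) : Cfsg.Involves (Equiv.Perm (Fin 3)) ↥M := by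
  have hc := Layer.pPrimeCore_characteristic 2 ↥M
  refine main M V ((Cfsg.pPrimeCore 2 ↥M).map M.subtype) hV hMV hfaith (map_subtype_le _)
    (le_normalizer.trans (PCoreTools.normalizer_le_of_characteristic hc)) ?_ ?_ _ A rfl hAM hA hsmall
  · rw [card_map_of_injective M.subtype_injective]
    exact Cores.coprime_card_pPrimeCore 2 ↥M
  · intro x hx
    have h1 : (⟨x, hx.1⟩ : M) ∈ centralizer (Cfsg.pPrimeCore 2 ↥M : Set M) := by
      rw [mem_centralizer_iff]
      intro y hy
      exact Subtype.ext (mem_centralizer_iff.mp hx.2 y ⟨y, hy, rfl⟩)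
    exact ⟨_, hcon h1, rfl⟩

end Cfsg.Agent.S3755
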