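import Cfsg.Statements.S3760

set_option autoImplicit false
open Cfsg

namespace Cfsg.Agent.S3760

theorem mem_map_conj {G : Type*} [Group G] (K : Subgroup G) (g y : G) :
    y ∈ K.map (MulAut.conj g).toMonoidHom ↔ g⁻¹ * y * g ∈ K := by
  constructor
  · rintro ⟨k, hk, rfl⟩
    have : g⁻¹ * ((MulAut.conj g).toMonoidHom k) * g = k := by
      simp [MulAut.conj_apply, mul_assoc]
    rw [this]; exact hk
  · intro h
    refine ⟨_, h, ?_⟩
    simp [MulAut.conj_apply, mul_assoc]

/-- Let the group G act transitively on a set X, let x ∈ X with stabilizer H = G_x, and let K ≤ H. Then N_G(K) acts transitively on the set of fixed points of K if and only if every G-conjugate of K contained in H is already an H-conjugate of K. -/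
theorem result {G : Type*} [Group G] {X : Type*} [MulAction G X] (htrans : ∀ a b : X, ∃ g : G, g • a = b) (x : X) (K : Subgroup G) (hK : K ≤ MulAction.stabilizer G x) : (∀ a b : X, (∀ k ∈ K, k • a = a) → (∀ k ∈ K, k • b = b) → ∃ g ∈ Subgroup.normalizer (K : Set G), g • a = b) ↔ ∀ g : G, K.map (MulAut.conj g).toMonoidHom ≤ MulAction.stabilizer G x → ∃ h ∈ MulAction.stabilizer G x, K.map (MulAut.conj g).toMonoidHom = K.map (MulAut.conj h).toMonoidHom := by
  constructor
  · intro H g hg
    have h1 : ∀ k ∈ K, k • (g⁻¹ • x) = g⁻¹ • x := by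
      intro k hk
      have h2 : g * k * g⁻¹ ∈ MulAction.stabilizer G x := by
        apply hg
        rw [mem_map_conj]
        simpa [mul_assoc] using hk
      rw [MulAction.mem_stabilizer_iff] at h2
      have h3 : k • g⁻¹ • x = g⁻¹ • ((g * k * g⁻¹) • x) := by simp [smul_smul, mul_assoc]
      rw [h3, h2]
    obtain ⟨n, hn, hnx⟩ := H (g⁻¹ • x) x h1 (fun k hk => hK hk)
    refine ⟨g * n⁻¹, ?_, ?_⟩
    · rw [MulAction.mem_stabilizer_iff]
      have : x = n • g⁻¹ • x := hnx.symm
      nth_rewrite 1 [this]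
      simp [smul_smul, mul_assoc]
    · ext y
      rw [mem_map_conj, mem_map_conj]
      rw [Subgroup.mem_normalizer_iff] at hn
      have := hn (g⁻¹ * y * g)
      rw [this]
      simp [mul_assoc]
  · intro H a b ha hb
    have key : ∀ c : X, (∀ k ∈ K, k • c = c) → ∃ n ∈ Subgroup.normalizer (K : Set G), n • x = c := by
      intro c hc
      obtain ⟨g, rfl⟩ := htrans x c
      have h1 : K.map (MulAut.conj g⁻¹).toMonoidHom ≤ MulAction.stabilizer G x := by
        intro y hy
        rw [mem_map_conj] at hy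
        have h2 := hc _ hy
        rw [MulAction.mem_stabilizer_iff]
        have h3 : g⁻¹ • ((g⁻¹⁻¹ * y * g⁻¹) • g • x) = g⁻¹ • g • x := by rw [h2]
        simpa [smul_smul, mul_assoc] using h3
      obtain ⟨h, hh, heq⟩ := H _ h1
      refine ⟨g * h, ?_, ?_⟩
      · rw [Subgroup.mem_normalizer_iff]
        intro k
        have h4 : (g⁻¹ * (g * h * k * (g*h)⁻¹) * g ∈ K.map (MulAut.conj g⁻¹).toMonoidHom) ↔ (g⁻¹ * (g * h * k * (g*h)⁻¹) * g ∈ K.map (MulAut.conj h).toMonoidHom) := by
          rw [heq]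
        rw [mem_map_conj, mem_map_conj] at h4
        have e1 : g⁻¹⁻¹ * (g⁻¹ * (g * h * k * (g * h)⁻¹) * g) * g⁻¹ = g * h * k * (g * h)⁻¹ := by group
        have e2 : h⁻¹ * (g⁻¹ * (g * h * k * (g * h)⁻¹) * g) * h = k := by group
        rw [e1, e2] at h4
        exact h4.symm
      · rw [MulAction.mem_stabilizer_iff] at hh
        rw [mul_smul, hh]
    obtain ⟨n, hn, rfl⟩ := key a ha
    obtain ⟨m, hm, rfl⟩ := key b hb
    refine ⟨m * n⁻¹, mul_mem hm (inv_mem hn), ?_⟩
    simp [smul_smul]

end Cfsg.Agent.S3760
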