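import Cfsg.Statements.S3764
import Cfsg.Agent.Lib.BG02e
import Cfsg.Agent.Lib.ExtraOrd

set_option autoImplicit false
open Cfsg

namespace Cfsg.Agent.S3764

open Cfsg.Agent.Lib Subgroup

/-- Let p, q, r be distinct primes and let X, Q, V be subgroups of a finite group with X of order r, Q an extraspecial q-group normalized by X with C_Q(X) = Z(Q), and V an elementary abelian p-group normalized by X and Q on which XQ acts faithfully ((X ⊔ Q) ∩ C(V) = 1). If C_V(X) = 1, then q = 2, r = 2^n + 1 for some n, and Q has order 2^(2n+1). -/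
theorem result {G : Type*} [Group G] [Finite G] {p q r : ℕ} (hp : p.Prime) (hq : q.Prime) (hr : r.Prime) (hpq : p ≠ q) (hpr : p ≠ r) (hqr : q ≠ r) (X Q V : Subgroup G) (hX : Nat.card X = r) (hQ : Cfsg.IsExtraspecial q ↥Q) (hXQ : X ≤ Subgroup.normalizer (Q : Set G)) (hCQ : Q ⊓ Subgroup.centralizer (X : Set G) = (Subgroup.center ↥Q).map Q.subtype) (hV : Cfsg.IsElementaryAbelian p V) (hXV : X ≤ Subgroup.normalizer (V : Set G)) (hQV : Q ≤ Subgroup.normalizer (V : Set G)) (hfaith : (X ⊔ Q) ⊓ Subgroup.centralizer (V : Set G) = ⊥) (hCV : V ⊓ Subgroup.centralizer (X : Set G) = ⊥) : q = 2 ∧ ∃ n : ℕ, r = 2 ^ n + 1 ∧ Nat.card Q = 2 ^ (2 * n + 1) := by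
  haveI : Fact p.Prime := ⟨hp⟩
  haveI : Fact q.Prime := ⟨hq⟩
  haveI : Fact r.Prime := ⟨hr⟩
  obtain ⟨n, hn, hc⟩ := ExtraOrd.exists_card hQ
  have hc' : Nat.card Q = q ^ (2 * n + 1) := by rw [hc, add_comm]
  have hcardX : Nat.card X = q ^ n + 1 := by
    by_contra hne
    apply BG02.exists_fixed_internal Q X V p q n hV hQV hXV hXQ ?_ ?_ hQ hc' (isCyclic_of_prime_card hX) ?_ ?_ hne ?_ hCV
    · rw [hc']
      intro h
      exact hpq ((Nat.prime_dvd_prime_iff_eq hp hq).mp (hp.dvd_of_dvd_pow h))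
    · rw [hX]
      intro h
      exact hpr ((Nat.prime_dvd_prime_iff_eq hp hr).mp h)
    · rw [hX]
      exact (Nat.coprime_primes hq hr).mpr hqr
    · intro x hx hx1
      have h1 : zpowers x = X := Subgroup.eq_of_le_of_card_ge (by rwa [zpowers_le]) (by
        rw [hX, Nat.card_zpowers]
        have h2 : orderOf x ∣ r := by
          rw [← hX]
          have := orderOf_dvd_natCard (⟨x, hx⟩ : X)
          rwa [Subgroup.orderOf_mk] at this
        rcases (Nat.dvd_prime hr).mp h2 with h3 | h3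
        · exact absurd (orderOf_eq_one_iff.mp h3) hx1
        · exact h3.ge)
      rw [← hCQ, ← h1, zpowers_eq_closure, Subgroup.centralizer_closure]
    · intro h
      have h1 : (Subgroup.center ↥Q).map Q.subtype ≤ ⊥ := by
        rw [← hfaith]
        exact le_inf ((map_subtype_le _).trans le_sup_right) h
      have h2 : Nat.card ((Subgroup.center ↥Q).map Q.subtype) = q := by rw [Subgroup.card_subtype, hQ.2]
      rw [le_bot_iff] at h1
      rw [h1, Subgroup.card_bot] at h2
      exact hq.one_lt.ne h2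
  rw [hX] at hcardX
  have hq2 : q = 2 := by
    by_contra hq2
    have hodd : Odd q := hq.odd_of_ne_two hq2
    have h1 : Even (q ^ n + 1) := (hodd.pow).add_one
    rw [← hcardX] at h1
    have h2 : r = 2 := (hr.even_iff).mp h1
    rw [h2] at hcardX
    have h3 : q ^ n = 1 := by omega
    have h4 : 1 < q ^ n := Nat.one_lt_pow (by omega) hq.one_lt
    omega
  refine ⟨hq2, n, ?_, ?_⟩
  · rw [hcardX, hq2]
  · rw [hc', hq2]

end Cfsg.Agent.S3764
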