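import Cfsg.Statements.S3765
import Cfsg.Agent.Lib.HHFix
import Cfsg.Agent.Lib.ElabRep
import Cfsg.Agent.Lib.ProdCard

set_option autoImplicit false
open Cfsg
open scoped commutatorElement

namespace Cfsg.Agent.S3765

open Cfsg.Agent.Lib

/-- Let p, q, r be distinct primes and let X, Q, V be subgroups of a finite group with X of order r normalizing the q-group Q and acting faithfully on it (X ∩ C(Q) = 1), and V a nontrivial elementary abelian p-group normalized by X and Q on which XQ acts faithfully. If q = 2 and r has the form 2^n + 1, assume in addition that Q is abelian. Then C_V(X) ≠ 1. -/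
theorem result {G : Type*} [Group G] [Finite G] {p q r : ℕ} (hp : p.Prime) (hq : q.Prime) (hr : r.Prime) (hpq : p ≠ q) (hpr : p ≠ r) (hqr : q ≠ r) (X Q V : Subgroup G) (hX : Nat.card X = r) (hQ : IsPGroup q Q) (hXQ : X ≤ Subgroup.normalizer (Q : Set G)) (hXfaith : X ⊓ Subgroup.centralizer (Q : Set G) = ⊥) (hV : Cfsg.IsElementaryAbelian p V) (hV1 : V ≠ ⊥) (hXV : X ≤ Subgroup.normalizer (V : Set G)) (hQV : Q ≤ Subgroup.normalizer (V : Set G)) (hfaith : (X ⊔ Q) ⊓ Subgroup.centralizer (V : Set G) = ⊥) (hexc : q = 2 → (∃ n : ℕ, r = 2 ^ n + 1) → IsMulCommutative Q) : V ⊓ Subgroup.centralizer (X : Set G) ≠ ⊥ := by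
  classical
  have hpf : Fact p.Prime := ⟨hp⟩
  have hqf : Fact q.Prime := ⟨hq⟩
  have hrf : Fact r.Prime := ⟨hr⟩
  intro hbot
  set A := X ⊔ Q with hA
  have hXA : X ≤ A := le_sup_left
  have hQA : Q ≤ A := le_sup_right
  have hAV : A ≤ Subgroup.normalizer (V : Set G) := sup_le hXV hQV
  let icg : CommGroup V := { (inferInstance : Group V) with mul_comm := fun a b => hV.1.is_comm.comm a b }
  have hE : ∀ x : V, x ^ p = 1 := fun x => Subtype.ext (hV.2 x x.2)
  let φ : A →* MulAut V := ElabRep.conjHom A V hAV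
  let inst : Module (ZMod p) (Additive V) := ElabRep.elabModule V p hE
  have hfd : FiniteDimensional (ZMod p) (Additive V) := by
    have : Finite (Additive V) := (inferInstance : Finite V)
    exact Module.Finite.of_finite
  let ρ := ElabRep.elabRep p hE φ
  have hker : ∀ a : A, ρ a = 1 → a = 1 := by
    intro a ha
    have h1 := (ElabRep.conjHom_eq_one_iff A V hAV a).mp ((ElabRep.elabRep_eq_one_iff p hE φ _).mp ha)
    have h2 : (a : G) ∈ A ⊓ Subgroup.centralizer (V : Set G) := Subgroup.mem_inf.mpr ⟨a.2, h1⟩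
    rw [hfaith, Subgroup.mem_bot] at h2
    exact Subtype.ext h2
  have hinj : Function.Injective ρ := by
    intro a b hab
    have h1 : ρ (a⁻¹ * b) = 1 := by
      rw [map_mul, ← hab, ← map_mul, inv_mul_cancel, map_one]
    exact inv_mul_eq_one.mp (hker _ h1)
  -- a generator
  have hXne : X ≠ ⊥ := by
    intro h
    rw [h, Subgroup.card_bot] at hX
    exact hr.one_lt.ne hX
  obtain ⟨x, hxX, hx1⟩ := (Subgroup.ne_bot_iff_exists_ne_one.mp hXne).elim fun x hx =>
    (⟨x, x.2, fun h => hx (Subtype.ext h)⟩ : ∃ x ∈ X, x ≠ 1)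
  have hxr : x ^ r = 1 := by
    have h1 : (⟨x, hxX⟩ : X) ^ r = 1 := by rw [← hX]; exact pow_card_eq_one'
    exact congrArg Subtype.val h1
  have hXz : X = Subgroup.zpowers x := by
    symm
    apply Subgroup.eq_of_le_of_card_ge
    · rwa [Subgroup.zpowers_le]
    · rw [hX, Nat.card_zpowers, orderOf_eq_prime hxr hx1]
  have hcardA : Nat.card A ∣ Nat.card X * Nat.card Q := by
    have h1 := ProdCard.card_sup_mul_card_inf hXQ
    exact ⟨_, h1.symm⟩
  obtain ⟨k, hk⟩ := IsPGroup.iff_card.mp hQ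
  have hpA : ¬ p ∣ Nat.card A := by
    intro h
    have h1 := h.trans hcardA
    rw [hX, hk, (Nat.prime_iff.mp hp).dvd_mul] at h1
    rcases h1 with h1 | h1
    · exact hpr ((Nat.prime_dvd_prime_iff_eq hp hr).mp h1)
    · exact hpq ((Nat.prime_dvd_prime_iff_eq hp hq).mp (hp.dvd_of_dvd_pow h1))
  have hmain := HHFix.main_field (F := ZMod p) (q := q) (r := r) hqr (V := Additive V) ρ hinj ?_
    (Q.subgroupOf A) hQ.comap_subtype ⟨x, hXA hxX⟩ ?_ (Subtype.ext hxr) ?_ ?_
  · obtain ⟨⟨a, ha, b, hb, hab⟩, n, hn, hrn⟩ := hmain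
    have hq2 : q = 2 := by
      by_contra hne
      have h1 : Odd (q ^ n) := (hq.odd_of_ne_two hne).pow
      have h2 : Even r := by rw [hrn]; exact h1.add_one
      have h3 : r = 2 := (Nat.Prime.even_iff hr).mp h2
      rw [h3] at hrn
      have h4 : q ^ n = 1 := by omega
      have h5 : 1 < q ^ n := Nat.one_lt_pow hn.ne' hq.one_lt
      omega
    have hc := hexc hq2 ⟨n, by rw [← hq2]; exact hrn⟩
    apply hab
    apply Subtype.ext
    exact congrArg (Subtype.val : Q → G) (hc.is_comm.comm (⟨(a : G), ha⟩ : Q) (⟨(b : G), hb⟩ : Q))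
  · rw [Ne, ZMod.natCast_eq_zero_iff]; exact hpA
  · rw [Subgroup.mem_normalizer_iff]
    intro g
    rw [Subgroup.mem_subgroupOf, Subgroup.mem_subgroupOf]
    exact Subgroup.mem_normalizer_iff.mp (hXQ hxX) g
  · by_contra hcon
    push Not at hcon
    apply hx1
    have h1 : x ∈ X ⊓ Subgroup.centralizer (Q : Set G) := by
      refine Subgroup.mem_inf.mpr ⟨hxX, Subgroup.mem_centralizer_iff.mpr ?_⟩
      intro g hg
      exact (congrArg Subtype.val (hcon ⟨g, hQA hg⟩ hg)).symm
    rwa [hXfaith, Subgroup.mem_bot] at h1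
  · intro v hv
    have h1 : ((Additive.toMul v : V) : G) ∈ V ⊓ Subgroup.centralizer (X : Set G) := by
      refine Subgroup.mem_inf.mpr ⟨(Additive.toMul v).2, ?_⟩
      have h2 : X ≤ Subgroup.centralizer {((Additive.toMul v : V) : G)} := by
        rw [hXz, Subgroup.zpowers_le, Subgroup.mem_centralizer_singleton_iff]
        have h3 : φ ⟨x, hXA hxX⟩ (Additive.toMul v) = Additive.toMul v := hv
        have h4 := congrArg (Subtype.val : V → G) h3
        rw [ElabRep.conjHom_apply] at h4
        exact mul_inv_eq_iff_eq_mul.mp h4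
      rw [Subgroup.mem_centralizer_iff]
      intro y hy
      exact Subgroup.mem_centralizer_singleton_iff.mp (h2 hy)
    rw [hbot, Subgroup.mem_bot] at h1
    exact Additive.toMul.injective (Subtype.ext h1)

end Cfsg.Agent.S3765
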