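import Cfsg.Statements.S3767
import Cfsg.Agent.Lib.HHFix
import Cfsg.Agent.Lib.BG02e

set_option autoImplicit false
open Cfsg
open scoped commutatorElement

namespace Cfsg.Agent.S3767

open Module Cfsg.Agent.Lib.ModRep Cfsg.Agent.Lib.HHLin Cfsg.Agent.Lib.HHWt Cfsg.Agent.Lib.HHCrit
  Cfsg.Agent.Lib.BG02 Cfsg.Agent.Lib.EigenBasis

/-- arithmetic -/
theorem arith (N h D : ℕ) (hh : 0 < h) (hcop : D.Coprime h) (hN : N * h ≤ D ^ 2 + (h - 1))
    (hl : (D : ℤ) - (D / h : ℕ) * h ≤ N - 2 * (D / h : ℕ) * D + (D / h : ℕ) ^ 2 * h) : h ∣ D + 1 ∨ h ∣ D - 1 := by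
  set c := D / h with hc
  set a := D % h with ha
  have hD : D = h * c + a := (Nat.div_add_mod D h).symm
  have hah : a < h := Nat.mod_lt _ hh
  rcases Nat.eq_zero_or_pos a with h0 | hpos
  · left
    have h1 : h ∣ D := ⟨c, by omega⟩
    have h2 : h = 1 := by
      have := Nat.dvd_gcd h1 (dvd_refl h)
      rw [hcop] at this
      exact Nat.dvd_one.mp this
    rw [h2]; exact one_dvd _
  · rcases Nat.lt_or_ge 1 a with h1 | h1
    · left
      have h2 : h ≤ a + 1 := by
        zify at hN hD hah h1 hh ⊢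
        rw [Nat.cast_sub (by omega)] at hN
        push_cast at hN
        have h3 : (a : ℤ) * h ≤ a ^ 2 + h - 1 := by
          have h4 : ((D : ℤ) - c * h) * h ≤ (N - 2 * c * D + c ^ 2 * h) * h :=
            mul_le_mul_of_nonneg_right hl (by omega)
          have h5 : (D : ℤ) - c * h = a := by rw [hD]; ring
          rw [h5] at h4
          have h6 : ((N : ℤ) - 2 * c * D + c ^ 2 * h) * h ≤ (D - c * h) ^ 2 + h - 1 := by nlinarith
          rw [h5] at h6
          linarith
        have h7 : ((a : ℤ) - 1) * (h - (a + 1)) ≤ 0 := by nlinarith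
        by_contra hcon
        push Not at hcon
        have h8 : 0 < ((a : ℤ) - 1) * (h - (a + 1)) := mul_pos (by omega) (by omega)
        omega
      have h3 : h = a + 1 := by omega
      refine ⟨c + 1, ?_⟩
      rw [hD, mul_add, mul_one, add_assoc, ← h3]
    · right
      have h2 : a = 1 := by omega
      refine ⟨c, ?_⟩
      omega

/-- the regular representation. -/
def reg (G : Type*) [Group G] : G →* Module.End ℂ (G → ℂ) where
  toFun g := LinearMap.funLeft ℂ ℂ (fun h => h * g)
  map_one' := by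
    apply LinearMap.ext
    intro f
    funext h
    change f (h * 1) = f h
    rw [mul_one]
  map_mul' := by
    intro a b
    apply LinearMap.ext
    intro f
    funext h
    change f (h * (a * b)) = f (h * a * b)
    rw [mul_assoc]

theorem reg_injective (G : Type*) [Group G] : Function.Injective (reg G) := by
  classical
  intro a b h
  have h1 := congrFun (LinearMap.congr_fun h (fun x => if x = a then 1 else 0)) 1
  change (if 1 * a = a then (1 : ℂ) else 0) = if 1 * b = a then 1 else 0 at h1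
  rw [one_mul, one_mul, if_pos rfl] at h1
  by_contra hne
  rw [if_neg (fun h => hne h.symm)] at h1
  exact one_ne_zero h1

theorem dvd_of_heis {G : Type*} [Group G] [Finite G] {P U Z : Subgroup G} {p : ℕ} (H : Heis P U Z p)
    (hp : p.Prime) (n : ℕ) (hidx : (Z.subgroupOf P).index = p ^ (2 * n)) (hU : IsCyclic U)
    (hcop : p.Coprime (Nat.card U)) : Nat.card U ∣ p ^ n + 1 ∨ Nat.card U ∣ p ^ n - 1 := by
  classical
  have hcK : ∀ S : Subgroup G, (Nat.card S : ℂ) ≠ 0 := fun S => Nat.cast_ne_zero.mpr Nat.card_pos.ne'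
  let ρ := reg G
  have hρ : Function.Injective ρ := reg_injective G
  have hZc := H.Zc
  have hZab : ∀ a ∈ Z, ∀ b ∈ Z, ρ a * ρ b = ρ b * ρ a := by
    intro a ha b hb
    rw [← map_mul, hZc a ha b, map_mul]
  have hex : ∃ l : G → ℂ, ∃ v ∈ wt ρ Z l, v ≠ 0 ∧ ∃ z ∈ Z, l z ≠ 1 := by
    by_contra hall
    push Not at hall
    have h1 : ∀ z ∈ Z, z = 1 := by
      intro z hz
      apply hρ
      rw [map_one]
      apply ext_wt ρ Z (hcK Z) hZab
      intro l v hv hv0
      rw [hv z hz, hall l v hv hv0 z hz, one_smul]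
      rfl
    have h2 : Z = ⊥ := by rw [Subgroup.eq_bot_iff_forall]; exact h1
    have h3 := H.cardZ
    rw [h2, Subgroup.card_bot] at h3
    exact hp.one_lt.ne h3
  obtain ⟨l, v₀, hv₀, hv₀0, z₀, hz₀, hlz₀⟩ := hex
  have hWbot : wt ρ Z l ≠ ⊥ := by
    intro h
    rw [h] at hv₀
    exact hv₀0 ((Submodule.mem_bot ℂ).mp hv₀)
  have hst : ∀ g : G, g ∈ stab Z l := by
    intro g
    have h0 : ∀ a ∈ Z, g⁻¹ * a * g = a := by
      intro a ha
      rw [mul_assoc, hZc a ha g]; group
    have h0' : ∀ a ∈ Z, g * a * g⁻¹ = a := by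
      intro a ha
      rw [← hZc a ha g]; group
    refine ⟨?_, ?_⟩
    · rw [Subgroup.mem_normalizer_iff]
      intro a
      constructor
      · intro ha
        rw [h0' a ha]; exact ha
      · intro ha
        have := h0 _ ha
        have h1 : g⁻¹ * (g * a * g⁻¹) * g = a := by group
        rw [h1] at this
        rw [this]; exact ha
    · intro a ha
      rw [h0 a ha]
  have hinv : Inv ρ (wt ρ Z l) := fun g v hv => apply_mem_wt_of_stab ρ (hst g) hv
  obtain ⟨W₁, h₁, hW₁, hW₁0, hirr⟩ := exists_irr_sub ρ (wt ρ Z l) hWbot hinv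
  set σ := subrep ρ W₁ h₁ with hσdef
  have hscal : ∀ z ∈ Z, σ z = l z • 1 := by
    intro z hz
    apply LinearMap.ext
    intro w
    apply Subtype.ext
    exact hW₁ w.2 z hz
  have hnt := hirr.nt
  have hz₀σ : σ z₀ ≠ 1 := by
    intro h
    rw [hscal z₀ hz₀] at h
    obtain ⟨w, hw⟩ := exists_ne (0 : W₁)
    have h1 := LinearMap.congr_fun h w
    rw [LinearMap.smul_apply, Module.End.one_apply] at h1
    have h2 : ∃ g : G, (w : G → ℂ) g ≠ 0 := by
      by_contra hall
      push Not at hall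
      exact hw (Subtype.ext (funext hall))
    obtain ⟨g, hg⟩ := h2
    have h3 : l z₀ * (w : G → ℂ) g = (w : G → ℂ) g := congrFun (congrArg Subtype.val h1) g
    exact hlz₀ (mul_right_cancel₀ hg (h3.trans (one_mul _).symm))
  have hsc : ∀ z ∈ Z, ∃ c : ℂ, σ z = c • 1 := fun z hz => ⟨l z, hscal z hz⟩
  have hsc' : ∀ z ∈ Z, z ≠ 1 → ∃ c : ℂ, c ≠ 1 ∧ σ z = c • 1 := by
    intro z hz hz1
    refine ⟨l z, ?_, hscal z hz⟩
    intro hl
    apply hz₀σ
    have h1 : σ z = 1 := by rw [hscal z hz, hl, one_smul]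
    -- `z` generates `Z`
    have h2 : z₀ ∈ Subgroup.zpowers z := by
      have h3 : Subgroup.zpowers z = Z := by
        apply Subgroup.eq_of_le_of_card_ge
        · rwa [Subgroup.zpowers_le]
        · rw [H.cardZ, Nat.card_zpowers]
          have h4 : orderOf z ∣ p := by rw [← H.cardZ]; exact Subgroup.orderOf_dvd_natCard Z hz
          rcases (Nat.dvd_prime hp).mp h4 with h5 | h5
          · exact absurd (orderOf_eq_one_iff.mp h5) hz1
          · rw [h5]
      rw [h3]; exact hz₀
    obtain ⟨k, rfl⟩ := mem_powers_iff_mem_zpowers.mpr h2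
    change σ (z ^ k) = 1
    rw [map_pow, h1, one_pow]
  have hspan := span_P_eq_top H hirr hsc' (hcK P) (hcK Z)
  have hb6 := index_le_finrank H σ hsc' (hcK P)
  have hb7 := finrank_le_index σ hsc hspan
  have hEnd : finrank ℂ (Module.End ℂ W₁) = finrank ℂ W₁ ^ 2 := by
    rw [Module.finrank_linearMap, sq]
  rw [hEnd, hidx] at hb6 hb7
  have hd : finrank ℂ W₁ = p ^ n := by
    have h1 : (p ^ n) ^ 2 = finrank ℂ W₁ ^ 2 := by
      rw [← pow_mul, mul_comm]; exact le_antisymm hb6 hb7
    exact (Nat.pow_left_injective (by norm_num : 2 ≠ 0) h1).symm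
  obtain ⟨⟨x, hxU⟩, hx⟩ := hU.exists_generator
  have hUx : U = Subgroup.zpowers x := by
    apply le_antisymm
    · intro u hu
      obtain ⟨k, hk⟩ := hx ⟨u, hu⟩
      exact ⟨k, congrArg Subtype.val hk⟩
    · rw [Subgroup.zpowers_le]; exact hxU
  have hord : orderOf x = Nat.card U := by rw [hUx, Nat.card_zpowers]
  have hxh : σ x ^ Nat.card U = 1 := by rw [← map_pow, ← hord, pow_orderOf_eq_one, map_one]
  obtain ⟨b, e, he, heh⟩ := exists_eigenbasis (σ x) (Nat.card U) (hcK U) hxh
  have hUpos : 0 < Nat.card U := Nat.card_pos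
  let R : Finset ℂ := (Polynomial.nthRoots (Nat.card U) (1 : ℂ)).toFinset
  have hR : ∀ i, e i ∈ R := by
    intro i
    rw [Multiset.mem_toFinset, Polynomial.mem_nthRoots hUpos]
    exact heh i
  have hRc : R.card ≤ Nat.card U := (Multiset.toFinset_card_le _).trans (Polynomial.card_nthRoots _ _)
  let S : Finset (Fin (finrank ℂ W₁) × Fin (finrank ℂ W₁)) := Finset.univ.filter (fun p => e p.1 = e p.2)
  have hS : S.card ≤ finrank ℂ (cent (σ x)) := by
    apply card_le_finrank_cent (σ x) b e he S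
    intro p hp
    exact (Finset.mem_filter.mp hp).2
  have hSc : S.card = ∑ v ∈ R, (Finset.univ.filter (fun i => e i = v)).card ^ 2 := by
    have h1 : S.card = ∑ v ∈ R, (S.filter (fun p => e p.1 = v)).card :=
      Finset.card_eq_sum_card_fiberwise (fun p _ => hR p.1)
    rw [h1]
    apply Finset.sum_congr rfl
    intro v _
    have h2 : S.filter (fun p => e p.1 = v) =
        (Finset.univ.filter (fun i => e i = v)) ×ˢ (Finset.univ.filter (fun i => e i = v)) := by
      ext p
      simp only [S, Finset.mem_filter, Finset.mem_univ, true_and, Finset.mem_product]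
      constructor
      · rintro ⟨h3, h4⟩
        exact ⟨h4, by rw [← h3, h4]⟩
      · rintro ⟨h3, h4⟩
        exact ⟨by rw [h3, h4], h3⟩
    rw [h2, Finset.card_product, sq]
  have hι : Fintype.card (Fin (finrank ℂ W₁)) = ∑ v ∈ R, (Finset.univ.filter (fun i => e i = v)).card := by
    rw [← Finset.card_univ]
    exact Finset.card_eq_sum_card_fiberwise (fun i _ => hR i)
  rw [Fintype.card_fin] at hι
  replace hι := hd.symm.trans hι
  have hb4 := finrank_cent_le H σ hsc hspan (hcK U) hUx
  have hb5 := card_orbits_le H Nat.card_pos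
  rw [hidx] at hb5
  set N := @Nat.card (@MulAction.orbitRel.Quotient (Z × U) P _ (actZU H)) with hNdef
  have hSN : S.card ≤ N := hS.trans hb4
  set D := p ^ n with hDdef
  set h := Nat.card U with hh
  have hD2 : p ^ (2 * n) = D ^ 2 := by rw [hDdef, ← pow_mul, mul_comm]
  rw [hD2] at hb5
  apply arith N h D hUpos (Nat.Coprime.pow_left n hcop) hb5
  -- the inequality
  set c := D / h with hc
  have h1 : ∑ v ∈ R, (((Finset.univ.filter (fun i => e i = v)).card : ℤ) - c) ≤
      ∑ v ∈ R, (((Finset.univ.filter (fun i => e i = v)).card : ℤ) - c) ^ 2 := by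
    apply Finset.sum_le_sum
    intro v _
    set t := (((Finset.univ.filter (fun i => e i = v)).card : ℤ) - c)
    rcases le_or_gt t 0 with h2 | h2
    · exact h2.trans (sq_nonneg t)
    · nlinarith
  have h2 : ∑ v ∈ R, (((Finset.univ.filter (fun i => e i = v)).card : ℤ) - c) = D - R.card * c := by
    rw [Finset.sum_sub_distrib, Finset.sum_const, nsmul_eq_mul, hι]
    push_cast; rfl
  have h3 : ∑ v ∈ R, (((Finset.univ.filter (fun i => e i = v)).card : ℤ) - c) ^ 2 =
      S.card - 2 * c * D + c ^ 2 * R.card := by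
    have h4 : ∀ v ∈ R, (((Finset.univ.filter (fun i => e i = v)).card : ℤ) - c) ^ 2 =
        (((Finset.univ.filter (fun i => e i = v)).card : ℤ)) ^ 2 - 2 * c *
          ((Finset.univ.filter (fun i => e i = v)).card : ℤ) + c ^ 2 := by
      intro v _; ring
    rw [Finset.sum_congr rfl h4, Finset.sum_add_distrib, Finset.sum_sub_distrib, ← Finset.mul_sum,
      Finset.sum_const, nsmul_eq_mul, hSc, hι]
    push_cast; ring
  rw [h2, h3] at h1
  have h5 : ((R.card : ℕ) : ℤ) ≤ h := by exact_mod_cast hRc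
  have h6 : ((S.card : ℕ) : ℤ) ≤ N := by exact_mod_cast hSN
  have h7 : (0 : ℤ) ≤ c := Int.natCast_nonneg _
  have h8 : (R.card : ℤ) * c ≤ h * c := mul_le_mul_of_nonneg_right h5 h7
  have h9 : (c : ℤ) ^ 2 * R.card ≤ c ^ 2 * h := mul_le_mul_of_nonneg_left h5 (sq_nonneg _)
  push_cast
  nlinarith

open scoped Pointwise in
/-- Let P be an extraspecial p-group of order p^(2n+1) and H a cyclic group of order h prime to p acting on P (inside a common finite group: H normalizes P) so that C_P(x) = Z(P) for every non-identity x ∈ H. Then h divides p^n + 1 or h divides p^n − 1. -/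
theorem result {G : Type*} [Group G] [Finite G] {p : ℕ} [Fact p.Prime] (P H : Subgroup G) (hP : Cfsg.IsExtraspecial p ↥P) (n : ℕ) (hn : Nat.card P = p ^ (2 * n + 1)) (hH : IsCyclic H) (hcop : (Nat.card H).Coprime p) (hHP : H ≤ Subgroup.normalizer (P : Set G)) (hfix : ∀ x ∈ H, x ≠ 1 → P ⊓ Subgroup.centralizer {x} = (Subgroup.center ↥P).map P.subtype) : Nat.card H ∣ p ^ n + 1 ∨ Nat.card H ∣ p ^ n - 1 := by
  classical
  have hp : p.Prime := Fact.out
  set Z := (Subgroup.center P).map P.subtype with hZdef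
  have hZP : Z ≤ P := by
    rintro _ ⟨z, _, rfl⟩; exact z.2
  set A := P ⊔ H with hA
  have hPA : P ≤ A := le_sup_left
  have hUA : H ≤ A := le_sup_right
  have hAP : A ≤ Subgroup.normalizer (P : Set G) := sup_le Subgroup.le_normalizer hHP
  have hprod : ∀ g ∈ A, ∃ t ∈ P, ∃ u ∈ H, g = t * u := by
    intro g hg
    have h1 : (A : Set G) = (P : Set G) * (H : Set G) := Subgroup.coe_mul_of_right_le_normalizer_left P H hHP
    have h2 : g ∈ (P : Set G) * (H : Set G) := by rw [← h1]; exact hg
    obtain ⟨t, ht, u, hu, h⟩ := h2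
    exact ⟨t, ht, u, hu, h.symm⟩
  obtain ⟨hn0, hidx⟩ := index_of_extraspecial p n P hP hn
  by_cases hH1 : H = ⊥
  · left
    rw [hH1, Subgroup.card_bot]; exact one_dvd _
  have hZU : ∀ z ∈ Z, ∀ u ∈ H, z * u = u * z := by
    intro z hz u hu
    by_cases hu1 : u = 1
    · rw [hu1]; simp
    · rw [← hfix u hu hu1] at hz
      exact (Subgroup.mem_centralizer_singleton_iff.mp hz.2)
  have hZPc : ∀ z ∈ Z, ∀ a ∈ P, z * a = a * z := by
    rintro _ ⟨z', hz', rfl⟩ a ha
    have := Subgroup.mem_center_iff.mp hz' ⟨a, ha⟩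
    exact (congrArg Subtype.val this).symm
  have hPn : (P.subgroupOf A).Normal := Subgroup.normal_subgroupOf_of_le_normalizer hAP
  have HH : Heis (P.subgroupOf A) (H.subgroupOf A) (Z.subgroupOf A) p := by
    refine ⟨hPn, ?_, ?_, ?_, ?_, ?_, ?_, ?_, ?_, ?_⟩
    · rw [← Subgroup.subgroupOf_sup hPA hUA, Subgroup.subgroupOf_self]
    · exact fun x hx => hZP hx
    · intro z hz g
      apply Subtype.ext
      obtain ⟨t, ht, u, hu, h⟩ := hprod g g.2
      change (z : G) * g = g * z
      have hz' : (z : G) ∈ Z := hz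
      rw [h, ← mul_assoc, hZPc z hz' t ht, mul_assoc, hZU z hz' u hu, mul_assoc]
    · intro a ha b hb
      have ha' : (a : G) ∈ P := ha
      have hb' : (b : G) ∈ P := hb
      have h1 : ⁅(⟨a, ha'⟩ : P), (⟨b, hb'⟩ : P)⁆ ∈ commutator P := by
        rw [commutator_def]
        exact Subgroup.commutator_mem_commutator (Subgroup.mem_top _) (Subgroup.mem_top _)
      rw [hP.1.2.2] at h1
      exact ⟨_, h1, rfl⟩
    · intro y hy hall
      have hy' : (y : G) ∈ P := hy
      refine ⟨⟨y, hy'⟩, ?_, rfl⟩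
      rw [SetLike.mem_coe, Subgroup.mem_center_iff]
      intro a
      exact Subtype.ext (congrArg (Subtype.val : A → G) (hall ⟨a, hPA a.2⟩ a.2))
    · intro u hu hu1 t ht htu
      have h1 : (t : G) ∈ P ⊓ Subgroup.centralizer ({(u : G)} : Set G) :=
        ⟨ht, Subgroup.mem_centralizer_singleton_iff.mpr (congrArg (Subtype.val : A → G) htu)⟩
      rw [hfix u hu (fun h => hu1 (Subtype.ext h))] at h1
      exact h1
    · rw [Nat.card_congr (Subgroup.subgroupOfEquivOfLe (hZP.trans hPA)).toEquiv, hZdef,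
        Subgroup.card_map_of_injective P.subtype_injective, hP.2]
    · intro u hu v hv
      have h1 := (IsCyclic.commGroup (α := H)).mul_comm ⟨u, hu⟩ ⟨v, hv⟩
      exact Subtype.ext (congrArg (Subtype.val : H → G) h1)
    · rw [Nat.card_congr (Subgroup.subgroupOfEquivOfLe hUA).toEquiv]
      exact hcop.symm
  have hcH : Nat.card (H.subgroupOf A) = Nat.card H := Nat.card_congr (Subgroup.subgroupOfEquivOfLe hUA).toEquiv
  rw [← hcH]
  apply dvd_of_heis HH hp n
  · have h1 := ((Z.subgroupOf A).subgroupOf (P.subgroupOf A)).index_mul_card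
    have h2 : Nat.card ((Z.subgroupOf A).subgroupOf (P.subgroupOf A)) = p := by
      rw [Nat.card_congr (Subgroup.subgroupOfEquivOfLe HH.ZP).toEquiv]; exact HH.cardZ
    have h3 : Nat.card (P.subgroupOf A) = Nat.card P := Nat.card_congr (Subgroup.subgroupOfEquivOfLe hPA).toEquiv
    rw [h2, h3, hn, pow_succ] at h1
    exact Nat.eq_of_mul_eq_mul_right hp.pos h1
  · exact (Subgroup.subgroupOfEquivOfLe hUA).isCyclic.mpr hH
  · rw [hcH]; exact hcop.symm

end Cfsg.Agent.S3767
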