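import Cfsg.Statements.S3768
import Cfsg.Agent.Lib.FrobThm
import Cfsg.Agent.Lib.ProdCard

set_option autoImplicit false
open Cfsg
open scoped commutatorElement Pointwise

namespace Cfsg.Agent.S3768

open Cfsg.Agent.Lib.FrobGroup

/-- every element of a normal subgroup of the kernel is a commutator with `h`. -/
theorem exists_comm {G : Type*} [Group G] [Finite G] (M : Subgroup G) [M.Normal] (h : G)
    (hfpf : ∀ x ∈ M, x * h = h * x → x = 1) (y : G) (hy : y ∈ M) :
    ∃ x ∈ M, x * h * x⁻¹ * h⁻¹ = y := by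
  classical
  let f : M → M := fun x => ⟨x * h * (x : G)⁻¹ * h⁻¹, by
    have h1 : (x : G) * (h * (x : G)⁻¹ * h⁻¹) ∈ M :=
      mul_mem x.2 (‹M.Normal›.conj_mem _ (inv_mem x.2) h)
    have h2 : (x : G) * (h * (x : G)⁻¹ * h⁻¹) = x * h * (x : G)⁻¹ * h⁻¹ := by group
    rwa [h2] at h1⟩
  have hf : Function.Injective f := by
    intro a b hab
    have h1 : (a : G) * h * (a : G)⁻¹ * h⁻¹ = (b : G) * h * (b : G)⁻¹ * h⁻¹ := congrArg Subtype.val hab
    have h2 : (a : G) * h * (a : G)⁻¹ = (b : G) * h * (b : G)⁻¹ := mul_right_cancel h1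
    have h3 : (b : G)⁻¹ * a = 1 := by
      apply hfpf _ (mul_mem (inv_mem b.2) a.2)
      calc (b : G)⁻¹ * a * h = (b : G)⁻¹ * (a * h * (a : G)⁻¹) * a := by group
        _ = (b : G)⁻¹ * (b * h * (b : G)⁻¹) * a := by rw [h2]
        _ = h * ((b : G)⁻¹ * a) := by group
    apply Subtype.ext
    exact (inv_mul_eq_one.mp h3).symm
  obtain ⟨x, hx⟩ := Finite.surjective_of_injective hf ⟨y, hy⟩
  exact ⟨x, x.2, congrArg Subtype.val hx⟩

/-- Let G be a finite Frobenius group with Frobenius complement R and Frobenius kernel K (the identity together with the elements in no conjugate of R), and let N be a normal subgroup of G not containing K. Then G/N is a Frobenius group with Frobenius complement RN/N whose Frobenius kernel is the image of K. -/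
theorem result {G : Type*} [Group G] [Finite G] (R : Subgroup G) (hR : Cfsg.IsFrobeniusComplement R) (N : Subgroup G) [N.Normal] (hKN : ¬ Cfsg.frobeniusKernel R ⊆ N) : Cfsg.IsFrobeniusComplement (R.map (QuotientGroup.mk' N)) ∧ Cfsg.frobeniusKernel (R.map (QuotientGroup.mk' N)) = QuotientGroup.mk' N '' Cfsg.frobeniusKernel R := by
  classical
  obtain ⟨K, hK, hKn, hKc⟩ := Cfsg.Agent.Lib.FrobThm.exists_kernel hR
  have hdisj : K ⊓ R = ⊥ := hKc.disjoint.eq_bot
  have hfix : ∀ h ∈ R, h ≠ 1 → ∀ x ∈ K, x * h = h * x → x = 1 := by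
    intro h hh h1 x hx hxh
    have h2 : x ∈ R := mem_of_commute hR hh h1 hxh
    have h3 : x ∈ K ⊓ R := Subgroup.mem_inf.mpr ⟨hx, h2⟩
    rwa [hdisj, Subgroup.mem_bot] at h3
  have hNK : N ≤ K := by
    intro n hn
    by_contra hnK
    have h1 : n ∉ frobeniusKernel R := by rw [← hK]; exact hnK
    rw [mem_kernel_iff', not_or] at h1
    obtain ⟨h2, h3⟩ := h1
    push Not at h3
    obtain ⟨g, hg⟩ := h3
    apply hKN
    intro y hy
    rw [← hK] at hy
    have hh : g * n * g⁻¹ ∈ N := ‹N.Normal›.conj_mem n hn g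
    have hne : g * n * g⁻¹ ≠ 1 := by
      intro h4
      apply h2
      have : n = g⁻¹ * (g * n * g⁻¹) * g := by group
      rw [this, h4]; group
    obtain ⟨x, hx, rfl⟩ := exists_comm K (g * n * g⁻¹) (hfix _ hg hne) y hy
    exact mul_mem (‹N.Normal›.conj_mem _ hh x) (inv_mem hh)
  have hNK' : N ≠ K := by
    intro h
    apply hKN
    rw [← hK, h]
  set f := QuotientGroup.mk' N with hf
  have hfs : Function.Surjective f := QuotientGroup.mk'_surjective N
  have hKbn : (K.map f).Normal := hKn.map f hfs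
  have hKb : K.map f ≠ ⊥ := by
    intro h
    rw [Subgroup.map_eq_bot_iff, hf, QuotientGroup.ker_mk'] at h
    exact hNK' (le_antisymm hNK h)
  have hRN : R ⊓ N = ⊥ := by
    rw [eq_bot_iff, ← hdisj]
    exact le_inf (inf_le_right.trans hNK) inf_le_left
  have hRb : R.map f ≠ ⊥ := by
    intro h
    rw [Subgroup.map_eq_bot_iff, hf, QuotientGroup.ker_mk'] at h
    apply hR.1
    rw [← hRN]
    exact (inf_eq_left.mpr h).symm
  have hc : Subgroup.IsComplement' (K.map f) (R.map f) := by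
    apply Subgroup.isComplement'_of_disjoint_and_mul_eq_univ
    · rw [disjoint_iff, eq_bot_iff]
      intro z hz
      obtain ⟨h1, h2⟩ := Subgroup.mem_inf.mp hz
      obtain ⟨k, hk, rfl⟩ := h1
      obtain ⟨r, hr, hrk⟩ := h2
      have h3 : k⁻¹ * r ∈ N := by
        rw [← QuotientGroup.eq]; exact hrk.symm
      have h4 : r ∈ K := by
        have : r = k * (k⁻¹ * r) := by group
        rw [this]; exact mul_mem hk (hNK h3)
      have h5 : r ∈ K ⊓ R := Subgroup.mem_inf.mpr ⟨h4, hr⟩
      rw [hdisj, Subgroup.mem_bot] at h5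
      rw [← hrk, h5, map_one]; exact one_mem _
    · rw [Set.eq_univ_iff_forall]
      intro z
      obtain ⟨g, rfl⟩ := hfs z
      have h1 : g ∈ (K : Set G) * (R : Set G) := by rw [hKc.mul_eq]; trivial
      obtain ⟨k, hk, r, hr, rfl⟩ := h1
      exact ⟨f k, ⟨k, hk, rfl⟩, f r, ⟨r, hr, rfl⟩, (map_mul f k r).symm⟩
  have hF : Cfsg.IsFrobeniusComplement (R.map f) := by
    rw [isFrobeniusComplement_iff hc hKb hRb]
    rintro _ ⟨h, hh, rfl⟩ hne
    rw [eq_bot_iff]
    intro z hz
    obtain ⟨h1, h2⟩ := Subgroup.mem_inf.mp hz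
    obtain ⟨x, hx, rfl⟩ := h1
    rw [Subgroup.mem_centralizer_singleton_iff] at h2
    have hh1 : h ≠ 1 := by
      rintro rfl
      exact hne (map_one f)
    have h3 : x * h * x⁻¹ * h⁻¹ ∈ N := by
      rw [← QuotientGroup.eq_one_iff]
      change f (x * h * x⁻¹ * h⁻¹) = 1
      rw [map_mul, map_mul, map_mul, h2, map_inv, map_inv]; group
    obtain ⟨n, hn, hn'⟩ := exists_comm N h (fun x hx => hfix h hh hh1 x (hNK hx)) _ h3
    have h4 : n⁻¹ * x = 1 := by
      apply hfix h hh hh1 _ (mul_mem (inv_mem (hNK hn)) hx)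
      have h5 : n * h * n⁻¹ = x * h * x⁻¹ := mul_right_cancel hn'
      calc n⁻¹ * x * h = n⁻¹ * (x * h * x⁻¹) * x := by group
        _ = n⁻¹ * (n * h * n⁻¹) * x := by rw [h5]
        _ = h * (n⁻¹ * x) := by group
    have h6 : x = n := (inv_mul_eq_one.mp h4).symm
    rw [Subgroup.mem_bot, h6]
    exact (QuotientGroup.eq_one_iff n).mpr hn
  refine ⟨hF, ?_⟩
  rw [kernel_eq_of_complement hc hF, ← hK]
  rfl

end Cfsg.Agent.S3768
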