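import Cfsg.Statements.S3769
import Cfsg.Agent.Lib.BG03i
import Cfsg.Agent.Lib.ProdCard

set_option autoImplicit false
open Cfsg

namespace Cfsg.Agent.S3769

/-- Let G and V be subgroups of a finite group with G solvable of odd order normalizing V, V an elementary abelian ℓ-group for a prime ℓ not dividing the order of G, and suppose G has a normal Hall subgroup K with a complement R of prime order. If C_V(R) = 1, then [R, K] centralizes V. -/
theorem result {X : Type*} [Group X] [Finite X] (G : Subgroup X) (hsolv : Group.IsSolvable G) (hodd : Odd (Nat.card G)) (V : Subgroup X) {ℓ : ℕ} (hℓ : ℓ.Prime) (hV : Cfsg.IsElementaryAbelian ℓ V) (hℓG : ¬ ℓ ∣ Nat.card G) (hGV : G ≤ Subgroup.normalizer (V : Set X)) (K R : Subgroup X) (hKG : K ≤ G) (hKn : G ≤ Subgroup.normalizer (K : Set X)) (hHall : (Nat.card K).Coprime (K.relIndex G)) (hRG : R ≤ G) (hR : (Nat.card R).Prime) (hKR : K ⊓ R = ⊥) (hKRG : K ⊔ R = G) (hCV : V ⊓ Subgroup.centralizer (R : Set X) = ⊥) : ⁅R, K⁆ ≤ Subgroup.centralizer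 (V : Set X) := by
  have hq : Fact ℓ.Prime := ⟨hℓ⟩
  have hKdvd : Nat.card K ∣ Nat.card G := Subgroup.card_dvd_of_le hKG
  have hRdvd : Nat.card R ∣ Nat.card G := Subgroup.card_dvd_of_le hRG
  have hrel : K.relIndex G = Nat.card R := by
    have h1 : K.relIndex (R ⊔ K) = K.relIndex R :=
      Cfsg.Agent.Lib.ProdCard.relIndex_sup_right_of_le_normalizer (hRG.trans hKn)
    rw [sup_comm, hKRG] at h1
    rw [h1, Subgroup.relIndex, Subgroup.subgroupOf_eq_bot.mpr (disjoint_iff.mpr hKR), Subgroup.index_bot]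
  rw [Subgroup.commutator_comm]
  exact Cfsg.Agent.Lib.BG03i.commutator_le_centralizer K R V ℓ hV (hKG.trans hGV) (hRG.trans hGV)
    (hRG.trans hKn) hR (by rw [← hrel]; exact hHall.symm)
    (Odd.of_dvd_nat hodd hKdvd) (Odd.of_dvd_nat hodd hRdvd)
    (fun h => hℓG (h.trans hKdvd)) (fun h => hℓG (h.trans hRdvd)) hCV

end Cfsg.Agent.S3769
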