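import Cfsg.Statements.S3771
import Cfsg.Agent.Lib.ExtraOrd

set_option autoImplicit false
open Cfsg

namespace Cfsg.Agent.S3771

open Cfsg.Agent.Lib Subgroup

/-- Let p be a prime and R a finite p-group of p-rank at most 2 (no elementary abelian subgroup of order p³) in which every element has order dividing p. Then R has order at most p³. -/
theorem result {R : Type*} [Group R] [Finite R] {p : ℕ} [Fact p.Prime] (hR : IsPGroup p R) (hrank : Cfsg.PRankLE p 2 R) (hexp : ∀ x : R, x ^ p = 1) : Nat.card R ≤ p ^ 3 := by
  have hp : p.Prime := Fact.out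
  obtain ⟨A, -, hAn, hAc, hAA⟩ := PGroupOdd.exists_scn hR (A₀ := ⊥) inferInstance inferInstance
  have h1 := hrank A hAc (fun a _ => hexp a)
  have hmul : Nat.card A * A.index = Nat.card R := A.card_mul_index
  rcases lt_or_eq_of_le h1 with h2 | h2
  · -- |A| ≤ p
    obtain ⟨a, ha⟩ := (IsPGroup.iff_card.mp (hR.to_subgroup A))
    have ha1 : a ≤ 1 := by
      rw [ha] at h2
      have := (Nat.pow_lt_pow_iff_right hp.one_lt).mp h2
      omega
    -- A is central
    have hAz : A ≤ center R := by
      by_cases hA0 : A = ⊥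
      · rw [hA0]; exact bot_le
      obtain ⟨z, hz, hzc, hzo⟩ := PGroupOdd.exists_central_mem hR hAn hA0
      have : zpowers z = A := Subgroup.eq_of_le_of_card_ge (by rwa [zpowers_le]) (by
        rw [Nat.card_zpowers, hzo, ha]
        calc p ^ a ≤ p ^ 1 := Nat.pow_le_pow_right hp.pos ha1
          _ = p := pow_one p)
      rw [← this, zpowers_le]
      exact hzc
    have h3 : A = ⊤ := by
      rw [← hAA, eq_top_iff, ← Subgroup.le_centralizer_iff, Subgroup.coe_top, Subgroup.centralizer_univ]
      exact hAz
    rw [h3, Subgroup.card_top] at ha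
    rw [ha]
    exact Nat.pow_le_pow_right hp.pos (by omega)
  · have h3 := ExtraOrd.index_centralizer_le_of_card_sq hR hAn h2
    rw [hAA] at h3
    calc Nat.card R = Nat.card A * A.index := hmul.symm
      _ ≤ p ^ 2 * p := by rw [h2]; gcongr
      _ = p ^ 3 := by ring

end Cfsg.Agent.S3771
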