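import Cfsg.Statements.S3772
import Cfsg.Agent.Lib.HBBasic

set_option autoImplicit false
open Cfsg
open scoped commutatorElement

namespace Cfsg.Agent.S3772

open Cfsg.Agent.Lib.HBBasic

/-- The Gauss sum computation. -/
theorem gauss {G : Type*} [Group G] [Fintype G] [DecidableEq G] (z : G) (hz1 : z ≠ 1) (hz2 : z * z = 1)
    (hzc : ∀ g : G, g * z = z * g) (hsq : ∀ x : G, x ^ 2 = 1 ∨ x ^ 2 = z)
    (hcomm : ∀ x y : G, x * y * x⁻¹ * y⁻¹ = 1 ∨ x * y * x⁻¹ * y⁻¹ = z) :
    (∑ x : G, (if x ^ 2 = 1 then (1:ℤ) else -1)) ^ 2 = 0 ∨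
    ((∑ x : G, (if x ^ 2 = 1 then (1:ℤ) else -1)) ^ 2 = (Nat.card G : ℤ) * Nat.card (Subgroup.center G) ∧
      ∀ y ∈ Subgroup.center G, y ^ 2 = 1) := by
  classical
  set ε : G → ℤ := fun x => if x ^ 2 = 1 then (1:ℤ) else -1 with hε
  set χ : G → G → ℤ := fun x y => if x * y = y * x then (1:ℤ) else -1 with hχ
  have hzz : z * z = 1 := hz2
  have hmul : ∀ x y : G, ε (x * y) = ε x * ε y * χ x y := by
    intro x y
    have h1 : (x * y) ^ 2 = (y * x * y⁻¹ * x⁻¹) * (x ^ 2 * y ^ 2) := by
      have hc : x * (y * x * y⁻¹ * x⁻¹) = (y * x * y⁻¹ * x⁻¹) * x := by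
        rcases hcomm y x with h | h
        · rw [h]; simp
        · rw [h]; exact hzc x
      calc (x * y) ^ 2 = x * ((y * x * y⁻¹ * x⁻¹) * x * y) * y := by rw [pow_two]; group
        _ = (x * (y * x * y⁻¹ * x⁻¹)) * (x * y ^ 2) := by rw [pow_two y]; group
        _ = ((y * x * y⁻¹ * x⁻¹) * x) * (x * y ^ 2) := by rw [hc]
        _ = (y * x * y⁻¹ * x⁻¹) * (x ^ 2 * y ^ 2) := by rw [pow_two x]; group
    have h2 : x * y = y * x ↔ y * x * y⁻¹ * x⁻¹ = 1 := by
      rw [mul_inv_eq_one, mul_inv_eq_iff_eq_mul, eq_comm]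
    simp only [hε, hχ]
    rw [h1]
    simp only [h2]
    rcases hcomm y x with hc | hc <;> rcases hsq x with hx | hx <;> rcases hsq y with hy | hy <;>
      rw [hc, hx, hy] <;> simp [hz1, hzz]
  have hχhom : ∀ a x y : G, χ (a * x) y = χ a y * χ x y := by
    intro a x y
    -- use the commutators
    have h2 : ∀ u : G, u * y = y * u ↔ u * y * u⁻¹ * y⁻¹ = 1 := by
      intro u; rw [mul_inv_eq_one, mul_inv_eq_iff_eq_mul]
    have h3 : (a * x) * y * (a * x)⁻¹ * y⁻¹ = (a * y * a⁻¹ * y⁻¹) * (x * y * x⁻¹ * y⁻¹) := by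
      have hc : a * (x * y * x⁻¹ * y⁻¹) = (x * y * x⁻¹ * y⁻¹) * a := by
        rcases hcomm x y with h | h
        · rw [h]; simp
        · rw [h]; exact hzc a
      have hc' : (a * y * a⁻¹ * y⁻¹) * (x * y * x⁻¹ * y⁻¹) = (x * y * x⁻¹ * y⁻¹) * (a * y * a⁻¹ * y⁻¹) := by
        rcases hcomm x y with h | h
        · rw [h]; simp
        · rw [h]; exact hzc _
      calc (a * x) * y * (a * x)⁻¹ * y⁻¹ = (a * (x * y * x⁻¹ * y⁻¹)) * y * a⁻¹ * y⁻¹ := by group
        _ = ((x * y * x⁻¹ * y⁻¹) * a) * y * a⁻¹ * y⁻¹ := by rw [hc]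
        _ = (x * y * x⁻¹ * y⁻¹) * (a * y * a⁻¹ * y⁻¹) := by group
        _ = _ := hc'.symm
    simp only [hχ]
    simp only [h2]
    rw [h3]
    rcases hcomm a y with hc | hc <;> rcases hcomm x y with hx | hx <;>
      rw [hc, hx] <;> simp [hz1, hzz]
  have hεε : ∀ x, ε x * ε x = 1 := by
    intro x; simp only [hε]; split_ifs <;> norm_num
  have hsumχ : ∀ y : G, ∑ x : G, χ x y = if y ∈ Subgroup.center G then (Nat.card G : ℤ) else 0 := by
    intro y
    split_ifs with hy
    · have : ∀ x : G, χ x y = 1 := by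
        intro x
        simp only [hχ]
        rw [if_pos (Subgroup.mem_center_iff.mp hy x)]
      rw [Finset.sum_congr rfl (fun x _ => this x)]
      simp [Nat.card_eq_fintype_card]
    · have : ∃ a : G, a * y ≠ y * a := by
        by_contra hcon
        push Not at hcon
        exact hy (Subgroup.mem_center_iff.mpr hcon)
      obtain ⟨a, ha⟩ := this
      have h1 : ∑ x : G, χ x y = ∑ x : G, χ (a * x) y := (Equiv.sum_comp (Equiv.mulLeft a) (fun x => χ x y)).symm
      have h2 : ∑ x : G, χ (a * x) y = - ∑ x : G, χ x y := by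
        rw [← Finset.sum_neg_distrib]
        refine Finset.sum_congr rfl (fun x _ => ?_)
        rw [hχhom]
        have : χ a y = -1 := by simp only [hχ]; rw [if_neg ha]
        rw [this]; ring
      linarith
  have hT : (∑ x : G, ε x) ^ 2 = (Nat.card G : ℤ) * ∑ y : G, (if y ∈ Subgroup.center G then ε y else 0) := by
    calc (∑ x : G, ε x) ^ 2 = ∑ x : G, ∑ y : G, ε x * ε y := by
          rw [pow_two, Finset.sum_mul_sum]
      _ = ∑ x : G, ∑ y : G, ε x * ε (x * y) := by
          refine Finset.sum_congr rfl (fun x _ => ?_)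
          exact (Equiv.sum_comp (Equiv.mulLeft x) (fun y => ε x * ε y)).symm
      _ = ∑ x : G, ∑ y : G, ε y * χ x y := by
          refine Finset.sum_congr rfl (fun x _ => Finset.sum_congr rfl (fun y _ => ?_))
          rw [hmul]
          calc ε x * (ε x * ε y * χ x y) = (ε x * ε x) * (ε y * χ x y) := by ring
            _ = _ := by rw [hεε, one_mul]
      _ = ∑ y : G, ε y * ∑ x : G, χ x y := by
          rw [Finset.sum_comm]
          refine Finset.sum_congr rfl (fun y _ => ?_)
          rw [Finset.mul_sum]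
      _ = _ := by
          rw [Finset.mul_sum]
          refine Finset.sum_congr rfl (fun y _ => ?_)
          rw [hsumχ]
          split_ifs <;> ring
  by_cases hall : ∀ y ∈ Subgroup.center G, y ^ 2 = 1
  · right
    refine ⟨?_, hall⟩
    rw [hT]
    congr 1
    have : ∀ y : G, (if y ∈ Subgroup.center G then ε y else 0) = if y ∈ Subgroup.center G then (1:ℤ) else 0 := by
      intro y
      split_ifs with hy
      · simp only [hε]; rw [if_pos (hall y hy)]
      · rfl
    rw [Finset.sum_congr rfl (fun y _ => this y)]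
    rw [Finset.sum_boole]
    congr 1
    rw [Nat.card_eq_fintype_card, Fintype.card_subtype]
  · left
    push Not at hall
    obtain ⟨a, ha, ha2⟩ := hall
    rw [hT]
    have h1 : ∑ y : G, (if y ∈ Subgroup.center G then ε y else 0) =
        ∑ y : G, (if a * y ∈ Subgroup.center G then ε (a * y) else 0) :=
      (Equiv.sum_comp (Equiv.mulLeft a) (fun y => if y ∈ Subgroup.center G then ε y else 0)).symm
    have h2 : ∑ y : G, (if a * y ∈ Subgroup.center G then ε (a * y) else 0) =
        - ∑ y : G, (if y ∈ Subgroup.center G then ε y else 0) := by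
      rw [← Finset.sum_neg_distrib]
      refine Finset.sum_congr rfl (fun y _ => ?_)
      have h3 : a * y ∈ Subgroup.center G ↔ y ∈ Subgroup.center G := Subgroup.mul_mem_cancel_left _ ha
      by_cases hy : y ∈ Subgroup.center G
      · rw [if_pos (h3.mpr hy), if_pos hy, hmul]
        have h4 : ε a = -1 := by simp only [hε]; rw [if_neg ha2]
        have h5 : χ a y = 1 := by
          simp only [hχ]; rw [if_pos (Subgroup.mem_center_iff.mp hy a)]
        rw [h4, h5]; ring
      · rw [if_neg (fun h => hy (h3.mp h)), if_neg hy]; ring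
    have h3 : ∑ y : G, (if y ∈ Subgroup.center G then ε y else 0) = 0 := by linarith
    rw [h3, mul_zero]

/-- Let G be a finite 2-group whose Frattini subgroup Φ(G) has order 2, with |G : Φ(G)| = 2^d, and let j be the number of elements x of G with x² = 1. Then j = 2^d, or j = 2^d + 2^(d−r) or j = 2^d − 2^(d−r) for some positive integer r with 2r ≤ d. Moreover if d = 2r and j is 2^d + 2^r or 2^d − 2^r, then G is extraspecial. -/
theorem result {G : Type*} [Group G] [Finite G] (hG : IsPGroup 2 G) (hΦ : Nat.card (frattini G) = 2) (d : ℕ) (hd : (frattini G).index = 2 ^ d) : (Nat.card {x : G // x ^ 2 = 1} = 2 ^ d ∨ ∃ r : ℕ, 1 ≤ r ∧ 2 * r ≤ d ∧ (Nat.card {x : G // x ^ 2 = 1} = 2 ^ d + 2 ^ (d - r) ∨ Nat.card {x : G // x ^ 2 = 1} + 2 ^ (d - r) = 2 ^ d)) ∧ (∀ r : ℕ, d = 2 * r → (Nat.card {x : G // x ^ 2 = 1} = 2 ^ d + 2 ^ r ∨ Nat.card {x : G // x ^ 2 = 1} + 2 ^ r = 2 ^ d) → Cfsg.IsExtraspecial 2 G) := by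
  classical
  haveI : Fact (Nat.Prime 2) := ⟨Nat.prime_two⟩
  haveI := Fintype.ofFinite G
  -- Φ = {1, z}
  obtain ⟨z, hz⟩ := exists_prime_orderOf_dvd_card' 2 (show 2 ∣ Nat.card (frattini G) by rw [hΦ])
  have hzpow : Subgroup.zpowers z = ⊤ := by
    apply Subgroup.eq_top_of_card_eq
    rw [Nat.card_zpowers, hz, hΦ]
  have hmemΦ : ∀ x : G, x ∈ frattini G → x = 1 ∨ x = z := by
    intro x hx
    have h1 : (⟨x, hx⟩ : frattini G) ∈ Subgroup.zpowers z := by rw [hzpow]; trivial
    obtain ⟨k, hk⟩ := Subgroup.mem_zpowers_iff.mp h1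
    have hz2 : z ^ (2:ℤ) = 1 := by
      have := pow_orderOf_eq_one z
      rw [hz] at this
      exact_mod_cast this
    rcases Int.even_or_odd k with ⟨m, hm⟩ | ⟨m, hm⟩
    · left
      rw [hm, ← two_mul, zpow_mul, hz2, one_zpow] at hk
      exact (congrArg Subtype.val hk).symm
    · right
      rw [hm, zpow_add, zpow_mul, hz2, one_zpow, one_mul, zpow_one] at hk
      exact (congrArg Subtype.val hk).symm
  have hz1 : (z : G) ≠ 1 := by
    intro h
    have : z = 1 := Subtype.ext h
    rw [this, orderOf_one] at hz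
    omega
  have hzz : (z : G) * z = 1 := by
    have := pow_orderOf_eq_one z
    rw [hz, pow_two] at this
    exact congrArg Subtype.val this
  have hzc : ∀ g : G, g * z = z * g := by
    intro g
    have h1 : g * z * g⁻¹ ∈ frattini G := (inferInstance : (frattini G).Normal).conj_mem z z.2 g
    rcases hmemΦ _ h1 with h | h
    · exfalso
      apply hz1
      rw [mul_inv_eq_one] at h
      exact mul_eq_left.mp h
    · rwa [mul_inv_eq_iff_eq_mul] at h
  have hsq : ∀ x : G, x ^ 2 = 1 ∨ x ^ 2 = z := fun x => hmemΦ _ (pow_mem_frattini hG x)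
  have hcomm : ∀ x y : G, x * y * x⁻¹ * y⁻¹ = 1 ∨ x * y * x⁻¹ * y⁻¹ = z := by
    intro x y
    apply hmemΦ
    apply commutator_le_frattini hG
    exact Subgroup.commutator_mem_commutator (Subgroup.mem_top x) (Subgroup.mem_top y)
  have hcardG : Nat.card G = 2 ^ (d + 1) := by
    rw [← (frattini G).index_mul_card, hd, hΦ, pow_succ]
  obtain ⟨s, hs⟩ := IsPGroup.iff_card.mp (hG.to_subgroup (Subgroup.center G))
  set j := Nat.card {x : G // x ^ 2 = 1} with hj
  have hsum : (∑ x : G, (if x ^ 2 = 1 then (1:ℤ) else -1)) = 2 * ((j:ℤ) - 2 ^ d) := by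
    have h1 : ∀ x : G, (if x ^ 2 = 1 then (1:ℤ) else -1) = 2 * (if x ^ 2 = 1 then (1:ℤ) else 0) - 1 := by
      intro x; split_ifs <;> norm_num
    rw [Finset.sum_congr rfl (fun x _ => h1 x), Finset.sum_sub_distrib, ← Finset.mul_sum, Finset.sum_boole]
    have h2 : (Finset.univ.filter (fun x : G => x ^ 2 = 1)).card = j := by
      rw [hj, Nat.card_eq_fintype_card, Fintype.card_subtype]
    rw [h2]
    simp only [Finset.sum_const, Finset.card_univ, nsmul_eq_mul, mul_one]
    rw [← Nat.card_eq_fintype_card, hcardG]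
    push_cast
    ring
  -- G is not elementary abelian
  have hnotel : ∃ x : G, x ^ 2 ≠ 1 := by
    by_contra hcon
    push Not at hcon
    have hcomm1 : commutator G ≤ ⊥ := by
      rw [commutator_def, Subgroup.commutator_le]
      intro x _ y _
      rw [Subgroup.mem_bot, commutatorElement_def]
      have h1 : x * y * x⁻¹ * y⁻¹ = x ^ 2 * (x⁻¹ * y) ^ 2 * (y⁻¹) ^ 2 := by
        simp only [pow_two]; group
      rw [h1, hcon, hcon, hcon]; simp
    have := frattini_le_of_pow_mem (p := 2) (⊥ : Subgroup G) (fun x => by rw [Subgroup.mem_bot]; exact hcon x) hcomm1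
    rw [le_bot_iff] at this
    rw [this, Subgroup.card_bot] at hΦ
    omega
  have hs1 : 1 ≤ s := by
    rcases Nat.eq_zero_or_pos s with h | h
    · exfalso
      rw [h, pow_zero] at hs
      have : Subgroup.center G = ⊥ := Subgroup.card_eq_one.mp hs
      have h2 : (z : G) ∈ Subgroup.center G := Subgroup.mem_center_iff.mpr hzc
      rw [this, Subgroup.mem_bot] at h2
      exact hz1 h2
    · exact h
  have hgauss := gauss (z : G) hz1 hzz hzc hsq hcomm
  rw [hsum, hcardG, hs] at hgauss
  -- main dichotomy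
  have hmain : (j:ℤ) - 2 ^ d = 0 ∨ (((j:ℤ) - 2 ^ d) ^ 2 = 2 ^ (d + s - 1) ∧ s ≤ d) := by
    rcases hgauss with h | ⟨h, hall⟩
    · left
      have : (2 * ((j:ℤ) - 2 ^ d)) = 0 := by
        exact pow_eq_zero_iff (by norm_num) |>.mp h
      linarith
    · right
      constructor
      · have h2 : (2:ℤ) ^ (d + 1) * 2 ^ s = 4 * 2 ^ (d + s - 1) := by
          rw [← pow_add]
          have : d + 1 + s = 2 + (d + s - 1) := by omega
          rw [this, pow_add]; norm_num
        push_cast at h
        nlinarith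
      · -- Z ≠ G
        by_contra hlt
        push Not at hlt
        have h3 : Nat.card (Subgroup.center G) = Nat.card G := by
          apply le_antisymm (Nat.le_of_dvd Nat.card_pos (Subgroup.card_subgroup_dvd_card _))
          rw [hs, hcardG]
          exact Nat.pow_le_pow_right (by norm_num) (by omega)
        have h4 := Subgroup.eq_top_of_card_eq _ h3
        obtain ⟨x, hx⟩ := hnotel
        exact hx (hall x (by rw [h4]; trivial))
  constructor
  · rcases hmain with h | ⟨h, hsd⟩
    · left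
      have : (j:ℤ) = 2 ^ d := by linarith
      exact_mod_cast this
    · right
      -- |j - 2^d| is a power of 2
      have h1 : ((j:ℤ) - 2 ^ d).natAbs ^ 2 = 2 ^ (d + s - 1) := by
        have := congrArg Int.natAbs h
        rw [Int.natAbs_pow] at this
        rw [this, Int.natAbs_pow]; rfl
      obtain ⟨m, _, hm⟩ := (Nat.dvd_prime_pow Nat.prime_two).mp (show ((j:ℤ) - 2 ^ d).natAbs ∣ 2 ^ (d + s - 1) by
        rw [← h1]; exact dvd_pow_self _ (by norm_num))
      have h2 : 2 * m = d + s - 1 := by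
        rw [hm, ← pow_mul] at h1
        have := Nat.pow_right_injective (le_refl 2) h1
        omega
      refine ⟨d - m, by omega, by omega, ?_⟩
      have h3 : d - (d - m) = m := by omega
      rw [h3]
      rcases Int.natAbs_eq ((j:ℤ) - 2 ^ d) with h4 | h4
      · left
        rw [hm] at h4
        push_cast at h4
        have : (j:ℤ) = 2 ^ d + 2 ^ m := by linarith
        exact_mod_cast this
      · right
        rw [hm] at h4
        push_cast at h4
        have : (j:ℤ) + 2 ^ m = 2 ^ d := by linarith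
        exact_mod_cast this
  · intro r hr hj'
    have h1 : ((j:ℤ) - 2 ^ d) ^ 2 = 2 ^ d := by
      have h2 : (2:ℤ) ^ d = 2 ^ r * 2 ^ r := by rw [hr, two_mul, pow_add]
      rcases hj' with h | h
      · have : (j:ℤ) = 2 ^ d + 2 ^ r := by exact_mod_cast h
        rw [this, h2]; ring
      · have : (j:ℤ) + 2 ^ r = 2 ^ d := by exact_mod_cast h
        have h3 : (j:ℤ) - 2 ^ d = - 2 ^ r := by linarith
        rw [h3, h2]; ring
    have hs' : s = 1 ∧ s ≤ d := by
      rcases hmain with h | ⟨h, hsd⟩
      · exfalso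
        rw [h] at h1
        have : (2:ℤ) ^ d ≠ 0 := by positivity
        apply this; rw [← h1]; ring
      · refine ⟨?_, hsd⟩
        rw [h1] at h
        have h2 : 2 ^ d = 2 ^ (d + s - 1) := by exact_mod_cast h
        have := Nat.pow_right_injective (le_refl 2) h2
        omega
    obtain ⟨hs', hsd⟩ := hs'
    rw [hs', pow_one] at hs
    have hΦZ : frattini G = Subgroup.center G := by
      apply Subgroup.eq_of_le_of_card_ge
      · intro x hx
        rcases hmemΦ x hx with h | h
        · rw [h]; exact one_mem _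
        · rw [h]; exact Subgroup.mem_center_iff.mpr hzc
      · rw [hs, hΦ]
    have hcomm0 : commutator G ≠ ⊥ := by
      intro h
      rw [commutator_eq_bot_iff_center_eq_top] at h
      rw [h, Subgroup.card_top, hcardG] at hs
      have : 2 ^ (d+1) = 2 ^ 1 := by rw [hs]; norm_num
      have := Nat.pow_right_injective (le_refl 2) this
      omega
    have hcommΦ : commutator G = frattini G := by
      apply Subgroup.eq_of_le_of_card_ge (commutator_le_frattini hG)
      rw [hΦ]
      have h1 : 1 < Nat.card (commutator G) := by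
        rw [← not_le]
        intro hle
        apply hcomm0
        rw [← Subgroup.card_eq_one]
        have : 0 < Nat.card (commutator G) := Nat.card_pos
        omega
      omega
    exact ⟨⟨hG, hΦZ, by rw [hcommΦ, hΦZ]⟩, hs⟩

end Cfsg.Agent.S3772
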