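import Cfsg.Statements.S3773
import Cfsg.Agent.Lib.HBBasic
import Cfsg.Agent.Lib.CWQuad

set_option autoImplicit false
open Cfsg
open scoped commutatorElement

namespace Cfsg.Agent.S3773

open Cfsg.Agent.Lib.HBBasic Cfsg.Agent.Lib.CWQuad

/-- version of `card_le_of_sq` modulo a central subgroup `K`. -/
theorem card_le_of_sq_mod {G : Type*} [Group G] [Finite G] (K Z₀ N : Subgroup G)
    (hKZ : K ≤ Z₀) (hZ : Z₀ ≤ Subgroup.center G) (hZ2 : ∀ z ∈ Z₀, z ^ 2 = 1) (hsq : ∀ x : G, x ^ 2 ∈ Z₀)
    (hZN : Z₀ ≤ N) (hN : ∀ x : G, x ^ 2 ∈ K → x ∈ N) :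
    Nat.card G * Nat.card K ^ 2 ≤ Nat.card N * Nat.card Z₀ ^ 2 := by
  haveI : K.Normal := by
    constructor
    intro z hz g
    have := Subgroup.mem_center_iff.mp (hZ (hKZ hz)) g
    rw [this, mul_inv_cancel_right]; exact hz
  have hmain := card_le_of_sq (G := G ⧸ K) (Z₀.map (QuotientGroup.mk' K)) (N.map (QuotientGroup.mk' K))
    (by
      rintro _ ⟨z, hz, rfl⟩
      rw [Subgroup.mem_center_iff]
      intro g
      obtain ⟨g, rfl⟩ := QuotientGroup.mk_surjective g
      have := Subgroup.mem_center_iff.mp (hZ hz) g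
      exact congrArg (QuotientGroup.mk : G → G ⧸ K) this)
    (by
      rintro _ ⟨z, hz, rfl⟩
      rw [← map_pow, hZ2 z hz, map_one])
    (by
      intro x
      obtain ⟨g, rfl⟩ := QuotientGroup.mk_surjective x
      exact ⟨g ^ 2, hsq g, rfl⟩)
    (Subgroup.map_mono hZN)
    (by
      intro x hx
      obtain ⟨g, rfl⟩ := QuotientGroup.mk_surjective x
      rw [← QuotientGroup.mk_pow, QuotientGroup.eq_one_iff] at hx
      exact ⟨g, hN g hx, rfl⟩)
  have hc : ∀ H : Subgroup G, K ≤ H → Nat.card (H.map (QuotientGroup.mk' K)) * Nat.card K = Nat.card H := by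
    intro H hKH
    have h1 := Subgroup.relIndex_ker (K := H) (QuotientGroup.mk' K)
    rw [QuotientGroup.ker_mk'] at h1
    rw [← h1]
    have := Subgroup.relIndex_mul_relIndex ⊥ K H bot_le hKH
    rw [Subgroup.relIndex_bot_left, Subgroup.relIndex_bot_left] at this
    rw [mul_comm]; exact this
  have c5 : Nat.card (G ⧸ K) * Nat.card K = Nat.card G := by
    rw [← Subgroup.index_eq_card]; exact K.index_mul_card
  rw [← c5, ← hc N (hKZ.trans hZN), ← hc Z₀ hKZ]
  calc Nat.card (G ⧸ K) * Nat.card K * Nat.card K ^ 2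
      ≤ (Nat.card (N.map (QuotientGroup.mk' K)) * Nat.card (Z₀.map (QuotientGroup.mk' K)) ^ 2) * Nat.card K * Nat.card K ^ 2 :=
        Nat.mul_le_mul_right _ (Nat.mul_le_mul_right _ hmain)
    _ = _ := by ring

/-- Let G be a finite 2-group of nilpotency class at most 2 and exponent dividing 4 in which the elements x with x² = 1 form a subgroup N. Then |G| ≤ |N|³, and |G| < |N|³ unless G is special. -/
theorem result {G : Type*} [Group G] [Finite G] (hG : IsPGroup 2 G) (hcl : (⊤ : Subgroup G).lowerCentralSeries 2 = ⊥) (hexp : ∀ x : G, x ^ 4 = 1) (hN : ∀ x y : G, x ^ 2 = 1 → y ^ 2 = 1 → (x * y) ^ 2 = 1) : Nat.card G ≤ Nat.card {x : G // x ^ 2 = 1} ^ 3 ∧ (¬ Cfsg.IsSpecial 2 G → Nat.card G < Nat.card {x : G // x ^ 2 = 1} ^ 3) := by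
  classical
  haveI : Fact (Nat.Prime 2) := ⟨Nat.prime_two⟩
  have hcen : ∀ x y : G, x * y * x⁻¹ * y⁻¹ ∈ Subgroup.center G := by
    intro x y
    have h1 : ⁅⁅(⊤ : Subgroup G), ⊤⁆, ⊤⁆ = ⊥ := hcl
    rw [Subgroup.commutator_top_right_eq_bot_iff_le_center] at h1
    apply h1
    exact Subgroup.commutator_mem_commutator (Subgroup.mem_top x) (Subgroup.mem_top y)
  -- conjugation by y multiplies x by the central commutator
  have hconj : ∀ x y : G, y * x * y⁻¹ = (y * x * y⁻¹ * x⁻¹) * x := by intro x y; group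
  have hsqc : ∀ x y : G, y * x ^ 2 * y⁻¹ = (y * x * y⁻¹ * x⁻¹) ^ 2 * x ^ 2 := by
    intro x y
    have h1 : Commute (y * x * y⁻¹ * x⁻¹) x := (Subgroup.mem_center_iff.mp (hcen y x) x).symm
    rw [← conj_pow, ← h1.mul_pow, ← hconj]
  have hc2 : ∀ x y : G, (y * x * y⁻¹ * x⁻¹) ^ 2 = 1 := by
    intro x y
    set c := y * x * y⁻¹ * x⁻¹ with hcdef
    have hc : ∀ g : G, g * c = c * g := fun g => Subgroup.mem_center_iff.mp (hcen y x) g
    -- y² commutes with x²
    have h1 : y * x ^ 2 * y⁻¹ = c ^ 2 * x ^ 2 := hsqc x y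
    have h2 : y ^ 2 * x ^ 2 * (y ^ 2)⁻¹ = x ^ 2 := by
      calc y ^ 2 * x ^ 2 * (y ^ 2)⁻¹ = y * (y * x ^ 2 * y⁻¹) * y⁻¹ := by rw [pow_two y]; group
        _ = y * (c ^ 2 * x ^ 2) * y⁻¹ := by rw [h1]
        _ = (y * c ^ 2) * x ^ 2 * y⁻¹ := by group
        _ = (c ^ 2 * y) * x ^ 2 * y⁻¹ := by
            rw [((show Commute y c from hc y).pow_right 2).eq]
        _ = c ^ 2 * (y * x ^ 2 * y⁻¹) := by group
        _ = c ^ 2 * (c ^ 2 * x ^ 2) := by rw [h1]
        _ = c ^ 4 * x ^ 2 := by rw [← mul_assoc, ← pow_add]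
        _ = x ^ 2 := by rw [hexp, one_mul]
    have h3 : Commute (x ^ 2) (y ^ 2) := by
      have := mul_inv_eq_iff_eq_mul.mp h2
      exact this.symm
    have h4 : (x * y) ^ 2 = c * (x ^ 2 * y ^ 2) := by
      calc (x * y) ^ 2 = x * (c * x * y) * y := by rw [hcdef, pow_two]; group
        _ = (x * c) * (x * y ^ 2) := by rw [pow_two y]; group
        _ = (c * x) * (x * y ^ 2) := by rw [hc x]
        _ = c * (x ^ 2 * y ^ 2) := by rw [pow_two x]; group
    have h5 : (x * y) ^ 4 = c ^ 2 := by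
      have h6 : (x * y) ^ 4 = ((x * y) ^ 2) ^ 2 := by rw [← pow_mul]
      have h7 : Commute c (x ^ 2 * y ^ 2) := (hc _).symm
      rw [h6, h4, h7.mul_pow, h3.mul_pow, ← pow_mul, ← pow_mul, hexp, hexp, mul_one, mul_one]
    rw [← h5]; exact hexp _
  have hsqcen : ∀ x : G, x ^ 2 ∈ Subgroup.center G := by
    intro x
    rw [Subgroup.mem_center_iff]
    intro y
    have h1 := hsqc x y
    rw [hc2, one_mul, mul_inv_eq_iff_eq_mul] at h1
    exact h1
  let N : Subgroup G :=
    { carrier := {x | x ^ 2 = 1}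
      one_mem' := by simp
      mul_mem' := by intro a b ha hb; exact hN a b ha hb
      inv_mem' := by
        intro a ha
        change a⁻¹ ^ 2 = 1
        have ha' : a ^ 2 = 1 := ha
        rw [inv_pow, ha', inv_one] }
  have hNmem : ∀ x, x ∈ N ↔ x ^ 2 = 1 := fun x => Iff.rfl
  have hNcard : Nat.card {x : G // x ^ 2 = 1} = Nat.card N := rfl
  rw [hNcard]
  have hsqN : ∀ x : G, x ^ 2 ∈ N := by
    intro x; rw [hNmem, ← pow_mul]; exact hexp x
  -- main inequality for subgroups Z₀ of N ∩ Z containing the squares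
  have hineq : ∀ Z₀ : Subgroup G, Z₀ ≤ N ⊓ Subgroup.center G → (∀ x : G, x ^ 2 ∈ Z₀) →
      Nat.card G ≤ Nat.card N * Nat.card Z₀ ^ 2 := by
    intro Z₀ h1 h2
    exact card_le_of_sq Z₀ N (h1.trans inf_le_right) (fun z hz => (h1 hz).1) h2 (h1.trans inf_le_left)
      (fun x hx => hx)
  have hle : Nat.card G ≤ Nat.card N ^ 3 := by
    have h1 := hineq (N ⊓ Subgroup.center G) le_rfl (fun x => ⟨hsqN x, hsqcen x⟩)
    have h2 : Nat.card ↥(N ⊓ Subgroup.center G) ≤ Nat.card N := Subgroup.card_le_of_le inf_le_left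
    calc Nat.card G ≤ Nat.card N * Nat.card ↥(N ⊓ Subgroup.center G) ^ 2 := h1
      _ ≤ Nat.card N * Nat.card N ^ 2 := Nat.mul_le_mul_left _ (Nat.pow_le_pow_left h2 2)
      _ = Nat.card N ^ 3 := by ring
  refine ⟨hle, ?_⟩
  intro hns
  refine lt_of_le_of_ne hle ?_
  intro heq
  apply hns
  have hNpos : 0 < Nat.card N := Nat.card_pos
  -- squares generate N
  have key : ∀ Z₀ : Subgroup G, Z₀ ≤ N ⊓ Subgroup.center G → (∀ x : G, x ^ 2 ∈ Z₀) → Z₀ = N := by
    intro Z₀ h1 h2
    have h3 := hineq Z₀ h1 h2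
    rw [heq] at h3
    have h4 : Nat.card N ^ 2 ≤ Nat.card Z₀ ^ 2 := by
      have : Nat.card N * Nat.card N ^ 2 ≤ Nat.card N * Nat.card Z₀ ^ 2 := by
        calc Nat.card N * Nat.card N ^ 2 = Nat.card N ^ 3 := by ring
          _ ≤ _ := h3
      exact Nat.le_of_mul_le_mul_left this hNpos
    have h5 : Nat.card N ≤ Nat.card Z₀ := (Nat.pow_le_pow_iff_left (by norm_num)).mp h4
    exact Subgroup.eq_of_le_of_card_ge (h1.trans inf_le_left) h5
  have hNZ : N ≤ Subgroup.center G := by
    have := key (N ⊓ Subgroup.center G) le_rfl (fun x => ⟨hsqN x, hsqcen x⟩)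
    rw [← this]; exact inf_le_right
  haveI hNnorm : N.Normal := by
    constructor
    intro z hz g
    have := Subgroup.mem_center_iff.mp (hNZ hz) g
    rw [this, mul_inv_cancel_right]; exact hz
  have hcommN : commutator G ≤ N := by
    rw [commutator_def, Subgroup.commutator_le]
    intro x _ y _
    exact hc2 y x
  -- Frattini
  have hfr : frattini G = N := by
    apply le_antisymm
    · exact frattini_le_of_pow_mem (p := 2) N hsqN hcommN
    · have h1 := key (N ⊓ frattini G) (le_inf inf_le_left (inf_le_left.trans hNZ))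
        (fun x => ⟨hsqN x, pow_mem_frattini hG x⟩)
      rw [← h1]; exact inf_le_right
  -- commutator
  have hcommeq : commutator G = N := by
    -- the homomorphism x ↦ x² mod G'
    set D := commutator G with hD
    have hDc : ∀ x y : G, (x : G ⧸ D) * (y : G ⧸ D) = (y : G ⧸ D) * (x : G ⧸ D) := by
      intro x y
      rw [← QuotientGroup.mk_mul, ← QuotientGroup.mk_mul, QuotientGroup.eq]
      have : (x * y)⁻¹ * (y * x) = ⁅y⁻¹, x⁻¹⁆ := by rw [commutatorElement_def]; group
      rw [this]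
      exact Subgroup.commutator_mem_commutator (Subgroup.mem_top _) (Subgroup.mem_top _)
    let φ : G →* G ⧸ D :=
      { toFun := fun x => (x : G ⧸ D) ^ 2
        map_one' := by simp
        map_mul' := by
          intro x y
          rw [QuotientGroup.mk_mul]
          have : Commute (x : G ⧸ D) (y : G ⧸ D) := hDc x y
          rw [this.mul_pow] }
    have hφ : ∀ x, φ x = (x : G ⧸ D) ^ 2 := fun x => rfl
    have hker : ∀ x, x ∈ φ.ker ↔ x ^ 2 ∈ D := by
      intro x
      rw [MonoidHom.mem_ker, hφ, ← QuotientGroup.mk_pow, QuotientGroup.eq_one_iff]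
    have hrange : φ.range ≤ N.map (QuotientGroup.mk' D) := by
      rintro _ ⟨x, rfl⟩
      exact ⟨x ^ 2, hsqN x, rfl⟩
    have h1 : Nat.card φ.range ≤ Nat.card (N.map (QuotientGroup.mk' D)) := Subgroup.card_le_of_le hrange
    have h2 : Nat.card (N.map (QuotientGroup.mk' D)) * Nat.card D = Nat.card N := by
      have h1 := Subgroup.relIndex_ker (K := N) (QuotientGroup.mk' D)
      rw [QuotientGroup.ker_mk'] at h1
      rw [← h1]
      have := Subgroup.relIndex_mul_relIndex ⊥ D N bot_le hcommN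
      rw [Subgroup.relIndex_bot_left, Subgroup.relIndex_bot_left] at this
      rw [mul_comm]; exact this
    have h3 : Nat.card φ.ker * Nat.card φ.range = Nat.card G := by
      rw [← Subgroup.index_ker]; exact φ.ker.card_mul_index
    -- apply the inequality in ker φ
    have hDker : D ≤ φ.ker := by
      intro x hx
      rw [hker]; exact D.pow_mem hx 2
    have hNker : N ≤ φ.ker := by
      intro x hx
      rw [hker, (hNmem x).mp hx]; exact one_mem _
    have h4 := card_le_of_sq (G := φ.ker) (D.subgroupOf φ.ker) (N.subgroupOf φ.ker)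
      (by
        intro x hx
        rw [Subgroup.mem_center_iff]
        intro g
        apply Subtype.ext
        exact Subgroup.mem_center_iff.mp (hNZ (hcommN hx)) g)
      (by
        intro x hx
        apply Subtype.ext
        exact hcommN hx)
      (by
        intro x
        rw [Subgroup.mem_subgroupOf]
        exact (hker x).mp x.2)
      (by
        intro x hx
        exact hcommN hx)
      (by
        intro x hx
        rw [Subgroup.mem_subgroupOf, hNmem]
        exact congrArg Subtype.val hx)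
    have h5 : Nat.card (D.subgroupOf φ.ker) = Nat.card D := Nat.card_congr (Subgroup.subgroupOfEquivOfLe hDker).toEquiv
    have h6 : Nat.card (N.subgroupOf φ.ker) = Nat.card N := Nat.card_congr (Subgroup.subgroupOfEquivOfLe hNker).toEquiv
    rw [h5, h6] at h4
    have hDpos : 0 < Nat.card D := Nat.card_pos
    have h7 : Nat.card N ^ 3 ≤ Nat.card N ^ 2 * Nat.card D := by
      calc Nat.card N ^ 3 = Nat.card G := heq.symm
        _ = Nat.card φ.ker * Nat.card φ.range := h3.symm
        _ ≤ (Nat.card N * Nat.card D ^ 2) * Nat.card (N.map (QuotientGroup.mk' D)) := Nat.mul_le_mul h4 h1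
        _ = Nat.card N * Nat.card D * (Nat.card (N.map (QuotientGroup.mk' D)) * Nat.card D) := by ring
        _ = Nat.card N ^ 2 * Nat.card D := by rw [h2]; ring
    have h8 : Nat.card N ≤ Nat.card D := by
      have : Nat.card N ^ 2 * Nat.card N ≤ Nat.card N ^ 2 * Nat.card D := by
        calc Nat.card N ^ 2 * Nat.card N = Nat.card N ^ 3 := by ring
          _ ≤ _ := h7
      exact Nat.le_of_mul_le_mul_left this (by positivity)
    exact Subgroup.eq_of_le_of_card_ge hcommN h8
  -- centre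
  have hcenN : Subgroup.center G = N := by
    apply le_antisymm _ hNZ
    intro z hz
    by_contra hzN
    set w := z ^ 2 with hw
    have hw1 : w ≠ 1 := fun h => hzN ((hNmem z).mpr h)
    have hw2 : w ^ 2 = 1 := by rw [hw, ← pow_mul]; exact hexp z
    have hord : orderOf w = 2 := orderOf_eq_prime hw2 hw1
    have hKcard : Nat.card (Subgroup.zpowers w) = 2 := by rw [Nat.card_zpowers, hord]
    have h1 := card_le_of_sq_mod (Subgroup.zpowers w) N (N ⊔ Subgroup.zpowers z)
      (by rw [Subgroup.zpowers_le]; exact hsqN z) hNZ (fun z hz => hz) hsqN le_sup_left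
      (by
        intro x hx
        have hxw : x ^ 2 = 1 ∨ x ^ 2 = w := by
          obtain ⟨k, hk⟩ := Subgroup.mem_zpowers_iff.mp hx
          rcases Int.even_or_odd k with ⟨m, hm⟩ | ⟨m, hm⟩
          · left; rw [← hk, hm, ← two_mul, zpow_mul, zpow_ofNat, hw2, one_zpow]
          · right; rw [← hk, hm, zpow_add, zpow_mul, zpow_ofNat, hw2, one_zpow, one_mul, zpow_one]
        rcases hxw with h | h
        · exact Subgroup.mem_sup_left ((hNmem x).mpr h)
        · have h2 : x * z⁻¹ ∈ N := by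
            rw [hNmem]
            have hcz : Commute x z⁻¹ := by
              have := Subgroup.mem_center_iff.mp (inv_mem hz) x
              exact this
            rw [hcz.mul_pow, h, hw, inv_pow, mul_inv_cancel]
          have h3 : x = (x * z⁻¹) * z := by group
          rw [h3]
          exact mul_mem (Subgroup.mem_sup_left h2) (Subgroup.mem_sup_right (Subgroup.mem_zpowers z)))
    have h2 : Nat.card ↥(N ⊔ Subgroup.zpowers z) ≤ 2 * Nat.card N := by
      have h3 : N.relIndex (N ⊔ Subgroup.zpowers z) = N.relIndex (Subgroup.zpowers z) :=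
        Subgroup.relIndex_sup_left _ _
      have h4 := Subgroup.relIndex_ker (K := Subgroup.zpowers z) (QuotientGroup.mk' N)
      rw [QuotientGroup.ker_mk', MonoidHom.map_zpowers, Nat.card_zpowers] at h4
      have h5 : orderOf ((QuotientGroup.mk' N) z) ≤ 2 := by
        apply orderOf_le_of_pow_eq_one (by norm_num)
        rw [← map_pow]
        exact (QuotientGroup.eq_one_iff _).mpr (hsqN z)
      have h6 := Subgroup.relIndex_mul_relIndex ⊥ N (N ⊔ Subgroup.zpowers z) bot_le le_sup_left
      rw [Subgroup.relIndex_bot_left, Subgroup.relIndex_bot_left, h3, h4] at h6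
      rw [← h6, mul_comm]
      exact Nat.mul_le_mul_right _ h5
    rw [hKcard, heq] at h1
    have h3 : Nat.card N ^ 3 * 2 ^ 2 ≤ Nat.card N ^ 3 * 2 := by
      calc Nat.card N ^ 3 * 2 ^ 2 ≤ Nat.card ↥(N ⊔ Subgroup.zpowers z) * Nat.card N ^ 2 := h1
        _ ≤ (2 * Nat.card N) * Nat.card N ^ 2 := Nat.mul_le_mul_right _ h2
        _ = Nat.card N ^ 3 * 2 := by ring
    have h4 : 0 < Nat.card N ^ 3 := by positivity
    omega
  exact ⟨hG, by rw [hfr, hcenN], by rw [hcommeq, hcenN]⟩

end Cfsg.Agent.S3773
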