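import Cfsg.Statements.S3774

set_option autoImplicit false
open Cfsg

namespace Cfsg.Agent.S3774

/-- Let G be a nontrivial finite 2-group whose automorphism group permutes the involutions of G transitively. Then every involution of G is central, so that the involutions together with 1 form the subgroup Ω₁(Z(G)), and if this subgroup has order q then |G| is a power of q. -/
theorem result {G : Type*} [Group G] [Finite G] [Nontrivial G] (hG : IsPGroup 2 G) (htrans : ∀ x y : G, x ≠ 1 → x ^ 2 = 1 → y ≠ 1 → y ^ 2 = 1 → ∃ a : MulAut G, a x = y) : (∀ x : G, x ^ 2 = 1 → x ∈ Subgroup.center G) ∧ ∃ m : ℕ, Nat.card G = Nat.card {z : G // z ^ 2 = 1} ^ m := by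
  haveI : Fact (Nat.Prime 2) := ⟨Nat.prime_two⟩
  -- a central involution
  obtain ⟨z, hzc, hz1, hz2⟩ : ∃ z : G, z ∈ Subgroup.center G ∧ z ≠ 1 ∧ z ^ 2 = 1 := by
    haveI := hG.center_nontrivial
    have h2 : 2 ∣ Nat.card (Subgroup.center G) := by
      rcases (hG.to_subgroup (Subgroup.center G)).card_eq_or_dvd with h | h
      · exfalso
        have := Finite.one_lt_card (α := Subgroup.center G)
        omega
      · exact h
    obtain ⟨z, hz⟩ := exists_prime_orderOf_dvd_card' 2 h2
    refine ⟨z, z.2, ?_, ?_⟩
    · intro h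
      have : z = 1 := Subtype.ext h
      rw [this, orderOf_one] at hz
      omega
    · have : z ^ 2 = 1 := by rw [← hz]; exact pow_orderOf_eq_one z
      exact congrArg Subtype.val this
  have hcent : ∀ x : G, x ^ 2 = 1 → x ∈ Subgroup.center G := by
    intro x hx
    by_cases hx1 : x = 1
    · rw [hx1]; exact one_mem _
    · obtain ⟨a, rfl⟩ := htrans z x hz1 hz2 hx1 hx
      rw [Subgroup.mem_center_iff] at hzc ⊢
      intro g
      have := congrArg a (hzc (a.symm g))
      simpa using this
  refine ⟨hcent, ?_⟩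
  -- the subgroup of elements of order dividing 2
  let N : Subgroup G :=
    { carrier := {x | x ^ 2 = 1}
      one_mem' := by simp
      mul_mem' := by
        intro a b ha hb
        have hc := Subgroup.mem_center_iff.mp (hcent a ha) b
        simp only [Set.mem_setOf_eq] at *
        have : Commute a b := hc.symm
        rw [this.mul_pow, ha, hb, one_mul]
      inv_mem' := by
        intro a ha
        simp only [Set.mem_setOf_eq] at *
        rw [inv_pow, ha, inv_one] }
  have hNcard : Nat.card N = Nat.card {z : G // z ^ 2 = 1} := rfl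
  obtain ⟨k, hk⟩ := (IsPGroup.iff_card.mp (hG.to_subgroup N))
  obtain ⟨n, hn⟩ := (IsPGroup.iff_card.mp hG)
  have hkpos : k ≠ 0 := by
    rintro rfl
    rw [pow_zero] at hk
    have : N = ⊥ := Subgroup.card_eq_one.mp hk
    have hzN : z ∈ N := hz2
    rw [this, Subgroup.mem_bot] at hzN
    exact hz1 hzN
  -- the map to involutions
  classical
  haveI := Fintype.ofFinite G
  let f : G → G := fun x => x ^ (orderOf x / 2)
  have hford : ∀ x : G, x ≠ 1 → ∃ j : ℕ, orderOf x = 2 * j ∧ 0 < j := by
    intro x hx
    obtain ⟨j, hj⟩ := hG.dvd_orderOf hx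
    refine ⟨j, hj, ?_⟩
    have := orderOf_pos x
    omega
  have hf1 : ∀ x : G, x ≠ 1 → f x ≠ 1 := by
    intro x hx
    obtain ⟨j, hj, hj0⟩ := hford x hx
    simp only [f]
    rw [hj, Nat.mul_div_cancel_left j (by norm_num)]
    exact pow_ne_one_of_lt_orderOf hj0.ne' (by omega)
  have hf2 : ∀ x : G, x ≠ 1 → (f x) ^ 2 = 1 := by
    intro x hx
    obtain ⟨j, hj, hj0⟩ := hford x hx
    simp only [f]
    rw [hj, Nat.mul_div_cancel_left j (by norm_num), ← pow_mul, mul_comm, ← hj]
    exact pow_orderOf_eq_one x
  have hfa : ∀ (a : MulAut G) (x : G), f (a x) = a (f x) := by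
    intro a x
    simp only [f]
    rw [map_pow]
    congr 2
    exact MulEquiv.orderOf_eq a x
  let S : Finset G := Finset.univ.filter (fun x => x ≠ 1)
  let T : Finset G := Finset.univ.filter (fun x => x ≠ 1 ∧ x ^ 2 = 1)
  have hmaps : Set.MapsTo f (S : Set G) (T : Set G) := by
    intro x hx
    simp only [S, T, Finset.coe_filter, Finset.mem_univ, true_and, Set.mem_setOf_eq] at hx ⊢
    exact ⟨hf1 x hx, hf2 x hx⟩
  have hfib : ∀ b ∈ T, (S.filter (fun x => f x = b)).card = (S.filter (fun x => f x = z)).card := by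
    intro b hb
    simp only [T, Finset.mem_filter, Finset.mem_univ, true_and] at hb
    obtain ⟨a, ha⟩ := htrans b z hb.1 hb.2 hz1 hz2
    apply Finset.card_bij (fun x _ => a x)
    · intro x hx
      simp only [S, Finset.mem_filter, Finset.mem_univ, true_and] at hx ⊢
      refine ⟨?_, ?_⟩
      · intro h; apply hx.1; simpa using h
      · rw [hfa, hx.2, ha]
    · intro x _ y _ h; exact a.injective h
    · intro y hy
      simp only [S, Finset.mem_filter, Finset.mem_univ, true_and] at hy
      refine ⟨a.symm y, ?_, by simp⟩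
      simp only [S, Finset.mem_filter, Finset.mem_univ, true_and]
      refine ⟨?_, ?_⟩
      · intro h; apply hy.1; simpa using h
      · rw [hfa, hy.2, ← ha]; simp
  have hcount := Finset.card_eq_sum_card_fiberwise hmaps
  rw [Finset.sum_congr rfl hfib, Finset.sum_const, smul_eq_mul] at hcount
  have hS : S.card = Nat.card G - 1 := by
    have : S = Finset.univ.erase 1 := by
      ext x; simp [S]
    rw [this, Finset.card_erase_of_mem (Finset.mem_univ _), Finset.card_univ, Nat.card_eq_fintype_card]
  have hT : T.card = Nat.card N - 1 := by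
    have h1 : T = (Finset.univ.filter (fun x : G => x ^ 2 = 1)).erase 1 := by
      ext x; simp [T]
    rw [h1, Finset.card_erase_of_mem (by simp), hNcard, Nat.card_eq_fintype_card, Fintype.card_subtype]
  rw [hS, hT, hk, hn] at hcount
  have hdvd : 2 ^ k - 1 ∣ 2 ^ n - 1 := Dvd.intro _ hcount.symm
  have hkn : k ∣ n := by
    have h1 := Nat.pow_sub_one_gcd_pow_sub_one 2 k n
    rw [Nat.gcd_eq_left hdvd] at h1
    have h2 : 2 ^ k = 2 ^ (Nat.gcd k n) := by
      have := Nat.one_le_two_pow (n := k)
      have := Nat.one_le_two_pow (n := Nat.gcd k n)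
      omega
    have h3 := Nat.pow_right_injective (le_refl 2) h2
    rw [h3]; exact Nat.gcd_dvd_right k n
  obtain ⟨m, rfl⟩ := hkn
  refine ⟨m, ?_⟩
  rw [← hNcard, hn, hk, pow_mul]

end Cfsg.Agent.S3774
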