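import Cfsg.Statements.S3775
import Cfsg.Agent.Lib.OpMaschke

set_option autoImplicit false
open Cfsg

namespace Cfsg.Agent.S3775

open Cfsg.Agent.Lib Subgroup

variable {A : Type*} [CommGroup A]

/-- invariance in elementwise form -/
def Inv (X : Subgroup (MulAut A)) (B : Subgroup A) : Prop := ∀ x : X, ∀ b ∈ B, X.subtype x b ∈ B

theorem inv_iff (X : Subgroup (MulAut A)) (B : Subgroup A) :
    (∀ x ∈ X, B.map x.toMonoidHom = B) ↔ Inv X B := by
  constructor
  · intro h x b hb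
    have h1 : (x : MulAut A) b ∈ B.map (x : MulAut A).toMonoidHom := ⟨b, hb, rfl⟩
    rw [h x x.2] at h1
    exact h1
  · intro h x hx
    apply le_antisymm
    · rintro _ ⟨b, hb, rfl⟩
      exact h ⟨x, hx⟩ b hb
    · intro b hb
      refine ⟨x⁻¹ b, h ⟨x⁻¹, X.inv_mem hx⟩ b hb, ?_⟩
      change x (x⁻¹ b) = b
      exact MulAut.apply_inv_self _ _ _

theorem Inv.sup {X : Subgroup (MulAut A)} {B C : Subgroup A} (hB : Inv X B) (hC : Inv X C) : Inv X (B ⊔ C) := by
  intro x b hb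
  obtain ⟨u, hu, v, hv, rfl⟩ := Subgroup.mem_sup.mp hb
  rw [map_mul]
  exact Subgroup.mul_mem_sup (hB x u hu) (hC x v hv)

theorem Inv.inf {X : Subgroup (MulAut A)} {B C : Subgroup A} (hB : Inv X B) (hC : Inv X C) : Inv X (B ⊓ C) :=
  fun x b hb => ⟨hB x b hb.1, hC x b hb.2⟩

theorem Inv.map_pow {X : Subgroup (MulAut A)} {B : Subgroup A} (hB : Inv X B) (n : ℕ) :
    Inv X (B.map (powMonoidHom n)) := by
  rintro x _ ⟨b, hb, rfl⟩
  refine ⟨X.subtype x b, hB x b hb, ?_⟩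
  change (X.subtype x b) ^ n = X.subtype x (b ^ n)
  rw [_root_.map_pow]

theorem Inv.comap_pow {X : Subgroup (MulAut A)} {B : Subgroup A} (hB : Inv X B) (n : ℕ) :
    Inv X (B.comap (powMonoidHom n)) := by
  intro x b hb
  change (X.subtype x b) ^ n ∈ B
  rw [← _root_.map_pow]
  exact hB x _ hb

theorem inv_bot (X : Subgroup (MulAut A)) : Inv X (⊥ : Subgroup A) := by
  intro x b hb
  rw [Subgroup.mem_bot] at hb
  rw [hb, map_one]
  exact Subgroup.one_mem _

theorem inv_top (X : Subgroup (MulAut A)) : Inv X (⊤ : Subgroup A) := fun _ _ _ => Subgroup.mem_top _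

/-- a nontrivial abelian `p`-group all whose invariant decompositions are trivial has irreducible `Ω₁`. -/
theorem key [Finite A] {p : ℕ} [hp : Fact p.Prime] (hA : IsPGroup p A) (X : Subgroup (MulAut A))
    (hX : (Nat.card X).Coprime p)
    (hind : ∀ B C : Subgroup A, Inv X B → Inv X C → B ⊓ C = ⊥ → B ⊔ C = ⊤ → B ≠ ⊥ → C ≠ ⊥ → False)
    (B : Subgroup A) (hB : Inv X B) (hBp : ∀ b ∈ B, b ^ p = 1) (hB1 : B ≠ ⊥) : ∀ a : A, a ∈ B ↔ a ^ p = 1 := by
  classical
  -- exponent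
  obtain ⟨k, hk⟩ := IsPGroup.iff_card.mp hA
  have hex : ∃ e : ℕ, ∀ a : A, a ^ p ^ e = 1 := ⟨k, fun a => by rw [← hk]; exact pow_card_eq_one'⟩
  obtain ⟨e, he⟩ : ∃ e, e = Nat.find hex := ⟨_, rfl⟩
  have he1 : ∀ a : A, a ^ p ^ e = 1 := by rw [he]; exact Nat.find_spec hex
  have hnt : ∃ a : A, a ≠ 1 := by
    obtain ⟨b, -, hb⟩ := (Subgroup.bot_or_exists_ne_one B).resolve_left hB1
    exact ⟨b, hb⟩
  have he0 : e ≠ 0 := by
    rintro rfl
    obtain ⟨a, ha⟩ := hnt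
    have := he1 a
    rw [pow_zero, pow_one] at this
    exact ha this
  obtain ⟨f, rfl⟩ := Nat.exists_eq_succ_of_ne_zero he0
  have hf : ∃ a : A, a ^ p ^ f ≠ 1 := by
    have := Nat.find_min hex (m := f) (by omega)
    push Not at this
    exact this
  let ψ : A →* A := powMonoidHom (p ^ f)
  have hψ : ∀ a, ψ a = a ^ p ^ f := fun a => rfl
  have hψinv : ∀ {B : Subgroup A}, Inv X B → Inv X (B.map ψ) := fun h => h.map_pow _
  have hψinv' : ∀ {B : Subgroup A}, Inv X B → Inv X (B.comap ψ) := fun h => h.comap_pow _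
  -- V minimal
  have hE : (⊤ : Subgroup A).map ψ ≠ ⊥ := by
    obtain ⟨a, ha⟩ := hf
    intro h
    apply ha
    have : ψ a ∈ (⊤ : Subgroup A).map ψ := ⟨a, trivial, rfl⟩
    rw [h, Subgroup.mem_bot] at this
    exact this
  have hne : ({K : Subgroup A | Inv X K ∧ K ≠ ⊥ ∧ K ≤ (⊤ : Subgroup A).map ψ}).Nonempty :=
    ⟨_, hψinv (inv_top X), hE, le_rfl⟩
  obtain ⟨V, hV⟩ := Set.Finite.exists_minimal (Set.toFinite _) hne
  obtain ⟨hVinv, hV1, hVle⟩ := hV.prop
  have hVmin : ∀ K : Subgroup A, Inv X K → K ≤ V → K ≠ ⊥ → K = V := fun K hK hKV hK1 =>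
    le_antisymm hKV (hV.le_of_le ⟨hK, hK1, hKV.trans hVle⟩ hKV)
  -- W minimal
  have hne2 : ({W : Subgroup A | Inv X W ∧ W.map ψ = V}).Nonempty := by
    refine ⟨V.comap ψ, hψinv' hVinv, ?_⟩
    rw [Subgroup.map_comap_eq, inf_eq_right, MonoidHom.range_eq_map]
    exact hVle
  obtain ⟨W, hW⟩ := Set.Finite.exists_minimal (Set.toFinite _) hne2
  obtain ⟨hWinv, hWV⟩ := hW.prop
  have hWmin : ∀ K : Subgroup A, Inv X K → K ≤ W → K.map ψ = V → K = W := fun K hK hKW hKV =>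
    le_antisymm hKW (hW.le_of_le ⟨hK, hKV⟩ hKW)
  -- Claim 1
  have claim1 : ∀ w ∈ W, w ^ p ^ f = 1 → ∃ v ∈ W, v ^ p = w := by
    have hN : Inv X (W.map (powMonoidHom p)) := hWinv.map_pow p
    have hUi : Inv X (W ⊓ (⊥ : Subgroup A).comap ψ) := hWinv.inf (hψinv' (inv_bot X))
    have hNU : W.map (powMonoidHom p) ≤ W ⊓ (⊥ : Subgroup A).comap ψ := by
      rintro _ ⟨w, hw, rfl⟩
      refine ⟨W.pow_mem hw p, ?_⟩
      change (w ^ p) ^ p ^ f = 1
      rw [← pow_mul, ← pow_succ']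
      exact he1 w
    obtain ⟨D, hD, hND, hDW, hUD, hUD'⟩ := OpMaschke.exists_section_compl hX X.subtype hN hUi hWinv hNU inf_le_left
      (fun t ht => ⟨t, ht, rfl⟩)
    have h1 : D.map ψ = V := by
      rw [← hWV, ← hUD', Subgroup.map_sup]
      have : (W ⊓ (⊥ : Subgroup A).comap ψ).map ψ = ⊥ := by
        rw [eq_bot_iff]
        rintro _ ⟨w, hw, rfl⟩
        exact hw.2
      rw [this, bot_sup_eq]
    have h2 := hWmin D hD hDW h1
    rw [h2, inf_eq_left.mpr inf_le_left] at hUD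
    intro w hw hw1
    have h3 : w ∈ W ⊓ (⊥ : Subgroup A).comap ψ := ⟨hw, hw1⟩
    rw [hUD] at h3
    obtain ⟨v, hv, hvw⟩ := h3
    exact ⟨v, hv, hvw⟩
  -- Claim 2
  have claim2 : ∀ w ∈ W, w ^ p = 1 → w ∈ V := by
    intro w hw hw1
    have h1 : ∀ j, j ≤ f → ∃ v ∈ W, v ^ p ^ j = w := by
      intro j
      induction j with
      | zero => intro _; exact ⟨w, hw, by rw [pow_zero, pow_one]⟩
      | succ j ih =>
        intro hj
        obtain ⟨v, hv, hvw⟩ := ih (by omega)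
        have h2 : v ^ p ^ f = 1 := by
          have h3 : v ^ p ^ (j + 1) = 1 := by rw [pow_succ, pow_mul, hvw, hw1]
          obtain ⟨t, rfl⟩ := Nat.exists_eq_add_of_le hj
          rw [pow_add, pow_mul, h3, one_pow]
        obtain ⟨u, hu, huv⟩ := claim1 v hv h2
        exact ⟨u, hu, by rw [pow_succ', pow_mul, huv, hvw]⟩
    obtain ⟨v, hv, hvw⟩ := h1 f le_rfl
    rw [← hWV]
    exact ⟨v, hv, hvw⟩
  -- C maximal
  have hne3 : ({C : Subgroup A | Inv X C ∧ C ⊓ W = ⊥}).Nonempty := ⟨⊥, inv_bot X, bot_inf_eq _⟩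
  obtain ⟨C, hC⟩ := Set.Finite.exists_maximal (Set.toFinite _) hne3
  obtain ⟨hCinv, hCW⟩ := hC.prop
  have hsup : C ⊔ W = ⊤ := by
    -- T' ≤ C ⊔ W
    have hT' : Inv X (C.comap (powMonoidHom p)) := hCinv.comap_pow p
    have hCT' : C ≤ C.comap (powMonoidHom p) := fun c hc => C.pow_mem hc p
    have hU : Inv X (C.comap (powMonoidHom p) ⊓ (C ⊔ W)) := hT'.inf (hCinv.sup hWinv)
    obtain ⟨C', hC', hCC', hC'T, hUC, hUC'⟩ := OpMaschke.exists_section_compl hX X.subtype hCinv hU hT'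
      (le_inf hCT' le_sup_left) inf_le_left (fun t ht => ht)
    have h1 : C' ⊓ W = ⊥ := by
      rw [eq_bot_iff, ← hCW]
      refine le_inf ?_ inf_le_right
      rw [← hUC]
      exact le_inf (le_inf (inf_le_left.trans hC'T) (inf_le_right.trans le_sup_right)) inf_le_left
    have h2 : C' = C := le_antisymm (hC.le_of_ge ⟨hC', h1⟩ hCC') hCC'
    rw [h2] at hUC'
    have h3 : C.comap (powMonoidHom p) ≤ C ⊔ W := by
      rw [← hUC']
      exact sup_le inf_le_right le_sup_left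
    by_contra hne
    -- an element of order p in the quotient
    have hq : IsPGroup p (A ⧸ (C ⊔ W)) := hA.to_quotient _
    haveI : Nontrivial (A ⧸ (C ⊔ W)) := QuotientGroup.nontrivial_iff.mpr hne
    obtain ⟨m, hm⟩ := IsPGroup.iff_card.mp hq
    have hm0 : m ≠ 0 := by
      rintro rfl
      rw [pow_zero] at hm
      have := Finite.one_lt_card (α := A ⧸ (C ⊔ W))
      omega
    have hdvd : p ∣ Nat.card (A ⧸ (C ⊔ W)) := by rw [hm]; exact dvd_pow_self p hm0
    obtain ⟨y, hy⟩ := exists_prime_orderOf_dvd_card' p hdvd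
    obtain ⟨t, rfl⟩ := QuotientGroup.mk_surjective y
    have ht1 : t ∉ C ⊔ W := by
      intro h
      rw [(QuotientGroup.eq_one_iff t).mpr h, orderOf_one] at hy
      exact hp.out.one_lt.ne hy
    have ht2 : t ^ p ∈ C ⊔ W := by
      rw [← QuotientGroup.eq_one_iff, QuotientGroup.mk_pow, ← hy, pow_orderOf_eq_one]
    obtain ⟨c, hc, w, hw, hcw⟩ := Subgroup.mem_sup.mp ht2
    have h4 : c ^ p ^ f * w ^ p ^ f = 1 := by
      rw [← mul_pow, hcw, ← pow_mul, ← pow_succ']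
      exact he1 t
    have h5 : w ^ p ^ f = 1 := by
      have h6 : w ^ p ^ f ∈ C ⊓ W := by
        refine ⟨?_, W.pow_mem hw _⟩
        rw [eq_inv_of_mul_eq_one_right h4]
        exact C.inv_mem (C.pow_mem hc _)
      rw [hCW, Subgroup.mem_bot] at h6
      exact h6
    obtain ⟨v, hv, hvw⟩ := claim1 w hw h5
    have h6 : t * v⁻¹ ∈ C.comap (powMonoidHom p) := by
      change (t * v⁻¹) ^ p ∈ C
      rw [mul_pow, inv_pow, hvw, ← hcw, mul_inv_cancel_right]
      exact hc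
    apply ht1
    have h7 : t = (t * v⁻¹) * v := by group
    rw [h7]
    exact (C ⊔ W).mul_mem (h3 h6) (mem_sup_right hv)
  have hW1 : W ≠ ⊥ := by
    intro h
    rw [h, Subgroup.map_bot] at hWV
    exact hV1 hWV.symm
  have hC1 : C = ⊥ := by
    by_contra h
    exact hind C W hCinv hWinv hCW hsup h hW1
  rw [hC1, bot_sup_eq] at hsup
  have hBV : B ≤ V := by
    intro b hb
    exact claim2 b (by rw [hsup]; trivial) (hBp b hb)
  have hBV' := hVmin B hB hBV hB1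
  intro a
  refine ⟨hBp a, fun ha => ?_⟩
  rw [hBV']
  exact claim2 a (by rw [hsup]; trivial) ha

/-- Let A be a finite abelian p-group and X a group of automorphisms of A of order prime to p. Call a subgroup of A invariant when every element of X maps it onto itself. Then the following are equivalent: (i) A is not the direct product of two nontrivial invariant subgroups; (ii) every invariant subgroup of A is one of the subgroups Ω_i(A) = {a : a^(p^i) = 1}; (iii) the subgroup Ω₁(A) of elements of order dividing p has no invariant subgroups other than 1 and itself. -/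
theorem result {A : Type*} [CommGroup A] [Finite A] {p : ℕ} [Fact p.Prime] (hA : IsPGroup p A) (X : Subgroup (MulAut A)) (hX : (Nat.card X).Coprime p) : ((¬ ∃ B C : Subgroup A, B ≠ ⊥ ∧ C ≠ ⊥ ∧ (∀ x ∈ X, B.map x.toMonoidHom = B) ∧ (∀ x ∈ X, C.map x.toMonoidHom = C) ∧ B ⊓ C = ⊥ ∧ B ⊔ C = ⊤) ↔ (∀ B : Subgroup A, (∀ x ∈ X, B.map x.toMonoidHom = B) → ∃ i : ℕ, ∀ a : A, a ∈ B ↔ a ^ p ^ i = 1)) ∧ ((∀ B : Subgroup A, (∀ x ∈ X, B.map x.toMonoidHom = B) → ∃ i : ℕ, ∀ a : A, a ∈ B ↔ a ^ p ^ i = 1) ↔ (∀ B : Subgroup A, (∀ x ∈ X, B.map x.toMonoidHom = B) → (∀ b ∈ B, b ^ p = 1) → B = ⊥ ∨ ∀ a : A, a ∈ B ↔ a ^ p = 1)) := by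
  have hp : p.Prime := Fact.out
  simp only [inv_iff]
  -- (i) → (iii)
  have h13 : (¬ ∃ B C : Subgroup A, B ≠ ⊥ ∧ C ≠ ⊥ ∧ Inv X B ∧ Inv X C ∧ B ⊓ C = ⊥ ∧ B ⊔ C = ⊤) →
      ∀ B : Subgroup A, Inv X B → (∀ b ∈ B, b ^ p = 1) → B = ⊥ ∨ ∀ a : A, a ∈ B ↔ a ^ p = 1 := by
    intro h B hB hBp
    by_cases hB1 : B = ⊥
    · exact Or.inl hB1
    · right
      exact key hA X hX (fun B C hB hC h1 h2 h3 h4 => h ⟨B, C, h3, h4, hB, hC, h1, h2⟩) B hB hBp hB1
  -- (iii) → (ii)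
  have h32 : (∀ B : Subgroup A, Inv X B → (∀ b ∈ B, b ^ p = 1) → B = ⊥ ∨ ∀ a : A, a ∈ B ↔ a ^ p = 1) →
      ∀ B : Subgroup A, Inv X B → ∃ i : ℕ, ∀ a : A, a ∈ B ↔ a ^ p ^ i = 1 := by
    classical
    intro h B hB
    obtain ⟨k, hk⟩ := IsPGroup.iff_card.mp hA
    have hex : ∃ e : ℕ, ∀ b ∈ B, b ^ p ^ e = 1 := ⟨k, fun b _ => by rw [← hk]; exact pow_card_eq_one'⟩
    obtain ⟨i, hi⟩ : ∃ i, i = Nat.find hex := ⟨_, rfl⟩
    have hi1 : ∀ b ∈ B, b ^ p ^ i = 1 := by rw [hi]; exact Nat.find_spec hex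
    refine ⟨i, fun a => ⟨hi1 a, ?_⟩⟩
    rcases Nat.eq_zero_or_pos i with hi0 | hi0
    · intro ha
      rw [hi0, pow_zero, pow_one] at ha
      rw [ha]; exact B.one_mem
    · obtain ⟨f, rfl⟩ := Nat.exists_eq_succ_of_ne_zero hi0.ne'
      have hf : ∃ b ∈ B, b ^ p ^ f ≠ 1 := by
        have := Nat.find_min hex (m := f) (by omega)
        push Not at this
        exact this
      -- the subgroup of p^f-th powers of B
      have h1 := h (B.map (powMonoidHom (p ^ f))) (hB.map_pow _) (by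
        rintro _ ⟨b, hb, rfl⟩
        change (b ^ p ^ f) ^ p = 1
        rw [← pow_mul, ← pow_succ]
        exact hi1 b hb)
      have h2 : ∀ a : A, a ∈ B.map (powMonoidHom (p ^ f)) ↔ a ^ p = 1 := by
        rcases h1 with h1 | h1
        · exfalso
          obtain ⟨b, hb, hb1⟩ := hf
          apply hb1
          have : b ^ p ^ f ∈ B.map (powMonoidHom (p ^ f)) := ⟨b, hb, rfl⟩
          rw [h1, Subgroup.mem_bot] at this
          exact this
        · exact h1
      have h3 : ∀ j, j ≤ f + 1 → ∀ a : A, a ^ p ^ j = 1 → a ∈ B := by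
        intro j
        induction j with
        | zero =>
          intro _ a ha
          rw [pow_zero, pow_one] at ha
          rw [ha]; exact B.one_mem
        | succ j ih =>
          intro hj a ha
          have h4 : a ^ p ^ j ∈ B.map (powMonoidHom (p ^ f)) := by
            rw [h2, ← pow_mul, ← pow_succ]
            exact ha
          obtain ⟨b, hb, hba⟩ := h4
          change b ^ p ^ f = a ^ p ^ j at hba
          obtain ⟨t, rfl⟩ := Nat.exists_eq_add_of_le (show j ≤ f by omega)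
          have h5 : (a * (b ^ p ^ t)⁻¹) ^ p ^ j = 1 := by
            rw [mul_pow, inv_pow, ← pow_mul, ← pow_add, add_comm t j, hba, mul_inv_cancel]
          have h6 := ih (by omega) _ h5
          have h7 : a = (a * (b ^ p ^ t)⁻¹) * (b ^ p ^ t) := by group
          rw [h7]
          exact B.mul_mem h6 (B.pow_mem hb _)
      exact h3 (f + 1) le_rfl a
  -- (ii) → (i)
  have h21 : (∀ B : Subgroup A, Inv X B → ∃ i : ℕ, ∀ a : A, a ∈ B ↔ a ^ p ^ i = 1) →
      ¬ ∃ B C : Subgroup A, B ≠ ⊥ ∧ C ≠ ⊥ ∧ Inv X B ∧ Inv X C ∧ B ⊓ C = ⊥ ∧ B ⊔ C = ⊤ := by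
    rintro h ⟨B, C, hB1, hC1, hB, hC, hBC, -⟩
    obtain ⟨i, hi⟩ := h B hB
    obtain ⟨j, hj⟩ := h C hC
    rcases le_total i j with hij | hij
    · have h1 : B ≤ C := by
        intro b hb
        rw [hj]
        obtain ⟨t, rfl⟩ := Nat.exists_eq_add_of_le hij
        rw [pow_add, pow_mul, (hi b).mp hb, one_pow]
      rw [inf_eq_left.mpr h1] at hBC
      exact hB1 hBC
    · have h1 : C ≤ B := by
        intro b hb
        rw [hi]
        obtain ⟨t, rfl⟩ := Nat.exists_eq_add_of_le hij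
        rw [pow_add, pow_mul, (hj b).mp hb, one_pow]
      rw [inf_eq_right.mpr h1] at hBC
      exact hC1 hBC
  -- (ii) → (iii)
  have h23 : (∀ B : Subgroup A, Inv X B → ∃ i : ℕ, ∀ a : A, a ∈ B ↔ a ^ p ^ i = 1) →
      ∀ B : Subgroup A, Inv X B → (∀ b ∈ B, b ^ p = 1) → B = ⊥ ∨ ∀ a : A, a ∈ B ↔ a ^ p = 1 := by
    intro h B hB hBp
    obtain ⟨i, hi⟩ := h B hB
    rcases Nat.eq_zero_or_pos i with hi0 | hi0
    · left
      rw [eq_bot_iff]
      intro b hb
      have := (hi b).mp hb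
      rw [hi0, pow_zero, pow_one] at this
      exact this
    · right
      intro a
      refine ⟨hBp a, fun ha => ?_⟩
      rw [hi]
      obtain ⟨t, rfl⟩ := Nat.exists_eq_add_of_le hi0
      rw [pow_add, pow_one, pow_mul, ha, one_pow]
  exact ⟨⟨fun h => h32 (h13 h), h21⟩, ⟨h23, h32⟩⟩

end Cfsg.Agent.S3775
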