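import Cfsg.Statements.S3778
import Mathlib.Tactic

set_option autoImplicit false
open Cfsg
open scoped commutatorElement

namespace Cfsg.Agent.S3778

/-- strict inclusion multiplies the index by at least `p` in a `p`-group. -/
theorem mul_index_le {G : Type*} [Group G] [Finite G] {p : ℕ} [Fact p.Prime] (hG : IsPGroup p G)
    {H K : Subgroup G} (h : H < K) : p * K.index ≤ H.index := by
  obtain ⟨a, ha⟩ := hG.index H
  obtain ⟨b, hb⟩ := hG.index K
  have hlt : K.index < H.index := Subgroup.index_strictAnti h
  rw [ha, hb] at hlt ⊢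
  have hp := (Fact.out : p.Prime).one_lt
  have hba : b < a := (Nat.pow_lt_pow_iff_right hp).mp hlt
  rw [← pow_succ']
  exact Nat.pow_le_pow_right hp.le hba

/-- Centralizer of `γ_i / γ_{i+2}`. -/
def cen (G : Type*) [Group G] (i : ℕ) : Subgroup G :=
  (Subgroup.centralizer ((((⊤ : Subgroup G).lowerCentralSeries i).map
    (QuotientGroup.mk' ((⊤ : Subgroup G).lowerCentralSeries (i+2))) : Subgroup _) :
      Set (G ⧸ (⊤ : Subgroup G).lowerCentralSeries (i+2)))).comap (QuotientGroup.mk' _)

theorem mem_cen {G : Type*} [Group G] (i : ℕ) (x : G) :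
    x ∈ cen G i ↔ ∀ g ∈ (⊤ : Subgroup G).lowerCentralSeries i, g * x * g⁻¹ * x⁻¹ ∈ (⊤ : Subgroup G).lowerCentralSeries (i+2) := by
  unfold cen
  rw [Subgroup.mem_comap, Subgroup.mem_centralizer_iff]
  constructor
  · intro h g hg
    have h1 := h (QuotientGroup.mk' _ g) ⟨g, hg, rfl⟩
    rw [← QuotientGroup.eq_one_iff]
    have h2 : (QuotientGroup.mk g * QuotientGroup.mk x : G ⧸ (⊤ : Subgroup G).lowerCentralSeries (i+2)) = QuotientGroup.mk x * QuotientGroup.mk g := h1
    rw [QuotientGroup.mk_mul, QuotientGroup.mk_mul, QuotientGroup.mk_mul, QuotientGroup.mk_inv, QuotientGroup.mk_inv, h2]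
    group
  · rintro h _ ⟨g, hg, rfl⟩
    have h1 := h g hg
    rw [← QuotientGroup.eq_one_iff] at h1
    rw [QuotientGroup.mk_mul, QuotientGroup.mk_mul, QuotientGroup.mk_mul, QuotientGroup.mk_inv, QuotientGroup.mk_inv] at h1
    have h2 : (QuotientGroup.mk g * QuotientGroup.mk x : G ⧸ (⊤ : Subgroup G).lowerCentralSeries (i+2)) = QuotientGroup.mk x * QuotientGroup.mk g := by
      rw [mul_inv_eq_one, mul_inv_eq_iff_eq_mul] at h1
      exact h1
    exact h2

theorem cen_ne_top {G : Type*} [Group G] [Group.IsNilpotent G] (i : ℕ) (hi : i + 2 ≤ Group.nilpotencyClass G) :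
    cen G i ≠ ⊤ := by
  intro htop
  have h1 : (⊤ : Subgroup G).lowerCentralSeries (i+1) ≤ (⊤ : Subgroup G).lowerCentralSeries (i+2) := by
    rw [Subgroup.lowerCentralSeries_succ, Subgroup.commutator_le]
    intro g hg x _
    have hx : x ∈ cen G i := by rw [htop]; exact Subgroup.mem_top x
    rw [mem_cen] at hx
    exact hx g hg
  have h2 : ∀ k, (⊤ : Subgroup G).lowerCentralSeries (i+1) ≤ (⊤ : Subgroup G).lowerCentralSeries (i+1+k) := by
    intro k
    induction k with
    | zero => exact le_rfl
    | succ k ih =>
      calc (⊤ : Subgroup G).lowerCentralSeries (i+1) ≤ (⊤ : Subgroup G).lowerCentralSeries (i+2) := h1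
        _ = ⁅(⊤ : Subgroup G).lowerCentralSeries (i+1), ⊤⁆ := rfl
        _ ≤ ⁅(⊤ : Subgroup G).lowerCentralSeries (i+1+k), ⊤⁆ := Subgroup.commutator_mono ih le_rfl
        _ = (⊤ : Subgroup G).lowerCentralSeries (i+1+(k+1)) := rfl
  have h3 := h2 (Group.nilpotencyClass G)
  have h4 : (⊤ : Subgroup G).lowerCentralSeries (i+1+Group.nilpotencyClass G) = ⊥ := by
    rw [Subgroup.lowerCentralSeries_eq_bot_iff_nilpotencyClass_le]; omega
  rw [h4, le_bot_iff, Subgroup.lowerCentralSeries_eq_bot_iff_nilpotencyClass_le] at h3
  omega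

theorem count_le {G : Type*} [Group G] [Finite G] {p : ℕ} [Fact p.Prime] (hG : IsPGroup p G) (x : G) (m : ℕ)
    [DecidablePred fun i => x ∉ cen G i] :
    p ^ ((Finset.range m).filter (fun i => x ∉ cen G i)).card ≤
      (Subgroup.centralizer ({x} : Set G) ⊔ (⊤ : Subgroup G).lowerCentralSeries m).index := by
  induction m with
  | zero => simp
  | succ m ih =>
    have hle : Subgroup.centralizer ({x} : Set G) ⊔ (⊤ : Subgroup G).lowerCentralSeries (m+1) ≤
        Subgroup.centralizer ({x} : Set G) ⊔ (⊤ : Subgroup G).lowerCentralSeries m :=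
      sup_le_sup_left ((⊤ : Subgroup G).lowerCentralSeries_antitone (Nat.le_succ m)) _
    rw [Finset.range_add_one, Finset.filter_insert]
    split_ifs with hx
    · exact le_trans ih (Subgroup.index_antitone hle)
    · rw [Finset.card_insert_of_notMem (by simp), pow_succ']
      have hlt : Subgroup.centralizer ({x} : Set G) ⊔ (⊤ : Subgroup G).lowerCentralSeries (m+1) <
        Subgroup.centralizer ({x} : Set G) ⊔ (⊤ : Subgroup G).lowerCentralSeries m := by
        refine lt_of_le_of_ne hle ?_
        intro heq
        apply hx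
        rw [mem_cen]
        intro g hg
        have hg' : g ∈ Subgroup.centralizer ({x} : Set G) ⊔ (⊤ : Subgroup G).lowerCentralSeries (m+1) := by
          rw [heq]; exact Subgroup.mem_sup_right hg
        rw [sup_comm, Subgroup.mem_sup_of_normal_left] at hg'
        obtain ⟨h, hh, c, hc, rfl⟩ := hg'
        rw [Subgroup.mem_centralizer_singleton_iff] at hc
        have h1 : h * c * x * (h * c)⁻¹ * x⁻¹ = ⁅h, x⁆ := by
          rw [mul_assoc h c x, hc, commutatorElement_def]; group
        rw [h1]
        exact Subgroup.commutator_mem_commutator hh (Subgroup.mem_top x)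
      exact le_trans (Nat.mul_le_mul_left p ih) (mul_index_le hG hlt)

/-- If G is a finite p-group in which every conjugacy class has at most p^b elements (every element has centralizer of index at most p^b), then G is abelian when b = 0, and when b ≥ 1 its nilpotency class c satisfies (c − 1)(p − 1) < bp, that is c < bp/(p − 1) + 1, and hence c ≤ 2b. -/
theorem result {G : Type*} [Group G] [Finite G] {p : ℕ} [Fact p.Prime] (hG : IsPGroup p G) (b : ℕ) (hb : ∀ x : G, (Subgroup.centralizer ({x} : Set G)).index ≤ p ^ b) : ∃ c : ℕ, (⊤ : Subgroup G).lowerCentralSeries c = ⊥ ∧ (b ≠ 0 → (c - 1) * (p - 1) < b * p ∧ c ≤ 2 * b) ∧ (b = 0 → c ≤ 1) := by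
  classical
  have hnil : Group.IsNilpotent G := hG.isNilpotent
  have hp := (Fact.out : p.Prime).two_le
  have hp1 := (Fact.out : p.Prime).one_lt
  refine ⟨Group.nilpotencyClass G, Subgroup.lowerCentralSeries_nilpotencyClass, ?_, ?_⟩
  · intro hb0
    set c := Group.nilpotencyClass G with hc
    have hmain : (c - 1) * (p - 1) < b * p := by
      -- counting
      haveI := Fintype.ofFinite G
      let N : G → ℕ := fun x => ((Finset.range (c-1)).filter (fun i => x ∉ cen G i)).card
      have hN : ∀ x, N x ≤ b := by
        intro x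
        have h1 := count_le hG x (c-1)
        have h2 : (Subgroup.centralizer ({x} : Set G) ⊔ (⊤ : Subgroup G).lowerCentralSeries (c-1)).index ≤ (Subgroup.centralizer ({x} : Set G)).index :=
          Subgroup.index_antitone le_sup_left
        have h3 := le_trans h1 (le_trans h2 (hb x))
        exact (Nat.pow_le_pow_iff_right hp1).mp h3
      have hN1 : N 1 = 0 := by
        simp only [N, Finset.card_eq_zero, Finset.filter_eq_empty_iff]
        intro i _
        simp [one_mem]
      have hsum : ∑ x : G, N x = ∑ i ∈ Finset.range (c-1), (Finset.univ.filter (fun x : G => x ∉ cen G i)).card := by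
        simp only [N, Finset.card_filter]
        exact Finset.sum_comm
      have hlow : ∀ i ∈ Finset.range (c-1), (p-1) * Nat.card G ≤ p * (Finset.univ.filter (fun x : G => x ∉ cen G i)).card := by
        intro i hi
        rw [Finset.mem_range] at hi
        have h1 : cen G i < ⊤ := lt_top_iff_ne_top.mpr (cen_ne_top i (by omega))
        have h2 := mul_index_le hG h1
        rw [Subgroup.index_top, mul_one] at h2
        have h3 := (cen G i).card_mul_index
        have h4 : p * Nat.card (cen G i) ≤ Nat.card G := by
          rw [← h3, mul_comm]; exact Nat.mul_le_mul_left _ h2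
        have h5 : (Finset.univ.filter (fun x : G => x ∉ cen G i)).card + Nat.card (cen G i) = Nat.card G := by
          have h6 := Finset.card_filter_add_card_filter_not (s := (Finset.univ : Finset G)) (fun x : G => x ∈ cen G i)
          rw [Finset.card_univ, ← Nat.card_eq_fintype_card] at h6
          have h7 : (Finset.univ.filter (fun x : G => x ∈ cen G i)).card = Nat.card (cen G i) := by
            rw [Nat.card_eq_fintype_card, Fintype.card_subtype]
          omega
        have h8 : p * Nat.card G = (p-1) * Nat.card G + Nat.card G := by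
          obtain ⟨q, rfl⟩ : ∃ q, p = q + 1 := ⟨p - 1, by omega⟩
          simp; ring
        have h9 : p * (Finset.univ.filter (fun x : G => x ∉ cen G i)).card + p * Nat.card (cen G i) = p * Nat.card G := by
          rw [← mul_add, h5]
        omega
      have hlow2 : (c-1) * ((p-1) * Nat.card G) ≤ p * ∑ x : G, N x := by
        rw [hsum, Finset.mul_sum]
        have := Finset.sum_le_sum hlow
        rw [Finset.sum_const, Finset.card_range, smul_eq_mul] at this
        exact this
      have hup : ∑ x : G, N x < Nat.card G * b := by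
        have h1 : ∑ x : G, N x < ∑ x : G, b := by
          apply Finset.sum_lt_sum (fun x _ => hN x) ⟨1, Finset.mem_univ _, ?_⟩
          rw [hN1]; omega
        rw [Finset.sum_const, Finset.card_univ, smul_eq_mul, ← Nat.card_eq_fintype_card] at h1
        exact h1
      have hGpos : 0 < Nat.card G := Nat.card_pos
      have h10 : Nat.card G * ((c-1) * (p-1)) < Nat.card G * (b * p) := by
        calc Nat.card G * ((c-1) * (p-1)) = (c-1) * ((p-1) * Nat.card G) := by ring
          _ ≤ p * ∑ x : G, N x := hlow2
          _ < p * (Nat.card G * b) := Nat.mul_lt_mul_of_pos_left hup (by omega)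
          _ = Nat.card G * (b * p) := by ring
      exact Nat.lt_of_mul_lt_mul_left h10
    refine ⟨hmain, ?_⟩
    have h1 : (c - 1) * (p - 1) < (2 * b) * (p - 1) := by
      refine lt_of_lt_of_le hmain ?_
      obtain ⟨q, rfl⟩ : ∃ q, p = q + 1 := ⟨p - 1, by omega⟩
      simp only [Nat.add_sub_cancel]
      nlinarith
    have h2 := Nat.lt_of_mul_lt_mul_right h1
    omega
  · rintro rfl
    rw [← Subgroup.lowerCentralSeries_eq_bot_iff_nilpotencyClass_le]
    rw [Subgroup.lowerCentralSeries_succ, Subgroup.lowerCentralSeries_zero, Subgroup.commutator_eq_bot_iff_le_centralizer]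
    intro x _
    rw [Subgroup.mem_centralizer_iff]
    intro y _
    have h1 := hb x
    have h2 : (Subgroup.centralizer ({x} : Set G)).index = 1 := by
      have : (Subgroup.centralizer ({x} : Set G)).index ≠ 0 := Subgroup.FiniteIndex.index_ne_zero
      rw [pow_zero] at h1
      omega
    rw [Subgroup.index_eq_one] at h2
    have h3 : y ∈ Subgroup.centralizer ({x} : Set G) := by rw [h2]; exact Subgroup.mem_top y
    rw [Subgroup.mem_centralizer_singleton_iff] at h3
    exact h3

end Cfsg.Agent.S3778
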