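import Cfsg.Statements.S3780
import Cfsg.Agent.Lib.HBBasic

set_option autoImplicit false
open Cfsg

namespace Cfsg.Agent.S3780

open Cfsg.Agent.Lib.HBBasic

/-- Let V be a finite abelian p-group and α an automorphism of V of order p whose fixed-point subgroup has order p^n. Then V can be generated by pn elements: some subset of V with at most pn elements generates V. -/
theorem result {V : Type*} [CommGroup V] [Finite V] {p : ℕ} [Fact p.Prime] (hV : IsPGroup p V) (α : MulAut V) (hα : orderOf α = p) (n : ℕ) (hfix : Nat.card {v : V // α v = v} = p ^ n) : ∃ S : Finset V, S.card ≤ p * n ∧ Subgroup.closure (S : Set V) = ⊤ := by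
  classical
  have hp := (Fact.out : p.Prime)
  obtain ⟨S, hS, hcard⟩ := exists_generating_finset hV
  refine ⟨S, ?_, hS⟩
  -- the power map
  let π : V →* V := powMonoidHom p
  have hπ : ∀ v, π v = v ^ p := fun v => rfl
  set Ω := π.ker with hΩ
  have hΩmem : ∀ v, v ∈ Ω ↔ v ^ p = 1 := by
    intro v; rw [hΩ, MonoidHom.mem_ker, hπ]
  have h1 : π.range ≤ frattini V := by
    rintro _ ⟨v, rfl⟩
    exact pow_mem_frattini hV v
  have h2 : (frattini V).index ≤ π.range.index := Subgroup.index_antitone h1
  have h3 : π.range.index = Nat.card Ω := by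
    have a1 := π.range.index_mul_card
    have a2 := π.ker.index_mul_card
    rw [Subgroup.index_ker] at a2
    have a3 : π.range.index * Nat.card π.range = Nat.card Ω * Nat.card π.range := by
      rw [a1, ← a2, mul_comm]
    exact Nat.eq_of_mul_eq_mul_right Nat.card_pos a3
  -- the map δ = α - 1
  let δ : V →* V := α.toMonoidHom / MonoidHom.id V
  have hδ : ∀ v, δ v = α v / v := fun v => rfl
  have hkerδ : Nat.card δ.ker = p ^ n := by
    rw [← hfix]
    apply Nat.card_congr
    refine Equiv.subtypeEquivRight ?_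
    intro v
    rw [MonoidHom.mem_ker, hδ, div_eq_one]
  let K : ℕ → Subgroup V := fun i => Nat.rec Ω (fun _ H => H.map δ) i
  have hK0 : K 0 = Ω := rfl
  have hKs : ∀ i, K (i+1) = (K i).map δ := fun i => rfl
  have hstep : ∀ i, Nat.card ↥(K i) ≤ Nat.card ↥(K (i+1)) * p ^ n := by
    intro i
    have b1 := Subgroup.relIndex_ker (K := K i) δ
    have b2 : Nat.card ↥(δ.ker ⊓ K i) * (δ.ker ⊓ K i).relIndex (K i) = Nat.card ↥(K i) := by
      have := Subgroup.relIndex_mul_relIndex ⊥ (δ.ker ⊓ K i) (K i) bot_le inf_le_right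
      rwa [Subgroup.relIndex_bot_left, Subgroup.relIndex_bot_left] at this
    rw [Subgroup.inf_relIndex_right, b1] at b2
    rw [hKs, ← b2, mul_comm]
    apply Nat.mul_le_mul_left
    rw [← hkerδ]
    exact Subgroup.card_le_of_le inf_le_left
  have hbound : ∀ i, Nat.card Ω ≤ Nat.card ↥(K i) * p ^ (n * i) := by
    intro i
    induction i with
    | zero => simp [hK0]
    | succ i ih =>
      calc Nat.card Ω ≤ Nat.card ↥(K i) * p ^ (n * i) := ih
        _ ≤ (Nat.card ↥(K (i+1)) * p ^ n) * p ^ (n * i) := Nat.mul_le_mul_right _ (hstep i)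
        _ = _ := by ring
  -- δ^p kills Ω
  let A : AddMonoid.End (Additive V) := MonoidHom.toAdditive α.toMonoidHom
  have hA : ∀ v : V, A (Additive.ofMul v) = Additive.ofMul (α v) := fun v => rfl
  have hApow : ∀ (k : ℕ) (v : V), (A ^ k) (Additive.ofMul v) = Additive.ofMul ((α ^ k) v) := by
    intro k
    induction k with
    | zero => intro v; rfl
    | succ k ih =>
      intro v
      rw [pow_succ, pow_succ]
      change (A ^ k) (A (Additive.ofMul v)) = _
      rw [hA, ih]; rfl
  let D : AddMonoid.End (Additive V) := MonoidHom.toAdditive δ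
  have hD : ∀ v : V, D (Additive.ofMul v) = Additive.ofMul (δ v) := fun v => rfl
  have hAD : A = 1 + D := by
    apply AddMonoidHom.ext
    intro v
    obtain ⟨v, rfl⟩ := Additive.ofMul.surjective v
    change Additive.ofMul (α v) = Additive.ofMul v + Additive.ofMul (δ v)
    rw [hδ, ← ofMul_mul, mul_div_cancel]
  have hmulz : ∀ v ∈ Ω, ∀ (B : AddMonoid.End (Additive V)), ((p : AddMonoid.End (Additive V)) * B) (Additive.ofMul v) = 0 := by
    intro v hv B
    have hv' : p • (Additive.ofMul v) = 0 := by
      rw [← ofMul_pow, (hΩmem v).mp hv, ofMul_one]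
    have : ((p : AddMonoid.End (Additive V)) * B) = p • B := by rw [nsmul_eq_mul]
    rw [this]
    change p • B (Additive.ofMul v) = 0
    rw [← map_nsmul, hv', map_zero]
  have hDp : ∀ v ∈ Ω, (D ^ p) (Additive.ofMul v) = 0 := by
    intro v hv
    obtain ⟨r, hr⟩ := (Commute.one_left D).exists_add_pow_prime_eq hp
    rw [← hAD, one_pow, mul_one, mul_assoc] at hr
    have h9 : (A ^ p) (Additive.ofMul v) = Additive.ofMul v := by
      rw [hApow, ← hα, pow_orderOf_eq_one]; rfl
    rw [hr] at h9
    change Additive.ofMul v + (D ^ p) (Additive.ofMul v) + ((p : AddMonoid.End (Additive V)) * (D * r)) (Additive.ofMul v) = Additive.ofMul v at h9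
    rw [hmulz v hv, add_zero] at h9
    exact add_eq_left.mp h9
  have hKmem : ∀ i, ∀ w ∈ K i, ∃ v ∈ Ω, (D ^ i) (Additive.ofMul v) = Additive.ofMul w := by
    intro i
    induction i with
    | zero => intro w hw; exact ⟨w, hw, rfl⟩
    | succ i ih =>
      rintro w ⟨u, hu, rfl⟩
      obtain ⟨v, hv, hvu⟩ := ih u hu
      refine ⟨v, hv, ?_⟩
      rw [pow_succ']
      change D ((D ^ i) (Additive.ofMul v)) = _
      rw [hvu, hD]
  have hKp : K p = ⊥ := by
    rw [eq_bot_iff]
    intro w hw
    obtain ⟨v, hv, hvw⟩ := hKmem p w hw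
    rw [hDp v hv] at hvw
    rw [Subgroup.mem_bot]
    exact (Additive.ofMul.injective hvw).symm
  have h4 := hbound p
  rw [hKp, Subgroup.card_bot, one_mul] at h4
  have h5 : p ^ S.card ≤ p ^ (n * p) := by
    calc p ^ S.card ≤ (frattini V).index := hcard
      _ ≤ π.range.index := h2
      _ = Nat.card Ω := h3
      _ ≤ _ := h4
  rw [mul_comm p n]
  exact (Nat.pow_le_pow_iff_right hp.one_lt).mp h5

end Cfsg.Agent.S3780
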