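import Cfsg.Statements.S3781
import Cfsg.Agent.Lib.HBBasic

set_option autoImplicit false
open Cfsg
open scoped commutatorElement

namespace Cfsg.Agent.S3781

open Cfsg.Agent.Lib.HBBasic

/-- Let G be a finite p-group and n ≥ 1, and write γ_1(G) = G, γ_{k+1}(G) = [γ_k(G), G], and likewise γ_k(N) for a subgroup N. Let N be a normal subgroup of G contained in γ_n(G). If i > 1 and γ_{i+1}(N) ≠ 1, then |γ_i(N) : γ_{i+1}(N)| ≥ p^n. -/
theorem result {G : Type*} [Group G] [Finite G] {p : ℕ} [Fact p.Prime] (hG : IsPGroup p G) (n : ℕ) (hn : 1 ≤ n) (N : Subgroup G) [N.Normal] (hN : N ≤ (⊤ : Subgroup G).lowerCentralSeries (n - 1)) (i : ℕ) (hi : 1 < i) (hne : N.lowerCentralSeries i ≠ ⊥) : p ^ n ≤ (N.lowerCentralSeries i).relIndex (N.lowerCentralSeries (i - 1)) := by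
  have hnil : Group.IsNilpotent G := hG.isNilpotent
  have hnorm : ∀ k, (N.lowerCentralSeries k).Normal := by
    intro k
    induction k with
    | zero => rw [Subgroup.lowerCentralSeries_zero]; infer_instance
    | succ k ih => rw [Subgroup.lowerCentralSeries_succ]; infer_instance
  obtain ⟨j, rfl⟩ : ∃ j, i = j + 1 := ⟨i - 1, by omega⟩
  rw [Nat.add_sub_cancel]
  set A := N.lowerCentralSeries j with hA
  haveI := hnorm j
  haveI : A.Normal := hnorm j
  have hB : N.lowerCentralSeries (j + 1) ≤ chain A n := by
    rw [Subgroup.lowerCentralSeries_succ]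
    have h1 := commutator_lowerCentralSeries_le (n - 1) A
    rw [Nat.sub_add_cancel hn] at h1
    exact (Subgroup.commutator_mono le_rfl hN).trans h1
  have hstep : ∀ k, k ≤ n → p ^ k * Nat.card (chain A k) ≤ Nat.card A := by
    intro k hk
    induction k with
    | zero => simp [chain_zero]
    | succ k ih =>
      haveI := chain_normal A k
      have hne' : chain A k ≠ ⊥ := by
        intro h
        have h1 : chain A n ≤ chain A k := by
          obtain ⟨m, rfl⟩ := Nat.exists_eq_add_of_le (show k ≤ n by omega)
          rw [← chain_chain]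
          exact chain_le _ _
        rw [h, le_bot_iff] at h1
        rw [h1, le_bot_iff] at hB
        exact hne hB
      have h2 := mul_card_le hG (commutator_top_lt _ hne')
      calc p ^ (k+1) * Nat.card (chain A (k+1)) = p ^ k * (p * Nat.card (chain A (k+1))) := by ring
        _ ≤ p ^ k * Nat.card (chain A k) := Nat.mul_le_mul_left _ h2
        _ ≤ Nat.card A := ih (by omega)
  have h3 := hstep n le_rfl
  have h4 : Nat.card (N.lowerCentralSeries (j+1)) ≤ Nat.card (chain A n) := Subgroup.card_le_of_le hB
  have hle : N.lowerCentralSeries (j+1) ≤ A := N.lowerCentralSeries_antitone (Nat.le_succ j)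
  have h5 : (N.lowerCentralSeries (j+1)).relIndex A * Nat.card (N.lowerCentralSeries (j+1)) = Nat.card A := by
    have := Subgroup.relIndex_mul_relIndex ⊥ (N.lowerCentralSeries (j+1)) A bot_le hle
    rw [Subgroup.relIndex_bot_left, Subgroup.relIndex_bot_left] at this
    rw [mul_comm]; exact this
  have h6 : p ^ n * Nat.card (N.lowerCentralSeries (j+1)) ≤ (N.lowerCentralSeries (j+1)).relIndex A * Nat.card (N.lowerCentralSeries (j+1)) := by
    rw [h5]
    exact (Nat.mul_le_mul_left _ h4).trans h3
  exact Nat.le_of_mul_le_mul_right h6 Nat.card_pos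

end Cfsg.Agent.S3781
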