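import Cfsg.Statements.S3784
import Mathlib.NumberTheory.Fermat
import Mathlib.Tactic

set_option autoImplicit false
open Cfsg

namespace Cfsg.Agent.S3784

theorem odd_geom (x : ℤ) (hx : Odd x) : ∀ n : ℕ, Odd n → Odd (∑ i ∈ Finset.range n, x ^ i) := by
  have key : ∀ n : ℕ, (Even (n:ℤ) ↔ Even (∑ i ∈ Finset.range n, x ^ i)) := by
    intro n
    induction n with
    | zero => simp
    | succ n ih =>
      rw [Finset.sum_range_succ]
      push_cast
      rw [Int.even_add, Int.even_add, ih]
      have h1 : ¬ Even (1 : ℤ) := by decide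
      have h2 : ¬ Even (x ^ n) := by
        rw [Int.not_even_iff_odd]; exact hx.pow
      simp [h1, h2]
  intro n hn
  rw [← Int.not_even_iff_odd, ← key n]
  rw [Int.not_even_iff_odd]
  exact_mod_cast hn

theorem unit_of_odd_dvd (S : ℤ) (hS : Odd S) (k : ℕ) (h : S ∣ 2 ^ k) : S = 1 ∨ S = -1 := by
  have h1 : S.natAbs ∣ 2 ^ k := by
    have := Int.natAbs_dvd_natAbs.mpr h
    simpa [Int.natAbs_pow] using this
  have h2 : Odd S.natAbs := Int.natAbs_odd.mpr hS
  obtain ⟨j, _, hj⟩ := (Nat.dvd_prime_pow Nat.prime_two).mp h1
  rcases Nat.eq_zero_or_pos j with rfl | hj0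
  · rw [pow_zero] at hj
    omega
  · exfalso
    rw [hj] at h2
    have : Even (2 ^ j) := (Nat.even_pow.mpr ⟨by decide, hj0.ne'⟩)
    exact (Nat.not_even_iff_odd.mpr h2) this

/-- Let p, q be primes and a, b positive integers with p^a = q^b + 1. Then either p = 2, b = 1, a is prime and q = 2^a − 1; or q = 2, a = 1, b is a power of 2 and p = 2^b + 1; or p^a = 9 and q^b = 8. -/
theorem result (p q a b : ℕ) (hp : p.Prime) (hq : q.Prime) (ha : 1 ≤ a) (hb : 1 ≤ b) (h : p ^ a = q ^ b + 1) : (p = 2 ∧ b = 1 ∧ a.Prime ∧ q + 1 = 2 ^ a) ∨ (q = 2 ∧ a = 1 ∧ (∃ m : ℕ, b = 2 ^ m) ∧ p = 2 ^ b + 1) ∨ (p ^ a = 9 ∧ q ^ b = 8) := by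
  rcases hp.eq_two_or_odd' with rfl | hpo
  · left
    have hqo : Odd q := by
      rcases hq.eq_two_or_odd' with rfl | hqo
      · exfalso
        have h1 : Even (2 ^ a) := (Nat.even_pow.mpr ⟨by decide, by omega⟩)
        have h2 : Even (2 ^ b) := (Nat.even_pow.mpr ⟨by decide, by omega⟩)
        rw [h] at h1
        exact (Nat.not_even_iff_odd.mpr h2.add_one) h1
      · exact hqo
    have hb1 : b = 1 := by
      rcases Nat.even_or_odd b with hbe | hbo
      · exfalso
        obtain ⟨c, rfl⟩ := hbe
        have h4 : q ^ (c + c) % 4 = 1 := by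
          rw [← two_mul, mul_comm, pow_mul, pow_two]
          have h5 : Odd (q ^ c) := hqo.pow
          obtain ⟨m, hm⟩ := h5
          rw [hm]
          have : (2 * m + 1) * (2 * m + 1) = 4 * (m * m + m) + 1 := by ring
          rw [this]; omega
        have ha1 : a = 1 := by
          by_contra hne
          have h6 : 4 ∣ 2 ^ a := by
            have : (4:ℕ) = 2 ^ 2 := by norm_num
            rw [this]; exact pow_dvd_pow 2 (by omega)
          omega
        subst ha1
        have : q ^ (c+c) = 1 := by omega
        have h7 := hq.two_le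
        have h8 : 2 ≤ q ^ (c + c) := le_trans h7 (Nat.le_self_pow (by omega) q)
        omega
      · have h1 : (∑ i ∈ Finset.range b, (-(q:ℤ)) ^ i) * ((q:ℤ) + 1) = 2 ^ a := by
          have h2 := geom_sum_mul (-(q:ℤ)) b
          rw [hbo.neg_pow] at h2
          have h3 : ((2:ℤ) ^ a) = (q:ℤ) ^ b + 1 := by exact_mod_cast h
          rw [h3]
          linear_combination -h2
        have h2 := odd_geom (-(q:ℤ)) (by have h9 : Odd (q:ℤ) := (by exact_mod_cast hqo); exact h9.neg) b hbo
        rcases unit_of_odd_dvd _ h2 a (Dvd.intro _ h1) with h3 | h3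
        · rw [h3, one_mul] at h1
          have h4 : q + 1 = 2 ^ a := by exact_mod_cast h1
          rw [h] at h4
          have h5 : q ^ 1 = q ^ b := by rw [pow_one]; omega
          exact (Nat.pow_right_injective hq.two_le h5).symm
        · exfalso
          rw [h3] at h1
          have h4 : (0:ℤ) < 2 ^ a := by positivity
          have h5 : (0:ℤ) ≤ (q:ℤ) := by positivity
          omega
    subst hb1
    rw [pow_one] at h
    refine ⟨rfl, rfl, ?_, h.symm⟩
    have h1 : (2 ^ a - 1).Prime := by
      rw [h]; simpa using hq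
    have ha1 : a ≠ 1 := by
      rintro rfl
      have := hq.two_le
      omega
    exact (Nat.prime_of_pow_sub_one_prime ha1 h1).2
  · right
    have hq2 : q = 2 := by
      rcases hq.eq_two_or_odd' with rfl | hqo
      · rfl
      · exfalso
        have h1 : Odd (p ^ a) := hpo.pow
        have h2 : Odd (q ^ b) := hqo.pow
        rw [h] at h1
        exact (Nat.not_even_iff_odd.mpr h1) h2.add_one
    subst hq2
    by_cases ha1 : a = 1
    · left
      subst ha1
      rw [pow_one] at h
      refine ⟨rfl, rfl, ?_, h⟩
      apply Nat.pow_of_pow_add_prime (a := 2) (by norm_num) (by omega)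
      rw [← h]; exact hp
    · right
      rcases Nat.even_or_odd a with hae | hao
      · obtain ⟨c, rfl⟩ := hae
        have hc : 1 ≤ c := by omega
        have hx : 3 ≤ p ^ c := by
          have h3 : 3 ≤ p := by
            have := hp.two_le
            rcases hpo with ⟨m, hm⟩
            omega
          exact le_trans h3 (Nat.le_self_pow (by omega) p)
        obtain ⟨x, hxx⟩ : ∃ x, p ^ c = x + 1 := ⟨p ^ c - 1, by omega⟩
        have hfac : x * (x + 2) = 2 ^ b := by
          have : p ^ (c + c) = (x + 1) * (x + 1) := by rw [pow_add, hxx]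
          rw [this] at h
          have : (x + 1) * (x + 1) = x * (x + 2) + 1 := by ring
          omega
        obtain ⟨i, _, hi⟩ := (Nat.dvd_prime_pow Nat.prime_two).mp (Dvd.intro _ hfac)
        obtain ⟨j, _, hj⟩ := (Nat.dvd_prime_pow Nat.prime_two).mp (Dvd.intro_left _ hfac)
        have hx2 : x = 2 := by
          rcases Nat.lt_or_ge i 2 with hi2 | hi2
          · interval_cases i
            · simp at hi; omega
            · simpa using hi
          · exfalso
            have h4 : 4 ∣ x := by
              rw [hi]; have : (4:ℕ) = 2 ^ 2 := by norm_num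
              rw [this]; exact pow_dvd_pow 2 hi2
            have hj2 : 2 ≤ j := by
              by_contra hlt
              have : j = 0 ∨ j = 1 := by omega
              rcases this with rfl | rfl
              · simp at hj
              · simp at hj; omega
            have h5 : 4 ∣ x + 2 := by
              rw [hj]; have : (4:ℕ) = 2 ^ 2 := by norm_num
              rw [this]; exact pow_dvd_pow 2 hj2
            omega
        subst hx2
        refine ⟨?_, ?_⟩
        · rw [pow_add, hxx]; norm_num
        · omega
      · exfalso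
        have h1 : (∑ i ∈ Finset.range a, ((p:ℤ)) ^ i) * ((p:ℤ) - 1) = 2 ^ b := by
          have h2 := geom_sum_mul ((p:ℤ)) a
          have h3 : ((p:ℤ) ^ a) = 2 ^ b + 1 := by exact_mod_cast h
          rw [h2, h3]; ring
        have h2 := odd_geom ((p:ℤ)) (by exact_mod_cast hpo) a hao
        have h3 : (1:ℤ) < ∑ i ∈ Finset.range a, ((p:ℤ)) ^ i := by
          have : 1 < ∑ i ∈ Finset.range a, p ^ i := by
            have h4 : ({0, 1} : Finset ℕ) ⊆ Finset.range a := by
              intro i hi
              simp at hi
              simp; omega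
            have h5 := Finset.sum_le_sum_of_subset (f := fun i => p ^ i) h4
            simp at h5
            have := hp.two_le
            omega
          exact_mod_cast this
        rcases unit_of_odd_dvd _ h2 b (Dvd.intro _ h1) with h4 | h4
        · omega
        · omega

end Cfsg.Agent.S3784
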