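import Cfsg.Statements.S3785
import Cfsg.Agent.Lib.Fitting
import Cfsg.Agent.Lib.MinAct

set_option autoImplicit false
open Cfsg
open scoped commutatorElement

namespace Cfsg.Agent.S3785

open Subgroup Cfsg.Agent.Lib.Fitting Cfsg.Agent.Lib.MinAct

/-- The join of two commuting nilpotent subgroups is nilpotent. -/
theorem isNilpotent_sup {G : Type*} [Group G] (A B : Subgroup G) (hA : Group.IsNilpotent A)
    (hB : Group.IsNilpotent B) (hAB : ∀ a ∈ A, ∀ b ∈ B, a * b = b * a) :
    Group.IsNilpotent ↥(A ⊔ B) := by
  let f : A × B →* G := (A.subtype).noncommCoprod (B.subtype) (by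
    intro a b
    exact hAB a a.2 b b.2)
  have hf : f.range = A ⊔ B := by
    have := MonoidHom.noncommCoprod_range (A.subtype) (B.subtype) (by
      intro a b
      exact hAB a a.2 b b.2)
    rw [Subgroup.range_subtype, Subgroup.range_subtype] at this
    exact this
  rw [← hf]
  haveI : Group.IsNilpotent (A × B) := inferInstance
  exact Group.nilpotent_of_surjective f.rangeRestrict f.rangeRestrict_surjective

/-- Let G be a finite solvable group whose Fitting subgroup F(G) has odd order. If an element g of G commutes with every element of prime order of F(G), then g ∈ F(G). -/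
theorem result {G : Type*} [Group G] [Finite G] (hG : Group.IsSolvable G) (hodd : Odd (Nat.card (Cfsg.fittingSubgroup G))) (g : G) (hg : ∀ x ∈ Cfsg.fittingSubgroup G, (orderOf x).Prime → g * x = x * g) : g ∈ Cfsg.fittingSubgroup G := by
  classical
  set F := fittingSubgroup G with hF
  haveI hFn : F.Normal := normal_fittingSubgroup
  let C : Subgroup G :=
    { carrier := {g | ∀ x ∈ F, (orderOf x).Prime → g * x = x * g}
      one_mem' := by intro x _ _; simp
      mul_mem' := by
        intro a b ha hb x hx hxp
        rw [mul_assoc, hb x hx hxp, ← mul_assoc, ha x hx hxp, mul_assoc]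
      inv_mem' := by
        intro a ha x hx hxp
        have h1 := ha x hx hxp
        rw [inv_mul_eq_iff_eq_mul, ← mul_assoc, h1, mul_inv_cancel_right] }
  have hCn : C.Normal := by
    constructor
    intro a ha y x hx hxp
    have ha' : ∀ x ∈ F, (orderOf x).Prime → a * x = x * a := ha
    have h1 := ha' (y⁻¹ * x * y) (by
      have := hFn.conj_mem x hx y⁻¹
      simpa using this) (by
      have : orderOf (y⁻¹ * x * y) = orderOf x := by
        have := MulEquiv.orderOf_eq (MulAut.conj y⁻¹) x
        simpa [MulAut.conj_apply] using this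
      rw [this]; exact hxp)
    calc y * a * y⁻¹ * x = y * (a * (y⁻¹ * x * y)) * y⁻¹ := by group
      _ = y * ((y⁻¹ * x * y) * a) * y⁻¹ := by rw [h1]
      _ = x * (y * a * y⁻¹) := by group
  have hgC : g ∈ C := hg
  -- suppose C is not contained in F
  suffices hCF : C ≤ F from hCF hgC
  by_contra hnot
  have hne : ({K : Subgroup G | K.Normal ∧ F < K ∧ K ≤ F ⊔ C}).Nonempty :=
    ⟨F ⊔ C, inferInstance, left_lt_sup.mpr hnot, le_rfl⟩
  obtain ⟨K, hK⟩ := Set.Finite.exists_minimal (Set.toFinite _) hne
  obtain ⟨hKn, hFK, hKC⟩ := hK.prop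
  haveI : K.Normal := hKn
  have hKmin : ∀ L : Subgroup G, L.Normal → F ≤ L → L < K → L = F := by
    intro L hL hFL hLK
    by_contra h
    exact absurd hLK (not_lt_of_ge (hK.le_of_le ⟨hL, lt_of_le_of_ne hFL (fun h' => h h'.symm), hLK.le.trans hKC⟩ hLK.le))
  let f := QuotientGroup.mk' F
  have hf : Function.Surjective f := QuotientGroup.mk'_surjective F
  have hker : f.ker = F := QuotientGroup.ker_mk' F
  -- K/F is a minimal normal subgroup
  haveI hKfn : (K.map f).Normal := hKn.map f hf
  have hKf : K.map f ≠ ⊥ := by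
    rw [Ne, Subgroup.map_eq_bot_iff, hker]
    exact not_le_of_gt hFK
  obtain ⟨_, r, hr, hrpow⟩ := minimal_normal_solvable hKf (inferInstance : Group.IsSolvable ↥(K.map f)) (by
    intro M hM hMK
    have h1 : (M.comap f).Normal := hM.comap f
    have h2 : F ≤ M.comap f := hker.symm.le.trans (Subgroup.ker_le_comap f M)
    have h3 : M.comap f ≤ K := by
      calc M.comap f ≤ (K.map f).comap f := Subgroup.comap_mono hMK
        _ = K := by rw [Subgroup.comap_map_eq, hker, sup_eq_left]; exact hFK.le
    rcases lt_or_eq_of_le h3 with h4 | h4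
    · left
      have h5 := hKmin _ h1 h2 h4
      rw [← Subgroup.map_comap_eq_self_of_surjective hf M, h5, Subgroup.map_eq_bot_iff, hker]
    · right
      rw [← Subgroup.map_comap_eq_self_of_surjective hf M, h4])
  haveI : Fact r.Prime := ⟨hr⟩
  have hKfr : IsPGroup r ↥(K.map f) := by
    intro x
    refine ⟨1, ?_⟩
    rw [pow_one]
    exact Subtype.ext (hrpow x x.2)
  -- L = K ⊓ C
  set L := K ⊓ C with hL
  have hLF : K = L ⊔ F := by
    apply le_antisymm
    · intro x hx
      have h1 := hKC hx
      obtain ⟨y, hy, c, hc, rfl⟩ := Subgroup.mem_sup_of_normal_left.mp h1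
      have hcK : c ∈ K := by
        have := mul_mem (inv_mem (hFK.le hy)) hx
        simpa using this
      exact mul_mem (mem_sup_right hy) (mem_sup_left ⟨hcK, hc⟩)
    · exact sup_le inf_le_left hFK.le
  have hLmap : L.map f = K.map f := by
    conv_rhs => rw [hLF]
    rw [Subgroup.map_sup]
    have : F.map f = ⊥ := by rw [Subgroup.map_eq_bot_iff, hker]
    rw [this, sup_bot_eq]
  -- a Sylow r-subgroup of L covers
  obtain ⟨S⟩ : Nonempty (Sylow r L) := inferInstance
  set R : Subgroup G := (S : Subgroup L).map L.subtype with hR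
  have hRr : IsPGroup r R := S.isPGroup'.map _
  have hRL : R ≤ L := map_subtype_le _
  have hRmap : R.map f = K.map f := by
    have h1 : IsPGroup r ↥(L.map f) := by rw [hLmap]; exact hKfr
    let S' : Sylow r ↥(L.map f) := S.mapSurjective (f.subgroupMap_surjective L)
    have h2 : (S' : Subgroup ↥(L.map f)) = ⊤ := by
      have h3 := h1.to_subgroup ⊤
      exact (S'.is_maximal' h3 le_top).symm
    have h4 : (S : Subgroup L).map (f.subgroupMap L) = ⊤ := h2
    have h5 := congrArg (Subgroup.map (L.map f).subtype) h4
    rw [Subgroup.map_map, ← MonoidHom.range_eq_map, Subgroup.range_subtype] at h5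
    rw [← hLmap, ← h5, hR, Subgroup.map_map]
    rfl
  have hRF : K = R ⊔ F := by
    apply le_antisymm
    · rw [← hker, ← Subgroup.comap_map_eq, hRmap]
      exact Subgroup.le_comap_map f K
    · exact sup_le (hRL.trans inf_le_left) hFK.le
  -- R centralises O_p(G) for p ≠ r
  have hcen : ∀ (p : ℕ) [Fact p.Prime], p ≠ r → R ≤ centralizer (pCore p G : Set G) := by
    intro p hp hpr
    have hpF : pCore p G ≤ F := pCore_le_fittingSubgroup p
    by_cases hp2 : p = 2
    · -- O_2(G) is trivial
      have h1 : pCore p G = ⊥ := by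
        rw [← Subgroup.card_eq_one]
        rcases (isPGroup_pCore (G := G) p).card_eq_or_dvd with h | h
        · exact h
        · exfalso
          have h2 := h.trans (Subgroup.card_dvd_of_le hpF)
          rw [hp2] at h2
          exact (Nat.not_even_iff_odd.mpr hodd) (even_iff_two_dvd.mpr h2)
      rw [h1]
      intro x _
      rw [mem_centralizer_iff]
      intro y hy
      rw [SetLike.mem_coe, Subgroup.mem_bot] at hy
      rw [hy, one_mul, mul_one]
    · haveI : (pCore p G).Normal := normal_pCore p
      apply le_centralizer_of_pow_eq_one hp2 (pCore p G) R (isPGroup_pCore p)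
      · obtain ⟨n, hn⟩ := IsPGroup.iff_card.mp hRr
        rw [hn]
        exact Nat.Coprime.pow_left n ((Nat.coprime_primes hr hp.out).mpr (Ne.symm hpr))
      · exact le_normalizer_of_normal
      · intro x hx hxp a ha
        by_cases hx1 : x = 1
        · rw [hx1, one_mul, mul_one]
        · have h1 : orderOf x = p := orderOf_eq_prime hxp hx1
          have h2 : a ∈ C := (hRL ha).2
          exact h2 x (hpF hx) (by rw [h1]; exact hp.out)
  -- decomposition of F
  set H₁ : Subgroup G := ⨆ p : {p : Nat.Primes // (p : ℕ) ≠ r}, pCore ((p : Nat.Primes) : ℕ) G with hH₁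
  have hFdec : F = H₁ ⊔ pCore r G := by
    rw [hF, fittingSubgroup_eq_iSup_pCore]
    apply le_antisymm
    · apply iSup_le
      intro p
      by_cases hpr : (p : ℕ) = r
      · rw [hpr]; exact le_sup_right
      · exact (le_iSup (fun p : {p : Nat.Primes // (p : ℕ) ≠ r} => pCore ((p : Nat.Primes) : ℕ) G) ⟨p, hpr⟩).trans le_sup_left
    · apply sup_le
      · apply iSup_le
        intro p
        exact le_iSup (fun p : Nat.Primes => pCore (p : ℕ) G) p
      · exact le_iSup (fun p : Nat.Primes => pCore (p : ℕ) G) ⟨r, hr⟩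
  have hH₁F : H₁ ≤ F := by rw [hFdec]; exact le_sup_left
  have hrn : (pCore r G).Normal := normal_pCore r
  have hcen1 : ∀ a ∈ H₁, ∀ b ∈ pCore r G ⊔ R, a * b = b * a := by
    have h1 : H₁ ≤ centralizer ((pCore r G ⊔ R : Subgroup G) : Set G) := by
      rw [← commutator_eq_bot_iff_le_centralizer, commutator_comm, commutator_eq_bot_iff_le_centralizer]
      apply sup_le
      · -- different cores commute
        rw [← commutator_eq_bot_iff_le_centralizer, commutator_comm, commutator_eq_bot_iff_le_centralizer]
        apply iSup_le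
        rintro ⟨p, hpr⟩
        haveI : Fact (p : ℕ).Prime := ⟨p.2⟩
        haveI : (pCore (p : ℕ) G).Normal := normal_pCore _
        rw [← commutator_eq_bot_iff_le_centralizer]
        apply commutator_eq_bot_of_disjoint
        exact IsPGroup.disjoint_of_ne _ _ hpr _ _ (isPGroup_pCore _) (isPGroup_pCore _)
      · rw [← commutator_eq_bot_iff_le_centralizer, commutator_comm, commutator_eq_bot_iff_le_centralizer]
        apply iSup_le
        rintro ⟨p, hpr⟩
        haveI : Fact (p : ℕ).Prime := ⟨p.2⟩
        rw [← commutator_eq_bot_iff_le_centralizer, commutator_comm, commutator_eq_bot_iff_le_centralizer]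
        exact hcen p hpr
    intro a ha b hb
    exact (mem_centralizer_iff.mp (h1 ha) b hb).symm
  have hnil1 : Group.IsNilpotent H₁ := isNilpotent_of_le hH₁F isNilpotent_fittingSubgroup
  have hnil2 : Group.IsNilpotent ↥(pCore r G ⊔ R) := by
    have : IsPGroup r ↥(pCore r G ⊔ R) := IsPGroup.to_sup_of_normal_left (isPGroup_pCore r) hRr
    exact this.isNilpotent
  have hKnil : Group.IsNilpotent K := by
    have h1 : K = H₁ ⊔ (pCore r G ⊔ R) := by
      rw [hRF, hFdec, sup_comm R, sup_assoc]
    rw [h1]
    exact isNilpotent_sup _ _ hnil1 hnil2 hcen1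
  exact absurd (le_fittingSubgroup hKn hKnil) (not_le_of_gt hFK)

end Cfsg.Agent.S3785
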