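import Cfsg.Statements.S3786
import Cfsg.Agent.Lib.HHBlk4

set_option autoImplicit false
open Cfsg

namespace Cfsg.Agent.S3786

open Cfsg.Agent.Lib

/-- The Hall–Higman bound on p-length. Let p be an odd prime and G a finite p-soluble group whose Sylow p-subgroups have exponent dividing p^e. (a) If p is not of the form 2^k + 1, or if the Sylow 2-subgroups of G are abelian, then G has p-length at most e. (b) In every case G has p-length at most 2e. -/
theorem result {G : Type*} [Group G] [Finite G] {p : ℕ} [Fact p.Prime] (hp : p ≠ 2) (hG : Cfsg.IsPSolvable p G) (e : ℕ) (hexp : ∀ (P : Sylow p G), ∀ x ∈ (P : Subgroup G), x ^ p ^ e = 1) : (((¬ ∃ k : ℕ, p = 2 ^ k + 1) ∨ ∀ S : Sylow 2 G, IsMulCommutative (S : Subgroup G)) → Cfsg.PLengthLE p e G) ∧ Cfsg.PLengthLE p (2 * e) G := by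
  have hpp : p.Prime := Fact.out
  have hel := HHExp.pelement_of_sylow hexp
  refine ⟨fun h => ?_, HHBlk.pLength_le_two_exponent hp e hG hel⟩
  refine HHExp.pLength_le_exponent e hG ?_ hel
  intro q n₀ m hq hqp hn₀ hm heq S
  have hqq : q.Prime := Fact.out
  have hodd : Odd p := hpp.odd_of_ne_two hp
  have hpos : 1 ≤ p ^ n₀ := Nat.one_le_pow _ _ hpp.pos
  have hq2 : q = 2 := by
    have h1 : Odd (p ^ n₀) := hodd.pow
    have h2 : Even (q ^ m) := by
      rw [← heq, Nat.even_sub hpos]
      simp [Nat.not_even_iff_odd.2 h1]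
    have h3 : 2 ∣ q := Nat.prime_two.dvd_of_dvd_pow (even_iff_two_dvd.1 h2)
    exact ((Nat.prime_dvd_prime_iff_eq Nat.prime_two hqq).1 h3).symm
  subst hq2
  rcases h with h | h
  · exfalso
    apply h
    have h1 : p - 1 ∣ p ^ n₀ - 1 := by
      have := Nat.sub_dvd_pow_sub_pow p 1 n₀
      rwa [one_pow] at this
    rw [heq] at h1
    obtain ⟨k, -, hk⟩ := (Nat.dvd_prime_pow Nat.prime_two).1 h1
    refine ⟨k, ?_⟩
    have := hpp.one_lt
    omega
  · exact h S

end Cfsg.Agent.S3786
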