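import Cfsg.Statements.S3787
import Cfsg.Agent.Lib.HHWreath
import Cfsg.Agent.Lib.HHExp
import Cfsg.Agent.Lib.Involve

set_option autoImplicit false
open Cfsg

namespace Cfsg.Agent.S3787

open Cfsg.Agent.Lib.HHExp Cfsg.Agent.Lib.HHWreath Cfsg.Agent.Lib.FratRep Cfsg.Agent.Lib.PLength
  Cfsg.Agent.Lib.HallHigman Cfsg.Agent.Lib.Involve

/-- Let G be a finite p-soluble group, p an odd prime not of the form 2^k + 1, and suppose the wreath product C_p ≀ C_p (of order p^(p+1)) is not involved in a Sylow p-subgroup of G: no section of a Sylow p-subgroup is isomorphic to it. Then G has p-length at most 1. -/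
theorem result {G : Type*} [Group G] [Finite G] {p : ℕ} [Fact p.Prime] (hp2 : p ≠ 2) (hnf : (¬ ∃ k : ℕ, p = 2 ^ k + 1)) (hG : Cfsg.IsPSolvable p G) (P : Sylow p G) (hwr : ∀ (W : Type) [Group W] [Finite W], (∃ (B : Subgroup W) (t : W), B.Normal ∧ IsMulCommutative B ∧ (∀ b ∈ B, b ^ p = 1) ∧ Nat.card B = p ^ p ∧ orderOf t = p ∧ t ∉ B ∧ Nat.card W = p ^ (p + 1) ∧ Nat.card ↥(B ⊓ Subgroup.centralizer ({t} : Set W)) = p) → ¬ Cfsg.Involves W ↥(P : Subgroup G)) : Cfsg.PLengthLE p 1 G := by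
  have hp : p.Prime := Fact.out
  apply pLengthLE_of_coprime (pPrimeCore p G) (Cfsg.Agent.Lib.H32Cores.pPrimeCore_coprime p)
  have hsol1 := Cfsg.Agent.Lib.H32PSolv.isPSolvable_quotient hG (pPrimeCore p G)
  have hO := Cfsg.Agent.Lib.Cores.pPrimeCore_quotient_pPrimeCore p G
  set M := pPrimeCore p G with hM
  have hNp : IsPGroup p (pCore p (G ⧸ M)) := Cfsg.Agent.Lib.H32Cores.pCore_isPGroup p
  apply pLengthLE_succ_of_isPGroup (pCore p (G ⧸ M)) hNp
  rw [pLengthLE_zero_iff, Nat.coprime_comm, Nat.Prime.coprime_iff_not_dvd hp]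
  intro hdvd
  obtain ⟨xb, hxb⟩ := exists_prime_orderOf_dvd_card' p hdvd
  have hxbp : xb ^ p = 1 := by
    have h := pow_orderOf_eq_one xb
    rwa [hxb] at h
  obtain ⟨V, i1, i2, i3, ⟨D⟩⟩ := exists_data (p := p) (pCore p (G ⧸ M)) inferInstance hNp
  obtain ⟨σ, hσ, hσρ⟩ := D.exists_quot hsol1 hO
  have hfd : FiniteDimensional (ZMod p) V := Module.Finite.of_finite
  obtain ⟨x, hx, a, hxa⟩ := lift_pelement (pCore p (G ⧸ M)) xb 1 (by rw [pow_one]; exact hxbp)
  have hsol2 := Cfsg.Agent.Lib.H32PSolv.isPSolvable_quotient hsol1 (pCore p (G ⧸ M))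
  have hB := theoremB (F := ZMod p) (V := V) hsol2 (Cfsg.Agent.Lib.Cores.pCore_quotient_pCore p (G ⧸ M)) σ hσ xb 1
    le_rfl (by rw [hxb, pow_one])
  have hnil : (D.ρ x - 1) ^ (p - 1) ≠ 0 := by
    rcases hB with h | ⟨n₀, q, m, h1, h2, h3, h4, h5, h6, _⟩
    · rw [← hx, hσρ, pow_one] at h
      exact h
    · exfalso
      have hn₀ : n₀ = 1 := le_antisymm h2 h1
      rw [hn₀, pow_one] at h6
      have hodd : Odd p := hp.odd_of_ne_two hp2
      have h7 : 2 ∣ q ^ m := by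
        rw [← h6]
        obtain ⟨k, hk⟩ := hodd
        exact ⟨k, by omega⟩
      have h8 : 2 = q := (Nat.prime_dvd_prime_iff_eq Nat.prime_two h3).mp (Nat.prime_two.dvd_of_dvd_pow h7)
      apply hnf
      refine ⟨m, ?_⟩
      rw [← h8] at h6
      have := hp.pos
      omega
  have hxN : x ∉ pCore p (G ⧸ M) := by
    intro h
    have h1 : xb = 1 := by rw [← hx]; exact (QuotientGroup.eq_one_iff _).mpr h
    rw [h1, orderOf_one] at hxb
    exact hp.one_lt.ne hxb
  have hxp : x ^ p ∈ pCore p (G ⧸ M) := by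
    have h1 : QuotientGroup.mk' (pCore p (G ⧸ M)) (x ^ p) = 1 := by
      rw [map_pow, hx]; exact hxbp
    exact (QuotientGroup.eq_one_iff _).mp h1
  obtain ⟨W, iW, iW', f, hf, hprops⟩ := wreath_section D x hxN hxp (fun g hg => (D.ρ_eq_one_iff_mem hsol1 hO g).mpr hg) hnil
  obtain ⟨W₀, iW₀, iW₀', ⟨e⟩⟩ := Finite.exists_type_univ_nonempty_mulEquiv.{_, 0} W
  have hfinW₀ : Finite W₀ := Finite.of_equiv W e.toEquiv
  refine hwr W₀ ?_ ?_
  · obtain ⟨B, t, h1, h2, h3, h4, h5, h6, h7, h8⟩ := hprops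
    refine ⟨B.map e.toMonoidHom, e t, h1.map _ e.surjective, ?_, ?_, ?_, ?_, ?_, ?_, ?_⟩
    · refine ⟨⟨?_⟩⟩
      rintro ⟨_, u, hu, rfl⟩ ⟨_, v, hv, rfl⟩
      apply Subtype.ext
      change e u * e v = e v * e u
      have h9 : u * v = v * u := congrArg Subtype.val (h2.is_comm.comm ⟨u, hu⟩ ⟨v, hv⟩)
      rw [← map_mul, h9, map_mul]
    · rintro _ ⟨b, hb, rfl⟩
      rw [← map_pow, h3 b hb, map_one]
    · rw [Subgroup.card_map_of_injective e.injective, h4]
    · rw [MulEquiv.orderOf_eq, h5]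
    · rintro ⟨b, hb, hbt⟩
      have : b = t := e.injective hbt
      rw [this] at hb
      exact h6 hb
    · rw [← h7]; exact (Nat.card_congr e.toEquiv).symm
    · have h9 : B.map e.toMonoidHom ⊓ Subgroup.centralizer ({e t} : Set W₀) =
          (B ⊓ Subgroup.centralizer ({t} : Set W)).map e.toMonoidHom := by
        ext y
        constructor
        · intro hy
          obtain ⟨⟨b, hb, rfl⟩, hy2⟩ := Subgroup.mem_inf.mp hy
          refine ⟨b, Subgroup.mem_inf.mpr ⟨hb, ?_⟩, rfl⟩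
          rw [Subgroup.mem_centralizer_singleton_iff] at hy2 ⊢
          apply e.injective
          rw [map_mul, map_mul]
          exact hy2
        · rintro ⟨b, hb, rfl⟩
          obtain ⟨hb1, hb2⟩ := Subgroup.mem_inf.mp hb
          refine Subgroup.mem_inf.mpr ⟨⟨b, hb1, rfl⟩, ?_⟩
          rw [Subgroup.mem_centralizer_singleton_iff] at hb2 ⊢
          change e b * e t = e t * e b
          rw [← map_mul, hb2, map_mul]
      rw [h9, Subgroup.card_map_of_injective e.injective, h8]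
  · -- the section
    have h1 : Involves W₀ ↥(pCore p (G ⧸ M) ⊔ Subgroup.zpowers x) :=
      involves_of_equiv e (involves_of_surjective f hf)
    have hxp' : IsPGroup p (Subgroup.zpowers x) := by
      rw [IsPGroup.iff_card]
      obtain ⟨j, _, hj⟩ := (Nat.dvd_prime_pow hp).mp (orderOf_dvd_of_pow_eq_one hxa)
      exact ⟨j, by rw [Nat.card_zpowers, hj]⟩
    have hHp : IsPGroup p ↥(pCore p (G ⧸ M) ⊔ Subgroup.zpowers x) := hNp.to_sup_of_normal_left hxp'
    obtain ⟨P₁, hP₁⟩ := hHp.exists_le_sylow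
    have h2 : Involves ↥(pCore p (G ⧸ M) ⊔ Subgroup.zpowers x) ↥(P₁ : Subgroup (G ⧸ M)) :=
      involves_of_hom (K := (pCore p (G ⧸ M) ⊔ Subgroup.zpowers x).subgroupOf (P₁ : Subgroup (G ⧸ M)))
        (Subgroup.subgroupOfEquivOfLe hP₁).toMonoidHom (Subgroup.subgroupOfEquivOfLe hP₁).surjective
    let P₂ : Sylow p (G ⧸ M) := P.mapSurjective (QuotientGroup.mk'_surjective M)
    have h3 : Involves ↥(P₁ : Subgroup (G ⧸ M)) ↥(P₂ : Subgroup (G ⧸ M)) :=
      involves_of_surjective (P₂.equiv P₁).toMonoidHom (P₂.equiv P₁).surjective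
    have h4 : Involves ↥(P₂ : Subgroup (G ⧸ M)) ↥(P : Subgroup G) := by
      refine involves_of_surjective ((QuotientGroup.mk' M).subgroupMap (P : Subgroup G)) ?_
      exact MonoidHom.subgroupMap_surjective _ _
    exact involves_trans (involves_trans (involves_trans h1 h2) h3) h4

end Cfsg.Agent.S3787
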