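import Cfsg.Statements.S3788
import Cfsg.Agent.Lib.HHExp
import Cfsg.Agent.Lib.Involve
import Cfsg.Agent.Lib.BaerSuzuki
import Cfsg.Agent.Lib.H34S4

set_option autoImplicit false
open Cfsg
open scoped commutatorElement

namespace Cfsg.Agent.S3788

open Module Cfsg.Agent.Lib.HHExp Cfsg.Agent.Lib.FratRep Cfsg.Agent.Lib.PLength Cfsg.Agent.Lib.HHLin
  Cfsg.Agent.Lib.HallHigman Cfsg.Agent.Lib.Involve

universe u

/-- the odd case -/
theorem odd_case {p : ℕ} [hp : Fact p.Prime] (hp2 : p ≠ 2) {G : Type u} [Group G] [Finite G]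
    {N : Subgroup G} [hNn : N.Normal] (hNp : IsPGroup p N) {V : Type u} [AddCommGroup V] [Module (ZMod p) V]
    (D : Data p N V) (hker : ∀ g, D.ρ g = 1 ↔ g ∈ N)
    (a : G) (hap : a ^ p ∈ N)
    (hrange : ∀ v, ∃ s : ZMod p, (D.ρ a - 1) v = s • D.π ⟨a ^ p, hap⟩)
    (q : ℕ) (hq : q.Prime) (hqp : q ≠ p) (Qb : Subgroup (G ⧸ N)) (hQb : IsPGroup q Qb)
    (haQ : QuotientGroup.mk' N a ∈ Subgroup.normalizer (Qb : Set (G ⧸ N)))
    (hmove : ∃ g ∈ Qb, QuotientGroup.mk' N a * g ≠ g * QuotientGroup.mk' N a) : False := by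
  classical
  set ν := D.ρ a - 1 with hν
  set c := D.π ⟨a ^ p, hap⟩ with hc
  have hνc : ν c = 0 := by
    rw [hν, LinearMap.sub_apply, Module.End.one_apply, hc, D.apply, sub_eq_zero]
    congr 1
    apply Subtype.ext
    change a * a ^ p * a⁻¹ = a ^ p
    rw [← pow_succ', pow_succ]; group
  have hν2 : ν ^ 2 = 0 := by
    apply LinearMap.ext
    intro v
    rw [pow_two, Module.End.mul_apply]
    obtain ⟨s, hs⟩ := hrange v
    rw [hs, map_smul, hνc, smul_zero]; rfl
  set f := QuotientGroup.mk' N with hf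
  have hfs : Function.Surjective f := QuotientGroup.mk'_surjective N
  obtain ⟨gb, hgb, hmove⟩ := hmove
  have hqf : Fact q.Prime := ⟨hq⟩
  set M := Qb.comap f with hM
  have hNM : N ≤ M := by
    intro u hu
    rw [hM, Subgroup.mem_comap]
    have : f u = 1 := (QuotientGroup.eq_one_iff u).mpr hu
    rw [this]; exact one_mem _
  obtain ⟨T₀⟩ : Nonempty (Sylow q M) := inferInstance
  obtain ⟨hTM, hTq, hTi⟩ := Cfsg.Agent.Lib.CoprimeAction.sylow_map_subtype_props T₀
  set T : Subgroup G := (T₀ : Subgroup M).map M.subtype with hT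
  have hMT : M ≤ N ⊔ T := by
    have h2 : (N ⊔ T).relIndex M ∣ T.relIndex M := Subgroup.relIndex_dvd_of_le_left M le_sup_right
    have h3 : (N ⊔ T).relIndex M ∣ N.relIndex M := Subgroup.relIndex_dvd_of_le_left M le_sup_left
    have h4 : N.relIndex M = Nat.card Qb := by
      rw [← Cfsg.Agent.Lib.H32PSolv.card_map_mk, ← hf, hM, Subgroup.map_comap_eq_self_of_surjective hfs]
    obtain ⟨j, hj⟩ := IsPGroup.iff_card.mp hQb
    rw [h4, hj] at h3
    obtain ⟨i, _, hi⟩ := (Nat.dvd_prime_pow hq).mp h3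
    have h5 : i = 0 := by
      by_contra hne
      apply hTi
      apply dvd_trans _ h2
      rw [hi]
      exact dvd_pow_self q hne
    rw [h5, pow_zero, Subgroup.relIndex_eq_one] at hi
    exact hi
  have hNT : N ⊓ T = ⊥ := by
    have h1 : (Nat.card N).Coprime (Nat.card T) := by
      obtain ⟨i, hi⟩ := IsPGroup.iff_card.mp hNp
      obtain ⟨j, hj⟩ := IsPGroup.iff_card.mp hTq
      rw [hi, hj]
      exact Nat.Coprime.pow _ _ ((Nat.coprime_primes hp.out hq).mpr (Ne.symm hqp))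
    exact Subgroup.inf_eq_bot_of_coprime h1
  -- Frattini argument
  have haM : ∀ g ∈ M, a * g * a⁻¹ ∈ M := by
    intro g hg
    rw [hM, Subgroup.mem_comap] at hg ⊢
    rw [map_mul, map_mul, map_inv]
    exact (Subgroup.mem_normalizer_iff.mp haQ (f g)).mp hg
  have hTaM : T.map (MulAut.conj a).toMonoidHom ≤ M := by
    rintro _ ⟨t, ht, rfl⟩
    exact haM t (hTM ht)
  obtain ⟨m, hm, hmT⟩ := Cfsg.Agent.Lib.H32Cores.exists_conj_le_of_not_dvd_relIndex hTM hTq hTi hTaM (hTq.map _)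
  -- write m = t⁻¹ n
  obtain ⟨n, hn, t, ht, hnt⟩ : ∃ n ∈ N, ∃ t ∈ T, m = t * n := by
    have h1 : m ∈ T ⊔ N := by rw [sup_comm]; exact hMT hm
    rw [Subgroup.mem_sup_of_normal_right] at h1
    obtain ⟨t, ht, n, hn, h⟩ := h1
    exact ⟨n, hn, t, ht, h.symm⟩
  set a₀ := n * a with ha₀
  have ha₀T : ∀ s ∈ T, a₀ * s * a₀⁻¹ ∈ T := by
    intro s hs
    have h1 : m * (a * s * a⁻¹) * m⁻¹ ∈ T := hmT _ ⟨s, hs, rfl⟩
    have h2 : a₀ * s * a₀⁻¹ = t⁻¹ * (m * (a * s * a⁻¹) * m⁻¹) * t := by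
      rw [ha₀, hnt]; group
    rw [h2]
    exact mul_mem (mul_mem (inv_mem ht) h1) ht
  have ha₀N : a₀ ∈ Subgroup.normalizer (T : Set G) := Cfsg.Agent.Lib.H32Cores.mem_normalizer_of_conj_le ha₀T
  have hρa₀ : D.ρ a₀ = D.ρ a := by
    rw [ha₀, map_mul, (hker n).mpr hn, one_mul]
  obtain ⟨hN1, hπ⟩ := D.pow_formula a ⟨n, hn⟩ p
  have ha₀p : a₀ ^ p ∈ N := by
    have := mul_mem hN1 hap
    rwa [inv_mul_cancel_right] at this
  have hπa₀ : D.π ⟨a₀ ^ p, ha₀p⟩ = c := by
    have h4 : (⟨a₀ ^ p, ha₀p⟩ : N) = ⟨(n * a) ^ p * (a ^ p)⁻¹, hN1⟩ * ⟨a ^ p, hap⟩ := by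
      apply Subtype.ext
      change (n * a) ^ p = (n * a) ^ p * (a ^ p)⁻¹ * a ^ p
      rw [inv_mul_cancel_right]
    have hsum := sum_pow_eq (K := ZMod p) (p := p) (D.ρ a) 1
    rw [pow_one] at hsum
    have h5 : ν ^ (p - 1) = 0 := by
      have h6 : 2 ≤ p - 1 := by
        have := hp.out.two_le
        omega
      obtain ⟨e, he⟩ := Nat.exists_eq_add_of_le h6
      rw [he, pow_add, hν2, zero_mul]
    rw [h4, D.map_mul]
    have h7 : D.π ⟨(n * a) ^ p * (a ^ p)⁻¹, hN1⟩ = 0 := by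
      rw [hπ, hsum, ← hν, h5]; rfl
    rw [h7, zero_add]
  -- T centralises a₀^p
  have hcomm : ∀ s ∈ T, s * a₀ ^ p * s⁻¹ = a₀ ^ p := by
    intro s hs
    have h1 : s * a₀ ^ p * s⁻¹ * (a₀ ^ p)⁻¹ ∈ N ⊓ T := by
      refine Subgroup.mem_inf.mpr ⟨?_, ?_⟩
      · exact mul_mem (hNn.conj_mem _ ha₀p s) (inv_mem ha₀p)
      · have h2 : a₀ ^ p * s⁻¹ * (a₀ ^ p)⁻¹ ∈ T :=
          (Subgroup.mem_normalizer_iff.mp (pow_mem ha₀N p) _).mp (inv_mem hs)
        have h3 : s * a₀ ^ p * s⁻¹ * (a₀ ^ p)⁻¹ = s * (a₀ ^ p * s⁻¹ * (a₀ ^ p)⁻¹) := by group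
        rw [h3]
        exact mul_mem hs h2
    rw [hNT, Subgroup.mem_bot] at h1
    exact mul_inv_eq_one.mp h1
  have hfixc : ∀ s ∈ T, D.ρ s c = c := by
    intro s hs
    rw [← hπa₀, D.apply]
    congr 1
    apply Subtype.ext
    exact hcomm s hs
  have hfixν : ∀ s ∈ T, D.ρ s * ν = ν := by
    intro s hs
    apply LinearMap.ext
    intro v
    rw [Module.End.mul_apply]
    obtain ⟨r, hr⟩ := hrange v
    rw [hr, map_smul, hfixc s hs]
  -- the averaging operator
  have : Fintype T := Fintype.ofFinite T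
  have hTne : (Nat.card T : ZMod p) ≠ 0 := by
    obtain ⟨j, hj⟩ := IsPGroup.iff_card.mp hTq
    rw [hj, Nat.cast_pow]
    apply pow_ne_zero
    intro h
    rw [ZMod.natCast_eq_zero_iff] at h
    exact hqp.symm ((Nat.prime_dvd_prime_iff_eq hp.out hq).mp h)
  set E := ∑ s : T, D.ρ (s : G) with hE
  have hEν : E * ν = (Nat.card T : ZMod p) • ν := by
    rw [hE, Finset.sum_mul, Finset.sum_congr rfl (fun (s : T) _ => hfixν s s.2), Finset.sum_const, Finset.card_univ,
      Nat.card_eq_fintype_card, ← Nat.cast_smul_eq_nsmul (ZMod p)]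
  have hEa : E * D.ρ a = D.ρ a * E := by
    rw [← hρa₀, hE, Finset.sum_mul, Finset.mul_sum]
    let cj : T ≃ T :=
      { toFun := fun s : T => ⟨a₀ * s * a₀⁻¹, ha₀T s s.2⟩
        invFun := fun s : T => ⟨a₀⁻¹ * s * a₀, by
          have := (Subgroup.mem_normalizer_iff.mp (Subgroup.inv_mem _ ha₀N) (s : G)).mp s.2
          rwa [inv_inv] at this⟩
        left_inv := by intro s; apply Subtype.ext; simp only; group
        right_inv := by intro s; apply Subtype.ext; simp only; group }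
    symm
    refine Fintype.sum_equiv cj _ _ (fun s => ?_)
    rw [← map_mul, ← map_mul]
    congr 1
    change a₀ * (s : G) = a₀ * s * a₀⁻¹ * a₀
    group
  have hEν' : E * ν = ν * E := by
    rw [hν, mul_sub, sub_mul, hEa, mul_one, one_mul]
  have hEs : ∀ s ∈ T, E * D.ρ s = E := by
    intro s hs
    rw [hE, Finset.sum_mul]
    refine Fintype.sum_equiv (Equiv.mulRight ⟨s, hs⟩) _ _ (fun r => ?_)
    rw [← map_mul]; rfl
  have hνs : ∀ s ∈ T, ν * D.ρ s = ν := by
    intro s hs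
    have h1 : ν = (Nat.card T : ZMod p)⁻¹ • (ν * E) := by
      rw [← hEν', hEν, smul_smul, inv_mul_cancel₀ hTne, one_smul]
    calc ν * D.ρ s = (Nat.card T : ZMod p)⁻¹ • (ν * E) * D.ρ s := by rw [← h1]
      _ = (Nat.card T : ZMod p)⁻¹ • (ν * (E * D.ρ s)) := by rw [smul_mul_assoc, mul_assoc]
      _ = ν := by rw [hEs s hs, ← h1]
  -- contradiction
  apply hmove
  obtain ⟨g, rfl⟩ := hfs gb
  have hgM : g ∈ M := hgb
  obtain ⟨n', hn', s, hs, hns⟩ : ∃ n' ∈ N, ∃ s ∈ T, g = n' * s := by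
    have h1 : g ∈ N ⊔ T := hMT hgM
    rw [Subgroup.mem_sup_of_normal_left] at h1
    obtain ⟨n', hn', s, hs, h⟩ := h1
    exact ⟨n', hn', s, hs, h.symm⟩
  have hρg : D.ρ g = D.ρ s := by rw [hns, map_mul, (hker n').mpr hn', one_mul]
  have h1 : D.ρ a * D.ρ g = D.ρ g * D.ρ a := by
    have h2 : D.ρ a = ν + 1 := by rw [hν, sub_add_cancel]
    rw [hρg, h2, add_mul, mul_add, hνs s hs, hfixν s hs, one_mul, mul_one]
  have h2 : D.ρ (a * g * (g * a)⁻¹) = 1 := by
    have h3 : D.ρ (a * g) = D.ρ (g * a) := by rw [map_mul, map_mul, h1]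
    rw [map_mul, h3, ← map_mul, mul_inv_cancel, map_one]
  rw [hker] at h2
  have h3 : f (a * g * (g * a)⁻¹) = 1 := (QuotientGroup.eq_one_iff _).mpr h2
  rw [map_mul, map_inv, mul_inv_eq_one, map_mul, map_mul] at h3
  exact h3

theorem z2_two : (2 : ZMod 2) = 0 := by decide

theorem z2_cases : ∀ s : ZMod 2, s = 0 ∨ s = 1 := by decide

/-- one step of the iteration -/
def stp (a b k k' : ZMod 2) (x : ZMod 2 × ZMod 2) : ZMod 2 × ZMod 2 :=
  (x.1 + a + x.2 * k + (b + x.1 * k') * k, x.2 + b + x.1 * k')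

theorem stp_four : ∀ a b k k' : ZMod 2, ¬ (k = 1 ∧ k' = 1) →
    stp a b k k' (stp a b k k' (stp a b k k' (stp a b k k' (0, 0)))) = (0, 0) := by decide

theorem stp_three : ∀ a b : ZMod 2, stp a b 1 1 (stp a b 1 1 (stp a b 1 1 (0, 0))) = (0, 0) := by decide

theorem stp_apply {V : Type u} [AddCommGroup V] [Module (ZMod 2) V] (T : V → V) (φ φ' : V →ₗ[ZMod 2] ZMod 2)
    (c c' : V) (k k' : ZMod 2) (hT : ∀ v, T v = v + (φ v + φ' v * k) • c + φ' v • c') (h1 : φ c = 0)
    (h2 : φ c' = k) (h3 : φ' c = k') (h4 : φ' c' = 0) (v : V) (x : ZMod 2 × ZMod 2) :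
    T (v + x.1 • c + x.2 • c') = v + (stp (φ v) (φ' v) k k' x).1 • c + (stp (φ v) (φ' v) k k' x).2 • c' := by
  rw [hT]
  simp only [map_add, map_smul, h1, h2, h3, h4, smul_eq_mul, mul_zero, add_zero, stp]
  module

theorem iter_four {V : Type u} [AddCommGroup V] [Module (ZMod 2) V] (T : V → V) (φ φ' : V →ₗ[ZMod 2] ZMod 2)
    (c c' : V) (k k' : ZMod 2) (hT : ∀ v, T v = v + (φ v + φ' v * k) • c + φ' v • c') (h1 : φ c = 0)
    (h2 : φ c' = k) (h3 : φ' c = k') (h4 : φ' c' = 0) (hk : ¬ (k = 1 ∧ k' = 1)) (v : V) : T (T (T (T v))) = v := by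
  have h0 : v = v + ((0, 0) : ZMod 2 × ZMod 2).1 • c + ((0, 0) : ZMod 2 × ZMod 2).2 • c' := by simp
  conv_lhs => rw [h0]
  rw [stp_apply T φ φ' c c' k k' hT h1 h2 h3 h4, stp_apply T φ φ' c c' k k' hT h1 h2 h3 h4,
    stp_apply T φ φ' c c' k k' hT h1 h2 h3 h4, stp_apply T φ φ' c c' k k' hT h1 h2 h3 h4, stp_four _ _ _ _ hk]
  simp

theorem iter_three {V : Type u} [AddCommGroup V] [Module (ZMod 2) V] (T : V → V) (φ φ' : V →ₗ[ZMod 2] ZMod 2)
    (c c' : V) (hT : ∀ v, T v = v + (φ v + φ' v * 1) • c + φ' v • c') (h1 : φ c = 0)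
    (h2 : φ c' = 1) (h3 : φ' c = 1) (h4 : φ' c' = 0) (v : V) : T (T (T v)) = v := by
  have h0 : v = v + ((0, 0) : ZMod 2 × ZMod 2).1 • c + ((0, 0) : ZMod 2 × ZMod 2).2 • c' := by simp
  conv_lhs => rw [h0]
  rw [stp_apply T φ φ' c c' 1 1 hT h1 h2 h3 h4, stp_apply T φ φ' c c' 1 1 hT h1 h2 h3 h4,
    stp_apply T φ φ' c c' 1 1 hT h1 h2 h3 h4, stp_three]
  simp

/-- the even case -/
theorem even_case {G : Type u} [Group G] [Finite G]
    {N : Subgroup G} [hNn : N.Normal] (hNp : IsPGroup 2 N) {V : Type u} [AddCommGroup V] [Module (ZMod 2) V]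
    (D : Data 2 N V) (hker : ∀ g, D.ρ g = 1 ↔ g ∈ N)
    (a : G) (haN : a ∉ N) (hap : a ^ 2 ∈ N)
    (hrange : ∀ v, ∃ s : ZMod 2, (D.ρ a - 1) v = s • D.π ⟨a ^ 2, hap⟩)
    (hcore : pCore 2 (G ⧸ N) = ⊥) : Cfsg.Involves (Equiv.Perm (Fin 4)) G := by
  classical
  have h2p : Fact (Nat.Prime 2) := ⟨Nat.prime_two⟩
  set ν := D.ρ a - 1 with hν
  set c := D.π ⟨a ^ 2, hap⟩ with hc
  have hνc : ν c = 0 := by
    rw [hν, LinearMap.sub_apply, Module.End.one_apply, hc, D.apply, sub_eq_zero]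
    congr 1
    apply Subtype.ext
    change a * a ^ 2 * a⁻¹ = a ^ 2
    rw [← pow_succ', pow_succ]; group
  have hν0 : ν ≠ 0 := by
    intro h
    apply haN
    rw [← hker]
    rwa [hν, sub_eq_zero] at h
  have hc0 : c ≠ 0 := by
    intro h
    apply hν0
    apply LinearMap.ext
    intro v
    obtain ⟨s, hs⟩ := hrange v
    rw [hs, h, smul_zero]; rfl
  have hψ : ∃ ψ : Module.Dual (ZMod 2) V, ψ c = 1 := by
    have h1 : ¬ ∀ φ : Module.Dual (ZMod 2) V, φ c = 0 := by
      rw [Module.forall_dual_apply_eq_zero_iff (ZMod 2)]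
      exact hc0
    push Not at h1
    obtain ⟨φ, hφ⟩ := h1
    refine ⟨(φ c)⁻¹ • φ, ?_⟩
    rw [LinearMap.smul_apply, smul_eq_mul, inv_mul_cancel₀ hφ]
  obtain ⟨ψ, hψ⟩ := hψ
  set φ : Module.Dual (ZMod 2) V := ψ ∘ₗ ν with hφdef
  have hφ : ∀ v, D.ρ a v = v + φ v • c := by
    intro v
    obtain ⟨s, hs⟩ := hrange v
    have h1 : φ v = s := by
      rw [hφdef, LinearMap.comp_apply, hs, map_smul, hψ, smul_eq_mul, mul_one]
    rw [h1, ← hs, hν, LinearMap.sub_apply, Module.End.one_apply]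
    abel
  have hφc : φ c = 0 := by rw [hφdef, LinearMap.comp_apply, hνc, map_zero]
  have hρinv : ∀ g v, D.ρ g (D.ρ g⁻¹ v) = v := by
    intro g v
    rw [← Module.End.mul_apply, ← map_mul, mul_inv_cancel, map_one]; rfl
  have hρinv' : ∀ g v, D.ρ g⁻¹ (D.ρ g v) = v := by
    intro g v
    rw [← Module.End.mul_apply, ← map_mul, inv_mul_cancel, map_one]; rfl
  have hconj : ∀ g v, D.ρ (g * a * g⁻¹) v = v + φ (D.ρ g⁻¹ v) • D.ρ g c := by
    intro g v
    rw [map_mul, map_mul, Module.End.mul_apply, Module.End.mul_apply, hφ, map_add, map_smul, hρinv]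
  have h2V : ∀ v : V, v + v = 0 := by
    intro v
    have : (2 : ZMod 2) • v = v + v := two_smul _ v
    rw [← this, z2_two, zero_smul]
  set f := QuotientGroup.mk' N with hf
  have hfs : Function.Surjective f := QuotientGroup.mk'_surjective N
  have hfa1 : f a ≠ 1 := fun h => haN ((QuotientGroup.eq_one_iff _).mp h)
  have hfa2 : f a ^ 2 = 1 := by
    rw [← map_pow]; exact (QuotientGroup.eq_one_iff _).mpr hap
  have hfaord : orderOf (f a) = 2 := orderOf_eq_prime hfa2 hfa1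
  -- existence of g
  have hexg : ∃ g : G, φ (D.ρ g c) = 1 ∧ φ (D.ρ g⁻¹ c) = 1 := by
    by_contra hcon
    push Not at hcon
    have hpz : IsPGroup 2 (Subgroup.zpowers (f a)) := by
      apply IsPGroup.of_card (n := 1)
      rw [Nat.card_zpowers, hfaord, pow_one]
    obtain ⟨L, hL, hLp, hle⟩ := Cfsg.Agent.Lib.BaerSuzuki.baer_suzuki (p := 2) (Subgroup.zpowers (f a)) hpz (by
      intro gb
      obtain ⟨g, rfl⟩ := hfs gb
      set s := f g * f a * (f g)⁻¹ with hs
      have hs2 : orderOf s = 2 := by rw [hs]; exact (Cfsg.Agent.Lib.Involutions.orderOf_conj _ _).trans hfaord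
      have h4 : (f a * s) ^ 4 = 1 := by
        have h5 : D.ρ ((a * (g * a * g⁻¹)) ^ 4) = 1 := by
          rw [map_pow]
          have hz : ∀ v, D.ρ (a * (g * a * g⁻¹)) v =
              v + (φ v + φ (D.ρ g⁻¹ v) * φ (D.ρ g c)) • c + φ (D.ρ g⁻¹ v) • D.ρ g c := by
            intro v
            rw [map_mul, Module.End.mul_apply, hconj, hφ, map_add, map_smul, smul_eq_mul]
            abel
          have hgc : φ (D.ρ g⁻¹ (D.ρ g c)) = 0 := by rw [hρinv', hφc]
          apply LinearMap.ext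
          intro v
          exact iter_four (D.ρ (a * (g * a * g⁻¹))) φ (φ ∘ₗ D.ρ g⁻¹) c (D.ρ g c) _ _ hz hφc rfl rfl hgc
            (fun h => hcon g h.1 h.2) v
        rw [hker] at h5
        have h6 : f ((a * (g * a * g⁻¹)) ^ 4) = 1 := (QuotientGroup.eq_one_iff _).mpr h5
        rw [map_pow, map_mul, map_mul, map_mul, map_inv] at h6
        exact h6
      obtain ⟨m, _, hm⟩ := (Nat.dvd_prime_pow Nat.prime_two).mp
        (orderOf_dvd_of_pow_eq_one (show (f a * s) ^ (2 ^ 2) = 1 by simpa using h4))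
      have h1 := Cfsg.Agent.Lib.InvLocal.isPGroup_closure_pair hfaord hs2 hm
      refine h1.to_le (sup_le ?_ ?_)
      · rw [Subgroup.zpowers_le]
        exact Subgroup.subset_closure (by simp)
      · intro y hy
        rw [Cfsg.Agent.Lib.BaerSuzuki.mem_conj_smul_iff] at hy
        obtain ⟨k, hk⟩ := hy
        simp only at hk
        have e : y = s ^ k := by
          rw [hs, conj_zpow, hk]
          group
        rw [e]
        exact zpow_mem (Subgroup.subset_closure (by simp)) k)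
    have h1 : Subgroup.zpowers (f a) ≤ pCore 2 (G ⧸ N) := hle.trans (Cfsg.Agent.Lib.H32Cores.le_pCore 2 hL hLp)
    rw [hcore, Subgroup.zpowers_le, Subgroup.mem_bot] at h1
    exact hfa1 h1
  obtain ⟨g, hg1, hg2⟩ := hexg
  set s := g * a * g⁻¹ with hs
  set c' := D.ρ g c with hc'
  have hφ'c' : φ (D.ρ g⁻¹ c') = 0 := by rw [hc', hρinv', hφc]
  -- the action on V
  have hρs : ∀ v, D.ρ s v = v + φ (D.ρ g⁻¹ v) • c' := fun v => hconj g v
  have hd : ∀ v, D.ρ (a * s) v = v + (φ v + φ (D.ρ g⁻¹ v) * 1) • c + φ (D.ρ g⁻¹ v) • c' := by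
    intro v
    rw [map_mul, Module.End.mul_apply, hρs, hφ, map_add, map_smul, smul_eq_mul, hg1]
    abel
  have ha2 : ∀ v, D.ρ a (D.ρ a v) = v := by
    intro v
    rw [hφ, hφ, map_add, map_smul, hφc, smul_zero, add_zero, add_assoc, h2V, add_zero]
  have hs2 : ∀ v, D.ρ s (D.ρ s v) = v := by
    intro v
    rw [hρs, hρs, map_add, map_smul, map_add, map_smul, hφ'c', smul_zero, add_zero, add_assoc, h2V, add_zero]
  have hd3 : ∀ v, D.ρ (a * s) (D.ρ (a * s) (D.ρ (a * s) v)) = v :=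
    iter_three (D.ρ (a * s)) φ (φ ∘ₗ D.ρ g⁻¹) c c' hd hφc hg1 hg2 hφ'c'
  -- the quotient by the Frattini subgroup
  set F : Subgroup G := (frattini N).map N.subtype with hF
  have hFn : F.Normal := by
    have := frattini_characteristic (G := N)
    infer_instance
  set V' : Subgroup (G ⧸ F) := N.map (QuotientGroup.mk' F) with hV'
  have hV'n : V'.Normal := hNn.map _ (QuotientGroup.mk'_surjective F)
  have hV'p : IsPGroup 2 V' := hNp.map _
  let m : N →* V' := (QuotientGroup.mk' F).subgroupMap N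
  have hms : Function.Surjective m := MonoidHom.subgroupMap_surjective _ _
  have hm1 : ∀ u : N, m u = 1 ↔ u ∈ frattini N := by
    intro u
    have h1 : m u = 1 ↔ QuotientGroup.mk' F (u : G) = 1 := by
      constructor
      · intro h; exact congrArg Subtype.val h
      · intro h; exact Subtype.ext h
    rw [h1]
    have h2 : QuotientGroup.mk' F (u : G) = 1 ↔ (u : G) ∈ F := QuotientGroup.eq_one_iff _
    rw [h2]
    constructor
    · rintro ⟨w, hw, hwu⟩
      have : w = u := Subtype.ext hwu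
      rw [← this]; exact hw
    · intro h
      exact ⟨u, h, rfl⟩
  let P : N →* Multiplicative V :=
    { toFun := fun u => Multiplicative.ofAdd (D.π u)
      map_one' := by rw [D.map_one]; rfl
      map_mul' := by intro a b; rw [D.map_mul]; rfl }
  have hPs : Function.Surjective P := by
    intro v
    obtain ⟨u, hu⟩ := D.surj (Multiplicative.toAdd v)
    exact ⟨u, congrArg Multiplicative.ofAdd hu⟩
  have hkers : m.ker = P.ker := by
    ext u
    rw [MonoidHom.mem_ker, MonoidHom.mem_ker, hm1, ← D.map_eq_zero]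
    exact Iff.rfl
  let e : V' ≃* Multiplicative V :=
    ((QuotientGroup.quotientKerEquivOfSurjective m hms).symm.trans (QuotientGroup.quotientMulEquivOfEq hkers)).trans
      (QuotientGroup.quotientKerEquivOfSurjective P hPs)
  have he : ∀ u, e (m u) = P u := by
    intro u
    have h1 : (QuotientGroup.quotientKerEquivOfSurjective m hms).symm (m u) = QuotientGroup.mk u := by
      rw [MulEquiv.symm_apply_eq]; rfl
    change (QuotientGroup.quotientKerEquivOfSurjective P hPs) (QuotientGroup.quotientMulEquivOfEq hkers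
      ((QuotientGroup.quotientKerEquivOfSurjective m hms).symm (m u))) = P u
    rw [h1]; rfl
  let E : V' → V := fun v => Multiplicative.toAdd (e v)
  have hEm : ∀ u, E (m u) = D.π u := by
    intro u
    change Multiplicative.toAdd (e (m u)) = _
    rw [he]; rfl
  have hEinj : Function.Injective E := e.injective
  have hEsurj : Function.Surjective E := e.surjective
  have hconjE : ∀ (h : G) (v : V'), E ((MulAut.conjNormal (QuotientGroup.mk' F h) : MulAut V') v) = D.ρ h (E v) := by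
    intro h v
    obtain ⟨u, rfl⟩ := hms v
    rw [hEm, D.apply, ← hEm]
    congr 1
  set β : MulAut V' := MulAut.conjNormal (QuotientGroup.mk' F a) with hβ
  set ξ : MulAut V' := MulAut.conjNormal (QuotientGroup.mk' F (a * s)) with hξ
  have hβE : ∀ v, E (β v) = D.ρ a (E v) := hconjE a
  have hξE : ∀ v, E (ξ v) = D.ρ (a * s) (E v) := hconjE (a * s)
  -- the four-group
  have hcc' : LinearIndependent (ZMod 2) ![c, c'] := by
    rw [LinearIndependent.pair_iff]
    intro x y hxy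
    have h1 := congrArg φ hxy
    rw [map_add, map_smul, map_smul, hφc, hg1, map_zero, smul_zero, zero_add, smul_eq_mul, mul_one] at h1
    rw [h1, zero_smul, add_zero] at hxy
    rcases smul_eq_zero.mp hxy with h2 | h2
    · exact ⟨h2, h1⟩
    · exact absurd h2 hc0
  set S : Submodule (ZMod 2) V := Submodule.span (ZMod 2) (Set.range ![c, c']) with hS
  have hcS : c ∈ S := Submodule.subset_span ⟨0, rfl⟩
  have hc'S : c' ∈ S := Submodule.subset_span ⟨1, rfl⟩
  have hScard : Nat.card S = 4 := by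
    have h1 : finrank (ZMod 2) S = 2 := by
      rw [hS, finrank_span_eq_card hcc']; rfl
    have h2 : Module.Finite (ZMod 2) S := Module.Finite.span_of_finite _ (Set.finite_range _)
    rw [Module.natCard_eq_pow_finrank (K := ZMod 2), h1, Nat.card_zmod]
    norm_num
  have hSmem : ∀ v ∈ S, ∃ x y : ZMod 2, v = x • c + y • c' := by
    intro v hv
    have h1 : Set.range ![c, c'] = {c, c'} := by
      ext z; simp [Matrix.range_cons]; exact or_comm
    rw [hS, h1, Submodule.mem_span_pair] at hv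
    obtain ⟨x, y, h⟩ := hv
    exact ⟨x, y, h.symm⟩
  let W : Subgroup V' :=
    { carrier := {v | E v ∈ S}
      one_mem' := by
        have : E 1 = 0 := by change Multiplicative.toAdd (e 1) = 0; rw [map_one]; rfl
        change E 1 ∈ S
        rw [this]; exact S.zero_mem
      mul_mem' := by
        intro x y hx hy
        have : E (x * y) = E x + E y := by change Multiplicative.toAdd (e (x * y)) = _; rw [map_mul]; rfl
        change E (x * y) ∈ S
        rw [this]; exact S.add_mem hx hy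
      inv_mem' := by
        intro x hx
        have : E x⁻¹ = - E x := by change Multiplicative.toAdd (e x⁻¹) = _; rw [map_inv]; rfl
        change E x⁻¹ ∈ S
        rw [this]; exact S.neg_mem hx }
  have hWmem : ∀ v, v ∈ W ↔ E v ∈ S := fun v => Iff.rfl
  refine Cfsg.Agent.Lib.H34S4.involves_of_involves_quotient F
    (Cfsg.Agent.Lib.H34S4.involves_S4_of_aut V' hV'p β ξ ⟨_, rfl⟩ ⟨_, rfl⟩ W ?_ ?_ ?_ ?_ ?_ ?_ ?_)
  · intro h
    obtain ⟨v, hv⟩ := hEsurj c'
    have h1 := hξE v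
    rw [h, hv] at h1
    change E v = _ at h1
    rw [hv, hd, hφ'c', hg1, zero_mul, add_zero, one_smul, zero_smul, add_zero] at h1
    apply hc0
    exact (left_eq_add.mp h1)
  · ext v
    congr 1
    apply hEinj
    rw [pow_succ, pow_two]
    change E (ξ (ξ (ξ v))) = E v
    rw [hξE, hξE, hξE, hd3]
  · have hβ2 : β * β = 1 := by
      ext v
      congr 1
      apply hEinj
      change E (β (β v)) = E v
      rw [hβE, hβE, ha2]
    have h1 : β * ξ * β * ξ = 1 := by
      ext v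
      congr 1
      apply hEinj
      change E (β (ξ (β (ξ v)))) = E v
      rw [hβE, hξE, hβE, hξE, map_mul, Module.End.mul_apply, Module.End.mul_apply, ha2, ha2, hs2]
    have h2 : β⁻¹ = β := inv_eq_of_mul_eq_one_left hβ2
    rw [h2]
    exact eq_inv_of_mul_eq_one_left h1
  · rw [← hScard]
    refine Nat.card_congr (Equiv.ofBijective (fun w : W => (⟨E w, w.2⟩ : S)) ⟨?_, ?_⟩)
    · intro x y hxy
      apply Subtype.ext
      exact hEinj (congrArg Subtype.val hxy)
    · rintro ⟨v, hv⟩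
      obtain ⟨w, rfl⟩ := hEsurj v
      exact ⟨⟨w, hv⟩, rfl⟩
  · intro w hw
    rw [hWmem] at hw ⊢
    rw [hξE, hd]
    exact S.add_mem (S.add_mem hw (S.smul_mem _ hcS)) (S.smul_mem _ hc'S)
  · intro w hw
    rw [hWmem] at hw ⊢
    rw [hβE, hφ]
    exact S.add_mem hw (S.smul_mem _ hcS)
  · intro w hw hξw
    rw [hWmem] at hw
    have h1 := hξE w
    rw [hξw] at h1
    obtain ⟨x, y, hxy⟩ := hSmem _ hw
    have hx : φ (D.ρ g⁻¹ (E w)) = x := by
      rw [hxy, map_add, map_smul, map_smul, map_add, map_smul, map_smul, hg2, hφ'c', smul_zero, add_zero,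
        smul_eq_mul, mul_one]
    have hy : φ (E w) = y := by
      rw [hxy, map_add, map_smul, map_smul, hφc, hg1, smul_zero, zero_add, smul_eq_mul, mul_one]
    rw [hd, hx, hy, mul_one, add_assoc, left_eq_add] at h1
    rw [LinearIndependent.pair_iff] at hcc'
    obtain ⟨h2, h3⟩ := hcc' _ _ h1
    rw [h3, add_zero] at h2
    apply hEinj
    rw [hxy, h2, h3, zero_smul, zero_smul, add_zero]
    change 0 = Multiplicative.toAdd (e 1)
    rw [map_one]; rfl

/-- the reduced case -/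
theorem reduced {p : ℕ} [hp : Fact p.Prime] {G : Type u} [Group G] [Finite G] (hG : Cfsg.IsPSolvable p G)
    (hO : pPrimeCore p G = ⊥) (P : Sylow p G) (A : Subgroup G) (hAP : A ≤ (P : Subgroup G))
    (hAn : (P : Subgroup G) ≤ Subgroup.normalizer (A : Set G)) (hA : IsCyclic A)
    (h : p ≠ 2 ∨ ¬ Cfsg.Involves (Equiv.Perm (Fin 4)) G) : A ≤ pCore p G := by
  classical
  have hNp : IsPGroup p (pCore p G) := Cfsg.Agent.Lib.H32Cores.pCore_isPGroup p
  by_contra hcon
  -- the generator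
  obtain ⟨⟨a₀, ha₀⟩, hgen⟩ := hA.exists_generator
  have hAz : A = Subgroup.zpowers a₀ := by
    apply le_antisymm
    · intro x hx
      obtain ⟨k, hk⟩ := Subgroup.mem_zpowers_iff.mp (hgen ⟨x, hx⟩)
      exact Subgroup.mem_zpowers_iff.mpr ⟨k, congrArg Subtype.val hk⟩
    · rwa [Subgroup.zpowers_le]
  have ha₀N : a₀ ∉ pCore p G := by
    intro h'
    apply hcon
    rw [hAz, Subgroup.zpowers_le]; exact h'
  have hPp : IsPGroup p (P : Subgroup G) := P.2
  -- a power
  have hex : ∃ k : ℕ, a₀ ^ (p ^ k) ∈ pCore p G := by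
    obtain ⟨k, hk⟩ := hPp ⟨a₀, hAP ha₀⟩
    refine ⟨k, ?_⟩
    have : a₀ ^ p ^ k = 1 := congrArg Subtype.val hk
    rw [this]; exact one_mem _
  obtain ⟨k, hk⟩ : ∃ k, Nat.find hex = k + 1 := by
    apply Nat.exists_eq_succ_of_ne_zero
    intro h0
    have := Nat.find_spec hex
    rw [h0, pow_zero, pow_one] at this
    exact ha₀N this
  set a := a₀ ^ (p ^ k) with ha
  have haN : a ∉ pCore p G := Nat.find_min hex (by rw [hk]; exact Nat.lt_succ_self k)
  have hap : a ^ p ∈ pCore p G := by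
    have := Nat.find_spec hex
    rw [hk, pow_succ, pow_mul] at this
    exact this
  have haA : a ∈ A := A.pow_mem ha₀ _
  -- zpowers a is normalized by P
  have hconj : ∀ u ∈ (P : Subgroup G), u * a * u⁻¹ ∈ Subgroup.zpowers a := by
    intro u hu
    have h1 : u * a₀ * u⁻¹ ∈ A := (Subgroup.mem_normalizer_iff.mp (hAn hu) a₀).mp ha₀
    rw [hAz] at h1
    obtain ⟨j, hj⟩ := Subgroup.mem_zpowers_iff.mp h1
    rw [Subgroup.mem_zpowers_iff]
    refine ⟨j, ?_⟩
    rw [ha, ← conj_pow, ← hj, ← zpow_natCast, ← zpow_natCast, ← zpow_mul, ← zpow_mul, mul_comm]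
  have hNP : pCore p G ≤ (P : Subgroup G) := Cfsg.Agent.Lib.Cores.pCore_le_sylow P
  obtain ⟨V, i1, i2, i3, ⟨D⟩⟩ := exists_data (p := p) (pCore p G) inferInstance hNp
  have hker := D.ρ_eq_one_iff_mem hG hO
  have hrange : ∀ v, ∃ s : ZMod p, (D.ρ a - 1) v = s • D.π ⟨a ^ p, hap⟩ := by
    intro v
    obtain ⟨u, rfl⟩ := D.surj v
    have hu : a * (u : G) * a⁻¹ * (u : G)⁻¹ ∈ Subgroup.zpowers a := by
      have h1 := hconj u (hNP u.2)
      have h2 : a * (u : G) * a⁻¹ * (u : G)⁻¹ = a * ((u : G) * a * (u : G)⁻¹)⁻¹ := by group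
      rw [h2]
      exact mul_mem (Subgroup.mem_zpowers a) (inv_mem h1)
    have huN : a * (u : G) * a⁻¹ * (u : G)⁻¹ ∈ pCore p G :=
      mul_mem (D.conj_mem a u) (inv_mem u.2)
    obtain ⟨j, hj⟩ := Subgroup.mem_zpowers_iff.mp hu
    have hpj : (p : ℤ) ∣ j := by
      by_contra hnd
      have h1 : IsCoprime (p : ℤ) j := (Nat.prime_iff_prime_int.mp hp.out).coprime_iff_not_dvd.mpr hnd
      obtain ⟨r, s, hrs⟩ := h1
      apply haN
      have h2 : a = (a ^ p) ^ r * (a ^ j) ^ s := by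
        rw [← zpow_natCast, ← zpow_mul, ← zpow_mul, ← zpow_add, mul_comm (p : ℤ) r, mul_comm j s, hrs, zpow_one]
      rw [h2]
      refine mul_mem (zpow_mem hap _) (zpow_mem ?_ _)
      rw [hj]; exact huN
    obtain ⟨m, rfl⟩ := hpj
    refine ⟨(m : ZMod p), ?_⟩
    rw [LinearMap.sub_apply, Module.End.one_apply, D.apply]
    have h3 : (⟨a * (u : G) * a⁻¹, D.conj_mem a u⟩ : pCore p G) = (⟨a ^ p, hap⟩ : pCore p G) ^ m * u := by
      apply Subtype.ext
      change a * (u : G) * a⁻¹ = (a ^ p) ^ m * (u : G)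
      rw [← zpow_natCast, ← zpow_mul, hj]
      group
    let Pm : pCore p G →* Multiplicative V :=
      { toFun := fun u => Multiplicative.ofAdd (D.π u)
        map_one' := by rw [D.map_one]; rfl
        map_mul' := fun x y => by rw [D.map_mul]; rfl }
    have h4 : D.π ((⟨a ^ p, hap⟩ : pCore p G) ^ m) = m • D.π ⟨a ^ p, hap⟩ := by
      have h5 := map_zpow Pm (⟨a ^ p, hap⟩ : pCore p G) m
      exact congrArg Multiplicative.toAdd h5
    rw [h3, D.map_mul, h4, add_sub_cancel_right, Int.cast_smul_eq_zsmul]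
  have hcore := Cfsg.Agent.Lib.Cores.pCore_quotient_pCore p G
  by_cases hp2 : p = 2
  · subst hp2
    exact (h.resolve_left (fun h => h rfl)) (even_case hNp D hker a haN hap hrange hcore)
  · have hsol := Cfsg.Agent.Lib.H32PSolv.isPSolvable_quotient hG (pCore p G)
    obtain ⟨q, Q, hq, hqp, hQ, hn, hm⟩ := exists_moved hsol hcore (QuotientGroup.mk' (pCore p G) a)
      (QuotientGroup.mk' (pCore p G) a) 1 (by
        rw [pow_one, ← map_pow]
        exact (QuotientGroup.eq_one_iff _).mpr hap) (Subgroup.mem_zpowers _) (by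
        intro h1
        exact haN ((QuotientGroup.eq_one_iff _).mp h1))
    exact odd_case hp2 hNp D hker a hap hrange q hq hqp Q hQ hn hm

/-- Let G be a finite p-soluble group, P a Sylow p-subgroup of G and A a cyclic normal subgroup of P. If p is odd, or if no section of G is isomorphic to the symmetric group of degree 4, then A ≤ O_{p',p}(G). -/
theorem result {G : Type*} [Group G] [Finite G] {p : ℕ} [Fact p.Prime] (hG : Cfsg.IsPSolvable p G) (P : Sylow p G) (A : Subgroup G) (hAP : A ≤ (P : Subgroup G)) (hAn : (P : Subgroup G) ≤ Subgroup.normalizer (A : Set G)) (hA : IsCyclic A) (h : p ≠ 2 ∨ ¬ Cfsg.Involves (Equiv.Perm (Fin 4)) G) : A ≤ Cfsg.pPrimePCore p G := by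
  classical
  set f := QuotientGroup.mk' (pPrimeCore p G) with hf
  have hfs : Function.Surjective f := QuotientGroup.mk'_surjective _
  have h1 : A.map f ≤ pCore p (G ⧸ pPrimeCore p G) := by
    apply reduced (Cfsg.Agent.Lib.H32PSolv.isPSolvable_quotient hG _)
      (Cfsg.Agent.Lib.Cores.pPrimeCore_quotient_pPrimeCore p G) (P.mapSurjective hfs) (A.map f)
    · exact Subgroup.map_mono hAP
    · rintro _ ⟨x, hx, rfl⟩
      rw [Subgroup.mem_normalizer_iff]
      have key : ∀ x ∈ (P : Subgroup G), ∀ y ∈ A.map f, f x * y * (f x)⁻¹ ∈ A.map f := by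
        rintro x hx _ ⟨y, hy, rfl⟩
        exact ⟨x * y * x⁻¹, (Subgroup.mem_normalizer_iff.mp (hAn hx) y).mp hy, by simp⟩
      intro y
      constructor
      · intro hy
        exact key x hx y hy
      · intro hy
        have := key x⁻¹ (inv_mem hx) _ hy
        rw [map_inv] at this
        have h2 : (f x)⁻¹ * (f x * y * (f x)⁻¹) * (f x)⁻¹⁻¹ = y := by group
        rwa [h2] at this
    · haveI := hA
      exact isCyclic_of_surjective (f.subgroupMap A) (f.subgroupMap_surjective A)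
    · rcases h with h | h
      · exact Or.inl h
      · exact Or.inr (fun h' => h (Cfsg.Agent.Lib.H34S4.involves_of_involves_quotient _ h'))
  rw [← Cfsg.Agent.Lib.Cores.map_pPrimePCore] at h1
  intro x hx
  obtain ⟨y, hy, hyx⟩ := h1 ⟨x, hx, rfl⟩
  have h2 : x = y * (y⁻¹ * x) := by group
  rw [h2]
  refine mul_mem hy ?_
  have h3 : y⁻¹ * x ∈ pPrimeCore p G := by
    rw [← QuotientGroup.eq]; exact hyx
  unfold pPrimePCore
  rw [Subgroup.mem_comap]
  have h4 : QuotientGroup.mk' (pPrimeCore p G) (y⁻¹ * x) = 1 := (QuotientGroup.eq_one_iff _).mpr h3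
  rw [h4]; exact one_mem _

end Cfsg.Agent.S3788
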