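import Cfsg.Statements.S3790
import Cfsg.Agent.Lib.PLength

set_option autoImplicit false
open Cfsg

namespace Cfsg.Agent.S3790

open Cfsg.Agent.Lib Subgroup

universe u

theorem step (p : ℕ) [Fact p.Prime] (s : ℕ) [Fact s.Prime] (hsp : s ≠ p) (C : ℕ) (l : ℕ)
    (r : ℕ) (q : Fin r → ℕ) (lq : Fin r → ℕ) (hq : ∀ i, (q i).Prime)
    (hC : ∀ (G : Type u) [Group G] [Finite G], Group.IsSolvable G →
      (∀ t : ℕ, t.Prime → t ∣ Nat.card G → t ≠ p → ∃ i, q i = t) →
      (∀ i, Cfsg.PLengthLE (q i) (lq i) G) → Cfsg.PLengthLE p C G) :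
    ∀ (G : Type u) [Group G] [Finite G], Group.IsSolvable G →
      (∀ t : ℕ, t.Prime → t ∣ Nat.card G → t ≠ p → (∃ i, q i = t) ∨ t = s) →
      (∀ i, Cfsg.PLengthLE (q i) (lq i) G) → Cfsg.PLengthLE s l G → Cfsg.PLengthLE p (C * (1 + l)) G := by
  have hp : p.Prime := Fact.out
  have hs : s.Prime := Fact.out
  have hcop : ∀ (K : Type u) [Group K] [Finite K], Group.IsSolvable K → (Nat.card K).Coprime s →
      (∀ t : ℕ, t.Prime → t ∣ Nat.card K → t ≠ p → (∃ i, q i = t) ∨ t = s) →
      (∀ i, Cfsg.PLengthLE (q i) (lq i) K) → Cfsg.PLengthLE p C K := by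
    intro K _ _ hK hKs hcov hl
    apply hC K hK _ hl
    intro t ht htd htp
    rcases hcov t ht htd htp with h | h
    · exact h
    · exfalso
      subst h
      have h2 : t ∣ 1 := by
        rw [← hKs]
        exact Nat.dvd_gcd htd dvd_rfl
      exact ht.one_lt.ne' (Nat.dvd_one.mp h2)
  induction l with
  | zero =>
    intro G _ _ hG hcov hl hls
    rw [PLength.pLengthLE_zero_iff] at hls
    rw [Nat.add_zero, mul_one]
    exact hcop G hG hls hcov hl
  | succ l ih =>
    intro G _ _ hG hcov hl hls
    haveI := hG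
    set W := pPrimeCore s G with hW
    have hW1 : PLengthLE p C W := by
      apply hcop W inferInstance (H32Cores.pPrimeCore_coprime s)
      · intro t ht htd htp
        exact hcov t ht (htd.trans (Subgroup.card_subgroup_dvd_card W)) htp
      · intro i
        haveI := Fact.mk (hq i)
        exact PLength.pLengthLE_subgroup (hl i) W
    have hprime : pPrimeCore s (G ⧸ W) = ⊥ := Fitting.pPrimeCore_quotient_pPrimeCore s
    set V := pCore s (G ⧸ W) with hV
    have hV1 : PLengthLE s l ((G ⧸ W) ⧸ V) := by
      apply PLength.pLengthLE_quotient_of_upper_two_le V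
      · rw [PLength.upper_two_eq hprime]
      · exact PLength.pLengthLE_quotient hls W
    have h2 : PLengthLE p (C * (1 + l)) ((G ⧸ W) ⧸ V) := by
      apply ih ((G ⧸ W) ⧸ V) inferInstance _ _ hV1
      · intro t ht htd htp
        exact hcov t ht (htd.trans ((Subgroup.card_quotient_dvd_card V).trans (Subgroup.card_quotient_dvd_card W))) htp
      · intro i
        haveI := Fact.mk (hq i)
        exact PLength.pLengthLE_quotient (PLength.pLengthLE_quotient (hl i) W) V
    have h3 : PLengthLE p (C * (1 + l)) (G ⧸ W) := by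
      apply PLength.pLengthLE_of_coprime V _ h2
      obtain ⟨m, hm⟩ := IsPGroup.iff_card.mp (H32Cores.pCore_isPGroup s (G := G ⧸ W))
      rw [← hV] at hm
      rw [hm]
      exact Nat.Coprime.pow_left m ((Nat.coprime_primes hs hp).mpr hsp)
    have h4 := PLength.pLengthLE_add W hW1 h3
    have h5 : C + C * (1 + l) = C * (1 + (l + 1)) := by ring
    rwa [h5] at h4

theorem main (p : ℕ) [Fact p.Prime] (r : ℕ) : ∀ (q : Fin r → ℕ) (_ : ∀ i, (q i).Prime ∧ q i ≠ p) (l : Fin r → ℕ)
    (G : Type u) [Group G] [Finite G], Group.IsSolvable G →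
      (∀ t : ℕ, t.Prime → t ∣ Nat.card G → t ≠ p → ∃ i, q i = t) →
      (∀ i, Cfsg.PLengthLE (q i) (l i) G) → Cfsg.PLengthLE p (Finset.univ.prod fun i => 1 + l i) G := by
  have hp : p.Prime := Fact.out
  induction r with
  | zero =>
    intro q hq l G _ _ hG hcov hl
    have h1 : IsPGroup p G := by
      have h2 : Nat.card G = p ^ (Nat.card G).primeFactorsList.length := by
        refine Nat.eq_prime_pow_of_unique_prime_dvd (Nat.card_pos (α := G)).ne' ?_
        intro t ht htd
        by_contra htp
        obtain ⟨i, -⟩ := hcov t ht htd htp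
        exact i.elim0
      exact IsPGroup.of_card h2
    rw [Finset.univ_eq_empty, Finset.prod_empty]
    apply PLength.pLengthLE_succ_of_isPGroup (k := 0) (⊤ : Subgroup G) (h1.to_subgroup _)
    rw [PLength.pLengthLE_zero_iff]
    have : Nat.card (G ⧸ (⊤ : Subgroup G)) = 1 := by
      rw [← Subgroup.index_eq_card, Subgroup.index_top]
    rw [this]
    exact Nat.coprime_one_left p
  | succ r ih =>
    intro q hq l G _ _ hG hcov hl
    haveI := Fact.mk (hq (Fin.last r)).1
    rw [Fin.prod_univ_castSucc]
    apply step p (q (Fin.last r)) (hq (Fin.last r)).2 _ _ r (fun i => q i.castSucc) (fun i => l i.castSucc)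
      (fun i => (hq i.castSucc).1)
      (fun K _ _ hK hKcov hKl => ih (fun i => q i.castSucc) (fun i => hq i.castSucc) (fun i => l i.castSucc) K hK hKcov hKl)
      G hG
    · intro t ht htd htp
      obtain ⟨i, hi⟩ := hcov t ht htd htp
      induction i using Fin.lastCases with
      | last => exact Or.inr hi.symm
      | cast i => exact Or.inl ⟨i, hi⟩
    · intro i
      exact hl i.castSucc
    · exact hl (Fin.last r)

/-- Let G be a finite solvable group and p a prime. Suppose p₁, …, p_r are distinct primes, all different from p, that include every prime dividing the order of G other than p, and that G has p_i-length at most l_i for each i. Then G has p-length at most the product of the numbers 1 + l_i. -/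
theorem result {G : Type*} [Group G] [Finite G] (hG : Group.IsSolvable G) (p : ℕ) [Fact p.Prime] (r : ℕ) (q : Fin r → ℕ) (hq : ∀ i, (q i).Prime ∧ q i ≠ p) (hinj : Function.Injective q) (hcover : ∀ s : ℕ, s.Prime → s ∣ Nat.card G → s ≠ p → ∃ i, q i = s) (l : Fin r → ℕ) (hl : ∀ i, Cfsg.PLengthLE (q i) (l i) G) : Cfsg.PLengthLE p (Finset.univ.prod fun i => 1 + l i) G :=
  main p r q hq l G hG hcover hl

end Cfsg.Agent.S3790
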