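import Cfsg.Statements.S3791
import Cfsg.Agent.Lib.PLength

set_option autoImplicit false
open Cfsg

namespace Cfsg.Agent.S3791

open Cfsg.Agent.Lib Subgroup

theorem derivedSeries_map_le {G K : Type*} [Group G] [Group K] (f : G →* K) (n : ℕ) :
    (derivedSeries G n).map f ≤ derivedSeries K n := by
  induction n with
  | zero => exact le_top
  | succ n ih =>
    rw [derivedSeries_succ, derivedSeries_succ, Subgroup.map_commutator]
    exact Subgroup.commutator_mono ih ih

theorem derivedSeries_add (G : Type*) [Group G] (m n : ℕ) :
    derivedSeries G (m + n) = (derivedSeries (derivedSeries G m) n).map (derivedSeries G m).subtype := by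
  induction n with
  | zero =>
    rw [Nat.add_zero, derivedSeries_zero, ← MonoidHom.range_eq_map, Subgroup.range_subtype]
  | succ n ih =>
    rw [← Nat.add_assoc, derivedSeries_succ, derivedSeries_succ, ih, Subgroup.map_commutator]

/-- a group embedding into a group of derived length `n` -/
theorem derivedSeries_eq_bot_of_injective {G K : Type*} [Group G] [Group K] (f : G →* K)
    (hf : Function.Injective f) {n : ℕ} (h : derivedSeries K n = ⊥) : derivedSeries G n = ⊥ := by
  have h1 := derivedSeries_map_le f n
  rw [h, le_bot_iff, Subgroup.map_eq_bot_iff_of_injective _ hf] at h1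
  exact h1

theorem derivedSeries_eq_bot_of_surjective {G K : Type*} [Group G] [Group K] (f : G →* K)
    (hf : Function.Surjective f) {n : ℕ} (h : derivedSeries G n = ⊥) : derivedSeries K n = ⊥ := by
  rw [← map_derivedSeries_eq hf, h, Subgroup.map_bot]

theorem main (r : ℕ) (q : Fin r → ℕ) (hq : ∀ i, (q i).Prime) (d : Fin r → ℕ) (N : ℕ) :
    ∀ (G : Type*) [Group G] [Finite G], Nat.card G ≤ N → Group.IsSolvable G →
      (∀ s : ℕ, s.Prime → s ∣ Nat.card G → ∃ i, q i = s) → ∀ l : Fin r → ℕ,
      (∀ i, ∀ P : Subgroup G, (haveI := Fact.mk (hq i); ∃ S : Sylow (q i) G, (S : Subgroup G) = P) →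
        derivedSeries ↥P (d i) = ⊥) → (∀ i, Cfsg.PLengthLE (q i) (l i) G) →
      derivedSeries G (Finset.univ.sum fun i => d i * l i) = ⊥ := by
  induction N with
  | zero =>
    intro G _ _ hN
    have : 0 < Nat.card G := Nat.card_pos
    omega
  | succ N ih =>
    intro G _ _ hN hG hcover l hd hl
    haveI := hG
    -- quotients satisfy the hypotheses
    have hquot : ∀ (M : Subgroup G) [M.Normal], ∀ i, ∀ P : Subgroup (G ⧸ M),
        (haveI := Fact.mk (hq i); ∃ S : Sylow (q i) (G ⧸ M), (S : Subgroup (G ⧸ M)) = P) →
        derivedSeries ↥P (d i) = ⊥ := by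
      intro M _ i P hP
      haveI := Fact.mk (hq i)
      obtain ⟨S, rfl⟩ := hP
      obtain ⟨T, hT⟩ := Sylow.mapSurjective_surjective (QuotientGroup.mk'_surjective M) (q i) S
      have h1 := hd i (T : Subgroup G) ⟨T, rfl⟩
      have h2 : (S : Subgroup (G ⧸ M)) = (T : Subgroup G).map (QuotientGroup.mk' M) := by
        rw [← hT]; rfl
      rw [h2]
      exact derivedSeries_eq_bot_of_surjective ((QuotientGroup.mk' M).subgroupMap (T : Subgroup G))
        (MonoidHom.subgroupMap_surjective _ _) h1
    have hcov : ∀ (M : Subgroup G) [M.Normal], ∀ s : ℕ, s.Prime → s ∣ Nat.card (G ⧸ M) → ∃ i, q i = s := by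
      intro M _ s hs hsd
      exact hcover s hs (hsd.trans (Subgroup.card_quotient_dvd_card M))
    have hcard : ∀ (M : Subgroup G) [M.Normal], M ≠ ⊥ → Nat.card (G ⧸ M) ≤ N := by
      intro M _ hM
      have h1 := M.card_mul_index
      rw [Subgroup.index_eq_card] at h1
      have h2 : 1 < Nat.card M := (Subgroup.one_lt_card_iff_ne_bot M).mpr hM
      have h3 : 0 < Nat.card (G ⧸ M) := Nat.card_pos
      nlinarith
    by_cases hnt : Nontrivial G
    swap
    · rw [not_nontrivial_iff_subsingleton] at hnt
      exact Subsingleton.elim _ _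
    obtain ⟨M, ⟨hMn, hM1, hMm⟩, -⟩ := Subnormal.exists_isMinNormal_le (⊤ : Subgroup G) inferInstance top_ne_bot
    haveI := hMn
    by_cases huniq : ∃ K : Subgroup G, K.Normal ∧ K ≠ ⊥ ∧ M ⊓ K = ⊥
    · obtain ⟨K, hKn, hK1, hMK⟩ := huniq
      haveI := hKn
      have h1 := ih (G ⧸ M) (hcard M hM1) inferInstance (hcov M) l (hquot M)
        (fun i => by haveI := Fact.mk (hq i); exact PLength.pLengthLE_quotient (hl i) M)
      have h2 := ih (G ⧸ K) (hcard K hK1) inferInstance (hcov K) l (hquot K)
        (fun i => by haveI := Fact.mk (hq i); exact PLength.pLengthLE_quotient (hl i) K)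
      rw [← le_bot_iff, ← hMK]
      refine le_inf ?_ ?_
      · have h3 := derivedSeries_map_le (QuotientGroup.mk' M) (Finset.univ.sum fun i => d i * l i)
        rw [h1, le_bot_iff, Subgroup.map_eq_bot_iff, QuotientGroup.ker_mk'] at h3
        exact h3
      · have h3 := derivedSeries_map_le (QuotientGroup.mk' K) (Finset.univ.sum fun i => d i * l i)
        rw [h2, le_bot_iff, Subgroup.map_eq_bot_iff, QuotientGroup.ker_mk'] at h3
        exact h3
    · push Not at huniq
      obtain ⟨-, s, hs, hsp⟩ := Fitting.minimal_normal_solvable hM1 inferInstance (by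
        intro K hK hKM
        by_cases h1 : K = ⊥
        · exact Or.inl h1
        · exact Or.inr (hMm K hK hKM h1))
      haveI : Fact s.Prime := ⟨hs⟩
      have hMs : IsPGroup s M := by
        intro x
        refine ⟨1, ?_⟩
        rw [pow_one]
        exact Subtype.ext (hsp x x.2)
      have hsdvd : s ∣ Nat.card G := by
        obtain ⟨m, hm⟩ := IsPGroup.iff_card.mp hMs
        have hm0 : m ≠ 0 := by
          rintro rfl
          rw [pow_zero] at hm
          exact hM1 (Subgroup.card_eq_one.mp hm)
        have h1 : s ∣ Nat.card M := by rw [hm]; exact dvd_pow_self s hm0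
        exact h1.trans (Subgroup.card_subgroup_dvd_card M)
      obtain ⟨j, rfl⟩ := hcover s hs hsdvd
      -- O_{p'} = 1
      have hprime : pPrimeCore (q j) G = ⊥ := by
        by_contra h
        have h1 := huniq (pPrimeCore (q j) G) inferInstance h
        apply h1
        apply Subgroup.inf_eq_bot_of_coprime
        obtain ⟨m, hm⟩ := IsPGroup.iff_card.mp hMs
        rw [hm]
        exact Nat.Coprime.pow_left m (H32Cores.pPrimeCore_coprime (q j)).symm
      set P := pCore (q j) G with hP
      have hMP : M ≤ P := H32Cores.le_pCore (q j) hMn hMs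
      have hP1 : P ≠ ⊥ := by
        intro h
        rw [h, le_bot_iff] at hMP
        exact hM1 hMP
      have hPp : IsPGroup (q j) P := H32Cores.pCore_isPGroup (q j)
      -- derived length of P
      have hPd : derivedSeries P (d j) = ⊥ := by
        obtain ⟨S, hS⟩ := hPp.exists_le_sylow
        exact derivedSeries_eq_bot_of_injective (Subgroup.inclusion hS) (Subgroup.inclusion_injective hS)
          (hd j (S : Subgroup G) ⟨S, rfl⟩)
      -- l j ≥ 1
      have hlj : 1 ≤ l j := by
        by_contra h
        have h0 : l j = 0 := by omega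
        have h1 := hl j
        rw [h0, PLength.pLengthLE_zero_iff] at h1
        have h2 : (q j) ∣ 1 := by
          rw [← h1]
          exact Nat.dvd_gcd hsdvd dvd_rfl
        exact hs.one_lt.ne' (Nat.dvd_one.mp h2)
      let l' : Fin r → ℕ := Function.update l j (l j - 1)
      have h1 := ih (G ⧸ P) (hcard P hP1) inferInstance (hcov P) l' (hquot P) (by
        intro i
        haveI := Fact.mk (hq i)
        by_cases hij : i = j
        · subst hij
          change Cfsg.PLengthLE (q i) (Function.update l i (l i - 1) i) (G ⧸ P)
          rw [Function.update_self]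
          apply PLength.pLengthLE_quotient_of_upper_two_le P
          · rw [PLength.upper_two_eq hprime]
          · rw [Nat.sub_add_cancel hlj]; exact hl i
        · change Cfsg.PLengthLE (q i) (Function.update l j (l j - 1) i) (G ⧸ P)
          rw [Function.update_of_ne hij]
          exact PLength.pLengthLE_quotient (hl i) P)
      have hsum : (Finset.univ.sum fun i => d i * l i) = (Finset.univ.sum fun i => d i * l' i) + d j := by
        have h2 : ∀ f : Fin r → ℕ, (Finset.univ.sum f) = f j + (Finset.univ.erase j).sum f := fun f =>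
          (Finset.add_sum_erase _ _ (Finset.mem_univ j)).symm
        rw [h2 (fun i => d i * l i), h2 (fun i => d i * l' i)]
        have h3 : (Finset.univ.erase j).sum (fun i => d i * l' i) = (Finset.univ.erase j).sum (fun i => d i * l i) := by
          apply Finset.sum_congr rfl
          intro i hi
          change d i * Function.update l j (l j - 1) i = _
          rw [Function.update_of_ne (Finset.ne_of_mem_erase hi)]
        rw [h3]
        change d j * l j + _ = d j * Function.update l j (l j - 1) j + _ + d j
        rw [Function.update_self]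
        obtain ⟨t, ht⟩ := Nat.exists_eq_add_of_le hlj
        rw [ht]
        simp only [Nat.add_sub_cancel_left]
        ring
      rw [hsum, derivedSeries_add]
      have h3 := derivedSeries_map_le (QuotientGroup.mk' P) (Finset.univ.sum fun i => d i * l' i)
      rw [h1, le_bot_iff, Subgroup.map_eq_bot_iff, QuotientGroup.ker_mk'] at h3
      rw [derivedSeries_eq_bot_of_injective (Subgroup.inclusion h3) (Subgroup.inclusion_injective h3) hPd,
        Subgroup.map_bot]

/-- The Hall–Higman bound on derived length: let G be a finite solvable group, let p₁, …, p_r be distinct primes that include every prime dividing the order of G, and suppose that for each i the Sylow p_i-subgroups of G have derived length at most d_i and G has p_i-length at most l_i. Then G has derived length at most Σ d_i l_i. -/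
theorem result {G : Type*} [Group G] [Finite G] (hG : Group.IsSolvable G) (r : ℕ) (q : Fin r → ℕ) (hq : ∀ i, (q i).Prime) (hinj : Function.Injective q) (hcover : ∀ s : ℕ, s.Prime → s ∣ Nat.card G → ∃ i, q i = s) (d l : Fin r → ℕ) (hd : ∀ i, ∀ P : Subgroup G, (haveI := Fact.mk (hq i); ∃ S : Sylow (q i) G, (S : Subgroup G) = P) → derivedSeries ↥P (d i) = ⊥) (hl : ∀ i, Cfsg.PLengthLE (q i) (l i) G) : derivedSeries G (Finset.univ.sum fun i => d i * l i) = ⊥ :=
  main r q hq d (Nat.card G) G le_rfl hG hcover l hd hl

end Cfsg.Agent.S3791
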