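import Cfsg.Statements.S3793
import Cfsg.Agent.Lib.ShultGross2

set_option autoImplicit false
open Cfsg

namespace Cfsg.Agent.S3793

open Subgroup
open scoped commutatorElement

universe u v

theorem lcs_comap_le {G H : Type*} [Group G] [Group H] (f : G →* H) (K L : Subgroup H) (i : ℕ)
    (h : K.lowerCentralSeries i ≤ L) : (K.comap f).lowerCentralSeries i ≤ L.comap f := by
  rw [← Subgroup.map_le_iff_le_comap, map_lowerCentralSeries]
  exact (Lib.FitRed.lcs_mono (Subgroup.map_comap_le f K) i).trans h

theorem chain {p : ℕ} (hp : p.Prime) (hp2 : p ≠ 2) : ∀ n : ℕ, ∀ (G : Type u) [Group G] [Finite G]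
    (_ : Group.IsSolvable G) (σ : MulAut G) (_ : σ ^ p ^ n = 1) (_ : ∀ g : G, σ g = g → g = 1),
    ∃ F : Fin (n + 1) → Subgroup G, F 0 = ⊥ ∧ F (Fin.last n) = ⊤ ∧ Monotone F ∧
      (∀ i, (F i).Normal) ∧ ∀ i : Fin n, ∃ k : ℕ, (F i.succ).lowerCentralSeries k ≤ F i.castSucc := by
  intro n
  induction n with
  | zero =>
    intro G _ _ _ σ hσ hfpf
    have h1 : (⊥ : Subgroup G) = ⊤ := by
      symm
      rw [eq_bot_iff]
      intro g _
      rw [mem_bot]
      apply hfpf
      rw [pow_zero, pow_one] at hσ
      rw [hσ]; rfl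
    refine ⟨fun _ => ⊥, rfl, h1, fun _ _ _ => le_rfl, fun _ => inferInstance, fun i => i.elim0⟩
  | succ n ih =>
    intro G _ _ hG σ hσ hfpf
    have hkey : ∀ g, g⁻¹ * (σ ^ p ^ n) g ∈ fittingSubgroup G := by
      by_cases h1 : σ ^ p ^ n = 1
      · intro g
        rw [h1, MulAut.one_apply, inv_mul_cancel]
        exact one_mem _
      · have hpf := Fact.mk hp
        have ho : orderOf σ = p ^ (n + 1) := orderOf_eq_prime_pow h1 hσ
        let _ : Fintype (zpowers σ) := Fintype.ofFinite _
        have h2 := Lib.ShultGross2.key (A := zpowers σ) (σ := ⟨σ, mem_zpowers σ⟩) (by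
          rintro ⟨a, ha⟩
          obtain ⟨i, rfl⟩ := mem_zpowers_iff.1 ha
          exact mem_zpowers_iff.2 ⟨i, rfl⟩) hp hp2 (Nat.succ_pos n) (by
            rw [← ho, ← Subgroup.orderOf_coe]) (Nat.card G) G hG (zpowers σ).subtype hfpf le_rfl
        intro g
        have h3 := h2 g
        exact h3
    have hFn : (fittingSubgroup G).Normal := Lib.Fitting.normal_fittingSubgroup
    have hFc : (fittingSubgroup G).Characteristic := Lib.FitRed.characteristic_fittingSubgroup G
    have hinv : ∀ a : MulAut G, ∀ x ∈ fittingSubgroup G,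
        (MonoidHom.id (MulAut G)) a x ∈ fittingSubgroup G := fun a x hx =>
      (Subgroup.characteristic_iff_le_comap.1 hFc a) hx
    obtain ⟨ψ, hψ⟩ := Lib.ActRep.exists_quot (MonoidHom.id (MulAut G)) (fittingSubgroup G) hinv
    obtain ⟨F, hF0, hF1, hFm, hFN, hFk⟩ := ih (G ⧸ fittingSubgroup G) inferInstance (ψ σ) (by
        rw [← map_pow]
        ext x
        induction x using QuotientGroup.induction_on with | H g => ?_
        rw [hψ, MulAut.one_apply, eq_comm, QuotientGroup.eq]
        exact hkey g)
      (Lib.FpfQuot.quot_fpf σ hfpf _ (hinv σ) (ψ σ) (hψ σ))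
    refine ⟨Fin.cons ⊥ (fun i => (F i).comap (QuotientGroup.mk' (fittingSubgroup G))), rfl, ?_, ?_,
      ?_, ?_⟩
    · rw [← Fin.succ_last, Fin.cons_succ, hF1, Subgroup.comap_top]
    · intro i j hij
      induction i using Fin.cases with
      | zero => rw [Fin.cons_zero]; exact bot_le
      | succ i =>
        induction j using Fin.cases with
        | zero => exact absurd hij (by simp)
        | succ j =>
          rw [Fin.cons_succ, Fin.cons_succ]
          exact Subgroup.comap_mono (hFm (Fin.succ_le_succ_iff.1 hij))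
    · intro i
      induction i using Fin.cases with
      | zero => rw [Fin.cons_zero]; infer_instance
      | succ i => rw [Fin.cons_succ]; exact (hFN i).comap _
    · intro i
      induction i using Fin.cases with
      | zero =>
        have h2 : Group.IsNilpotent (fittingSubgroup G) := Lib.Fitting.isNilpotent_fittingSubgroup
        rw [Subgroup.isNilpotent_iff_lowerCentralSeries] at h2
        obtain ⟨i, hi⟩ := h2
        refine ⟨i, ?_⟩
        rw [Fin.cons_succ, Fin.castSucc_zero, Fin.cons_zero, hF0]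
        have h3 : (⊥ : Subgroup (G ⧸ fittingSubgroup G)).comap
            (QuotientGroup.mk' (fittingSubgroup G)) = fittingSubgroup G := by
          rw [MonoidHom.comap_bot, QuotientGroup.ker_mk']
        rw [h3, hi]
      | succ i =>
        obtain ⟨k, hk⟩ := hFk i
        refine ⟨k, ?_⟩
        rw [Fin.cons_succ, ← Fin.succ_castSucc, Fin.cons_succ]
        exact lcs_comap_le _ _ _ _ hk

/-- The Shult–Gross Theorem: let p be an odd prime and G a finite solvable group with an automorphism σ of order p^n fixing only the identity. Then G has Fitting height at most n: G has Fitting height at most m when there is a chain of normal subgroups 1 = F₀ ≤ F₁ ≤ ⋯ ≤ F_m = G with each F_{i+1}/F_i nilpotent. -/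
theorem result {G : Type*} [Group G] [Finite G] (hG : Group.IsSolvable G) {p : ℕ} (hp : p.Prime) (hp2 : p ≠ 2) (σ : MulAut G) (n : ℕ) (hσ : orderOf σ = p ^ n) (hfpf : ∀ g : G, σ g = g → g = 1) : ∃ F : Fin (n + 1) → Subgroup G, F 0 = ⊥ ∧ F (Fin.last n) = ⊤ ∧ Monotone F ∧ (∀ i, (F i).Normal) ∧ ∀ i : Fin n, ∃ k : ℕ, (F i.succ).lowerCentralSeries k ≤ F i.castSucc := by
  exact chain hp hp2 n G hG σ (by rw [← hσ, pow_orderOf_eq_one]) hfpf

end Cfsg.Agent.S3793
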