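import Cfsg.Statements.S3794
import Cfsg.Agent.Lib.FpfQuot
import Cfsg.Agent.Lib.FpfFour

set_option autoImplicit false
open Cfsg

namespace Cfsg.Agent.S3794

open Subgroup
open scoped commutatorElement

universe u

theorem main : ∀ n : ℕ, ∀ (G : Type u) [Group G] [Finite G] (_ : Group.IsSolvable G)
    (σ : MulAut G) (_ : σ ^ 4 = 1) (_ : ∀ g : G, σ g = g → g = 1), Nat.card G ≤ n →
    Group.IsNilpotent (commutator G) := by
  intro n
  induction n with
  | zero =>
    intro G _ _ _ σ _ _ hcard
    exact absurd hcard (by have := Nat.card_pos (α := G); omega)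
  | succ n ih =>
    intro G _ _ hG σ hσ hfpf hcard
    by_contra hnot
    -- quotients
    have hquot : ∀ N : Subgroup G, ∀ [N.Normal], N.Characteristic → N ≠ ⊥ →
        Group.IsNilpotent (commutator (G ⧸ N)) := by
      intro N _ hNc hNb
      have hN : ∀ a : MulAut G, ∀ x ∈ N, (MonoidHom.id (MulAut G)) a x ∈ N := fun a x hx =>
        (Subgroup.characteristic_iff_le_comap.1 hNc a) hx
      obtain ⟨ψ, hψ⟩ := Lib.ActRep.exists_quot (MonoidHom.id (MulAut G)) N hN
      refine ih (G ⧸ N) inferInstance (ψ σ) (by rw [← map_pow, hσ, map_one])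
        (Lib.FpfQuot.quot_fpf σ hfpf N (hN σ) (ψ σ) (hψ σ)) ?_
      have h1 := N.card_eq_card_quotient_mul_card_subgroup
      have h2 : 1 < Nat.card N := by
        rw [Subgroup.one_lt_card_iff_ne_bot]; exact hNb
      have h3 : 0 < Nat.card (G ⧸ N) := Nat.card_pos
      nlinarith
    obtain ⟨p, hp, hFp, hPp, hPb, hPc, hPexp, -, hcent⟩ := Lib.FitRed.fit_red
      (fun N : Subgroup G => commutator G ≤ N) le_top
      (fun M N _ _ hMN hM => hM.trans hMN) (fun M N _ _ hM hN => le_inf hM hN)
      (by
        intro N hNc hNb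
        have hNn : N.Normal := inferInstance
        obtain ⟨M, h1, h2, h3, h4⟩ := Lib.FpfQuot.lcs_le_of_quotient N (hquot N hNc hNb)
        exact ⟨M, h1, h2, h3, h4⟩)
      (fun h => hnot (Lib.Fitting.isNilpotent_of_le h Lib.Fitting.isNilpotent_fittingSubgroup))
    have := Fact.mk hp
    have hPchar : (pCore p G).Characteristic := Lib.FitRed.characteristic_pCore G p
    have hPn : (pCore p G).Normal := inferInstance
    have hPinv : ∀ a : MulAut G, ∀ x ∈ pCore p G, (MonoidHom.id (MulAut G)) a x ∈ pCore p G :=
      fun a x hx => (Subgroup.characteristic_iff_le_comap.1 hPchar a) hx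
    obtain ⟨R, _, h, s, hR, hker, hsh, hsum⟩ := Lib.ActRep.exists_ring_rep
      (MonoidHom.id (MulAut G)) (pCore p G) hPinv hPc p hPexp
    obtain ⟨ψ, hψ⟩ := Lib.ActRep.exists_quot (MonoidHom.id (MulAut G)) (pCore p G) hPinv
    have hker' : pCore p G ≤ h.ker := by
      intro x hx
      rw [MonoidHom.mem_ker, hker, hcent]
      exact hx
    let hb : (G ⧸ pCore p G) →* R := QuotientGroup.lift (pCore p G) h hker'
    have hb1 : ∀ g : G, hb (g : G ⧸ pCore p G) = h g := fun g => rfl
    have hinj : Function.Injective hb := by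
      rw [injective_iff_map_eq_one]
      intro x
      induction x using QuotientGroup.induction_on with | H g => ?_
      intro hg
      rw [hb1, hker, hcent] at hg
      exact (QuotientGroup.eq_one_iff _).2 hg
    have hσ4 : ∀ x, σ (σ (σ (σ x))) = x := by
      intro x
      have h1 : (σ ^ 4) x = x := by rw [hσ]; rfl
      simpa [pow_succ] using h1
    have hS : 1 + s σ + s σ ^ 2 + s σ ^ 3 = 0 := by
      have h1 := hsum (Fin 4) (fun i => σ ^ (i : ℕ)) {σ} (by
        intro b hb
        rw [Set.mem_singleton_iff] at hb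
        subst hb
        refine ⟨finRotate 4, ?_⟩
        intro i
        fin_cases i
        · simp
        · simp [pow_succ]
        · simp [pow_succ, mul_assoc]
        · change b * b ^ 3 = b ^ 0
          rw [← pow_succ', hσ, pow_zero]) (by
        intro x _ hx
        exact hfpf x (hx σ rfl))
      simpa [Fin.sum_univ_four, map_pow] using h1
    have hK := Lib.FpfFour.abelian_of_rep (K := G ⧸ pCore p G) hp hR (ψ σ) (by
        intro x
        induction x using QuotientGroup.induction_on with | H g => ?_
        rw [hψ, hψ, hψ, hψ]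
        change ((σ (σ (σ (σ g))) : G) : G ⧸ pCore p G) = _
        rw [hσ4])
      (Lib.FpfQuot.quot_fpf σ hfpf (pCore p G) (hPinv σ) (ψ σ) (hψ σ)) (s σ) hS hb hinj (by
        intro x
        induction x using QuotientGroup.induction_on with | H g => ?_
        rw [hψ, hb1, hb1]
        exact hsh σ g)
      (Lib.FpfQuot.not_dvd_of_pCore (Lib.Fitting.pCore_quotient_pCore p) _
        (hquot (pCore p G) hPchar hPb))
      (by
        intro N hN hNp
        rw [eq_bot_iff, ← Lib.Fitting.pCore_quotient_pCore p (G := G)]
        exact Lib.Fitting.le_pCore p hN hNp)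
    apply hnot
    have hle : commutator G ≤ pCore p G := by
      rw [commutator_def, commutator_le]
      intro x _ y _
      rw [← QuotientGroup.eq_one_iff]
      have h1 := hK (x : G ⧸ pCore p G) (y : G ⧸ pCore p G)
      rw [← commutatorElement_eq_one_iff_mul_comm] at h1
      exact h1
    exact Lib.Fitting.isNilpotent_of_le hle hPp.isNilpotent

/-- Let G be a finite solvable group with an automorphism σ satisfying σ⁴ = 1 and fixing only the identity. Then the derived subgroup G' is nilpotent. -/
theorem result {G : Type*} [Group G] [Finite G] (hG : Group.IsSolvable G) (σ : MulAut G) (hσ : σ ^ 4 = 1) (hfpf : ∀ g : G, σ g = g → g = 1) : Group.IsNilpotent (commutator G) := by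
  exact main (Nat.card G) G hG σ hσ hfpf le_rfl

end Cfsg.Agent.S3794
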