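import Cfsg.Statements.S3795
import Cfsg.Agent.Lib.GrossC
import Cfsg.Agent.S3794

set_option autoImplicit false
open Cfsg

namespace Cfsg.Agent.S3795

open Subgroup
open scoped commutatorElement

universe u v

/-- a chain with nilpotent factors -/
def Ch (G : Type u) [Group G] (m : ℕ) : Prop :=
  ∃ F : Fin (m + 1) → Subgroup G, F 0 = ⊥ ∧ F (Fin.last m) = ⊤ ∧ Monotone F ∧
    (∀ i, (F i).Normal) ∧ ∀ i : Fin m, ∃ k : ℕ, (F i.succ).lowerCentralSeries k ≤ F i.castSucc

theorem step {G : Type u} [Group G] [Finite G] (N : Subgroup G) [N.Normal]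
    (hN : Group.IsNilpotent N) {m : ℕ} (h : Ch (G ⧸ N) m) : Ch G (m + 1) := by
  obtain ⟨F, hF0, hF1, hFm, hFN, hFk⟩ := h
  refine ⟨Fin.cons ⊥ (fun i => (F i).comap (QuotientGroup.mk' N)), rfl, ?_, ?_, ?_, ?_⟩
  · rw [← Fin.succ_last, Fin.cons_succ, hF1, Subgroup.comap_top]
  · intro i j hij
    induction i using Fin.cases with
    | zero => rw [Fin.cons_zero]; exact bot_le
    | succ i =>
      induction j using Fin.cases with
      | zero => exact absurd hij (by simp)
      | succ j =>
        rw [Fin.cons_succ, Fin.cons_succ]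
        exact Subgroup.comap_mono (hFm (Fin.succ_le_succ_iff.1 hij))
  · intro i
    induction i using Fin.cases with
    | zero => rw [Fin.cons_zero]; infer_instance
    | succ i => rw [Fin.cons_succ]; exact (hFN i).comap _
  · intro i
    induction i using Fin.cases with
    | zero =>
      have h2 := hN
      rw [Subgroup.isNilpotent_iff_lowerCentralSeries] at h2
      obtain ⟨i, hi⟩ := h2
      refine ⟨i, ?_⟩
      rw [Fin.cons_succ, Fin.castSucc_zero, Fin.cons_zero, hF0]
      have h3 : (⊥ : Subgroup (G ⧸ N)).comap (QuotientGroup.mk' N) = N := by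
        rw [MonoidHom.comap_bot, QuotientGroup.ker_mk']
      rw [h3, hi]
    | succ i =>
      obtain ⟨k, hk⟩ := hFk i
      refine ⟨k, ?_⟩
      rw [Fin.cons_succ, ← Fin.succ_castSucc, Fin.cons_succ]
      exact Lib.GrossC.lcs_comap_le _ _ _ _ hk

theorem top_step {G : Type u} [Group G] (h : (⊤ : Subgroup G).lowerCentralSeries 1 ≤ ⊥) :
    Ch G 1 := by
  refine ⟨Fin.cons ⊥ (fun _ => ⊤), rfl, rfl, ?_, ?_, ?_⟩
  · intro i j hij
    induction i using Fin.cases with
    | zero => rw [Fin.cons_zero]; exact bot_le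
    | succ i =>
      induction j using Fin.cases with
      | zero => exact absurd hij (by simp)
      | succ j => rw [Fin.cons_succ, Fin.cons_succ]
  · intro i
    induction i using Fin.cases with
    | zero => rw [Fin.cons_zero]; infer_instance
    | succ i => rw [Fin.cons_succ]; infer_instance
  · intro i
    induction i using Fin.cases with
    | zero =>
      refine ⟨1, ?_⟩
      rw [Fin.cons_succ, Fin.castSucc_zero, Fin.cons_zero]
      exact h
    | succ i => exact i.elim0

theorem chain : ∀ n : ℕ, ∀ (G : Type u) [Group G] [Finite G]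
    (_ : Group.IsSolvable G) (σ : MulAut G) (_ : σ ^ 2 ^ (n + 2) = 1) (_ : ∀ g : G, σ g = g → g = 1),
    Ch G (2 * n + 2) := by
  intro n
  induction n with
  | zero =>
    intro G _ _ hG σ hσ hfpf
    have h1 := Cfsg.Agent.S3794.result hG σ (by rw [← hσ]; norm_num) hfpf
    refine step (_root_.commutator G) h1 (m := 1) (top_step ?_)
    change ⁅(⊤ : Subgroup (G ⧸ _root_.commutator G)), (⊤ : Subgroup (G ⧸ _root_.commutator G))⁆ ≤ ⊥
    have h2 : (⊤ : Subgroup (G ⧸ _root_.commutator G)) =
        (⊤ : Subgroup G).map (QuotientGroup.mk' (_root_.commutator G)) := by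
      rw [← MonoidHom.range_eq_map, QuotientGroup.range_mk']
    rw [h2, ← map_commutator, le_bot_iff, Subgroup.map_eq_bot_iff, QuotientGroup.ker_mk']
    exact (commutator_def G).ge
  | succ n ih =>
    intro G _ _ hG σ hσ hfpf
    have hkey : Lib.GrossC.YP (σ ^ 2 ^ (n + 2)) (fittingSubgroup G) := by
      by_cases h1 : σ ^ 2 ^ (n + 2) = 1
      · rw [h1]
        have hFn : (fittingSubgroup G).Normal := Lib.Fitting.normal_fittingSubgroup
        refine ⟨fittingSubgroup G, hFn, le_rfl, ⟨0, le_rfl⟩, fun g => ?_⟩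
        rw [MulAut.one_apply, inv_mul_cancel]
        exact one_mem _
      · have hpf : Fact (Nat.Prime 2) := ⟨Nat.prime_two⟩
        have ho : orderOf σ = 2 ^ (n + 3) := orderOf_eq_prime_pow h1 hσ
        let _ : Fintype (zpowers σ) := Fintype.ofFinite _
        exact Lib.GrossC.key (A := zpowers σ) (σ := ⟨σ, mem_zpowers σ⟩) (by
          rintro ⟨a, ha⟩
          obtain ⟨i, rfl⟩ := mem_zpowers_iff.1 ha
          exact mem_zpowers_iff.2 ⟨i, rfl⟩) (n := n + 3) (Nat.succ_pos _) (by
            rw [← ho, ← Subgroup.orderOf_coe]) (Nat.card G) G hG (zpowers σ).subtype hfpf le_rfl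
    obtain ⟨M, hM, hFM, ⟨k, hk⟩, hMσ⟩ := hkey
    have hFn : (fittingSubgroup G).Normal := Lib.Fitting.normal_fittingSubgroup
    have hFc : (fittingSubgroup G).Characteristic := Lib.FitRed.characteristic_fittingSubgroup G
    obtain ⟨ψ, hψ⟩ := Lib.ActRep.exists_quot (MonoidHom.id (MulAut G)) (fittingSubgroup G)
      fun a x hx => (Subgroup.characteristic_iff_le_comap.1 hFc a) hx
    have hF2n : (fittingSubgroup (G ⧸ fittingSubgroup G)).Normal :=
      Lib.Fitting.normal_fittingSubgroup
    have hF2c : (fittingSubgroup (G ⧸ fittingSubgroup G)).Characteristic :=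
      Lib.FitRed.characteristic_fittingSubgroup _
    obtain ⟨ψ₂, hψ₂⟩ := Lib.ActRep.exists_quot (MonoidHom.id (MulAut (G ⧸ fittingSubgroup G)))
      (fittingSubgroup (G ⧸ fittingSubgroup G))
      fun a x hx => (Subgroup.characteristic_iff_le_comap.1 hF2c a) hx
    have hfp1 := Lib.FpfQuot.quot_fpf σ hfpf (fittingSubgroup G)
      (fun x hx => (Subgroup.characteristic_iff_le_comap.1 hFc σ) hx) (ψ σ) (hψ σ)
    have hfp2 := Lib.FpfQuot.quot_fpf (ψ σ) hfp1 (fittingSubgroup (G ⧸ fittingSubgroup G))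
      (fun x hx => (Subgroup.characteristic_iff_le_comap.1 hF2c (ψ σ)) hx) (ψ₂ (ψ σ)) (hψ₂ (ψ σ))
    have hMF : M.map (QuotientGroup.mk' (fittingSubgroup G)) ≤
        fittingSubgroup (G ⧸ fittingSubgroup G) :=
      Lib.Fitting.le_fittingSubgroup (hM.map _ (QuotientGroup.mk'_surjective _))
        (Lib.FitRed.isNilpotent_map_of_lcs hk)
    have h2 := ih ((G ⧸ fittingSubgroup G) ⧸ fittingSubgroup (G ⧸ fittingSubgroup G))
      inferInstance (ψ₂ (ψ σ)) (by
        rw [← map_pow, ← map_pow]
        ext x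
        induction x using QuotientGroup.induction_on with | H x => ?_
        rw [hψ₂, MulAut.one_apply, eq_comm, QuotientGroup.eq]
        induction x using QuotientGroup.induction_on with | H g => ?_
        exact hMF ⟨g⁻¹ * (σ ^ 2 ^ (n + 2)) g, hMσ g, by
          rw [map_mul, map_inv]
          congr 1
          exact (hψ _ g).symm⟩) hfp2
    exact step _ Lib.Fitting.isNilpotent_fittingSubgroup
      (step _ Lib.Fitting.isNilpotent_fittingSubgroup h2)


/-- Gross's Theorem: let G be a finite solvable group with an automorphism σ of order 2^n, n > 1, fixing only the identity. Then G has Fitting height at most 2n − 2: G has Fitting height at most m when there is a chain of normal subgroups 1 = F₀ ≤ F₁ ≤ ⋯ ≤ F_m = G with each F_{i+1}/F_i nilpotent. -/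
theorem result {G : Type*} [Group G] [Finite G] (hG : Group.IsSolvable G) (σ : MulAut G) (n : ℕ) (hn : 1 < n) (hσ : orderOf σ = 2 ^ n) (hfpf : ∀ g : G, σ g = g → g = 1) : ∃ F : Fin ((2 * n - 2) + 1) → Subgroup G, F 0 = ⊥ ∧ F (Fin.last (2 * n - 2)) = ⊤ ∧ Monotone F ∧ (∀ i, (F i).Normal) ∧ ∀ i : Fin (2 * n - 2), ∃ k : ℕ, (F i.succ).lowerCentralSeries k ≤ F i.castSucc := by
  obtain ⟨m, rfl⟩ : ∃ m, n = m + 2 := ⟨n - 2, by omega⟩
  have h := chain m G hG σ (by rw [← hσ, pow_orderOf_eq_one]) hfpf
  have h1 : 2 * (m + 2) - 2 = 2 * m + 2 := by omega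
  rw [h1]
  exact h

end Cfsg.Agent.S3795
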