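import Cfsg.Statements.S3796
import Cfsg.Agent.Lib.Ward2
import Cfsg.Agent.Lib.ClosedRep

set_option autoImplicit false
open Cfsg

namespace Cfsg.Agent.S3796

open Subgroup
open scoped commutatorElement

universe u v

theorem main {A : Type v} [Group A] [Fintype A] {p : ℕ} (hp : p.Prime)
    (hAab : ∀ a b : A, a * b = b * a) (hAexp : ∀ a : A, a ^ p = 1) (hAc : Nat.card A = p ^ 2) :
    ∀ n : ℕ, ∀ (G : Type u) [Group G] [Finite G] (_ : Group.IsSolvable G)
    (φ : A →* MulAut G) (_ : ∀ g : G, (∀ a, φ a g = g) → g = 1), Nat.card G ≤ n →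
    ∃ k, (⊤ : Subgroup G).lowerCentralSeries k ≤ fittingSubgroup G := by
  intro n
  induction n with
  | zero =>
    intro G _ _ _ φ _ hcard
    exact absurd hcard (by have := Nat.card_pos (α := G); omega)
  | succ n ih =>
    intro G _ _ hG φ hfpf hcard
    by_contra hnot
    have hpf := Fact.mk hp
    have hAp : IsPGroup p A := IsPGroup.of_card hAc
    have hcop : (Nat.card A).Coprime (Nat.card G) := by
      rw [hAc]
      exact Nat.Coprime.pow_left 2 ((Nat.Prime.coprime_iff_not_dvd hp).2
        (Lib.FpfCop.not_dvd_of_fpf φ hAp hfpf))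
    -- quotients
    have hinv : ∀ N : Subgroup G, N.Characteristic → ∀ a, ∀ x ∈ N, φ a x ∈ N := fun N hNc a x hx =>
      (Subgroup.characteristic_iff_le_comap.1 hNc (φ a)) hx
    have hquot : ∀ N : Subgroup G, ∀ [N.Normal], N.Characteristic → N ≠ ⊥ →
        ∃ k, (⊤ : Subgroup (G ⧸ N)).lowerCentralSeries k ≤ fittingSubgroup (G ⧸ N) := by
      intro N _ hNc hNb
      obtain ⟨ψ, hψ⟩ := Lib.ActRep.exists_quot φ N (hinv N hNc)
      refine ih (G ⧸ N) inferInstance ψ
        (Lib.FpfCop.quot_fpf φ hcop (Or.inr hG) hfpf N (hinv N hNc) ψ hψ) ?_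
      have h1 := N.card_eq_card_quotient_mul_card_subgroup
      have h2 : 1 < Nat.card N := by
        rw [Subgroup.one_lt_card_iff_ne_bot]; exact hNb
      have h3 : 0 < Nat.card (G ⧸ N) := Nat.card_pos
      nlinarith
    obtain ⟨r, hr, hFr, hPp, hPb, hPc, hPexp, -, hcent⟩ := Lib.FitRed.fit_red
      (fun N : Subgroup G => ∃ k, (⊤ : Subgroup G).lowerCentralSeries k ≤ N) ⟨0, le_top⟩
      (fun M N _ _ hMN ⟨k, hk⟩ => ⟨k, hk.trans hMN⟩)
      (fun M N _ _ ⟨k, hk⟩ ⟨l, hl⟩ => ⟨max k l, le_inf
        ((Subgroup.lowerCentralSeries_antitone _ (le_max_left _ _)).trans hk)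
        ((Subgroup.lowerCentralSeries_antitone _ (le_max_right _ _)).trans hl)⟩)
      (by
        intro N hNc hNb
        have hNn : N.Normal := inferInstance
        obtain ⟨k, hk⟩ := hquot N hNc hNb
        have hFn : (fittingSubgroup (G ⧸ N)).Normal := Lib.Fitting.normal_fittingSubgroup
        have hFnil : Group.IsNilpotent (fittingSubgroup (G ⧸ N)) :=
          Lib.Fitting.isNilpotent_fittingSubgroup
        rw [Subgroup.isNilpotent_iff_lowerCentralSeries] at hFnil
        obtain ⟨l, hl⟩ := hFnil
        refine ⟨(fittingSubgroup (G ⧸ N)).comap (QuotientGroup.mk' N), hFn.comap _, ?_, ⟨k, ?_⟩,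
          l, ?_⟩
        · intro x hx
          rw [mem_comap, QuotientGroup.mk'_apply, (QuotientGroup.eq_one_iff x).2 hx]
          exact one_mem _
        · rw [← map_le_iff_le_comap, map_lowerCentralSeries, ← MonoidHom.range_eq_map,
            QuotientGroup.range_mk']
          exact hk
        · have h1 : (((fittingSubgroup (G ⧸ N)).comap (QuotientGroup.mk' N)).lowerCentralSeries
              l).map (QuotientGroup.mk' N) = ⊥ := by
            rw [map_lowerCentralSeries, Subgroup.map_comap_eq_self_of_surjective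
              (QuotientGroup.mk'_surjective N), hl]
          rwa [Subgroup.map_eq_bot_iff, QuotientGroup.ker_mk'] at h1)
      hnot
    have := Fact.mk hr
    have hPchar : (pCore r G).Characteristic := Lib.FitRed.characteristic_pCore G r
    have hPn : (pCore r G).Normal := inferInstance
    have hPinv := hinv _ hPchar
    obtain ⟨k, _, _, _, W, _, _, _, h, s, hker, hsh, hsum⟩ := Lib.ClosedRep.exists_closed_rep
      φ (pCore r G) hPinv hPc r hPexp
    obtain ⟨ψ, hψ⟩ := Lib.ActRep.exists_quot φ (pCore r G) hPinv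
    have hker' : pCore r G ≤ h.ker := by
      intro x hx
      rw [MonoidHom.mem_ker, hker, hcent]
      exact hx
    let hb : (G ⧸ pCore r G) →* Module.End k W := QuotientGroup.lift (pCore r G) h hker'
    have hb1 : ∀ g : G, hb (g : G ⧸ pCore r G) = h g := fun g => rfl
    have hK := Lib.Ward2.nilp_of_rep (K := G ⧸ pCore r G) inferInstance ψ hp hAab hAexp hAc
      (Lib.FpfCop.quot_fpf φ hcop (Or.inr hG) hfpf _ hPinv ψ hψ) hr hb s (by
        intro x
        induction x using QuotientGroup.induction_on with | H g => ?_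
        intro hg
        rw [hb1, hker, hcent] at hg
        exact (QuotientGroup.eq_one_iff _).2 hg) (by
        intro a x
        induction x using QuotientGroup.induction_on with | H g => ?_
        rw [hψ, hb1, hb1]
        exact hsh a g) (by
        refine hsum A (fun a => a) Set.univ ?_ ?_
        · intro b _
          exact ⟨Equiv.mulLeft b, fun i => rfl⟩
        · intro x _ hx
          exact hfpf x fun a => hx a trivial)
      (Lib.Fitting.pCore_quotient_pCore r) (hquot (pCore r G) hPchar hPb)
    apply hnot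
    rw [hFr]
    have h1 : Group.IsNilpotent (⊤ : Subgroup (G ⧸ pCore r G)) :=
      (Group.isNilpotent_congr (Subgroup.topEquiv (G := G ⧸ pCore r G))).2 hK
    rw [Subgroup.isNilpotent_iff_lowerCentralSeries] at h1
    obtain ⟨l, hl⟩ := h1
    refine ⟨l, ?_⟩
    have h2 : ((⊤ : Subgroup G).lowerCentralSeries l).map (QuotientGroup.mk' (pCore r G)) = ⊥ := by
      rw [map_lowerCentralSeries, ← MonoidHom.range_eq_map, QuotientGroup.range_mk', hl]
    rwa [Subgroup.map_eq_bot_iff, QuotientGroup.ker_mk'] at h2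

/-- Ward's Theorem: let G be a finite solvable group and A an elementary abelian group of automorphisms of G of order p² (p a prime) with no non-identity common fixed point. Then G has Fitting height at most 2: G has Fitting height at most m when there is a chain of normal subgroups 1 = F₀ ≤ F₁ ≤ ⋯ ≤ F_m = G with each F_{i+1}/F_i nilpotent. -/
theorem result {G : Type*} [Group G] [Finite G] (hG : Group.IsSolvable G) {p : ℕ} (hp : p.Prime) (A : Subgroup (MulAut G)) (hA : Cfsg.IsElementaryAbelian p A) (hcard : Nat.card A = p ^ 2) (hfpf : ∀ g : G, (∀ a ∈ A, a g = g) → g = 1) : ∃ F : Fin (2 + 1) → Subgroup G, F 0 = ⊥ ∧ F (Fin.last 2) = ⊤ ∧ Monotone F ∧ (∀ i, (F i).Normal) ∧ ∀ i : Fin 2, ∃ k : ℕ, (F i.succ).lowerCentralSeries k ≤ F i.castSucc := by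
  have hfin : Fintype A := Fintype.ofFinite A
  obtain ⟨k, hk⟩ := main (A := A) hp
    (fun a b => Subtype.ext (isMulCommutative_iff_of_setLike.mp hA.1 a a.2 b b.2))
    (fun a => Subtype.ext (hA.2 a a.2)) hcard (Nat.card G) G hG A.subtype
    (fun g hg => hfpf g fun a ha => hg ⟨a, ha⟩) le_rfl
  have hFnil : Group.IsNilpotent (fittingSubgroup G) := Lib.Fitting.isNilpotent_fittingSubgroup
  rw [Subgroup.isNilpotent_iff_lowerCentralSeries] at hFnil
  obtain ⟨l, hl⟩ := hFnil
  refine ⟨![⊥, fittingSubgroup G, ⊤], rfl, rfl, ?_, ?_, ?_⟩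
  · rw [Fin.monotone_iff_le_succ]
    intro i
    fin_cases i
    · exact bot_le
    · exact le_top
  · intro i
    fin_cases i
    · change (⊥ : Subgroup G).Normal
      infer_instance
    · exact Lib.Fitting.normal_fittingSubgroup
    · change (⊤ : Subgroup G).Normal
      infer_instance
  · intro i
    fin_cases i
    · exact ⟨l, hl.le⟩
    · exact ⟨k, hk⟩

end Cfsg.Agent.S3796
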