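import Cfsg.Statements.S3797
import Cfsg.Agent.Lib.ThInv4
import Cfsg.Agent.Lib.ThInv5
import Cfsg.Agent.Lib.PLengthOne

set_option autoImplicit false
open Cfsg

namespace Cfsg.Agent.S3797

open Subgroup

universe u

variable {G : Type u} [Group G] [Finite G]

theorem odd_core : Odd (Nat.card (pPrimeCore 2 G)) := by
  have h := Lib.Cores.coprime_card_pPrimeCore 2 G
  rwa [Nat.coprime_two_right] at h

theorem lift_inv {x : G ⧸ pPrimeCore 2 G} (hx : x ≠ 1) (hx2 : x ^ 2 = 1) :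
    ∃ y : G, (y : G ⧸ pPrimeCore 2 G) = x ∧ y ≠ 1 ∧ y ^ 2 = 1 := by
  obtain ⟨g, rfl⟩ := QuotientGroup.mk'_surjective (pPrimeCore 2 G) x
  have hodd := odd_core (G := G)
  set m := Nat.card (pPrimeCore 2 G) with hm
  have hg : g ^ 2 ∈ pPrimeCore 2 G := by
    rw [← QuotientGroup.eq_one_iff]
    exact hx2
  have h1 : (g ^ 2) ^ m = 1 := by
    have h2 : (⟨g ^ 2, hg⟩ : pPrimeCore 2 G) ^ m = 1 := pow_card_eq_one'
    simpa using congrArg Subtype.val h2
  obtain ⟨j, hj⟩ := hodd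
  have h3 : QuotientGroup.mk' (pPrimeCore 2 G) (g ^ m) = QuotientGroup.mk' (pPrimeCore 2 G) g := by
    rw [map_pow, hj, pow_succ, pow_mul, hx2, one_pow, one_mul]
  refine ⟨g ^ m, h3, ?_, by rw [← pow_mul, mul_comm, pow_mul]; exact h1⟩
  intro h4
  rw [h4, map_one] at h3
  exact hx h3.symm

theorem key [hG : Group.IsSolvable G] (S : Sylow 2 G)
    (htwo : ∃ x y : G, x ∈ (S : Subgroup G) ∧ y ∈ (S : Subgroup G) ∧ x ≠ y ∧ x ≠ 1 ∧
      x ^ 2 = 1 ∧ y ≠ 1 ∧ y ^ 2 = 1)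
    (hconj : ∀ x y : G, x ≠ 1 → x ^ 2 = 1 → y ≠ 1 → y ^ 2 = 1 → IsConj x y)
    (T : Sylow 2 (G ⧸ pPrimeCore 2 G)) :
    (T : Subgroup (G ⧸ pPrimeCore 2 G)) ≤ pCore 2 (G ⧸ pPrimeCore 2 G) := by
  obtain ⟨x, y, hx, hy, hxy, hx1, hx2, hy1, hy2⟩ := htwo
  have hdisj : ∀ z ∈ (S : Subgroup G), z ∈ pPrimeCore 2 G → z = 1 := by
    intro z hz hz'
    obtain ⟨m, hm⟩ := S.2 ⟨z, hz⟩
    have h6 : z ^ 2 ^ m = 1 := by simpa using congrArg Subtype.val hm
    have h7 : orderOf z ∣ 2 ^ m := orderOf_dvd_of_pow_eq_one h6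
    have h8 : orderOf z ∣ Nat.card (pPrimeCore 2 G) := by
      rw [← Subgroup.orderOf_mk z hz']
      exact orderOf_dvd_natCard _
    have h9 : Nat.Coprime (Nat.card (pPrimeCore 2 G)) (2 ^ m) :=
      Nat.Coprime.pow_right m (odd_core (G := G)).coprime_two_right
    rw [← orderOf_eq_one_iff]
    exact Nat.eq_one_of_dvd_coprimes h9 h8 h7
  have hne : ∀ z ∈ (S : Subgroup G), z ≠ 1 → (z : G ⧸ pPrimeCore 2 G) ≠ 1 := fun z hz hz1 h =>
    hz1 (hdisj z hz ((QuotientGroup.eq_one_iff z).1 h))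
  refine Lib.ThInv4.main (Lib.Cores.pPrimeCore_quotient_pPrimeCore 2 G) T (hne x hx hx1)
    (by rw [← QuotientGroup.mk_pow, hx2, QuotientGroup.mk_one]) (hne y hy hy1)
    (by rw [← QuotientGroup.mk_pow, hy2, QuotientGroup.mk_one]) ?_ ?_
  · intro h
    have h1 : x⁻¹ * y ∈ pPrimeCore 2 G := QuotientGroup.eq.1 h
    have h2 := hdisj _ (mul_mem (inv_mem hx) hy) h1
    exact hxy (inv_mul_eq_one.1 h2)
  · intro a b ha1 ha2 hb1 hb2
    obtain ⟨a', rfl, ha'1, ha'2⟩ := lift_inv ha1 ha2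
    obtain ⟨b', rfl, hb'1, hb'2⟩ := lift_inv hb1 hb2
    obtain ⟨c, hc⟩ := isConj_iff.1 (hconj a' b' ha'1 ha'2 hb'1 hb'2)
    exact isConj_iff.2 ⟨(c : G ⧸ pPrimeCore 2 G), by rw [← hc]; rfl⟩


/-- Let G be a finite solvable group of even order whose Sylow 2-subgroups contain more than one involution, and suppose all involutions of G are conjugate. Then G has 2-length at most 1, and a Sylow 2-subgroup S of G is either homocyclic (a direct product of cyclic groups of one common order) or a non-abelian 2-group with more than one involution admitting a solvable group of automorphisms transitive on its involutions. -/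
theorem result {G : Type*} [Group G] [Finite G] (hG : Group.IsSolvable G) (heven : Even (Nat.card G)) (S : Sylow 2 G) (htwo : ∃ x y : G, x ∈ (S : Subgroup G) ∧ y ∈ (S : Subgroup G) ∧ x ≠ y ∧ x ≠ 1 ∧ x ^ 2 = 1 ∧ y ≠ 1 ∧ y ^ 2 = 1) (hconj : ∀ x y : G, x ≠ 1 → x ^ 2 = 1 → y ≠ 1 → y ^ 2 = 1 → IsConj x y) : Cfsg.PLengthLE 2 1 G ∧ ((∃ m r : ℕ, Nonempty (↥(S : Subgroup G) ≃* (Fin r → Multiplicative (ZMod (2 ^ m))))) ∨ (¬ IsMulCommutative (S : Subgroup G) ∧ ∃ Y : Subgroup (MulAut ↥(S : Subgroup G)), Group.IsSolvable Y ∧ ∀ x y : ↥(S : Subgroup G), x ≠ 1 → x ^ 2 = 1 → y ≠ 1 → y ^ 2 = 1 → ∃ a ∈ Y, a x = y)) := by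
  classical
  set O := pPrimeCore 2 G with hO
  have hOn : O.Normal := inferInstance
  have hkey := key S htwo hconj
  obtain ⟨x₀, y₀, hx₀, hy₀, hxy₀, hx₀1, hx₀2, hy₀1, hy₀2⟩ := htwo
  have hdisj : ∀ z ∈ (S : Subgroup G), z ∈ O → z = 1 := by
    intro z hz hz'
    obtain ⟨m, hm⟩ := S.2 ⟨z, hz⟩
    have h6 : z ^ 2 ^ m = 1 := by simpa using congrArg Subtype.val hm
    have h7 : orderOf z ∣ 2 ^ m := orderOf_dvd_of_pow_eq_one h6
    have h8 : orderOf z ∣ Nat.card O := by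
      rw [← Subgroup.orderOf_mk z hz']
      exact orderOf_dvd_natCard _
    have h9 : Nat.Coprime (Nat.card O) (2 ^ m) :=
      Nat.Coprime.pow_right m (odd_core (G := G)).coprime_two_right
    rw [← orderOf_eq_one_iff]
    exact Nat.eq_one_of_dvd_coprimes h9 h8 h7
  set T : Sylow 2 (G ⧸ O) := S.mapSurjective (QuotientGroup.mk'_surjective O) with hT
  have hTK : (T : Subgroup (G ⧸ O)) = pCore 2 (G ⧸ O) :=
    le_antisymm (hkey T) (Lib.Cores.pCore_le_sylow T)
  -- 2-length one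
  have hPL : PLengthLE 2 1 G := by
    apply Lib.PLengthOne.pLengthLE_of_quotient (L := O)
    · rw [← even_iff_two_dvd, Nat.not_even_iff_odd]
      exact odd_core (G := G)
    · refine Lib.PLengthOne.PL1Data.pLengthLE (N := ⊥) (K := pCore 2 (G ⧸ O))
        ⟨inferInstance, inferInstance, bot_le, ?_, ?_, ?_⟩
      · rw [Subgroup.card_bot]; omega
      · intro x hx
        obtain ⟨m, hm⟩ := Lib.Cores.isPGroup_pCore 2 (G ⧸ O) ⟨x, hx⟩
        exact ⟨m, by rw [mem_bot]; simpa using congrArg Subtype.val hm⟩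
      · rw [← hTK]
        exact T.not_dvd_index
  refine ⟨hPL, ?_⟩
  -- transitivity of the normalizer
  have hNO : normalizer ((S : Subgroup G) : Set G) ⊔ O = ⊤ := by
    set M : Subgroup G := (pCore 2 (G ⧸ O)).comap (QuotientGroup.mk' O) with hM
    have hSM : (S : Subgroup G) ≤ M := by
      intro s hs
      rw [hM, mem_comap, ← hTK, hT, Sylow.coe_mapSurjective]
      exact ⟨s, hs, rfl⟩
    have hMS : M ≤ (S : Subgroup G) ⊔ O := by
      intro m hm
      rw [hM, mem_comap, ← hTK, hT, Sylow.coe_mapSurjective] at hm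
      obtain ⟨s, hs, hsm⟩ := hm
      have h1 : s⁻¹ * m ∈ O := by
        rw [← QuotientGroup.eq]; exact hsm
      have h2 : m = s * (s⁻¹ * m) := by group
      rw [h2]
      exact mul_mem (mem_sup_left hs) (mem_sup_right h1)
    rw [eq_top_iff, ← Sylow.normalizer_sup_eq_top' S hSM]
    exact sup_le le_sup_left (hMS.trans (sup_le_sup_right le_normalizer O))
  have htr : ∀ x ∈ (S : Subgroup G), ∀ y ∈ (S : Subgroup G), x ≠ 1 → x ^ 2 = 1 → y ≠ 1 →
      y ^ 2 = 1 → ∃ n ∈ normalizer ((S : Subgroup G) : Set G), n * x * n⁻¹ = y := by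
    intro x hx y hy hx1 hx2 hy1 hy2
    obtain ⟨g, hg⟩ := isConj_iff.1 (hconj x y hx1 hx2 hy1 hy2)
    have hgm : g ∈ normalizer ((S : Subgroup G) : Set G) ⊔ O := by rw [hNO]; exact mem_top g
    obtain ⟨n, hn, k, hk, rfl⟩ := mem_sup_of_normal_right.1 hgm
    refine ⟨n, hn, ?_⟩
    have h1 : n⁻¹ * y * n ∈ (S : Subgroup G) := by
      have := (mem_normalizer_iff.1 (inv_mem hn) y).1 hy
      rwa [inv_inv] at this
    have h2 : n⁻¹ * y * n = k * x * k⁻¹ := by rw [← hg]; group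
    have h3 : n⁻¹ * y * n * x⁻¹ = 1 := by
      apply hdisj _ (mul_mem h1 (inv_mem hx))
      rw [h2]
      have : k * x * k⁻¹ * x⁻¹ = k * (x * k⁻¹ * x⁻¹) := by group
      rw [this]
      exact mul_mem hk (hOn.conj_mem _ (inv_mem hk) x)
    have h4 : n⁻¹ * y * n = x := mul_inv_eq_one.1 h3
    rw [← h4]; group
  let f : normalizer ((S : Subgroup G) : Set G) →* MulAut (S : Subgroup G) :=
    (S : Subgroup G).normalizerMonoidHom
  have hf : ∀ (n : normalizer ((S : Subgroup G) : Set G)) (x : (S : Subgroup G)),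
      ((f n x : (S : Subgroup G)) : G) = n * x * (n : G)⁻¹ := fun n x => rfl
  have htr' : ∀ x y : (S : Subgroup G), x ≠ 1 → x ^ 2 = 1 → y ≠ 1 → y ^ 2 = 1 →
      ∃ a ∈ f.range, a x = y := by
    intro x y hx1 hx2 hy1 hy2
    obtain ⟨n, hn, hnx⟩ := htr x x.2 y y.2 (fun h => hx1 (Subtype.ext h))
      (by simpa using congrArg Subtype.val hx2) (fun h => hy1 (Subtype.ext h))
      (by simpa using congrArg Subtype.val hy2)
    exact ⟨f ⟨n, hn⟩, ⟨_, rfl⟩, Subtype.ext hnx⟩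
  by_cases hab : IsMulCommutative (S : Subgroup G)
  · left
    let _ : CommGroup (S : Subgroup G) := { (inferInstance : Group (S : Subgroup G)) with
      mul_comm := fun a b => Subtype.ext (isMulCommutative_iff_of_setLike.mp hab a a.2 b b.2) }
    refine Lib.ThInv5.homocyclic_of_transitive S.2 ?_
    intro x y hx1 hx2 hy1 hy2
    obtain ⟨a, -, ha⟩ := htr' x y hx1 hx2 hy1 hy2
    exact ⟨a, ha⟩
  · right
    refine ⟨hab, f.range, ?_, htr'⟩
    have : Group.IsSolvable (normalizer ((S : Subgroup G) : Set G)) := inferInstance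
    exact Group.isSolvable_of_surjective (MonoidHom.rangeRestrict_surjective f)

end Cfsg.Agent.S3797
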