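import Cfsg.Statements.S3798
import Cfsg.Agent.Lib.PLength
import Cfsg.Agent.Lib.PLengthOne
import Cfsg.Agent.Lib.FitRed
import Cfsg.Agent.Lib.H32PSolv
import Cfsg.Agent.Lib.OmegaFix
import Cfsg.Agent.Lib.CoprimeAction
import Cfsg.Agent.Lib.SchurZassenhaus
import Cfsg.Agent.Lib.SubgroupTools

set_option autoImplicit false
open Cfsg

namespace Cfsg.Agent.S3798

open Subgroup
open scoped commutatorElement Pointwise

/-- every characteristic subgroup of order divisible by `p` contains all elements of order `p` -/
def Tr (p : ℕ) (G : Type*) [Group G] : Prop :=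
  ∀ C : Subgroup G, C.Characteristic → p ∣ Nat.card C → ∀ x : G, x ^ p = 1 → x ∈ C

theorem tr_of_hyp {G : Type*} [Group G] [Finite G] {p : ℕ} [hp : Fact p.Prime]
    (htrans : ∀ U V : Subgroup G, Nat.card U = p → Nat.card V = p →
      ∃ a : MulAut G, U.map a.toMonoidHom = V) : Tr p G := by
  intro C hC hd x hx
  by_cases hx1 : x = 1
  · rw [hx1]; exact one_mem _
  obtain ⟨y, hy⟩ := exists_prime_orderOf_dvd_card' p hd
  have hy' : orderOf (y : G) = p := by rw [orderOf_coe, hy]
  have hxo : orderOf x = p := orderOf_eq_prime hx hx1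
  obtain ⟨a, ha⟩ := htrans (zpowers (y : G)) (zpowers x) (by rw [Nat.card_zpowers, hy'])
    (by rw [Nat.card_zpowers, hxo])
  have h1 : x ∈ (zpowers (y : G)).map a.toMonoidHom := by rw [ha]; exact mem_zpowers x
  obtain ⟨z, hz, rfl⟩ := h1
  have hzC : z ∈ C := (zpowers_le.2 y.2) hz
  exact (Subgroup.characteristic_iff_le_comap.1 hC a) hzC

theorem comap_characteristic {G : Type*} [Group G] (N : Subgroup G) [hN : N.Characteristic]
    (C : Subgroup (G ⧸ N)) (hC : C.Characteristic) :
    (C.comap (QuotientGroup.mk' N)).Characteristic := by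
  rw [Subgroup.characteristic_iff_le_comap]
  intro e x hx
  have h1 := Subgroup.characteristic_iff_le_comap.1 hC
    (QuotientGroup.congr N N e (Subgroup.characteristic_iff_map_eq.1 hN e)) hx
  exact h1

theorem tr_quot {G : Type*} [Group G] [Finite G] {p : ℕ} [hp : Fact p.Prime] (N : Subgroup G)
    [hN : N.Characteristic] (hNp : (Nat.card N).Coprime p) (h : Tr p G) : Tr p (G ⧸ N) := by
  intro C hC hd x hx
  have h1 := comap_characteristic N C hC
  have h2 : p ∣ Nat.card (C.comap (QuotientGroup.mk' N)) := by
    rw [Lib.Cores.card_comap_mk]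
    exact Dvd.dvd.mul_left hd _
  induction x using QuotientGroup.induction_on with | H g => ?_
  have hgN : g ^ p ∈ N := by
    rw [← QuotientGroup.eq_one_iff]
    exact hx
  obtain ⟨m, hm1, hm2⟩ := Nat.chineseRemainder hNp 0 1
  have hy : (g ^ m) ^ p = 1 := by
    rw [← pow_mul, mul_comm, pow_mul]
    obtain ⟨k, hk⟩ := (Nat.modEq_zero_iff_dvd.1 hm1)
    have h3 : (g ^ p) ^ Nat.card N = 1 := by
      have : (⟨g ^ p, hgN⟩ : N) ^ Nat.card N = 1 := pow_card_eq_one'
      exact congrArg (Subtype.val : N → G) this
    rw [hk, pow_mul, h3, one_pow]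
  have h4 : (g : G ⧸ N) = ((g ^ m : G) : G ⧸ N) := by
    rw [QuotientGroup.mk_pow]
    have h5 : (g : G ⧸ N) ^ p = 1 := hx
    have h6 : (g : G ⧸ N) ^ m = (g : G ⧸ N) ^ 1 := by
      rw [pow_eq_pow_iff_modEq]
      exact hm2.of_dvd (orderOf_dvd_of_pow_eq_one h5)
    rw [h6, pow_one]
  have h7 := h _ h1 h2 _ hy
  rw [h4]
  exact h7

theorem main {G : Type*} [Group G] [Finite G] {p : ℕ} [hp : Fact p.Prime] (hp2 : p ≠ 2)
    (hS : IsPSolvable p G) (hO : pPrimeCore p G = ⊥) (hT : Tr p G) : PLengthLE p 1 G := by
  by_cases hpG : p ∣ Nat.card G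
  swap
  · exact Lib.PLengthOne.pLengthLE_of_not_dvd hpG
  set P : Subgroup G := pCore p G with hP
  have hPn : P.Normal := Lib.Fitting.normal_pCore p
  have hPc : P.Characteristic := Lib.FitRed.characteristic_pCore G p
  have hPp : IsPGroup p P := Lib.Fitting.isPGroup_pCore p
  have hCP : centralizer (P : Set G) ≤ P := Lib.H32PSolv.centralizer_pCore_le hS hO
  have hPne : Nontrivial P := by
    rw [nontrivial_iff_ne_bot]
    intro h
    rw [h] at hCP
    have h1 : (⊤ : Subgroup G) = ⊥ := by
      rw [eq_bot_iff]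
      refine le_trans ?_ hCP
      intro x _
      rw [mem_centralizer_iff]
      intro y hy
      rw [coe_bot, Set.mem_singleton_iff] at hy
      rw [hy]; simp
    rw [← card_top (G := G), h1, card_bot] at hpG
    exact hp.out.one_lt.ne' (Nat.dvd_one.1 hpG)
  -- elements of order `p` are central in `P`
  have hZ : ∀ x : G, x ^ p = 1 → x ∈ P ∧ ∀ y ∈ P, y * x = x * y := by
    have hchar : (P ⊓ centralizer (P : Set G)).Characteristic := by
      have h2 : (centralizer (P : Set G)).Characteristic := inferInstance
      rw [Subgroup.characteristic_iff_le_comap]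
      intro e x hx
      exact ⟨(Subgroup.characteristic_iff_le_comap.1 hPc e) hx.1,
        (Subgroup.characteristic_iff_le_comap.1 h2 e) hx.2⟩
    have hd : p ∣ Nat.card (P ⊓ centralizer (P : Set G) : Subgroup G) := by
      have h3 := hPp.center_nontrivial
      obtain ⟨z, hz⟩ := exists_ne (1 : center P)
      have h4 : ((z : P) : G) ∈ P ⊓ centralizer (P : Set G) := by
        refine ⟨(z : P).2, ?_⟩
        change ((z : P) : G) ∈ centralizer (P : Set G)
        rw [mem_centralizer_iff]
        intro y hy
        have h5 := (mem_center_iff.1 z.2) ⟨y, hy⟩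
        exact congrArg (Subtype.val : P → G) h5
      have h6 : orderOf ((z : P) : G) ∣ Nat.card (P ⊓ centralizer (P : Set G) : Subgroup G) := by
        have := orderOf_dvd_natCard (⟨_, h4⟩ : (P ⊓ centralizer (P : Set G) : Subgroup G))
        rwa [← orderOf_coe] at this
      obtain ⟨k, hk⟩ := hPp (z : P)
      have h7 : (((z : P) : G)) ^ p ^ k = 1 := congrArg (Subtype.val : P → G) hk
      have h8 : orderOf ((z : P) : G) ≠ 1 := by
        rw [Ne, orderOf_eq_one_iff]
        intro h9
        apply hz
        exact Subtype.ext (Subtype.ext h9)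
      obtain ⟨j, hj, hj'⟩ := (Nat.dvd_prime_pow hp.out).1 (orderOf_dvd_of_pow_eq_one h7)
      refine dvd_trans ?_ h6
      rw [hj']
      apply dvd_pow_self
      rintro rfl
      exact h8 (by rw [hj', pow_zero])
    intro x hx
    have h1 := hT _ hchar hd x hx
    refine ⟨h1.1, fun y hy => mem_centralizer_iff.1 h1.2 y hy⟩
  set Q : Subgroup G := (pPrimeCore p (G ⧸ P)).comap (QuotientGroup.mk' P) with hQ
  have hQc : Q.Characteristic := comap_characteristic P _ (by
    rw [Subgroup.characteristic_iff_map_eq]
    intro e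
    exact Lib.Fitting.map_pPrimeCore_equiv p e)
  have hQn : Q.Normal := inferInstance
  have hPQ : P ≤ Q := by
    intro x hx
    change (QuotientGroup.mk' P) x ∈ pPrimeCore p (G ⧸ P)
    have : (QuotientGroup.mk' P) x = 1 := (QuotientGroup.eq_one_iff x).2 hx
    rw [this]; exact one_mem _
  have hcQ : (P.relIndex Q).Coprime p := by
    rw [hQ, Lib.PLength.relIndex_comap_mk]
    exact Lib.Fitting.coprime_card_pPrimeCore p
  obtain ⟨k, hk⟩ := IsPGroup.iff_card.1 hPp
  obtain ⟨L, hLQ, hLcard, hPL, hPLQ⟩ := Lib.CoprimeAction.exists_complement_rel (N := P) (S := Q)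
    le_normalizer_of_normal (by
      rw [inf_eq_left.2 hPQ, hk]
      exact Nat.Coprime.pow_left k hcQ.symm)
  rw [inf_eq_left.2 hPQ] at hPLQ
  by_cases hA : p ∣ Nat.card (centralizer (Q : Set G))
  · -- then `L` centralizes `P`
    have hcc : (centralizer (Q : Set G)).Characteristic := inferInstance
    have hfix : ∀ x ∈ P, x ^ p = 1 → ∀ a ∈ L, a * x = x * a := by
      intro x _ hx a ha
      exact mem_centralizer_iff.1 (hT _ hcc hA x hx) a (hLQ ha)
    have hLP := Lib.OmegaFix.le_centralizer_of_pow_eq_one hp2 (Nat.card P) P L rfl hPp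
      le_normalizer_of_normal (by rw [hLcard]; exact hcQ) hfix
    have hLb : L = ⊥ := by
      rw [eq_bot_iff, ← hPL]
      exact le_inf (hLP.trans hCP) le_rfl
    rw [hLb, sup_bot_eq] at hPLQ
    have hO1 : pPrimeCore p (G ⧸ P) = ⊥ := by
      rw [← Subgroup.map_comap_eq_self_of_surjective (QuotientGroup.mk'_surjective P)
        (pPrimeCore p (G ⧸ P)), ← hQ, ← hPLQ, Subgroup.map_eq_bot_iff, QuotientGroup.ker_mk']
    have hO2 : pCore p (G ⧸ P) = ⊥ := Lib.Fitting.pCore_quotient_pCore p
    have h1 := Lib.H32PSolv.centralizer_pCore_le (Lib.H32PSolv.isPSolvable_quotient hS P) hO1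
    rw [hO2] at h1
    have hPtop : P = ⊤ := by
      rw [eq_top_iff]
      intro x _
      rw [← QuotientGroup.eq_one_iff, ← mem_bot]
      apply h1
      rw [mem_centralizer_iff]
      intro y hy
      rw [coe_bot, Set.mem_singleton_iff] at hy
      rw [hy]; simp
    apply Lib.PLengthOne.pLengthLE_of_isPGroup
    rw [hPtop] at hPp
    exact hPp.of_equiv topEquiv
  · -- `N_G(L) ∩ P = 1`
    have hNP : ∀ z ∈ P, z ∈ normalizer (L : Set G) → z = 1 := by
      intro z hzP hzN
      by_contra hz1
      have hcl : ∀ w ∈ zpowers z, ∀ l ∈ L, l * w = w * l := by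
        intro w hw l hl
        have hwP : w ∈ P := (zpowers_le.2 hzP) hw
        have hwN : w ∈ normalizer (L : Set G) := (zpowers_le.2 hzN) hw
        have h1 : ⁅w, l⁆ ∈ P ⊓ L := by
          constructor
          · have : ⁅w, l⁆ = w * (l * w⁻¹ * l⁻¹) := by rw [commutatorElement_def]; group
            rw [this]
            exact P.mul_mem hwP (hPn.conj_mem _ (P.inv_mem hwP) l)
          · rw [commutatorElement_def]
            exact L.mul_mem ((mem_normalizer_iff.1 hwN l).1 hl) (L.inv_mem hl)
        rw [hPL, mem_bot, commutatorElement_eq_one_iff_mul_comm] at h1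
        exact h1.symm
      -- an element of order `p` in `⟨z⟩`
      have h2 : p ∣ Nat.card (zpowers z) := by
        rw [Nat.card_zpowers]
        obtain ⟨j, hj⟩ := hPp ⟨z, hzP⟩
        have h7 : z ^ p ^ j = 1 := congrArg (Subtype.val : P → G) hj
        obtain ⟨i, hi, hi'⟩ := (Nat.dvd_prime_pow hp.out).1 (orderOf_dvd_of_pow_eq_one h7)
        rw [hi']
        apply dvd_pow_self
        rintro rfl
        rw [pow_zero, orderOf_eq_one_iff] at hi'
        exact hz1 hi'
      obtain ⟨w, hw⟩ := exists_prime_orderOf_dvd_card' p h2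
      have hw' : orderOf (w : G) = p := by rw [orderOf_coe, hw]
      have hwp : (w : G) ^ p = 1 := by rw [← hw']; exact pow_orderOf_eq_one _
      apply hA
      have h3 : (w : G) ∈ centralizer (Q : Set G) := by
        rw [← hPLQ]
        have h4 : P ⊔ L ≤ centralizer ({(w : G)} : Set G) := by
          apply sup_le
          · intro y hy
            rw [mem_centralizer_iff]
            intro g hg
            rw [Set.mem_singleton_iff.1 hg]
            exact ((hZ _ hwp).2 y hy).symm
          · intro y hy
            rw [mem_centralizer_iff]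
            intro g hg
            rw [Set.mem_singleton_iff.1 hg]
            exact (hcl w w.2 y hy).symm
        rw [mem_centralizer_iff]
        intro y hy
        exact (mem_centralizer_iff.1 (h4 hy) (w : G) rfl).symm
      have h5 := orderOf_dvd_natCard (⟨(w : G), h3⟩ : centralizer (Q : Set G))
      rw [← orderOf_coe] at h5
      rw [← hw']
      exact h5
    -- Frattini argument
    have hF : ∀ g : G, ∃ a ∈ P, a⁻¹ * g ∈ normalizer (L : Set G) := by
      intro g
      have h1 : P ⊔ L = P ⊔ (MulAut.conj g • L) := by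
        have h2 : MulAut.conj g • (P ⊔ L) = MulAut.conj g • P ⊔ MulAut.conj g • L :=
          Lib.SubgroupTools.conj_smul_sup g P L
        rw [hPLQ, Lib.SubgroupTools.conj_smul_normal, Lib.SubgroupTools.conj_smul_normal] at h2
        rw [hPLQ]
        exact h2
      have hsolv : Group.IsSolvable P := by
        have := hPp.isNilpotent
        infer_instance
      obtain ⟨a, haP, ha⟩ := Lib.SchurZassenhaus.conj_of_solvable (N := P) (H := L)
        (K := MulAut.conj g • L) le_normalizer_of_normal le_normalizer_of_normal h1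
        (by rw [hk, hLcard]; exact Nat.Coprime.pow_left k hcQ.symm)
        (by
          have h3 : Nat.card (MulAut.conj g • L : Subgroup G) = Nat.card L :=
            Lib.SubgroupTools.card_conj_smul g L
          rw [hk, h3, hLcard]; exact Nat.Coprime.pow_left k hcQ.symm)
        (Or.inl hsolv)
      refine ⟨a, haP, ?_⟩
      rw [Lib.SubgroupTools.mem_normalizer_iff_conj_smul, Lib.SubgroupTools.conj_smul_mul, ← ha,
        ← Lib.SubgroupTools.conj_smul_mul, inv_mul_cancel, Lib.SubgroupTools.conj_smul_one]
    have hnd : ¬ p ∣ P.index := by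
      intro hd
      have hcomp : IsComplement' P (normalizer (L : Set G)) := by
        apply isComplement'_of_disjoint_and_mul_eq_univ
        · rw [disjoint_iff, eq_bot_iff]
          intro x hx
          exact hNP x hx.1 hx.2
        · rw [Set.eq_univ_iff_forall]
          intro g
          obtain ⟨a, ha, hag⟩ := hF g
          exact ⟨a, ha, a⁻¹ * g, hag, by simp⟩
      rw [hcomp.symm.index_eq_card] at hd
      obtain ⟨w, hw⟩ := exists_prime_orderOf_dvd_card' p hd
      have hw' : orderOf (w : G) = p := by rw [orderOf_coe, hw]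
      have hwp : (w : G) ^ p = 1 := by rw [← hw']; exact pow_orderOf_eq_one _
      have h1 := hNP w (hZ _ hwp).1 w.2
      rw [h1, orderOf_one] at hw'
      exact hp.out.one_lt.ne hw'
    refine Lib.PLengthOne.PL1Data.pLengthLE (N := ⊥) (K := P) ⟨inferInstance, hPn, bot_le, ?_, ?_,
      hnd⟩
    · rw [card_bot]
      exact fun h1 => hp.out.one_lt.ne' (Nat.dvd_one.mp h1)
    · intro x hx
      obtain ⟨n, hn⟩ := hPp ⟨x, hx⟩
      exact ⟨n, by rw [mem_bot]; exact congrArg (Subtype.val : P → G) hn⟩

/-- The Gaschütz–Yen Theorem: let G be a finite p-soluble group, p an odd prime dividing its order, such that the automorphism group of G permutes the subgroups of G of order p transitively. Then G has p-length at most 1. -/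
theorem result {G : Type*} [Group G] [Finite G] {p : ℕ} [Fact p.Prime] (hp : p ≠ 2) (hdvd : p ∣ Nat.card G) (hG : Cfsg.IsPSolvable p G) (htrans : ∀ U V : Subgroup G, Nat.card U = p → Nat.card V = p → ∃ a : MulAut G, U.map a.toMonoidHom = V) : Cfsg.PLengthLE p 1 G := by
  apply Lib.PLength.pLengthLE_of_coprime (pPrimeCore p G) (Lib.Fitting.coprime_card_pPrimeCore p)
  have hc : (pPrimeCore p G).Characteristic := by
    rw [Subgroup.characteristic_iff_map_eq]
    intro e
    exact Lib.Fitting.map_pPrimeCore_equiv p e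
  exact main hp (Lib.H32PSolv.isPSolvable_quotient hG _)
    (Lib.Fitting.pPrimeCore_quotient_pPrimeCore p)
    (tr_quot _ (Lib.Fitting.coprime_card_pPrimeCore p) (tr_of_hyp htrans))

end Cfsg.Agent.S3798
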