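import Cfsg.Statements.S3799
import Cfsg.Agent.Lib.HBBasic

set_option autoImplicit false
open Cfsg

namespace Cfsg.Agent.S3799

open Cfsg.Agent.Lib Subgroup Matrix
open scoped commutatorElement

/-- the Heisenberg group of order `p^(1+2n)`. -/
@[ext]
structure Heis (p n : ℕ) where
  x : Fin n → ZMod p
  y : Fin n → ZMod p
  z : ZMod p

variable {p n : ℕ}

instance : Mul (Heis p n) := ⟨fun a b => ⟨a.x + b.x, a.y + b.y, a.z + b.z + a.x ⬝ᵥ b.y⟩⟩
instance : One (Heis p n) := ⟨⟨0, 0, 0⟩⟩
instance : Inv (Heis p n) := ⟨fun a => ⟨-a.x, -a.y, -a.z + a.x ⬝ᵥ a.y⟩⟩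

@[simp] theorem mul_x (a b : Heis p n) : (a * b).x = a.x + b.x := rfl
@[simp] theorem mul_y (a b : Heis p n) : (a * b).y = a.y + b.y := rfl
@[simp] theorem mul_z (a b : Heis p n) : (a * b).z = a.z + b.z + a.x ⬝ᵥ b.y := rfl
@[simp] theorem one_x : (1 : Heis p n).x = 0 := rfl
@[simp] theorem one_y : (1 : Heis p n).y = 0 := rfl
@[simp] theorem one_z : (1 : Heis p n).z = 0 := rfl
@[simp] theorem inv_x (a : Heis p n) : (a⁻¹).x = -a.x := rfl
@[simp] theorem inv_y (a : Heis p n) : (a⁻¹).y = -a.y := rfl
@[simp] theorem inv_z (a : Heis p n) : (a⁻¹).z = -a.z + a.x ⬝ᵥ a.y := rfl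

instance : Group (Heis p n) := Group.ofLeftAxioms
  (by
    intro a b c
    ext i
    · simp [add_assoc]
    · simp [add_assoc]
    · simp [add_dotProduct, dotProduct_add]; ring)
  (by
    intro a
    ext i
    · simp
    · simp
    · simp)
  (by
    intro a
    ext i
    · simp
    · simp
    · simp)

/-- as a product -/
def toProd : Heis p n ≃ (Fin n → ZMod p) × (Fin n → ZMod p) × ZMod p where
  toFun h := ⟨h.x, h.y, h.z⟩
  invFun t := ⟨t.1, t.2.1, t.2.2⟩
  left_inv _ := rfl
  right_inv _ := rfl

instance [NeZero p] : Finite (Heis p n) := Finite.of_equiv _ toProd.symm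

theorem card_heis [NeZero p] : Nat.card (Heis p n) = p ^ (1 + 2 * n) := by
  rw [Nat.card_congr toProd, Nat.card_prod, Nat.card_prod, Nat.card_fun, Nat.card_zmod, Nat.card_fin]
  ring

theorem comm_eq (a b : Heis p n) : ⁅a, b⁆ = ⟨0, 0, a.x ⬝ᵥ b.y - b.x ⬝ᵥ a.y⟩ := by
  rw [commutatorElement_def]
  ext i
  · simp
  · simp
  · simp [add_dotProduct, dotProduct_add]; ring

theorem pow_eq (a : Heis p n) (k : ℕ) : a ^ k = ⟨k • a.x, k • a.y, k • a.z + (k.choose 2) • (a.x ⬝ᵥ a.y)⟩ := by
  induction k with
  | zero =>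
    rw [pow_zero]
    ext i <;> simp
  | succ k ih =>
    rw [pow_succ, ih]
    ext i
    · simp; ring
    · simp; ring
    · have h2 : (k + 1).choose 2 = k.choose 2 + k := by
        rw [Nat.choose_succ_succ' k 1, Nat.choose_one_right, add_comm]
      have h3 : (k • a.x) ⬝ᵥ a.y = k • (a.x ⬝ᵥ a.y) := smul_dotProduct k a.x a.y
      change k • a.z + k.choose 2 • (a.x ⬝ᵥ a.y) + a.z + (k • a.x) ⬝ᵥ a.y =
        (k + 1) • a.z + (k + 1).choose 2 • (a.x ⬝ᵥ a.y)
      rw [h3, h2]
      simp only [nsmul_eq_mul]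
      push_cast
      ring

theorem pow_p [Fact p.Prime] (hp : p ≠ 2) (a : Heis p n) : a ^ p = 1 := by
  rw [pow_eq]
  have h1 : ((p.choose 2 : ℕ) : ZMod p) = 0 := by
    rw [ZMod.natCast_eq_zero_iff]
    exact Nat.Prime.dvd_choose_self (Fact.out) (by norm_num)
      (lt_of_le_of_ne (Fact.out : p.Prime).two_le (Ne.symm hp))
  ext i
  · simp
  · simp
  · simp [h1]

theorem mem_center_iff' (hn : 1 ≤ n) (a : Heis p n) : a ∈ center (Heis p n) ↔ a.x = 0 ∧ a.y = 0 := by
  rw [Subgroup.mem_center_iff]
  constructor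
  · intro h
    constructor
    · ext i
      have h1 := congrArg Heis.z (h ⟨0, Pi.single i 1, 0⟩)
      simpa using h1
    · ext i
      have h1 := congrArg Heis.z (h ⟨Pi.single i 1, 0, 0⟩)
      simpa using h1
  · rintro ⟨h1, h2⟩ g
    ext i
    · simp [h1]
    · simp [h2]
    · simp [h1, h2]; ring

theorem card_center [NeZero p] (hn : 1 ≤ n) : Nat.card (center (Heis p n)) = p := by
  have e : center (Heis p n) ≃ ZMod p :=
    { toFun := fun a => a.1.z
      invFun := fun z => ⟨⟨0, 0, z⟩, (mem_center_iff' hn _).mpr ⟨rfl, rfl⟩⟩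
      left_inv := by
        rintro ⟨a, ha⟩
        have h := (mem_center_iff' hn a).mp ha
        apply Subtype.ext
        ext i
        · simp [h.1]
        · simp [h.2]
        · rfl
      right_inv := fun z => rfl }
  rw [Nat.card_congr e, Nat.card_zmod]

theorem isPGroup [Fact p.Prime] : IsPGroup p (Heis p n) := IsPGroup.of_card card_heis

theorem commutator_eq (hn : 1 ≤ n) : commutator (Heis p n) = center (Heis p n) := by
  apply le_antisymm
  · rw [commutator_def, Subgroup.commutator_le]
    intro a _ b _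
    rw [comm_eq, mem_center_iff' hn]
    exact ⟨rfl, rfl⟩
  · intro a ha
    have h := (mem_center_iff' hn a).mp ha
    have h1 : a = ⁅(⟨Pi.single ⟨0, hn⟩ a.z, 0, 0⟩ : Heis p n), (⟨0, Pi.single ⟨0, hn⟩ 1, 0⟩ : Heis p n)⁆ := by
      rw [comm_eq]
      ext i
      · simp [h.1]
      · simp [h.2]
      · simp
    rw [h1, commutator_def]
    exact commutator_mem_commutator (mem_top _) (mem_top _)

theorem isExtraspecial [Fact p.Prime] (hp : p ≠ 2) (hn : 1 ≤ n) : IsExtraspecial p (Heis p n) := by
  refine ⟨⟨isPGroup, ?_, commutator_eq hn⟩, card_center hn⟩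
  apply le_antisymm
  · exact HBBasic.frattini_le_of_pow_mem (p := p) _ (fun x => by rw [pow_p hp]; exact one_mem _) (commutator_eq hn).le
  · rw [← commutator_eq hn]
    exact HBBasic.commutator_le_frattini isPGroup

theorem isExtraspecial_congr {G H : Type*} [Group G] [Group H] (e : G ≃* H) (h : IsExtraspecial p G) :
    IsExtraspecial p H := by
  have hc : (center G).map e.toMonoidHom = center H := by
    apply le_antisymm
    · rintro _ ⟨x, hx, rfl⟩
      rw [Subgroup.mem_center_iff]
      intro g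
      obtain ⟨g, rfl⟩ := e.surjective g
      have := Subgroup.mem_center_iff.mp hx g
      change e g * e x = e x * e g
      rw [← map_mul, this, map_mul]
    · intro y hy
      obtain ⟨y, rfl⟩ := e.surjective y
      refine ⟨y, ?_, rfl⟩
      rw [SetLike.mem_coe, Subgroup.mem_center_iff]
      intro g
      have := Subgroup.mem_center_iff.mp hy (e g)
      rw [← map_mul, ← map_mul] at this
      exact e.injective this
  refine ⟨⟨h.1.1.of_equiv e, ?_, ?_⟩, ?_⟩
  · rw [← hc, ← h.1.2.1]
    exact (e.mapSubgroup.map_radical).symm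
  · rw [← hc, ← h.1.2.2, commutator_def, commutator_def, Subgroup.map_commutator]
    have : (⊤ : Subgroup G).map e.toMonoidHom = ⊤ := Subgroup.map_top_of_surjective _ e.surjective
    rw [this]
  · rw [← hc, ← h.2]
    exact Nat.card_congr (Subgroup.equivMapOfInjective _ e.toMonoidHom e.injective).toEquiv.symm

/-- the first row -/
def rowA (h : Heis p n) : Fin (n + 2) → ZMod p := Fin.cons 0 (Fin.snoc (α := fun _ => ZMod p) h.x h.z : Fin (n + 1) → ZMod p)
/-- the last column -/
def colB (h : Heis p n) : Fin (n + 2) → ZMod p := Fin.cons 0 (Fin.snoc (α := fun _ => ZMod p) h.y 0 : Fin (n + 1) → ZMod p)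

/-- first unit vector -/
def e0 : Fin (n + 2) → ZMod p := Pi.single 0 1
/-- last unit vector -/
def el : Fin (n + 2) → ZMod p := Pi.single (Fin.last (n + 1)) 1

theorem rowA_e0 (h : Heis p n) : rowA h ⬝ᵥ e0 = 0 := by
  simp [e0, rowA]
theorem el_e0 : (el : Fin (n + 2) → ZMod p) ⬝ᵥ e0 = 0 := by
  rw [el, e0, single_dotProduct]
  simp [Pi.single_apply]
theorem el_colB (h : Heis p n) : el ⬝ᵥ colB h = 0 := by
  rw [el, single_dotProduct, colB, one_mul, ← Fin.succ_last, Fin.cons_succ, Fin.snoc_last]
theorem rowA_colB (h h' : Heis p n) : rowA h ⬝ᵥ colB h' = h.x ⬝ᵥ h'.y := by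
  rw [dotProduct, Fin.sum_univ_succ, Fin.sum_univ_castSucc]
  simp [rowA, colB, dotProduct]
theorem rowA_mul (h h' : Heis p n) : rowA (h * h') = rowA h + rowA h' + (h.x ⬝ᵥ h'.y) • el := by
  ext i
  refine Fin.cases ?_ (fun i => ?_) i
  · simp [rowA, el, Pi.single_apply]
  · refine Fin.lastCases ?_ (fun i => ?_) i
    · simp [rowA, el]
    · have : (i.castSucc.succ : Fin (n + 2)) ≠ Fin.last (n + 1) := by
        rw [← Fin.succ_last]
        intro h
        exact (Fin.castSucc_lt_last i).ne (Fin.succ_injective _ h)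
      simp [rowA, el, Pi.single_apply, this]
theorem colB_mul (h h' : Heis p n) : colB (h * h') = colB h + colB h' := by
  ext i
  refine Fin.cases ?_ (fun i => ?_) i
  · simp [colB]
  · refine Fin.lastCases ?_ (fun i => ?_) i
    · simp [colB]
    · simp [colB]

/-- the matrix representation -/
def rep : Heis p n →* Matrix (Fin (n + 2)) (Fin (n + 2)) (ZMod p) where
  toFun h := 1 + vecMulVec e0 (rowA h) + vecMulVec (colB h) el
  map_one' := by
    have h1 : rowA (1 : Heis p n) = 0 := by
      ext i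
      refine Fin.cases ?_ (fun i => ?_) i
      · simp [rowA]
      · refine Fin.lastCases ?_ (fun i => ?_) i
        · simp [rowA]
        · simp [rowA]
    have h2 : colB (1 : Heis p n) = 0 := by
      ext i
      refine Fin.cases ?_ (fun i => ?_) i
      · simp [colB]
      · refine Fin.lastCases ?_ (fun i => ?_) i
        · simp [colB]
        · simp [colB]
    rw [h1, h2]
    simp
  map_mul' h h' := by
    rw [rowA_mul, colB_mul]
    have hA : vecMulVec (e0 : Fin (n + 2) → ZMod p) (rowA h + rowA h' + (h.x ⬝ᵥ h'.y) • el) =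
        vecMulVec e0 (rowA h) + vecMulVec e0 (rowA h') + (h.x ⬝ᵥ h'.y) • vecMulVec e0 el := by
      rw [vecMulVec_add, vecMulVec_add, vecMulVec_smul]
    rw [hA, add_vecMulVec]
    simp only [mul_add, add_mul, mul_one, one_mul, vecMulVec_mul_vecMulVec, rowA_e0, el_e0, el_colB, rowA_colB,
      zero_smul, add_zero, vecMulVec_smul, vecMulVec_zero, zero_vecMulVec]
    abel

theorem rep_injective : Function.Injective (rep : Heis p n →* _) := by
  intro h h' hh
  have h0 : rowA h = rowA h' := by
    ext j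
    have h1 := congrFun (congrFun hh 0) j
    simp only [rep, MonoidHom.coe_mk, OneHom.coe_mk, Matrix.add_apply, vecMulVec_apply] at h1
    simpa [e0, colB] using h1
  have h1 : colB h = colB h' := by
    ext j
    have h1 := congrFun (congrFun hh j) (Fin.last (n + 1))
    simp only [rep, MonoidHom.coe_mk, OneHom.coe_mk, Matrix.add_apply, vecMulVec_apply, h0] at h1
    simpa [el] using h1
  ext i
  · have := congrFun h0 i.castSucc.succ
    simpa [rowA] using this
  · have := congrFun h1 i.castSucc.succ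
    simpa [colB] using this
  · have := congrFun h0 (Fin.last n).succ
    simpa [rowA] using this

/-- For every odd prime p and every n ≥ 1 there is an extraspecial p-group of order p^(1+2n) and exponent p; concretely, the general linear group of degree n + 2 over the field with p elements contains such a subgroup. -/
theorem result (p : ℕ) [Fact p.Prime] (hp : p ≠ 2) (n : ℕ) (hn : 1 ≤ n) : ∃ E : Subgroup (Matrix.GeneralLinearGroup (Fin (n + 2)) (ZMod p)), Cfsg.IsExtraspecial p ↥E ∧ Nat.card E = p ^ (1 + 2 * n) ∧ ∀ x ∈ E, x ^ p = 1 := by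
  let φ : Heis p n →* Matrix.GeneralLinearGroup (Fin (n + 2)) (ZMod p) := rep.toHomUnits
  have hφ : Function.Injective φ := by
    intro a b h
    apply rep_injective
    have := congrArg Units.val h
    simpa [φ] using this
  let e : Heis p n ≃* φ.range := MonoidHom.ofInjective hφ
  refine ⟨φ.range, isExtraspecial_congr e (isExtraspecial hp hn), ?_, ?_⟩
  · rw [← card_heis (p := p) (n := n)]
    exact Nat.card_congr e.toEquiv.symm
  · rintro _ ⟨h, rfl⟩
    rw [← map_pow, pow_p hp, map_one]

end Cfsg.Agent.S3799
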