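import Cfsg.Statements.S3800
import Cfsg.Agent.Lib.SchurZassenhaus
import Cfsg.Agent.Lib.SubgroupTools

set_option autoImplicit false
open Cfsg
open scoped Pointwise

namespace Cfsg.Agent.S3800

open Cfsg.Agent.Lib.SchurZassenhaus Cfsg.Agent.Lib.SubgroupTools

/-- Let G be a finite group, N a normal subgroup of G whose order is prime to p, and P a p-subgroup of G. Then in G/N the normalizer of the image of P is the image of N_G(P), and the centralizer of the image of P is the image of C_G(P). -/
theorem result {G : Type*} [Group G] [Finite G] {p : ℕ} [Fact p.Prime] (N : Subgroup G) [N.Normal] (hN : (Nat.card N).Coprime p) (P : Subgroup G) (hP : IsPGroup p P) : Subgroup.normalizer ((P.map (QuotientGroup.mk' N)) : Set (G ⧸ N)) = (Subgroup.normalizer (P : Set G)).map (QuotientGroup.mk' N) ∧ Subgroup.centralizer ((P.map (QuotientGroup.mk' N)) : Set (G ⧸ N)) = (Subgroup.centralizer (P : Set G)).map (QuotientGroup.mk' N) := by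
  have hcop : ∀ Q : Subgroup G, IsPGroup p Q → (Nat.card N).Coprime (Nat.card Q) := by
    intro Q hQ
    obtain ⟨n, hn⟩ := IsPGroup.iff_card.mp hQ
    rw [hn]; exact Nat.Coprime.pow_right n hN
  -- lift elements normalizing the image
  have key : ∀ g : G, (QuotientGroup.mk' N g) ∈ Subgroup.normalizer ((P.map (QuotientGroup.mk' N)) : Set (G ⧸ N)) →
      ∃ a ∈ N, a * g ∈ Subgroup.normalizer (P : Set G) := by
    intro g hg
    have h1 : N ⊔ (MulAut.conj g • P) = N ⊔ P := by
      have h2 : (MulAut.conj g • P).map (QuotientGroup.mk' N) = P.map (QuotientGroup.mk' N) := by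
        rw [map_conj_smul]
        exact conj_smul_of_mem_normalizer hg
      have h3 := congrArg (Subgroup.comap (QuotientGroup.mk' N)) h2
      rw [Subgroup.comap_map_eq, Subgroup.comap_map_eq, QuotientGroup.ker_mk'] at h3
      rw [sup_comm, h3, sup_comm]
    have hPc : IsPGroup p ↥(MulAut.conj g • P) := by
      rw [conj_smul_eq_map]; exact hP.map _
    have hsol : Group.IsSolvable ↥(MulAut.conj g • P) := by
      haveI := hPc.isNilpotent
      infer_instance
    obtain ⟨a, ha, haP⟩ := conj_of_solvable (N := N) (H := MulAut.conj g • P) (K := P)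
      Subgroup.le_normalizer_of_normal Subgroup.le_normalizer_of_normal h1 (hcop _ hPc) (hcop _ hP) (Or.inr hsol)
    refine ⟨a, ha, ?_⟩
    rw [mem_normalizer_iff_conj_smul, conj_smul_mul]
    exact haP
  constructor
  · apply le_antisymm
    · intro x hx
      obtain ⟨g, rfl⟩ := QuotientGroup.mk'_surjective N x
      obtain ⟨a, ha, hag⟩ := key g hx
      refine ⟨a * g, hag, ?_⟩
      rw [map_mul]
      have : QuotientGroup.mk' N a = 1 := (QuotientGroup.eq_one_iff a).mpr ha
      rw [this, one_mul]
    · rintro _ ⟨g, hg, rfl⟩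
      rw [mem_normalizer_iff_conj_smul, ← map_conj_smul]
      rw [SetLike.mem_coe, mem_normalizer_iff_conj_smul] at hg
      rw [hg]
  · apply le_antisymm
    · intro x hx
      obtain ⟨g, rfl⟩ := QuotientGroup.mk'_surjective N x
      have hx' := Subgroup.centralizer_le_normalizer _ hx
      obtain ⟨a, ha, hag⟩ := key g hx'
      refine ⟨a * g, ?_, ?_⟩
      · rw [SetLike.mem_coe, Subgroup.mem_centralizer_iff]
        intro y hy
        rw [Subgroup.mem_centralizer_iff] at hx
        have h1 := hx (QuotientGroup.mk' N y) ⟨y, hy, rfl⟩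
        have ha1 : QuotientGroup.mk' N a = 1 := (QuotientGroup.eq_one_iff a).mpr ha
        have h2 : (a * g) * y * (a * g)⁻¹ * y⁻¹ ∈ N := by
          rw [← QuotientGroup.ker_mk' N, MonoidHom.mem_ker]
          simp only [map_mul, map_inv, ha1, one_mul]
          rw [← h1]; group
        have h3 : (a * g) * y * (a * g)⁻¹ * y⁻¹ ∈ P :=
          mul_mem ((Subgroup.mem_normalizer_iff.mp hag y).mp hy) (inv_mem hy)
        have h4 : (a * g) * y * (a * g)⁻¹ * y⁻¹ ∈ N ⊓ P := ⟨h2, h3⟩
        rw [inf_eq_bot_of_coprime' (hcop P hP), Subgroup.mem_bot, mul_inv_eq_one, mul_inv_eq_iff_eq_mul] at h4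
        exact h4.symm
      · rw [map_mul]
        have : QuotientGroup.mk' N a = 1 := (QuotientGroup.eq_one_iff a).mpr ha
        rw [this, one_mul]
    · rintro _ ⟨g, hg, rfl⟩
      rw [Subgroup.mem_centralizer_iff]
      rintro _ ⟨y, hy, rfl⟩
      rw [SetLike.mem_coe, Subgroup.mem_centralizer_iff] at hg
      rw [← map_mul, ← map_mul, hg y hy]

end Cfsg.Agent.S3800
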