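import Cfsg.Statements.S3951
import Cfsg.Agent.Lib.SchurAbel

set_option autoImplicit false
open Cfsg

namespace Cfsg.Agent.S3951

/-- For positive integers `m` and `n` with `n` dividing `m`, the Schur multiplier of the abelian group `ZMod m × ZMod n` (written multiplicatively) is cyclic of order `n`. In particular the elementary abelian group of order `p ^ 2` has multiplier of order `p`. -/
theorem result (m n : ℕ) [NeZero m] [NeZero n] (hnm : n ∣ m) : Cfsg.HasCyclicSchurMultiplier (Multiplicative (ZMod m × ZMod n)) n := by
  exact Lib.SchurAbel.mult_zmod_prod m n hnm

end Cfsg.Agent.S3951
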