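import Cfsg.Statements.S3952
import Cfsg.Agent.Lib.SchurExp

set_option autoImplicit false
open Cfsg

namespace Cfsg.Agent.S3952

open Cfsg.Agent.Lib

/-- If `A` is the Schur multiplier of the finite group `Q`, then the square of the exponent of `A` divides the order of `Q`. -/
theorem result {Q : Type*} [Group Q] [Finite Q] {A : Type*} [CommGroup A] (hA : Cfsg.HasSchurMultiplier Q A) : Monoid.exponent A ^ 2 ∣ Nat.card Q := by
  obtain ⟨⟨Γ, _, _, σ, ⟨hs, hc, hd⟩, ⟨e⟩⟩, -⟩ := hA
  have h1 := SchurExp.exponent_sq_dvd σ.ker hc hd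
  have h2 : σ.ker.index = Nat.card Q := by
    rw [Subgroup.index_ker]
    have : σ.range = ⊤ := MonoidHom.range_eq_top.2 hs
    rw [this, Subgroup.card_top]
  rw [h2, Monoid.exponent_eq_of_mulEquiv e] at h1
  exact h1

end Cfsg.Agent.S3952
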