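import Cfsg.Statements.S3962
import Mathlib

set_option autoImplicit false
open Cfsg

namespace Cfsg.Agent.S3962

/-- Let `G` be a perfect group and `π : G →* Q` a surjective homomorphism whose kernel is central. Then `π` maps the centre of `G` onto the centre of `Q`. Taking `π` to be the map to `G ⧸ Z(G)` shows that the central quotient of a perfect group has trivial centre. -/
theorem result {G Q : Type*} [Group G] [Group Q] (hG : Group.IsPerfect G) (π : G →* Q) (hπ : Function.Surjective π) (hker : π.ker ≤ Subgroup.center G) : (Subgroup.center G).map π = Subgroup.center Q := by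
  apply le_antisymm
  · rintro _ ⟨x, hx, rfl⟩
    rw [Subgroup.mem_center_iff]
    intro q
    obtain ⟨g, rfl⟩ := hπ q
    rw [← map_mul, ← map_mul, Subgroup.mem_center_iff.1 hx g]
  · intro y hy
    obtain ⟨x, rfl⟩ := hπ y
    refine ⟨x, ?_, rfl⟩
    have hz : ∀ g : G, g * x * g⁻¹ * x⁻¹ ∈ Subgroup.center G := by
      intro g
      apply hker
      rw [MonoidHom.mem_ker]
      simp only [map_mul, map_inv]
      rw [Subgroup.mem_center_iff.1 hy (π g)]
      group
    let φ : G →* Subgroup.center G :=
      { toFun := fun g => ⟨g * x * g⁻¹ * x⁻¹, hz g⟩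
        map_one' := by ext; simp
        map_mul' := by
          intro g h
          ext
          have h1 := Subgroup.mem_center_iff.1 (hz h) g
          show g * h * x * (g * h)⁻¹ * x⁻¹ = g * x * g⁻¹ * x⁻¹ * (h * x * h⁻¹ * x⁻¹)
          have h2 : g * h * x * (g * h)⁻¹ * x⁻¹ = (g * (h * x * h⁻¹ * x⁻¹)) * x * g⁻¹ * x⁻¹ := by group
          rw [h2, h1]
          have h3 := Subgroup.mem_center_iff.1 (hz h) (x * g⁻¹ * x⁻¹)
          have h4 := Subgroup.mem_center_iff.1 (hz h) (g * x * g⁻¹ * x⁻¹)
          rw [h4]
          group }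
    have h1 : commutator G ≤ φ.ker := by
      rw [commutator_def, Subgroup.commutator_le]
      intro a _ b _
      rw [MonoidHom.mem_ker, map_commutatorElement, commutatorElement_eq_one_iff_mul_comm]
      ext
      exact (Subgroup.mem_center_iff.1 (φ a).2 (φ b)).symm
    rw [hG.commutator_eq_top] at h1
    show x ∈ Subgroup.center G
    rw [Subgroup.mem_center_iff]
    intro g
    have h2 := h1 (Subgroup.mem_top g)
    rw [MonoidHom.mem_ker] at h2
    have h3 : g * x * g⁻¹ * x⁻¹ = 1 := congrArg Subtype.val h2
    calc g * x = (g * x * g⁻¹ * x⁻¹) * (x * g) := by group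
      _ = x * g := by rw [h3, one_mul]

end Cfsg.Agent.S3962
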