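import Cfsg.Statements.S3964
import Cfsg.Agent.Lib.SchurQuatDih

set_option autoImplicit false
open Cfsg

namespace Cfsg.Agent.S3964

/-- For odd `n` the dihedral group of order `2 n` has trivial Schur multiplier. -/
theorem result (n : ℕ) (hn : Odd n) : Cfsg.HasCyclicSchurMultiplier (DihedralGroup n) 1 := by
  exact Lib.SchurQuatDih.dih_odd_trivial n hn

end Cfsg.Agent.S3964
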