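import Cfsg.Statements.S3968
import Cfsg.Agent.Lib.Codegree

set_option autoImplicit false
open Cfsg

namespace Cfsg.Agent.S3968

open Cfsg Cfsg.Agent.Lib Cfsg.Agent.Lib.CharBasic Cfsg.Agent.Lib.DefectZero
open scoped ComplexConjugate commutatorElement

theorem central_of_norm {G : Type*} [Group G] [Finite G] {χ : G → ℂ} (hχ : IsCharacter G χ)
    (hfaith : ∀ g : G, χ g = χ 1 → g = 1) {x : G} (hx : ‖χ x‖ = ‖χ 1‖) :
    x ∈ Subgroup.center G := by
  rw [Subgroup.mem_center_iff]
  intro g
  have h1 : χ (g * x * g⁻¹ * x⁻¹) = χ 1 := by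
    obtain ⟨n, ρ, rfl⟩ := hχ
    have h0 : ‖ρ.character 1‖ = (Module.finrank ℂ (Fin n → ℂ) : ℝ) := by rw [ρ.char_one]; simp
    rw [h0] at hx
    obtain ⟨ω, hω⟩ := (CharValues.norm_character_eq_iff ρ x).1 hx
    have h1 : ρ (g * x * g⁻¹ * x⁻¹) = ρ 1 := by
      have h2 : ρ (g * x * g⁻¹) = ρ x := by
        rw [map_mul, map_mul, hω]
        have h3 : ρ g * (ω • (LinearMap.id : (Fin n → ℂ) →ₗ[ℂ] (Fin n → ℂ))) * ρ g⁻¹ =
            ω • (ρ g * ρ g⁻¹) := by
          ext v
          simp
        rw [h3, ← map_mul, mul_inv_cancel, map_one]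
        rfl
      rw [map_mul, h2, ← map_mul, mul_inv_cancel]
    simp only [Representation.character, h1]
  have h2 := hfaith _ h1
  calc g * x = (g * x * g⁻¹ * x⁻¹) * (x * g) := by group
    _ = x * g := by rw [h2, one_mul]

/-- Let `p` be a prime and `G` a finite group with a faithful irreducible complex character of degree `p` (so `G` is an irreducible linear group in `p` variables). If `p ^ 2` divides the order of `G`, then the centre of `G` is nontrivial. -/
theorem result {G : Type*} [Group G] [Finite G] (p : ℕ) (hp : p.Prime) (χ : Cfsg.IrrCharacter G) (hdeg : χ.1 1 = p) (hfaith : ∀ g : G, χ.1 g = χ.1 1 → g = 1) (hdiv : p ^ 2 ∣ Nat.card G) : Subgroup.center G ≠ ⊥ := by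
  classical
  haveI := Fact.mk hp
  haveI := Fintype.ofFinite G
  obtain ⟨P⟩ : Nonempty (Sylow p G) := inferInstance
  haveI : Fintype (P : Subgroup G) := Fintype.ofFinite _
  have hcP : p ^ 2 ∣ Nat.card (P : Subgroup G) := by
    rw [P.card_eq_multiplicity]
    exact pow_dvd_pow p ((hp.pow_dvd_iff_le_factorization Nat.card_pos.ne').1 hdiv)
  have hcP2 : p ^ 2 ≤ Nat.card (P : Subgroup G) := Nat.le_of_dvd Nat.card_pos hcP
  have hnorm1 : ‖(χ : G → ℂ) 1‖ = p := by rw [hdeg]; simp
  -- it is enough to find a nontrivial element with norm p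
  suffices h : ∃ x : G, x ≠ 1 ∧ ‖(χ : G → ℂ) x‖ = ‖(χ : G → ℂ) 1‖ by
    obtain ⟨x, hx1, hx⟩ := h
    intro hbot
    have h1 := central_of_norm χ.2.isCharacter hfaith hx
    rw [hbot, Subgroup.mem_bot] at h1
    exact hx1 h1
  by_cases hab : ∀ a ∈ (P : Subgroup G), ∀ b ∈ (P : Subgroup G), a * b = b * a
  · by_contra hno
    push Not at hno
    have hzero : ∀ x ∈ (P : Subgroup G), x ≠ 1 → (χ : G → ℂ) x = 0 := by
      intro x hx hx1
      obtain ⟨n, ρ, hρ, hρχ⟩ := χ.2
      haveI := hρ
      have hfr : Module.finrank ℂ (Fin n → ℂ) = p := by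
        have h5 : ρ.character 1 = (Module.finrank ℂ (Fin n → ℂ) : ℂ) := ρ.char_one
        rw [hρχ, hdeg] at h5
        exact_mod_cast h5.symm
      have hcop : Nat.Coprime (Module.finrank ℂ (Fin n → ℂ))
          (Subgroup.centralizer ({x} : Set G)).index := by
        rw [hfr, hp.coprime_iff_not_dvd]
        intro h1
        have h2 : (P : Subgroup G) ≤ Subgroup.centralizer ({x} : Set G) := by
          intro y hy
          rw [Subgroup.mem_centralizer_singleton_iff]
          exact hab y hy x hx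
        exact P.not_dvd_index (h1.trans (Subgroup.index_dvd_of_le h2))
      rcases CharCentral.zero_or_norm_eq_of_coprime ρ x hcop with h1 | h1
      · rw [← hρχ]; exact h1
      · exfalso
        apply hno x hx1
        rw [← hρχ, h1, hfr, hρχ, hnorm1]
    obtain ⟨n, hn⟩ := (χ.2.isCharacter.restrict (P : Subgroup G)).classInner_nat
      (isIrrCharacter_fun_one (G := ↥(P : Subgroup G))).isCharacter
    have h1 : classInner (fun x : ↥(P : Subgroup G) => (χ : G → ℂ) x) (fun _ => 1) =
        (Nat.card (P : Subgroup G) : ℂ)⁻¹ * p := by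
      rw [classInner_def, Finset.sum_eq_single (1 : ↥(P : Subgroup G))]
      · rw [OneMemClass.coe_one, hdeg, map_one, mul_one]
      · intro y _ hy
        rw [hzero y y.2 (fun h => hy (Subtype.ext h)), zero_mul]
      · intro h; exact absurd (Finset.mem_univ _) h
    rw [hn] at h1
    have h2 : (Nat.card (P : Subgroup G) : ℂ) ≠ 0 := by exact_mod_cast Nat.card_pos.ne'
    have h3 : (n : ℂ) * (Nat.card (P : Subgroup G) : ℂ) = p := by
      rw [h1]; field_simp
    have h4 : n * Nat.card (P : Subgroup G) = p := by exact_mod_cast h3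
    have h5 : n ≠ 0 := by
      rintro rfl
      rw [zero_mul] at h4
      exact hp.ne_zero h4.symm
    have h6 : p ^ 2 ≤ p := by
      calc p ^ 2 ≤ Nat.card (P : Subgroup G) := hcP2
        _ ≤ n * Nat.card (P : Subgroup G) := Nat.le_mul_of_pos_left _ (Nat.pos_of_ne_zero h5)
        _ = p := h4
    have := hp.two_le
    nlinarith
  · have hex : ∃ θ : IrrCharacter (P : Subgroup G),
        classInner (fun x : ↥(P : Subgroup G) => (χ : G → ℂ) x) (θ : ↥(P : Subgroup G) → ℂ) ≠ 0 ∧
        (θ : ↥(P : Subgroup G) → ℂ) 1 ≠ 1 := by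
      by_contra hno
      push Not at hno
      apply hab
      intro a ha b hb
      have h1 : ⁅a, b⁆ ∈ ⁅(P : Subgroup G), (P : Subgroup G)⁆ := Subgroup.commutator_mem_commutator ha hb
      have h2 := NilChar.const_on_commutator χ.2.isCharacter (P : Subgroup G) hno h1
      have h3 := hfaith _ h2
      exact commutatorElement_eq_one_iff_mul_comm.1 h3
    obtain ⟨θ, hθ, hθ1⟩ := hex
    obtain ⟨a, ha⟩ := P.isPGroup'.exists_card_eq
    have h1 : charDegree (θ : ↥(P : Subgroup G) → ℂ) ∣ p ^ a := by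
      rw [← ha]; exact charDegree_dvd θ.2
    obtain ⟨e, he, hde⟩ := (Nat.dvd_prime_pow hp).1 h1
    have hθd := charDegree_eq θ.2.isCharacter
    have he0 : e ≠ 0 := by
      rintro rfl
      apply hθ1
      rw [← hθd, hde]; simp
    have h2 := degree_le_of_constituent (χ.2.isCharacter.restrict (P : Subgroup G)) θ.2 hθ
      (n := p) (m := charDegree (θ : ↥(P : Subgroup G) → ℂ)) (by simpa using hdeg) hθd.symm
    have h3 : charDegree (θ : ↥(P : Subgroup G) → ℂ) = p := by
      apply le_antisymm h2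
      rw [hde]
      calc p = p ^ 1 := (pow_one p).symm
        _ ≤ p ^ e := Nat.pow_le_pow_right hp.pos (Nat.one_le_iff_ne_zero.2 he0)
    have h4 := (χ.2.isCharacter.restrict (P : Subgroup G)).sub_constituent θ.2 hθ
    have h5 := h4.eq_zero_of_one_eq_zero (by
      rw [Pi.sub_apply, ← hθd, h3]
      have : (χ : G → ℂ) ((1 : ↥(P : Subgroup G)) : G) = p := by simpa using hdeg
      rw [this, sub_self])
    rw [sub_eq_zero] at h5
    haveI : Nontrivial ↥(P : Subgroup G) := by
      rw [← Finite.one_lt_card_iff_nontrivial]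
      have := hp.two_le
      nlinarith
    haveI := P.isPGroup'.center_nontrivial
    obtain ⟨z, hz⟩ := exists_ne (1 : Subgroup.center ↥(P : Subgroup G))
    refine ⟨((z : ↥(P : Subgroup G)) : G), ?_, ?_⟩
    · intro h6
      apply hz
      apply Subtype.ext
      apply Subtype.ext
      exact h6
    · have h6 := NilChar.central_mul_conj θ.2 z.2 1
      rw [one_mul] at h6
      have h7 : (χ : G → ℂ) ((z : ↥(P : Subgroup G)) : G) = (θ : ↥(P : Subgroup G) → ℂ) z :=
        congrFun h5 (z : ↥(P : Subgroup G))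
      have h8 : (χ : G → ℂ) 1 = (θ : ↥(P : Subgroup G) → ℂ) 1 := by
        rw [hdeg, ← hθd, h3]
      rw [h7, h8]
      have h9 : ‖(θ : ↥(P : Subgroup G) → ℂ) z‖ ^ 2 = ‖(θ : ↥(P : Subgroup G) → ℂ) 1‖ ^ 2 := by
        have h10 := congrArg (fun w : ℂ => ‖w‖) h6
        simp only [norm_mul, Complex.norm_conj] at h10
        rw [sq, sq]
        exact h10
      exact (sq_eq_sq₀ (norm_nonneg _) (norm_nonneg _)).1 h9

end Cfsg.Agent.S3968
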