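import Cfsg.Statements.S3971
import Cfsg.Agent.Lib.RankComp2

set_option autoImplicit false
open Cfsg

namespace Cfsg.Agent.S3971

/-- Let `G` be a finite group of order `2 ^ a * n` with `n` odd and not divisible by `3`, and suppose `G` has an element of order `2 ^ (a - 1)` (so a Sylow `2`-subgroup has a cyclic subgroup of index at most `2`). Then `G` has a normal subgroup of order `n`. -/
theorem result {G : Type*} [Group G] [Finite G] (a n : ℕ) (hG : Nat.card G = 2 ^ a * n) (hn : Odd n) (h3 : ¬ 3 ∣ n) (hx : ∃ x : G, orderOf x = 2 ^ (a - 1)) : ∃ N : Subgroup G, N.Normal ∧ Nat.card N = n := by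
  exact Cfsg.Agent.Lib.RankComp2.exists_normal_of_cyclic_index_two a n hG hn h3 hx

end Cfsg.Agent.S3971
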