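import Cfsg.Statements.S3974
import Cfsg.Agent.Lib.SchurUnique

set_option autoImplicit false
universe u v
open Cfsg

namespace Cfsg.Agent.S3974

open Lib.SchurMult Lib.SchurUnique

/-- Let `Q` be a finite group with Schur multiplier `A`. Any two Schur covering groups of `Q` (finite stem extensions `σ₁ : Γ₁ →* Q`, `σ₂ : Γ₂ →* Q` with kernels isomorphic to `A`, `Γ₁, Γ₂` in the universe of `Q`) are isomorphic over `Q` — there is a group isomorphism `e : Γ₁ ≃* Γ₂` with `σ₂ ∘ e = σ₁` — if and only if the order of the commutator quotient of `Q` is coprime to the order of `A`. In particular a finite perfect group has a unique Schur covering group up to isomorphism over it. -/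
theorem result {Q : Type u} [Group Q] [Finite Q] {A : Type v} [CommGroup A] (hA : Cfsg.HasSchurMultiplier Q A) : (∀ (Γ₁ Γ₂ : Type u) [Group Γ₁] [Finite Γ₁] [Group Γ₂] [Finite Γ₂] (σ₁ : Γ₁ →* Q) (σ₂ : Γ₂ →* Q), Cfsg.IsStemExtension σ₁ → Cfsg.IsStemExtension σ₂ → Nonempty (σ₁.ker ≃* A) → Nonempty (σ₂.ker ≃* A) → ∃ e : Γ₁ ≃* Γ₂, σ₂.comp e.toMonoidHom = σ₁) ↔ Nat.Coprime (Nat.card (Abelianization Q)) (Nat.card A) := by
  obtain ⟨f⟩ := (hasSchurMultiplier_pres_iff Q).1 hA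
  have hcard : Nat.card (mult (toG (pres Q))) = Nat.card A := Nat.card_congr f.toEquiv
  constructor
  · intro h
    rw [← hcard]
    apply coprime_of_iso
    intro Γ₁ Γ₂ _ _ _ _ σ₁ σ₂ h₁ h₂ ⟨e₁⟩ ⟨e₂⟩
    exact h Γ₁ Γ₂ σ₁ σ₂ h₁ h₂ ⟨e₁.symm.trans f⟩ ⟨e₂.symm.trans f⟩
  · intro hcop Γ₁ Γ₂ _ _ _ _ σ₁ σ₂ h₁ h₂ ⟨e₁⟩ ⟨e₂⟩
    apply iso_of_coprime σ₁ σ₂ h₁ h₂
    · rw [hcard]; exact (Nat.card_congr e₁.toEquiv).symm
    · rw [hcard]; exact (Nat.card_congr e₂.toEquiv).symm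
    · rw [Nat.card_congr e₂.toEquiv]; exact hcop

end Cfsg.Agent.S3974
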