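import Cfsg.Statements.S3978
import Cfsg.Agent.Lib.SchurProj

set_option autoImplicit false
open Cfsg

namespace Cfsg.Agent.S3978

open Lib.SchurMult Lib.SchurProj

/-- A finite group `Q` has trivial Schur multiplier if and only if, for every `n`, every homomorphism from `Q` to the projective general linear group (the quotient of `GL n ℂ` by its centre) lifts to a homomorphism into `GL n ℂ`. -/
theorem result {Q : Type*} [Group Q] [Finite Q] : Cfsg.HasCyclicSchurMultiplier Q 1 ↔ ∀ (n : ℕ) (γ : Q →* (GL (Fin n) ℂ ⧸ Subgroup.center (GL (Fin n) ℂ))), ∃ ρ : Q →* GL (Fin n) ℂ, (QuotientGroup.mk' (Subgroup.center (GL (Fin n) ℂ))).comp ρ = γ := by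
  constructor
  · intro h n γ
    have hcard : Nat.card (mult (toG (pres Q))) = Nat.card (MonoidHom.id Q).ker := by
      rw [Lib.SchurFiber.subsingleton_mult_of_trivial h, MonoidHom.ker_id, Subgroup.card_bot, Subgroup.card_bot]
    obtain ⟨ρ, hρ⟩ := lift_of_cover (MonoidHom.id Q) (Lib.SchurBasic.isStem_id Q) hcard _ le_rfl (center_GL_divisible n) γ
    exact ⟨ρ, hρ⟩
  · intro h
    rw [Lib.SchurBasic.hasCyclic_one_iff]
    intro Γ _ _ τ hτ
    obtain ⟨π, hπ⟩ := ker_hom_of_lift (MonoidHom.id Q) (Lib.SchurBasic.isStem_id Q) (fun n γ => h n γ) τ hτ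
    rw [eq_bot_iff]
    intro x hx
    obtain ⟨y, hy⟩ := hπ ⟨x, hx⟩
    have hy1 : y = 1 := Subtype.ext y.2
    rw [hy1, map_one] at hy
    exact (congrArg Subtype.val hy).symm

end Cfsg.Agent.S3978
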