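import Cfsg.Statements.S3994
import Cfsg.Agent.Lib.FrobDiv2

set_option autoImplicit false
open Cfsg

namespace Cfsg.Agent.S3994

/-- Let G be a finite group and n a positive integer. The number of elements of G whose order is divisible by n is either 0 or divisible by the largest divisor of the order of G that is coprime to n. -/
theorem result {G : Type*} [Group G] [Finite G] (n : ℕ) (hn : 0 < n) :
    Nat.card {g : G // n ∣ orderOf g} = 0 ∨
      (Nat.card G / Nat.gcd (Nat.card G) (n ^ Nat.card G)) ∣ Nat.card {g : G // n ∣ orderOf g} := by
  exact Or.inr (Cfsg.Agent.Lib.FrobDiv2.weisner n hn)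

end Cfsg.Agent.S3994
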