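import Cfsg.Statements.S3995
import Cfsg.Agent.Lib.UniqueInvolution
import Cfsg.Agent.Lib.FrobDvd

set_option autoImplicit false
open Cfsg

namespace Cfsg.Agent.S3995


/-- number of elements of order `m` -/
noncomputable def f (G : Type*) [Group G] (m : ℕ) : ℕ := Nat.card {g : G // orderOf g = m}

section
variable {G : Type*} [Group G] [Finite G]

theorem S_eq (m : ℕ) (hm : m ≠ 0) : Nat.card {x : G // x ^ m = 1} = ∑ d ∈ m.divisors, f G d := by
  classical
  have := Fintype.ofFinite G
  have h1 := sum_card_orderOf_eq_card_pow_eq_one (G := G) hm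
  rw [Nat.card_eq_fintype_card, Fintype.card_subtype, ← h1]
  apply Finset.sum_congr rfl
  intro d _
  rw [f, Nat.card_eq_fintype_card, Fintype.card_subtype]

theorem dvd_S (m : ℕ) (hm : m ∣ Nat.card G) : m ∣ ∑ d ∈ m.divisors, f G d := by
  have hm0 : m ≠ 0 := fun e => Nat.card_pos.ne' (Nat.eq_zero_of_zero_dvd (e ▸ hm) : Nat.card G = 0)
  rw [← S_eq m hm0]
  exact Lib.FrobDvd.frobenius_dvd m hm

theorem f_one : f G 1 = 1 := by
  rw [f, Nat.card_eq_one_iff_unique]
  refine ⟨⟨fun a b => Subtype.ext ?_⟩, ⟨⟨1, orderOf_one⟩⟩⟩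
  rw [orderOf_eq_one_iff.1 a.2, orderOf_eq_one_iff.1 b.2]

theorem f_even {m : ℕ} (hm : 2 < m) : 2 ∣ f G m := by
  classical
  have := Fintype.ofFinite {g : G // orderOf g = m}
  haveI : Fact (Nat.Prime 2) := ⟨Nat.prime_two⟩
  let e : Function.End {g : G // orderOf g = m} := fun g => ⟨(g : G)⁻¹, by rw [orderOf_inv]; exact g.2⟩
  have he : e ^ 2 ^ 1 = 1 := by
    rw [pow_one, pow_two]
    funext g
    apply Subtype.ext
    change ((g : G)⁻¹)⁻¹ = g
    exact inv_inv _
  have h1 := Equiv.Perm.card_fixedPoints_modEq he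
  have h2 : IsEmpty (Function.fixedPoints e) := by
    refine ⟨fun g => ?_⟩
    have h3 : ((g.1 : G))⁻¹ = g.1 := congrArg Subtype.val g.2
    have h4 : (g.1 : G) ^ 2 = 1 := by
      rw [pow_two]
      nth_rewrite 1 [← h3]
      exact inv_mul_cancel _
    have h5 := orderOf_le_of_pow_eq_one (by norm_num) h4
    rw [g.1.2] at h5
    omega
  rw [Fintype.card_eq_zero (α := Function.fixedPoints e)] at h1
  rw [f, Nat.card_eq_fintype_card]
  exact (Nat.modEq_zero_iff_dvd).1 h1

theorem f_eq_zero {m : ℕ} (h : ∀ g : G, orderOf g ≠ m) : f G m = 0 := by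
  rw [f, Nat.card_eq_zero]
  exact Or.inl ⟨fun g => h g.1 g.2⟩

/-- powers with smaller order -/
theorem exists_orderOf {G : Type*} [Group G] [Finite G] {p k j : ℕ} (hp : p.Prime) {g : G} (hg : orderOf g = p ^ k) (hj : j ≤ k) :
    ∃ x : G, orderOf x = p ^ j := by
  refine ⟨g ^ (p ^ (k - j)), ?_⟩
  rw [orderOf_pow, hg]
  have h1 : p ^ k = p ^ j * p ^ (k - j) := by rw [← pow_add, Nat.add_sub_cancel' hj]
  rw [Nat.gcd_eq_right (h1 ▸ Dvd.intro_left _ rfl), h1, Nat.mul_div_cancel _ (pow_pos hp.pos _)]

theorem exponent_eq {Q : Type*} [Group Q] [Finite Q] (p : ℕ) (hp : p.Prime) (hQ : IsPGroup p Q)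
    (hno : ∀ g : Q, orderOf g ≠ p ^ 2) (hnt : Nontrivial Q) : Monoid.exponent Q = p := by
  have := Fact.mk hp
  have h1 : ∀ g : Q, g ^ p = 1 := by
    intro g
    obtain ⟨k, hk⟩ := IsPGroup.iff_orderOf.1 hQ g
    by_cases hk2 : 2 ≤ k
    · obtain ⟨x, hx⟩ := exists_orderOf hp hk hk2
      exact absurd hx (hno x)
    · rw [← orderOf_dvd_iff_pow_eq_one, hk]
      calc p ^ k ∣ p ^ 1 := pow_dvd_pow p (by omega)
        _ = p := pow_one p
  have h2 : Monoid.exponent Q ∣ p := Monoid.exponent_dvd_of_forall_pow_eq_one h1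
  rcases (Nat.dvd_prime hp).1 h2 with h3 | h3
  · rw [Monoid.exp_eq_one_iff] at h3
    exact absurd h3 (not_subsingleton Q)
  · exact h3

end

/-- Let G be a finite group such that the numbers of elements of each order that occurs in G (the numbers #{g : o(g) = m}, m ranging over the element orders of G) take exactly two values, 1 and some n ≠ 1. Then either G is a p-group of exponent p and order at least 3 for some prime p, or G is the quaternion group of order 8, or G is cyclic of order 4, or G ≅ Z₂ × P for a p-group P of exponent p with p an odd prime. -/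
theorem result {G : Type*} [Group G] [Finite G] (n : ℕ) (hn : n ≠ 1) (h : ((fun m : ℕ => Nat.card {g : G // orderOf g = m}) '' Set.range (orderOf : G → ℕ)) = {1, n}) :
    (∃ p : ℕ, p.Prime ∧ IsPGroup p G ∧ 3 ≤ Nat.card G ∧ Monoid.exponent G = p) ∨
      Nonempty (G ≃* QuaternionGroup 2) ∨ (IsCyclic G ∧ Nat.card G = 4) ∨
      (∃ (p : ℕ) (P : Type) (_ : Group P) (_ : Finite P), p.Prime ∧ p ≠ 2 ∧ IsPGroup p P ∧ Monoid.exponent P = p ∧
        Nonempty (G ≃* Multiplicative (ZMod 2) × P)) := by
  have hf1 : ∀ g : G, f G (orderOf g) = 1 ∨ f G (orderOf g) = n := by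
    intro g
    have : f G (orderOf g) ∈ ({1, n} : Set ℕ) := by
      rw [← h]; exact ⟨orderOf g, ⟨g, rfl⟩, rfl⟩
    simpa using this
  have hf2 : ∀ g : G, 2 < orderOf g → f G (orderOf g) = n ∧ 2 ∣ n := by
    intro g hg
    have h2 := f_even (G := G) hg
    rcases hf1 g with h3 | h3
    · rw [h3] at h2; omega
    · exact ⟨h3, h3 ▸ h2⟩
  obtain ⟨g0, hg0⟩ : ∃ g : G, f G (orderOf g) = n := by
    have : n ∈ ((fun m : ℕ => Nat.card {g : G // orderOf g = m}) '' Set.range (orderOf : G → ℕ)) := by
      rw [h]; simp
    obtain ⟨_, ⟨g, rfl⟩, hg⟩ := this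
    exact ⟨g, hg⟩
  have hfz : ∀ m : ℕ, 2 < m → f G m = 0 ∨ f G m = n := by
    intro m hm
    by_cases hex : ∃ g : G, orderOf g = m
    · obtain ⟨g, hg⟩ := hex
      right
      rw [← hg]; exact (hf2 g (by omega)).1
    · push Not at hex
      exact Or.inl (f_eq_zero hex)
  have hpr : ∀ p : ℕ, p.Prime → p ∣ Nat.card G → ∃ g : G, orderOf g = p := by
    intro p hp hd
    haveI := Fact.mk hp
    exact exists_prime_orderOf_dvd_card' p hd
  -- facts about odd primes
  have hodd : ∀ p : ℕ, p.Prime → p ≠ 2 → p ∣ Nat.card G → f G p = n ∧ 2 ∣ n ∧ p ∣ 1 + n := by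
    intro p hp hp2 hd
    obtain ⟨g, hg⟩ := hpr p hp hd
    have h2p : 2 < orderOf g := by rw [hg]; exact lt_of_le_of_ne hp.two_le (Ne.symm hp2)
    have h1 := hf2 g h2p
    rw [hg] at h1
    refine ⟨h1.1, h1.2, ?_⟩
    have h2 := dvd_S (G := G) p hd
    rw [hp.sum_divisors, f_one, h1.1] at h2
    rwa [add_comm] at h2
  by_cases hop : ∃ p : ℕ, p.Prime ∧ p ≠ 2 ∧ p ∣ Nat.card G
  · obtain ⟨p, hp, hp2, hd⟩ := hop
    haveI := Fact.mk hp
    have h3p : 3 ≤ p := lt_of_le_of_ne hp.two_le (Ne.symm hp2)
    obtain ⟨hfp, hn2, hpn⟩ := hodd p hp hp2 hd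
    -- no element of order p^2
    have hpp : ∀ g : G, orderOf g ≠ p ^ 2 := by
      intro g hg
      have h1 : p ^ 2 ∣ Nat.card G := hg ▸ orderOf_dvd_natCard g
      have h2 := (dvd_pow_self p (two_ne_zero)).trans (dvd_S (G := G) (p ^ 2) h1)
      rw [Nat.sum_divisors_prime_pow hp, Finset.sum_range_succ, Finset.sum_range_succ, Finset.sum_range_one,
        pow_zero, pow_one, f_one, hfp] at h2
      have h3 : f G (p ^ 2) = n := by
        rw [← hg]; exact (hf2 g (by rw [hg]; nlinarith)).1
      rw [h3] at h2
      have h4 : p ∣ n := (Nat.dvd_add_right hpn).1 h2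
      have h5 : p ∣ 1 := (Nat.dvd_add_left h4).1 hpn
      exact hp.one_lt.ne' (Nat.dvd_one.1 h5)
    -- arithmetic
    have harith : ∀ k : ℕ, k = 2 ∨ k = 3 → ¬ p ∣ 1 + k * n := by
      intro k hk hdv
      have h1 : p ∣ k * (1 + n) - (1 + k * n) := Nat.dvd_sub (Dvd.dvd.mul_left hpn k) hdv
      have h2 : k * (1 + n) - (1 + k * n) = k - 1 := by
        rw [mul_add]; omega
      rw [h2] at h1
      rcases hk with rfl | rfl
      · exact hp.one_lt.ne' (Nat.dvd_one.1 h1)
      · have := Nat.le_of_dvd (by norm_num) h1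
        omega
    -- no other odd prime
    have hrr : ∀ r : ℕ, r.Prime → r ∣ Nat.card G → r = 2 ∨ r = p := by
      intro r hr hrd
      by_contra hcon
      push Not at hcon
      obtain ⟨hfr, -, -⟩ := hodd r hr hcon.1 hrd
      have hprd : p * r ∣ Nat.card G :=
        Nat.Coprime.mul_dvd_of_dvd_of_dvd ((Nat.coprime_primes hp hr).2 (Ne.symm hcon.2)) hd hrd
      have h1 := (Dvd.intro r rfl).trans (dvd_S (G := G) (p * r) hprd)
      have hne : p ≠ r := Ne.symm hcon.2
      have h3r : 3 ≤ r := lt_of_le_of_ne hr.two_le (Ne.symm hcon.1)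
      have hdiv : (p * r).divisors = {1, r, p, p * r} := by
        ext d
        rw [Nat.divisors_mul, hp.divisors, hr.divisors]
        simp only [Finset.mem_mul, Finset.mem_insert, Finset.mem_singleton]
        constructor
        · rintro ⟨a, rfl | rfl, b, rfl | rfl, rfl⟩ <;> simp
        · rintro (rfl | rfl | rfl | rfl)
          · exact ⟨1, Or.inl rfl, 1, Or.inl rfl, rfl⟩
          · exact ⟨1, Or.inl rfl, d, Or.inr rfl, one_mul _⟩
          · exact ⟨d, Or.inr rfl, 1, Or.inl rfl, mul_one _⟩
          · exact ⟨p, Or.inr rfl, r, Or.inr rfl, rfl⟩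
      have hprp : p < p * r := by nlinarith
      have hprr : r < p * r := by nlinarith
      rw [hdiv, Finset.sum_insert (by simp; omega), Finset.sum_insert (by simp; omega),
        Finset.sum_insert (by simp; omega), Finset.sum_singleton, f_one, hfp, hfr] at h1
      rcases hfz (p * r) (by omega) with h2 | h2
      · rw [h2] at h1
        exact harith 2 (Or.inl rfl) ((show 1 + (n + (n + 0)) = 1 + 2 * n by ring) ▸ h1)
      · rw [h2] at h1
        exact harith 3 (Or.inr rfl) ((show 1 + (n + (n + n)) = 1 + 3 * n by ring) ▸ h1)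
    by_cases h2d : 2 ∣ Nat.card G
    · -- unique involution
      have hf2' : f G 2 = 1 := by
        have h1 := dvd_S (G := G) 2 h2d
        rw [Nat.prime_two.sum_divisors, f_one] at h1
        obtain ⟨t, ht⟩ := hpr 2 Nat.prime_two h2d
        have h3 := hf1 t
        rw [ht] at h3
        rcases h3 with h3 | h3
        · exact h3
        · rw [h3] at h1; omega
      obtain ⟨t, ht⟩ := hpr 2 Nat.prime_two h2d
      have huniq : ∀ s : G, orderOf s = 2 → s = t := by
        intro s hs
        rw [f, Nat.card_eq_one_iff_unique] at hf2'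
        exact congrArg Subtype.val (hf2'.1.elim ⟨s, hs⟩ ⟨t, ht⟩)
      have hcent : ∀ g : G, g * t = t * g := by
        intro g
        have h1 : g * t * g⁻¹ = t := huniq _ (by
          rw [← ht]
          exact orderOf_injective (MulAut.conj g).toMonoidHom (MulAut.conj g).injective t)
        rw [mul_inv_eq_iff_eq_mul] at h1
        exact h1
      obtain ⟨x, hx⟩ := hpr p hp hd
      have h2p : Nat.Coprime 2 p := (Nat.coprime_primes Nat.prime_two hp).2 (Ne.symm hp2)
      have h2pe : f G (2 * p) = n := by
        have h1 : orderOf (t * x) = 2 * p := by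
          have hc : Commute t x := (hcent x).symm
          rw [hc.orderOf_mul_eq_mul_orderOf_of_coprime (by rw [ht, hx]; exact h2p), ht, hx]
        rw [← h1]
        exact (hf2 _ (by rw [h1]; omega)).1
      have h4n : ¬ 4 ∣ Nat.card G := by
        intro h4
        have h1 := dvd_S (G := G) (2 ^ 2) h4
        rw [Nat.sum_divisors_prime_pow Nat.prime_two, Finset.sum_range_succ, Finset.sum_range_succ, Finset.sum_range_one,
          pow_zero, pow_one, f_one, hf2'] at h1
        have hf4 : f G 4 = n := by
          rcases hfz 4 (by norm_num) with h2 | h2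
          · rw [show (2:ℕ) ^ 2 = 4 by norm_num, h2] at h1; omega
          · exact h2
        have h4p : 4 * p ∣ Nat.card G :=
          Nat.Coprime.mul_dvd_of_dvd_of_dvd (Nat.Coprime.pow_left 2 h2p) h4 hd
        have h5 := (Dvd.intro_left 4 rfl).trans (dvd_S (G := G) (4 * p) h4p)
        have hdiv : (4 * p).divisors = {1, 2, 4, p, 2 * p, 4 * p} := by
          ext d
          have h4d : Nat.divisors 4 = {1, 2, 4} := by decide
          rw [Nat.divisors_mul, hp.divisors, h4d]
          simp only [Finset.mem_mul, Finset.mem_insert, Finset.mem_singleton]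
          constructor
          · rintro ⟨a, rfl | rfl | rfl, b, rfl | rfl, rfl⟩ <;> simp
          · rintro (rfl | rfl | rfl | rfl | rfl | rfl)
            · exact ⟨1, Or.inl rfl, 1, Or.inl rfl, rfl⟩
            · exact ⟨2, Or.inr (Or.inl rfl), 1, Or.inl rfl, rfl⟩
            · exact ⟨4, Or.inr (Or.inr rfl), 1, Or.inl rfl, rfl⟩
            · exact ⟨1, Or.inl rfl, d, Or.inr rfl, one_mul _⟩
            · exact ⟨2, Or.inr (Or.inl rfl), p, Or.inr rfl, rfl⟩
            · exact ⟨4, Or.inr (Or.inr rfl), p, Or.inr rfl, rfl⟩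
        have hpne4 : p ≠ 4 := by rintro rfl; revert hp; decide
        rw [hdiv, Finset.sum_insert (by simp; omega), Finset.sum_insert (by simp; omega),
          Finset.sum_insert (by simp; omega), Finset.sum_insert (by simp; omega), Finset.sum_insert (by simp; omega),
          Finset.sum_singleton, f_one, hfp, hf2', hf4, h2pe] at h5
        have hp2n : p ∣ 2 * (1 + n) := Dvd.dvd.mul_left hpn 2
        have key : ∀ k : ℕ, k = 1 ∨ k = 2 → ¬ p ∣ 2 * (1 + n) + k * n := by
          intro k hk hdv
          have h6 : p ∣ k * n := (Nat.dvd_add_right hp2n).1 hdv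
          have h7 : ¬ p ∣ n := by
            intro h8
            have h9 : p ∣ 1 := (Nat.dvd_add_left h8).1 hpn
            exact hp.one_lt.ne' (Nat.dvd_one.1 h9)
          rcases (Nat.Prime.dvd_mul hp).1 h6 with h8 | h8
          · have := Nat.le_of_dvd (by omega) h8
            omega
          · exact h7 h8
        rcases hfz (4 * p) (by omega) with h6 | h6
        · rw [h6] at h5
          exact key 1 (Or.inl rfl) ((show 1 + (1 + (n + (n + (n + 0)))) = 2 * (1 + n) + 1 * n by ring) ▸ h5)
        · rw [h6] at h5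
          exact key 2 (Or.inr rfl) ((show 1 + (1 + (n + (n + (n + n)))) = 2 * (1 + n) + 2 * n by ring) ▸ h5)
      -- the Sylow p-subgroup has index 2
      obtain ⟨P⟩ : Nonempty (Sylow p G) := inferInstance
      have hidx : (P : Subgroup G).index = 2 := by
        have h1 : ¬ p ∣ (P : Subgroup G).index := P.not_dvd_index
        have h2 : (P : Subgroup G).index ∣ Nat.card G := Subgroup.index_dvd_card _
        have h3 : (P : Subgroup G).index = 2 ^ (P : Subgroup G).index.primeFactorsList.length := by
          apply Nat.eq_prime_pow_of_unique_prime_dvd Subgroup.index_ne_zero_of_finite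
          intro d hdp hdd
          rcases hrr d hdp (hdd.trans h2) with h4 | h4
          · exact h4
          · rw [h4] at hdd; exact absurd hdd h1
        generalize (P : Subgroup G).index.primeFactorsList.length = k at h3
        have h4 : k < 2 := by
          by_contra hk
          push Not at hk
          apply h4n
          have : 2 ^ 2 ∣ 2 ^ k := pow_dvd_pow 2 hk
          rw [← h3] at this
          exact this.trans h2
        have h5 : k ≠ 0 := by
          rintro rfl
          rw [pow_zero, Subgroup.index_eq_one] at h3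
          have h6 : t ∈ (P : Subgroup G) := by rw [h3]; trivial
          obtain ⟨j, hj⟩ := IsPGroup.iff_orderOf.1 P.2 ⟨t, h6⟩
          rw [← Subgroup.orderOf_coe] at hj
          change orderOf t = p ^ j at hj
          rw [ht] at hj
          have h7 : p ∣ 2 ∨ j = 0 := by
            rcases Nat.eq_zero_or_pos j with h8 | h8
            · exact Or.inr h8
            · left; rw [hj]; exact dvd_pow_self p h8.ne'
          rcases h7 with h7 | h7
          · have := Nat.le_of_dvd (by norm_num) h7
            omega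
          · rw [h7, pow_zero] at hj; omega
        have h6 : k = 1 := by omega
        rw [h3, h6, pow_one]
      have hPnt : Nontrivial P := by
        have h1 : p ∣ Nat.card P := P.dvd_card_of_dvd_card hd
        rw [← Finite.one_lt_card_iff_nontrivial]
        exact lt_of_lt_of_le hp.one_lt (Nat.le_of_dvd Nat.card_pos h1)
      have hPexp : Monoid.exponent P = p := by
        refine exponent_eq p hp P.2 ?_ hPnt
        intro g hg
        exact hpp g (by rw [Subgroup.orderOf_coe]; exact hg)
      -- the isomorphism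
      have htP : ∀ a ∈ Subgroup.zpowers t, a ∈ (P : Subgroup G) → a = 1 := by
        intro a ha haP
        have h1 : orderOf a ∣ 2 := by
          have h1 := orderOf_dvd_natCard (⟨a, ha⟩ : Subgroup.zpowers t)
          rwa [Nat.card_zpowers, ht, ← Subgroup.orderOf_coe] at h1
        obtain ⟨j, hj⟩ := IsPGroup.iff_orderOf.1 P.2 ⟨a, haP⟩
        rw [← Subgroup.orderOf_coe] at hj
        change orderOf a = p ^ j at hj
        have h2 : Nat.Coprime 2 (orderOf a) := by rw [hj]; exact Nat.Coprime.pow_right j h2p
        have h3 : orderOf a = 1 := Nat.Coprime.eq_one_of_dvd h2.symm h1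
        exact orderOf_eq_one_iff.1 h3
      let φ : Subgroup.zpowers t × P →* G := MonoidHom.noncommCoprod (Subgroup.zpowers t).subtype
        (P : Subgroup G).subtype (by
          intro a b
          obtain ⟨k, hk⟩ := Subgroup.mem_zpowers_iff.1 a.2
          change Commute (a : G) (b : G)
          rw [← hk]
          exact (Commute.zpow_left (hcent b).symm k))
      have hφ : Function.Injective φ := by
        rw [injective_iff_map_eq_one]
        rintro ⟨a, b⟩ hab
        have h1 : (a : G) * (b : G) = 1 := hab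
        have h2 : (a : G) = (b : G)⁻¹ := eq_inv_of_mul_eq_one_left h1
        have h3 : (a : G) = 1 := htP a a.2 (by rw [h2]; exact inv_mem b.2)
        have h4 : (b : G) = 1 := by rw [h3, one_mul] at h1; exact h1
        exact Prod.ext (Subtype.ext h3) (Subtype.ext h4)
      have hcardG : Nat.card (Subgroup.zpowers t × P) = Nat.card G := by
        rw [Nat.card_prod, Nat.card_zpowers, ht, ← hidx, mul_comm]
        exact Subgroup.card_mul_index (P : Subgroup G)
      have hbij : Function.Bijective φ := (Nat.bijective_iff_injective_and_card φ).2 ⟨hφ, hcardG⟩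
      let e1 : Multiplicative (ZMod 2) ≃* Subgroup.zpowers t := mulEquivOfPrimeCardEq (p := 2)
        (by simp) (by rw [Nat.card_zpowers, ht])
      have : Small.{0} P := Small.mk' (Finite.equivFin P)
      right; right; right
      refine ⟨p, Shrink.{0} P, inferInstance, inferInstance, hp, hp2, ?_, ?_, ?_⟩
      · exact P.2.of_equiv (Shrink.mulEquiv (α := P)).symm
      · rw [Monoid.exponent_eq_of_mulEquiv (Shrink.mulEquiv (α := P)), hPexp]
      · exact ⟨(MulEquiv.ofBijective φ hbij).symm.trans (MulEquiv.prodCongr e1.symm (Shrink.mulEquiv (α := P)).symm)⟩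
    · left
      have hG : IsPGroup p G := by
        apply IsPGroup.of_card (n := (Nat.card G).primeFactorsList.length)
        apply Nat.eq_prime_pow_of_unique_prime_dvd Nat.card_pos.ne'
        intro d hdp hdd
        rcases hrr d hdp hdd with h4 | h4
        · rw [h4] at hdd; exact absurd hdd h2d
        · exact h4
      have hle : 3 ≤ Nat.card G := h3p.trans (Nat.le_of_dvd Nat.card_pos hd)
      refine ⟨p, hp, hG, hle, exponent_eq p hp hG hpp ?_⟩
      rw [← Finite.one_lt_card_iff_nontrivial]; omega
  · push Not at hop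
    haveI : Fact (Nat.Prime 2) := ⟨Nat.prime_two⟩
    have hpow : Nat.card G = 2 ^ (Nat.card G).primeFactorsList.length := by
      apply Nat.eq_prime_pow_of_unique_prime_dvd Nat.card_pos.ne'
      intro d hdp hdd
      by_contra hne
      exact hop d hdp hne hdd
    have hG : IsPGroup 2 G := IsPGroup.of_card hpow
    have hg01 : orderOf g0 ≠ 1 := by
      intro e
      rw [e, f_one] at hg0
      exact hn hg0.symm
    have hnt : Nontrivial G := ⟨⟨g0, 1, fun e => hg01 (by rw [e, orderOf_one])⟩⟩
    have h2d : 2 ∣ Nat.card G := by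
      have h1 : 1 < Nat.card G := Finite.one_lt_card
      obtain ⟨q, hq, hqd⟩ := Nat.exists_prime_and_dvd h1.ne'
      by_cases h2 : q = 2
      · rwa [h2] at hqd
      · exact absurd hqd (hop q hq h2)
    by_cases h4 : ∃ g : G, orderOf g = 4
    · obtain ⟨g4, hg4⟩ := h4
      obtain ⟨hf4, hn2⟩ := hf2 g4 (by rw [hg4]; norm_num)
      rw [hg4] at hf4
      have hf2' : f G 2 = 1 := by
        have h1 := dvd_S (G := G) 2 h2d
        rw [Nat.prime_two.sum_divisors, f_one] at h1
        obtain ⟨t, ht⟩ := hpr 2 Nat.prime_two h2d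
        have h3 := hf1 t
        rw [ht] at h3
        rcases h3 with h3 | h3
        · exact h3
        · rw [h3] at h1; omega
      obtain ⟨t, ht⟩ := hpr 2 Nat.prime_two h2d
      have huniq : ∀ s : G, orderOf s = 2 → s = t := by
        intro s hs
        rw [f, Nat.card_eq_one_iff_unique] at hf2'
        exact congrArg Subtype.val (hf2'.1.elim ⟨s, hs⟩ ⟨t, ht⟩)
      have h8 : ∀ g : G, orderOf g ≠ 2 ^ 3 := by
        intro g hg
        have h1 : 2 ^ 3 ∣ Nat.card G := hg ▸ orderOf_dvd_natCard g
        have h2 := dvd_S (G := G) (2 ^ 3) h1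
        rw [Nat.sum_divisors_prime_pow Nat.prime_two, Finset.sum_range_succ, Finset.sum_range_succ, Finset.sum_range_succ,
          Finset.sum_range_one, pow_zero, pow_one, f_one, hf2', show (2:ℕ) ^ 2 = 4 by norm_num, hf4] at h2
        have h3 : f G (2 ^ 3) = n := by
          rw [← hg]; exact (hf2 g (by rw [hg]; norm_num)).1
        rw [h3] at h2
        omega
      rcases Lib.UniqueInvolution.isCyclic_or_quaternion hG (by
        intro x y hx hy
        rw [huniq x hx, huniq y hy]
        exact Subgroup.mem_zpowers t) with hcyc | ⟨-, m, hm, ⟨e⟩⟩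
      · right; right; left
        refine ⟨hcyc, ?_⟩
        obtain ⟨g, hg⟩ := hcyc.exists_generator
        have hgo : orderOf g = 2 ^ (Nat.card G).primeFactorsList.length := by
          rw [← hpow]; exact orderOf_eq_card_of_forall_mem_zpowers hg
        have h4d : 4 ∣ Nat.card G := hg4 ▸ orderOf_dvd_natCard g4
        generalize hk : (Nat.card G).primeFactorsList.length = k at hgo hpow
        have hk3 : k < 3 := by
          by_contra hcon
          push Not at hcon
          obtain ⟨x, hx⟩ := exists_orderOf Nat.prime_two hgo hcon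
          exact h8 x hx
        have : 4 ≤ Nat.card G := Nat.le_of_dvd Nat.card_pos h4d
        interval_cases k <;> omega
      · right; left
        have hm1 : m = 1 := by
          by_contra hcon
          have h1 : orderOf (e.symm (QuaternionGroup.a 1)) = 2 ^ (m + 1) := by
            rw [MulEquiv.orderOf_eq, QuaternionGroup.orderOf_a_one, pow_succ, mul_comm]
          obtain ⟨x, hx⟩ := exists_orderOf (j := 3) Nat.prime_two h1 (by omega)
          exact h8 x hx
        rw [hm1, pow_one] at e
        exact ⟨e⟩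
    · push Not at h4
      left
      have hexp : Monoid.exponent G = 2 := exponent_eq 2 Nat.prime_two hG (by norm_num; exact h4) hnt
      refine ⟨2, Nat.prime_two, hG, ?_, hexp⟩
      have h1 := S_eq (G := G) 2 (by norm_num)
      have h2 : Nat.card {x : G // x ^ 2 = 1} = Nat.card G := by
        apply Nat.card_congr
        exact Equiv.subtypeUnivEquiv fun x => by rw [← hexp]; exact Monoid.pow_exponent_eq_one x
      rw [h2, Nat.prime_two.sum_divisors, f_one] at h1
      have h3 : orderOf g0 = 2 := by
        have h4 : orderOf g0 ∣ 2 := by rw [← hexp]; exact Monoid.order_dvd_exponent g0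
        rcases (Nat.dvd_prime Nat.prime_two).1 h4 with h5 | h5
        · exact absurd h5 hg01
        · exact h5
      rw [h3] at hg0
      rw [hg0] at h1
      have h5 : n ≠ 0 := by
        rw [← hg0, f]
        have : Nonempty {g : G // orderOf g = 2} := ⟨⟨g0, h3⟩⟩
        exact Nat.card_pos.ne'
      omega

end Cfsg.Agent.S3995
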