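import Cfsg.Statements.S3996
import Cfsg.Agent.Lib.NuCount2

set_option autoImplicit false
open Cfsg

namespace Cfsg.Agent.S3996

open Cfsg.Agent.Lib

/-- A finite group in which the numbers of elements of each order that occurs (the numbers #{g : o(g) = m}, m ranging over the element orders) take exactly three different values is solvable. -/
theorem result {G : Type*} [Group G] [Finite G] (h : (((fun m : ℕ => Nat.card {g : G // orderOf g = m}) '' Set.range (orderOf : G → ℕ))).ncard = 3) : Group.IsSolvable G := by
  obtain ⟨x, y, z, hxy, hxz, hyz, hV⟩ := Set.ncard_eq_three.1 h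
  have hmem : ∀ m : ℕ, NuCount.nu G m ≠ 0 → NuCount.nu G m = x ∨ NuCount.nu G m = y ∨ NuCount.nu G m = z := by
    intro m hm
    obtain ⟨g, hg⟩ := NuCount.exists_of_nu_ne hm
    have h1 : NuCount.nu G m ∈ ((fun m : ℕ => Nat.card {g : G // orderOf g = m}) '' Set.range (orderOf : G → ℕ)) :=
      ⟨m, ⟨g, hg⟩, rfl⟩
    rw [hV] at h1
    simpa using h1
  have h1 := hmem 1 (by rw [NuCount.nu_one]; norm_num)
  rw [NuCount.nu_one] at h1
  rcases h1 with h1 | h1 | h1
  · exact NuCount.main (a := y) (b := z) ⟨by omega, by omega, hyz, fun m hm => by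
      have := hmem m hm; omega⟩
  · exact NuCount.main (a := x) (b := z) ⟨by omega, by omega, hxz, fun m hm => by
      have := hmem m hm; omega⟩
  · exact NuCount.main (a := x) (b := y) ⟨by omega, by omega, hxy, fun m hm => by
      have := hmem m hm; omega⟩

end Cfsg.Agent.S3996
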