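import Cfsg.Statements.S3998
import Cfsg.Agent.Lib.SylowTower

set_option autoImplicit false
open Cfsg

namespace Cfsg.Agent.S3998

/-- Let G and H be finite groups with the same order type (for every m the same number of elements of order m). If G is supersolvable then H is solvable. -/
theorem result {G H : Type*} [Group G] [Finite G] [Group H] [Finite H] (hT : (∀ m : ℕ, Nat.card {g : G // orderOf g = m} = Nat.card {h : H // orderOf h = m})) (hG : Cfsg.IsSupersolvable G) :
    Group.IsSolvable H := by
  obtain ⟨L, hL, hs⟩ := Lib.OrderType.exists_geHall (G := G) (H := H) 0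
    (fun k _ => Lib.SylowTower.supersolvable_geHall k _ G rfl hG) hT 0 le_rfl
  have h1 : L = ⊤ := by
    rw [← Subgroup.index_eq_one]
    by_contra hne
    obtain ⟨q, hq, hd⟩ := Nat.exists_prime_and_dvd hne
    exact absurd (hL.lt q hq hd) (by omega)
  subst h1
  exact Group.isSolvable_of_surjective (Subgroup.topEquiv (G := H)).surjective (f := (Subgroup.topEquiv (G := H)).toMonoidHom)

end Cfsg.Agent.S3998
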