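import Cfsg.Statements.S4002
import Cfsg.Agent.Lib.ThreePrimes67

set_option autoImplicit false
open Cfsg

namespace Cfsg.Agent.S4002

open Cfsg.Agent.Lib

theorem exists_three (n : ℕ) (hn : 7 ≤ n) : ∃ p q r : ℕ, p.Prime ∧ q.Prime ∧ r.Prime ∧ p < q ∧ q < r ∧ r ≤ n ∧
    n < p * q := by
  rcases Nat.lt_or_ge n 15 with h1 | h1
  · exact ⟨3, 5, 7, by norm_num, by norm_num, by norm_num, by norm_num, by norm_num, hn, by omega⟩
  rcases Nat.lt_or_ge n 35 with h2 | h2
  · exact ⟨5, 7, 11, by norm_num, by norm_num, by norm_num, by norm_num, by norm_num, by omega, by omega⟩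
  rcases Nat.lt_or_ge n 77 with h3 | h3
  · exact ⟨7, 11, 13, by norm_num, by norm_num, by norm_num, by norm_num, by norm_num, by omega, by omega⟩
  set m := Nat.sqrt n with hm
  have hm8 : 8 ≤ m := Nat.le_sqrt.2 (by omega)
  have hmm : m * m ≤ n := Nat.sqrt_le n
  have hm1 : n < (m + 1) * (m + 1) := Nat.lt_succ_sqrt n
  obtain ⟨p, hp, hp1, hp2⟩ := Nat.exists_prime_lt_and_le_two_mul m (by omega)
  obtain ⟨q, hq, hq1, hq2⟩ := Nat.exists_prime_lt_and_le_two_mul (2 * m) (by omega)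
  obtain ⟨r, hr, hr1, hr2⟩ := Nat.exists_prime_lt_and_le_two_mul (2 * (2 * m)) (by omega)
  refine ⟨p, q, r, hp, hq, hr, by omega, by omega, ?_, ?_⟩
  · nlinarith
  · calc n < (m + 1) * (m + 1) := hm1
      _ ≤ p * q := Nat.mul_le_mul (by omega) (by omega)

/-- If the set of element orders of a finite group G is {1, 2, …, n} with n ≥ 7, then G is not solvable. -/
theorem result {G : Type*} [Group G] [Finite G] (n : ℕ) (hn : 7 ≤ n) (h : Set.range (orderOf : G → ℕ) = {k : ℕ | 1 ≤ k ∧ k ≤ n}) : ¬ Group.IsSolvable G := by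
  intro hs
  obtain ⟨p, q, r, hp, hq, hr, hpq, hqr, hrn, hnpq⟩ := exists_three n hn
  have hdvd : ∀ k : ℕ, 1 ≤ k → k ≤ n → k ∣ Nat.card G := by
    intro k h1 h2
    have h3 : k ∈ Set.range (orderOf : G → ℕ) := by rw [h]; exact ⟨h1, h2⟩
    obtain ⟨x, rfl⟩ := h3
    exact orderOf_dvd_natCard x
  have hno : ∀ k : ℕ, n < k → ∀ x : G, orderOf x ≠ k := by
    intro k hk x hx
    have h3 : k ∈ Set.range (orderOf : G → ℕ) := ⟨x, hx⟩
    rw [h] at h3
    have := h3.2
    omega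
  have hp0 := hp.pos
  refine ThreePrimes67.three_primes hp hq hr hpq.ne (hpq.trans hqr).ne hqr.ne (hdvd p hp.pos (by omega))
    (hdvd q hq.pos (by omega)) (hdvd r hr.pos hrn) (hno _ hnpq) (hno _ ?_) (hno _ ?_)
  · exact hnpq.trans_le (Nat.mul_le_mul le_rfl hqr.le)
  · exact hnpq.trans_le (Nat.mul_le_mul hpq.le hqr.le)

end Cfsg.Agent.S4002
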