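import Cfsg.Statements.S4005
import Cfsg.Agent.Lib.CopRank
import Cfsg.Agent.Lib.Burnside
import Cfsg.Agent.Lib.Cores2
import Cfsg.Agent.Lib.H32Basic

set_option autoImplicit false
open Cfsg

namespace Cfsg.Agent.S4005

open Cfsg.Agent.Lib

/-- A finite group whose set of element orders is exactly {1, 2, 3} has either a normal elementary abelian 3-subgroup of index 2 or a normal elementary abelian 2-subgroup of index 3. -/
theorem result {G : Type*} [Group G] [Finite G] (h : Set.range (orderOf : G → ℕ) = {k : ℕ | 1 ≤ k ∧ k ≤ 3}) :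
    (∃ N : Subgroup G, N.Normal ∧ Cfsg.IsElementaryAbelian 3 N ∧ N.index = 2) ∨
      (∃ N : Subgroup G, N.Normal ∧ Cfsg.IsElementaryAbelian 2 N ∧ N.index = 3) := by
  classical
  have hf2 : Fact (Nat.Prime 2) := ⟨Nat.prime_two⟩
  have hf3 : Fact (Nat.Prime 3) := ⟨Nat.prime_three⟩
  have hord : ∀ g : G, orderOf g = 1 ∨ orderOf g = 2 ∨ orderOf g = 3 := by
    intro g
    have h1 : orderOf g ∈ Set.range (orderOf : G → ℕ) := ⟨g, rfl⟩
    rw [h] at h1
    obtain ⟨h2, h3⟩ := h1
    omega
  obtain ⟨t0, ht0⟩ : ∃ t : G, orderOf t = 2 := by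
    have : (2 : ℕ) ∈ Set.range (orderOf : G → ℕ) := by rw [h]; exact ⟨by norm_num, by norm_num⟩
    exact this
  obtain ⟨r0, hr0⟩ : ∃ t : G, orderOf t = 3 := by
    have : (3 : ℕ) ∈ Set.range (orderOf : G → ℕ) := by rw [h]; exact ⟨by norm_num, by norm_num⟩
    exact this
  -- no commuting elements of orders 2 and 3
  have hno : ∀ a b : G, orderOf a = 2 → orderOf b = 3 → a * b ≠ b * a := by
    intro a b ha hb hab
    have h1 : Commute a b := hab
    have h2 := h1.orderOf_mul_eq_mul_orderOf_of_coprime (by rw [ha, hb]; norm_num)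
    rw [ha, hb] at h2
    rcases hord (a * b) with h3 | h3 | h3 <;> rw [h3] at h2 <;> norm_num at h2
  have hprimes : ∀ q : ℕ, q.Prime → q ∣ Nat.card G → q = 2 ∨ q = 3 := by
    intro q hq hqG
    have : Fact q.Prime := ⟨hq⟩
    obtain ⟨x, hx⟩ := exists_prime_orderOf_dvd_card' (G := G) q hqG
    rcases hord x with h3 | h3 | h3
    · rw [h3] at hx; exact absurd hx.symm hq.one_lt.ne'
    · left; omega
    · right; omega
  have hcard : Nat.card G = 2 ^ (Nat.card G).factorization 2 * 3 ^ (Nat.card G).factorization 3 := by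
    conv_lhs => rw [← Nat.prod_factorization_pow_eq_self (n := Nat.card G) Nat.card_pos.ne']
    rw [Finsupp.prod_of_support_subset (s := {2, 3})]
    · rw [Finset.prod_pair (by norm_num)]
    · intro q hq
      rw [Nat.support_factorization, Nat.mem_primeFactors] at hq
      rcases hprimes q hq.1 hq.2.1 with h1 | h1 <;> simp [h1]
    · intro i _; exact pow_zero i
  have hsolv : Group.IsSolvable G := Burnside.isSolvable_of_card_eq _ 2 3 _ _ Nat.prime_two Nat.prime_three hcard rfl
  have hnt : Nontrivial G := ⟨t0, 1, fun h => by rw [h, orderOf_one] at ht0; norm_num at ht0⟩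
  obtain ⟨Q⟩ : Nonempty (Sylow 2 G) := inferInstance
  -- exponents of Sylow subgroups
  have hpel : ∀ (p : ℕ), p.Prime → ∀ (P : Subgroup G), IsPGroup p P → ∀ x ∈ P, x ^ p = 1 := by
    intro p hp P hP x hx
    have hfp : Fact p.Prime := ⟨hp⟩
    obtain ⟨k, hk⟩ := (IsPGroup.iff_orderOf.1 hP) ⟨x, hx⟩
    rw [Subgroup.orderOf_mk] at hk
    have hk1 : k ≤ 1 := by
      by_contra hk2
      have h1 : p ^ 2 ∣ orderOf x := by rw [hk]; exact pow_dvd_pow p (by omega)
      have h2 : 4 ≤ p ^ 2 := by
        have := hp.two_le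
        nlinarith
      have h3 := Nat.le_of_dvd (orderOf_pos x) h1
      rcases hord x with h4 | h4 | h4 <;> omega
    have : orderOf x ∣ p := by
      rw [hk]
      calc p ^ k ∣ p ^ 1 := pow_dvd_pow p hk1
        _ = p := pow_one p
    exact orderOf_dvd_iff_pow_eq_one.1 this
  have hQsq : ∀ x ∈ (Q : Subgroup G), x * x = 1 := fun x hx => by
    rw [← pow_two]; exact hpel 2 Nat.prime_two _ Q.isPGroup' x hx
  have hcomm2 : ∀ (P : Subgroup G), (∀ x ∈ P, x * x = 1) → ∀ a ∈ P, ∀ b ∈ P, a * b = b * a := by
    intro P hP a ha b hb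
    have h1 : a⁻¹ = a := inv_eq_of_mul_eq_one_right (hP a ha)
    have h2 : b⁻¹ = b := inv_eq_of_mul_eq_one_right (hP b hb)
    have h3 : (a * b)⁻¹ = a * b := inv_eq_of_mul_eq_one_right (hP _ (mul_mem ha hb))
    rw [mul_inv_rev, h1, h2] at h3
    exact h3.symm
  have hord2 : ∀ x : G, x ≠ 1 → x * x = 1 → orderOf x = 2 := fun x hx hxx =>
    orderOf_eq_prime (by rw [pow_two, hxx]) hx
  have hord3 : ∀ x : G, x ≠ 1 → x ^ 3 = 1 → orderOf x = 3 := fun x hx hxx => orderOf_eq_prime hxx hx
  -- an involution inverts every normal subgroup of odd order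
  have hinv : ∀ (K : Subgroup G), K.Normal → (Nat.card K).Coprime 2 → ∀ t : G, orderOf t = 2 →
      ∀ x ∈ K, t * x * t⁻¹ = x⁻¹ := by
    intro K hK hKc t ht x hx
    have htt : t * t = 1 := by rw [← pow_two, ← ht]; exact pow_orderOf_eq_one t
    let φ : K →* K := (MulAut.conjNormal t : MulAut K).toMonoidHom
    have hφ : ∀ y : K, ((φ y : K) : G) = t * y * t⁻¹ := fun y => MulAut.conjNormal_apply t y
    have hfpf : MonoidHom.FixedPointFree φ := by
      intro y hy
      have h1 : t * (y : G) * t⁻¹ = y := by rw [← hφ, hy]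
      by_contra hy1
      have hy1' : (y : G) ≠ 1 := fun h => hy1 (Subtype.ext h)
      have h2 : orderOf (y : G) ∣ Nat.card K := Subgroup.orderOf_dvd_natCard _ y.2
      rcases hord (y : G) with h3 | h3 | h3
      · exact hy1' (orderOf_eq_one_iff.1 h3)
      · rw [h3] at h2
        have := Nat.Coprime.eq_one_of_dvd hKc.symm h2
        norm_num at this
      · exact hno t y ht h3 (mul_inv_eq_iff_eq_mul.1 h1)
    have hinvol : Function.Involutive φ := by
      intro y
      apply Subtype.ext
      rw [hφ, hφ]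
      calc t * (t * (y : G) * t⁻¹) * t⁻¹ = (t * t) * y * (t * t)⁻¹ := by group
        _ = y := by rw [htt]; group
    have h1 := hfpf.coe_eq_inv_of_involutive hinvol
    have h2 := congrFun h1 ⟨x, hx⟩
    have h3 := congrArg Subtype.val h2
    rw [hφ] at h3
    simpa using h3
  have hcop := Cores.coprime_card_pPrimeCore 2 G
  by_cases hcore : pPrimeCore 2 G = ⊥
  · -- case B
    right
    set T := pCore 2 G with hT
    have hTn : T.Normal := Cfsg.pCore_normal 2 G
    have hTp : IsPGroup 2 T := Cores.isPGroup_pCore 2 G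
    have hTQ : T ≤ (Q : Subgroup G) := Cores.pCore_le_sylow Q
    have hCT : Subgroup.centralizer (T : Set G) ≤ T := Cores.centralizer_pCore_le hcore
    have hQT : (Q : Subgroup G) = T := by
      apply le_antisymm _ hTQ
      refine le_trans ?_ hCT
      intro q hq
      rw [Subgroup.mem_centralizer_iff]
      intro x hx
      exact hcomm2 _ hQsq x (hTQ hx) q hq
    have hT1 : T ≠ ⊥ := by
      intro h1
      have h2 : Subgroup.centralizer ((⊥ : Subgroup G) : Set G) = ⊤ := by
        rw [eq_top_iff]
        intro g _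
        rw [Subgroup.mem_centralizer_iff]
        intro x hx
        rw [Subgroup.coe_bot, Set.mem_singleton_iff] at hx
        rw [hx, one_mul, mul_one]
      rw [h1, h2] at hCT
      have h3 : t0 ∈ (⊥ : Subgroup G) := hCT (Subgroup.mem_top _)
      rw [Subgroup.mem_bot] at h3
      rw [h3, orderOf_one] at ht0
      norm_num at ht0
    obtain ⟨R⟩ : Nonempty (Sylow 3 G) := inferInstance
    have hR3 := hpel 3 Nat.prime_three _ R.isPGroup'
    have hRcard : Nat.card R = 3 := by
      obtain ⟨k, hk⟩ := IsPGroup.iff_card.1 R.isPGroup'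
      have hRnt : Nontrivial R := by
        have h3G : 3 ∣ Nat.card G := by rw [← hr0]; exact orderOf_dvd_natCard r0
        have h3R : 3 ∣ Nat.card R := by
          rw [R.card_eq_multiplicity]
          have : (3 : ℕ) ^ 1 ∣ 3 ^ (Nat.card G).factorization 3 := by
            apply pow_dvd_pow
            exact (Nat.Prime.pow_dvd_iff_le_factorization Nat.prime_three Nat.card_pos.ne').1 (by rwa [pow_one])
          rwa [pow_one] at this
        rw [← Finite.one_lt_card_iff_nontrivial]
        have := Nat.le_of_dvd Nat.card_pos h3R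
        omega
      have hcn : Nontrivial (Subgroup.center R) := R.isPGroup'.center_nontrivial
      obtain ⟨z, hz⟩ := exists_ne (1 : Subgroup.center R)
      have hz1 : ((z : R) : G) ≠ 1 := fun h => hz (Subtype.ext (Subtype.ext h))
      by_contra hne
      -- an element outside ⟨z⟩
      have hex : ∃ x ∈ (R : Subgroup G), x ∉ Subgroup.zpowers ((z : R) : G) := by
        by_contra hcon
        push Not at hcon
        have h1 : (R : Subgroup G) ≤ Subgroup.zpowers ((z : R) : G) := fun x hx => hcon x hx
        have h2 : Nat.card (R : Subgroup G) ∣ 3 := by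
          have := Subgroup.card_dvd_of_le h1
          rwa [Nat.card_zpowers, hord3 _ hz1 (hR3 _ (z : R).2)] at this
        rcases (Nat.dvd_prime Nat.prime_three).1 h2 with h3 | h3
        · have := Finite.one_lt_card_iff_nontrivial.2 hRnt
          have h4 : 1 < Nat.card (R : Subgroup G) := this
          omega
        · exact hne h3
      obtain ⟨x, hx, hxz⟩ := hex
      have hcz : x * ((z : R) : G) = ((z : R) : G) * x :=
        congrArg Subtype.val (Subgroup.mem_center_iff.1 z.2 ⟨x, hx⟩)
      have hTnorm : Subgroup.normalizer (T : Set G) = ⊤ := Subgroup.normalizer_eq_top_iff.2 hTn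
      have hkey : ∀ y ∈ (R : Subgroup G), y ≠ 1 → T ⊓ Subgroup.centralizer {y} = ⊥ := by
        intro y hy hy1
        rw [eq_bot_iff]
        intro w hw
        rw [Subgroup.mem_bot]
        by_contra hw1
        have h1 := Subgroup.mem_centralizer_singleton_iff.1 hw.2
        have h2 : w * w = 1 := hQsq w (hTQ hw.1)
        exact hno w y (hord2 w hw1 h2) (hord3 y hy1 (hR3 y hy)) h1
      rcases CopRank.centralizer_ne_bot_of_two (p := 3) Nat.prime_two Nat.prime_three (by norm_num) hTp hT1
        (x := x) (y := ((z : R) : G)) (by rw [hTnorm]; trivial) (by rw [hTnorm]; trivial) hcz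
        (hR3 x hx) (hR3 _ (z : R).2) with h1 | ⟨j, h1⟩
      · exact h1 (hkey _ (z : R).2 hz1)
      · apply h1
        apply hkey _ (mul_mem hx (pow_mem (z : R).2 j))
        intro h2
        apply hxz
        have : x = (((z : R) : G) ^ j)⁻¹ := eq_inv_of_mul_eq_one_left h2
        rw [this]
        exact inv_mem (Subgroup.npow_mem_zpowers _ j)
    refine ⟨T, hTn, ⟨?_, ?_⟩, ?_⟩
    · rw [isMulCommutative_iff_of_setLike]
      intro a ha b hb
      exact hcomm2 _ hQsq a (hTQ ha) b (hTQ hb)
    · intro a ha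
      rw [pow_two]; exact hQsq a (hTQ ha)
    · have h1 := T.card_mul_index
      have h2 : Nat.card T = 2 ^ (Nat.card G).factorization 2 := by
        rw [← hQT]; exact Q.card_eq_multiplicity
      have h3 : 3 = 3 ^ (Nat.card G).factorization 3 := by
        rw [← R.card_eq_multiplicity]; exact hRcard.symm
      have h5 : Nat.card T * T.index = Nat.card T * 3 := by
        rw [h1]
        conv_lhs => rw [hcard, ← h3, ← h2]
      exact Nat.eq_of_mul_eq_mul_left Nat.card_pos h5
  · -- case A
    left
    obtain ⟨⟨y, hy⟩, hy1'⟩ := Subgroup.ne_bot_iff_exists_ne_one.1 hcore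
    have hy1 : y ≠ 1 := fun h => hy1' (Subtype.ext h)
    have hyord : orderOf y = 3 := by
      have h2 : orderOf y ∣ Nat.card (pPrimeCore 2 G) := Subgroup.orderOf_dvd_natCard _ hy
      rcases hord y with h3 | h3 | h3
      · exact absurd (orderOf_eq_one_iff.1 h3) hy1
      · rw [h3] at h2
        have := Nat.Coprime.eq_one_of_dvd hcop.symm h2
        norm_num at this
      · exact h3
    have hOinv := hinv (pPrimeCore 2 G) (Cfsg.pPrimeCore_normal 2 G) hcop
    have hQuniq : ∀ s ∈ (Q : Subgroup G), ∀ t ∈ (Q : Subgroup G), s ≠ 1 → t ≠ 1 → s = t := by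
      intro s hs t ht hs1 ht1
      by_contra hne
      have hst1 : s * t ≠ 1 := by
        intro h1
        apply hne
        rw [← inv_eq_of_mul_eq_one_right (hQsq t ht)]
        exact eq_inv_of_mul_eq_one_left h1
      have h1 := hOinv s (hord2 s hs1 (hQsq s hs))
      have h2 := hOinv t (hord2 t ht1 (hQsq t ht))
      apply hno (s * t) y (hord2 _ hst1 (hQsq _ (mul_mem hs ht))) hyord
      rw [← mul_inv_eq_iff_eq_mul]
      calc s * t * y * (s * t)⁻¹ = s * (t * y * t⁻¹) * s⁻¹ := by group
        _ = y := by rw [h2 y hy, h1 _ (inv_mem hy), inv_inv]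
    obtain ⟨c, hc⟩ : ∃ c : G, c * t0 * c⁻¹ ∈ (Q : Subgroup G) :=
      H32Basic.exists_conj_mem_sylow Q t0 ⟨1, by rw [pow_one, ← ht0]; exact pow_orderOf_eq_one t0⟩
    set t := c * t0 * c⁻¹ with ht
    have ht1 : t ≠ 1 := by
      intro h1
      have : t0 = c⁻¹ * t * c := by rw [ht]; group
      rw [h1] at this
      have h2 : t0 = 1 := by rw [this]; group
      rw [h2, orderOf_one] at ht0
      norm_num at ht0
    have hQ2 : ∀ s ∈ (Q : Subgroup G), s = 1 ∨ s = t := by
      intro s hs
      by_cases hs1 : s = 1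
      · exact Or.inl hs1
      · exact Or.inr (hQuniq s hs t hc hs1 ht1)
    have hNC : Subgroup.normalizer ((Q : Subgroup G) : Set G) ≤ Subgroup.centralizer (Q : Set G) := by
      intro g hg
      rw [Subgroup.mem_centralizer_iff]
      intro s hs
      rcases hQ2 s hs with h1 | h1
      · rw [h1, one_mul, mul_one]
      · rw [h1]
        have h2 := (Subgroup.mem_normalizer_iff.1 hg t).1 hc
        rcases hQ2 _ h2 with h3 | h3
        · exfalso
          apply ht1
          have : t = g⁻¹ * (g * t * g⁻¹) * g := by group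
          rw [this, h3]; group
        · exact (mul_inv_eq_iff_eq_mul.1 h3).symm
    have hcompl := MonoidHom.ker_transferSylow_isComplement' Q hNC
    set K := (MonoidHom.transferSylow Q hNC).ker with hK
    have hKn : K.Normal := inferInstance
    have hKc : (Nat.card K).Coprime 2 := by
      rw [← hcompl.index_eq_card, Nat.coprime_comm, Nat.Prime.coprime_iff_not_dvd Nat.prime_two]
      exact Q.not_dvd_index
    have hKinv := hinv K hKn hKc t (hord2 t ht1 (hQsq t hc))
    have hQcard : Nat.card Q = 2 := by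
      obtain ⟨k, hk⟩ := IsPGroup.iff_card.1 Q.isPGroup'
      have h1 : Nat.card (Q : Subgroup G) ∣ Nat.card (Subgroup.zpowers t) := by
        apply Subgroup.card_dvd_of_le
        intro s hs
        rcases hQ2 s hs with h1 | h1
        · rw [h1]; exact one_mem _
        · rw [h1]; exact Subgroup.mem_zpowers t
      rw [Nat.card_zpowers, hord2 t ht1 (hQsq t hc)] at h1
      have h2 : 2 ∣ Nat.card (Q : Subgroup G) := by
        have := Subgroup.orderOf_dvd_natCard (Q : Subgroup G) hc
        rwa [hord2 t ht1 (hQsq t hc)] at this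
      exact Nat.dvd_antisymm h1 h2
    refine ⟨K, hKn, ⟨?_, ?_⟩, ?_⟩
    · rw [isMulCommutative_iff_of_setLike]
      intro a ha b hb
      have h1 := hKinv (a * b) (mul_mem ha hb)
      have h2 : t * (a * b) * t⁻¹ = (t * a * t⁻¹) * (t * b * t⁻¹) := by group
      rw [h2, hKinv a ha, hKinv b hb] at h1
      have h3 := congrArg (fun z => z⁻¹) h1
      simp only [mul_inv_rev, inv_inv] at h3
      exact h3.symm
    · intro a ha
      have h2 : orderOf a ∣ Nat.card K := Subgroup.orderOf_dvd_natCard _ ha
      rcases hord a with h3 | h3 | h3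
      · rw [orderOf_eq_one_iff.1 h3, one_pow]
      · rw [h3] at h2
        have := Nat.Coprime.eq_one_of_dvd hKc.symm h2
        norm_num at this
      · rw [← h3]; exact pow_orderOf_eq_one a
    · rw [hcompl.symm.index_eq_card]; exact hQcard

end Cfsg.Agent.S4005
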