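import Cfsg.Statements.S4006
import Cfsg.Agent.Lib.OrdFour67

set_option autoImplicit false
open Cfsg

namespace Cfsg.Agent.S4006

open Cfsg.Agent.Lib

/-- A finite group whose set of element orders is exactly {1, 2, 3, 4} has a normal subgroup N such that either N is a 2-group of exponent 4 and nilpotency class at most 2 with G/N of order 3, or N is an elementary abelian 2-group with G/N isomorphic to the symmetric group of degree 3, or N is an elementary abelian 3-group with G/N cyclic of order 4 or quaternion of order 8. -/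
theorem result {G : Type*} [Group G] [Finite G] (h : Set.range (orderOf : G → ℕ) = {k : ℕ | 1 ≤ k ∧ k ≤ 4}) :
    ∃ (N : Subgroup G) (_ : N.Normal),
      (IsPGroup 2 ↥N ∧ Monoid.exponent ↥N = 4 ∧ Group.nilpotencyClass ↥N ≤ 2 ∧ N.index = 3) ∨
      (Cfsg.IsElementaryAbelian 2 N ∧ Nonempty (G ⧸ N ≃* Equiv.Perm (Fin 3))) ∨
      (Cfsg.IsElementaryAbelian 3 N ∧ ((IsCyclic (G ⧸ N) ∧ N.index = 4) ∨ Nonempty (G ⧸ N ≃* QuaternionGroup 2))) := by
  have hord : ∀ g : G, orderOf g = 1 ∨ orderOf g = 2 ∨ orderOf g = 3 ∨ orderOf g = 4 := by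
    intro g
    have h1 : orderOf g ∈ Set.range (orderOf : G → ℕ) := ⟨g, rfl⟩
    rw [h] at h1
    obtain ⟨h2, h3⟩ := h1
    omega
  have hex : ∀ k : ℕ, 1 ≤ k → k ≤ 4 → ∃ t : G, orderOf t = k := by
    intro k h1 h2
    have : k ∈ Set.range (orderOf : G → ℕ) := by rw [h]; exact ⟨h1, h2⟩
    exact this
  by_cases hcore : pPrimeCore 2 G = ⊥
  · obtain ⟨N, hN, h1 | h1⟩ := OrdFour67.case_two hord hcore (hex 3 (by norm_num) (by norm_num)) (hex 4 (by norm_num) le_rfl)
    · exact ⟨N, hN, Or.inl h1⟩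
    · exact ⟨N, hN, Or.inr (Or.inl h1)⟩
  · obtain ⟨N, hN, h1⟩ := OrdFour67.case_three hord hcore (hex 4 (by norm_num) le_rfl)
    exact ⟨N, hN, Or.inr (Or.inr h1)⟩

end Cfsg.Agent.S4006
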