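import Mathlib
import Cfsg.Statements.S4198

set_option autoImplicit false
open Cfsg

namespace Cfsg.Agent.S4198

/-! ### Partitions -/

theorem sum_add (s t : Multiset ℕ) : (s + t).sum = s.sum + t.sum := Multiset.sum_add s t

/-- partitions without part `1` -/
noncomputable def shrink {n : ℕ} (p : Nat.Partition (n + 2)) (hp : 1 ∉ p.parts) : Nat.Partition n :=
  have hne : p.parts ≠ 0 := by
    intro h
    have := p.parts_sum
    rw [h, Multiset.sum_zero] at this
    omega
  let m := (Multiset.exists_mem_of_ne_zero hne).choose
  have hm : m ∈ p.parts := (Multiset.exists_mem_of_ne_zero hne).choose_spec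
  { parts := p.parts.erase m + Multiset.replicate (m - 2) 1
    parts_pos := by
      intro i hi
      rcases Multiset.mem_add.1 hi with h | h
      · exact p.parts_pos (Multiset.mem_of_mem_erase h)
      · rw [Multiset.eq_of_mem_replicate h]; exact one_pos
    parts_sum := by
      have h1 := p.parts_sum
      rw [← Multiset.cons_erase hm, Multiset.sum_cons] at h1
      have h2 : 2 ≤ m := by
        have h3 := p.parts_pos hm
        have h4 : m ≠ 1 := fun h => hp (h ▸ hm)
        omega
      rw [Multiset.sum_add, Multiset.sum_replicate, smul_eq_mul]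
      omega }

theorem shrink_inj {n : ℕ} (p q : Nat.Partition (n + 2)) (hp : 1 ∉ p.parts) (hq : 1 ∉ q.parts)
    (h : shrink p hp = shrink q hq) : p = q := by
  classical
  have key : ∀ (p : Nat.Partition (n + 2)) (hp : 1 ∉ p.parts),
      p.parts = (Multiset.count 1 (shrink p hp).parts + 2) ::ₘ (shrink p hp).parts.filter (· ≠ 1) := by
    intro p hp
    have hne : p.parts ≠ 0 := by
      intro h
      have := p.parts_sum
      rw [h, Multiset.sum_zero] at this
      omega
    set m := (Multiset.exists_mem_of_ne_zero hne).choose with hmdef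
    have hm : m ∈ p.parts := (Multiset.exists_mem_of_ne_zero hne).choose_spec
    have hs : (shrink p hp).parts = p.parts.erase m + Multiset.replicate (m - 2) 1 := rfl
    have h2 : 2 ≤ m := by
      have h3 := p.parts_pos hm
      have h4 : m ≠ 1 := fun h => hp (h ▸ hm)
      omega
    have h1e : 1 ∉ p.parts.erase m := fun h => hp (Multiset.mem_of_mem_erase h)
    rw [hs, Multiset.count_add, Multiset.count_eq_zero_of_notMem h1e, Multiset.count_replicate_self, Multiset.filter_add]
    have e1 : Multiset.filter (· ≠ 1) (p.parts.erase m) = p.parts.erase m := by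
      rw [Multiset.filter_eq_self]
      intro a ha h
      exact h1e (h ▸ ha)
    have e2 : Multiset.filter (· ≠ 1) (Multiset.replicate (m - 2) 1) = 0 := by
      rw [Multiset.filter_eq_nil]
      intro a ha h
      exact h (Multiset.eq_of_mem_replicate ha)
    rw [e1, e2, add_zero]
    have : 0 + (m - 2) + 2 = m := by omega
    rw [this, Multiset.cons_erase hm]
  apply Nat.Partition.ext
  rw [key p hp, key q hq, h]

theorem card_partition_le (n : ℕ) :
    Fintype.card (Nat.Partition (n + 2)) ≤ Fintype.card (Nat.Partition (n + 1)) + Fintype.card (Nat.Partition n) := by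
  classical
  have e1 : Fintype.card {p : Nat.Partition (n + 2) // 1 ∈ p.parts} = Fintype.card (Nat.Partition (n + 1)) :=
    Fintype.card_congr (Nat.Partition.partitionWithPartEquiv (n := n + 2) (a := 1) le_rfl (by omega))
  have e2 : Fintype.card {p : Nat.Partition (n + 2) // ¬ 1 ∈ p.parts} ≤ Fintype.card (Nat.Partition n) := by
    apply Fintype.card_le_of_injective (fun p => shrink p.1 p.2)
    intro p q h
    exact Subtype.ext (shrink_inj p.1 q.1 p.2 q.2 h)
  have e3 := Fintype.card_subtype_compl (fun p : Nat.Partition (n + 2) => 1 ∈ p.parts)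
  have e4 : Fintype.card {p : Nat.Partition (n + 2) // 1 ∈ p.parts} ≤ Fintype.card (Nat.Partition (n + 2)) :=
    Fintype.card_subtype_le _
  omega

theorem card_partition_le_pow (n : ℕ) : Fintype.card (Nat.Partition (n + 5)) ≤ 2 ^ (n + 3) ∧
    Fintype.card (Nat.Partition (n + 4)) ≤ 2 ^ (n + 3) := by
  have h0 : Fintype.card (Nat.Partition 0) = 1 := Fintype.card_unique
  have h1 : Fintype.card (Nat.Partition 1) = 1 := Fintype.card_unique
  have h2 := card_partition_le 0
  have h3 := card_partition_le 1
  have h4 := card_partition_le 2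
  have h5 := card_partition_le 3
  norm_num at h2 h3 h4 h5
  induction n with
  | zero => norm_num; omega
  | succ n ih =>
    have h6 := card_partition_le (n + 4)
    have e : 2 ^ (n + 1 + 3) = 2 * 2 ^ (n + 3) := by ring
    have e5 : n + 1 + 5 = n + 4 + 2 := by ring
    have e4 : n + 1 + 4 = n + 5 := by ring
    rw [e, e5, e4]
    have e6 : n + 4 + 1 = n + 5 := by ring
    rw [e6] at h6
    omega

/-! ### Classes -/

variable {α : Type*} [Fintype α] [DecidableEq α]

/-- every partition is the partition of a permutation -/
theorem exists_partition (p : Nat.Partition (Fintype.card α)) : ∃ g : Equiv.Perm α, g.partition = p := by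
  classical
  have h1 : (p.parts.filter (2 ≤ ·)).sum + (p.parts.filter (¬ 2 ≤ ·)).sum = Fintype.card α := by
    rw [← Multiset.sum_add, Multiset.filter_add_not, p.parts_sum]
  have h2 : p.parts.filter (¬ 2 ≤ ·) = Multiset.replicate (Multiset.card (p.parts.filter (¬ 2 ≤ ·))) 1 := by
    rw [Multiset.eq_replicate_card]
    intro b hb
    rw [Multiset.mem_filter] at hb
    have := p.parts_pos hb.1
    omega
  have h3 : (p.parts.filter (¬ 2 ≤ ·)).sum = Multiset.card (p.parts.filter (¬ 2 ≤ ·)) := by
    conv_lhs => rw [h2]
    rw [Multiset.sum_replicate, smul_eq_mul, mul_one]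
  obtain ⟨g, hg⟩ := (Equiv.Perm.exists_with_cycleType_iff α (m := p.parts.filter (2 ≤ ·))).2
    ⟨by omega, fun a ha => (Multiset.mem_filter.1 ha).2⟩
  refine ⟨g, ?_⟩
  apply Nat.Partition.ext
  rw [Equiv.Perm.parts_partition, ← Equiv.Perm.sum_cycleType, hg]
  have h4 : Fintype.card α - (p.parts.filter (2 ≤ ·)).sum = Multiset.card (p.parts.filter (¬ 2 ≤ ·)) := by omega
  rw [h4, ← h2, Multiset.filter_add_not]

/-- number of classes of the symmetric group -/
theorem card_classes_perm : Nat.card (ConjClasses (Equiv.Perm α)) = Fintype.card (Nat.Partition (Fintype.card α)) := by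
  classical
  rw [← Nat.card_eq_fintype_card]
  let f : ConjClasses (Equiv.Perm α) → Nat.Partition (Fintype.card α) :=
    Quotient.lift (fun g : Equiv.Perm α => g.partition) (fun a b h => Equiv.Perm.partition_eq_of_isConj.1 h)
  have hf : Function.Bijective f := by
    constructor
    · intro a b
      induction a using Quotient.inductionOn
      induction b using Quotient.inductionOn
      intro h
      exact Quotient.sound (Equiv.Perm.partition_eq_of_isConj.2 h)
    · intro p
      obtain ⟨g, hg⟩ := exists_partition p
      exact ⟨ConjClasses.mk g, hg⟩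
  exact Nat.card_congr (Equiv.ofBijective f hf)

/-- partition with distinct odd parts -/
def DO (p : Nat.Partition (Fintype.card α)) : Prop := (∀ i ∈ p.parts, Odd i) ∧ p.parts.Nodup

/-- odd partitions -/
def OD (p : Nat.Partition (Fintype.card α)) : Prop := Odd (Fintype.card α + Multiset.card p.parts)

theorem not_OD_of_even (g : Equiv.Perm α) (hg : g ∈ alternatingGroup α) : ¬ OD g.partition := by
  intro h
  unfold OD at h
  rw [Equiv.Perm.mem_alternatingGroup, Equiv.Perm.sign_of_cycleType] at hg
  rw [Equiv.Perm.parts_partition, Multiset.card_add, Multiset.card_replicate, ← Equiv.Perm.sum_cycleType] at h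
  have hle : g.cycleType.sum ≤ Fintype.card α := by
    rw [Equiv.Perm.sum_cycleType]; exact Finset.card_le_univ _
  have h2 : Odd (g.cycleType.sum + Multiset.card g.cycleType) := by
    rw [Nat.odd_iff] at h ⊢
    omega
  rw [h2.neg_one_pow] at hg
  exact absurd hg (by decide)

theorem DO_of_centralizer (g : Equiv.Perm α) (hg : Subgroup.centralizer {g} ≤ alternatingGroup α) : DO g.partition := by
  rw [Equiv.Perm.centralizer_le_alternating_iff] at hg
  obtain ⟨h1, h2, h3⟩ := hg
  unfold DO
  rw [Equiv.Perm.parts_partition, ← Equiv.Perm.sum_cycleType]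
  constructor
  · intro i hi
    rcases Multiset.mem_add.1 hi with h | h
    · exact h1 i h
    · rw [Multiset.eq_of_mem_replicate h]; exact odd_one
  · rw [Multiset.nodup_add]
    refine ⟨Multiset.nodup_iff_count_le_one.2 h3, ?_, ?_⟩
    · rw [Multiset.nodup_iff_count_le_one]
      intro a
      rw [Multiset.count_replicate]
      split_ifs
      · omega
      · omega
    · rw [Multiset.disjoint_left]
      intro a ha hb
      rw [Multiset.eq_of_mem_replicate hb] at ha
      have := Equiv.Perm.two_le_of_mem_cycleType ha
      omega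

/-- the map from classes of the alternating group to partitions -/
noncomputable def pmap : ConjClasses (alternatingGroup α) → Nat.Partition (Fintype.card α) :=
  Quotient.lift (fun g : alternatingGroup α => (g : Equiv.Perm α).partition) (fun a b h => by
    apply Equiv.Perm.partition_eq_of_isConj.1
    have h' : IsConj a b := h
    obtain ⟨c, hc⟩ := isConj_iff.1 h'
    rw [isConj_iff]
    exact ⟨c, congrArg Subtype.val hc⟩)

theorem pmap_mk (g : alternatingGroup α) : pmap (ConjClasses.mk g) = (g : Equiv.Perm α).partition := rfl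

theorem fiber_le_two (p : Nat.Partition (Fintype.card α)) : Nat.card {C : ConjClasses (alternatingGroup α) // pmap C = p} ≤ 2 := by
  classical
  by_cases hne : Nonempty {C : ConjClasses (alternatingGroup α) // pmap C = p}
  swap
  · rw [not_nonempty_iff] at hne
    simp
  obtain ⟨C0⟩ := hne
  have hB : Nat.card Bool = 2 := by simp
  rw [← hB]
  apply Nat.card_le_card_of_injective (fun C : {C : ConjClasses (alternatingGroup α) // pmap C = p} => decide (C = C0))
  intro C1 C2 h
  simp only [decide_eq_decide] at h
  by_cases h1 : C1 = C0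
  · rw [h1, h.1 h1]
  · have h2 : C2 ≠ C0 := fun h' => h1 (h.2 h')
    apply Subtype.ext
    obtain ⟨C0, hC0⟩ := C0
    obtain ⟨C1, hC1⟩ := C1
    obtain ⟨C2, hC2⟩ := C2
    simp only at *
    induction C0 using Quotient.inductionOn with | _ x0 =>
    induction C1 using Quotient.inductionOn with | _ x1 =>
    induction C2 using Quotient.inductionOn with | _ x2 =>
    have e0 : (x0 : Equiv.Perm α).partition = p := hC0
    have e1 : (x1 : Equiv.Perm α).partition = p := hC1
    have e2 : (x2 : Equiv.Perm α).partition = p := hC2
    obtain ⟨t1, ht1⟩ := isConj_iff.1 (Equiv.Perm.partition_eq_of_isConj.2 (e0.trans e1.symm))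
    obtain ⟨t2, ht2⟩ := isConj_iff.1 (Equiv.Perm.partition_eq_of_isConj.2 (e0.trans e2.symm))
    have no : ∀ (x : alternatingGroup α) (t : Equiv.Perm α), t * x0 * t⁻¹ = x →
        (⟦x⟧ : ConjClasses (alternatingGroup α)) ≠ ⟦x0⟧ → Equiv.Perm.sign t = -1 := by
      intro x t ht hx
      rcases Int.units_eq_one_or (Equiv.Perm.sign t) with h | h
      · exfalso
        apply hx
        apply Quotient.sound
        have : IsConj x x0 := by
          apply IsConj.symm
          rw [isConj_iff]
          exact ⟨⟨t, Equiv.Perm.mem_alternatingGroup.2 h⟩, Subtype.ext ht⟩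
        exact this
      · exact h
    have hs1 := no x1 t1 ht1 (fun h => h1 (Subtype.ext h))
    have hs2 := no x2 t2 ht2 (fun h => h2 (Subtype.ext h))
    apply Quotient.sound
    have : IsConj x1 x2 := by
      rw [isConj_iff]
      refine ⟨⟨t2 * t1⁻¹, Equiv.Perm.mem_alternatingGroup.2 (by rw [map_mul, map_inv, hs1, hs2]; decide)⟩, Subtype.ext ?_⟩
      change t2 * t1⁻¹ * x1 * (t2 * t1⁻¹)⁻¹ = x2
      rw [← ht1, ← ht2]; group
    exact this

theorem fiber_le_one (p : Nat.Partition (Fintype.card α)) (hp : ¬ DO p) : Nat.card {C : ConjClasses (alternatingGroup α) // pmap C = p} ≤ 1 := by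
  classical
  rw [Finite.card_le_one_iff_subsingleton]
  refine ⟨?_⟩
  rintro ⟨C1, hC1⟩ ⟨C2, hC2⟩
  apply Subtype.ext
  simp only
  induction C1 using Quotient.inductionOn with | _ x1 =>
  induction C2 using Quotient.inductionOn with | _ x2 =>
  have e1 : (x1 : Equiv.Perm α).partition = p := hC1
  have e2 : (x2 : Equiv.Perm α).partition = p := hC2
  obtain ⟨t, ht⟩ := isConj_iff.1 (Equiv.Perm.partition_eq_of_isConj.2 (e1.trans e2.symm))
  have hc : ¬ Subgroup.centralizer {(x1 : Equiv.Perm α)} ≤ alternatingGroup α := by
    intro h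
    exact hp (e1 ▸ DO_of_centralizer _ h)
  obtain ⟨r, hr, hr'⟩ := SetLike.not_le_iff_exists.1 hc
  have hrs : Equiv.Perm.sign r = -1 := by
    rcases Int.units_eq_one_or (Equiv.Perm.sign r) with h | h
    · exact absurd (Equiv.Perm.mem_alternatingGroup.2 h) hr'
    · exact h
  rw [Subgroup.mem_centralizer_singleton_iff] at hr
  apply Quotient.sound
  have : IsConj x1 x2 := by
    rw [isConj_iff]
    rcases Int.units_eq_one_or (Equiv.Perm.sign t) with h | h
    · exact ⟨⟨t, Equiv.Perm.mem_alternatingGroup.2 h⟩, Subtype.ext ht⟩
    · refine ⟨⟨t * r, Equiv.Perm.mem_alternatingGroup.2 (by rw [map_mul, hrs, h]; decide)⟩, Subtype.ext ?_⟩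
      change t * r * x1 * (t * r)⁻¹ = x2
      rw [← ht]
      calc t * r * x1 * (t * r)⁻¹ = t * (r * x1) * r⁻¹ * t⁻¹ := by group
        _ = t * (x1 * r) * r⁻¹ * t⁻¹ := by rw [hr]
        _ = _ := by group
  exact this

theorem fiber_zero (p : Nat.Partition (Fintype.card α)) (hp : OD p) : Nat.card {C : ConjClasses (alternatingGroup α) // pmap C = p} = 0 := by
  rw [Nat.card_eq_zero]
  left
  refine ⟨?_⟩
  rintro ⟨C, hC⟩
  induction C using Quotient.inductionOn with | _ x =>
  have e : (x : Equiv.Perm α).partition = p := hC
  exact not_OD_of_even _ x.2 (e ▸ hp)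

theorem not_OD_of_DO (p : Nat.Partition (Fintype.card α)) (hp : DO p) : ¬ OD p := by
  have key : ∀ s : Multiset ℕ, (∀ i ∈ s, Odd i) → Even (s.sum + Multiset.card s) := by
    intro s
    induction s using Multiset.induction_on with
    | empty => intro _; simp
    | cons a s ih =>
      intro h
      rw [Multiset.sum_cons, Multiset.card_cons]
      have h1 := ih (fun i hi => h i (Multiset.mem_cons_of_mem hi))
      have h2 := h a (Multiset.mem_cons_self a s)
      rw [Nat.even_iff] at h1 ⊢
      rw [Nat.odd_iff] at h2
      omega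
  have h := key p.parts hp.1
  rw [p.parts_sum] at h
  unfold OD
  rwa [Nat.not_odd_iff_even]

theorem exists_big {p : Nat.Partition (Fintype.card α)} (hn : 2 ≤ Fintype.card α) (hp : DO p) : ∃ a ∈ p.parts, 3 ≤ a := by
  by_contra hcon
  push Not at hcon
  have h1 : ∀ a ∈ p.parts, a = 1 := by
    intro a ha
    have h1 := hcon a ha
    have h2 := p.parts_pos ha
    have h3 := hp.1 a ha
    rw [Nat.odd_iff] at h3
    omega
  have h2 : p.parts = Multiset.replicate (Multiset.card p.parts) 1 := Multiset.eq_replicate_card.2 h1
  have h3 := p.parts_sum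
  rw [h2, Multiset.sum_replicate, smul_eq_mul, mul_one] at h3
  have h4 := Multiset.nodup_iff_count_le_one.1 hp.2 1
  rw [h2, Multiset.count_replicate_self] at h4
  omega

/-- split a part `a` of a partition into distinct odd parts into `a - 1` and `1`. -/
noncomputable def split (hn : 2 ≤ Fintype.card α) (p : Nat.Partition (Fintype.card α)) (hp : DO p) : Nat.Partition (Fintype.card α) :=
  { parts := ((exists_big hn hp).choose - 1) ::ₘ 1 ::ₘ p.parts.erase (exists_big hn hp).choose
    parts_pos := by
      intro i hi
      have h3 := (exists_big hn hp).choose_spec.2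
      rcases Multiset.mem_cons.1 hi with h | h
      · omega
      rcases Multiset.mem_cons.1 h with h | h
      · omega
      · exact p.parts_pos (Multiset.mem_of_mem_erase h)
    parts_sum := by
      have h3 := (exists_big hn hp).choose_spec.2
      have h1 := p.parts_sum
      rw [← Multiset.cons_erase (exists_big hn hp).choose_spec.1, Multiset.sum_cons] at h1
      rw [Multiset.sum_cons, Multiset.sum_cons]
      omega }

theorem split_parts (hn : 2 ≤ Fintype.card α) (p : Nat.Partition (Fintype.card α)) (hp : DO p) :
    ∃ a ∈ p.parts, 3 ≤ a ∧ (split hn p hp).parts = (a - 1) ::ₘ 1 ::ₘ p.parts.erase a :=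
  ⟨(exists_big hn hp).choose, (exists_big hn hp).choose_spec.1, (exists_big hn hp).choose_spec.2, rfl⟩

theorem split_OD (hn : 2 ≤ Fintype.card α) (p : Nat.Partition (Fintype.card α)) (hp : DO p) : OD (split hn p hp) := by
  obtain ⟨a, ha, h3, h⟩ := split_parts hn p hp
  have h1 := not_OD_of_DO p hp
  unfold OD at h1 ⊢
  rw [h, Multiset.card_cons, Multiset.card_cons]
  have h2 : Multiset.card p.parts = Multiset.card (p.parts.erase a) + 1 := by
    conv_lhs => rw [← Multiset.cons_erase ha]
    rw [Multiset.card_cons]
  rw [Nat.odd_iff] at h1 ⊢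
  omega

theorem split_even_unique (hn : 2 ≤ Fintype.card α) (p : Nat.Partition (Fintype.card α)) (hp : DO p) (a : ℕ) 
    (h3 : 3 ≤ a) (h : (split hn p hp).parts = (a - 1) ::ₘ 1 ::ₘ p.parts.erase a) (e : ℕ) (he : e ∈ (split hn p hp).parts)
    (hev : Even e) : e = a - 1 := by
  rw [h] at he
  rcases Multiset.mem_cons.1 he with h' | h'
  · exact h'
  exfalso
  have : Odd e := by
    rcases Multiset.mem_cons.1 h' with h'' | h''
    · rw [h'']; exact odd_one
    · exact hp.1 e (Multiset.mem_of_mem_erase h'')
  exact (Nat.not_odd_iff_even.2 hev) this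

theorem split_inj (hn : 2 ≤ Fintype.card α) (p q : Nat.Partition (Fintype.card α)) (hp : DO p) (hq : DO q)
    (h : split hn p hp = split hn q hq) : p = q := by
  obtain ⟨a, ha, h3, h1⟩ := split_parts hn p hp
  obtain ⟨b, hb, h4, h2⟩ := split_parts hn q hq
  have hae : Even (a - 1) := by
    have := hp.1 a ha
    rw [Nat.odd_iff] at this
    rw [Nat.even_iff]; omega
  have hab : a - 1 = b - 1 := by
    apply split_even_unique hn q hq b h4 h2 (a - 1) _ hae
    rw [← h, h1]
    exact Multiset.mem_cons_self _ _
  have hab' : a = b := by omega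
  subst hab'
  apply Nat.Partition.ext
  have h5 : (a - 1) ::ₘ 1 ::ₘ p.parts.erase a = (a - 1) ::ₘ 1 ::ₘ q.parts.erase a := by
    rw [← h1, ← h2, h]
  have h6 := Multiset.cons_inj_right _ |>.1 (Multiset.cons_inj_right _ |>.1 h5)
  rw [← Multiset.cons_erase ha, ← Multiset.cons_erase hb, h6]

/-- the partition `2, 1, ..., 1` -/
def mu (hn : 2 ≤ Fintype.card α) : Nat.Partition (Fintype.card α) :=
  { parts := 2 ::ₘ Multiset.replicate (Fintype.card α - 2) 1
    parts_pos := by
      intro i hi
      rcases Multiset.mem_cons.1 hi with h | h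
      · omega
      · rw [Multiset.eq_of_mem_replicate h]; exact one_pos
    parts_sum := by
      rw [Multiset.sum_cons, Multiset.sum_replicate, smul_eq_mul]; omega }

theorem mu_OD (hn : 2 ≤ Fintype.card α) : OD (mu (α := α) hn) := by
  unfold OD mu
  simp only [Multiset.card_cons, Multiset.card_replicate]
  rw [Nat.odd_iff]; omega

theorem mu_not_split (hn : 2 ≤ Fintype.card α) (h5 : 5 ≤ Fintype.card α) (p : Nat.Partition (Fintype.card α)) (hp : DO p) :
    split hn p hp ≠ mu hn := by
  intro h
  obtain ⟨a, ha, h3, h1⟩ := split_parts hn p hp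
  have hmu : (mu (α := α) hn).parts = 2 ::ₘ Multiset.replicate (Fintype.card α - 2) 1 := rfl
  have h2 : (2 : ℕ) = a - 1 := by
    apply split_even_unique hn p hp a h3 h1 2 _ even_two
    rw [h, hmu]
    exact Multiset.mem_cons_self _ _
  rw [h, hmu, ← h2] at h1
  have h4 := Multiset.cons_inj_right _ |>.1 h1
  have h6 : Multiset.count 1 (1 ::ₘ p.parts.erase a) = Fintype.card α - 2 := by
    rw [← h4, Multiset.count_replicate_self]
  rw [Multiset.count_cons_self] at h6
  have h7 := Multiset.nodup_iff_count_le_one.1 hp.2 1
  have h8 : Multiset.count 1 (p.parts.erase a) ≤ Multiset.count 1 p.parts := Multiset.count_le_of_le _ (Multiset.erase_le _ _)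
  omega

/-- For n ≥ 5 the alternating group of degree n has strictly fewer conjugacy classes than the symmetric group of degree n, and the symmetric group of degree n (whose classes correspond to the partitions of n) has at most 2^(n−2) conjugacy classes. -/
theorem result (n : ℕ) (hn : 5 ≤ n) : Nat.card (ConjClasses (alternatingGroup (Fin n))) < Nat.card (ConjClasses (Equiv.Perm (Fin n))) ∧ Nat.card (ConjClasses (Equiv.Perm (Fin n))) ≤ 2 ^ (n - 2) := by
  classical
  have hcard : Fintype.card (Fin n) = n := Fintype.card_fin n
  constructor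
  · have h5 : 5 ≤ Fintype.card (Fin n) := by rw [hcard]; exact hn
    have h2 : 2 ≤ Fintype.card (Fin n) := by omega
    rw [card_classes_perm]
    -- count via fibres
    have hsum : Nat.card (ConjClasses (alternatingGroup (Fin n))) =
        ∑ p : Nat.Partition (Fintype.card (Fin n)), Nat.card {C : ConjClasses (alternatingGroup (Fin n)) // pmap C = p} := by
      rw [← Nat.card_sigma]
      exact Nat.card_congr (Equiv.sigmaFiberEquiv (pmap (α := Fin n))).symm
    have hbound : ∀ p : Nat.Partition (Fintype.card (Fin n)), Nat.card {C : ConjClasses (alternatingGroup (Fin n)) // pmap C = p} ≤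
        (if OD p then 0 else 1) + (if DO p then 1 else 0) := by
      intro p
      by_cases hO : OD p
      · rw [fiber_zero p hO]; exact Nat.zero_le _
      · by_cases hD : DO p
        · simp only [hO, hD, if_true, if_false]
          exact fiber_le_two p
        · simp only [hO, hD, if_false]
          exact fiber_le_one p hD
    rw [hsum]
    have h6 : ∑ p : Nat.Partition (Fintype.card (Fin n)), ((if OD p then 0 else 1) + (if DO p then 1 else 0)) =
        (Finset.univ.filter (fun p : Nat.Partition (Fintype.card (Fin n)) => ¬ OD p)).card + (Finset.univ.filter (fun p : Nat.Partition (Fintype.card (Fin n)) => DO p)).card := by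
      rw [Finset.sum_add_distrib, Finset.card_filter, Finset.card_filter]
      congr 1
      apply Finset.sum_congr rfl
      intro p _
      by_cases hO : OD p
      · simp [hO]
      · simp [hO]
    have h7 : (Finset.univ.filter (fun p : Nat.Partition (Fintype.card (Fin n)) => DO p)).card <
        (Finset.univ.filter (fun p : Nat.Partition (Fintype.card (Fin n)) => OD p)).card := by
      have h8 : ((Finset.univ.filter (fun p : Nat.Partition (Fintype.card (Fin n)) => DO p)).attach.image
          (fun p => split h2 p.1 (Finset.mem_filter.1 p.2).2)).card = (Finset.univ.filter (fun p : Nat.Partition (Fintype.card (Fin n)) => DO p)).card := by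
        rw [Finset.card_image_of_injective, Finset.card_attach]
        intro p q h
        exact Subtype.ext (split_inj h2 p.1 q.1 _ _ h)
      rw [← h8]
      apply Finset.card_lt_card
      rw [Finset.ssubset_iff_of_subset]
      · refine ⟨mu h2, ?_, ?_⟩
        · rw [Finset.mem_filter]
          exact ⟨Finset.mem_univ _, mu_OD h2⟩
        · intro h
          rw [Finset.mem_image] at h
          obtain ⟨p, _, hp⟩ := h
          exact mu_not_split h2 h5 p.1 _ hp
      · intro q hq
        rw [Finset.mem_image] at hq
        obtain ⟨p, _, rfl⟩ := hq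
        rw [Finset.mem_filter]
        exact ⟨Finset.mem_univ _, split_OD h2 p.1 _⟩
    have h9 := Finset.card_filter_add_card_filter_not (s := (Finset.univ : Finset (Nat.Partition (Fintype.card (Fin n))))) (fun p => OD p)
    have h10 := Finset.sum_le_sum (fun p (_ : p ∈ (Finset.univ : Finset (Nat.Partition (Fintype.card (Fin n))))) => hbound p)
    rw [h6] at h10
    rw [Finset.card_univ] at h9
    omega
  · rw [card_classes_perm, hcard]
    obtain ⟨m, rfl⟩ : ∃ m, n = m + 5 := ⟨n - 5, by omega⟩
    have := (card_partition_le_pow m).1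
    have e : m + 5 - 2 = m + 3 := by omega
    rw [e]; exact this

end Cfsg.Agent.S4198
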