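import Mathlib
import Cfsg.Statements.S4201
import Cfsg.Agent.S4200

set_option autoImplicit false
open Cfsg

namespace Cfsg.Agent.S4201

open Cfsg.Agent.S4200 (ind ind_comm pairs_eq)

variable {X : Type*} [Group X] [Fintype X]

open scoped Classical in
/-- Elements of a coset `B` commuting with `a`. -/
noncomputable def cnt (N : Subgroup X) (a : X) (B : X ⧸ N) : ℕ :=
  ∑ b ∈ (Finset.univ : Finset X).filter (fun b => (QuotientGroup.mk b : X ⧸ N) = B), ind a b

theorem cnt_le (N : Subgroup X) [Fintype N] (a : X) (B : X ⧸ N) :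
    cnt N a B ≤ ∑ n : N, ind a (n : X) := by
  classical
  unfold cnt
  by_cases hex : ∃ b0 : X, (QuotientGroup.mk b0 : X ⧸ N) = B ∧ Commute a b0
  · obtain ⟨b0, hb0, hc0⟩ := hex
    have h1 : ∑ n : N, ind a (n : X) = ∑ n ∈ (Finset.univ : Finset X).filter (· ∈ N), ind a n :=
      (Finset.sum_subtype (Finset.univ.filter (· ∈ N)) (by simp) (fun n => ind a n)).symm
    rw [h1]
    apply le_of_eq
    apply Finset.sum_bij' (i := fun b _ => b0⁻¹ * b) (j := fun n _ => b0 * n)
    · intro b hb
      simp only [Finset.mem_filter, Finset.mem_univ, true_and] at hb ⊢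
      rw [← hb0, eq_comm, QuotientGroup.eq] at hb
      exact hb
    · intro n hn
      simp only [Finset.mem_filter, Finset.mem_univ, true_and] at hn ⊢
      rw [← hb0, eq_comm, QuotientGroup.eq]
      simpa using hn
    · intro b _; group
    · intro n _; group
    · intro b _
      unfold ind
      congr 1
      apply propext
      constructor
      · intro h; exact (hc0.inv_right).mul_right h
      · intro h
        have := hc0.mul_right h
        simpa using this
  · apply le_trans (le_of_eq _) (Nat.zero_le _)
    apply Finset.sum_eq_zero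
    intro b hb
    simp only [Finset.mem_filter, Finset.mem_univ, true_and] at hb
    unfold ind
    rw [if_neg]
    intro h
    exact hex ⟨b, hb, h⟩

theorem cnt_le' (N : Subgroup X) [N.Normal] [Fintype N] (a : X) (B : X ⧸ N) :
    cnt N a B ≤ ind (QuotientGroup.mk a : X ⧸ N) B * ∑ n : N, ind a (n : X) := by
  classical
  by_cases h : Commute (QuotientGroup.mk a : X ⧸ N) B
  · have : ind (QuotientGroup.mk a : X ⧸ N) B = 1 := by unfold ind; rw [if_pos h]
    rw [this, one_mul]
    exact cnt_le N a B
  · apply le_trans (le_of_eq _) (Nat.zero_le _)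
    unfold cnt
    apply Finset.sum_eq_zero
    intro b hb
    simp only [Finset.mem_filter, Finset.mem_univ, true_and] at hb
    unfold ind
    rw [if_neg]
    intro hab
    apply h
    rw [← hb]
    have := congrArg (QuotientGroup.mk : X → X ⧸ N) hab
    exact this

/-- If N is a normal subgroup of the finite group X then k(X) ≤ k(N)·k(X ⧸ N), where k denotes the number of conjugacy classes. -/
theorem result {X : Type*} [Group X] [Finite X] (N : Subgroup X) [N.Normal] : Nat.card (ConjClasses X) ≤ Nat.card (ConjClasses N) * Nat.card (ConjClasses (X ⧸ N)) := by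
  classical
  have := Fintype.ofFinite X
  have := Fintype.ofFinite N
  have := Fintype.ofFinite (X ⧸ N)
  have hX := pairs_eq (X := X)
  have hN := pairs_eq (X := N)
  have hQ := pairs_eq (X := X ⧸ N)
  have hN' : ∑ a : N, ∑ b : N, ind a b = ∑ a : N, ∑ b : N, ind (a : X) (b : X) := by
    apply Finset.sum_congr rfl; intro a _
    apply Finset.sum_congr rfl; intro b _
    unfold ind
    congr 1
    apply propext
    constructor
    · intro h; exact congrArg Subtype.val h
    · intro h; exact Subtype.ext h
  have hposX : 0 < Nat.card X := Nat.card_pos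
  have fib : ∀ f : X → ℕ, ∑ b : X, f b = ∑ B : X ⧸ N, ∑ b ∈ (Finset.univ : Finset X).filter (fun b => (QuotientGroup.mk b : X ⧸ N) = B), f b := by
    intro f
    exact (Finset.sum_fiberwise (Finset.univ : Finset X) (fun b => (QuotientGroup.mk b : X ⧸ N)) f).symm
  apply Nat.le_of_mul_le_mul_right _ hposX
  calc Nat.card (ConjClasses X) * Nat.card X = ∑ a : X, ∑ b : X, ind a b := hX
    _ = ∑ a : X, ∑ B : X ⧸ N, cnt N a B := by
        apply Finset.sum_congr rfl; intro a _
        exact fib _
    _ ≤ ∑ a : X, ∑ B : X ⧸ N, ind (QuotientGroup.mk a : X ⧸ N) B * ∑ n : N, ind a (n : X) :=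
        Finset.sum_le_sum fun a _ => Finset.sum_le_sum fun B _ => cnt_le' N a B
    _ = ∑ A : X ⧸ N, ∑ a ∈ (Finset.univ : Finset X).filter (fun b => (QuotientGroup.mk b : X ⧸ N) = A),
          ∑ B : X ⧸ N, ind (QuotientGroup.mk a : X ⧸ N) B * ∑ n : N, ind a (n : X) := fib _
    _ = ∑ A : X ⧸ N, (∑ B : X ⧸ N, ind A B) * ∑ n : N, cnt N (n : X) A := by
        apply Finset.sum_congr rfl; intro A _
        have e1 : ∑ n : N, cnt N (n : X) A = ∑ a ∈ (Finset.univ : Finset X).filter (fun b => (QuotientGroup.mk b : X ⧸ N) = A), ∑ n : N, ind a (n : X) := by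
          unfold cnt
          rw [Finset.sum_comm]
          apply Finset.sum_congr rfl; intro a _
          apply Finset.sum_congr rfl; intro n _
          exact ind_comm _ _
        rw [e1, Finset.mul_sum]
        apply Finset.sum_congr rfl
        intro a ha
        simp only [Finset.mem_filter, Finset.mem_univ, true_and] at ha
        rw [ha, Finset.sum_mul]
    _ ≤ ∑ A : X ⧸ N, (∑ B : X ⧸ N, ind A B) * ∑ n : N, ∑ m : N, ind (n : X) (m : X) :=
        Finset.sum_le_sum fun A _ => Nat.mul_le_mul_left _ (Finset.sum_le_sum fun n _ => cnt_le N _ A)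
    _ = (∑ A : X ⧸ N, (∑ B : X ⧸ N, ind A B)) * ∑ n : N, ∑ m : N, ind (n : X) (m : X) := by
        rw [Finset.sum_mul]
    _ = (Nat.card (ConjClasses (X ⧸ N)) * Nat.card (X ⧸ N)) * (Nat.card (ConjClasses N) * Nat.card N) := by
        rw [hQ, hN, hN']
    _ = Nat.card (ConjClasses N) * Nat.card (ConjClasses (X ⧸ N)) * Nat.card X := by
        rw [← N.card_mul_index]
        change _ * N.index * _ = _
        ring

end Cfsg.Agent.S4201
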