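import Mathlib
import Cfsg.Statements.S4203
import Cfsg.Agent.Lib.H70Basic2

set_option autoImplicit false
open Cfsg

namespace Cfsg.Agent.S4203

open Cfsg.Agent.Lib.H70Basic2

universe u

theorem quot_hyp {G : Type u} [Group G] (N : Subgroup G) [N.Normal]
    (h : ∀ M : Subgroup G, IsCoatom M → ∃ p : ℕ, p.Prime ∧ (M.index = p ∨ M.index = p ^ 2)) :
    ∀ M : Subgroup (G ⧸ N), IsCoatom M → ∃ p : ℕ, p.Prime ∧ (M.index = p ∨ M.index = p ^ 2) := by
  intro M hM
  have hs := QuotientGroup.mk'_surjective N
  obtain ⟨p, hp, hp'⟩ := h _ (Subgroup.isCoatom_comap_of_surjective hs hM)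
  rw [Subgroup.index_comap_of_surjective _ hs] at hp'
  exact ⟨p, hp, hp'⟩

theorem main (n : ℕ) : ∀ (G : Type u) [Group G] [Finite G], Nat.card G = n →
    (∀ M : Subgroup G, IsCoatom M → ∃ p : ℕ, p.Prime ∧ (M.index = p ∨ M.index = p ^ 2)) → Group.IsSolvable G := by
  induction n using Nat.strong_induction_on with
  | _ n ih =>
  intro G _ _ hn h
  classical
  by_cases htriv : Nontrivial G
  swap
  · rw [not_nontrivial_iff_subsingleton] at htriv
    infer_instance
  -- quotients by nontrivial normal subgroups are solvable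
  have hquot : ∀ N : Subgroup G, ∀ hN : N.Normal, N ≠ ⊥ → Group.IsSolvable (G ⧸ N) := by
    intro N hN hN0
    apply ih (Nat.card (G ⧸ N)) _ (G ⧸ N) rfl (quot_hyp N h)
    rw [← hn]
    change N.index < _
    rw [← N.card_mul_index]
    have h1 : 1 < Nat.card N := (Subgroup.one_lt_card_iff_ne_bot N).2 hN0
    have h2 : 0 < N.index := Nat.pos_of_ne_zero Subgroup.FiniteIndex.index_ne_zero
    nlinarith
  obtain ⟨N, hN, hN0, hNmin⟩ := exists_minimal_normal (G := G)
  by_cases hNs : Group.IsSolvable N
  · rw [Group.isSolvable_iff_subgroup_quotient N]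
    exact ⟨hNs, hquot N hN hN0⟩
  exfalso
  -- the largest prime divisor of |N|
  have hN1 : 1 < Nat.card N := (Subgroup.one_lt_card_iff_ne_bot N).2 hN0
  have hne : (Nat.card N).primeFactors.Nonempty := Nat.nonempty_primeFactors.2 hN1
  set p := (Nat.card N).primeFactors.max' hne with hp
  have hpm : p ∈ (Nat.card N).primeFactors := Finset.max'_mem _ _
  have hpp : p.Prime := Nat.prime_of_mem_primeFactors hpm
  have hpN : p ∣ Nat.card N := Nat.dvd_of_mem_primeFactors hpm
  have hmax : ∀ q : ℕ, q.Prime → q ∣ Nat.card N → q ≤ p := fun q hq hqN =>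
    Finset.le_max' _ _ (Nat.mem_primeFactors.2 ⟨hq, hqN, Nat.card_pos.ne'⟩)
  have : Fact p.Prime := ⟨hpp⟩
  obtain ⟨P⟩ : Nonempty (Sylow p N) := inferInstance
  have hfr := Sylow.normalizer_sup_eq_top P
  set P' : Subgroup G := (P : Subgroup N).map N.subtype with hP'
  rcases eq_top_or_exists_le_coatom (Subgroup.normalizer (P' : Set G)) with htop | ⟨M, hM, hPM⟩
  · -- P' normal in G: then N = P' solvable
    have hP'n : P'.Normal := Subgroup.normalizer_eq_top_iff.1 htop
    have hP'le : P' ≤ N := Subgroup.map_subtype_le _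
    have hPs : Group.IsSolvable P := by
      have := P.isPGroup'.isNilpotent
      infer_instance
    rcases hNmin P' hP'n hP'le with hb | hb
    · rw [hP', (Subgroup.map_eq_bot_iff_of_injective _ N.subtype_injective)] at hb
      have h1 := P.dvd_card_of_dvd_card hpN
      rw [hb, Subgroup.card_bot] at h1
      exact hpp.not_dvd_one h1
    · apply hNs
      have e : (P : Subgroup N) = ⊤ := by
        rw [eq_top_iff]
        intro x _
        have hx : (x : G) ∈ P' := by rw [hb]; exact x.2
        obtain ⟨y, hy, hyx⟩ := hx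
        have : y = x := Subtype.ext hyx
        exact this ▸ hy
      rw [e] at hPs
      exact Group.isSolvable_of_surjective (f := (Subgroup.topEquiv (G := N)).toMonoidHom) (Subgroup.topEquiv).surjective
  -- the maximal subgroup M
  have hMN : M ⊔ N = ⊤ := by
    rw [eq_top_iff, ← hfr]
    exact sup_le_sup_right hPM N
  have hidx : M.relIndex N = M.index := by
    -- |G : M| = |N : M ∩ N|
    have e1 : (N ⊓ M).relIndex M * M.relIndex (M ⊔ N) = (N ⊓ M).relIndex (M ⊔ N) :=
      Subgroup.relIndex_mul_relIndex _ _ _ inf_le_right le_sup_left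
    have e2 : (N ⊓ M).relIndex N * N.relIndex (M ⊔ N) = (N ⊓ M).relIndex (M ⊔ N) :=
      Subgroup.relIndex_mul_relIndex _ _ _ inf_le_left le_sup_right
    rw [Subgroup.relIndex_sup_right, Subgroup.inf_relIndex_left] at e2
    rw [Subgroup.inf_relIndex_right] at e1
    have h0 : N.relIndex M ≠ 0 := Subgroup.FiniteIndex.index_ne_zero
    have h2 : N.relIndex M * M.relIndex (M ⊔ N) = N.relIndex M * M.relIndex N := by
      rw [e1, ← e2, mul_comm]
    have h3 := mul_left_cancel₀ h0 h2
    rw [← h3, hMN, Subgroup.relIndex_top_right]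
  have hmod : M.index ≡ 1 [MOD p] := by
    rw [← hidx]
    apply index_modEq_one_of_normalizer_le P
    intro x hx0
    have hx : x ∈ Subgroup.normalizer ((P : Subgroup N) : Set N) := hx0
    rw [Subgroup.mem_subgroupOf]
    apply hPM
    rw [Subgroup.mem_normalizer_iff] at hx ⊢
    intro g
    constructor
    · rintro ⟨y, hy, rfl⟩
      exact ⟨x * y * x⁻¹, (hx y).1 hy, by simp⟩
    · rintro ⟨y, hy, hyg⟩
      have hg : g ∈ N := by
        have : g = (x : G)⁻¹ * (x * g * (x : G)⁻¹) * x := by group
        rw [this, ← hyg]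
        exact N.mul_mem (N.mul_mem (N.inv_mem x.2) y.2) x.2
      have hyg' : y = x * ⟨g, hg⟩ * x⁻¹ := Subtype.ext hyg
      rw [hyg'] at hy
      exact ⟨⟨g, hg⟩, (hx ⟨g, hg⟩).2 hy, rfl⟩
  obtain ⟨q, hq, hq'⟩ := h M hM
  have hMdvd : M.index ∣ Nat.card N := by
    rw [← hidx]; exact Subgroup.relIndex_dvd_card _ _
  have hqN : q ∣ Nat.card N := by
    refine dvd_trans ?_ hMdvd
    rcases hq' with h1 | h1
    · rw [h1]
    · rw [h1]; exact dvd_pow_self q two_ne_zero
  have hqp : q ≤ p := hmax q hq hqN
  have hdvd : p ∣ M.index - 1 := by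
    have h0 : 1 ≤ M.index := Nat.pos_of_ne_zero Subgroup.FiniteIndex.index_ne_zero
    exact (Nat.modEq_iff_dvd' h0).1 hmod.symm
  have hq2 := hq.two_le
  have hidx4 : M.index = 4 := by
    rcases hq' with h1 | h1
    · exfalso
      rw [h1] at hdvd
      have := Nat.le_of_dvd (by omega) hdvd
      omega
    · rw [h1] at hdvd
      have hfac : q ^ 2 - 1 = (q - 1) * (q + 1) := by
        obtain ⟨t, rfl⟩ : ∃ t, q = t + 1 := ⟨q - 1, by omega⟩
        simp only [Nat.add_sub_cancel]
        have : (t + 1) ^ 2 = t * (t + 1 + 1) + 1 := by ring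
        omega
      rw [hfac] at hdvd
      rcases (hpp.dvd_mul).1 hdvd with h2 | h2
      · exfalso
        have := Nat.le_of_dvd (by omega) h2
        omega
      · have h3 := Nat.le_of_dvd (by omega) h2
        have h4 : p = q + 1 ∨ p = q := by omega
        rcases h4 with h4 | h4
        · -- consecutive primes
          have h5 : q = 2 := by
            rcases hq.eq_two_or_odd' with h6 | h6
            · exact h6
            · exfalso
              have : Even p := by rw [h4]; exact h6.add_one
              have := (hpp.even_iff).1 this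
              omega
          rw [h1, h5]; norm_num
        · exfalso
          rw [h4] at h2
          have : q ∣ 1 := (Nat.dvd_add_right (dvd_refl q)).1 h2
          exact hq.not_dvd_one this
  -- action on the four cosets
  have hcore : Group.IsSolvable (G ⧸ M.normalCore) := by
    have h4 : Nat.card (G ⧸ M) = 4 := hidx4
    have := Fintype.ofFinite (G ⧸ M)
    have hS := isSolvable_perm_of_card_four (α := G ⧸ M) h4
    have hker : M.normalCore = (MulAction.toPermHom G (G ⧸ M)).ker := Subgroup.normalCore_eq_ker M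
    refine Group.isSolvable_of_isSolvable_injective (f := QuotientGroup.lift M.normalCore (MulAction.toPermHom G (G ⧸ M)) (le_of_eq hker)) ?_
    rw [← MonoidHom.ker_eq_bot_iff, QuotientGroup.ker_lift, ← hker, QuotientGroup.map_mk'_self]
  -- N meets the core trivially
  have hcN : M.normalCore ⊓ N = ⊥ := by
    rcases hNmin (M.normalCore ⊓ N) inferInstance inf_le_right with hb | hb
    · exact hb
    · exfalso
      have : N ≤ M := by
        rw [← hb]; exact inf_le_left.trans (Subgroup.normalCore_le M)
      rw [sup_eq_left.2 this] at hMN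
      exact hM.1 hMN
  apply hNs
  refine Group.isSolvable_of_isSolvable_injective (f := (QuotientGroup.mk' M.normalCore).comp N.subtype) ?_
  rw [← MonoidHom.ker_eq_bot_iff, eq_bot_iff]
  intro x hx
  rw [MonoidHom.mem_ker, MonoidHom.comp_apply, ← MonoidHom.mem_ker, QuotientGroup.ker_mk'] at hx
  have : (x : G) ∈ M.normalCore ⊓ N := ⟨hx, x.2⟩
  rw [hcN, Subgroup.mem_bot] at this
  rw [Subgroup.mem_bot]
  exact Subtype.ext this

/-- A finite group in which every maximal subgroup has index a prime or the square of a prime is solvable. -/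
theorem result {G : Type*} [Group G] [Finite G] (h : ∀ M : Subgroup G, IsCoatom M → ∃ p : ℕ, p.Prime ∧ (M.index = p ∨ M.index = p ^ 2)) : Group.IsSolvable G :=
  main (Nat.card G) G rfl h

end Cfsg.Agent.S4203
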