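import Cfsg.Statements.S4204

set_option autoImplicit false
open Cfsg

namespace Cfsg.Agent.S4204

variable {G : Type*} [Group G]

theorem comm_le_iff (X Y T : Subgroup G) [T.Normal] :
    ⁅X, Y⁆ ≤ T ↔ X ≤ (Subgroup.centralizer ((Y.map (QuotientGroup.mk' T) : Subgroup (G ⧸ T)) : Set (G ⧸ T))).comap (QuotientGroup.mk' T) := by
  rw [← Subgroup.map_le_iff_le_comap, ← Subgroup.commutator_eq_bot_iff_le_centralizer,
    ← Subgroup.map_commutator, Subgroup.map_eq_bot_iff, QuotientGroup.ker_mk']

theorem iSup_comm_le {ι : Type*} (A : ι → Subgroup G) (Y T : Subgroup G) [T.Normal]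
    (h : ∀ i, ⁅A i, Y⁆ ≤ T) : ⁅⨆ i, A i, Y⁆ ≤ T := by
  rw [comm_le_iff]
  exact iSup_le fun i => (comm_le_iff _ _ _).1 (h i)

theorem comm_sup_le (X A B T : Subgroup G) [T.Normal]
    (h1 : ⁅X, A⁆ ≤ T) (h2 : ⁅X, B⁆ ≤ T) : ⁅X, A ⊔ B⁆ ≤ T := by
  rw [Subgroup.commutator_comm, comm_le_iff]
  rw [Subgroup.commutator_comm, comm_le_iff] at h1 h2
  exact sup_le h1 h2

/-- shifted lower central series: term `0` is the whole group, term `n+1` is `H.lowerCentralSeries n`. -/
def shiftedLcs (H : Subgroup G) : ℕ → Subgroup G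
  | 0 => ⊤
  | n + 1 => H.lowerCentralSeries n

theorem shiftedLcs_normal (H : Subgroup G) [H.Normal] (n : ℕ) : (shiftedLcs H n).Normal := by
  cases n with
  | zero => exact Subgroup.normal_of_characteristic ⊤
  | succ n =>
    change (H.lowerCentralSeries n).Normal
    induction n with
    | zero => simpa
    | succ n ih => rw [Subgroup.lowerCentralSeries_succ]; infer_instance

theorem shiftedLcs_comm (H : Subgroup G) [H.Normal] (n : ℕ) : ⁅shiftedLcs H n, H⁆ ≤ shiftedLcs H (n+1) := by
  cases n with
  | zero =>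
    change ⁅⊤, H⁆ ≤ H
    exact Subgroup.commutator_le_right _ _
  | succ n => exact le_rfl

theorem key (H K : Subgroup G) [H.Normal] [K.Normal] (n : ℕ) :
    (H ⊔ K).lowerCentralSeries n ≤ ⨆ i : Fin (n+2), (shiftedLcs H i ⊓ shiftedLcs K (n + 1 - i)) := by
  induction n with
  | zero =>
    rw [Subgroup.lowerCentralSeries_zero]
    apply sup_le
    · refine le_trans ?_ (le_iSup (fun i : Fin (0+2) => (shiftedLcs H i ⊓ shiftedLcs K (0 + 1 - i))) 1)
      exact le_inf le_rfl le_top
    · refine le_trans ?_ (le_iSup (fun i : Fin (0+2) => (shiftedLcs H i ⊓ shiftedLcs K (0 + 1 - i))) 0)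
      exact le_inf le_top le_rfl
  | succ n ih =>
    rw [Subgroup.lowerCentralSeries_succ]
    have hnorm : ∀ m : ℕ, (⨆ i : Fin (m+2), (shiftedLcs H i ⊓ shiftedLcs K (m + 1 - i))).Normal := by
      intro m
      have : ∀ i : Fin (m+2), (shiftedLcs H i ⊓ shiftedLcs K (m + 1 - i)).Normal := by
        intro i
        have h1 := shiftedLcs_normal H i
        have h2 := shiftedLcs_normal K (m + 1 - i)
        infer_instance
      infer_instance
    have hn2 := hnorm (n+1)
    refine (Subgroup.commutator_mono ih le_rfl).trans ?_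
    set T := ⨆ i : Fin (n+1+2), (shiftedLcs H i ⊓ shiftedLcs K (n + 1 + 1 - i)) with hT
    apply iSup_comm_le
    intro i
    have h1 := shiftedLcs_normal H i
    have h2 := shiftedLcs_normal K (n + 1 - i)
    apply comm_sup_le
    · -- goes to (i+1, n+1-i)
      refine le_trans ?_ (le_iSup (fun i : Fin (n+1+2) => (shiftedLcs H i ⊓ shiftedLcs K (n + 1 + 1 - i))) ⟨i + 1, by omega⟩)
      apply le_inf
      · exact (Subgroup.commutator_mono inf_le_left le_rfl).trans (shiftedLcs_comm H i)
      · refine ((Subgroup.commutator_mono inf_le_right le_rfl).trans (Subgroup.commutator_le_left _ _)).trans ?_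
        apply le_of_eq
        congr 1
        simp only
        omega
    · refine le_trans ?_ (le_iSup (fun i : Fin (n+1+2) => (shiftedLcs H i ⊓ shiftedLcs K (n + 1 + 1 - i))) ⟨i, by omega⟩)
      apply le_inf
      · exact (Subgroup.commutator_mono inf_le_left le_rfl).trans (Subgroup.commutator_le_left _ _)
      · refine ((Subgroup.commutator_mono inf_le_right le_rfl).trans (shiftedLcs_comm K _)).trans ?_
        apply le_of_eq
        congr 1
        have := i.2
        simp only
        omega

/-- If `H` and `K` are normal subgroups of a finite group with `H` nilpotent of class at most `c` and `K` nilpotent of class at most `d` (the terms with index `c`, respectively `d`, of their lower central series are trivial, indices starting at `0`), then `HK` is nilpotent of class at most `c + d`. -/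
theorem result {G : Type*} [Group G] [Finite G] (H K : Subgroup G) [H.Normal] [K.Normal] (c d : ℕ) (hH : H.lowerCentralSeries c = ⊥) (hK : K.lowerCentralSeries d = ⊥) : (H ⊔ K).lowerCentralSeries (c + d) = ⊥ := by
  rw [eq_bot_iff]
  refine (key H K (c + d)).trans (iSup_le ?_)
  intro i
  have hle : ∀ (L : Subgroup G) (m n : ℕ), L.lowerCentralSeries m = ⊥ → m + 1 ≤ n → shiftedLcs L n = ⊥ := by
    intro L m n hL hmn
    obtain ⟨n', rfl⟩ : ∃ n', n = n' + 1 := ⟨n - 1, by omega⟩
    change L.lowerCentralSeries n' = ⊥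
    rw [eq_bot_iff, ← hL]
    exact L.lowerCentralSeries_antitone (by omega)
  by_cases hi : c + 1 ≤ (i : ℕ)
  · rw [hle H c i hH hi]; exact inf_le_left
  · rw [hle K d (c + d + 1 - i) hK (by omega)]; exact inf_le_right

end Cfsg.Agent.S4204
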