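import Cfsg.Statements.S4205

set_option autoImplicit false
open Cfsg

namespace Cfsg.Agent.S4205

/-- In a finite group whose upper central series reaches the whole group at step `c` (nilpotent of class at most `c`), starting from any subgroup and taking normalizers `c` times reaches the whole group. -/
theorem result {G : Type*} [Group G] [Finite G] (c : ℕ) (hG : Subgroup.upperCentralSeries G c = ⊤) (H : Subgroup G) : (fun K : Subgroup G => Subgroup.normalizer (K : Set G))^[c] H = ⊤ := by
  have key : ∀ i : ℕ, Subgroup.upperCentralSeries G i ≤ (fun K : Subgroup G => Subgroup.normalizer (K : Set G))^[i] H := by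
    intro i
    induction i with
    | zero => simp
    | succ i ih =>
      rw [Function.iterate_succ_apply']
      set N := (fun K : Subgroup G => Subgroup.normalizer (K : Set G))^[i] H with hN
      change Subgroup.upperCentralSeries G (i+1) ≤ Subgroup.normalizer (N : Set G)
      rw [Subgroup.le_normalizer_iff_commutator_le_right]
      rw [Subgroup.commutator_le]
      intro g₁ hg₁ g₂ _
      exact ih (Subgroup.mem_upperCentralSeries_succ_iff.1 hg₁ g₂)
  exact top_le_iff.1 (hG ▸ key c)

end Cfsg.Agent.S4205
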