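import Cfsg.Statements.S4206

set_option autoImplicit false
open Cfsg

namespace Cfsg.Agent.S4206

/-- Three subgroups lemma modulo a normal subgroup. -/
theorem three_subgroups {G : Type*} [Group G] (A B C N : Subgroup G) [N.Normal]
    (h1 : ⁅⁅B, C⁆, A⁆ ≤ N) (h2 : ⁅⁅C, A⁆, B⁆ ≤ N) : ⁅⁅A, B⁆, C⁆ ≤ N := by
  have tr : ∀ X Y Z : Subgroup G, ⁅⁅X, Y⁆, Z⁆ ≤ N ↔ ⁅⁅X.map (QuotientGroup.mk' N), Y.map (QuotientGroup.mk' N)⁆, Z.map (QuotientGroup.mk' N)⁆ = ⊥ := by
    intro X Y Z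
    rw [← Subgroup.map_commutator, ← Subgroup.map_commutator, Subgroup.map_eq_bot_iff, QuotientGroup.ker_mk']
  rw [tr]
  exact Subgroup.commutator_commutator_eq_bot_of_rotate ((tr _ _ _).1 h1) ((tr _ _ _).1 h2)

/-- Let `H 0 ≥ H 1 ≥ H 2 ≥ ⋯` be normal subgroups of a finite group and `L` a subgroup with `⁅H i, L⁆ ≤ H (i+1)` for all `i`. Then `⁅H i, γ⁆ ≤ H (i + j + 1)` where `γ` is the `j`-th term of the lower central series of `L` (indexed from `0`, so the term with index `j` is the `(j+1)`-fold commutator). -/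
theorem result {G : Type*} [Group G] [Finite G] (H : ℕ → Subgroup G) (hN : ∀ i, (H i).Normal) (hdesc : ∀ i, H (i + 1) ≤ H i) (L : Subgroup G) (hL : ∀ i, ⁅H i, L⁆ ≤ H (i + 1)) (i j : ℕ) : ⁅H i, L.lowerCentralSeries j⁆ ≤ H (i + j + 1) := by
  induction j generalizing i with
  | zero => simpa using hL i
  | succ j ih =>
    have := hN (i + (j + 1) + 1)
    rw [Subgroup.lowerCentralSeries_succ, Subgroup.commutator_comm (H i)]
    apply three_subgroups
    · -- ⁅⁅L, H i⁆, γ_j⁆ ≤ ..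
      rw [Subgroup.commutator_comm L]
      refine (Subgroup.commutator_mono (hL i) le_rfl).trans ?_
      refine (ih (i+1)).trans (le_of_eq ?_)
      congr 1; omega
    · refine (Subgroup.commutator_mono (ih i) le_rfl).trans ?_
      exact hL _

end Cfsg.Agent.S4206
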