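import Mathlib
import Cfsg.Statements.S4212
import Cfsg.Agent.Lib.H70FrobGen

set_option autoImplicit false
open Cfsg

namespace Cfsg.Agent.S4212

/-- Let `G` be a finite group of order `g`, `c` an element whose conjugacy class has `h` elements, and `n` a natural number. Then the number of elements `x` of `G` with `x^n` conjugate to `c` is a multiple of `gcd(hn, g)`. -/
theorem result {G : Type*} [Group G] [Finite G] (c : G) (n : ℕ) : Nat.gcd (Nat.card {y : G // IsConj c y} * n) (Nat.card G) ∣ Nat.card {x : G // IsConj c (x ^ n)} := by
  exact Cfsg.Agent.Lib.H70FrobGen.gcd_dvd_card_isConj c n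

end Cfsg.Agent.S4212
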