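import Mathlib
import Cfsg.Statements.S4213
import Cfsg.Agent.Lib.H70FrobSolv

set_option autoImplicit false
open Cfsg

namespace Cfsg.Agent.S4213

/-- If `G` is a finite solvable group and `n` divides the order of `G` and exactly `n` elements `x` of `G` satisfy `x^n = 1`, then these elements form a normal subgroup. -/
theorem result {G : Type*} [Group G] [Finite G] [Group.IsSolvable G] (n : ℕ) (hn : n ∣ Nat.card G) (hcount : Nat.card {x : G // x ^ n = 1} = n) : ∃ H : Subgroup G, H.Normal ∧ (H : Set G) = {x : G | x ^ n = 1} := by
  exact Cfsg.Agent.Lib.H70FrobSolv.aux _ G rfl n hn hcount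

end Cfsg.Agent.S4213
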