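import Mathlib
import Cfsg.Statements.S4214
import Cfsg.Agent.Lib.HallPi
import Cfsg.Agent.Lib.MinNormSolv
import Cfsg.Agent.Lib.H70Basic2

set_option autoImplicit false

open Cfsg

namespace Cfsg.Agent.S4214

open Subgroup Pointwise
open Cfsg.Agent.Lib.HallPi Cfsg.Agent.Lib.SubgroupTools

universe u

/-- prime powers which are `1` modulo a prime of `π` -/
def S1 (π : Set ℕ) : Set ℕ :=
  {f | (∃ q e : ℕ, q.Prime ∧ f = q ^ e) ∧ ∃ r : ℕ, r.Prime ∧ r ∈ π ∧ f ≡ 1 [MOD r]}

/-- such prime powers which divide the order of a chief factor -/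
def S2 (G : Type u) [Group G] (π : Set ℕ) : Set ℕ :=
  {f | (∃ q e : ℕ, q.Prime ∧ f = q ^ e) ∧
    (∃ K L : Subgroup G, K.Normal ∧ L.Normal ∧ K < L ∧
      (∀ M : Subgroup G, M.Normal → K ≤ M → M ≤ L → M = K ∨ M = L) ∧ f ∣ K.relIndex L) ∧
    ∃ r : ℕ, r.Prime ∧ r ∈ π ∧ f ≡ 1 [MOD r]}

theorem cln {G : Type*} [Group G] (D : Subgroup G) : centralizer (D : Set G) ≤ normalizer (D : Set G) := by
  intro c hc
  rw [mem_centralizer_iff] at hc
  rw [mem_normalizer_iff]
  intro x
  constructor
  · intro hx
    rw [← hc x hx, mul_inv_cancel_right]; exact hx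
  · intro hx
    have h1 := hc _ hx
    have h2 : c * x * c⁻¹ = x := by
      have h3 : c * (c * x * c⁻¹) = c * x := by rw [← h1]; group
      exact mul_left_cancel h3
    rwa [h2] at hx

theorem index_normalizer_mul {G : Type u} [Group G] [Finite G] [hs : Group.IsSolvable G] {π : Set ℕ}
    (H N : Subgroup G) [N.Normal] (hH : IsPiHall π H) :
    (normalizer (H : Set G)).index =
      (normalizer ((H.map (QuotientGroup.mk' N) : Subgroup (G ⧸ N)) : Set (G ⧸ N))).index *
        (normalizer ((H.subgroupOf (H ⊔ N) : Subgroup (H ⊔ N : Subgroup G)) : Set (H ⊔ N : Subgroup G))).index := by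
  have hsurj := QuotientGroup.mk'_surjective N
  -- the first factor
  have h1 : (normalizer ((H.map (QuotientGroup.mk' N) : Subgroup (G ⧸ N)) : Set (G ⧸ N))).index =
      (normalizer ((H ⊔ N : Subgroup G) : Set G)).index := by
    rw [← index_comap_of_surjective _ hsurj, comap_normalizer_eq_of_surjective _ hsurj]
    congr 2
    rw [comap_map_eq, QuotientGroup.ker_mk']
  have h2 : (normalizer ((H.subgroupOf (H ⊔ N) : Subgroup (H ⊔ N : Subgroup G)) : Set (H ⊔ N : Subgroup G))).index =
      (normalizer (H : Set G)).relIndex (H ⊔ N) := by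
    rw [← subgroupOf_normalizer_eq (le_sup_left : H ≤ H ⊔ N)]
    rfl
  have hnn : normalizer (H : Set G) ≤ normalizer ((H ⊔ N : Subgroup G) : Set G) := by
    intro g hg
    rw [mem_normalizer_iff_conj_smul] at hg ⊢
    rw [Subgroup.smul_sup, hg]
    congr 1
    exact conj_smul_normal g N
  have hfr : normalizer ((H ⊔ N : Subgroup G) : Set G) = (H ⊔ N) ⊔ normalizer (H : Set G) := by
    apply le_antisymm
    · intro g hg
      have hH' : IsPiHallOf π H (H ⊔ N) := isPiHallOf_of_isPiHall hH le_sup_left
      have h3 : IsPiHallOf π (MulAut.conj g⁻¹ • H) (H ⊔ N) := by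
        apply isPiHallOf_of_isPiHall (isPiHall_conj_smul g⁻¹ hH)
        have h4 : MulAut.conj g⁻¹ • (H ⊔ N) = H ⊔ N :=
          mem_normalizer_iff_conj_smul.1 (inv_mem hg)
        rw [← h4]
        exact conj_smul_mono g⁻¹ le_sup_left
      obtain ⟨l, hl, hlH⟩ := exists_conj_eq_rel inferInstance h3 hH'
      rw [← conj_smul_mul] at hlH
      have h4 : l * g⁻¹ ∈ normalizer (H : Set G) := mem_normalizer_iff_conj_smul.mpr hlH
      have h5 : g = (l * g⁻¹)⁻¹ * l := by group
      rw [h5]
      exact mul_mem (mem_sup_right (inv_mem h4)) (mem_sup_left hl)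
    · exact sup_le le_normalizer hnn
  rw [h1, h2, ← relIndex_mul_index hnn, mul_comm]
  congr 1
  rw [hfr]
  exact (relIndex_eq_relIndex_sup hnn).symm

theorem key {X : Type u} [Group X] [Finite X] [hs : Group.IsSolvable X] {π : Set ℕ} (H N : Subgroup X)
    (hH : IsPiHall π H) [hN : N.Normal] (hne : N ≠ ⊥)
    (hmin : ∀ K : Subgroup X, K.Normal → K ≤ N → K = ⊥ ∨ K = N) (htop : H ⊔ N = ⊤) :
    (normalizer (H : Set X)).index ∈ Submonoid.closure (S1 π) := by
  obtain ⟨q, hq, hab, hqN⟩ := Cfsg.Agent.Lib.MinNormSolv.elementary_of_minimal hne hmin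
  obtain ⟨d, hd, hcard⟩ := Cfsg.Agent.Lib.MinNormSolv.card_eq_prime_pow hne hq hqN
  have hcomm : ∀ a ∈ N, ∀ b ∈ N, a * b = b * a := fun a ha b hb => setLike_mul_comm ha hb
  -- a subgroup of `N` normalized by `H` is normal
  have hnorm : ∀ F : Subgroup X, F ≤ N → H ≤ normalizer (F : Set X) → F.Normal := by
    intro F hF hHF
    rw [← normalizer_eq_top_iff, ← top_le_iff, ← htop]
    refine sup_le hHF ?_
    intro n hn
    rw [mem_normalizer_iff]
    intro x
    constructor
    · intro hx
      rw [hcomm n hn x (hF hx), mul_inv_cancel_right]; exact hx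
    · intro hx
      have h1 := hcomm n hn _ (hF hx)
      have h2 : n * x * n⁻¹ = x := by
        have h3 : n * (n * x * n⁻¹) = n * x := by rw [h1]; group
        exact mul_left_cancel h3
      rwa [h2] at hx
  have htriv : normalizer (H : Set X) = ⊤ → (normalizer (H : Set X)).index ∈ Submonoid.closure (S1 π) := by
    intro h
    rw [h, index_top]; exact one_mem _
  by_cases hNH : N ≤ H
  · apply htriv
    have : H = ⊤ := by rw [← htop]; exact (sup_eq_left.2 hNH).symm
    rw [this]; exact normalizer_eq_top_iff.2 inferInstance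
  -- `H ⊓ N = ⊥`
  have hHN : H ⊓ N = ⊥ := by
    have h1 : (H ⊓ N).Normal := by
      apply hnorm _ inf_le_right
      intro h hh
      rw [mem_normalizer_iff]
      intro x
      constructor
      · rintro ⟨hx1, hx2⟩
        exact ⟨H.mul_mem (H.mul_mem hh hx1) (H.inv_mem hh), hN.conj_mem x hx2 h⟩
      · rintro ⟨hx1, hx2⟩
        have h3 : x = h⁻¹ * (h * x * h⁻¹) * h⁻¹⁻¹ := by group
        rw [h3]
        exact ⟨H.mul_mem (H.mul_mem (H.inv_mem hh) hx1) (H.inv_mem (H.inv_mem hh)), hN.conj_mem _ hx2 h⁻¹⟩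
    rcases hmin _ h1 inf_le_right with h | h
    · exact h
    · exact absurd (inf_eq_right.1 h) hNH
  -- fixed points of a normalized subgroup
  have hfix : ∀ M : Subgroup X, H ≤ normalizer (M : Set X) → N ⊓ centralizer (M : Set X) = ⊥ ∨ N ≤ centralizer (M : Set X) := by
    intro M hM
    have h1 : (N ⊓ centralizer (M : Set X)).Normal := by
      apply hnorm _ inf_le_left
      intro h hh
      have h2 := hM hh
      rw [mem_normalizer_iff] at h2
      have h3 := (mem_normalizer_iff.1 (inv_mem (hM hh)))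
      rw [mem_normalizer_iff]
      intro x
      constructor
      · intro hx
        obtain ⟨hx1, hx2⟩ := mem_inf.1 hx
        refine mem_inf.2 ⟨hN.conj_mem x hx1 h, ?_⟩
        rw [mem_centralizer_iff] at hx2 ⊢
        intro m hm
        have h4 := hx2 (h⁻¹ * m * h⁻¹⁻¹) ((h3 m).1 hm)
        have h5 : m * (h * x * h⁻¹) = h * ((h⁻¹ * m * h⁻¹⁻¹) * x) * h⁻¹ := by group
        rw [h5, h4]; group
      · intro hx
        obtain ⟨hx1, hx2⟩ := mem_inf.1 hx
        refine mem_inf.2 ⟨by simpa [mul_assoc] using hN.conj_mem _ hx1 h⁻¹, ?_⟩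
        rw [mem_centralizer_iff] at hx2 ⊢
        intro m hm
        have h4 := hx2 (h * m * h⁻¹) ((h2 m).1 hm)
        have h5 : m * x = h⁻¹ * ((h * m * h⁻¹) * (h * x * h⁻¹)) * h := by group
        rw [h5, h4]; group
    rcases hmin _ h1 inf_le_left with h | h
    · exact Or.inl h
    · exact Or.inr (inf_eq_left.1 h)
  rcases hfix H le_normalizer with hD | hD
  swap
  · apply htriv
    rw [← top_le_iff, ← htop]
    exact sup_le le_normalizer (hD.trans (cln H))
  -- `N_X(H) = H`
  have hself : normalizer (H : Set X) = H := by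
    apply le_antisymm _ le_normalizer
    intro x hx
    have h1 : x ∈ H ⊔ N := by rw [htop]; trivial
    rw [mem_sup_of_normal_right] at h1
    obtain ⟨h, hh, n, hn, rfl⟩ := h1
    have hn' : n ∈ normalizer (H : Set X) := by
      have := mul_mem (inv_mem (le_normalizer hh)) hx
      simpa using this
    have hn1 : n = 1 := by
      rw [← Subgroup.mem_bot, ← hD]
      refine mem_inf.2 ⟨hn, ?_⟩
      rw [mem_centralizer_iff]
      intro y hy
      have h2 : n * y * n⁻¹ * y⁻¹ ∈ H ⊓ N := by
        constructor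
        · exact H.mul_mem ((mem_normalizer_iff.1 hn' y).1 hy) (H.inv_mem hy)
        · have h3 : n * y * n⁻¹ * y⁻¹ = n * (y * n⁻¹ * y⁻¹) := by group
          rw [h3]
          exact N.mul_mem hn (hN.conj_mem _ (N.inv_mem hn) y)
      rw [hHN, Subgroup.mem_bot, mul_inv_eq_one, mul_inv_eq_iff_eq_mul] at h2
      exact h2.symm
    rw [hn1, mul_one]; exact hh
  have hindex : H.index = Nat.card N := by
    have h1 := card_sup_mul_card_inf (N := N) (H := H) le_normalizer_of_normal
    rw [sup_comm, htop, inf_comm, hHN, Subgroup.card_top, Subgroup.card_bot, mul_one] at h1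
    have h2 := H.index_mul_card
    rw [h1] at h2
    exact Nat.eq_of_mul_eq_mul_right Nat.card_pos h2
  rw [hself, hindex]
  apply Submonoid.subset_closure
  refine ⟨⟨q, d, hq, hcard⟩, ?_⟩
  -- the prime `r`
  set C : Subgroup X := centralizer (N : Set X) with hC
  have hCn : C.Normal := inferInstance
  have hCtop : C.subgroupOf H ≠ ⊤ := by
    intro h
    rw [subgroupOf_eq_top] at h
    apply hne
    rw [← hD, eq_comm, inf_eq_left]
    rw [le_centralizer_iff]
    exact h
  obtain ⟨M, r, hr, hMn, hCM, ⟨k, hk⟩, -, -⟩ := exists_elementary_above (C.subgroupOf H) hCtop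
  haveI := Fact.mk hr
  have hk0 : k ≠ 0 := by
    rintro rfl
    rw [pow_zero, relIndex_eq_one] at hk
    exact hCM.not_ge hk
  have hrM : r ∣ Nat.card M := by
    refine (dvd_pow_self r hk0).trans ?_
    rw [← hk]; exact relIndex_dvd_card _ _
  have hrπ : r ∈ π := (isPiHall_iff.1 hH).1 r hr (hrM.trans (card_subgroup_dvd_card M))
  refine ⟨r, hr, hrπ, ?_⟩
  -- fixed points of `M`
  have hMfix : N ⊓ centralizer (M.map H.subtype : Set X) = ⊥ := by
    rcases hfix (M.map H.subtype) (by
      intro h hh
      rw [mem_normalizer_iff]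
      intro x
      constructor
      · rintro ⟨y, hy, rfl⟩
        exact ⟨_, hMn.conj_mem y hy ⟨h, hh⟩, rfl⟩
      · rintro ⟨y, hy, hyx⟩
        refine ⟨_, hMn.conj_mem y hy ⟨h, hh⟩⁻¹, ?_⟩
        change h⁻¹ * (y : X) * h⁻¹⁻¹ = x
        have hyx' : (y : X) = h * x * h⁻¹ := hyx
        rw [hyx']; group) with h | h
    · exact h
    · exfalso
      apply hCM.not_ge
      intro m hm
      rw [mem_subgroupOf, hC, mem_centralizer_iff]
      intro n hn
      exact ((mem_centralizer_iff.1 (h hn)) m ⟨m, hm, rfl⟩).symm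
  obtain ⟨R⟩ : Nonempty (Sylow r M) := inferInstance
  -- an `r`-group acting
  letI act : MulAction (R : Subgroup M) N :=
    MulAction.compHom N (((MulAut.conjNormal : X →* MulAut N).comp H.subtype).comp
      (M.subtype.comp (R : Subgroup M).subtype))
  have hact : ∀ (x : (R : Subgroup M)) (n : N), ((x • n : N) : X) = (x : X) * n * (x : X)⁻¹ := by
    intro x n
    rfl
  have hmod := R.isPGroup'.card_modEq_card_fixedPoints N
  have hone : Nat.card (MulAction.fixedPoints (R : Subgroup M) N) = 1 := by
    rw [Nat.card_eq_one_iff_unique]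
    refine ⟨⟨?_⟩, ⟨⟨1, ?_⟩⟩⟩
    · have h1 : ∀ n ∈ MulAction.fixedPoints (R : Subgroup M) N, n = 1 := by
        intro n hn
        rw [MulAction.mem_fixedPoints] at hn
        apply Subtype.ext
        change (n : X) = 1
        rw [← Subgroup.mem_bot, ← hMfix]
        refine mem_inf.2 ⟨n.2, ?_⟩
        -- the stabilizer of `n` in `M`
        set T : Subgroup M := (centralizer {(n : X)}).comap (H.subtype.comp M.subtype) with hT
        have hRT : (R : Subgroup M) ≤ T := by
          intro x hx
          rw [hT, mem_comap, mem_centralizer_singleton_iff]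
          have h2 := congrArg Subtype.val (hn ⟨x, hx⟩)
          rw [hact] at h2
          exact (mul_inv_eq_iff_eq_mul.1 h2)
        have hCT : (C.subgroupOf H).subgroupOf M ≤ T := by
          intro x hx
          rw [mem_subgroupOf, mem_subgroupOf, hC, mem_centralizer_iff] at hx
          rw [hT, mem_comap, mem_centralizer_singleton_iff]
          exact (hx n n.2).symm
        have hTtop : T = ⊤ := by
          rw [← index_eq_one]
          have h3 : T.index ∣ r ^ k := by
            rw [← hk]
            exact index_dvd_of_le hCT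
          obtain ⟨j, hj, hj2⟩ := (Nat.dvd_prime_pow hr).1 h3
          have h4 : ¬ r ∣ T.index := fun h => R.not_dvd_index (h.trans (index_dvd_of_le hRT))
          rcases Nat.eq_zero_or_pos j with h5 | h5
          · rw [hj2, h5, pow_zero]
          · exfalso
            apply h4
            rw [hj2]
            exact dvd_pow_self r (by omega)
        rw [mem_centralizer_iff]
        rintro _ ⟨m, hm, rfl⟩
        have h5 : (⟨m, hm⟩ : M) ∈ T := by rw [hTtop]; trivial
        rw [hT, mem_comap, mem_centralizer_singleton_iff] at h5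
        exact h5
      intro a b
      apply Subtype.ext
      rw [h1 _ a.2, h1 _ b.2]
    · intro x
      apply Subtype.ext
      rw [hact]
      simp
  rw [hone] at hmod
  exact hmod

theorem main1 (π : Set ℕ) (n : ℕ) : ∀ (X : Type u) [Group X] [Finite X] [Group.IsSolvable X] (H : Subgroup X),
    Nat.card X = n → IsPiHall π H → (normalizer (H : Set X)).index ∈ Submonoid.closure (S1 π) := by
  induction n using Nat.strong_induction_on with
  | _ n ih =>
  intro X _ _ _ H hn hH
  rcases subsingleton_or_nontrivial X with hX | hX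
  · have : normalizer (H : Set X) = ⊤ := Subsingleton.elim _ _
    rw [this, index_top]; exact one_mem _
  obtain ⟨N, hN, hne, hmin⟩ := Cfsg.Agent.Lib.H70Basic2.exists_minimal_normal (G := X)
  by_cases htop : H ⊔ N = ⊤
  · exact key H N hH hne hmin htop
  rw [index_normalizer_mul H N hH]
  apply mul_mem
  · apply ih (Nat.card (X ⧸ N)) _ (X ⧸ N) _ rfl (isPiHall_map_mk' hH)
    rw [← hn, ← N.index_mul_card, ← index_eq_card]
    have h1 : 1 < Nat.card N := (one_lt_card_iff_ne_bot N).2 hne
    have h2 : 0 < N.index := Nat.pos_of_ne_zero index_ne_zero_of_finite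
    nlinarith
  · apply ih (Nat.card (H ⊔ N : Subgroup X)) _ (H ⊔ N : Subgroup X) _ rfl
      ((isPiHallOf_iff_subgroupOf le_sup_left).1 (isPiHallOf_of_isPiHall hH le_sup_left))
    rw [← hn]
    exact lt_of_le_of_ne (card_le_card_group _) (fun h => htop (eq_top_of_card_eq _ h))

theorem main2 (π : Set ℕ) (n : ℕ) : ∀ (X : Type u) [Group X] [Finite X] [Group.IsSolvable X] (H : Subgroup X),
    Nat.card X = n → IsPiHall π H → (normalizer (H : Set X)).index ∈ Submonoid.closure (S2 X π) := by
  induction n using Nat.strong_induction_on with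
  | _ n ih =>
  intro X _ _ _ H hn hH
  rcases subsingleton_or_nontrivial X with hX | hX
  · have : normalizer (H : Set X) = ⊤ := Subsingleton.elim _ _
    rw [this, index_top]; exact one_mem _
  obtain ⟨N, hN, hne, hmin⟩ := Cfsg.Agent.Lib.H70Basic2.exists_minimal_normal (G := X)
  have hsurj := QuotientGroup.mk'_surjective N
  rw [index_normalizer_mul H N hH]
  apply mul_mem
  · have h1 := ih (Nat.card (X ⧸ N)) (by
      rw [← hn, ← N.index_mul_card, ← index_eq_card]
      have h1 : 1 < Nat.card N := (one_lt_card_iff_ne_bot N).2 hne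
      have h2 : 0 < N.index := Nat.pos_of_ne_zero index_ne_zero_of_finite
      nlinarith) (X ⧸ N) _ rfl (isPiHall_map_mk' hH)
    refine Submonoid.closure_mono ?_ h1
    rintro f ⟨hf1, ⟨K, L, hK, hL, hKL, hchief, hdvd⟩, hf3⟩
    refine ⟨hf1, ⟨K.comap (QuotientGroup.mk' N), L.comap (QuotientGroup.mk' N), inferInstance,
      inferInstance, ?_, ?_, ?_⟩, hf3⟩
    · exact (comap_lt_comap_of_surjective hsurj).2 hKL
    · intro M hM hKM hML
      have hNM : N ≤ M := by
        refine le_trans ?_ hKM
        intro x hx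
        rw [mem_comap, QuotientGroup.mk'_apply, (QuotientGroup.eq_one_iff x).2 hx]
        exact one_mem _
      have hMM : (M.map (QuotientGroup.mk' N)).comap (QuotientGroup.mk' N) = M := by
        rw [comap_map_eq, QuotientGroup.ker_mk', sup_eq_left.2 hNM]
      rcases hchief (M.map (QuotientGroup.mk' N)) (hM.map _ hsurj)
        (by rw [← comap_le_comap_of_surjective hsurj, hMM]; exact hKM)
        (by rw [← comap_le_comap_of_surjective hsurj, hMM]; exact hML) with h | h
      · left; rw [← hMM, h]
      · right; rw [← hMM, h]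
    · rwa [relIndex_comap, map_comap_eq_self_of_surjective hsurj]
  · have h1 := main1 π (Nat.card (H ⊔ N : Subgroup X)) (H ⊔ N : Subgroup X) _ rfl
      ((isPiHallOf_iff_subgroupOf le_sup_left).1 (isPiHallOf_of_isPiHall hH le_sup_left))
    obtain ⟨l, hl, hprod⟩ := Submonoid.exists_list_of_mem_closure h1
    have hdvd : (normalizer ((H.subgroupOf (H ⊔ N) : Subgroup (H ⊔ N : Subgroup X)) : Set (H ⊔ N : Subgroup X))).index ∣ Nat.card N := by
      refine (index_dvd_of_le (le_normalizer : H.subgroupOf (H ⊔ N) ≤ _)).trans ?_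
      change H.relIndex (H ⊔ N) ∣ _
      have h2 := card_sup_mul_card_inf (N := N) (H := H) le_normalizer_of_normal
      have h3 := card_mul_relIndex_of_le (le_sup_left : H ≤ H ⊔ N)
      rw [sup_comm, ← h3] at h2
      refine ⟨Nat.card (N ⊓ H : Subgroup X), ?_⟩
      have h4 : 0 < Nat.card H := Nat.card_pos
      apply Nat.eq_of_mul_eq_mul_left h4
      rw [← mul_assoc, h2, mul_comm]
    rw [← hprod]
    apply Submonoid.list_prod_mem
    intro f hf
    apply Submonoid.subset_closure
    obtain ⟨hf1, hf3⟩ := hl f hf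
    refine ⟨hf1, ⟨⊥, N, inferInstance, hN, bot_lt_iff_ne_bot.2 hne, ?_, ?_⟩, hf3⟩
    · intro M hM _ hMN
      exact hmin M hM hMN
    · rw [relIndex_bot_left]
      exact (List.dvd_prod hf).trans (hprod ▸ hdvd)

/-- Let `G` be a finite solvable group of order `mn` with `gcd(m, n) = 1`. Then the number of subgroups of order `m` is a product of natural numbers each of which is a power of a prime, divides the order of some chief factor of `G` (a quotient `L/K` of normal subgroups `K < L` of `G` with no normal subgroup of `G` strictly between them), and is congruent to `1` modulo some prime divisor of `m`. -/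
theorem result {G : Type*} [Group G] [Finite G] [Group.IsSolvable G] (m n : ℕ) (hG : Nat.card G = m * n) (hmn : Nat.Coprime m n) : ∃ (k : ℕ) (f : Fin k → ℕ), Nat.card {H : Subgroup G // Nat.card H = m} = ∏ i, f i ∧ ∀ i, (∃ q e : ℕ, q.Prime ∧ f i = q ^ e) ∧ (∃ K L : Subgroup G, K.Normal ∧ L.Normal ∧ K < L ∧ (∀ M : Subgroup G, M.Normal → K ≤ M → M ≤ L → M = K ∨ M = L) ∧ f i ∣ K.relIndex L) ∧ (∃ q : ℕ, q.Prime ∧ q ∣ m ∧ f i ≡ 1 [MOD q]) := by
  obtain ⟨H₀, hH₀⟩ := exists_isPiHall (G := G) {p | p ∣ m}
  have hcard₀ : Nat.card H₀ = m := card_of_isPiHall hG hmn hH₀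
  have hcount : Nat.card {H : Subgroup G // Nat.card H = m} = (normalizer (H₀ : Set G)).index := by
    letI : MulAction G (Subgroup G) := MulAction.compHom (Subgroup G) (MulAut.conj : G →* MulAut G)
    have h1 : MulAction.stabilizer G H₀ = normalizer (H₀ : Set G) := by
      ext g
      rw [MulAction.mem_stabilizer_iff, mem_normalizer_iff_conj_smul]
      rfl
    have h2 : MulAction.orbit G H₀ = {H : Subgroup G | Nat.card H = m} := by
      ext H
      constructor
      · rintro ⟨g, rfl⟩
        change Nat.card (MulAut.conj g • H₀ : Subgroup G) = m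
        rw [card_conj_smul, hcard₀]
      · intro hH
        obtain ⟨g, hg⟩ := exists_conj_eq hH₀ (isPiHall_of_card hG hmn hH)
        exact ⟨g, hg⟩
    rw [← h1, MulAction.index_stabilizer, h2]
    rfl
  obtain ⟨l, hl, hprod⟩ := Submonoid.exists_list_of_mem_closure (main2 {p | p ∣ m} _ G H₀ rfl hH₀)
  refine ⟨l.length, fun i => l.get i, ?_, ?_⟩
  · rw [hcount, ← hprod, ← List.prod_ofFn, List.ofFn_get]
  · intro i
    exact hl _ (List.get_mem l i)

end Cfsg.Agent.S4214
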