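import Mathlib
import Cfsg.Statements.S4216
import Cfsg.Agent.Lib.H70Grun

set_option autoImplicit false

open Cfsg

namespace Cfsg.Agent.S4216

open Subgroup in
/-- Grün's first Theorem: if `P` is a Sylow `p`-subgroup of the finite group `G`, then `P ∩ G'` is the subgroup generated by `P ∩ N_G(P)'` together with the subgroups `P ∩ z P' z⁻¹` for all `z ∈ G`, where `'` denotes the derived subgroup and `N_G(P)` the normalizer of `P`. -/
theorem result {G : Type*} [Group G] [Finite G] {p : ℕ} [Fact p.Prime] (P : Sylow p G) : (P : Subgroup G) ⊓ commutator G = ((P : Subgroup G) ⊓ ⁅Subgroup.normalizer ((P : Subgroup G) : Set G), Subgroup.normalizer ((P : Subgroup G) : Set G)⁆) ⊔ ⨆ z : G, (P : Subgroup G) ⊓ (⁅(P : Subgroup G), (P : Subgroup G)⁆).map (MulAut.conj z).toMonoidHom := by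
  apply le_antisymm
  · apply Cfsg.Agent.Lib.H70Grun.grun P
    · exact le_sup_left
    · intro z
      exact le_trans (le_iSup (fun z : G => (P : Subgroup G) ⊓ (⁅(P : Subgroup G), (P : Subgroup G)⁆).map (MulAut.conj z).toMonoidHom) z) le_sup_right
  · refine sup_le (inf_le_inf_left _ ?_) (iSup_le fun z => inf_le_inf_left _ ?_)
    · exact Subgroup.commutator_mono le_top le_top
    · rintro _ ⟨w, hw, rfl⟩
      have h1 : w ∈ commutator G := Subgroup.commutator_mono le_top le_top hw
      exact (inferInstance : (commutator G).Normal).conj_mem _ h1 z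

end Cfsg.Agent.S4216
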