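import Mathlib
import Cfsg.Statements.S4217
import Cfsg.Agent.Lib.Gaschutz

set_option autoImplicit false

open Cfsg

namespace Cfsg.Agent.S4217

open Cfsg.Agent.Lib.Gaschutz

/-- exponents realised by crossed homomorphisms -/
def expSet {G : Type*} [Group G] (A : Subgroup G) [A.Normal] [IsMulCommutative A] : AddSubgroup ℤ where
  carrier := {n | ∃ c : G → A, (∀ g h : G, c (g * h) = c g * MulAut.conjNormal g (c h)) ∧
    ∀ a : A, c (a : G) = a ^ n}
  zero_mem' := ⟨fun _ => 1, fun g h => by simp, fun a => by simp⟩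
  add_mem' := by
    rintro m n ⟨c, hc, hca⟩ ⟨d, hd, hda⟩
    have hcom : ∀ a b : A, a * b = b * a := fun a b => mul_comm' a b
    refine ⟨fun g => c g * d g, ?_, ?_⟩
    · intro g h
      change c (g * h) * d (g * h) = c g * d g * MulAut.conjNormal g (c h * d h)
      rw [hc, hd, map_mul]
      have h1 := hcom (MulAut.conjNormal g (c h)) (d g)
      rw [mul_assoc, ← mul_assoc (MulAut.conjNormal g (c h)), h1]
      simp only [mul_assoc]
    · intro a
      change c a * d a = _
      rw [hca, hda, zpow_add]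
  neg_mem' := by
    rintro m ⟨c, hc, hca⟩
    have hcom : ∀ a b : A, a * b = b * a := fun a b => mul_comm' a b
    refine ⟨fun g => (c g)⁻¹, ?_, ?_⟩
    · intro g h
      change (c (g * h))⁻¹ = (c g)⁻¹ * MulAut.conjNormal g (c h)⁻¹
      rw [hc, mul_inv_rev, map_inv, hcom]
    · intro a
      change (c a)⁻¹ = _
      rw [hca, zpow_neg]

theorem exists_complement_of_crossed {G : Type*} [Group G] (A : Subgroup G) [A.Normal]
    [IsMulCommutative A] (h : (1 : ℤ) ∈ expSet A) : ∃ K : Subgroup G, K.IsComplement' A := by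
  obtain ⟨c, hc, hca⟩ := h
  have hca' : ∀ a : A, c (a : G) = a := fun a => by rw [hca, zpow_one]
  have hc1 : c 1 = 1 := by
    have := hca' 1
    simpa using this
  have hcinv : ∀ g, c g = 1 → c g⁻¹ = 1 := by
    intro g hg
    have h1 := hc g⁻¹ g
    rw [inv_mul_cancel, hc1, hg, map_one, mul_one] at h1
    exact h1.symm
  let H : Subgroup G :=
    { carrier := {g | c g = 1}
      mul_mem' := by
        intro a b ha hb
        show c (a * b) = 1
        have ha' : c a = 1 := ha
        have hb' : c b = 1 := hb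
        rw [hc, ha', hb', map_one, one_mul]
      one_mem' := hc1
      inv_mem' := fun {g} hg => hcinv g hg }
  refine ⟨H, Subgroup.IsComplement'.symm ?_⟩
  apply Subgroup.isComplement'_of_disjoint_and_mul_eq_univ
  · rw [disjoint_iff, eq_bot_iff]
    rintro k ⟨hk, hkH⟩
    have h1 : c k = 1 := hkH
    have h2 := hca' ⟨k, hk⟩
    rw [Subgroup.mem_bot]
    have h3 : (⟨k, hk⟩ : A) = 1 := by rw [← h2]; exact h1
    exact congrArg Subtype.val h3
  · rw [Set.eq_univ_iff_forall]
    intro g
    have h1 : c (((c g)⁻¹ : A) * g) = 1 := by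
      rw [hc, hca']
      have h2 : MulAut.conjNormal (((c g)⁻¹ : A) : G) (c g) = c g := by
        apply Subtype.ext
        rw [MulAut.conjNormal_apply]
        push_cast
        group
      rw [h2, inv_mul_cancel]
    exact Set.mem_mul.2 ⟨(c g : G), (c g).2, (((c g)⁻¹ : A) : G) * g, h1, by simp⟩

/-- Let `A` be an abelian normal subgroup of the finite group `G`. Then `A` has a complement in `G` if and only if, for every prime `p` dividing the index of `A`, there are a Sylow `p`-subgroup `S` of `G/A` and a subgroup `K` of `G` with `K ∩ A = 1` and `KA` equal to the preimage of `S` (that is, `A` has a complement in the preimage of a Sylow `p`-subgroup of `G/A`). -/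
theorem result {G : Type*} [Group G] [Finite G] (A : Subgroup G) [A.Normal] (hA : IsMulCommutative A) : (∃ K : Subgroup G, K.IsComplement' A) ↔ ∀ p : ℕ, p.Prime → p ∣ A.index → ∃ (S : Sylow p (G ⧸ A)) (K : Subgroup G), K ⊓ A = ⊥ ∧ K ⊔ A = (S : Subgroup (G ⧸ A)).comap (QuotientGroup.mk' A) := by
  constructor
  · rintro ⟨K, hK⟩ p hp _
    haveI := Fact.mk hp
    obtain ⟨S⟩ : Nonempty (Sylow p (G ⧸ A)) := inferInstance
    set U := (S : Subgroup (G ⧸ A)).comap (QuotientGroup.mk' A) with hU
    have hAU : A ≤ U := by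
      intro a ha
      rw [hU, Subgroup.mem_comap, QuotientGroup.mk'_apply, (QuotientGroup.eq_one_iff a).2 ha]
      exact one_mem _
    refine ⟨S, K ⊓ U, ?_, ?_⟩
    · rw [eq_bot_iff, ← hK.disjoint.eq_bot]
      exact inf_le_inf_right _ inf_le_left
    · apply le_antisymm (sup_le inf_le_right hAU)
      intro u hu
      have h1 : u ∈ K ⊔ A := by rw [hK.sup_eq_top]; trivial
      rw [← SetLike.mem_coe, Subgroup.mul_normal, Set.mem_mul] at h1
      obtain ⟨k, hk, a, ha, rfl⟩ := h1
      have h2 : k ∈ U := by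
        have := U.mul_mem hu (U.inv_mem (hAU ha))
        simpa using this
      exact Subgroup.mul_mem _ (Subgroup.mem_sup_left ⟨hk, h2⟩) (Subgroup.mem_sup_right ha)
  · intro h
    apply exists_complement_of_crossed
    obtain ⟨d, hd⟩ := Int.subgroup_cyclic (expSet A)
    have hmem : ∀ n : ℤ, n ∈ expSet A ↔ d ∣ n := by
      intro n
      rw [hd, AddSubgroup.mem_closure_singleton]
      constructor
      · rintro ⟨k, rfl⟩
        exact ⟨k, by simp [mul_comm]⟩
      · rintro ⟨k, rfl⟩
        exact ⟨k, by simp [mul_comm]⟩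
    rw [hmem]
    by_contra hcon
    have hd1 : d.natAbs ≠ 1 := by
      intro h1
      apply hcon
      rw [← Int.natAbs_dvd, h1]
      simp
    obtain ⟨q, hq, hqd⟩ := Nat.exists_prime_and_dvd hd1
    haveI := Fact.mk hq
    -- the index of `A`
    have hkey : ∀ (U B : Subgroup G), A ≤ U → B ⊓ A = ⊥ → A ⊔ B = U → q ∣ U.index := by
      intro U B hAU hBA hAB
      obtain ⟨κ, hκ, hκK, -, -⟩ := exists_kpart A B hBA
      rw [hAB] at hκ
      obtain ⟨c, hc, hcK⟩ := exists_cores A U κ hκ
      have h1 : ((U.index : ℕ) : ℤ) ∈ expSet A := ⟨c, hc, fun a => by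
        rw [hcK a hAU hκK, zpow_natCast]⟩
      rw [hmem] at h1
      have h2 : (q : ℤ) ∣ (U.index : ℤ) := dvd_trans (Int.natCast_dvd.2 hqd) h1
      exact_mod_cast h2
    have hqA : q ∣ A.index := hkey A ⊥ le_rfl (by simp) (by simp)
    obtain ⟨S, K, hKA, hKS⟩ := h q hq hqA
    have h3 : q ∣ ((S : Subgroup (G ⧸ A)).comap (QuotientGroup.mk' A)).index := by
      apply hkey _ K _ hKA (by rw [sup_comm]; exact hKS)
      rw [← hKS]
      exact le_sup_right
    rw [Subgroup.index_comap_of_surjective _ (QuotientGroup.mk'_surjective A)] at h3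
    exact S.not_dvd_index h3

end Cfsg.Agent.S4217
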