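import Mathlib
import Cfsg.Statements.S4218
import Cfsg.Agent.Lib.H32PSolv
import Cfsg.Agent.Lib.Fitting
import Cfsg.Agent.Lib.CoprimeAction2
import Cfsg.Agent.Lib.H70Frattini

set_option autoImplicit false

open Cfsg

namespace Cfsg.Agent.S4218

open Subgroup
open scoped commutatorElement

theorem map_frattini_equiv {A B : Type*} [Group A] [Group B] (e : A ≃* B) (x : A) :
    e x ∈ frattini B ↔ x ∈ frattini A := by
  have h := (e.mapSubgroup).map_radical
  have h1 : (frattini A).map (e : A →* B) = frattini B := h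
  rw [← h1]
  constructor
  · rintro ⟨y, hy, hyx⟩
    have : y = x := e.injective hyx
    rwa [← this]
  · intro hx
    exact ⟨x, hx, rfl⟩

theorem core {X : Type*} [Group X] [Finite X] {p : ℕ} [hp : Fact p.Prime] (hS : IsPSolvable p X)
    (h : pPrimeCore p X = ⊥) (g : X)
    (hg : ∀ x ∈ pCore p X, g * x * g⁻¹ * x⁻¹ ∈ (frattini (pCore p X)).map (pCore p X).subtype) :
    g ∈ pCore p X := by
  set H := pCore p X with hH
  set Φ : Subgroup X := (frattini H).map H.subtype with hΦ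
  have hHn : H.Normal := Cfsg.Agent.Lib.Fitting.normal_pCore p
  have hHp : IsPGroup p H := Cfsg.Agent.Lib.Fitting.isPGroup_pCore p
  have hΦn : Φ.Normal := by
    rw [hΦ]
    infer_instance
  have hΦH : Φ ≤ H := Subgroup.map_subtype_le _
  -- the subgroup of elements acting trivially
  let C : Subgroup X :=
    { carrier := {g | ∀ x ∈ H, g * x * g⁻¹ * x⁻¹ ∈ Φ}
      one_mem' := by intro x _; simp [one_mem]
      mul_mem' := by
        intro a b ha hb x hx
        have h1 := hb x hx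
        have h2 := ha (b * x * b⁻¹) (hHn.conj_mem x hx b)
        have h3 := mul_mem h2 h1
        have h4 : a * (b * x * b⁻¹) * a⁻¹ * (b * x * b⁻¹)⁻¹ * (b * x * b⁻¹ * x⁻¹) =
          a * b * x * (a * b)⁻¹ * x⁻¹ := by group
        rwa [h4] at h3
      inv_mem' := by
        intro a ha x hx
        have h1 := ha (a⁻¹ * x * a) (by simpa using hHn.conj_mem x hx a⁻¹)
        have h2 := inv_mem h1
        have h3 : (a * (a⁻¹ * x * a) * a⁻¹ * (a⁻¹ * x * a)⁻¹)⁻¹ = a⁻¹ * x * a⁻¹⁻¹ * x⁻¹ := by group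
        rwa [h3] at h2 }
  have hCmem : ∀ g, g ∈ C ↔ ∀ x ∈ H, g * x * g⁻¹ * x⁻¹ ∈ Φ := fun g => Iff.rfl
  have hCn : C.Normal := by
    constructor
    intro a ha y x hx
    have h1 := ha (y⁻¹ * x * y) (by simpa using hHn.conj_mem x hx y⁻¹)
    have h2 := hΦn.conj_mem _ h1 y
    have h3 : y * (a * (y⁻¹ * x * y) * a⁻¹ * (y⁻¹ * x * y)⁻¹) * y⁻¹ =
      y * a * y⁻¹ * x * (y * a * y⁻¹)⁻¹ * x⁻¹ := by group
    rwa [h3] at h2
  have hprime : ∀ a ∈ C, (orderOf a).Coprime p → a = 1 := by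
    intro a ha hcop
    have hA : zpowers a ≤ normalizer (H : Set X) := by
      rw [normalizer_eq_top_iff.2 hHn]; exact le_top
    have hAC : zpowers a ≤ C := by rwa [zpowers_le]
    have h1 : (Nat.card (zpowers a)).Coprime (Nat.card (frattini H)) := by
      rw [Nat.card_zpowers]
      obtain ⟨k, hk⟩ := (IsPGroup.iff_card.1 (hHp.to_subgroup (frattini H)))
      rw [hk]
      exact Nat.Coprime.pow_right k hcop
    have h2 := Cfsg.Agent.Lib.CoprimeAction2.le_centralizer_of_frattini hA h1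
      (fun b hb x hx => hAC hb x hx)
    have h3 := Cfsg.Agent.Lib.H32PSolv.centralizer_pCore_le hS h (h2 (mem_zpowers a))
    obtain ⟨k, hk⟩ := hHp ⟨a, h3⟩
    have hk' : a ^ p ^ k = 1 := congrArg Subtype.val hk
    have h4 : orderOf a ∣ p ^ k := orderOf_dvd_of_pow_eq_one hk'
    have h5 : orderOf a = 1 := Nat.eq_one_of_dvd_coprimes (Nat.Coprime.pow_right k hcop) dvd_rfl h4
    exact orderOf_eq_one_iff.1 h5
  have hCp : IsPGroup p C := by
    intro ⟨a, ha⟩
    refine ⟨(orderOf a).factorization p, ?_⟩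
    apply Subtype.ext
    change a ^ p ^ (orderOf a).factorization p = 1
    apply hprime _ (C.pow_mem ha _)
    rw [orderOf_pow_of_dvd (pow_ne_zero _ hp.out.ne_zero) (Nat.ordProj_dvd _ _)]
    exact (Nat.coprime_ordCompl hp.out (orderOf_pos a).ne').symm
  exact Cfsg.Agent.Lib.Fitting.le_pCore p hCn hCp ((hCmem g).2 hg)

/-- Let `G` be a finite `p`-solvable group, `N₀ = O_{p'}(G)`, `P₁ = O_{p',p}(G)`, and let `F ≤ P₁` be the preimage of the Frattini subgroup of `P₁/N₀`. Then an element `g` of `G` induces the identity on `P₁/F` by conjugation (that is, `g x g⁻¹ x⁻¹ ∈ F` for all `x ∈ P₁`) if and only if `g ∈ P₁`: the group `G/P₁` acts faithfully on `P₁/F`. -/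
theorem result {G : Type*} [Group G] [Finite G] {p : ℕ} [Fact p.Prime] (hG : Cfsg.IsPSolvable p G) (g : G) : (∀ x ∈ Cfsg.pPrimePCore p G, g * x * g⁻¹ * x⁻¹ ∈ ((frattini (↥(Cfsg.pPrimePCore p G) ⧸ (Cfsg.pPrimeCore p G).subgroupOf (Cfsg.pPrimePCore p G))).comap (QuotientGroup.mk' ((Cfsg.pPrimeCore p G).subgroupOf (Cfsg.pPrimePCore p G)))).map (Cfsg.pPrimePCore p G).subtype) ↔ g ∈ Cfsg.pPrimePCore p G := by
  set N₀ := pPrimeCore p G with hN₀
  set P₁ := pPrimePCore p G with hP₁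
  set H := pCore p (G ⧸ N₀) with hH
  have hmem : ∀ x : G, x ∈ P₁ ↔ (x : G ⧸ N₀) ∈ H := fun x => Iff.rfl
  have hHp : IsPGroup p H := Cfsg.Agent.Lib.Fitting.isPGroup_pCore p
  let f : P₁ →* H := (QuotientGroup.mk' N₀).subgroupComap H
  have hfs : Function.Surjective f := by
    rintro ⟨y, hy⟩
    obtain ⟨x, rfl⟩ := QuotientGroup.mk'_surjective N₀ y
    exact ⟨⟨x, hy⟩, rfl⟩
  have hfk : f.ker = N₀.subgroupOf P₁ := by
    ext x
    rw [MonoidHom.mem_ker, mem_subgroupOf]
    constructor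
    · intro h
      have : ((x : G) : G ⧸ N₀) = 1 := congrArg Subtype.val h
      exact (QuotientGroup.eq_one_iff _).1 this
    · intro h
      apply Subtype.ext
      exact (QuotientGroup.eq_one_iff _).2 h
  let e : (P₁ ⧸ N₀.subgroupOf P₁) ≃* H :=
    (QuotientGroup.quotientMulEquivOfEq hfk.symm).trans (QuotientGroup.quotientKerEquivOfSurjective f hfs)
  have he : ∀ y : P₁, e (QuotientGroup.mk' _ y) = f y := fun y => rfl
  have hF : ∀ z : G, z ∈ ((frattini (↥P₁ ⧸ N₀.subgroupOf P₁)).comap (QuotientGroup.mk' (N₀.subgroupOf P₁))).map P₁.subtype ↔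
      (z : G ⧸ N₀) ∈ (frattini H).map H.subtype := by
    intro z
    constructor
    · rintro ⟨y, hy, rfl⟩
      rw [SetLike.mem_coe, Subgroup.mem_comap, ← map_frattini_equiv e, he] at hy
      exact ⟨f y, hy, rfl⟩
    · rintro ⟨y, hy, hyz⟩
      have hz : z ∈ P₁ := by
        rw [hmem, ← hyz]; exact y.2
      refine ⟨⟨z, hz⟩, ?_, rfl⟩
      rw [SetLike.mem_coe, Subgroup.mem_comap, ← map_frattini_equiv e, he]
      have : f ⟨z, hz⟩ = y := Subtype.ext hyz.symm
      rw [this]; exact hy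
  constructor
  · intro h
    rw [hmem]
    apply core (Cfsg.Agent.Lib.H32PSolv.isPSolvable_quotient hG N₀) (Cfsg.Agent.Lib.Fitting.pPrimeCore_quotient_pPrimeCore p)
    intro x hx
    obtain ⟨x, rfl⟩ := QuotientGroup.mk'_surjective N₀ x
    have h1 := (hF _).1 (h x hx)
    exact h1
  · intro hg x hx
    rw [hF]
    have h1 : ⁅(⟨(g : G ⧸ N₀), hg⟩ : H), ⟨(x : G ⧸ N₀), hx⟩⁆ ∈ frattini H :=
      Cfsg.Agent.Lib.H70Frattini.commutator_le_frattini hHp
        (Subgroup.commutator_mem_commutator (mem_top _) (mem_top _))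
    exact ⟨_, h1, rfl⟩

end Cfsg.Agent.S4218
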