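import Cfsg.Statements.S4221
import Cfsg.Agent.Lib.H43FourE

set_option autoImplicit false
open Cfsg

namespace Cfsg.Agent.S4221

open Cfsg.Agent.Lib.H43FourA Cfsg.Agent.Lib.H43FourB Cfsg.Agent.Lib.H43FourC
  Cfsg.Agent.Lib.H43FourD Cfsg.Agent.Lib.H43FourE

theorem mk_hyp {α : Type*} [Fintype α] [DecidableEq α] (G : Subgroup (Equiv.Perm α))
    (hG : MulAction.IsMultiplyPretransitive G α 4) (x : Fin 4 ↪ α)
    (hodd : Odd (Nat.card (MulAction.stabilizer G x))) : Hyp G := by
  have htrans : ∀ e e' : Fin 4 ↪ α, ∃ g ∈ G, ∀ i, g (e i) = e' i := by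
    intro e e'
    obtain ⟨g, hg⟩ := hG.exists_smul_eq e e'
    refine ⟨g, g.2, fun i => ?_⟩
    exact congrArg (fun z : Fin 4 ↪ α => z i) hg
  refine ⟨htrans, fun e => ?_⟩
  obtain ⟨g, hg, hge⟩ := htrans e x
  have h1 : Nat.card (Kst G e) = Nat.card (Kst G x) := by
    apply card_conj g
    intro y
    rw [mem_Kst, mem_Kst, ← conj_mem_iff hg]
    have : ∀ i, (g * y * g⁻¹) (x i) = x i ↔ y (e i) = e i := by
      intro i
      have h1 : g⁻¹ (g (e i)) = e i := by simp
      rw [Equiv.Perm.mul_apply, Equiv.Perm.mul_apply, ← hge, h1, g.injective.eq_iff]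
    simp only [this]
  have h2 : Nat.card (MulAction.stabilizer G x) = Nat.card (Kst G x) := by
    refine Nat.card_congr ⟨fun y => ⟨y.1.1, y.1.2, fun i => ?_⟩,
      fun y => ⟨⟨y.1, y.2.1⟩, ?_⟩, fun _ => rfl, fun _ => rfl⟩
    · exact congrArg (fun z : Fin 4 ↪ α => z i) (MulAction.mem_stabilizer_iff.mp y.2)
    · rw [MulAction.mem_stabilizer_iff]
      ext i
      exact y.2.2 i
  rw [h1, ← h2]
  rw [← Nat.not_even_iff_odd, even_iff_two_dvd] at hodd
  exact hodd

/-- Let `G` be a `4`-fold transitive permutation group on a finite set of `n` points in which the pointwise stabilizer of some four distinct points has odd order. Then `n = 4` or `n = 5` with `G` the full symmetric group, or `n = 6` or `n = 7` with `G` the alternating group, or `n = 11` and `G` has order `7920`. -/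
theorem result {α : Type*} [Fintype α] [DecidableEq α] (G : Subgroup (Equiv.Perm α)) (hG : MulAction.IsMultiplyPretransitive G α 4) (x : Fin 4 ↪ α) (hodd : Odd (Nat.card (MulAction.stabilizer G x))) : ((Fintype.card α = 4 ∨ Fintype.card α = 5) ∧ G = ⊤) ∨ ((Fintype.card α = 6 ∨ Fintype.card α = 7) ∧ G = alternatingGroup α) ∨ (Fintype.card α = 11 ∧ Nat.card G = 7920) := by
  have h := mk_hyp G hG x hodd
  have hpre : MulAction.IsPreprimitive G α := by
    have hn4 : 4 ≤ Fintype.card α := by
      have := Fintype.card_le_of_embedding x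
      rwa [Fintype.card_fin] at this
    have h2 : MulAction.IsMultiplyPretransitive G α 2 :=
      MulAction.isMultiplyPretransitive_of_le (n := 4) (by norm_num)
        (by rw [Nat.card_eq_fintype_card]; exact hn4)
    exact MulAction.isPreprimitive_of_is_two_pretransitive h2
  have hn4 : 4 ≤ Fintype.card α := by
    have := Fintype.card_le_of_embedding x
    rwa [Fintype.card_fin] at this
  rcases Nat.lt_or_ge (Fintype.card α) 8 with hlt | hge
  swap
  · right; right
    exact main_eight h hpre hge x
  have hκ := h.odd x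
  have hκ0 : 0 < Nat.card (Kst G x) := Nat.card_pos
  have hcG := card_G h x
  have hidx := Subgroup.card_mul_index G
  rw [Nat.card_perm, Nat.card_eq_fintype_card (α := α)] at hidx
  have hn : Fintype.card α = 4 ∨ Fintype.card α = 5 ∨ Fintype.card α = 6 ∨
    Fintype.card α = 7 := by omega
  rcases hn with hn | hn | hn | hn
  · left
    refine ⟨Or.inl hn, ?_⟩
    rw [hn] at hcG hidx
    have e1 : (4 : ℕ).descFactorial 4 = 24 := by decide
    have e2 : (4 : ℕ).factorial = 24 := by decide
    rw [e1] at hcG
    rw [e2, hcG, mul_assoc] at hidx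
    have h3 : Nat.card (Kst G x) * G.index = 1 := by omega
    exact Subgroup.index_eq_one.mp (Nat.eq_one_of_mul_eq_one_left h3)
  · left
    refine ⟨Or.inr hn, ?_⟩
    rw [hn] at hcG hidx
    have e1 : (5 : ℕ).descFactorial 4 = 120 := by decide
    have e2 : (5 : ℕ).factorial = 120 := by decide
    rw [e1] at hcG
    rw [e2, hcG, mul_assoc] at hidx
    have h3 : Nat.card (Kst G x) * G.index = 1 := by omega
    exact Subgroup.index_eq_one.mp (Nat.eq_one_of_mul_eq_one_left h3)
  · right; left
    refine ⟨Or.inl hn, ?_⟩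
    rw [hn] at hcG hidx
    have e1 : (6 : ℕ).descFactorial 4 = 360 := by decide
    have e2 : (6 : ℕ).factorial = 720 := by decide
    rw [e1] at hcG
    rw [e2, hcG, mul_assoc] at hidx
    have h3 : Nat.card (Kst G x) * G.index = 2 := by omega
    apply Equiv.Perm.eq_alternatingGroup_of_index_eq_two
    rcases (Nat.dvd_prime Nat.prime_two).mp ⟨_, h3.symm⟩ with h4 | h4
    · rw [h4, one_mul] at h3; exact h3
    · exact absurd (by rw [h4]) hκ
  · right; left
    refine ⟨Or.inr hn, ?_⟩
    obtain ⟨f, m, κ, C, d⟩ := exists_data h (by omega) x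
    obtain ⟨a, b, c, z, ha, hb, hc, hbκ, h1, h2, h3, -⟩ := Data.ab h d x
    have hdK := d.card_K x
    rw [hdK] at hκ hκ0 hcG
    have hf := d.f_le
    have hf2 := d.two_le
    have hadd := d.add
    rw [hn] at hcG hidx hadd
    have e1 : (7 : ℕ).descFactorial 4 = 840 := by decide
    have e2 : (7 : ℕ).factorial = 5040 := by decide
    rw [e1] at hcG
    rw [e2, hcG, mul_assoc] at hidx
    have h6 : κ * G.index = 6 := by omega
    have h3κ : 3 ∣ κ := by
      have hff : f = 2 ∨ f = 3 := by omega
      rcases hff with rfl | rfl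
      · have hm : m = 5 := by omega
        subst hm
        norm_num at h1 h2
        have h7 : 10 * a = 15 * b := by omega
        have h8 : 2 ∣ b := by omega
        exact absurd (h8.trans hbκ) hκ
      · have hm : m = 4 := by omega
        subst hm
        norm_num at h1 h2
        have h7 : 24 * a = 8 * b := by omega
        have h8 : 3 ∣ b := by omega
        exact h8.trans hbκ
    obtain ⟨j, rfl⟩ := h3κ
    have h7 : j * G.index = 2 := by
      have : 3 * (j * G.index) = 6 := by rw [← h6]; ring
      omega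
    apply Equiv.Perm.eq_alternatingGroup_of_index_eq_two
    rcases (Nat.dvd_prime Nat.prime_two).mp ⟨_, h7.symm⟩ with h4 | h4
    · rw [h4, one_mul] at h7; exact h7
    · subst h4; exact absurd (by norm_num) hκ

end Cfsg.Agent.S4221
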