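import Cfsg.Statements.S4222

set_option autoImplicit false
open Cfsg

namespace Cfsg.Agent.S4222

/-- If a normal subgroup `N` of a finite group is complete (its centre is trivial and every automorphism of `N` is inner), then the group is the internal direct product of `N` and the centralizer of `N`: the centralizer is a complement to `N`. -/
theorem result {T : Type*} [Group T] [Finite T] (N : Subgroup T) [N.Normal] (hz : Subgroup.center ↥N = ⊥) (ha : Function.Surjective (MulAut.conj : ↥N →* MulAut ↥N)) : (Subgroup.centralizer (N : Set T)).IsComplement' N := by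
  apply Subgroup.isComplement'_of_disjoint_and_mul_eq_univ
  · rw [Subgroup.disjoint_def]
    intro x hx1 hx2
    have : (⟨x, hx2⟩ : N) ∈ Subgroup.center N := by
      rw [Subgroup.mem_center_iff]
      intro g
      apply Subtype.ext
      exact (Subgroup.mem_centralizer_iff.1 hx1 g.1 g.2)
    rw [hz, Subgroup.mem_bot] at this
    exact congrArg Subtype.val this
  · rw [Set.eq_univ_iff_forall]
    intro t
    obtain ⟨n, hn⟩ := ha (MulAut.conjNormal t)
    refine ⟨t * (n : T)⁻¹, ?_, n, n.2, by simp⟩
    rw [SetLike.mem_coe, Subgroup.mem_centralizer_iff]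
    intro m hm
    have h1 := congrArg (fun f => ((f (n⁻¹ * ⟨m, hm⟩ * n) : N) : T)) hn
    simp only [MulAut.conj_apply, MulAut.conjNormal_apply, Subgroup.coe_mul, Subgroup.coe_inv] at h1
    have h2 : m = t * ((n:T)⁻¹ * m * n) * t⁻¹ := by
      rw [← h1]; group
    calc m * (t * (n:T)⁻¹) = (t * ((n:T)⁻¹ * m * n) * t⁻¹) * (t * (n:T)⁻¹) := by rw [← h2]
      _ = t * (n:T)⁻¹ * m := by group

end Cfsg.Agent.S4222
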