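import Mathlib
import Cfsg.Statements.S4223

set_option autoImplicit false
open Cfsg

namespace Cfsg.Agent.S4223

/-- directly indecomposable -/
def Indec (G : Type*) [Group G] : Prop :=
  Nontrivial G ∧ ∀ H K : Subgroup G, H.Normal → K.Normal → H ⊓ K = ⊥ → H ⊔ K = ⊤ → H = ⊥ ∨ K = ⊥

/-- iterates of a self map of a finite set have an idempotent power -/
theorem exists_idem {X : Type*} [Finite X] (f : X → X) : ∃ k : ℕ, 0 < k ∧ ∀ x, f^[k] (f^[k] x) = f^[k] x := by
  have : Finite (X → X) := inferInstance
  obtain ⟨i, j, hij, h⟩ := Finite.exists_ne_map_eq_of_infinite (fun n : ℕ => f^[n])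
  wlog hlt : i < j generalizing i j
  · exact this j i hij.symm h.symm (by omega)
  have h : f^[i] = f^[j] := h
  obtain ⟨d, hd⟩ : ∃ d, j = i + d := ⟨j - i, by omega⟩
  have hd0 : 0 < d := by omega
  have h1 : ∀ n, i ≤ n → f^[n + d] = f^[n] := by
    intro n hn
    obtain ⟨t, rfl⟩ : ∃ t, n = t + i := ⟨n - i, by omega⟩
    have : t + i + d = t + j := by omega
    rw [this, Function.iterate_add, Function.iterate_add, h]
  have h2 : ∀ s n, i ≤ n → f^[n + s * d] = f^[n] := by
    intro s
    induction s with
    | zero => intro n _; simp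
    | succ s ih =>
      intro n hn
      have : n + (s + 1) * d = (n + s * d) + d := by ring
      rw [this, h1 _ (by omega), ih n hn]
  have hge : i ≤ (i + 1) * d := by nlinarith
  refine ⟨(i + 1) * d, by positivity, ?_⟩
  intro x
  rw [← Function.iterate_add_apply]
  have := h2 (i + 1) ((i + 1) * d) hge
  rw [this]

/-- Fitting's lemma -/
theorem fitting {G : Type*} [Group G] [Finite G] (hG : Indec G) (f : G →* G)
    (hf : ∀ g x, f (g * x * g⁻¹) = g * f x * g⁻¹) : Function.Injective f ∨ ∃ k, ∀ x, f^[k] x = 1 := by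
  obtain ⟨k, hk0, hk⟩ := exists_idem f
  have hfk : ∀ g x, f^[k] (g * x * g⁻¹) = g * f^[k] x * g⁻¹ := by
    intro g x
    clear hk hk0
    induction k generalizing x with
    | zero => rfl
    | succ k ih => rw [Function.iterate_succ_apply, hf, ih, Function.iterate_succ_apply]
  let F : G →* G := MonoidHom.mk' (f^[k]) (fun a b => iterate_map_mul f k a b)
  have hF : ∀ x, F x = f^[k] x := fun _ => rfl
  have hker : F.ker.Normal := inferInstance
  have hran : F.range.Normal := by
    refine ⟨?_⟩
    rintro _ ⟨y, rfl⟩ g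
    exact ⟨g * y * g⁻¹, hfk g y⟩
  have h1 : F.ker ⊓ F.range = ⊥ := by
    rw [eq_bot_iff]
    rintro x ⟨hx1, y, rfl⟩
    have : F (F y) = 1 := hx1
    rw [hF, hF, hk] at this
    exact this
  have h2 : F.ker ⊔ F.range = ⊤ := by
    rw [eq_top_iff]
    intro x _
    have : x = (x * (F x)⁻¹) * F x := by group
    rw [this]
    apply Subgroup.mul_mem_sup
    · rw [MonoidHom.mem_ker, map_mul, map_inv, hF, hF, hk, mul_inv_cancel]
    · exact ⟨x, rfl⟩
  rcases hG.2 _ _ hker hran h1 h2 with h | h
  · left
    intro a b hab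
    have h3 : Function.Injective F := (MonoidHom.ker_eq_bot_iff F).1 h
    apply h3
    rw [hF, hF]
    obtain ⟨k', rfl⟩ := Nat.exists_eq_succ_of_ne_zero hk0.ne'
    rw [Function.iterate_succ_apply, Function.iterate_succ_apply, hab]
  · right
    refine ⟨k, fun x => ?_⟩
    have : F x ∈ F.range := ⟨x, rfl⟩
    rw [h] at this
    exact this

/-- The key lemma on sums. -/
theorem sum_injective {G : Type*} [Group G] [Finite G] (hG : Indec G) (f g h : G →* G)
    (hg : ∀ a x, g (a * x * a⁻¹) = a * g x * a⁻¹) (hh : ∀ a x, h (a * x * a⁻¹) = a * h x * a⁻¹)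
    (hsum : ∀ x, f x * g x = h x) (hinj : Function.Injective h) : Function.Injective f ∨ Function.Injective g := by
  by_cases hgi : Function.Injective g
  · exact Or.inr hgi
  left
  have hbij : Function.Bijective h := Finite.injective_iff_bijective.1 hinj
  let e : G ≃* G := MulEquiv.ofBijective h hbij
  have he : ∀ x, h (e.symm x) = x := fun x => e.apply_symm_apply x
  have hes : ∀ a x, e.symm (a * x * a⁻¹) = a * e.symm x * a⁻¹ := by
    intro a x
    apply hinj
    rw [he, hh, he]
  let g' : G →* G := g.comp e.symm.toMonoidHom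
  have hg' : ∀ x, g' x = g (e.symm x) := fun _ => rfl
  have hg'n : ∀ a x, g' (a * x * a⁻¹) = a * g' x * a⁻¹ := by
    intro a x
    rw [hg', hes, hg, ← hg']
  have hg'i : ¬ Function.Injective g' := by
    intro hi
    apply hgi
    intro a b hab
    have : g' (h a) = g' (h b) := by
      have ea : e.symm (h a) = a := e.symm_apply_apply a
      have eb : e.symm (h b) = b := e.symm_apply_apply b
      rw [hg', hg', ea, eb, hab]
    exact hinj (hi this)
  obtain ⟨k, hk⟩ := (fitting hG g' hg'n).resolve_left hg'i
  -- f ∘ e.symm is injective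
  rw [injective_iff_map_eq_one]
  intro x hx
  have h1 : g' (h x) = h x := by
    have ea : e.symm (h x) = x := e.symm_apply_apply x
    rw [hg', ea]
    have := hsum x
    rw [hx, one_mul] at this
    exact this
  have h2 : g'^[k] (h x) = h x := Function.iterate_fixed h1 k
  rw [hk] at h2
  apply hinj
  rw [← h2, map_one]

section exchange

variable {ι : Type*} [Fintype ι] [DecidableEq ι] {B : ι → Type*} [∀ j, Group (B j)]

/-- Kill the coordinates outside `s`. -/
def mask (s : Finset ι) : (∀ j, B j) →* (∀ j, B j) where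
  toFun y j := if j ∈ s then y j else 1
  map_one' := by funext j; simp
  map_mul' x y := by funext j; by_cases h : j ∈ s <;> simp [h]

theorem mask_apply (s : Finset ι) (y : ∀ j, B j) (j : ι) : mask s y j = if j ∈ s then y j else 1 := rfl

theorem mask_conj (s : Finset ι) (b y : ∀ j, B j) : mask s (b * y * b⁻¹) = b * mask s y * b⁻¹ := by
  funext j
  simp only [mask_apply, Pi.mul_apply, Pi.inv_apply]
  split_ifs <;> simp

theorem mask_insert (s : Finset ι) (j : ι) (hj : j ∉ s) (y : ∀ j, B j) : mask {j} y * mask s y = mask (insert j s) y := by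
  funext i
  simp only [mask_apply, Pi.mul_apply, Finset.mem_singleton, Finset.mem_insert]
  by_cases h1 : i = j
  · subst h1; simp [hj]
  · by_cases h2 : i ∈ s <;> simp [h1, h2]

theorem mask_single (j : ι) (y : ∀ j, B j) : mask {j} y = Pi.mulSingle j (y j) := by
  funext i
  rw [mask_apply]
  by_cases h : i = j
  · subst h; simp
  · rw [if_neg (by simpa using h), Pi.mulSingle_eq_of_ne h]

/-- the exchange step: `a : Â₀ → G`, `π : G → A₀` a split normal factor -/
theorem exchange {G A₀ : Type*} [Group G] [Group A₀] [Finite A₀] [∀ j, Finite (B j)] (hA : Indec A₀) (hB : ∀ j, Indec (B j))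
    (i₁ : A₀ →* G) (p₁ : G →* A₀) (hip : ∀ a, p₁ (i₁ a) = a) (hnorm : ∀ g x, i₁ (p₁ (g * x * g⁻¹)) = g * i₁ (p₁ x) * g⁻¹)
    (e : G ≃* (∀ j, B j)) : ∃ j, Function.Bijective (fun b : B j => p₁ (e.symm (Pi.mulSingle j b))) ∧
      Function.Bijective (fun a : A₀ => e (i₁ a) j) := by
  classical
  let F : Finset ι → A₀ →* A₀ := fun s => p₁.comp (e.symm.toMonoidHom.comp ((mask s).comp (e.toMonoidHom.comp i₁)))
  have hF : ∀ s x, F s x = p₁ (e.symm (mask s (e (i₁ x)))) := fun _ _ => rfl
  have hFn : ∀ s a x, F s (a * x * a⁻¹) = a * F s x * a⁻¹ := by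
    intro s a x
    have h1 : e (i₁ (a * x * a⁻¹)) = e (i₁ a) * e (i₁ x) * (e (i₁ a))⁻¹ := by
      rw [map_mul, map_mul, map_inv, map_mul, map_mul, map_inv]
    have h2 : e.symm (e (i₁ a) * mask s (e (i₁ x)) * (e (i₁ a))⁻¹) = i₁ a * e.symm (mask s (e (i₁ x))) * (i₁ a)⁻¹ := by
      rw [map_mul, map_mul, map_inv, MulEquiv.symm_apply_apply]
    rw [hF, hF, h1, mask_conj, h2, map_mul, map_mul, map_inv, hip]
  have hex : ∃ j, Function.Injective (F {j}) := by
    by_contra hcon
    push Not at hcon
    have : ∀ s : Finset ι, ¬ Function.Injective (F s) := by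
      intro s
      induction s using Finset.induction_on with
      | empty =>
        intro hi
        have := hA.1
        obtain ⟨x, hx⟩ := exists_ne (1 : A₀)
        apply hx
        apply hi
        rw [hF, hF]
        have : ∀ y : (∀ j, B j), mask (∅ : Finset ι) y = 1 := by
          intro y; funext j; simp [mask_apply]
        rw [this, this]
      | insert j s hj ih =>
        intro hi
        rcases sum_injective hA (F {j}) (F s) (F (insert j s)) (hFn s) (hFn _) (fun x => by
          rw [hF, hF, hF, ← mask_insert s j hj, map_mul, map_mul]) hi with h | h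
        · exact hcon j h
        · exact ih h
    apply this Finset.univ
    intro x y hxy
    have hu : ∀ y : (∀ j, B j), mask (Finset.univ : Finset ι) y = y := by
      intro y; funext j; simp [mask_apply]
    rw [hF, hF, hu, hu, MulEquiv.symm_apply_apply, MulEquiv.symm_apply_apply, hip, hip] at hxy
    exact hxy
  obtain ⟨j, hj⟩ := hex
  let α : A₀ →* B j := (Pi.evalMonoidHom B j).comp (e.toMonoidHom.comp i₁)
  let β : B j →* A₀ := p₁.comp (e.symm.toMonoidHom.comp (MonoidHom.mulSingle B j))
  have hα : ∀ a, α a = e (i₁ a) j := fun _ => rfl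
  have hβ : ∀ b, β b = p₁ (e.symm (Pi.mulSingle j b)) := fun _ => rfl
  have hβα : ∀ a, β (α a) = F {j} a := by
    intro a
    rw [hβ, hα, hF, mask_single]
  have hαi : Function.Injective α := by
    intro a b hab
    apply hj
    rw [← hβα, ← hβα, hab]
  let γ : B j →* B j := α.comp β
  have hγ : ∀ b, γ b = α (β b) := fun _ => rfl
  have hγn : ∀ b y, γ (b * y * b⁻¹) = b * γ y * b⁻¹ := by
    intro b y
    rw [hγ, hγ, hα, hα, hβ, hβ]
    have h1 : e.symm (Pi.mulSingle j (b * y * b⁻¹)) = e.symm (Pi.mulSingle j b) * e.symm (Pi.mulSingle j y) * (e.symm (Pi.mulSingle j b))⁻¹ := by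
      rw [← map_mul, ← map_inv, ← map_mul]
      congr 1
      rw [Pi.mulSingle_mul, Pi.mulSingle_mul, Pi.mulSingle_inv]
    rw [h1, hnorm, map_mul, map_mul, map_inv, MulEquiv.apply_symm_apply]
    simp
  have hγi : Function.Injective γ := by
    rcases fitting (hB j) γ hγn with h | ⟨k, hk⟩
    · exact h
    · exfalso
      have := hA.1
      obtain ⟨x, hx⟩ := exists_ne (1 : A₀)
      apply hx
      have h1 : ∀ n : ℕ, ∀ x, (F {j})^[n + 1] x = β (γ^[n] (α x)) := by
        intro n
        induction n with
        | zero => intro x; exact (hβα x).symm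
        | succ n ih =>
          intro x
          rw [Function.iterate_succ_apply, ih, ← hβα]
          congr 1
      have h2 := h1 k x
      rw [hk, map_one] at h2
      have h3 : Function.Injective ((F {j})^[k + 1]) := hj.iterate _
      apply h3
      rw [h2, iterate_map_one]
  have hβi : Function.Injective β := by
    intro a b hab
    apply hγi
    rw [hγ, hγ, hab]
  have hcard : Nat.card A₀ = Nat.card (B j) :=
    le_antisymm (Nat.card_le_card_of_injective α hαi) (Nat.card_le_card_of_injective β hβi)
  refine ⟨j, ?_, ?_⟩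
  · exact (Nat.bijective_iff_injective_and_card β).2 ⟨hβi, hcard.symm⟩
  · exact (Nat.bijective_iff_injective_and_card α).2 ⟨hαi, hcard⟩

end exchange

universe u v

theorem main (m : ℕ) : ∀ (n : ℕ) (A : Fin m → Type u) (B : Fin n → Type v) [∀ i, Group (A i)] [∀ j, Group (B j)]
    [∀ i, Finite (A i)] [∀ j, Finite (B j)], (∀ i, Indec (A i)) → (∀ j, Indec (B j)) →
    ∀ (_ : ((i : Fin m) → A i) ≃* ((j : Fin n) → B j)), ∃ σ : Fin m ≃ Fin n, ∀ i, Nonempty (A i ≃* B (σ i)) := by
  induction m with
  | zero =>
    intro n A B _ _ _ _ hA hB e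
    rcases Nat.eq_zero_or_pos n with rfl | hn
    · exact ⟨Equiv.refl _, fun i => i.elim0⟩
    · exfalso
      have hnt := (hB ⟨0, hn⟩).1
      obtain ⟨x, hx⟩ := exists_ne (1 : B ⟨0, hn⟩)
      apply hx
      have h1 : (Pi.mulSingle ⟨0, hn⟩ x : (j : Fin n) → B j) = 1 := by
        apply e.symm.injective
        exact Subsingleton.elim _ _
      have := congrFun h1 ⟨0, hn⟩
      rwa [Pi.mulSingle_eq_same] at this
  | succ m ih =>
    intro n A B _ _ _ _ hA hB e
    classical
    obtain ⟨j, hβ, hα⟩ := exchange (hA 0) hB (MonoidHom.mulSingle A 0) (Pi.evalMonoidHom A 0)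
      (fun a => by simp) (fun g x => by
        have h := mask_conj (B := A) {0} g x
        rw [mask_single, mask_single] at h
        exact h) e
    have hn : n ≠ 0 := by rintro rfl; exact j.elim0
    obtain ⟨n', rfl⟩ := Nat.exists_eq_succ_of_ne_zero hn
    -- the induced map on the remaining factors
    let c : ((i : Fin m) → A i.succ) →* ((i : Fin (m+1)) → A i) :=
      { toFun := fun x => Fin.cons 1 x
        map_one' := by
          funext i
          refine Fin.cases ?_ (fun i => ?_) i
          · rfl
          · rfl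
        map_mul' := fun x y => by
          funext i
          refine Fin.cases ?_ (fun i => ?_) i
          · simp
          · simp }
    have hc0 : ∀ x, c x 0 = 1 := fun _ => rfl
    have hcs : ∀ x i, c x (Fin.succ i) = x i := fun _ _ => rfl
    let r : ((i : Fin (n'+1)) → B i) →* ((i : Fin n') → B (j.succAbove i)) :=
      { toFun := fun y i => y (j.succAbove i)
        map_one' := rfl
        map_mul' := fun _ _ => rfl }
    let ψ : ((i : Fin m) → A i.succ) →* ((i : Fin n') → B (j.succAbove i)) := r.comp (e.toMonoidHom.comp c)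
    have hψ : ∀ x i, ψ x i = e (c x) (j.succAbove i) := fun _ _ => rfl
    have hψi : Function.Injective ψ := by
      rw [injective_iff_map_eq_one]
      intro x hx
      have h1 : e (c x) = Pi.mulSingle j (e (c x) j) := by
        funext i
        by_cases h : i = j
        · subst h; simp
        · obtain ⟨i', rfl⟩ := Fin.exists_succAbove_eq h
          rw [Pi.mulSingle_eq_of_ne h, ← hψ, hx]
          rfl
      have h2 : (fun b : B j => (Pi.evalMonoidHom A 0) (e.symm (Pi.mulSingle j b))) (e (c x) j) =
          (fun b : B j => (Pi.evalMonoidHom A 0) (e.symm (Pi.mulSingle j b))) 1 := by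
        simp only
        rw [← h1, MulEquiv.symm_apply_apply, Pi.mulSingle_one, map_one, map_one]
        exact hc0 x
      have h3 := hβ.1 h2
      rw [h3, Pi.mulSingle_one] at h1
      have h4 : c x = 1 := by
        apply e.injective
        rw [h1, map_one]
      funext i
      have := hcs x i
      rw [h4] at this
      exact this.symm
    have hcard : Nat.card ((i : Fin m) → A i.succ) = Nat.card ((i : Fin n') → B (j.succAbove i)) := by
      have h1 : Nat.card ((i : Fin (m+1)) → A i) = Nat.card ((i : Fin (n'+1)) → B i) := Nat.card_congr e.toEquiv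
      have h2 : Nat.card (A 0) = Nat.card (B j) := Nat.card_congr (Equiv.ofBijective _ hα)
      rw [Nat.card_pi, Nat.card_pi, Fin.prod_univ_succ, Fin.prod_univ_succAbove _ j, h2] at h1
      rw [Nat.card_pi, Nat.card_pi]
      exact Nat.eq_of_mul_eq_mul_left Nat.card_pos h1
    have hψb : Function.Bijective ψ := (Nat.bijective_iff_injective_and_card ψ).2 ⟨hψi, hcard⟩
    obtain ⟨σ', hσ'⟩ := ih n' (fun i => A i.succ) (fun i => B (j.succAbove i)) (fun i => hA _) (fun i => hB _)
      (MulEquiv.ofBijective ψ hψb)
    refine ⟨(finSuccEquiv m).trans ((Equiv.optionCongr σ').trans (finSuccEquiv' j).symm), ?_⟩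
    intro i
    refine Fin.cases ?_ (fun i => ?_) i
    · have : ((finSuccEquiv m).trans ((Equiv.optionCongr σ').trans (finSuccEquiv' j).symm)) 0 = j := by
        simp
      rw [this]
      refine ⟨MulEquiv.ofBijective ((Pi.evalMonoidHom B j).comp (e.toMonoidHom.comp (MonoidHom.mulSingle A 0))) hα⟩
    · have : ((finSuccEquiv m).trans ((Equiv.optionCongr σ').trans (finSuccEquiv' j).symm)) i.succ = j.succAbove (σ' i) := by
        simp
      rw [this]
      exact hσ' i

/-- If a finite group is isomorphic both to a direct product of `m` directly indecomposable nontrivial groups and to a direct product of `n` such groups (a group is directly indecomposable when it is not the internal direct product of two nontrivial normal subgroups), then `m = n` and the factors are isomorphic in pairs after a suitable matching. -/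
theorem result {m n : ℕ} {A : Fin m → Type*} {B : Fin n → Type*} [∀ i, Group (A i)] [∀ j, Group (B j)] [∀ i, Finite (A i)] [∀ j, Finite (B j)] (hA : ∀ i, Nontrivial (A i) ∧ ∀ H K : Subgroup (A i), H.Normal → K.Normal → H ⊓ K = ⊥ → H ⊔ K = ⊤ → H = ⊥ ∨ K = ⊥) (hB : ∀ j, Nontrivial (B j) ∧ ∀ H K : Subgroup (B j), H.Normal → K.Normal → H ⊓ K = ⊥ → H ⊔ K = ⊤ → H = ⊥ ∨ K = ⊥) (e : ((i : Fin m) → A i) ≃* ((j : Fin n) → B j)) : ∃ σ : Fin m ≃ Fin n, ∀ i, Nonempty (A i ≃* B (σ i)) :=
  main m n A B hA hB e

end Cfsg.Agent.S4223
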