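import Mathlib
import Cfsg.Statements.S4225
import Cfsg.Agent.Lib.H70Regular

set_option autoImplicit false
open Cfsg

namespace Cfsg.Agent.S4225

/-- In a regular `p`-group, for every `k` the elements whose `p^k`-th power is `1` form a characteristic subgroup. -/
theorem result {G : Type*} [Group G] [Finite G] {p : ℕ} [Fact p.Prime] (hG : Cfsg.IsRegularPGroup p G) (k : ℕ) : ∃ H : Subgroup G, H.Characteristic ∧ (H : Set G) = {x : G | x ^ p ^ k = 1} := by
  have hmul : ∀ x y : G, x ^ p ^ k = 1 → y ^ p ^ k = 1 → (x * y) ^ p ^ k = 1 := fun x y hx hy =>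
    Cfsg.Agent.Lib.H70Regular.mul_pow_eq_one hG.1 (fun a b => hG.2 a b k) _ ⊤ rfl x (Subgroup.mem_top _) y
      (Subgroup.mem_top _) hx hy
  refine ⟨{ carrier := {x | x ^ p ^ k = 1}, one_mem' := one_pow _,
            mul_mem' := fun {x y} hx hy => hmul x y hx hy,
            inv_mem' := fun {x} hx => ?_ }, ?_, rfl⟩
  · change x⁻¹ ^ p ^ k = 1
    rw [inv_pow, (show x ^ p ^ k = 1 from hx), inv_one]
  · rw [Subgroup.characteristic_iff_comap_le]
    intro φ x hx
    have h1 : (φ x) ^ p ^ k = 1 := hx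
    rw [← map_pow] at h1
    exact (map_eq_one_iff φ φ.injective).1 h1

end Cfsg.Agent.S4225
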