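import Mathlib
import Cfsg.Statements.S4226
import Cfsg.Agent.Lib.H70HallWielandt

set_option autoImplicit false
open Cfsg

open scoped commutatorElement
namespace Cfsg.Agent.S4226

/-- Let `P` be a Sylow `p`-subgroup of the finite group `G` with nilpotency class less than `p` (the term of index `p - 1` of the lower central series of `P`, indexed from `0`, is trivial), and let `N` be its normalizer. Then `O^p(N) = O^p(G) ∩ N`, where `O^p` denotes the subgroup generated by the elements of order prime to `p`; so the largest `p`-factor groups of `G` and of `N` are isomorphic. -/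
theorem result {G : Type*} [Group G] [Finite G] {p : ℕ} [Fact p.Prime] (P : Sylow p G) (hcl : (P : Subgroup G).lowerCentralSeries (p - 1) = ⊥) : Cfsg.pResidualOf p (Subgroup.normalizer ((P : Subgroup G) : Set G)) = Cfsg.pResidual p G ⊓ Subgroup.normalizer ((P : Subgroup G) : Set G) := by
  refine Cfsg.Agent.Lib.H70HallWielandt.hall_wielandt P (P : Subgroup G) ?_ ?_
  · refine ⟨le_rfl, fun g hg => ?_⟩
    refine Subgroup.eq_of_le_of_card_ge hg ?_
    rw [Subgroup.card_map_of_injective (MulAut.conj g).injective]
  · intro u hu z hz
    have key : ∀ j, (Cfsg.Agent.Lib.H70HallWielandt.D u z j) ∈ (P : Subgroup G).lowerCentralSeries j := by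
      intro j
      induction j with
      | zero => exact hu
      | succ j ih =>
        have h1 : Cfsg.Agent.Lib.H70HallWielandt.D u z (j + 1) =
            ⁅(Cfsg.Agent.Lib.H70HallWielandt.D u z j)⁻¹, z⁻¹⁆ := by
          unfold Cfsg.Agent.Lib.H70HallWielandt.D
          rw [Function.iterate_succ_apply', commutatorElement_def, inv_inv, inv_inv]
        rw [h1, Subgroup.lowerCentralSeries_succ]
        exact Subgroup.commutator_mem_commutator (inv_mem ih) (inv_mem hz)
    have h1 := key (p - 1)
    rw [hcl] at h1
    exact h1

end Cfsg.Agent.S4226
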