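import Cfsg.Statements.S4275

set_option autoImplicit false

open Cfsg

namespace Cfsg.Agent.S4275

/-- Let G be a transitive group of permutations of a finite set Ω, let o ∈ Ω, and let α be an automorphism of G. Then α is induced by conjugation by a permutation of Ω normalizing G if and only if the image under α of the stabilizer of o fixes some point of Ω. -/
theorem result {Ω : Type*} [Fintype Ω] (G : Subgroup (Equiv.Perm Ω)) (htr : MulAction.IsPretransitive G Ω) (o : Ω) (α : G ≃* G) : (∃ σ : Equiv.Perm Ω, σ ∈ Subgroup.normalizer (G : Set (Equiv.Perm Ω)) ∧ ∀ g : G, ((α g : G) : Equiv.Perm Ω) = σ * (g : Equiv.Perm Ω) * σ⁻¹) ↔ ∃ ω : Ω, ∀ g ∈ (MulAction.stabilizer G o).map α.toMonoidHom, g • ω = ω := by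
  constructor
  · rintro ⟨σ, -, hσ⟩
    refine ⟨σ o, ?_⟩
    rintro _ ⟨g, hg, rfl⟩
    change ((α g : G) : Equiv.Perm Ω) (σ o) = σ o
    rw [hσ]
    change σ ((g : Equiv.Perm Ω) (σ⁻¹ (σ o))) = σ o
    rw [show σ⁻¹ (σ o) = o from Equiv.symm_apply_apply σ o]
    exact congrArg σ hg
  · rintro ⟨ω, hω⟩
    -- stabilizer image = stabilizer of ω
    have hfin : Finite G := inferInstance
    have hst : (MulAction.stabilizer G o).map α.toMonoidHom = MulAction.stabilizer G ω := by
      have hle : (MulAction.stabilizer G o).map α.toMonoidHom ≤ MulAction.stabilizer G ω := by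
        intro g hg
        exact hω g hg
      apply Subgroup.eq_of_le_of_card_ge hle
      have h1 : Nat.card ((MulAction.stabilizer G o).map α.toMonoidHom) = Nat.card (MulAction.stabilizer G o) :=
        Nat.card_congr ((MulAction.stabilizer G o).equivMapOfInjective _ α.injective).toEquiv.symm
      rw [h1]
      have h2 := Subgroup.card_mul_index (MulAction.stabilizer G o)
      have h3 := Subgroup.card_mul_index (MulAction.stabilizer G ω)
      rw [MulAction.index_stabilizer_of_transitive] at h2 h3
      rw [← h2] at h3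
      have : Nonempty Ω := ⟨o⟩
      exact (Nat.eq_of_mul_eq_mul_right Nat.card_pos h3).le
    have hiff : ∀ g h : G, g • o = h • o ↔ α g • ω = α h • ω := by
      intro g h
      have e1 : g • o = h • o ↔ h⁻¹ * g ∈ MulAction.stabilizer G o := by
        rw [MulAction.mem_stabilizer_iff, mul_smul, inv_smul_eq_iff]
      have e2 : α g • ω = α h • ω ↔ (α h)⁻¹ * α g ∈ MulAction.stabilizer G ω := by
        rw [MulAction.mem_stabilizer_iff, mul_smul, inv_smul_eq_iff]
      rw [e1, e2, ← hst, ← map_inv, ← map_mul, Subgroup.mem_map]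
      constructor
      · intro h; exact ⟨_, h, rfl⟩
      · rintro ⟨x, hx, hx'⟩
        have := α.injective hx'
        rwa [← this]
    choose t ht using fun p : Ω => htr.exists_smul_eq o p
    let f : Ω → Ω := fun p => α (t p) • ω
    have hf : ∀ g : G, f (g • o) = α g • ω := by
      intro g
      exact (hiff (t (g • o)) g).1 (ht _)
    have hinj : Function.Injective f := by
      intro p q hpq
      obtain ⟨g, rfl⟩ := htr.exists_smul_eq o p
      obtain ⟨h, rfl⟩ := htr.exists_smul_eq o q
      rw [hf, hf] at hpq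
      exact (hiff g h).2 hpq
    let σ : Equiv.Perm Ω := Equiv.ofBijective f (Finite.injective_iff_bijective.1 hinj)
    have hσ : ∀ g : G, ((α g : G) : Equiv.Perm Ω) = σ * (g : Equiv.Perm Ω) * σ⁻¹ := by
      intro g
      rw [eq_mul_inv_iff_mul_eq]
      ext p
      obtain ⟨h, rfl⟩ := htr.exists_smul_eq o p
      change α g • f (h • o) = f (g • h • o)
      rw [hf, smul_smul g h, hf, map_mul, mul_smul]
    refine ⟨σ, ?_, hσ⟩
    rw [Subgroup.mem_set_normalizer_iff]
    intro g
    constructor
    · intro hg
      rw [← hσ ⟨g, hg⟩]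
      exact (α ⟨g, hg⟩).2
    · intro hg
      obtain ⟨k, hk⟩ := α.surjective ⟨_, hg⟩
      have h1 := hσ k
      rw [hk] at h1
      have h2 : σ * g * σ⁻¹ = σ * k * σ⁻¹ := h1
      have h3 : g = k := by
        have := mul_right_cancel h2
        exact mul_left_cancel this
      rw [h3]; exact k.2

end Cfsg.Agent.S4275
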