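import Cfsg.Statements.S4276
import Cfsg.Agent.S4275

set_option autoImplicit false

open Cfsg

namespace Cfsg.Agent.S4276

section arith

theorem arith {n k m : ℕ} {a b s l : ℤ} (hn : 2 ≤ n) (hk : 1 ≤ k) (hkn : k < n) (hm : Odd m)
    (hcop : k.Coprime n) (hl : 0 ≤ l) (h1 : (k : ℤ) = s + l) (h2 : (k : ℤ) ^ 2 = s + l * n)
    (h3 : (k : ℤ) ^ m = a + b * n) (h4 : a ^ 2 = s ^ m) : k = 1 ∨ k = n - 1 := by
  obtain ⟨j, rfl⟩ := hm
  -- s is a square
  obtain ⟨c, hc1, hc2⟩ : ∃ c : ℤ, s = c ^ 2 ∧ a = c ^ (2 * j + 1) := by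
    by_cases hs : s = 0
    · refine ⟨0, by rw [hs]; norm_num, ?_⟩
      rw [hs, zero_pow (by omega)] at h4
      rw [zero_pow (by omega)]
      exact pow_eq_zero_iff (two_ne_zero) |>.1 h4
    · have h5 : (s ^ j) ^ 2 ∣ a ^ 2 := ⟨s, by rw [h4]; ring⟩
      rw [Int.pow_dvd_pow_iff two_ne_zero] at h5
      obtain ⟨c, hc⟩ := h5
      have h6 : s = c ^ 2 := by
        have h7 : (s ^ j) ^ 2 * c ^ 2 = (s ^ j) ^ 2 * s := by
          rw [← mul_pow, ← hc, h4]; ring
        exact (mul_left_cancel₀ (pow_ne_zero _ (pow_ne_zero _ hs)) h7).symm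
      refine ⟨c, h6, ?_⟩
      rw [hc, h6]; ring
  subst hc2 hc1
  -- c ≡ k mod n
  have hcopZ : IsCoprime (k : ℤ) (n : ℤ) := Nat.isCoprime_iff_coprime.2 hcop
  have hmod2 : (n : ℤ) ∣ (k : ℤ) ^ 2 - c ^ 2 := ⟨l, by rw [h2]; ring⟩
  have hmodm : (n : ℤ) ∣ (k : ℤ) ^ (2 * j + 1) - c ^ (2 * j + 1) := ⟨b, by rw [h3]; ring⟩
  have hmod2j : (n : ℤ) ∣ (k : ℤ) ^ (2 * j) - c ^ (2 * j) := by
    rw [pow_mul, pow_mul]
    exact hmod2.trans (sub_dvd_pow_sub_pow _ _ j)
  have hck : (n : ℤ) ∣ (k : ℤ) ^ (2 * j) * ((k : ℤ) - c) := by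
    have : (k : ℤ) ^ (2 * j) * ((k : ℤ) - c) =
        ((k : ℤ) ^ (2 * j + 1) - c ^ (2 * j + 1)) - c * ((k : ℤ) ^ (2 * j) - c ^ (2 * j)) := by ring
    rw [this]
    exact dvd_sub hmodm (Dvd.dvd.mul_left hmod2j c)
  have hck' : (n : ℤ) ∣ (k : ℤ) - c :=
    (IsCoprime.dvd_of_dvd_mul_left (IsCoprime.pow_right hcopZ.symm) hck)
  obtain ⟨t, ht⟩ := hck'
  have hc2 : c ^ 2 ≤ k := by rw [h1]; linarith
  have hkc : c ≤ k := by nlinarith [sq_nonneg (c - 1), sq_nonneg c]
  have hkc' : -(k : ℤ) ≤ c := by nlinarith [sq_nonneg (c + 1), sq_nonneg c]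
  have hnZ : (2 : ℤ) ≤ n := by exact_mod_cast hn
  have hkZ : (1 : ℤ) ≤ k := by exact_mod_cast hk
  have hknZ : (k : ℤ) < n := by exact_mod_cast hkn
  have ht0 : 0 ≤ t := by
    by_contra h
    push Not at h
    nlinarith
  have ht2 : t < 2 := by
    by_contra h
    push Not at h
    nlinarith
  have ht01 : t = 0 ∨ t = 1 := by omega
  rcases ht01 with ht' | ht'
  · left
    rw [ht', mul_zero] at ht
    have : c = k := by linarith
    rw [this] at hc2
    have : (k : ℤ) = 1 := by nlinarith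
    exact_mod_cast this
  · right
    rw [ht', mul_one] at ht
    have hc : c = k - n := by linarith
    rw [hc] at h1 h2
    have h5 : l * n = (2 * k - n) * n := by linarith
    have h6 : l = 2 * k - n := mul_right_cancel₀ (by linarith) h5
    rw [h6] at h1
    have h7 : ((n : ℤ) - k) * ((n : ℤ) - k - 1) = 0 := by linarith
    rcases mul_eq_zero.1 h7 with h8 | h8
    · linarith
    · have : (k : ℤ) = n - 1 := by linarith
      omega

end arith

section mat

open Matrix

variable {Ω : Type*} [Fintype Ω] [DecidableEq Ω]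

/-- all-ones matrix -/
def J (Ω : Type*) : Matrix Ω Ω ℤ := Matrix.of fun _ _ => 1

theorem J_mul_J : J Ω * J Ω = (Fintype.card Ω : ℤ) • J Ω := by
  ext p q
  simp [J, Matrix.mul_apply]

theorem mat_form {Γ : Type*} [Group Γ] [MulAction Γ Ω] (h2 : MulAction.IsMultiplyPretransitive Γ Ω 2)
    (o : Ω) (M : Matrix Ω Ω ℤ) (hM : ∀ (g : Γ) (p q : Ω), M (g • p) (g • q) = M p q) :
    ∃ a b : ℤ, M = a • (1 : Matrix Ω Ω ℤ) + b • J Ω := by
  have htr : MulAction.IsPretransitive Γ Ω := MulAction.isPretransitive_of_is_two_pretransitive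
  rw [MulAction.is_two_pretransitive_iff] at h2
  by_cases h : ∃ p : Ω, p ≠ o
  · obtain ⟨p, hp⟩ := h
    refine ⟨M o o - M p o, M p o, ?_⟩
    ext x y
    simp only [Matrix.add_apply, Matrix.smul_apply, J, Matrix.of_apply, smul_eq_mul, mul_one]
    by_cases hxy : x = y
    · subst hxy
      obtain ⟨g, rfl⟩ := htr.exists_smul_eq o x
      rw [hM, Matrix.one_apply_eq]; ring
    · obtain ⟨g, hg1, hg2⟩ := h2 hp hxy
      rw [← hg1, ← hg2, hM, Matrix.one_apply_ne (by rw [hg1, hg2]; exact hxy)]; ring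
  · push Not at h
    refine ⟨M o o, 0, ?_⟩
    ext x y
    rw [h x, h y]
    simp only [Matrix.add_apply, Matrix.smul_apply, Matrix.one_apply_eq, smul_eq_mul, mul_one,
      zero_mul, add_zero]

theorem pow_form (A : Matrix Ω Ω ℤ) (k s l : ℤ) (hAJ : A * J Ω = k • J Ω)
    (hJA : J Ω * Aᵀ = k • J Ω)
    (hAA : A * Aᵀ = s • (1 : Matrix Ω Ω ℤ) + l • J Ω) (m : ℕ) :
    ∃ c : ℤ, A ^ m * (Aᵀ) ^ m = s ^ m • (1 : Matrix Ω Ω ℤ) + c • J Ω := by
  have h1 : ∀ m : ℕ, A ^ m * J Ω = k ^ m • J Ω := by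
    intro m
    induction m with
    | zero => simp
    | succ m ih => rw [pow_succ, mul_assoc, hAJ, Matrix.mul_smul, ih, smul_smul, pow_succ, mul_comm k]
  have h2 : ∀ m : ℕ, J Ω * (Aᵀ) ^ m = k ^ m • J Ω := by
    intro m
    induction m with
    | zero => simp
    | succ m ih => rw [pow_succ', ← mul_assoc, hJA, Matrix.smul_mul, ih, smul_smul, pow_succ, mul_comm k]
  induction m with
  | zero => exact ⟨0, by simp⟩
  | succ m ih =>
    obtain ⟨c, hc⟩ := ih
    refine ⟨s * c + l * (k ^ m * k ^ m), ?_⟩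
    have : A ^ (m + 1) * Aᵀ ^ (m + 1) = A ^ m * (A * Aᵀ) * Aᵀ ^ m := by
      rw [pow_succ, pow_succ']
      simp only [mul_assoc]
    rw [this, hAA, mul_add, add_mul, Matrix.mul_smul, mul_one, Matrix.smul_mul, hc,
      Matrix.mul_smul, h1, Matrix.smul_mul, Matrix.smul_mul, h2]
    simp only [smul_add, smul_smul, add_smul, pow_succ, mul_comm s, add_assoc]

theorem extract (hn : 2 ≤ Fintype.card Ω) (a b c d : ℤ)
    (h : a • (1 : Matrix Ω Ω ℤ) + b • J Ω = c • (1 : Matrix Ω Ω ℤ) + d • J Ω) : a = c ∧ b = d := by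
  have : 1 < Fintype.card Ω := hn
  rw [Fintype.one_lt_card_iff] at this
  obtain ⟨p, q, hpq⟩ := this
  have h1 := congrFun (congrFun h p) q
  have h2 := congrFun (congrFun h p) p
  simp only [Matrix.add_apply, Matrix.smul_apply, J, Matrix.of_apply, smul_eq_mul, mul_one,
    Matrix.one_apply_eq, Matrix.one_apply_ne hpq, mul_zero, zero_add] at h1 h2
  constructor
  · linarith
  · exact h1

end mat

section main

open Matrix

variable {Ω : Type*} [Fintype Ω] [DecidableEq Ω] (G : Subgroup (Equiv.Perm Ω))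

theorem orbit_card (h2 : MulAction.IsMultiplyPretransitive G Ω 2) (o : Ω) (α : MulAut G)
    (hα : Odd (orderOf α)) (ω : Ω)
    (hk : (Nat.card (MulAction.orbit ((MulAction.stabilizer G o).map α.toMonoidHom) ω)).Coprime (Fintype.card Ω)) :
    (Nat.card (MulAction.orbit ((MulAction.stabilizer G o).map α.toMonoidHom) ω) = 1 ∨
      Nat.card (MulAction.orbit ((MulAction.stabilizer G o).map α.toMonoidHom) ω) = Fintype.card Ω - 1) := by
  classical
  have htr : MulAction.IsPretransitive G Ω := MulAction.isPretransitive_of_is_two_pretransitive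
  set H' := (MulAction.stabilizer G o).map α.toMonoidHom with hH'
  set O : Set Ω := MulAction.orbit H' ω with hO
  set k := Nat.card O with hkdef
  have hkpos : 1 ≤ k := by
    have : Nonempty O := ⟨⟨ω, MulAction.mem_orbit_self ω⟩⟩
    exact Nat.card_pos
  have hkle : k ≤ Fintype.card Ω := by
    rw [← Nat.card_eq_fintype_card]
    exact Nat.card_le_card_of_injective _ Subtype.val_injective
  by_cases hn : Fintype.card Ω < 2
  · left; omega
  push Not at hn
  have hklt : k < Fintype.card Ω := by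
    rcases hkle.lt_or_eq with h | h
    · exact h
    · rw [h, Nat.coprime_self] at hk; omega
  -- sections
  choose t ht using fun p : Ω => htr.exists_smul_eq o p
  -- membership of g-translates
  have hOinv : ∀ h ∈ H', ∀ p : Ω, h • p ∈ O ↔ p ∈ O := by
    intro h hh p
    constructor
    · intro hp
      have := MulAction.mem_orbit_of_mem_orbit (⟨h, hh⟩⁻¹ : H') hp
      change (h⁻¹ • (h • p)) ∈ O at this
      rwa [inv_smul_smul] at this
    · intro hp
      exact MulAction.mem_orbit_of_mem_orbit (⟨h, hh⟩ : H') hp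
  have hwd : ∀ (g h : G) (p : Ω), g • o = h • o → ((α g)⁻¹ • p ∈ O ↔ (α h)⁻¹ • p ∈ O) := by
    intro g h p hgh
    have h1 : h⁻¹ * g ∈ MulAction.stabilizer G o := by
      rw [MulAction.mem_stabilizer_iff, mul_smul, hgh, inv_smul_smul]
    have h2 : α (h⁻¹ * g) ∈ H' := ⟨_, h1, rfl⟩
    rw [← hOinv _ h2 ((α g)⁻¹ • p), map_mul, map_inv, mul_smul, smul_inv_smul]
  let A : Matrix Ω Ω ℤ := Matrix.of fun p q => if (α (t q))⁻¹ • p ∈ O then 1 else 0
  have hA : ∀ (g : G) (p : Ω), A p (g • o) = if (α g)⁻¹ • p ∈ O then 1 else 0 := by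
    intro g p
    simp only [A, Matrix.of_apply]
    have := hwd (t (g • o)) g p (ht _)
    simp only [this]
  have hAinv : ∀ (g : G) (p q : Ω), A (α g • p) (g • q) = A p q := by
    intro g p q
    obtain ⟨h, rfl⟩ := htr.exists_smul_eq o q
    rw [smul_smul, hA, hA, map_mul, _root_.mul_inv_rev, mul_smul, inv_smul_smul]
  have hpow : ∀ (j : ℕ) (g : G) (p q : Ω), (A ^ j) ((α ^ j) g • p) (g • q) = (A ^ j) p q := by
    intro j
    induction j with
    | zero =>
      intro g p q
      simp only [pow_zero, MulAut.one_apply, Matrix.one_apply, smul_left_cancel_iff]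
    | succ j ih =>
      intro g p q
      rw [pow_succ', pow_succ', Matrix.mul_apply, Matrix.mul_apply]
      rw [← Equiv.sum_comp (MulAction.toPerm ((α ^ j) g))]
      apply Finset.sum_congr rfl
      intro r _
      rw [MulAction.toPerm_apply, ih, MulAut.mul_apply, hAinv]
  -- A A^T
  have hAAinv : ∀ (g : G) (p q : Ω), (A * Aᵀ) (g • p) (g • q) = (A * Aᵀ) p q := by
    intro g p q
    obtain ⟨h, rfl⟩ := α.surjective g
    rw [Matrix.mul_apply, Matrix.mul_apply, ← Equiv.sum_comp (MulAction.toPerm h)]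
    apply Finset.sum_congr rfl
    intro r _
    rw [MulAction.toPerm_apply, Matrix.transpose_apply, Matrix.transpose_apply, hAinv, hAinv]
  obtain ⟨s, l, hsl⟩ := mat_form h2 o (A * Aᵀ) hAAinv
  obtain ⟨a, b, hab⟩ := mat_form h2 o (A ^ orderOf α) (by
    intro g p q
    have := hpow (orderOf α) g p q
    rwa [pow_orderOf_eq_one, MulAut.one_apply] at this)
  -- column sums
  have hcol : ∀ q, ∑ p, A p q = k := by
    intro q
    obtain ⟨g, rfl⟩ := htr.exists_smul_eq o q
    rw [← Equiv.sum_comp (MulAction.toPerm (α g))]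
    simp only [MulAction.toPerm_apply, hA, inv_smul_smul]
    rw [Finset.sum_ite, Finset.sum_const_zero, add_zero, Finset.sum_const, nsmul_eq_mul, mul_one]
    rw [hkdef, Nat.card_eq_fintype_card, Fintype.card_subtype]
  have hrow : ∀ p, ∑ q, A p q = k := by
    have hc : ∀ p p', ∑ q, A p q = ∑ q, A p' q := by
      intro p p'
      obtain ⟨g', hg'⟩ := htr.exists_smul_eq p p'
      obtain ⟨g, rfl⟩ := α.surjective g'
      rw [← hg', ← Equiv.sum_comp (MulAction.toPerm g) (fun q => A (α g • p) q)]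
      apply Finset.sum_congr rfl
      intro q _
      rw [MulAction.toPerm_apply, hAinv]
    intro p
    have h1 : ∑ q, ∑ p, A p q = Fintype.card Ω * k := by
      simp only [hcol, Finset.sum_const, Finset.card_univ, nsmul_eq_mul]
    rw [Finset.sum_comm] at h1
    have h3 : ∑ p', ∑ q, A p' q = Fintype.card Ω * ∑ q, A p q := by
      rw [Finset.sum_congr rfl (fun p' _ => hc p' p)]
      simp only [Finset.sum_const, Finset.card_univ, nsmul_eq_mul]
    rw [h3] at h1
    exact mul_left_cancel₀ (by positivity) h1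
  have hAJ : A * J Ω = (k : ℤ) • J Ω := by
    ext p q
    simp only [Matrix.mul_apply, J, Matrix.of_apply, mul_one, Matrix.smul_apply, smul_eq_mul, hrow]
  have hJA : J Ω * Aᵀ = (k : ℤ) • J Ω := by
    ext p q
    simp only [Matrix.mul_apply, J, Matrix.of_apply, one_mul, Matrix.transpose_apply,
      Matrix.smul_apply, smul_eq_mul, mul_one, hrow]
  have hJA' : Aᵀ * J Ω = (k : ℤ) • J Ω := by
    ext p q
    simp only [Matrix.mul_apply, J, Matrix.of_apply, mul_one, Matrix.transpose_apply,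
      Matrix.smul_apply, smul_eq_mul, hcol]
  -- numeric relations
  have hJne : ∀ x y : ℤ, x • J Ω = y • J Ω → x = y := by
    intro x y h
    have := congrFun (congrFun h o) o
    simpa [J] using this
  have e2 : (k : ℤ) ^ 2 = s + l * Fintype.card Ω := by
    apply hJne
    have h1 : A * Aᵀ * J Ω = (k : ℤ) ^ 2 • J Ω := by
      rw [mul_assoc, hJA', Matrix.mul_smul, hAJ, smul_smul, pow_two]
    rw [← h1, hsl, add_mul, Matrix.smul_mul, one_mul, Matrix.smul_mul, J_mul_J, smul_smul, add_smul]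
  have e1 : (k : ℤ) = s + l := by
    have h1 := congrFun (congrFun hsl o) o
    simp only [Matrix.add_apply, Matrix.smul_apply, J, Matrix.of_apply, smul_eq_mul, mul_one,
      Matrix.one_apply_eq, Matrix.mul_apply, Matrix.transpose_apply] at h1
    rw [← h1, ← hrow o]
    apply Finset.sum_congr rfl
    intro q _
    simp only [A, Matrix.of_apply]
    split_ifs <;> simp
  have el : 0 ≤ l := by
    have : 1 < Fintype.card Ω := hn
    rw [Fintype.one_lt_card_iff] at this
    obtain ⟨p, q, hpq⟩ := this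
    have h1 := congrFun (congrFun hsl p) q
    simp only [Matrix.add_apply, Matrix.smul_apply, J, Matrix.of_apply, smul_eq_mul, mul_one,
      Matrix.one_apply_ne hpq, Matrix.mul_apply, Matrix.transpose_apply, mul_zero, zero_add] at h1
    rw [← h1]
    apply Finset.sum_nonneg
    intro r _
    simp only [A, Matrix.of_apply]
    split_ifs <;> simp
  have e3 : (k : ℤ) ^ (orderOf α) = a + b * Fintype.card Ω := by
    apply hJne
    have h1 : ∀ m : ℕ, A ^ m * J Ω = (k : ℤ) ^ m • J Ω := by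
      intro m
      induction m with
      | zero => simp
      | succ m ih => rw [pow_succ, mul_assoc, hAJ, Matrix.mul_smul, ih, smul_smul, pow_succ, mul_comm (k : ℤ)]
    rw [← h1, hab, add_mul, Matrix.smul_mul, one_mul, Matrix.smul_mul, J_mul_J, smul_smul, add_smul]
  have e4 : a ^ 2 = s ^ orderOf α := by
    obtain ⟨c, hc⟩ := pow_form A k s l hAJ hJA hsl (orderOf α)
    have hJt : (J Ω)ᵀ = J Ω := by
      ext p q; simp [J]
    rw [← Matrix.transpose_pow, hab, Matrix.transpose_add, Matrix.transpose_smul, Matrix.transpose_smul,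
      Matrix.transpose_one, hJt] at hc
    have h5 : (a • (1 : Matrix Ω Ω ℤ) + b • J Ω) * (a • (1 : Matrix Ω Ω ℤ) + b • J Ω) =
        (a ^ 2) • (1 : Matrix Ω Ω ℤ) + (2 * a * b + b * b * Fintype.card Ω) • J Ω := by
      simp only [add_mul, mul_add, Matrix.smul_mul, Matrix.mul_smul, one_mul, mul_one, J_mul_J,
        smul_smul, add_smul]
      ext p q
      simp only [Matrix.add_apply, Matrix.smul_apply, smul_eq_mul]
      ring
    rw [h5] at hc
    exact (extract hn _ _ _ _ hc).1
  exact arith hn hkpos hklt hα hk el e1 e2 e3 e4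

end main

/-- Let G be a doubly transitive group of permutations of a finite set Ω of size n, let o ∈ Ω, and let α be an automorphism of G of odd order. Suppose that the image under α of the stabilizer of o has an orbit on Ω whose length k is coprime to n. Then α is induced by conjugation by a permutation of Ω normalizing G, and k = 1 or k = n − 1. -/
theorem result {Ω : Type*} [Fintype Ω] (G : Subgroup (Equiv.Perm Ω)) (h2 : MulAction.IsMultiplyPretransitive G Ω 2) (o : Ω) (α : MulAut G) (hα : Odd (orderOf α)) (ω : Ω) (hk : (Nat.card (MulAction.orbit ((MulAction.stabilizer G o).map α.toMonoidHom) ω)).Coprime (Fintype.card Ω)) : (∃ σ : Equiv.Perm Ω, σ ∈ Subgroup.normalizer (G : Set (Equiv.Perm Ω)) ∧ ∀ g : G, ((α g : G) : Equiv.Perm Ω) = σ * (g : Equiv.Perm Ω) * σ⁻¹) ∧ (Nat.card (MulAction.orbit ((MulAction.stabilizer G o).map α.toMonoidHom) ω) = 1 ∨ Nat.card (MulAction.orbit ((MulAction.stabilizer G o).map α.toMonoidHom) ω) = Fintype.card Ω - 1) := by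
  classical
  have h := orbit_card G h2 o α hα ω hk
  refine ⟨?_, h⟩
  have htr : MulAction.IsPretransitive G Ω := MulAction.isPretransitive_of_is_two_pretransitive
  rw [Cfsg.Agent.S4275.result G htr o α]
  set H' := (MulAction.stabilizer G o).map α.toMonoidHom with hH'
  rcases h with h | h
  · refine ⟨ω, fun g hg => ?_⟩
    rw [Nat.card_eq_one_iff_unique] at h
    obtain ⟨h1, -⟩ := h
    have e1 : g • ω ∈ MulAction.orbit H' ω := ⟨⟨g, hg⟩, rfl⟩
    have := h1.elim ⟨_, e1⟩ ⟨ω, MulAction.mem_orbit_self ω⟩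
    exact congrArg Subtype.val this
  · have hcard : 0 < Fintype.card Ω := Fintype.card_pos_iff.2 ⟨o⟩
    have h3 : (MulAction.orbit H' ω)ᶜ.ncard = 1 := by
      rw [Set.ncard_compl, Nat.card_eq_fintype_card]
      change Nat.card _ = _ at h
      rw [Nat.card_coe_set_eq] at h
      omega
    rw [Set.ncard_eq_one] at h3
    obtain ⟨p, hp⟩ := h3
    refine ⟨p, fun g hg => ?_⟩
    have hp1 : p ∉ MulAction.orbit H' ω := by
      have : p ∈ (MulAction.orbit H' ω)ᶜ := by rw [hp]; rfl
      exact this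
    have hp2 : g • p ∈ (MulAction.orbit H' ω)ᶜ := by
      intro h4
      apply hp1
      have := MulAction.mem_orbit_of_mem_orbit (⟨g, hg⟩⁻¹ : H') h4
      change (g⁻¹ • (g • p)) ∈ MulAction.orbit H' ω at this
      rwa [inv_smul_smul] at this
    rw [hp] at hp2
    exact hp2

end Cfsg.Agent.S4276
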