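import Cfsg.Statements.S4277
import Cfsg.Agent.S4290
import Cfsg.Agent.S0675

set_option autoImplicit false

open Cfsg

namespace Cfsg.Agent.S4277

section key

variable {Ω : Type*} [Fintype Ω] (G : Subgroup (Equiv.Perm Ω))

theorem card_P (hp : (Fintype.card Ω).Prime) (htr : MulAction.IsPretransitive G Ω) (o : Ω)
    (P : Sylow (Fintype.card Ω) G) : Nat.card P = Fintype.card Ω := by
  classical
  have hf : Fact (Fintype.card Ω).Prime := ⟨hp⟩
  have h1 : Fintype.card Ω ∣ Nat.card G := by
    have := MulAction.index_stabilizer_of_transitive (G := G) (X := Ω) (x := o)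
    rw [Nat.card_eq_fintype_card (α := Ω)] at this
    rw [← this]
    exact Subgroup.index_dvd_card _
  have h2 : ¬ (Fintype.card Ω) ^ 2 ∣ Nat.card G := by
    intro h
    have h3 : Nat.card G ∣ Nat.card (Equiv.Perm Ω) := Subgroup.card_subgroup_dvd_card G
    rw [Nat.card_perm, Nat.card_eq_fintype_card (α := Ω)] at h3
    have h4 := h.trans h3
    obtain ⟨m, hm⟩ := Nat.exists_eq_succ_of_ne_zero hp.ne_zero
    rw [hm] at h4 hp
    rw [Nat.factorial_succ, pow_two] at h4
    have h5 : m.succ ∣ m.factorial := (Nat.mul_dvd_mul_iff_left (Nat.succ_pos m)).1 h4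
    rw [hp.dvd_factorial] at h5
    omega
  obtain ⟨n, hn⟩ := IsPGroup.iff_card.1 P.isPGroup'
  have h3 := P.dvd_card_of_dvd_card h1
  change Nat.card P = _ ^ n at hn
  have h4 : n ≠ 0 := by
    rintro rfl
    change _ ∣ Nat.card P at h3
    rw [hn, pow_zero] at h3
    exact hp.one_lt.ne' (Nat.dvd_one.1 h3)
  have h5 : n < 2 := by
    by_contra h
    apply h2
    have h6 : (Fintype.card Ω) ^ 2 ∣ (Fintype.card Ω) ^ n := pow_dvd_pow _ (not_lt.1 h)
    rw [← hn] at h6
    exact h6.trans (Subgroup.card_subgroup_dvd_card (P : Subgroup G))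
  have h6 : n = 1 := by omega
  rw [hn, h6, pow_one]

theorem inner_of_odd (hp : (Fintype.card Ω).Prime) (h2 : MulAction.IsMultiplyPretransitive G Ω 2) (o : Ω)
    (P : Sylow (Fintype.card Ω) G) (α : MulAut G) (hα : Odd (orderOf α))
    (hfix : ∀ x ∈ (P : Subgroup G), α x = x) : α ∈ Inn G := by
  classical
  have hf : Fact (Fintype.card Ω).Prime := ⟨hp⟩
  have htr : MulAction.IsPretransitive G Ω := MulAction.isPretransitive_of_is_two_pretransitive
  have hcard := card_P G hp htr o P
  -- Hall
  have hHall : (Nat.card (MulAction.stabilizer G o)).Coprime (MulAction.stabilizer G o).index := by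
    rw [MulAction.index_stabilizer_of_transitive, Nat.card_eq_fintype_card (α := Ω), Nat.coprime_comm,
      Nat.Prime.coprime_iff_not_dvd hp]
    intro h
    have h3 := Subgroup.card_mul_index (MulAction.stabilizer G o)
    rw [MulAction.index_stabilizer_of_transitive, Nat.card_eq_fintype_card (α := Ω)] at h3
    have h4 : (Fintype.card Ω) ^ 2 ∣ Nat.card G := by
      rw [← h3, pow_two]; exact Nat.mul_dvd_mul_right h _
    have h5 := P.pow_dvd_card_of_pow_dvd_card h4
    change _ ∣ Nat.card P at h5
    rw [hcard, pow_two] at h5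
    have h6 := Nat.le_of_dvd hp.pos h5
    have := hp.one_lt
    nlinarith
  obtain ⟨σ, -, hσ⟩ := Cfsg.Agent.S4290.result G h2 o hHall α hα
  -- an element of order p
  obtain ⟨x, hx⟩ : ∃ x : (P : Subgroup G), orderOf x = Fintype.card Ω := by
    obtain ⟨x, hx⟩ := exists_prime_orderOf_dvd_card' (G := (P : Subgroup G)) (Fintype.card Ω)
      (by change _ ∣ Nat.card P; rw [hcard])
    exact ⟨x, hx⟩
  let τ : Equiv.Perm Ω := ((x : G) : Equiv.Perm Ω)
  have hτo : orderOf τ = Fintype.card Ω := by
    rw [Subgroup.orderOf_coe, Subgroup.orderOf_coe, hx]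
  have hτc : τ.IsCycle := Equiv.Perm.isCycle_of_prime_order'' hp hτo
  have hτs : τ.support = Finset.univ := Finset.eq_univ_of_card τ.support (hτc.orderOf.symm.trans hτo)
  have hcomm : σ * τ = τ * σ := by
    have h3 := hσ x
    rw [hfix x x.2] at h3
    change τ = σ * τ * σ⁻¹ at h3
    conv_rhs => rw [h3]
    group
  have htrans : ∀ a b : Ω, ∃ i : ℤ, (τ ^ i) a = b := by
    intro a b
    have ha : τ a ≠ a := by
      rw [← Equiv.Perm.mem_support, hτs]; exact Finset.mem_univ _
    have hb : τ b ≠ b := by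
      rw [← Equiv.Perm.mem_support, hτs]; exact Finset.mem_univ _
    exact hτc.exists_zpow_eq ha hb
  obtain ⟨i, hi⟩ := htrans o (σ o)
  have hστ : σ = τ ^ i := by
    ext b
    obtain ⟨j, rfl⟩ := htrans o b
    have hc : Commute σ (τ ^ j) := Commute.zpow_right hcomm j
    have h4 : σ ((τ ^ j) o) = (τ ^ j) (σ o) := by
      rw [← Equiv.Perm.mul_apply, hc.eq, Equiv.Perm.mul_apply]
    rw [h4, ← hi, ← Equiv.Perm.mul_apply, ← Equiv.Perm.mul_apply, ← zpow_add, ← zpow_add, add_comm]
  refine ⟨(x : G) ^ i, ?_⟩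
  ext g : 1
  rw [MulAut.conj_apply]
  apply Subtype.ext
  rw [hσ g, hστ]
  rfl

open scoped Pointwise in
theorem out_solvable (hp : (Fintype.card Ω).Prime) (h2 : MulAction.IsMultiplyPretransitive G Ω 2) (o : Ω) :
    Group.IsSolvable (Out G) := by
  classical
  have hf : Fact (Fintype.card Ω).Prime := ⟨hp⟩
  have htr : MulAction.IsPretransitive G Ω := MulAction.isPretransitive_of_is_two_pretransitive
  have P : Sylow (Fintype.card Ω) G := default
  have hcard := card_P G hp htr o P
  have hcyc : IsCyclic (P : Subgroup G) := isCyclic_of_prime_card (p := Fintype.card Ω) hcard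
  let q : MulAut G →* Out G := QuotientGroup.mk' (Inn G)
  let C : Subgroup (MulAut G) :=
    { carrier := {α | ∀ x ∈ (P : Subgroup G), α x = x}
      one_mem' := fun x _ => rfl
      mul_mem' := by
        intro a b ha hb x hx
        rw [MulAut.mul_apply, hb x hx, ha x hx]
      inv_mem' := by
        intro a ha x hx
        have := ha x hx
        conv_lhs => rw [← this]
        exact MulAut.inv_apply_self G a x }
  have hCmem : ∀ α : MulAut G, α ∈ C ↔ ∀ x ∈ (P : Subgroup G), α x = x := fun α => Iff.rfl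
  let I : Subgroup (Out G) := C.map q
  -- representatives normalising P
  have hrep : ∀ y : Out G, ∃ β : MulAut G, q β = y ∧ ∀ x, β x ∈ (P : Subgroup G) ↔ x ∈ (P : Subgroup G) := by
    intro y
    obtain ⟨α, rfl⟩ := QuotientGroup.mk'_surjective (Inn G) y
    -- α P is Sylow
    let Q : Sylow (Fintype.card Ω) G := P.mapSurjective (f := α.toMonoidHom) α.surjective
    obtain ⟨g, hg⟩ := MulAction.exists_smul_eq G Q P
    refine ⟨MulAut.conj g * α, ?_, ?_⟩
    · rw [map_mul]
      have : q (MulAut.conj g) = 1 := by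
        change QuotientGroup.mk' (Inn G) _ = 1
        rw [← MonoidHom.mem_ker, QuotientGroup.ker_mk']
        exact ⟨g, rfl⟩
      rw [this, one_mul]
    · intro x
      have h3 : (P : Subgroup G) = MulAut.conj g • (Q : Subgroup G) := by
        rw [← Sylow.coe_subgroup_smul, hg]
      have h4 : (MulAut.conj g * α) x ∈ (P : Subgroup G) ↔ α x ∈ (Q : Subgroup G) := by
        conv_lhs => rw [h3]
        rw [MulAut.mul_apply, ← MulAut.smul_def (MulAut.conj g) (α x),
          Subgroup.smul_mem_pointwise_smul_iff]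
      rw [h4]
      change α x ∈ (P : Subgroup G).map α.toMonoidHom ↔ _
      constructor
      · rintro ⟨y, hy, hxy⟩
        have : y = x := α.injective hxy
        rwa [← this]
      · intro hx
        exact ⟨x, hx, rfl⟩
  have hIn : I.Normal := by
    refine ⟨?_⟩
    rintro _ ⟨γ, hγ, rfl⟩ y
    obtain ⟨β, rfl, hβ⟩ := hrep y
    rw [← map_inv, ← map_mul, ← map_mul]
    refine ⟨β * γ * β⁻¹, ?_, rfl⟩
    intro x hx
    rw [MulAut.mul_apply, MulAut.mul_apply]
    have h3 : β⁻¹ x ∈ (P : Subgroup G) := by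
      rw [← hβ, MulAut.apply_inv_self]; exact hx
    rw [hγ _ h3, MulAut.apply_inv_self]
  -- I is a 2-group
  have hI2 : IsPGroup 2 I := by
    rintro ⟨_, γ, hγ, rfl⟩
    -- γ has order 2^k * m with m odd
    obtain ⟨k, m, hm, hkm⟩ := Nat.exists_eq_two_pow_mul_odd (n := orderOf γ) (orderOf_pos γ).ne'
    refine ⟨k, ?_⟩
    have h3 : orderOf (γ ^ 2 ^ k) = m := by
      rw [orderOf_pow, hkm, Nat.gcd_mul_right_left]
      exact Nat.mul_div_cancel_left m (by positivity)
    have h4 : γ ^ 2 ^ k ∈ Inn G := by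
      apply inner_of_odd G hp h2 o P
      · rw [h3]; exact hm
      · exact C.pow_mem hγ _
    apply Subtype.ext
    change (q γ) ^ 2 ^ k = 1
    rw [← map_pow, ← MonoidHom.mem_ker]
    change _ ∈ (QuotientGroup.mk' (Inn G)).ker
    rw [QuotientGroup.ker_mk']
    exact h4
  have hf2 : Fact (Nat.Prime 2) := ⟨Nat.prime_two⟩
  have hIs : Group.IsSolvable I := by
    have := hI2.isNilpotent
    infer_instance
  have hQs : Group.IsSolvable (Out G ⧸ I) := by
    apply Group.isSolvable_of_comm
    intro a b
    obtain ⟨a', rfl⟩ := QuotientGroup.mk'_surjective I a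
    obtain ⟨b', rfl⟩ := QuotientGroup.mk'_surjective I b
    obtain ⟨β, rfl, hβ⟩ := hrep a'
    obtain ⟨γ, rfl, hγ⟩ := hrep b'
    rw [← map_mul, ← map_mul, ← map_mul, ← map_mul]
    have hk : β * γ = γ * β * (β⁻¹ * γ⁻¹ * β * γ) := by group
    rw [hk, map_mul, map_mul]
    have h3 : β⁻¹ * γ⁻¹ * β * γ ∈ C := by
      -- automorphisms of the cyclic group P commute
      have hzp : ∀ δ : MulAut G, (∀ x, δ x ∈ (P : Subgroup G) ↔ x ∈ (P : Subgroup G)) →
          ∃ n : ℤ, ∀ x ∈ (P : Subgroup G), δ x = x ^ n := by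
        intro δ hδ
        obtain ⟨g, hg⟩ := hcyc.exists_generator
        obtain ⟨n, hn⟩ := Subgroup.mem_zpowers_iff.1 (hg ⟨δ g, (hδ g).2 g.2⟩)
        refine ⟨n, fun x hx => ?_⟩
        obtain ⟨j, hj⟩ := Subgroup.mem_zpowers_iff.1 (hg ⟨x, hx⟩)
        have hj' : (g : G) ^ j = x := by
          have := congrArg Subtype.val hj
          simpa using this
        have hn' : (g : G) ^ n = δ g := by
          have := congrArg Subtype.val hn
          simpa using this
        rw [← hj', map_zpow, ← hn', ← zpow_mul, ← zpow_mul, mul_comm]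
      obtain ⟨n, hn⟩ := hzp β hβ
      obtain ⟨m, hm⟩ := hzp γ hγ
      intro x hx
      have e1 : (β * γ) x = (γ * β) x := by
        rw [MulAut.mul_apply, MulAut.mul_apply, hm x hx, hn x hx, map_zpow, map_zpow, hn x hx,
          hm x hx, ← zpow_mul, ← zpow_mul, mul_comm]
      have e2 : β⁻¹ * γ⁻¹ * β * γ = (γ * β)⁻¹ * (β * γ) := by group
      rw [e2, MulAut.mul_apply, e1, MulAut.inv_apply_self]
    have h4 : (QuotientGroup.mk' I) (q (β⁻¹ * γ⁻¹ * β * γ)) = 1 := by
      rw [← MonoidHom.mem_ker, QuotientGroup.ker_mk']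
      exact ⟨_, h3, rfl⟩
    rw [h4, mul_one]
  exact (Group.isSolvable_iff_subgroup_quotient I).2 ⟨hIs, hQs⟩

end key

/-- Out is invariant under isomorphism -/
theorem out_congr {G H : Type*} [Group G] [Group H] (e : G ≃* H) (h : Group.IsSolvable (Out H)) :
    Group.IsSolvable (Out G) := by
  let f : MulAut G →* Out H := (QuotientGroup.mk' (Inn H)).comp (MulAut.congr e).toMonoidHom
  have hf : f.ker ≤ Inn G := by
    intro α hα
    rw [MonoidHom.mem_ker] at hα
    change (QuotientGroup.mk' (Inn H)) (MulAut.congr e α) = 1 at hα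
    rw [← MonoidHom.mem_ker, QuotientGroup.ker_mk'] at hα
    obtain ⟨h, hh⟩ := hα
    refine ⟨e.symm h, ?_⟩
    ext g
    have h1 := congrArg (fun β : MulAut H => e.symm (β (e g))) hh
    simpa using h1
  have hf' : Inn G ≤ f.ker := by
    rintro _ ⟨g, rfl⟩
    rw [MonoidHom.mem_ker]
    change (QuotientGroup.mk' (Inn H)) (MulAut.congr e (MulAut.conj g)) = 1
    rw [← MonoidHom.mem_ker, QuotientGroup.ker_mk']
    refine ⟨e g, ?_⟩
    ext h
    simp
  let φ : Out G →* Out H := QuotientGroup.lift (Inn G) f (fun x hx => hf' hx)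
  have hφ : Function.Injective φ := by
    rw [injective_iff_map_eq_one]
    intro x hx
    obtain ⟨α, rfl⟩ := QuotientGroup.mk'_surjective (Inn G) x
    have : f α = 1 := hx
    rw [← MonoidHom.mem_ker, QuotientGroup.ker_mk']
    exact hf this
  exact Group.isSolvable_of_isSolvable_injective hφ

/-- A case of the Schreier conjecture: if a finite simple group G has a subgroup of prime index, then the outer automorphism group of G is solvable. -/
theorem result {G : Type*} [Group G] [Finite G] [IsSimpleGroup G] (H : Subgroup G) (hH : H.index.Prime) : Group.IsSolvable (Cfsg.Out G) := by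
  classical
  have := Fintype.ofFinite (G ⧸ H)
  let f : G →* Equiv.Perm (G ⧸ H) := MulAction.toPermHom G (G ⧸ H)
  have hker : f.ker = ⊥ := by
    rcases (inferInstance : f.ker.Normal).eq_bot_or_eq_top with h | h
    · exact h
    · exfalso
      have h1 : H = ⊤ := by
        rw [eq_top_iff, ← h]
        have : f.ker = H.normalCore := Subgroup.normalCore_eq_ker H ▸ rfl
        rw [this]
        exact Subgroup.normalCore_le H
      rw [h1, Subgroup.index_top] at hH
      exact Nat.not_prime_one hH
  have hinj : Function.Injective f := (MonoidHom.ker_eq_bot_iff f).1 hker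
  let e : G ≃* f.range := MonoidHom.ofInjective hinj
  have hcard : Fintype.card (G ⧸ H) = H.index := by
    rw [← Nat.card_eq_fintype_card]; rfl
  have hp : (Fintype.card (G ⧸ H)).Prime := by rw [hcard]; exact hH
  have htr : MulAction.IsPretransitive f.range (G ⧸ H) := by
    refine ⟨fun a b => ?_⟩
    obtain ⟨g, hg⟩ := MulAction.exists_smul_eq G a b
    exact ⟨⟨f g, g, rfl⟩, hg⟩
  rcases Cfsg.Agent.S0675.result hp f.range with h | h
  · -- G is abelian
    have hs : Group.IsSolvable G := Group.isSolvable_of_isSolvable_injective (f := e.toMonoidHom) e.injective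
    have hcomm := IsSimpleGroup.comm_iff_isSolvable.2 hs
    have hcy : IsCyclic G := by
      obtain ⟨g, hg⟩ := exists_ne (1 : G)
      refine ⟨g, fun x => ?_⟩
      have hn : (Subgroup.zpowers g).Normal := by
        refine ⟨fun n hn k => ?_⟩
        rwa [hcomm k n, mul_inv_cancel_right]
      rcases hn.eq_bot_or_eq_top with h1 | h1
      · exact absurd (Subgroup.zpowers_eq_bot.1 h1) hg
      · have h2 : x ∈ Subgroup.zpowers g := by rw [h1]; trivial
        exact Subgroup.mem_zpowers_iff.1 h2
    have : Group.IsSolvable (MulAut G) := by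
      have h1 : Group.IsSolvable (ZMod (Nat.card G))ˣ := inferInstance
      exact Group.isSolvable_of_isSolvable_injective (f := (IsCyclic.mulAutMulEquiv G).toMonoidHom)
        (IsCyclic.mulAutMulEquiv G).injective
    infer_instance
  · apply out_congr e
    exact out_solvable f.range hp h ((1 : G) : G ⧸ H)

end Cfsg.Agent.S4277
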