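import Cfsg.Statements.S4278
import Cfsg.Agent.Lib.ChevInv6
import Cfsg.Agent.Lib.ChevInvG2

set_option autoImplicit false
open Cfsg

namespace Cfsg.Agent.S4278
open Cfsg.Lie Cfsg.Agent.Lib Cfsg.Agent.Lib.ChevX Cfsg.Agent.Lib.ChevGood Cfsg.Agent.Lib.ChevRel Cfsg.Agent.Lib.ChevNPerm
  Cfsg.Agent.Lib.ChevPoinc Cfsg.Agent.Lib.ChevFix Cfsg.Agent.Lib.ChevHOrder Cfsg.Agent.Lib.ChevTab Cfsg.Agent.Lib.ChevSS Cfsg.Agent.Lib.ChevInv Cfsg.Agent.Lib.ChevTorus
open Cfsg.Agent.Lib.ChevBruhat (Listed)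
open scoped MatrixGroups

/-- In the Chevalley group of type G₂ over a finite field of odd order, any two involutions are conjugate. -/
theorem result {F : Type*} [Field F] [Fintype F] (hF : Odd (Fintype.card F)) (s t : ↥(Cfsg.Lie.chevG2.group F)) (hs : orderOf s = 2) (ht : orderOf t = 2) : IsConj s t := by
  have key : ∀ u : ↥(Cfsg.Lie.chevG2.group F), orderOf u = 2 → ∀ t ∈ chevG2.diagonalSubgroup F,
      (∀ j : Fin chevG2.rank, rval t (simpF ChevOkG2.good j) = if (j : ℕ) = 1 then -1 else 1) →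
      ∃ h ∈ chevG2.group F, h * (u : GL chevG2.Idx F) * h⁻¹ = t := by
    intro u hu
    have hu2 : (u : GL chevG2.Idx F) ^ 2 = 1 := by
      have := pow_orderOf_eq_one u
      rw [hu] at this
      exact congrArg Subtype.val this
    have hu1 : (u : GL chevG2.Idx F) ≠ 1 := by
      intro h
      have : u = 1 := Subtype.ext h
      rw [this, orderOf_one] at hu
      exact absurd hu (by norm_num)
    obtain ⟨i, hi, h⟩ := conj_ti (G := ChevOkG2.good) (by simp [Listed]) noMinG2 cdG2 (l := 2) rfl (by norm_num) ChevInvG2.orb hF u.2 hu1 hu2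
    rw [List.mem_singleton] at hi
    subst hi
    exact h
  obtain ⟨x, hx, hxi⟩ := exists_ti ChevOkG2.good (K := F) cdG2 1
  obtain ⟨a, ha, hax⟩ := key s hs x hx hxi
  obtain ⟨b, hb, hbx⟩ := key t ht x hx hxi
  refine isConj_iff.mpr ⟨⟨b⁻¹ * a, mul_mem (inv_mem hb) ha⟩, Subtype.ext ?_⟩
  change (b⁻¹ * a) * (s : GL chevG2.Idx F) * (b⁻¹ * a)⁻¹ = t
  calc (b⁻¹ * a) * (s : GL chevG2.Idx F) * (b⁻¹ * a)⁻¹ = b⁻¹ * (a * s * a⁻¹) * b := by group
    _ = t := by rw [hax, ← hbx]; group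

end Cfsg.Agent.S4278
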