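import Cfsg.Statements.S4279
import Cfsg.Agent.Lib.ChevInv7
import Cfsg.Agent.Lib.ChevInvG2
import Cfsg.Agent.S4278

set_option autoImplicit false
open Cfsg

namespace Cfsg.Agent.S4279
open Cfsg.Lie Cfsg.Agent.Lib Cfsg.Agent.Lib.ChevX Cfsg.Agent.Lib.ChevGood Cfsg.Agent.Lib.ChevRel Cfsg.Agent.Lib.ChevNPerm
  Cfsg.Agent.Lib.ChevPoinc Cfsg.Agent.Lib.ChevFix Cfsg.Agent.Lib.ChevHOrder Cfsg.Agent.Lib.ChevTab Cfsg.Agent.Lib.ChevSS Cfsg.Agent.Lib.ChevInv Cfsg.Agent.Lib.ChevTorus
open Cfsg.Agent.Lib.ChevBruhat (Listed)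
open Cfsg.Agent.Lib.SL2Pres (E E' coe_E coe_E' coe_hh hh)
open scoped MatrixGroups

theorem homs {F : Type*} [Field F] (r : ℕ) (hr : r < chevG2.nroots) (s : ℕ) (hs : s < chevG2.nroots)
    (hrp : 6 ≤ r) (hrs : ∑ j ∈ Finset.range chevG2.rank, co chevG2 r j * chevG2.cartan j s = 1 ∨
      ∑ j ∈ Finset.range chevG2.rank, co chevG2 r j * chevG2.cartan j s = -1) :
    ∃ φ : SL(2, F) →* GL chevG2.Idx F, Function.Injective φ ∧
      φ.range = Subgroup.closure (Set.range (xg chevG2 F r) ∪ Set.range (xg chevG2 F (chevG2.neg r))) ∧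
      ∀ c, φ (hh E E' c) = hg chevG2 F r c := by
  obtain ⟨φ, h1, -, -, h2, h3⟩ := exists_sl2 ChevOkG2.good (F := F) (by simp [Listed]) hr (show Pos chevG2 ⟨r, hr⟩ from hrp) hs hrs
  exact ⟨φ, h1, h2, h3⟩

theorem xg_mem_group {F : Type*} [Field F] {r : ℕ} (hr : r < chevG2.nroots) (c : F) : xg chevG2 F r c ∈ chevG2.group F :=
  ChevAuto.xg_mem ChevOkG2.good r c

theorem range_le {F : Type*} [Field F] {r : ℕ} {φ : SL(2, F) →* GL chevG2.Idx F}
    (h : φ.range = Subgroup.closure (Set.range (xg chevG2 F r) ∪ Set.range (xg chevG2 F (chevG2.neg r)))) (hr : r < chevG2.nroots) :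
    φ.range ≤ chevG2.group F := by
  rw [h, Subgroup.closure_le]
  rintro _ (⟨c, rfl⟩ | ⟨c, rfl⟩)
  · exact xg_mem_group hr c
  · exact xg_mem_group (neg_lt ChevOkG2.good hr) c

theorem comm_roots {F : Type*} [Field F] {r s : ℕ} (hr : r < chevG2.nroots) (hs : s < chevG2.nroots) (hrs : s ≠ r)
    (hneg : s ≠ chevG2.neg r) (h0 : chevG2.commTerms r s = []) (a b : F) :
    xg chevG2 F r a * xg chevG2 F s b = xg chevG2 F s b * xg chevG2 F r a := by
  have := ChevRel.xg_comm ChevOkG2.good (F := F) hr hs hrs hneg a b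
  unfold ChevalleyDatum.commWord at this
  rw [h0, List.map_nil] at this
  rw [this]
  simp [wg]

theorem comm_ranges {F : Type*} [Field F] {φ ψ : SL(2, F) →* GL chevG2.Idx F}
    (h : φ.range = Subgroup.closure (Set.range (xg chevG2 F 7) ∪ Set.range (xg chevG2 F (chevG2.neg 7))))
    (h' : ψ.range = Subgroup.closure (Set.range (xg chevG2 F 11) ∪ Set.range (xg chevG2 F (chevG2.neg 11)))) (a b : SL(2, F)) :
    φ a * ψ b = ψ b * φ a := by
  have e7 : chevG2.neg 7 = 4 := by decide +kernel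
  have e11 : chevG2.neg 11 = 0 := by decide +kernel
  have ha : φ a ∈ Subgroup.closure (Set.range (xg chevG2 F 7) ∪ Set.range (xg chevG2 F (chevG2.neg 7))) := by
    rw [← h]; exact ⟨a, rfl⟩
  have hb : ψ b ∈ Subgroup.closure (Set.range (xg chevG2 F 11) ∪ Set.range (xg chevG2 F (chevG2.neg 11))) := by
    rw [← h']; exact ⟨b, rfl⟩
  rw [e7] at ha
  rw [e11] at hb
  have key : ∀ x ∈ (Set.range (xg chevG2 F 7) ∪ Set.range (xg chevG2 F 4) : Set (GL chevG2.Idx F)),
      ∀ y ∈ (Set.range (xg chevG2 F 11) ∪ Set.range (xg chevG2 F 0) : Set (GL chevG2.Idx F)), x * y = y * x := by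
    rintro _ (⟨c, rfl⟩ | ⟨c, rfl⟩) _ (⟨d, rfl⟩ | ⟨d, rfl⟩)
    · exact comm_roots (by decide) (by decide) (by decide) (by decide +kernel) (by decide +kernel) c d
    · exact comm_roots (by decide) (by decide) (by decide) (by decide +kernel) (by decide +kernel) c d
    · exact comm_roots (by decide) (by decide) (by decide) (by decide +kernel) (by decide +kernel) c d
    · exact comm_roots (by decide) (by decide) (by decide) (by decide +kernel) (by decide +kernel) c d
  have h1 : Subgroup.closure (Set.range (xg chevG2 F 7) ∪ Set.range (xg chevG2 F 4)) ≤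
      Subgroup.centralizer (Subgroup.closure (Set.range (xg chevG2 F 11) ∪ Set.range (xg chevG2 F 0)) : Set (GL chevG2.Idx F)) := by
    rw [Subgroup.closure_le]
    intro x hx
    rw [SetLike.mem_coe, Subgroup.mem_centralizer_iff]
    intro y hy
    have h2 : Subgroup.closure (Set.range (xg chevG2 F 11) ∪ Set.range (xg chevG2 F 0)) ≤ Subgroup.centralizer ({x} : Set (GL chevG2.Idx F)) := by
      rw [Subgroup.closure_le]
      intro y hy
      rw [SetLike.mem_coe, Subgroup.mem_centralizer_singleton_iff]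
      exact (key x hx y hy).symm
    exact Subgroup.mem_centralizer_singleton_iff.mp (h2 hy)
  exact (Subgroup.mem_centralizer_iff.mp (h1 ha) _ hb).symm

/-- In the Chevalley group G of type G₂ over a finite field F of odd order q, the centralizer of an involution t has order q²(q² − 1)² and contains two elementwise commuting subgroups, each isomorphic to SL(2, F), which meet exactly in the subgroup generated by t and whose join has index 2 in the centralizer. -/
theorem result {F : Type*} [Field F] [Fintype F] (hF : Odd (Fintype.card F)) (t : ↥(Cfsg.Lie.chevG2.group F)) (ht : orderOf t = 2) : Nat.card (Subgroup.centralizer ({t} : Set ↥(Cfsg.Lie.chevG2.group F))) = Fintype.card F ^ 2 * (Fintype.card F ^ 2 - 1) ^ 2 ∧ ∃ L₁ L₂ : Subgroup ↥(Cfsg.Lie.chevG2.group F), Nonempty (L₁ ≃* Matrix.SpecialLinearGroup (Fin 2) F) ∧ Nonempty (L₂ ≃* Matrix.SpecialLinearGroup (Fin 2) F) ∧ (∀ x ∈ L₁, ∀ y ∈ L₂, x * y = y * x) ∧ L₁ ⊓ L₂ = Subgroup.zpowers t ∧ L₁ ⊔ L₂ ≤ Subgroup.centralizer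 ({t} : Set ↥(Cfsg.Lie.chevG2.group F)) ∧ (L₁ ⊔ L₂).relIndex (Subgroup.centralizer ({t} : Set ↥(Cfsg.Lie.chevG2.group F))) = 2 := by
  have h2 := two_ne (F := F) hF
  obtain ⟨φ, hφ, hφr, hφh⟩ := homs 7 (by decide) 8 (by decide) (by decide +kernel) (Or.inr (by decide +kernel)) (F := F)
  obtain ⟨ψ, hψ, hψr, hψh⟩ := homs 11 (by decide) 6 (by decide) (by decide +kernel) (Or.inl (by decide +kernel)) (F := F)
  have hcomm := comm_ranges hφr hψr
  have hneg : (-1 : F) ≠ 0 := by simp
  have hh1 : (SL2Pres.hh E E' (-1 : F)) = -1 := by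
    apply Subtype.ext
    rw [coe_hh hneg]
    ext i j
    fin_cases i <;> fin_cases j <;> simp [inv_neg]
  -- the involution of the torus
  have htt : hg chevG2 F 7 (-1) = hg chevG2 F 11 (-1) := by
    apply Units.ext
    rw [coe_hg ChevOkG2.good, coe_hg ChevOkG2.good, hMat_eq ChevOkG2.good (by decide) _ hneg, hMat_eq ChevOkG2.good (by decide) _ hneg]
    congr 1
    funext a
    rcases a with a | s
    · rfl
    · simp only [Sum.elim_inr]
      have : ∀ s : Fin chevG2.nroots, ((∑ j ∈ Finset.range chevG2.rank, co chevG2 7 j * chevG2.cartan j s) -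
          (∑ j ∈ Finset.range chevG2.rank, co chevG2 11 j * chevG2.cartan j s)) % 2 = 0 := by decide +kernel
      obtain ⟨c, hc⟩ := Int.dvd_of_emod_eq_zero (this s)
      have h3 : (∑ j ∈ Finset.range chevG2.rank, co chevG2 7 j * chevG2.cartan j s) =
        (∑ j ∈ Finset.range chevG2.rank, co chevG2 11 j * chevG2.cartan j s) + 2 * c := by omega
      rw [h3, zpow_add₀ hneg, zpow_mul]
      norm_num
  have htH : hg chevG2 F 7 (-1) ∈ chevG2.diagonalSubgroup F := ChevH.hg_mem ChevOkG2.good (by decide) hneg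
  have hti : ∀ j : Fin chevG2.rank, rval (hg chevG2 F 7 (-1)) (simpF ChevOkG2.good j) = if (j : ℕ) = 1 then -1 else 1 := by
    intro j
    have e1 : rval (hg chevG2 F 7 (-1)) (simpF ChevOkG2.good j) = (-1 : F) ^ (∑ i ∈ Finset.range chevG2.rank, co chevG2 7 i * chevG2.cartan i (simpF ChevOkG2.good j)) := by
      change (hg chevG2 F 7 (-1) : Matrix chevG2.Idx chevG2.Idx F) _ _ = _
      rw [coe_hg ChevOkG2.good, hMat_eq ChevOkG2.good (by decide) _ hneg, Matrix.diagonal_apply_eq]
      rfl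
    rw [e1]
    have e2 : ∀ j : Fin chevG2.rank, (∑ i ∈ Finset.range chevG2.rank, co chevG2 7 i * chevG2.cartan i (chevG2.simple j)) = if (j : ℕ) = 1 then -3 else 2 := by
      decide +kernel
    rw [show (∑ i ∈ Finset.range chevG2.rank, co chevG2 7 i * chevG2.cartan i (simpF ChevOkG2.good j)) = _ from e2 j]
    split
    · norm_num
    · norm_num
  have hcard : Nat.card (cen chevG2 (hg chevG2 F 7 (-1))) = Fintype.card F ^ 2 * (Fintype.card F ^ 2 - 1) ^ 2 := by
    have hq2 : 2 ≤ Fintype.card F := Fintype.one_lt_card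
    have hq1 : 1 ≤ Fintype.card F := by omega
    have hqz : (2 : ℤ) ≤ (Fintype.card F : ℤ) := by exact_mod_cast hq2
    have h := card_cert (G := ChevOkG2.good) ChevInvG2.ok1 rfl rfl (by norm_num) rfl ChevPoincG2.simple_eq ChevPoincG2.refl_eq htH hti h2
      (by simp [Listed]) noMinG2 cdG2 certG2 (J := [0]) (by intro j; simp only [List.mem_cons, List.not_mem_nil, or_false]; omega)
      ChevInvG2.nv1 ChevInvG2.np1
    have hP := ChevInvG2.poinc1 ChevOkG2.good _ hqz
    apply Nat.cast_injective (R := ℤ)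
    rw [h]
    push_cast [ChevOrder.cast_pred hq1]
    simp only [List.map_cons, List.map_nil, List.sum_cons, List.sum_nil]
    generalize (Fintype.card F : ℤ) = q at hP ⊢
    generalize PP (WJ ChevOkG2.good {i | i ∈ ([0] : List ℕ)}) q = P at hP ⊢
    linear_combination (1 + q) * (q - 1) * q ^ 2 * hP
  -- conjugation
  set t₀ : ↥(chevG2.group F) := ⟨hg chevG2 F 7 (-1), ChevBN.H_le_group ChevOkG2.good htH⟩ with ht₀
  have hto : orderOf t₀ = 2 := by
    apply orderOf_eq_prime
    · exact Subtype.ext (sq_ti (G := ChevOkG2.good) (l := 2) (i0 := 1) rfl (by norm_num) htH hti)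
    · exact fun h => (ne_one_ti (G := ChevOkG2.good) (l := 2) (i0 := 1) rfl (by norm_num) h2 hti) (congrArg Subtype.val h)
  obtain ⟨x, hx⟩ := isConj_iff.mp (Cfsg.Agent.S4278.result hF t₀ t hto ht)
  have hcent : Nat.card (Subgroup.centralizer ({t} : Set ↥(chevG2.group F))) = Nat.card (Subgroup.centralizer ({t₀} : Set ↥(chevG2.group F))) := by
    refine Nat.card_congr (Equiv.subtypeEquiv (MulAut.conj x⁻¹).toEquiv fun g => ?_)
    rw [Subgroup.mem_centralizer_singleton_iff, Subgroup.mem_centralizer_singleton_iff, ← hx]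
    change _ ↔ (x⁻¹ * g * x⁻¹⁻¹) * t₀ = t₀ * (x⁻¹ * g * x⁻¹⁻¹)
    constructor
    · intro h
      calc (x⁻¹ * g * x⁻¹⁻¹) * t₀ = x⁻¹ * (g * (x * t₀ * x⁻¹)) * x := by group
        _ = _ := by rw [h]; group
    · intro h
      calc g * (x * t₀ * x⁻¹) = x * ((x⁻¹ * g * x⁻¹⁻¹) * t₀) * x⁻¹ := by group
        _ = _ := by rw [h]; group
  have hcard' : Nat.card (Subgroup.centralizer ({t} : Set ↥(chevG2.group F))) = Fintype.card F ^ 2 * (Fintype.card F ^ 2 - 1) ^ 2 := by
    rw [hcent, card_centralizer ChevOkG2.good]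
    exact hcard
  have hfin : Finite ↥(chevG2.group F) := by
    have : Finite (Matrix chevG2.Idx chevG2.Idx F) := inferInstanceAs (Finite (chevG2.Idx → chevG2.Idx → F))
    have h1 : Finite (GL chevG2.Idx F) := Finite.of_injective (fun g : GL chevG2.Idx F => (g : Matrix chevG2.Idx chevG2.Idx F)) Units.val_injective
    exact Subtype.finite
  refine ⟨hcard', ?_⟩
  have hφG : ∀ a, φ a ∈ chevG2.group F := fun a => range_le hφr (by decide) ⟨a, rfl⟩
  have hψG : ∀ a, ψ a ∈ chevG2.group F := fun a => range_le hψr (by decide) ⟨a, rfl⟩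
  let φ' : SL(2, F) →* ↥(chevG2.group F) := (MulAut.conj x).toMonoidHom.comp (φ.codRestrict _ hφG)
  let ψ' : SL(2, F) →* ↥(chevG2.group F) := (MulAut.conj x).toMonoidHom.comp (ψ.codRestrict _ hψG)
  refine sl2sl2 h2 φ' ψ' ?_ ?_ ?_ (t := t) ?_ ?_ hcard'
  · intro a b hab
    exact hφ (congrArg Subtype.val ((MulAut.conj x).injective hab))
  · intro a b hab
    exact hψ (congrArg Subtype.val ((MulAut.conj x).injective hab))
  · intro a b
    change (MulAut.conj x) _ * (MulAut.conj x) _ = (MulAut.conj x) _ * (MulAut.conj x) _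
    rw [← map_mul, ← map_mul]
    congr 1
    exact Subtype.ext (hcomm a b)
  · change (MulAut.conj x) _ = t
    rw [← hx]
    change x * _ * x⁻¹ = x * _ * x⁻¹
    congr 2
    apply Subtype.ext
    change φ (-1) = _
    rw [← hh1, hφh]
  · change (MulAut.conj x) _ = t
    rw [← hx]
    change x * _ * x⁻¹ = x * _ * x⁻¹
    congr 2
    apply Subtype.ext
    change ψ (-1) = _
    rw [← hh1, hψh]
    exact htt.symm

end Cfsg.Agent.S4279
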