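import Cfsg.Statements.S4280
import Cfsg.Agent.Lib.ChevInv6
import Cfsg.Agent.Lib.ChevInvF4

set_option autoImplicit false
open Cfsg

namespace Cfsg.Agent.S4280
open Cfsg.Lie Cfsg.Agent.Lib Cfsg.Agent.Lib.ChevX Cfsg.Agent.Lib.ChevGood Cfsg.Agent.Lib.ChevRel Cfsg.Agent.Lib.ChevNPerm
  Cfsg.Agent.Lib.ChevPoinc Cfsg.Agent.Lib.ChevFix Cfsg.Agent.Lib.ChevHOrder Cfsg.Agent.Lib.ChevTab Cfsg.Agent.Lib.ChevSS Cfsg.Agent.Lib.ChevInv
open Cfsg.Agent.Lib.ChevBruhat (Listed)

/-- In the Chevalley group of type F₄ over a finite field of odd order q there are exactly two conjugacy classes of involutions; the centralizer of an involution in one class has order q¹⁶(q² − 1)(q⁴ − 1)(q⁶ − 1)(q⁸ − 1), and in the other class q¹⁰(q² − 1)²(q⁴ − 1)(q⁶ − 1). -/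
theorem result {F : Type*} [Field F] [Fintype F] (hF : Odd (Fintype.card F)) : ∃ s t : ↥(Cfsg.Lie.chevF4.group F), orderOf s = 2 ∧ orderOf t = 2 ∧ ¬ IsConj s t ∧ (∀ u : ↥(Cfsg.Lie.chevF4.group F), orderOf u = 2 → IsConj u s ∨ IsConj u t) ∧ Nat.card (Subgroup.centralizer ({s} : Set ↥(Cfsg.Lie.chevF4.group F))) = Fintype.card F ^ 16 * (Fintype.card F ^ 2 - 1) * (Fintype.card F ^ 4 - 1) * (Fintype.card F ^ 6 - 1) * (Fintype.card F ^ 8 - 1) ∧ Nat.card (Subgroup.centralizer ({t} : Set ↥(Cfsg.Lie.chevF4.group F))) = Fintype.card F ^ 10 * (Fintype.card F ^ 2 - 1) ^ 2 * (Fintype.card F ^ 4 - 1) * (Fintype.card F ^ 6 - 1) := by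
  have hq2 : 2 ≤ Fintype.card F := Fintype.one_lt_card
  have hq1 : 1 ≤ Fintype.card F := by omega
  have hqz : (2 : ℤ) ≤ (Fintype.card F : ℤ) := by exact_mod_cast hq2
  have h2 := two_ne (F := F) hF
  refine assemble (G := ChevOkF4.good) (by simp [Listed]) noMinF4 cdF4 (l := 4) rfl (a := 0) (b := 3) (by norm_num) (by norm_num)
    (Or.inl ChevInvF4.orb) (R := rvT ChevDataF4.A) rfl (by decide +kernel) hF ?_ ?_
  · intro t ht hti
    have h := card_cert (G := ChevOkF4.good) ChevInvF4.ok0 rfl rfl (by norm_num) rfl ChevPoincF4.simple_eq ChevPoincF4.refl_eq ht hti h2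
      (by simp [Listed]) noMinF4 cdF4 certF4 (J := [1, 2, 3]) (by intro j; simp only [List.mem_cons, List.not_mem_nil, or_false]; omega)
      ChevInvF4.nv0 ChevInvF4.np0
    have hP := ChevInvF4.poinc0 ChevOkF4.good _ hqz
    apply Nat.cast_injective (R := ℤ)
    rw [h]
    push_cast [ChevOrder.cast_pred hq1]
    simp only [List.map_cons, List.map_nil, List.sum_cons, List.sum_nil]
    generalize (Fintype.card F : ℤ) = q at hP ⊢
    generalize PP (WJ ChevOkF4.good {i | i ∈ ([1, 2, 3] : List ℕ)}) q = P at hP ⊢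
    linear_combination (1 + q + q ^ 2 + q ^ 3 + q ^ 4 + q ^ 5 + q ^ 6 + q ^ 7) * (q - 1) * q ^ 16 * hP
  · intro t ht hti
    have h := card_cert (G := ChevOkF4.good) ChevInvF4.ok3 rfl rfl (by norm_num) rfl ChevPoincF4.simple_eq ChevPoincF4.refl_eq ht hti h2
      (by simp [Listed]) noMinF4 cdF4 certF4 (J := [0, 1, 2]) (by intro j; simp only [List.mem_cons, List.not_mem_nil, or_false]; omega)
      ChevInvF4.nv3 ChevInvF4.np3
    have hP := ChevInvF4.poinc3 ChevOkF4.good _ hqz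
    apply Nat.cast_injective (R := ℤ)
    rw [h]
    push_cast [ChevOrder.cast_pred hq1]
    simp only [List.map_cons, List.map_nil, List.sum_cons, List.sum_nil]
    generalize (Fintype.card F : ℤ) = q at hP ⊢
    generalize PP (WJ ChevOkF4.good {i | i ∈ ([0, 1, 2] : List ℕ)}) q = P at hP ⊢
    linear_combination (1 + q) * (q - 1) * q ^ 10 * hP

end Cfsg.Agent.S4280
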