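import Cfsg.Statements.S4281
import Cfsg.Agent.Lib.ChevInv6
import Cfsg.Agent.Lib.ChevInvE8

set_option autoImplicit false
open scoped BigOperators
open Cfsg

namespace Cfsg.Agent.S4281
open Cfsg.Lie Cfsg.Agent.Lib Cfsg.Agent.Lib.ChevX Cfsg.Agent.Lib.ChevGood Cfsg.Agent.Lib.ChevRel Cfsg.Agent.Lib.ChevNPerm
  Cfsg.Agent.Lib.ChevPoinc Cfsg.Agent.Lib.ChevFix Cfsg.Agent.Lib.ChevHOrder Cfsg.Agent.Lib.ChevTab Cfsg.Agent.Lib.ChevSS Cfsg.Agent.Lib.ChevInv
open Cfsg.Agent.Lib.ChevBruhat (Listed)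

/-- In the Chevalley group of type E₈ over a finite field of odd order q there are exactly two conjugacy classes of involutions; the centralizer of an involution in one class has order q⁵⁶(q⁸ − 1)·∏_{i=1}^{7}(q^{2i} − 1), and in the other class q⁶⁴(q² − 1)²(q⁶ − 1)(q⁸ − 1)(q¹⁰ − 1)(q¹² − 1)(q¹⁴ − 1)(q¹⁸ − 1). -/
theorem result {F : Type*} [Field F] [Fintype F] (hF : Odd (Fintype.card F)) : ∃ s t : ↥(Cfsg.Lie.chevE8.group F), orderOf s = 2 ∧ orderOf t = 2 ∧ ¬ IsConj s t ∧ (∀ u : ↥(Cfsg.Lie.chevE8.group F), orderOf u = 2 → IsConj u s ∨ IsConj u t) ∧ Nat.card (Subgroup.centralizer ({s} : Set ↥(Cfsg.Lie.chevE8.group F))) = Fintype.card F ^ 56 * (Fintype.card F ^ 8 - 1) * ∏ i ∈ Finset.Icc 1 7, (Fintype.card F ^ (2 * i) - 1) ∧ Nat.card (Subgroup.centralizer ({t} : Set ↥(Cfsg.Lie.chevE8.group F))) = Fintype.card F ^ 64 * (Fintype.card F ^ 2 - 1) ^ 2 * (Fintype.card F ^ 6 - 1) * (Fintype.card F ^ 8 - 1) * (Fintype.card F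 ^ 10 - 1) * (Fintype.card F ^ 12 - 1) * (Fintype.card F ^ 14 - 1) * (Fintype.card F ^ 18 - 1) := by
  have hq2 : 2 ≤ Fintype.card F := Fintype.one_lt_card
  have hq1 : 1 ≤ Fintype.card F := by omega
  have hqz : (2 : ℤ) ≤ (Fintype.card F : ℤ) := by exact_mod_cast hq2
  have h2 := two_ne (F := F) hF
  refine assemble (G := ChevOkE8.good) (by simp [Listed]) noMinE8 cdE8 (l := 8) rfl (a := 0) (b := 7) (by norm_num) (by norm_num)
    (Or.inl ChevInvE8.orb) (R := rvT ChevDataE8.A) rfl (by decide +kernel) hF ?_ ?_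
  · intro t ht hti
    have h := card_cert (G := ChevOkE8.good) ChevInvE8.ok0 rfl rfl (by norm_num) rfl ChevPoincE8.simple_eq ChevPoincE8.refl_eq ht hti h2
      (by simp [Listed]) noMinE8 cdE8 certE8 (J := [1, 2, 3, 4, 5, 6, 7]) (by intro j; simp only [List.mem_cons, List.not_mem_nil, or_false]; omega)
      ChevInvE8.nv0 ChevInvE8.np0
    have hP := ChevInvE8.poinc0 ChevOkE8.good _ hqz
    apply Nat.cast_injective (R := ℤ)
    rw [h]
    push_cast [ChevOrder.cast_pred hq1]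
    simp only [List.map_cons, List.map_nil, List.sum_cons, List.sum_nil]
    rw [show Finset.Icc 1 7 = {1, 2, 3, 4, 5, 6, 7} by decide]
    rw [Finset.prod_insert (by decide), Finset.prod_insert (by decide), Finset.prod_insert (by decide), Finset.prod_insert (by decide),
      Finset.prod_insert (by decide), Finset.prod_insert (by decide), Finset.prod_singleton]
    generalize (Fintype.card F : ℤ) = q at hP ⊢
    generalize PP (WJ ChevOkE8.good {i | i ∈ ([1, 2, 3, 4, 5, 6, 7] : List ℕ)}) q = P at hP ⊢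
    have e : (1 + q + q ^ 2 + q ^ 3 + q ^ 4 + q ^ 5 + q ^ 6 + q ^ 7) * (q - 1) = q ^ 8 - 1 := by ring
    linear_combination (1 + q + q ^ 2 + q ^ 3 + q ^ 4 + q ^ 5 + q ^ 6 + q ^ 7) * (1 + q ^ 7) * (q - 1) * q ^ 56 * hP +
      (1 + q ^ 7) * q ^ 56 * ((q ^ 2 - 1) * (q ^ 4 - 1) * (q ^ 6 - 1) * (q ^ 7 - 1) * (q ^ 8 - 1) * (q ^ 10 - 1) * (q ^ 12 - 1)) * e
  · intro t ht hti
    have h := card_cert (G := ChevOkE8.good) ChevInvE8.ok7 rfl rfl (by norm_num) rfl ChevPoincE8.simple_eq ChevPoincE8.refl_eq ht hti h2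
      (by simp [Listed]) noMinE8 cdE8 certE8 (J := [0, 1, 2, 3, 4, 5, 6]) (by intro j; simp only [List.mem_cons, List.not_mem_nil, or_false]; omega)
      ChevInvE8.nv7 ChevInvE8.np7
    have hP := ChevInvE8.poinc7 ChevOkE8.good _ hqz
    apply Nat.cast_injective (R := ℤ)
    rw [h]
    push_cast [ChevOrder.cast_pred hq1]
    simp only [List.map_cons, List.map_nil, List.sum_cons, List.sum_nil]
    generalize (Fintype.card F : ℤ) = q at hP ⊢
    generalize PP (WJ ChevOkE8.good {i | i ∈ ([0, 1, 2, 3, 4, 5, 6] : List ℕ)}) q = P at hP ⊢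
    linear_combination (1 + q) * (q - 1) * q ^ 64 * hP

end Cfsg.Agent.S4281
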