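import Cfsg.Statements.S4282
import Cfsg.Agent.Lib.HHMain2

set_option autoImplicit false
open Cfsg

namespace Cfsg.Agent.S4282

open Module Cfsg.Agent.Lib.ModRep Cfsg.Agent.Lib.HHMain

/-- A critical case behind the Hall–Higman theorem. Let p ≠ q be primes and G a finite group generated by a normal q-subgroup Q and a cyclic p-subgroup generated by x, such that the centralizer of every non-identity element of that cyclic subgroup is its product with the centre of G. Let K be an algebraically closed field of characteristic p and ρ a faithful representation of G on a nonzero finite-dimensional K-space whose restriction to Q is irreducible. If s is the least exponent with (ρ(x) − 1)^s = 0, then |⟨x⟩| − 1 ≤ s ≤ |⟨x⟩|; and if s = |⟨x⟩| − 1 then |⟨x⟩| − 1 is a power of q and Q is non-abelian. -/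
theorem result {G : Type*} [Group G] [Finite G] (p q : ℕ) [Fact p.Prime] [Fact q.Prime] (hpq : p ≠ q) (Q : Subgroup G) [Q.Normal] (hQ : IsPGroup q Q) (x : G) (hx : IsPGroup p (Subgroup.zpowers x)) (hgen : Q ⊔ Subgroup.zpowers x = ⊤) (hC : ∀ y ∈ Subgroup.zpowers x, y ≠ 1 → Subgroup.centralizer ({y} : Set G) = Subgroup.zpowers x ⊔ Subgroup.center G) {K : Type*} [Field K] [IsAlgClosed K] [CharP K p] {V : Type*} [AddCommGroup V] [Module K V] [FiniteDimensional K V] [Nontrivial V] (ρ : Representation K G V) (hfaith : Function.Injective ρ) (hirr : ∀ W : Submodule K V, (∀ g ∈ Q, Submodule.map (ρ g) W ≤ W) → W = ⊥ ∨ W = ⊤) (s : ℕ) (hs : (ρ x - 1) ^ s = 0) (hmin : ∀ k < s, (ρ x - 1) ^ k ≠ 0) : Nat.card (Subgroup.zpowers x) - 1 ≤ s ∧ s ≤ Nat.card (Subgroup.zpowers x) ∧ (s = Nat.card (Subgroup.zpowers x) - 1 → (∃ b : ℕ, Nat.card (Subgroup.zpowers x) - 1 = q ^ b) ∧ ¬ IsMulCommutative Q) := by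
  have hp : p.Prime := Fact.out
  have hq : q.Prime := Fact.out
  obtain ⟨n, hn⟩ := IsPGroup.iff_card.mp hx
  have hord : orderOf x = p ^ n := by rw [← Nat.card_zpowers, hn]
  have hxn : x ^ (p ^ n) = 1 := by rw [← hord, pow_orderOf_eq_one]
  rw [hn]
  have hpos : 0 < p ^ n := pow_pos hp.pos n
  have hsP : s ≤ p ^ n := by
    by_contra hcon
    push Not at hcon
    apply hmin _ hcon
    rw [Cfsg.Agent.Lib.HHLin.sub_one_pow (K := K) (p := p), ← map_pow, hxn, map_one, sub_self]
  have hge : ∀ k, (ρ x - 1) ^ k ≠ 0 → k + 1 ≤ s := by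
    intro k hk
    by_contra hcon
    apply hk
    have h1 : k = s + (k - s) := by omega
    rw [h1, pow_add, hs, zero_mul]
  rcases Nat.eq_zero_or_pos n with hn0 | hn0
  · have h1 := hge 0 (by rw [pow_zero]; exact one_ne_zero)
    rw [hn0, pow_zero] at hsP ⊢
    refine ⟨by omega, hsP, ?_⟩
    intro h
    omega
  · have hirr' : Irr ((ρ : G →* Module.End K V).comp Q.subtype) := by
      refine ⟨inferInstance, ?_⟩
      intro W hW
      apply hirr W
      rintro g hg _ ⟨w, hw, rfl⟩
      exact hW ⟨g, hg⟩ w hw
    set y := x ^ (p ^ (n - 1)) with hy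
    have hyA : y ∈ Subgroup.zpowers x := Subgroup.pow_mem _ (Subgroup.mem_zpowers x) _
    have hy1 : y ≠ 1 := by
      intro h
      have h1 := orderOf_dvd_of_pow_eq_one h
      rw [hord, Nat.pow_dvd_pow_iff_le_right hp.one_lt] at h1
      omega
    have hyQ : ∃ g ∈ Q, y * g ≠ g * y := by
      by_contra hall
      push Not at hall
      obtain ⟨c, hc⟩ := schur hirr' (ρ y) (by
        rintro ⟨g, hg⟩
        change ρ y * ρ g = ρ g * ρ y
        rw [← map_mul, hall g hg, map_mul])
      have h1 : c ^ (p ^ n) = 1 := by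
        have h2 : (ρ y) ^ (p ^ n) = 1 := by
          rw [← map_pow, hy, ← pow_mul, mul_comm, pow_mul, hxn, one_pow, map_one]
        rw [hc, smul_pow, one_pow] at h2
        obtain ⟨v, hv⟩ := exists_ne (0 : V)
        have h3 := LinearMap.congr_fun h2 v
        rw [LinearMap.smul_apply, Module.End.one_apply] at h3
        have h4 : (c ^ p ^ n - 1) • v = 0 := by rw [sub_smul, h3, one_smul, sub_self]
        rcases smul_eq_zero.mp h4 with h5 | h5
        · exact sub_eq_zero.mp h5
        · exact absurd h5 hv
      have h2 : c = 1 := by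
        have h3 : (c - 1) ^ (p ^ n) = 0 := by rw [sub_pow_char_pow, h1, one_pow, sub_self]
        exact sub_eq_zero.mp (pow_eq_zero_iff (by omega) |>.mp h3)
      apply hy1
      apply hfaith
      rw [hc, h2, one_smul, map_one]
    have hxQ : x ∈ Subgroup.normalizer (Q : Set G) := by rw [Subgroup.normalizer_eq_top]; trivial
    rcases main_faithful hpq hn0 ρ hfaith Q hQ x hxQ hxn hyQ with h | ⟨n₀, m, h1, h2, h3, h4, h5, h6, h7⟩
    · have := hge _ h
      exact ⟨by omega, hsP, fun h => by omega⟩
    · have h6' : n₀ = n := by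
        rcases h6 with h6 | ⟨z, hz, hz1, hz2⟩
        · exact h6
        · exfalso
          apply hz2
          have h8 : z ∈ Subgroup.centralizer ({y} : Set G) := by
            rw [Subgroup.mem_centralizer_singleton_iff]
            exact hz1.symm
          rw [hC y hyA hy1] at h8
          have h9 : Subgroup.zpowers x ⊔ Subgroup.center G ≤ Subgroup.centralizer ({x} : Set G) := by
            apply sup_le
            · rw [Subgroup.zpowers_le, Subgroup.mem_centralizer_singleton_iff]
            · exact Subgroup.center_le_centralizer _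
          have h10 := h9 h8
          rw [Subgroup.mem_centralizer_singleton_iff] at h10
          exact h10.symm
      subst h6'
      rw [Nat.sub_self, pow_zero, one_mul] at h7
      have h8 := hge _ h7
      refine ⟨by omega, hsP, ?_⟩
      intro _
      refine ⟨⟨m, h4⟩, ?_⟩
      intro hcomm
      obtain ⟨a, ha, b, hb, hab⟩ := h5
      exact hab (congrArg Subtype.val (hcomm.is_comm.comm ⟨a, ha⟩ ⟨b, hb⟩))

end Cfsg.Agent.S4282
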