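import Cfsg.Statements.S4283
import Cfsg.Agent.Lib.FrobGroup

set_option autoImplicit false
open Cfsg

namespace Cfsg.Agent.S4283

/-- Let G be a finite group with centre Z and let K, H be abelian subgroups of G containing Z such that G/Z is a Frobenius group with complement H/Z and kernel K/Z. Then the conjugacy class sizes of G are exactly 1, [G : K] and [G : H], and these two indices are coprime. (This is the converse half of the characterization of finite groups whose conjugacy class sizes are exactly 1, m and n with m and n coprime.) -/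
theorem result {G : Type*} [Group G] [Finite G] (K H : Subgroup G) (hZK : Subgroup.center G ≤ K) (hZH : Subgroup.center G ≤ H) (hK : IsMulCommutative K) (hH : IsMulCommutative H) (hFrob : Cfsg.IsFrobeniusComplement (H.map (QuotientGroup.mk' (Subgroup.center G)))) (hker : Cfsg.frobeniusKernel (H.map (QuotientGroup.mk' (Subgroup.center G))) = (K.map (QuotientGroup.mk' (Subgroup.center G)) : Set (G ⧸ Subgroup.center G))) : Set.range (fun x : G => (Subgroup.centralizer ({x} : Set G)).index) = ({1, K.index, H.index} : Set ℕ) ∧ K.index.Coprime H.index := by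
  classical
  set π := QuotientGroup.mk' (Subgroup.center G) with hπ
  have hsurj : Function.Surjective π := QuotientGroup.mk'_surjective _
  set Hb := H.map π with hHb
  set Kb := K.map π with hKb
  have hcH : Hb.comap π = H := by
    rw [hHb, Subgroup.comap_map_eq, QuotientGroup.ker_mk', sup_eq_left.mpr hZH]
  have hcK : Kb.comap π = K := by
    rw [hKb, Subgroup.comap_map_eq, QuotientGroup.ker_mk', sup_eq_left.mpr hZK]
  have hmH : ∀ x : G, π x ∈ Hb ↔ x ∈ H := fun x => by
    have h := Subgroup.mem_comap (K := Hb) (f := π) (x := x)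
    rw [hcH] at h
    exact h.symm
  have hmK : ∀ x : G, π x ∈ Kb ↔ x ∈ K := fun x => by
    have h := Subgroup.mem_comap (K := Kb) (f := π) (x := x)
    rw [hcK] at h
    exact h.symm
  have hmZ : ∀ x : G, π x = 1 ↔ x ∈ Subgroup.center G := fun x => by
    rw [← MonoidHom.mem_ker, QuotientGroup.ker_mk']
  have hmker : ∀ y : G ⧸ Subgroup.center G, y ∈ Cfsg.frobeniusKernel Hb ↔ y ∈ Kb := fun y => by
    rw [hker]; rfl
  have hKc : ∀ a ∈ K, ∀ b ∈ K, a * b = b * a := isMulCommutative_iff_of_setLike.mp hK
  have hHc : ∀ a ∈ H, ∀ b ∈ H, a * b = b * a := isMulCommutative_iff_of_setLike.mp hH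
  -- centralizers
  have hCH : ∀ x ∈ H, x ∉ Subgroup.center G → Subgroup.centralizer ({x} : Set G) = H := by
    intro x hx hxZ
    apply le_antisymm
    · intro g hg
      rw [Subgroup.mem_centralizer_singleton_iff] at hg
      rw [← hmH]
      apply Cfsg.Agent.Lib.FrobGroup.mem_of_commute hFrob (x := π x) ((hmH x).mpr hx)
        (fun h => hxZ ((hmZ x).mp h))
      rw [← map_mul, hg, map_mul]
    · intro g hg
      rw [Subgroup.mem_centralizer_singleton_iff]
      exact hHc g hg x hx
  have hCK : ∀ x ∈ K, x ∉ Subgroup.center G → Subgroup.centralizer ({x} : Set G) = K := by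
    intro x hx hxZ
    apply le_antisymm
    · intro g hg
      rw [Subgroup.mem_centralizer_singleton_iff] at hg
      rw [← hmK, ← hmker, Cfsg.Agent.Lib.FrobGroup.mem_kernel_iff]
      by_cases hg1 : π g = 1
      · left; exact hg1
      · right
        intro a ha
        have hxk : π x ∈ Cfsg.frobeniusKernel Hb := (hmker _).mpr ((hmK x).mpr hx)
        have hx1 : π x ≠ 1 := fun h => hxZ ((hmZ x).mp h)
        have hcomm : π g * π x = π x * π g := by rw [← map_mul, hg, map_mul]
        have h1 : a⁻¹ * π x * a ∈ Hb := by
          apply Cfsg.Agent.Lib.FrobGroup.mem_of_commute hFrob ha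
          · intro h
            apply hg1
            have : π g = a * (a⁻¹ * π g * a) * a⁻¹ := by group
            rw [this, h]; group
          · calc a⁻¹ * π x * a * (a⁻¹ * π g * a) = a⁻¹ * (π x * π g) * a := by group
              _ = a⁻¹ * (π g * π x) * a := by rw [hcomm]
              _ = a⁻¹ * π g * a * (a⁻¹ * π x * a) := by group
        rcases Cfsg.Agent.Lib.FrobGroup.mem_kernel_iff.mp hxk with h | h
        · exact hx1 h
        · exact h a h1
    · intro g hg
      rw [Subgroup.mem_centralizer_singleton_iff]
      exact hKc g hg x hx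
  have hconj : ∀ x a : G, (Subgroup.centralizer ({a⁻¹ * x * a} : Set G)).index =
      (Subgroup.centralizer ({x} : Set G)).index := by
    intro x a
    have h1 : Nat.card (Subgroup.centralizer ({a⁻¹ * x * a} : Set G)) =
        Nat.card (Subgroup.centralizer ({x} : Set G)) := by
      refine Nat.card_congr
        { toFun := fun g => ⟨a * g * a⁻¹, ?_⟩
          invFun := fun g => ⟨a⁻¹ * g * a, ?_⟩
          left_inv := fun g => Subtype.ext (by show a⁻¹ * (a * (g : G) * a⁻¹) * a = g; group)
          right_inv := fun g => Subtype.ext (by show a * (a⁻¹ * (g : G) * a) * a⁻¹ = g; group) }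
      · rw [Subgroup.mem_centralizer_singleton_iff]
        have h := Subgroup.mem_centralizer_singleton_iff.mp g.2
        calc a * (g : G) * a⁻¹ * x = a * ((g : G) * (a⁻¹ * x * a)) * a⁻¹ := by group
          _ = a * ((a⁻¹ * x * a) * (g : G)) * a⁻¹ := by rw [h]
          _ = x * (a * (g : G) * a⁻¹) := by group
      · rw [Subgroup.mem_centralizer_singleton_iff]
        have h := Subgroup.mem_centralizer_singleton_iff.mp g.2
        calc a⁻¹ * (g : G) * a * (a⁻¹ * x * a) = a⁻¹ * ((g : G) * x) * a := by group
          _ = a⁻¹ * (x * (g : G)) * a := by rw [h]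
          _ = a⁻¹ * x * a * (a⁻¹ * (g : G) * a) := by group
    have h2 := (Subgroup.centralizer ({a⁻¹ * x * a} : Set G)).card_mul_index
    have h3 := (Subgroup.centralizer ({x} : Set G)).card_mul_index
    rw [h1, ← h3] at h2
    exact Nat.eq_of_mul_eq_mul_left Nat.card_pos h2
  -- existence
  obtain ⟨hb, hbH, hb1⟩ := Cfsg.Agent.Lib.FrobGroup.exists_ne_one hFrob
  obtain ⟨h0, rfl⟩ := hsurj hb
  have hh0 : h0 ∈ H := (hmH h0).mp hbH
  have hh0Z : h0 ∉ Subgroup.center G := fun h => hb1 ((hmZ h0).mpr h)
  have hKbcard : Nat.card Kb = Hb.index := by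
    rw [← Cfsg.Agent.Lib.FrobGroup.card_kernel hFrob, hker]
    rfl
  have hKbne : Kb ≠ ⊥ := by
    intro h
    rw [h, Subgroup.card_bot] at hKbcard
    have := Cfsg.Agent.Lib.FrobGroup.one_lt_index hFrob
    omega
  obtain ⟨k0, hk0, hk0Z⟩ : ∃ k0 ∈ K, k0 ∉ Subgroup.center G := by
    obtain ⟨y, hy⟩ := Subgroup.ne_bot_iff_exists_ne_one.mp hKbne
    obtain ⟨k, hk⟩ := hsurj y
    refine ⟨k, (hmK k).mp (by rw [hk]; exact y.2), ?_⟩
    intro h
    apply hy
    apply Subtype.ext
    rw [← hk]
    exact (hmZ k).mpr h
  constructor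
  · ext n
    simp only [Set.mem_range, Set.mem_insert_iff, Set.mem_singleton_iff]
    constructor
    · rintro ⟨x, rfl⟩
      by_cases hxZ : x ∈ Subgroup.center G
      · left
        rw [Subgroup.index_eq_one, eq_top_iff]
        intro g _
        rw [Subgroup.mem_centralizer_singleton_iff]
        exact Subgroup.mem_center_iff.mp hxZ g
      · right
        by_cases hxK : x ∈ K
        · left; rw [hCK x hxK hxZ]
        · right
          have h1 : π x ∉ Cfsg.frobeniusKernel Hb := by rw [hmker, hmK]; exact hxK
          rw [Cfsg.Agent.Lib.FrobGroup.mem_kernel_iff] at h1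
          push Not at h1
          obtain ⟨hx1, ab, hab⟩ := h1
          obtain ⟨a, rfl⟩ := hsurj ab
          have h2 : a⁻¹ * x * a ∈ H := by
            rw [← hmH]
            simpa using hab
          have h3 : a⁻¹ * x * a ∉ Subgroup.center G := by
            intro h
            apply hxZ
            have h4 := (inferInstance : (Subgroup.center G).Normal).conj_mem _ h a
            have h5 : a * (a⁻¹ * x * a) * a⁻¹ = x := by group
            rwa [h5] at h4
          rw [← hconj x a, hCH _ h2 h3]
    · rintro (rfl | rfl | rfl)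
      · refine ⟨1, ?_⟩
        rw [Subgroup.index_eq_one, eq_top_iff]
        intro g _
        rw [Subgroup.mem_centralizer_singleton_iff]
        simp
      · exact ⟨k0, by rw [hCK k0 hk0 hk0Z]⟩
      · exact ⟨h0, by rw [hCH h0 hh0 hh0Z]⟩
  · have h1 : K.index = Kb.index := by
      rw [← hcK]; exact Subgroup.index_comap_of_surjective _ hsurj
    have h2 : H.index = Hb.index := by
      rw [← hcH]; exact Subgroup.index_comap_of_surjective _ hsurj
    have h3 : Kb.index = Nat.card Hb := by
      have h4 := Kb.card_mul_index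
      have h5 := Hb.card_mul_index
      rw [hKbcard, ← h5, mul_comm] at h4
      exact Nat.eq_of_mul_eq_mul_right (by have := Cfsg.Agent.Lib.FrobGroup.one_lt_index hFrob; omega) h4
    rw [h1, h2, h3]
    exact Cfsg.Agent.Lib.FrobGroup.coprime_card_index hFrob

end Cfsg.Agent.S4283
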