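import Cfsg.Statements.S4291
import Cfsg.Agent.Lib.FrobList3
-- import your own Cfsg.Agent.* helpers here

set_option autoImplicit false
open Cfsg

namespace Cfsg.Agent.S4291

/-- Let G be a finite group that occurs as a Frobenius complement. Then G has exactly one normal subgroup N such that every Sylow subgroup of N is cyclic and the quotient of G by N is trivial or isomorphic to one of the following five groups: the Klein four-group, the alternating group of degree 4, the symmetric group of degree 4, the alternating group of degree 5, the symmetric group of degree 5. (The quotient is described by a surjective homomorphism with kernel N; the Klein four-group is written as the dihedral group of order 4.) -/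
theorem result {G : Type*} [Group G] [Finite G]
    (hFC : (∃ (L : Type) (_ : Group L) (_ : Finite L) (H : Subgroup L), Cfsg.IsFrobeniusComplement H ∧ Nonempty (G ≃* H))) :
    ∃! N : Subgroup G, N.Normal ∧ (∀ (p : ℕ) [Fact p.Prime] (P : Sylow p N), IsCyclic P) ∧
      (N = ⊤ ∨
        (∃ f : G →* DihedralGroup 2, Function.Surjective f ∧ f.ker = N) ∨
        (∃ f : G →* alternatingGroup (Fin 4), Function.Surjective f ∧ f.ker = N) ∨
        (∃ f : G →* Equiv.Perm (Fin 4), Function.Surjective f ∧ f.ker = N) ∨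
        (∃ f : G →* alternatingGroup (Fin 5), Function.Surjective f ∧ f.ker = N) ∨
        (∃ f : G →* Equiv.Perm (Fin 5), Function.Surjective f ∧ f.ker = N)) := by
  have h : Cfsg.Agent.Lib.FrobExist.Occurs G := hFC
  have hfin := h.finite
  -- zgroup versus the statement
  have hz1 : ∀ N : Subgroup G, (∀ (p : ℕ) [Fact p.Prime] (P : Sylow p N), IsCyclic P) → IsZGroup N :=
    fun N hN => ⟨fun p hp P => @hN p ⟨hp⟩ P⟩
  have hz2 : ∀ N : Subgroup G, IsZGroup N → (∀ (p : ℕ) [Fact p.Prime] (P : Sylow p N), IsCyclic P) :=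
    fun N hN p hp P => hN.isZGroup p hp.out P
  have hc4 : Nat.card (alternatingGroup (Fin 4)) = 12 := by
    have := two_mul_card_alternatingGroup (α := Fin 4)
    rw [Fintype.card_perm, Fintype.card_fin, ← Nat.card_eq_fintype_card] at this
    have h24 : Nat.factorial 4 = 24 := rfl
    omega
  have hc5 : Nat.card (alternatingGroup (Fin 5)) = 60 := by
    have := two_mul_card_alternatingGroup (α := Fin 5)
    rw [Fintype.card_perm, Fintype.card_fin, ← Nat.card_eq_fintype_card] at this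
    have h24 : Nat.factorial 5 = 120 := rfl
    omega
  have hp4 : Nat.card (Equiv.Perm (Fin 4)) = 24 := by rw [Nat.card_perm, Nat.card_fin]; rfl
  have hp5 : Nat.card (Equiv.Perm (Fin 5)) = 120 := by rw [Nat.card_perm, Nat.card_fin]; rfl
  have hT : ∀ N : Subgroup G, (N = ⊤ ∨
        (∃ f : G →* DihedralGroup 2, Function.Surjective f ∧ f.ker = N) ∨
        (∃ f : G →* alternatingGroup (Fin 4), Function.Surjective f ∧ f.ker = N) ∨
        (∃ f : G →* Equiv.Perm (Fin 4), Function.Surjective f ∧ f.ker = N) ∨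
        (∃ f : G →* alternatingGroup (Fin 5), Function.Surjective f ∧ f.ker = N) ∨
        (∃ f : G →* Equiv.Perm (Fin 5), Function.Surjective f ∧ f.ker = N)) →
      N = ⊤ ∨ Cfsg.Agent.Lib.FrobList.Klein N ∨ Cfsg.Agent.Lib.FrobList.Big N := by
    rintro N (h1 | h1 | ⟨f, hf, hk⟩ | ⟨f, hf, hk⟩ | ⟨f, hf, hk⟩ | ⟨f, hf, hk⟩)
    · exact Or.inl h1
    · exact Or.inr (Or.inl h1)
    · exact Or.inr (Or.inr ⟨_, inferInstance, inferInstance, f,
        Cfsg.Agent.Lib.FrobList.np_alt Cfsg.Agent.Lib.FrobList.orderOf_le4 Cfsg.Agent.Lib.FrobList.np4,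
        by rw [hc4]; norm_num, hf, hk⟩)
    · exact Or.inr (Or.inr ⟨_, inferInstance, inferInstance, f,
        Cfsg.Agent.Lib.FrobList.np_perm Cfsg.Agent.Lib.FrobList.orderOf_le4 Cfsg.Agent.Lib.FrobList.np4,
        by rw [hp4]; norm_num, hf, hk⟩)
    · exact Or.inr (Or.inr ⟨_, inferInstance, inferInstance, f,
        Cfsg.Agent.Lib.FrobList.np_alt Cfsg.Agent.Lib.FrobList.orderOf_le6 Cfsg.Agent.Lib.FrobList.np5,
        by rw [hc5]; norm_num, hf, hk⟩)
    · exact Or.inr (Or.inr ⟨_, inferInstance, inferInstance, f,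
        Cfsg.Agent.Lib.FrobList.np_perm Cfsg.Agent.Lib.FrobList.orderOf_le6 Cfsg.Agent.Lib.FrobList.np5,
        by rw [hp5]; norm_num, hf, hk⟩)
  have hex : ∃ N : Subgroup G, N.Normal ∧ (∀ (p : ℕ) [Fact p.Prime] (P : Sylow p N), IsCyclic P) ∧
      (N = ⊤ ∨
        (∃ f : G →* DihedralGroup 2, Function.Surjective f ∧ f.ker = N) ∨
        (∃ f : G →* alternatingGroup (Fin 4), Function.Surjective f ∧ f.ker = N) ∨
        (∃ f : G →* Equiv.Perm (Fin 4), Function.Surjective f ∧ f.ker = N) ∨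
        (∃ f : G →* alternatingGroup (Fin 5), Function.Surjective f ∧ f.ker = N) ∨
        (∃ f : G →* Equiv.Perm (Fin 5), Function.Surjective f ∧ f.ker = N)) := by
    by_cases hs : Group.IsSolvable G
    · obtain ⟨N, hN, hZ, h1 | h1 | h1 | h1⟩ := Cfsg.Agent.Lib.FrobList.exists_solvable h hs
      · exact ⟨N, hN, hz2 N hZ, Or.inl h1⟩
      · exact ⟨N, hN, hz2 N hZ, Or.inr (Or.inl h1)⟩
      · exact ⟨N, hN, hz2 N hZ, Or.inr (Or.inr (Or.inl h1))⟩
      · exact ⟨N, hN, hz2 N hZ, Or.inr (Or.inr (Or.inr (Or.inl h1)))⟩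
    · obtain ⟨f, hf, hi⟩ := Cfsg.Agent.Lib.FrobList.exists_hom h hs
      have hZ : IsZGroup (Cfsg.Agent.Lib.FrobSolv.K0 G) :=
        Cfsg.Agent.Lib.FrobList.zgroup_of_sylow_two h _ (Cfsg.Agent.Lib.FrobList.card_inf h hs).2
      have hn : (Cfsg.Agent.Lib.FrobSolv.K0 G).Normal := by rw [← hf]; infer_instance
      rcases Cfsg.Agent.Lib.FrobList.perm_cases f hi with h1 | h1
      · rw [hf] at h1
        exact ⟨_, hn, hz2 _ hZ, Or.inr (Or.inr (Or.inr (Or.inr (Or.inl h1))))⟩
      · rw [hf] at h1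
        exact ⟨_, hn, hz2 _ hZ, Or.inr (Or.inr (Or.inr (Or.inr (Or.inr h1))))⟩
  obtain ⟨N, hN, hZ, hL⟩ := hex
  refine ⟨N, ⟨hN, hZ, hL⟩, ?_⟩
  rintro N' ⟨hN', hZ', hL'⟩
  have i1 := hN
  have i2 := hN'
  exact Cfsg.Agent.Lib.FrobList.unique h (hz1 _ hZ') (hz1 _ hZ) (hT _ hL') (hT _ hL)

end Cfsg.Agent.S4291
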