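import Cfsg.Statements.S4292
import Cfsg.Agent.Lib.FrobCharChange

set_option autoImplicit false
open Cfsg

namespace Cfsg.Agent.S4292

open Lib.FrobExist Lib.FrobLattice Lib.FrobCharChange Lib.FrobAction
open scoped TensorProduct

theorem coprime_of_occurs {A B : Type*} [Group A] [Group B] (h : Occurs (A × B)) :
    (Nat.card A).Coprime (Nat.card B) := by
  have hfin := h.finite
  have hA : Finite A := Finite.of_injective (fun a : A => (a, (1 : B))) (fun a b h => congrArg Prod.fst h)
  have hB : Finite B := Finite.of_injective (fun b : B => ((1 : A), b)) (fun a b h => congrArg Prod.snd h)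
  obtain ⟨V, _, _, _, act, hact⟩ := to_action h
  by_contra hcon
  obtain ⟨p, hp, hpA, hpB⟩ := Nat.Prime.not_coprime_iff_dvd.1 hcon
  have := Fact.mk hp
  obtain ⟨a, ha⟩ := exists_prime_orderOf_dvd_card' p hpA
  obtain ⟨b, hb⟩ := exists_prime_orderOf_dvd_card' p hpB
  have h1 : orderOf ((a, 1) : A × B) = p := by
    rw [Prod.orderOf_mk, orderOf_one, ha]; simp
  have h2 : orderOf ((1, b) : A × B) = p := by
    rw [Prod.orderOf_mk, orderOf_one, hb]; simp
  have hcomm : Commute ((a, 1) : A × B) (1, b) := by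
    change (a, (1 : B)) * (1, b) = (1, b) * (a, 1)
    simp
  obtain ⟨k, hk⟩ := Subgroup.mem_zpowers_iff.1 (mem_zpowers_of_commute hact hcomm h1 h2)
  have h3 := congrArg Prod.fst hk
  simp only [Prod.pow_fst, one_zpow] at h3
  rw [← h3, orderOf_one] at ha
  exact hp.one_lt.ne ha

theorem occursP_prod {A B : Type*} [Group A] [Finite A] [Group B] [Finite B] {ℓ : ℕ} [Fact ℓ.Prime]
    (hA : OccursP ℓ A) (hB : OccursP ℓ B) (hc : (Nat.card A).Coprime (Nat.card B)) :
    OccursP ℓ (A × B) := by
  obtain ⟨V, _, _, _, _, ρ, hρ⟩ := hA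
  obtain ⟨W, _, _, _, _, σ, hσ⟩ := hB
  have hVf : Module.Finite (ZMod ℓ) V := Module.Finite.of_finite
  have hWf : Module.Finite (ZMod ℓ) W := Module.Finite.of_finite
  let τ : A × B →* (V ⊗[ZMod ℓ] W →ₗ[ZMod ℓ] V ⊗[ZMod ℓ] W) :=
    { toFun := fun x => TensorProduct.map (ρ x.1) (σ x.2)
      map_one' := by
        rw [Prod.fst_one, Prod.snd_one, map_one, map_one]
        exact TensorProduct.map_one
      map_mul' := by
        intro x y
        rw [Prod.fst_mul, Prod.snd_mul, map_mul, map_mul]
        exact TensorProduct.map_mul _ _ _ _ }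
  have hτ : ∀ x : A × B, τ x = TensorProduct.map (ρ x.1) (σ x.2) := fun _ => rfl
  have keyA : ∀ a : A, a ≠ 1 → ∀ v : V ⊗[ZMod ℓ] W, τ (a, 1) v = v → v = 0 := by
    intro a ha v hv
    have hinj : Function.Injective (ρ a - 1 : V →ₗ[ZMod ℓ] V) := by
      rw [← LinearMap.ker_eq_bot, LinearMap.ker_eq_bot']
      intro m hm
      exact hρ a ha m (sub_eq_zero.1 hm)
    have h1 := Module.Flat.rTensor_preserves_injective_linearMap (M := W) (ρ a - 1 : V →ₗ[ZMod ℓ] V) hinj
    apply h1
    rw [map_zero, LinearMap.rTensor_sub, LinearMap.sub_apply, sub_eq_zero]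
    rw [hτ] at hv
    have h2 : (LinearMap.rTensor W (ρ a)) v = v := by
      rw [LinearMap.rTensor]
      convert hv using 3
      exact (map_one σ).symm
    have h3 : (LinearMap.rTensor W (1 : V →ₗ[ZMod ℓ] V)) v = v := LinearMap.rTensor_id_apply W V v
    rw [h2, h3]
  have keyB : ∀ b : B, b ≠ 1 → ∀ v : V ⊗[ZMod ℓ] W, τ (1, b) v = v → v = 0 := by
    intro b hb v hv
    have hinj : Function.Injective (σ b - 1 : W →ₗ[ZMod ℓ] W) := by
      rw [← LinearMap.ker_eq_bot, LinearMap.ker_eq_bot']
      intro m hm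
      exact hσ b hb m (sub_eq_zero.1 hm)
    have h1 := Module.Flat.lTensor_preserves_injective_linearMap (M := V) (σ b - 1 : W →ₗ[ZMod ℓ] W) hinj
    apply h1
    rw [map_zero, LinearMap.lTensor_sub, LinearMap.sub_apply, sub_eq_zero]
    rw [hτ] at hv
    have h2 : (LinearMap.lTensor V (σ b)) v = v := by
      rw [LinearMap.lTensor]
      convert hv using 3
      exact (map_one ρ).symm
    have h3 : (LinearMap.lTensor V (1 : W →ₗ[ZMod ℓ] W)) v = v := LinearMap.lTensor_id_apply V W v
    rw [h2, h3]
  refine ⟨V ⊗[ZMod ℓ] W, inferInstance, inferInstance, Module.finite_of_finite (ZMod ℓ), ?_, τ, ?_⟩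
  · apply Module.nontrivial_of_finrank_pos (R := ZMod ℓ)
    rw [Module.finrank_tensorProduct]
    exact Nat.mul_pos Module.finrank_pos Module.finrank_pos
  · rintro ⟨a, b⟩ hab v hv
    have hpow : ∀ n : ℕ, τ ((a, b) ^ n) v = v := by
      intro n
      induction n with
      | zero => rw [pow_zero, map_one]; rfl
      | succ n ih => rw [pow_succ, map_mul, Module.End.mul_apply, hv, ih]
    by_cases ha : a = 1
    · subst ha
      exact keyB b (fun hb => hab (by rw [hb]; rfl)) v hv
    · refine keyA (a ^ Nat.card B) ?_ v ?_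
      · intro h
        apply ha
        have h1 : orderOf a ∣ Nat.gcd (Nat.card A) (Nat.card B) :=
          Nat.dvd_gcd (orderOf_dvd_natCard a) (orderOf_dvd_of_pow_eq_one h)
        rw [hc, Nat.dvd_one, orderOf_eq_one_iff] at h1
        exact h1
      · have := hpow (Nat.card B)
        rwa [Prod.pow_mk, pow_card_eq_one'] at this

/-- Let A and B be nontrivial finite groups. Then the direct product A × B occurs as a Frobenius complement if and only if A and B both occur as Frobenius complements and the orders of A and B are coprime. -/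
theorem result {A B : Type*} [Group A] [Finite A] [Nontrivial A] [Group B] [Finite B] [Nontrivial B] :
    (∃ (L : Type) (_ : Group L) (_ : Finite L) (H : Subgroup L), Cfsg.IsFrobeniusComplement H ∧ Nonempty ((A × B) ≃* H)) ↔
    ((∃ (L : Type) (_ : Group L) (_ : Finite L) (H : Subgroup L), Cfsg.IsFrobeniusComplement H ∧ Nonempty (A ≃* H)) ∧
     (∃ (L : Type) (_ : Group L) (_ : Finite L) (H : Subgroup L), Cfsg.IsFrobeniusComplement H ∧ Nonempty (B ≃* H)) ∧
     (Nat.card A).Coprime (Nat.card B)) := by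
  constructor
  · intro h
    have h' : Occurs (A × B) := h
    refine ⟨h'.of_injective (MonoidHom.inl A B) (fun a b h => congrArg Prod.fst h),
      h'.of_injective (MonoidHom.inr A B) (fun a b h => congrArg Prod.snd h), coprime_of_occurs h'⟩
  · rintro ⟨hA, hB, hc⟩
    obtain ⟨ℓ, hℓ1, hℓ2⟩ := Nat.exists_infinite_primes (Nat.card A + Nat.card B + 1)
    have := Fact.mk hℓ2
    have hApos : 0 < Nat.card A := Nat.card_pos
    have hBpos : 0 < Nat.card B := Nat.card_pos
    have h1 : OccursP ℓ A := charChange hA ℓ (fun h => by have := Nat.le_of_dvd hApos h; omega)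
    have h2 : OccursP ℓ B := charChange hB ℓ (fun h => by have := Nat.le_of_dvd hBpos h; omega)
    exact (occursP_prod h1 h2 hc).occurs

end Cfsg.Agent.S4292
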