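import Cfsg.Statements.S4293
import Cfsg.Agent.Lib.FrobLattice

set_option autoImplicit false
open Cfsg

namespace Cfsg.Agent.S4293

open Lib.FrobExist Lib.FrobLattice

/-- A nontrivial finite subgroup of the multiplicative group of a division ring occurs as a Frobenius complement of some finite Frobenius group. -/
theorem result {D : Type*} [DivisionRing D] (H : Subgroup Dˣ) [Finite H] (hH : H ≠ ⊥) :
    ∃ (L : Type) (_ : Group L) (_ : Finite L) (C : Subgroup L), Cfsg.IsFrobeniusComplement C ∧ Nonempty (H ≃* C) := by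
  have hHnt : Nontrivial H := (Subgroup.nontrivial_iff_ne_bot H).2 hH
  let ψ := MonoidAlgebra.lift ℤ D H ((Units.coeHom D).comp H.subtype)
  let R : Subalgebra ℤ D := ψ.range
  have hfin : Module.Finite ℤ R := by
    exact Module.Finite.of_surjective ψ.rangeRestrict.toLinearMap ψ.rangeRestrict_surjective
  let g : H →* R := (ψ.rangeRestrict : MonoidAlgebra ℤ H →* R).comp (MonoidAlgebra.of ℤ H)
  have hg : ∀ h : H, ((g h : R) : D) = ((h : Dˣ) : D) := by
    intro h
    change ψ (MonoidAlgebra.of ℤ H h) = _
    simp [ψ]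
  have hcard : ∀ a : H, orderOf a ∣ Nat.card H := fun a => orderOf_dvd_natCard a
  have hN : ∀ a : H, a ≠ 1 → ∑ i ∈ Finset.range (orderOf a), ((g.toHomUnits a : R)) ^ i = 0 := by
    intro a ha
    have h1 : ((g.toHomUnits a : R)) = g a := rfl
    rw [h1]
    have h2 : (g a - 1) * ∑ i ∈ Finset.range (orderOf a), (g a) ^ i = 0 := by
      rw [mul_geom_sum, ← map_pow, pow_orderOf_eq_one, map_one, sub_self]
    rcases mul_eq_zero.1 h2 with h3 | h3
    · exfalso
      apply ha
      have h4 : ((g a : R) : D) = 1 := by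
        rw [sub_eq_zero.1 h3]; rfl
      rw [hg] at h4
      exact Subtype.ext (Units.ext h4)
    · exact h3
  obtain ⟨p, hp⟩ := CharP.exists D
  rcases CharP.char_is_prime_or_zero D p with hpp | hp0
  · haveI : Fact p.Prime := ⟨hpp⟩
    refine (of_ring g.toHomUnits p ?_ hN ?_).occurs
    · rintro a ⟨m, hm⟩
      have hapos : 0 < orderOf a := orderOf_pos a
      have hm0 : 0 < m := by
        rcases Nat.eq_zero_or_pos m with h | h
        · rw [h, mul_zero] at hm; omega
        · exact h
      have hb : orderOf (a ^ m) = p := by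
        rw [orderOf_pow' a hm0.ne', hm, Nat.gcd_eq_right (Dvd.intro_left p rfl), Nat.mul_div_cancel _ hm0]
      have h1 : (((a ^ m : H) : Dˣ) : D) ^ p = 1 := by
        rw [← Units.val_pow_eq_pow_val, ← Subgroup.coe_pow]
        rw [← hb, pow_orderOf_eq_one]; rfl
      have h2 : ((((a ^ m : H) : Dˣ) : D) - 1) ^ p = 0 := by
        rw [sub_pow_char_of_commute p (Commute.one_right _), h1, one_pow, sub_self]
      have h3 : (((a ^ m : H) : Dˣ) : D) = 1 := sub_eq_zero.1 (eq_zero_of_pow_eq_zero h2)
      have h4 : a ^ m = 1 := Subtype.ext (Units.ext h3)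
      rw [h4, orderOf_one] at hb
      exact hpp.one_lt.ne hb
    · have : ((p : ℕ) : R) = 0 := by
        apply Subtype.ext
        simp
      rw [this]
      exact not_isUnit_zero
  · subst hp0
    have : CharZero D := CharP.charP_to_charZero D
    obtain ⟨q, hq1, hq2⟩ := Nat.exists_infinite_primes (Nat.card H + 1)
    haveI : Fact q.Prime := ⟨hq2⟩
    refine (of_ring g.toHomUnits q ?_ hN ?_).occurs
    · intro a h
      have := Nat.le_of_dvd Nat.card_pos (h.trans (hcard a))
      omega
    · have : CharZero R := inferInstance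
      exact not_isUnit_of_charZero q

end Cfsg.Agent.S4293
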