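import Cfsg.Statements.S4296
import Cfsg.Agent.Lib.FrobExist
import Cfsg.Agent.Lib.QuatSquare

set_option autoImplicit false
open Cfsg

namespace Cfsg.Agent.S4296

open Lib Lib.FrobExist Lib.FrobAction Lib.QuatSquare

/-- Let H be a Frobenius complement in a finite group, and suppose some Sylow subgroup of H is not cyclic. Then the number of elements of the Frobenius kernel (the identity together with the elements lying in no conjugate of H) is an odd perfect square. -/
theorem result {L : Type*} [Group L] [Finite L] (H : Subgroup L) (hF : Cfsg.IsFrobeniusComplement H)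
    (hZ : ∃ (p : ℕ) (_ : Fact p.Prime) (P : Sylow p H), ¬ IsCyclic P) :
    Odd (Nat.card (Cfsg.frobeniusKernel H)) ∧ IsSquare (Nat.card (Cfsg.frobeniusKernel H)) := by
  obtain ⟨N, hN, hNn, hc⟩ := FrobThm.exists_kernel hF
  have hcard : Nat.card (frobeniusKernel H) = Nat.card N := by rw [← hN]; rfl
  rw [hcard]
  -- quaternion elements
  obtain ⟨i, j, hij1, hij2, hij3, hij4⟩ : ∃ i j : H, i * i = j * j ∧ i * i ≠ 1 ∧ (i * i) * (i * i) = 1 ∧
      i * j = j * i⁻¹ := by
    obtain ⟨p, _, P, hP⟩ := hZ
    obtain ⟨V, _, _, _, act, hact⟩ := to_action (occurs_of_isFrobeniusComplement H hF)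
    have h1 := pgroup_cyclic_or_quaternion (hact.comp P.toSubgroup.subtype P.toSubgroup.subtype_injective)
      P.isPGroup'
    rcases h1 with h1 | ⟨-, n, hn, ⟨e⟩⟩
    · exact absurd h1 hP
    · obtain ⟨i, j, h1, h2, h3, h4⟩ := exists_quat n hn
      refine ⟨(e.symm i : P), (e.symm j : P), ?_, ?_, ?_, ?_⟩
      · rw [← Subgroup.coe_mul, ← Subgroup.coe_mul, ← map_mul, ← map_mul, h1]
      · rw [← Subgroup.coe_mul, ← map_mul]
        intro h
        apply h2
        have : e.symm (i * i) = 1 := Subtype.ext h
        rwa [map_eq_one_iff _ e.symm.injective] at this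
      · rw [← Subgroup.coe_mul, ← Subgroup.coe_mul, ← map_mul, ← map_mul, h3, map_one]; rfl
      · rw [← Subgroup.coe_mul, ← map_mul, h4, map_mul, map_inv]; rfl
  have hdisj : ∀ x : L, x ∈ N → x ∈ H → x = 1 := by
    intro x h1 h2
    have := hc.disjoint.le_bot (show x ∈ N ⊓ H from ⟨h1, h2⟩)
    exact Subgroup.mem_bot.1 this
  let c : L →* MulAut N := MulAut.conjNormal
  set t : L := ((i * i : H) : L) with ht
  have htH : t ∈ H := (i * i).2
  have ht1 : t ≠ 1 := fun h => hij2 (Subtype.ext h)
  have htt : t * t = 1 := by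
    have := congrArg Subtype.val hij3
    exact this
  have hfpf : MonoidHom.FixedPointFree (c t) := by
    intro n hn
    have h1 : t * (n : L) * t⁻¹ = n := by
      have := congrArg Subtype.val hn
      simpa [c] using this
    apply Subtype.ext
    apply hdisj _ n.2
    apply FrobGroup.mem_of_commute hF htH ht1
    exact (mul_inv_eq_iff_eq_mul.1 h1).symm
  have hinv : Function.Involutive (c t) := by
    intro n
    rw [← MulAut.mul_apply, ← map_mul, htt, map_one]; rfl
  have hodd := hfpf.odd_card_of_involutive hinv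
  refine ⟨hodd, ?_⟩
  have hcomm := hfpf.commute_all_of_involutive hinv
  have hneg := hfpf.coe_eq_inv_of_involutive hinv
  let iN : CommGroup N := { (inferInstance : Group N) with mul_comm := hcomm }
  let φ : L → AddMonoid.End (Additive N) := fun x => MonoidHom.toAdditive (c x).toMonoidHom
  have hφ : ∀ x (y : N), φ x (Additive.ofMul y) = Additive.ofMul (c x y) := fun _ _ => rfl
  have hφmul : ∀ x y, φ x * φ y = φ (x * y) := by
    intro x y
    refine AddMonoidHom.ext fun z => ?_
    change Additive.ofMul (c x (c y z.toMul)) = Additive.ofMul (c (x * y) z.toMul)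
    rw [map_mul]; rfl
  have hφt : φ t = -1 := by
    refine AddMonoidHom.ext fun z => ?_
    change Additive.ofMul (c t z.toMul) = - z
    rw [hneg]; rfl
  have hti : (i : L) * (i : L) = t := rfl
  have htj : (j : L) * (j : L) = t := by
    have := congrArg Subtype.val hij1
    exact this.symm
  have htij : (i : L) * j = t * (j * i) := by
    have h4 : (i : L) * j = j * (i : L)⁻¹ := congrArg Subtype.val hij4
    have h5 : (i : L) * t = t * i := by rw [← hti]; group
    have h6 : (j : L) * t = t * j := by rw [← htj]; group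
    have h7 : (i : L)⁻¹ = t * i := by
      rw [inv_eq_iff_mul_eq_one, ← mul_assoc, h5, mul_assoc, hti, htt]
    rw [h4, h7, ← mul_assoc, h6, mul_assoc]
  refine isSquare_card (M := Additive N) hodd (φ i) (φ j) ?_ ?_ ?_
  · rw [hφmul, hti, hφt]
  · rw [hφmul, htj, hφt]
  · rw [hφmul, hφmul, htij, ← hφmul, hφt]
    exact neg_one_mul (φ ((j : L) * i))

end Cfsg.Agent.S4296
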