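import Cfsg.Statements.S4295
import Cfsg.Agent.S4296
import Cfsg.Agent.Lib.FrobExistCard
import Cfsg.Agent.Lib.QuatLift
import Cfsg.Agent.Lib.QuatSquare

set_option autoImplicit false
open Cfsg

namespace Cfsg.Agent.S4295

open Lib Lib.FrobExist Lib.FrobExistCard Lib.FrobAction Lib.QuatSquare

theorem card_kernel_of_quat {L : Type} [Group L] [Finite L] (H : Subgroup L)
    (hF : Cfsg.IsFrobeniusComplement H) (e : H ≃* QuaternionGroup 2) :
    Odd (Nat.card (frobeniusKernel H)) ∧ IsSquare (Nat.card (frobeniusKernel H)) := by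
  apply S4296.result H hF
  have h2 : Fact (Nat.Prime 2) := ⟨Nat.prime_two⟩
  have hcard : Nat.card H = 2 ^ 3 := by
    rw [Nat.card_congr e.toEquiv, Nat.card_eq_fintype_card, QuaternionGroup.card]; rfl
  refine ⟨2, h2, default, fun hcyc => ?_⟩
  have hP : IsPGroup 2 H := IsPGroup.of_card hcard
  have hsc := (default : Sylow 2 H).card_eq_multiplicity
  rw [hcard] at hsc
  have h3 : Nat.factorization (2 ^ 3) 2 = 3 := by
    rw [Nat.Prime.factorization_pow Nat.prime_two]; simp
  rw [h3] at hsc
  have htop : ((default : Sylow 2 H) : Subgroup H) = ⊤ := by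
    apply Subgroup.eq_top_of_card_eq
    rw [hcard]; exact hsc
  have hcomm : ∀ x y : H, x * y = y * x := by
    obtain ⟨g, hg⟩ := hcyc
    intro x y
    obtain ⟨k, hk⟩ := Subgroup.mem_zpowers_iff.1 (hg ⟨x, by
      change x ∈ ((default : Sylow 2 H) : Subgroup H)
      rw [htop]; trivial⟩)
    obtain ⟨l, hl⟩ := Subgroup.mem_zpowers_iff.1 (hg ⟨y, by
      change y ∈ ((default : Sylow 2 H) : Subgroup H)
      rw [htop]; trivial⟩)
    have hx : x = (g : H) ^ k := (congrArg Subtype.val hk).symm
    have hy : y = (g : H) ^ l := (congrArg Subtype.val hl).symm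
    rw [hx, hy, ← zpow_add, ← zpow_add, add_comm]
  have h4 : (QuaternionGroup.a 1 : QuaternionGroup 2) * QuaternionGroup.xa 0
      = QuaternionGroup.xa 0 * QuaternionGroup.a 1 := by
    apply e.symm.injective
    rw [map_mul, map_mul, hcomm]
  revert h4
  decide

/-- Existence from a quaternion pair of endomorphisms. -/
theorem exists_of_pair {M : Type} [AddCommGroup M] [Finite M] [Nontrivial M]
    (htwo : ∀ z : M, -z = z → z = 0) (I J : AddMonoid.End M) (hII : I * I = -1) (hJJ : J * J = -1)
    (hIJ : I * J = -(J * I)) :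
    ∃ (L : Type) (_ : Group L) (_ : Finite L) (H : Subgroup L), Cfsg.IsFrobeniusComplement H ∧
        Nonempty (H ≃* QuaternionGroup 2) ∧ Nat.card (Cfsg.frobeniusKernel H) = Nat.card M := by
  let Iu : (AddMonoid.End M)ˣ := ⟨I, -I, by rw [mul_neg, hII, neg_neg], by rw [neg_mul, hII, neg_neg]⟩
  let Ju : (AddMonoid.End M)ˣ := ⟨J, -J, by rw [mul_neg, hJJ, neg_neg], by rw [neg_mul, hJJ, neg_neg]⟩
  have hII2 : Iu ^ 2 = -1 := by
    rw [pow_two]; exact Units.ext hII
  have h1 : Iu ^ (2 * 2) = 1 := by
    rw [pow_mul, hII2]; simp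
  have h2 : Ju * Ju = Iu ^ 2 := by
    rw [hII2]; exact Units.ext hJJ
  have h3 : Iu * Ju = Ju * Iu⁻¹ := by
    apply Units.ext
    change I * J = J * -I
    rw [hIJ, mul_neg]
  let f : QuaternionGroup 2 →* (AddMonoid.End M)ˣ := QuatLift.lift 2 Iu Ju h1 h2 h3
  have ht : f (QuaternionGroup.a 2) = -1 := by
    have : f (QuaternionGroup.a 2) = (QuatLift.pw 2 Iu h1 ((2 : ℕ) : ZMod (2 * 2))).toMul := rfl
    rw [this, QuatLift.pw_natCast, hII2]
  have hfix : ∀ v : M, f (QuaternionGroup.a 2) • v = v → v = 0 := by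
    intro v hv
    rw [ht] at hv
    exact htwo v hv
  have hq : ∀ g : QuaternionGroup 2, g ≠ 1 → g = QuaternionGroup.a 2 ∨ g * g = QuaternionGroup.a 2 := by
    decide
  obtain ⟨L, i1, i2, H, hH, ⟨e⟩, hcard⟩ := of_action_card (A := QuaternionGroup 2) (V := Multiplicative M)
    ((toMulAut' (AddMonoid.End M)ˣ M).comp f) (by
      intro g hg v hv
      have hv' : f g • v.toAdd = v.toAdd := hv
      rcases hq g hg with rfl | h
      · exact hfix v.toAdd hv'
      · apply hfix v.toAdd
        rw [← h, map_mul, mul_smul, hv', hv'])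
  exact ⟨L, i1, i2, H, hH, ⟨e.symm⟩, hcard⟩

section

variable {R : Type} [CommRing R]

/-- the first generator -/
def Iend : AddMonoid.End (R × R) where
  toFun v := (-v.2, v.1)
  map_zero' := by simp
  map_add' v w := by
    ext
    · simp [add_comm]
    · simp

/-- the second generator -/
def Jend (a b : R) : AddMonoid.End (R × R) where
  toFun v := (a * v.1 + b * v.2, b * v.1 - a * v.2)
  map_zero' := by simp
  map_add' v w := by
    ext
    · simp; ring
    · simp; ring

theorem Iend_apply (v : R × R) : Iend v = (-v.2, v.1) := rfl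

theorem Jend_apply (a b : R) (v : R × R) : Jend a b v = (a * v.1 + b * v.2, b * v.1 - a * v.2) := rfl

theorem Iend_sq : (Iend : AddMonoid.End (R × R)) * Iend = -1 := by
  refine AddMonoidHom.ext fun v => ?_
  change Iend (Iend v) = - v
  rw [Iend_apply, Iend_apply]; rfl

theorem Jend_sq {a b : R} (h : a * a + b * b = -1) : Jend a b * Jend a b = -1 := by
  refine AddMonoidHom.ext fun v => ?_
  change Jend a b (Jend a b v) = - v
  rw [Jend_apply, Jend_apply]
  ext
  · simp only [Prod.fst_neg]
    linear_combination v.1 * h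
  · simp only [Prod.snd_neg]
    linear_combination v.2 * h

theorem Iend_mul_Jend (a b : R) : Iend * Jend a b = -(Jend a b * Iend) := by
  refine AddMonoidHom.ext fun v => ?_
  change Iend (Jend a b v) = - (Jend a b (Iend v))
  rw [Jend_apply, Iend_apply, Iend_apply, Jend_apply]
  ext
  · simp only [Prod.fst_neg]; ring
  · simp only [Prod.snd_neg]; ring

end

/-- The quaternion action on `(ZMod n)²`. -/
theorem exists_of_odd {n : ℕ} (hn : Odd n) (hn1 : 1 < n) :
    ∃ (L : Type) (_ : Group L) (_ : Finite L) (H : Subgroup L), Cfsg.IsFrobeniusComplement H ∧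
        Nonempty (H ≃* QuaternionGroup 2) ∧ Nat.card (Cfsg.frobeniusKernel H) = n * n := by
  obtain ⟨a, b, hab⟩ := exists_sq_add_sq hn
  have hab' : ((a : ZMod n) * a + b * b) = -1 := by
    have : ((a ^ 2 + b ^ 2 + 1 : ℕ) : ZMod n) = 0 := (ZMod.natCast_eq_zero_iff _ _).2 hab
    push_cast at this
    rw [eq_neg_iff_add_eq_zero, ← this]
    ring
  have : NeZero n := ⟨by omega⟩
  have : Fact (1 < n) := ⟨hn1⟩
  have h5 : ∀ z : ZMod n, -z = z → z = 0 := by
    intro z hz
    obtain ⟨m, hm⟩ := hn
    have h6 : (2 : ZMod n) * z = 0 := by linear_combination -hz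
    have h7 : ((2 * m + 1 : ℕ) : ZMod n) = 0 := by rw [← hm]; exact ZMod.natCast_self n
    push_cast at h7
    linear_combination z * h7 - m * h6
  have key := exists_of_pair (M := ZMod n × ZMod n) (fun z hz => by
    ext
    · exact h5 _ (congrArg Prod.fst hz)
    · exact h5 _ (congrArg Prod.snd hz)) Iend (Jend a b) Iend_sq (Jend_sq hab') (Iend_mul_Jend _ _)
  rwa [Nat.card_prod, Nat.card_zmod] at key

/-- For a natural number m the following are equivalent: (a) some finite group has a Frobenius complement isomorphic to the quaternion group of order 8 whose Frobenius kernel (the identity together with the elements lying in no conjugate of the complement) has exactly m elements; (b) m is an odd perfect square greater than 1. -/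
theorem result (m : ℕ) :
    (∃ (L : Type) (_ : Group L) (_ : Finite L) (H : Subgroup L), Cfsg.IsFrobeniusComplement H ∧
        Nonempty (H ≃* QuaternionGroup 2) ∧ Nat.card (Cfsg.frobeniusKernel H) = m) ↔
    (Odd m ∧ IsSquare m ∧ 1 < m) := by
  constructor
  · rintro ⟨L, _, _, H, hH, ⟨e⟩, rfl⟩
    obtain ⟨h1, h2⟩ := card_kernel_of_quat H hH e
    refine ⟨h1, h2, ?_⟩
    rw [FrobGroup.card_kernel hH] at h1 ⊢
    have h3 : H.index ≠ 1 := fun h => hH.2.1 (Subgroup.index_eq_one.1 h)
    have := h1.pos
    omega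
  · rintro ⟨h1, ⟨n, rfl⟩, h3⟩
    apply exists_of_odd
    · exact (Nat.odd_mul.1 h1).1
    · by_contra h
      have : n = 0 ∨ n = 1 := by omega
      rcases this with rfl | rfl <;> omega

end Cfsg.Agent.S4295
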