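import Cfsg.Statements.S4299
import Cfsg.Agent.Lib.FrobExist
import Mathlib.NumberTheory.PrimesCongruentOne

set_option autoImplicit false

open Cfsg

namespace Cfsg.Agent.S4299

/-- a unit of order n modulo some prime -/
theorem exists_unit (n : ℕ) (hn : n ≠ 0) : ∃ (q : ℕ) (_ : Fact q.Prime) (u : (ZMod q)ˣ), orderOf u = n := by
  obtain ⟨q, hq, -, hqn⟩ := Nat.exists_prime_gt_modEq_one 1 hn
  have hf : Fact q.Prime := ⟨hq⟩
  have h1 : n ∣ Nat.card (ZMod q)ˣ := by
    rw [Nat.card_eq_fintype_card, ZMod.card_units]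
    exact (Nat.modEq_iff_dvd' hq.one_lt.le).1 hqn.symm
  obtain ⟨g, hg⟩ := IsCyclic.exists_generator (α := (ZMod q)ˣ)
  have h2 : orderOf g = Nat.card (ZMod q)ˣ := orderOf_eq_card_of_forall_mem_zpowers hg
  obtain ⟨m, hm⟩ := h1
  have hmpos : m ≠ 0 := by
    rintro rfl
    rw [mul_zero] at hm
    exact Nat.card_pos.ne' hm
  refine ⟨q, hf, g ^ m, ?_⟩
  rw [orderOf_pow, h2, hm, Nat.gcd_mul_left_left]
  exact Nat.mul_div_cancel _ (Nat.pos_of_ne_zero hmpos)

/-- Every nontrivial finite cyclic group occurs as a Frobenius complement of some finite Frobenius group. -/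
theorem result {C : Type*} [Group C] [Finite C] [IsCyclic C] [Nontrivial C] :
    ∃ (L : Type) (_ : Group L) (_ : Finite L) (H : Subgroup L), Cfsg.IsFrobeniusComplement H ∧ Nonempty (C ≃* H) := by
  obtain ⟨q, hf, u, hu⟩ := exists_unit (Nat.card C) Nat.card_pos.ne'
  have e : C ≃* Subgroup.zpowers u := mulEquivOfCyclicCardEq (by rw [Nat.card_zpowers, hu])
  have hnt : Nontrivial (Subgroup.zpowers u) := e.symm.toEquiv.nontrivial
  have h : Lib.FrobExist.Occurs (Subgroup.zpowers u) := by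
    apply Lib.FrobExist.of_distribMulAction (Subgroup.zpowers u) (ZMod q)
    intro a ha v hv
    have h1 : ((a : (ZMod q)ˣ) : ZMod q) * v = v := hv
    by_contra hv0
    apply ha
    apply Subtype.ext
    apply Units.ext
    exact mul_right_cancel₀ hv0 (h1.trans (one_mul v).symm)
  exact h.of_equiv e

end Cfsg.Agent.S4299
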