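import Cfsg.Statements.S4297
import Cfsg.Agent.Lib.FrobExist
import Cfsg.Agent.Lib.QuatLift
import Cfsg.Agent.S4299

set_option autoImplicit false

open Cfsg

namespace Cfsg.Agent.S4297

section maps

variable {F : Type*} [Field F] (ζ : Fˣ)

/-- diagonal map -/
def dg : (F × F) ≃ₗ[F] (F × F) where
  toFun v := ((ζ : F) * v.1, ((ζ⁻¹ : Fˣ) : F) * v.2)
  invFun v := (((ζ⁻¹ : Fˣ) : F) * v.1, (ζ : F) * v.2)
  left_inv v := by
    ext <;> simp
  right_inv v := by
    ext <;> simp
  map_add' v w := by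
    ext <;> simp [mul_add]
  map_smul' c v := by
    ext <;> simp [mul_left_comm]

/-- the quarter turn -/
def qt (F : Type*) [Field F] : (F × F) ≃ₗ[F] (F × F) where
  toFun v := (-v.2, v.1)
  invFun v := (v.2, -v.1)
  left_inv v := by
    ext <;> simp
  right_inv v := by
    ext <;> simp
  map_add' v w := by
    ext
    · simp [add_comm]
    · simp
  map_smul' c v := by
    ext <;> simp

theorem dg_pow (k : ℕ) (v : F × F) : (dg ζ ^ k) v = ((ζ : F) ^ k * v.1, ((ζ⁻¹ : Fˣ) : F) ^ k * v.2) := by
  induction k with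
  | zero => simp
  | succ k ih =>
    rw [pow_succ', LinearEquiv.mul_apply, ih]
    ext
    · change (ζ : F) * _ = _
      simp only [pow_succ']; ring
    · change ((ζ⁻¹ : Fˣ) : F) * _ = _
      simp only [pow_succ']; ring

end maps

/-- For every n ≥ 2 the dicyclic group of order 4n (generated by an element a of order 2n and an element x with x² = aⁿ and x a x⁻¹ = a⁻¹) occurs as a Frobenius complement of some finite Frobenius group. -/
theorem result (n : ℕ) (hn : 2 ≤ n) :
    ∃ (L : Type) (_ : Group L) (_ : Finite L) (H : Subgroup L), Cfsg.IsFrobeniusComplement H ∧ Nonempty (H ≃* QuaternionGroup n) := by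
  have hn0 : NeZero n := ⟨by omega⟩
  obtain ⟨q, hf, ζ, hζ⟩ := S4299.exists_unit (2 * n) (by omega)
  have h1u : ζ ^ (2 * n) = 1 := by
    rw [← hζ]; exact pow_orderOf_eq_one ζ
  have h1 : (ζ : ZMod q) ^ (2 * n) = 1 := by
    rw [← Units.val_pow_eq_pow_val, h1u, Units.val_one]
  have h1' : ((ζ⁻¹ : (ZMod q)ˣ) : ZMod q) ^ (2 * n) = 1 := by
    rw [← Units.val_pow_eq_pow_val, inv_pow, h1u, inv_one, Units.val_one]
  have hne : (2 : ZMod q) ≠ 0 := by
    intro h2
    have h3 : q ∣ 2 := (ZMod.natCast_eq_zero_iff 2 q).1 (by exact_mod_cast h2)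
    have h4 : q = 2 := (Nat.prime_dvd_prime_iff_eq hf.out Nat.prime_two).1 h3
    have h5 : orderOf ζ ∣ Nat.card (ZMod q)ˣ := orderOf_dvd_natCard ζ
    rw [hζ, Nat.card_eq_fintype_card, ZMod.card_units, h4] at h5
    have := Nat.le_of_dvd (by norm_num) h5
    omega
  have h2 : (ζ : ZMod q) ^ n = -1 := by
    have h3 : ((ζ : ZMod q) ^ n) ^ 2 = 1 := by rw [← pow_mul, mul_comm, h1]
    rcases sq_eq_one_iff.1 h3 with h | h
    · exfalso
      have h4 : ζ ^ n = 1 := by
        apply Units.ext
        rw [Units.val_pow_eq_pow_val, h, Units.val_one]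
      have h5 := orderOf_dvd_of_pow_eq_one h4
      rw [hζ] at h5
      have := Nat.le_of_dvd (by omega) h5
      omega
    · exact h
  have h2' : ((ζ⁻¹ : (ZMod q)ˣ) : ZMod q) ^ n = -1 := by
    have h3 : (ζ : ZMod q) ^ n * ((ζ⁻¹ : (ZMod q)ˣ) : ZMod q) ^ n = 1 := by
      rw [← mul_pow, Units.mul_inv, one_pow]
    rw [h2] at h3
    linear_combination -h3
  have r1 : dg ζ ^ (2 * n) = 1 := by
    apply LinearEquiv.ext
    intro v
    rw [dg_pow, h1, h1', one_mul, one_mul]; rfl
  have r2 : qt (ZMod q) * qt (ZMod q) = dg ζ ^ n := by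
    apply LinearEquiv.ext
    intro v
    rw [dg_pow, h2, h2', neg_one_mul, neg_one_mul]; rfl
  have r3 : dg ζ * qt (ZMod q) = qt (ZMod q) * (dg ζ)⁻¹ := by
    apply LinearEquiv.ext
    intro v
    ext
    · change (ζ : ZMod q) * (-v.2) = -((ζ : ZMod q) * v.2)
      ring
    · rfl
  let f := Lib.QuatLift.lift n (dg ζ) (qt (ZMod q)) r1 r2 r3
  have h : Lib.FrobExist.Occurs (QuaternionGroup n) := by
    have : Nontrivial (QuaternionGroup n) := by
      rw [← Finite.one_lt_card_iff_nontrivial, Nat.card_eq_fintype_card, QuaternionGroup.card]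
      omega
    apply Lib.FrobExist.of_hom (V := ZMod q × ZMod q) f
    rintro (i | i) ha v hv
    · have hi0 : i ≠ 0 := by
        rintro rfl; exact ha rfl
      have hv' : (f (QuaternionGroup.a i)) v = v := hv
      have e1 : f (QuaternionGroup.a i) = dg ζ ^ i.val := Lib.QuatLift.pw_eq_pow_val n (dg ζ) r1 i
      rw [e1, dg_pow] at hv'
      have hne1 : (ζ : ZMod q) ^ i.val ≠ 1 := by
        intro h
        have h4 : ζ ^ i.val = 1 := by
          apply Units.ext
          rw [Units.val_pow_eq_pow_val, h, Units.val_one]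
        have h5 := orderOf_dvd_of_pow_eq_one h4
        rw [hζ] at h5
        have h6 := ZMod.val_lt i
        have h7 := Nat.eq_zero_of_dvd_of_lt h5 h6
        exact hi0 ((ZMod.val_eq_zero i).1 h7)
      have hne2 : ((ζ⁻¹ : (ZMod q)ˣ) : ZMod q) ^ i.val ≠ 1 := by
        intro h
        apply hne1
        have h3 : (ζ : ZMod q) ^ i.val * ((ζ⁻¹ : (ZMod q)ˣ) : ZMod q) ^ i.val = 1 := by
          rw [← mul_pow, Units.mul_inv, one_pow]
        rwa [h, mul_one] at h3
      have e2 := congrArg Prod.fst hv'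
      have e3 := congrArg Prod.snd hv'
      simp only at e2 e3
      ext
      · by_contra h0
        exact hne1 (mul_right_cancel₀ h0 (e2.trans (one_mul _).symm))
      · by_contra h0
        exact hne2 (mul_right_cancel₀ h0 (e3.trans (one_mul _).symm))
    · have hv' : (f (QuaternionGroup.xa i)) v = v := hv
      have e1 : f (QuaternionGroup.xa i) * f (QuaternionGroup.xa i) = dg ζ ^ n := by
        rw [← map_mul, ← pow_two, QuaternionGroup.xa_sq]
        exact Lib.QuatLift.pw_natCast n (dg ζ) r1 n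
      have e2 : (dg ζ ^ n) v = v := by
        rw [← e1, LinearEquiv.mul_apply, hv', hv']
      rw [dg_pow, h2, h2'] at e2
      have e3 := congrArg Prod.fst e2
      have e4 := congrArg Prod.snd e2
      simp only at e3 e4
      ext
      · have : (2 : ZMod q) * v.1 = 0 := by linear_combination -e3
        exact (mul_eq_zero.1 this).resolve_left hne
      · have : (2 : ZMod q) * v.2 = 0 := by linear_combination -e4
        exact (mul_eq_zero.1 this).resolve_left hne
  obtain ⟨L, i1, i2, H, hH, ⟨e⟩⟩ := h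
  exact ⟨L, i1, i2, H, hH, ⟨e.symm⟩⟩

end Cfsg.Agent.S4297
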