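import Cfsg.Statements.S4298
import Cfsg.Agent.Lib.FrobExist

set_option autoImplicit false

open Cfsg

namespace Cfsg.Agent.S4298

/-- powers of 2 mod 7, indexed mod 3 -/
def w (t : ZMod 3) : ZMod 7 := if t = 0 then 1 else if t = 1 then 2 else 4

/-- sign character -/
def s (a : ZMod 3) : ZMod 7 := if a = 1 then 1 else -1

/-- entries of the image (twisted Weil representation of SL(2,3) mod 7) -/
def F (a b c d : ZMod 3) : ZMod 7 × ZMod 7 × ZMod 7 × ZMod 7 :=
  if c = 0 then (s a * w (a * b), 0, 0, s a * w (2 * (a * b)))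
  else
    (s (-c) * (w (a * c) * 4 * w (d * c)), s (-c) * (w (a * c) * 1 * w (2 * (d * c))),
      s (-c) * (w (2 * (a * c)) * 4 * w (d * c)), s (-c) * (w (2 * (a * c)) * 3 * w (2 * (d * c))))

theorem F_mul : ∀ a b c d a' b' c' d' : ZMod 3, a * d - b * c = 1 → a' * d' - b' * c' = 1 →
    F (a * a' + b * c') (a * b' + b * d') (c * a' + d * c') (c * b' + d * d') =
      ((F a b c d).1 * (F a' b' c' d').1 + (F a b c d).2.1 * (F a' b' c' d').2.2.1,
       (F a b c d).1 * (F a' b' c' d').2.1 + (F a b c d).2.1 * (F a' b' c' d').2.2.2,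
       (F a b c d).2.2.1 * (F a' b' c' d').1 + (F a b c d).2.2.2 * (F a' b' c' d').2.2.1,
       (F a b c d).2.2.1 * (F a' b' c' d').2.1 + (F a b c d).2.2.2 * (F a' b' c' d').2.2.2) := by
  decide +kernel

theorem F_fpf : ∀ a b c d : ZMod 3, a * d - b * c = 1 → (a, b, c, d) ≠ (1, 0, 0, 1) →
    ((F a b c d).1 - 1) * ((F a b c d).2.2.2 - 1) - (F a b c d).2.1 * (F a b c d).2.2.1 ≠ 0 := by
  decide +kernel

/-- the image matrix -/
def M (g : Matrix.SpecialLinearGroup (Fin 2) (ZMod 3)) : Matrix (Fin 2) (Fin 2) (ZMod 7) :=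
  !![(F (g.1 0 0) (g.1 0 1) (g.1 1 0) (g.1 1 1)).1, (F (g.1 0 0) (g.1 0 1) (g.1 1 0) (g.1 1 1)).2.1;
     (F (g.1 0 0) (g.1 0 1) (g.1 1 0) (g.1 1 1)).2.2.1, (F (g.1 0 0) (g.1 0 1) (g.1 1 0) (g.1 1 1)).2.2.2]

theorem M_mul (g h : Matrix.SpecialLinearGroup (Fin 2) (ZMod 3)) : M (g * h) = M g * M h := by
  have hg : g.1 0 0 * g.1 1 1 - g.1 0 1 * g.1 1 0 = 1 := by
    rw [← Matrix.det_fin_two]; exact g.2
  have hh : h.1 0 0 * h.1 1 1 - h.1 0 1 * h.1 1 0 = 1 := by
    rw [← Matrix.det_fin_two]; exact h.2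
  have key := F_mul _ _ _ _ _ _ _ _ hg hh
  have e00 : (g * h).1 0 0 = g.1 0 0 * h.1 0 0 + g.1 0 1 * h.1 1 0 := by
    rw [Matrix.SpecialLinearGroup.coe_mul, Matrix.mul_apply, Fin.sum_univ_two]
  have e01 : (g * h).1 0 1 = g.1 0 0 * h.1 0 1 + g.1 0 1 * h.1 1 1 := by
    rw [Matrix.SpecialLinearGroup.coe_mul, Matrix.mul_apply, Fin.sum_univ_two]
  have e10 : (g * h).1 1 0 = g.1 1 0 * h.1 0 0 + g.1 1 1 * h.1 1 0 := by
    rw [Matrix.SpecialLinearGroup.coe_mul, Matrix.mul_apply, Fin.sum_univ_two]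
  have e11 : (g * h).1 1 1 = g.1 1 0 * h.1 0 1 + g.1 1 1 * h.1 1 1 := by
    rw [Matrix.SpecialLinearGroup.coe_mul, Matrix.mul_apply, Fin.sum_univ_two]
  unfold M
  rw [e00, e01, e10, e11, key, Matrix.mul_fin_two]

theorem M_one : M 1 = 1 := by
  have : F 1 0 0 1 = (1, 0, 0, 1) := by decide +kernel
  unfold M
  rw [Matrix.SpecialLinearGroup.coe_one, Matrix.one_apply_eq, Matrix.one_apply_eq,
    Matrix.one_apply_ne (by decide), Matrix.one_apply_ne (by decide), this, Matrix.one_fin_two]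

/-- the representation -/
def rep : Matrix.SpecialLinearGroup (Fin 2) (ZMod 3) →* Module.End (ZMod 7) (Fin 2 → ZMod 7) where
  toFun g := Matrix.toLin' (M g)
  map_one' := by rw [M_one, Matrix.toLin'_one]; rfl
  map_mul' g h := by rw [M_mul, Matrix.toLin'_mul]; rfl

/-- The group SL(2,3) of order 24 (the binary tetrahedral group) occurs as a Frobenius complement of some finite Frobenius group. -/
theorem result :
    ∃ (L : Type) (_ : Group L) (_ : Finite L) (H : Subgroup L), Cfsg.IsFrobeniusComplement H ∧ Nonempty (H ≃* Matrix.SpecialLinearGroup (Fin 2) (ZMod 3)) := by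
  have hp : Fact (Nat.Prime 7) := ⟨by norm_num⟩
  have hnt : Nontrivial (Matrix.SpecialLinearGroup (Fin 2) (ZMod 3)) := by
    refine ⟨1, -1, fun h => ?_⟩
    have h1 := congrArg (fun g : Matrix.SpecialLinearGroup (Fin 2) (ZMod 3) => g.1 0 0) h
    have h2 : (1 : ZMod 3) = -1 := by simpa using h1
    exact absurd h2 (by decide)
  have h : Lib.FrobExist.Occurs (Matrix.SpecialLinearGroup (Fin 2) (ZMod 3)) := by
    apply Lib.FrobExist.of_hom (V := Fin 2 → ZMod 7) rep.toHomUnits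
    intro g hg v hv
    have hv' : Matrix.mulVec (M g) v = v := hv
    have hdet : g.1 0 0 * g.1 1 1 - g.1 0 1 * g.1 1 0 = 1 := by
      rw [← Matrix.det_fin_two]; exact g.2
    have hne : (g.1 0 0, g.1 0 1, g.1 1 0, g.1 1 1) ≠ (1, 0, 0, 1) := by
      intro h
      apply hg
      simp only [Prod.mk.injEq] at h
      apply Matrix.SpecialLinearGroup.ext
      intro i j
      fin_cases i <;> fin_cases j
      · exact h.1
      · exact h.2.1
      · exact h.2.2.1
      · exact h.2.2.2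
    have key := F_fpf _ _ _ _ hdet hne
    have e0 := congrFun hv' 0
    have e1 := congrFun hv' 1
    unfold M at e0 e1
    rw [Matrix.mulVec, dotProduct, Fin.sum_univ_two] at e0 e1
    simp only [Matrix.of_apply, Matrix.cons_val_zero, Matrix.cons_val_one, Matrix.cons_val'] at e0 e1
    generalize F (g.1 0 0) (g.1 0 1) (g.1 1 0) (g.1 1 1) = T at e0 e1 key
    have h0 : ((T.1 - 1) * (T.2.2.2 - 1) - T.2.1 * T.2.2.1) * v 0 = 0 := by
      linear_combination (T.2.2.2 - 1) * e0 - T.2.1 * e1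
    have h1 : ((T.1 - 1) * (T.2.2.2 - 1) - T.2.1 * T.2.2.1) * v 1 = 0 := by
      linear_combination (T.1 - 1) * e1 - T.2.2.1 * e0
    ext i
    fin_cases i
    · exact (mul_eq_zero.1 h0).resolve_left key
    · exact (mul_eq_zero.1 h1).resolve_left key
  obtain ⟨L, i1, i2, H, hH, ⟨e⟩⟩ := h
  exact ⟨L, i1, i2, H, hH, ⟨e.symm⟩⟩

end Cfsg.Agent.S4298
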