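import Cfsg.Statements.S4300

set_option autoImplicit false

open Cfsg

namespace Cfsg.Agent.S4300

/-- Let G act faithfully and primitively on a set X, and suppose the stabilizer of some point is a simple group. Then either G is simple, or G has a normal subgroup, neither trivial nor the whole group, that acts regularly on X (transitively with trivial point stabilizers). -/
theorem result {G : Type*} [Group G] {X : Type*} [MulAction G X] [FaithfulSMul G X]
    (hprim : MulAction.IsPreprimitive G X) (x : X) (hsimple : IsSimpleGroup (MulAction.stabilizer G x)) :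
    IsSimpleGroup G ∨ ∃ N : Subgroup G, N.Normal ∧ N ≠ ⊥ ∧ N ≠ ⊤ ∧
      MulAction.IsPretransitive N X ∧ ∀ y : X, MulAction.stabilizer N y = ⊥ := by
  by_cases hG : IsSimpleGroup G
  · exact Or.inl hG
  right
  have hnt : Nontrivial G := by
    have := hsimple.toNontrivial
    exact (Subgroup.subtype_injective (MulAction.stabilizer G x)).nontrivial
  have h1 : ∃ N : Subgroup G, N.Normal ∧ N ≠ ⊥ ∧ N ≠ ⊤ := by
    by_contra h
    push Not at h
    apply hG
    refine { eq_bot_or_eq_top_of_normal := fun H hH => ?_ }
    by_cases hb : H = ⊥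
    · exact Or.inl hb
    · exact Or.inr (h H hH hb)
  obtain ⟨N, hN, hNb, hNt⟩ := h1
  have htr : MulAction.IsPretransitive N X := by
    apply MulAction.IsQuasiPreprimitive.isPretransitive_of_normal (G := G)
    intro h
    apply hNb
    rw [Subgroup.eq_bot_iff_forall]
    intro n hn
    apply FaithfulSMul.eq_of_smul_eq_smul (α := X)
    intro y
    have : y ∈ MulAction.fixedPoints N X := by rw [h]; trivial
    rw [one_smul]
    exact this ⟨n, hn⟩
  refine ⟨N, hN, hNb, hNt, htr, ?_⟩
  have h2 : (N.subgroupOf (MulAction.stabilizer G x)).Normal := inferInstance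
  have h3 := hsimple.eq_bot_or_eq_top_of_normal _ h2
  have h4 : N.subgroupOf (MulAction.stabilizer G x) = ⊥ := by
    refine h3.resolve_right (fun h => hNt ?_)
    rw [Subgroup.subgroupOf_eq_top] at h
    rw [eq_top_iff]
    intro g _
    obtain ⟨n, hn⟩ := htr.exists_smul_eq x (g • x)
    have hn' : (n : G) • x = g • x := hn
    have : (n : G)⁻¹ * g ∈ MulAction.stabilizer G x := by
      rw [MulAction.mem_stabilizer_iff, mul_smul, ← hn', inv_smul_smul]
    have := N.mul_mem n.2 (h this)
    rwa [mul_inv_cancel_left] at this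
  intro y
  rw [Subgroup.eq_bot_iff_forall]
  intro n hn
  obtain ⟨m, rfl⟩ := htr.exists_smul_eq x y
  have h5 : (m⁻¹ * n * m) • x = x := by
    rw [MulAction.mem_stabilizer_iff] at hn
    rw [mul_smul, mul_smul, hn, inv_smul_smul]
  have h6 : ((m⁻¹ * n * m : N) : G) ∈ MulAction.stabilizer G x := h5
  have h7 : (⟨_, h6⟩ : MulAction.stabilizer G x) ∈ N.subgroupOf (MulAction.stabilizer G x) := by
    rw [Subgroup.mem_subgroupOf]
    exact (m⁻¹ * n * m : N).2
  rw [h4, Subgroup.mem_bot] at h7
  have h8 : ((m⁻¹ * n * m : N) : G) = 1 := congrArg Subtype.val h7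
  have h9 : m⁻¹ * n * m = 1 := Subtype.ext h8
  have h10 : n = m * (m⁻¹ * n * m) * m⁻¹ := by group
  rw [h10, h9]; group

end Cfsg.Agent.S4300
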