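import Cfsg.Statements.S4301

set_option autoImplicit false
open Cfsg

namespace Cfsg.Agent.S4301

theorem exists_emb {X : Type*} {k : ℕ} (e : Fin k ↪ X) (i j : Fin k) (hij : i ≠ j) (x z : X) (hxz : x ≠ z) :
    ∃ c : Fin k ↪ X, c i = x ∧ c j = z := by
  classical
  set w := Equiv.swap (e i) x (e j) with hw
  have hwx : w ≠ x := by
    intro h
    have h1 : Equiv.swap (e i) x (e i) = x := Equiv.swap_apply_left _ _
    have := (Equiv.swap (e i) x).injective (h.trans h1.symm)
    exact hij (e.injective this.symm)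
  refine ⟨(e.trans (Equiv.swap (e i) x).toEmbedding).trans (Equiv.swap w z).toEmbedding, ?_, ?_⟩
  · change Equiv.swap w z (Equiv.swap (e i) x (e i)) = x
    rw [Equiv.swap_apply_left, Equiv.swap_apply_of_ne_of_ne hwx.symm hxz]
  · change Equiv.swap w z w = z
    rw [Equiv.swap_apply_left]

/-- One-point extension of a multiply transitive group. Let X be a set and G a group of permutations of Option X (the set X with one extra point ∗ = none) all of whose elements fix ∗, such that G is k-transitive on the points of X for some k ≥ 2, X having at least k points. Suppose a permutation h of Option X and an element g of G satisfy: h interchanges ∗ with a point x of X and fixes a point y of X; g interchanges x and y; (g h)³ and h² lie in G; and for every f in G fixing x, the product h f h lies in G and fixes x. Then an element of the group generated by G and h fixes ∗ exactly when it lies in G, and that group acts (k+1)-transitively on Option X. -/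
theorem result {X : Type*} (G : Subgroup (Equiv.Perm (Option X))) (hfix : ∀ f ∈ G, f none = none)
    (k : ℕ) (hk : 2 ≤ k) (hkX : Nonempty (Fin k ↪ X))
    (htrans : ∀ a b : Fin k ↪ X, ∃ f ∈ G, ∀ i, f (some (a i)) = some (b i))
    (h g : Equiv.Perm (Option X)) (hg : g ∈ G) (x y : X)
    (h1 : h none = some x) (h2 : h (some x) = none) (h3 : h (some y) = some y)
    (h4 : g (some x) = some y) (h5 : g (some y) = some x)
    (h6 : (g * h) ^ 3 ∈ G) (h7 : h ^ 2 ∈ G)
    (h8 : ∀ f ∈ G, f (some x) = some x → h * f * h ∈ G ∧ (h * f * h) (some x) = some x) :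
    (∀ f ∈ Subgroup.closure ((G : Set (Equiv.Perm (Option X))) ∪ {h}), f none = none ↔ f ∈ G) ∧
      MulAction.IsMultiplyPretransitive (Subgroup.closure ((G : Set (Equiv.Perm (Option X))) ∪ {h})) (Option X) (k + 1) := by
  classical
  obtain ⟨e⟩ := hkX
  have hxy : x ≠ y := by
    rintro rfl
    rw [h2] at h3
    exact Option.some_ne_none _ h3.symm
  -- `G` is 2-transitive on `X`
  have htwo : ∀ z : X, z ≠ x → ∃ u ∈ G, u (some x) = some x ∧ u (some z) = some y := by
    intro z hz
    have hij : (⟨0, by omega⟩ : Fin k) ≠ ⟨1, by omega⟩ := by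
      intro h
      have := congrArg Fin.val h
      simp at this
    obtain ⟨c, hc1, hc2⟩ := exists_emb e ⟨0, by omega⟩ ⟨1, by omega⟩ hij x z hz.symm
    obtain ⟨d, hd1, hd2⟩ := exists_emb e ⟨0, by omega⟩ ⟨1, by omega⟩ hij x y hxy
    obtain ⟨u, hu, hu2⟩ := htrans c d
    refine ⟨u, hu, ?_, ?_⟩
    · have := hu2 ⟨0, by omega⟩
      rwa [hc1, hd1] at this
    · have := hu2 ⟨1, by omega⟩
      rwa [hc2, hd2] at this
  have hsome : ∀ f ∈ G, ∀ z : X, ∃ w : X, f (some z) = some w := by
    intro f hf z
    rcases hw : f (some z) with _ | w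
    · exfalso
      rw [← hfix f hf] at hw
      exact Option.some_ne_none _ (f.injective hw)
    · exact ⟨w, rfl⟩
  -- the key membership
  have hkey : ∃ a ∈ G, ∃ b ∈ G, h⁻¹ * g⁻¹ * h⁻¹ = a * h * b := by
    have e1 : h * g * h * g * h ∈ G := by
      have : h * g * h * g * h = g⁻¹ * (g * h) ^ 3 := by
        simp only [pow_succ, pow_zero, one_mul]; group
      rw [this]
      exact G.mul_mem (G.inv_mem hg) h6
    refine ⟨_, G.inv_mem e1, g, hg, ?_⟩
    group
  have hGhG : ∀ f ∈ G, h * f * h ∈ G ∨ ∃ a ∈ G, ∃ b ∈ G, h * f * h = a * h * b := by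
    intro f hf
    by_cases hfx : f (some x) = some x
    · exact Or.inl (h8 f hf hfx).1
    · right
      obtain ⟨z, hz⟩ := hsome f hf x
      have hzx : z ≠ x := fun h => hfx (by rw [hz, h])
      obtain ⟨u, hu, hux, huz⟩ := htwo z hzx
      -- `w = g * u * f` fixes `x`
      have hw : (g * u * f) (some x) = some x := by
        change g (u (f (some x))) = some x
        rw [hz, huz, h5]
      have hwG : g * u * f ∈ G := G.mul_mem (G.mul_mem hg hu) hf
      have huinv : u⁻¹ (some x) = some x := by
        rw [Equiv.Perm.inv_eq_iff_eq]; exact hux.symm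
      obtain ⟨a, ha, b, hb, hab⟩ := hkey
      have e1 := (h8 _ hwG hw).1
      have e2 := (h8 _ (G.inv_mem hu) huinv).1
      refine ⟨(h * u⁻¹ * h) * a, G.mul_mem e2 ha, b * (h * (g * u * f) * h), G.mul_mem hb e1, ?_⟩
      have : h * f * h = (h * u⁻¹ * h) * (h⁻¹ * g⁻¹ * h⁻¹) * (h * (g * u * f) * h) := by group
      rw [this, hab]
      group
  -- description of the closure
  have hcl : ∀ f ∈ Subgroup.closure ((G : Set (Equiv.Perm (Option X))) ∪ {h}),
      f ∈ G ∨ ∃ a ∈ G, ∃ b ∈ G, f = a * h * b := by
    have hmulh : ∀ f, (f ∈ G ∨ ∃ a ∈ G, ∃ b ∈ G, f = a * h * b) →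
        (h * f ∈ G ∨ ∃ a ∈ G, ∃ b ∈ G, h * f = a * h * b) := by
      rintro f (hf | ⟨a, ha, b, hb, rfl⟩)
      · exact Or.inr ⟨1, G.one_mem, f, hf, by group⟩
      · rcases hGhG a ha with h9 | ⟨c, hc, d, hd, hcd⟩
        · left
          have : h * (a * h * b) = (h * a * h) * b := by group
          rw [this]
          exact G.mul_mem h9 hb
        · right
          refine ⟨c, hc, d * b, G.mul_mem hd hb, ?_⟩
          have : h * (a * h * b) = (h * a * h) * b := by group
          rw [this, hcd]; group
    have hmulG : ∀ c ∈ G, ∀ f, (f ∈ G ∨ ∃ a ∈ G, ∃ b ∈ G, f = a * h * b) →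
        (c * f ∈ G ∨ ∃ a ∈ G, ∃ b ∈ G, c * f = a * h * b) := by
      rintro c hc f (hf | ⟨a, ha, b, hb, rfl⟩)
      · exact Or.inl (G.mul_mem hc hf)
      · exact Or.inr ⟨c * a, G.mul_mem hc ha, b, hb, by group⟩
    intro f hf
    induction hf using Subgroup.closure_induction_left with
    | one => exact Or.inl G.one_mem
    | mul_left z hz f _ ih =>
      rcases hz with hz | hz
      · exact hmulG z hz f ih
      · rw [Set.mem_singleton_iff] at hz
        subst hz
        exact hmulh f ih
    | inv_mul_cancel z hz f _ ih =>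
      rcases hz with hz | hz
      · exact hmulG z⁻¹ (G.inv_mem hz) f ih
      · rw [Set.mem_singleton_iff] at hz
        subst hz
        have e1 : z⁻¹ * f = (z ^ 2)⁻¹ * (z * f) := by group
        rw [e1]
        exact hmulG _ (G.inv_mem h7) _ (hmulh f ih)
  have hGle : ∀ f ∈ G, f ∈ Subgroup.closure ((G : Set (Equiv.Perm (Option X))) ∪ {h}) :=
    fun f hf => Subgroup.subset_closure (Or.inl hf)
  have hhle : h ∈ Subgroup.closure ((G : Set (Equiv.Perm (Option X))) ∪ {h}) :=
    Subgroup.subset_closure (Or.inr rfl)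
  refine ⟨?_, ?_⟩
  · intro f hf
    constructor
    · intro hfn
      rcases hcl f hf with h9 | ⟨a, ha, b, hb, rfl⟩
      · exact h9
      · exfalso
        have e1 : (a * h * b) none = a (h (b none)) := rfl
        obtain ⟨w, hw⟩ := hsome a ha x
        rw [e1, hfix b hb, h1, hw] at hfn
        exact Option.some_ne_none _ hfn
    · exact hfix f
  · -- transitivity
    have htr1 : ∀ z : X, ∃ u ∈ G, u (some z) = some x := by
      intro z
      obtain ⟨c, hc1, -⟩ : ∃ c : Fin k ↪ X, c ⟨0, by omega⟩ = z ∧ True := by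
        by_cases hzx : z = x
        · obtain ⟨c, hc1, hc2⟩ := exists_emb e ⟨0, by omega⟩ ⟨1, by omega⟩ (by
            intro h
            have := congrArg Fin.val h
            simp at this) x y hxy
          exact ⟨c, by rw [hc1, hzx], trivial⟩
        · obtain ⟨c, hc1, hc2⟩ := exists_emb e ⟨0, by omega⟩ ⟨1, by omega⟩ (by
            intro h
            have := congrArg Fin.val h
            simp at this) z x hzx
          exact ⟨c, hc1, trivial⟩
      obtain ⟨d, hd1, hd2⟩ := exists_emb e ⟨0, by omega⟩ ⟨1, by omega⟩ (by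
            intro h
            have := congrArg Fin.val h
            simp at this) x y hxy
      obtain ⟨u, hu, hu2⟩ := htrans c d
      refine ⟨u, hu, ?_⟩
      have := hu2 ⟨0, by omega⟩
      rwa [hc1, hd1] at this
    set K := Subgroup.closure ((G : Set (Equiv.Perm (Option X))) ∪ {h}) with hK
    have htr2 : ∀ z : Option X, ∃ u ∈ K, u z = none := by
      intro z
      rcases z with _ | z
      · exact ⟨1, K.one_mem, rfl⟩
      · obtain ⟨u, hu, huz⟩ := htr1 z
        refine ⟨h * u, K.mul_mem hhle (hGle u hu), ?_⟩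
        change h (u (some z)) = none
        rw [huz, h2]
    have main : ∀ a : Fin (k + 1) ↪ Option X, ∃ f ∈ K, f (a 0) = none ∧
        ∀ i : Fin k, f (a i.succ) = some (e i) := by
      intro a
      obtain ⟨f1, hf1, hf1a⟩ := htr2 (a 0)
      have hne : ∀ i : Fin k, f1 (a i.succ) ≠ none := by
        intro i hi
        rw [← hf1a] at hi
        exact Fin.succ_ne_zero i (a.injective (f1.injective hi))
      choose c hc using fun i : Fin k => Option.ne_none_iff_exists'.1 (hne i)
      have hcinj : Function.Injective c := by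
        intro i j hij
        have : f1 (a i.succ) = f1 (a j.succ) := by rw [hc, hc, hij]
        exact Fin.succ_injective _ (a.injective (f1.injective this))
      obtain ⟨f2, hf2, hf2c⟩ := htrans ⟨c, hcinj⟩ e
      refine ⟨f2 * f1, K.mul_mem (hGle f2 hf2) hf1, ?_, ?_⟩
      · change f2 (f1 (a 0)) = none
        rw [hf1a, hfix f2 hf2]
      · intro i
        change f2 (f1 (a i.succ)) = _
        rw [hc]
        exact hf2c i
    refine ⟨fun a b => ?_⟩
    obtain ⟨f, hf, hf0, hfs⟩ := main a
    obtain ⟨f', hf', hf0', hfs'⟩ := main b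
    refine ⟨⟨f'⁻¹ * f, K.mul_mem (K.inv_mem hf') hf⟩, ?_⟩
    ext i : 1
    change (f'⁻¹ * f) (a i) = b i
    rw [Equiv.Perm.mul_apply, Equiv.Perm.inv_eq_iff_eq]
    refine Fin.cases ?_ ?_ i
    · rw [hf0, hf0']
    · intro i
      rw [hfs, hfs']

end Cfsg.Agent.S4301
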