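import Cfsg.Statements.S4302
import Cfsg.Agent.Lib.S3Fac

set_option autoImplicit false
open Cfsg

namespace Cfsg.Agent.S4302

/-- Let `X` be a finite solvable group whose Fitting subgroup is a 2-group (equivalently `F(X) = O₂(X)`), `T` a Sylow 2-subgroup of `X`, `J(T)` the subgroup generated by the abelian subgroups of `T` of largest order, `C` the largest normal subgroup of `X` centralizing the centre `Z(T)`, and `Y` the normal closure of `J(T)` in `X`. Then `X = C · Y · N_X(J(T))`, and either `Y ≤ C`, or `CY/C` is isomorphic to a direct product of at least one copy of the symmetric group of degree 3. -/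
theorem result {X : Type*} [Group X] [Finite X]
    [Group.IsSolvable X] (hF : Cfsg.fittingSubgroup X = Cfsg.pCore 2 X) (T : Sylow 2 X) :
    ((Subgroup.centralizer (((T : Subgroup X) ⊓ Subgroup.centralizer ((T : Subgroup X) : Set X) : Subgroup X) : Set X)).normalCore
        ⊔ Subgroup.normalClosure (Cfsg.thompsonSubgroupAOf (T : Subgroup X) : Set X)
        ⊔ Subgroup.normalizer (Cfsg.thompsonSubgroupAOf (T : Subgroup X) : Set X) = ⊤) ∧
    (Subgroup.normalClosure (Cfsg.thompsonSubgroupAOf (T : Subgroup X) : Set X)
        ≤ (Subgroup.centralizer (((T : Subgroup X) ⊓ Subgroup.centralizer ((T : Subgroup X) : Set X) : Subgroup X) : Set X)).normalCore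
      ∨ ∃ n : ℕ, 1 ≤ n ∧
        Nonempty (↥(Subgroup.normalClosure (Cfsg.thompsonSubgroupAOf (T : Subgroup X) : Set X)) ⧸
            ((Subgroup.centralizer (((T : Subgroup X) ⊓ Subgroup.centralizer ((T : Subgroup X) : Set X) : Subgroup X) : Set X)).normalCore).subgroupOf
              (Subgroup.normalClosure (Cfsg.thompsonSubgroupAOf (T : Subgroup X) : Set X))
          ≃* (Fin n → Equiv.Perm (Fin 3)))) := by
  exact Lib.S3Fac.main hF T

end Cfsg.Agent.S4302
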