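import Cfsg.Statements.S4303
import Cfsg.Agent.Lib.SylowNumbers
import Cfsg.Agent.Lib.RankTwoOrder

set_option autoImplicit false
universe u
open Cfsg

namespace Cfsg.Agent.S4303

open Subgroup Pointwise Cfsg.Agent.Lib.SubgroupTools Cfsg.Agent.Lib.SylowNumbers

universe v

/-- the property of the statement -/
def Good (p : ℕ) (n : ℕ) : Prop :=
  ∃ l : List ℕ, l.prod = n ∧
      ∀ m ∈ l, (IsPrimePow m ∧ m % p = 1) ∨
        ∃ (S : Type v) (_ : Group S) (_ : Finite S), IsSimpleGroup S ∧ m = Nat.card (Sylow p S)

theorem Good.mul {p m n : ℕ} (hm : Good.{v} p m) (hn : Good.{v} p n) : Good.{v} p (m * n) := by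
  obtain ⟨l, hl, hl'⟩ := hm
  obtain ⟨l2, hl2, hl2'⟩ := hn
  refine ⟨l ++ l2, by rw [List.prod_append, hl, hl2], ?_⟩
  intro m hm
  rcases List.mem_append.mp hm with h | h
  · exact hl' m h
  · exact hl2' m h

theorem good_one {p : ℕ} : Good.{v} p 1 := ⟨[], rfl, by simp⟩

theorem cent_modEq {G : Type*} [Group G] [Finite G] {q : ℕ} [hq : Fact q.Prime]
    {H Q : Subgroup G} (hQ : IsPGroup q Q) (hQH : Q ≤ normalizer (H : Set G)) :
    Nat.card H ≡ Nat.card (H ⊓ centralizer (Q : Set G) : Subgroup G) [MOD q] := by
  let act : MulAction Q H := MulAction.compHom H ((H.normalizerMonoidHom).comp (inclusion hQH))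
  have hact : ∀ (a : Q) (h : H), ((a • h : H) : G) = (a : G) * h * (a : G)⁻¹ := fun a h => rfl
  have h1 := hQ.card_modEq_card_fixedPoints H
  refine h1.trans ?_
  rw [Nat.card_congr (β := (H ⊓ centralizer (Q : Set G) : Subgroup G))]
  refine ⟨fun h => ⟨h.1, h.1.2, ?_⟩, fun h => ⟨⟨h.1, h.2.1⟩, ?_⟩, fun h => ?_, fun h => ?_⟩
  · refine mem_centralizer_iff.mpr ?_
    intro a ha
    have := congrArg Subtype.val (h.2 ⟨a, ha⟩)
    rw [hact] at this
    exact mul_inv_eq_iff_eq_mul.mp this
  · intro a
    apply Subtype.ext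
    rw [hact]
    exact mul_inv_eq_iff_eq_mul.mpr (mem_centralizer_iff.mp h.2.2 a a.2)
  · rfl
  · rfl

/-- the case of a normal `p`-complement -/
theorem good_of_complement {G : Type v} [Group G] [Finite G] {p : ℕ} [Fact p.Prime] (P : Sylow p G)
    (K : Subgroup G) [K.Normal] (hK : ¬ p ∣ Nat.card K) (htop : (P : Subgroup G) ⊔ K = ⊤) :
    Good.{v} p (Nat.card (Sylow p G)) := by
  classical
  have hp : p.Prime := Fact.out
  have hPK : (P : Subgroup G) ≤ normalizer (K : Set G) := by
    rw [normalizer_eq_top_iff.mpr inferInstance]; exact le_top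
  have hcop : (Nat.card (P : Subgroup G)).Coprime (Nat.card K) := by
    obtain ⟨k, hk⟩ := IsPGroup.iff_card.mp P.2
    rw [hk]
    exact Nat.Coprime.pow_left _ ((Nat.Prime.coprime_iff_not_dvd hp).mpr hK)
  have hnil : Group.IsNilpotent (P : Subgroup G) := P.2.isNilpotent
  have hsol : Group.IsSolvable (P : Subgroup G) := inferInstance
  -- the number of Sylow subgroups is `|K : C_K(P)|`
  set N := normalizer ((P : Subgroup G) : Set G) with hN
  set C := K ⊓ centralizer ((P : Subgroup G) : Set G) with hC
  have hNK : N ⊓ K = C := by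
    apply le_antisymm
    · intro x hx
      obtain ⟨hxN, hxK⟩ := mem_inf.mp hx
      refine mem_inf.mpr ⟨hxK, ?_⟩
      rw [mem_centralizer_iff]
      intro y hy
      have h1 : x * y * x⁻¹ * y⁻¹ ∈ (P : Subgroup G) ⊓ K := by
        refine mem_inf.mpr ⟨mul_mem ((mem_normalizer_iff.mp hxN y).mp hy) (inv_mem hy), ?_⟩
        have h2 : x * y * x⁻¹ * y⁻¹ = x * (y * x⁻¹ * y⁻¹) := by group
        rw [h2]
        exact mul_mem hxK ((inferInstance : K.Normal).conj_mem _ (inv_mem hxK) y)
      rw [inf_eq_bot_of_coprime' hcop, mem_bot] at h1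
      have h3 : x * y = y * x := by
        calc x * y = (x * y * x⁻¹ * y⁻¹) * y * x := by group
          _ = y * x := by rw [h1, one_mul]
      exact h3.symm
    · intro x hx
      obtain ⟨hxK, hxC⟩ := mem_inf.mp hx
      refine mem_inf.mpr ⟨?_, hxK⟩
      rw [hN, mem_normalizer_iff]
      have h1 : ∀ y ∈ (P : Subgroup G), x * y * x⁻¹ = y := by
        intro y hy
        rw [← mem_centralizer_iff.mp hxC y hy]; group
      intro y
      constructor
      · intro hy; rw [h1 y hy]; exact hy
      · intro hy
        have h2 := h1 _ hy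
        have h3 : x * y * x⁻¹ = y := by
          have h4 : x * (x * y * x⁻¹) = x * y := by
            calc x * (x * y * x⁻¹) = (x * (x * y * x⁻¹) * x⁻¹) * x := by group
              _ = (x * y * x⁻¹) * x := by rw [h2]
              _ = x * y := by group
          exact mul_left_cancel h4
        rwa [h3] at hy
  have hcount : Nat.card (Sylow p G) = C.relIndex K := by
    rw [P.card_eq_index_normalizer, ← hNK, inf_relIndex_right, relIndex_eq_sup N K]
    have h1 : K ⊔ N = ⊤ := by
      rw [eq_top_iff, ← htop]
      exact sup_le (le_sup_of_le_right le_normalizer) le_sup_left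
    rw [h1, relIndex_top_right]
    rfl
  rw [hcount]
  set n := C.relIndex K with hn
  have hn0 : n ≠ 0 := by
    intro h0
    have h1 := card_mul_relIndex_of_le (inf_le_left : C ≤ K)
    rw [← hn, h0, mul_zero] at h1
    exact Nat.card_pos.ne h1
  have hcard : Nat.card C * n = Nat.card K := card_mul_relIndex_of_le inf_le_left
  refine ⟨n.primeFactors.toList.map (fun r => r ^ n.factorization r), ?_, ?_⟩
  · rw [Finset.prod_map_toList]
    exact Nat.prod_factorization_pow_eq_self hn0
  · intro m hm
    left
    rw [List.mem_map] at hm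
    obtain ⟨r, hr, rfl⟩ := hm
    rw [Finset.mem_toList] at hr
    have hrp : r.Prime := Nat.prime_of_mem_primeFactors hr
    have hrd : r ∣ n := Nat.dvd_of_mem_primeFactors hr
    haveI : Fact r.Prime := ⟨hrp⟩
    constructor
    · have h1 : n.factorization r ≠ 0 := by
        have := (hrp.dvd_iff_one_le_factorization hn0).mp hrd
        omega
      exact hrp.isPrimePow.pow h1
    · obtain ⟨R, hRK, hRr, hRi, hPR⟩ := Cfsg.Agent.Lib.CoprimeAction.exists_invariant_sylow hPK hcop
        (Or.inl hsol) r
      have h1 := Cfsg.Agent.Lib.RankTwoOrder.card_centralizer_sylow le_rfl hPK hcop hsol hRK hRr hRi hPR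
      have h2 := Cfsg.Agent.Lib.RankTwoOrder.card_syl hRK hRr hRi
      have h3 := cent_modEq (q := p) P.2 hPR
      rw [h1, h2] at h3
      have h4 : (Nat.card K).factorization r = (Nat.card C).factorization r + n.factorization r := by
        rw [← hcard, Nat.factorization_mul Nat.card_pos.ne' hn0, Finsupp.add_apply]
      rw [h4, pow_add] at h3
      have h5 : (r ^ (Nat.card C).factorization r).Coprime p := by
        apply Nat.Coprime.pow_left
        rw [Nat.coprime_comm, Nat.Prime.coprime_iff_not_dvd hp]
        intro h6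
        apply hK
        refine h6.trans (hrd.trans ?_)
        rw [← hcard]; exact Dvd.intro_left _ rfl
      have h6 : r ^ (Nat.card C).factorization r * r ^ n.factorization r ≡
          r ^ (Nat.card C).factorization r * 1 [MOD p] := by rw [mul_one]; exact h3
      have h7 := Nat.ModEq.cancel_left_of_coprime (by rw [Nat.coprime_comm] at h5; exact h5) h6
      have h8 : r ^ n.factorization r % p = 1 % p := h7
      rw [h8, Nat.mod_eq_of_lt hp.one_lt]

theorem main {p : ℕ} [Fact p.Prime] : ∀ (n : ℕ) (G : Type v) [Group G] [Finite G], Nat.card G = n →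
    Good.{v} p (Nat.card (Sylow p G)) := by
  intro n
  induction n using Nat.strong_induction_on with
  | _ n ih =>
    intro G _ _ hG
    classical
    by_cases hnt : Subsingleton G
    · have h1 : Subsingleton (Sylow p G) := ⟨fun P Q => Sylow.ext (Subsingleton.elim _ _)⟩
      have h2 : Nat.card (Sylow p G) = 1 := by
        rw [Nat.card_eq_one_iff_unique]
        exact ⟨h1, inferInstance⟩
      rw [h2]; exact good_one
    rw [not_subsingleton_iff_nontrivial] at hnt
    by_cases hs : IsSimpleGroup G
    · exact ⟨[Nat.card (Sylow p G)], by simp, by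
        intro m hm
        right
        rw [List.mem_singleton] at hm
        exact ⟨G, inferInstance, inferInstance, hs, hm⟩⟩
    obtain ⟨K, hKn, hK1, hK2⟩ : ∃ K : Subgroup G, K.Normal ∧ K ≠ ⊥ ∧ K ≠ ⊤ := by
      by_contra hcon
      push Not at hcon
      exact hs ⟨fun H hH => by
        by_cases h : H = ⊥
        · exact Or.inl h
        · exact Or.inr (hcon H hH h)⟩
    have hsub : ∀ L : Subgroup G, L ≠ ⊤ → Nat.card L < n := by
      intro L hL
      rw [← hG]
      refine lt_of_le_of_ne (Subgroup.card_le_card_group L) ?_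
      intro h
      exact hL (Subgroup.eq_top_of_card_eq L h)
    have hquo : ∀ L : Subgroup G, [L.Normal] → L ≠ ⊥ → Nat.card (G ⧸ L) < n := by
      intro L _ hL
      rw [← hG]
      have h1 := L.card_mul_index
      have h2 : 1 < Nat.card L := L.one_lt_card_iff_ne_bot.mpr hL
      have h3 : 0 < L.index := Nat.pos_of_ne_zero Subgroup.index_ne_zero_of_finite
      have h4 : Nat.card (G ⧸ L) = L.index := rfl
      rw [h4, ← h1]
      exact lt_mul_of_one_lt_left h3 h2
    obtain ⟨P⟩ : Nonempty (Sylow p G) := inferInstance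
    by_cases htop : (P : Subgroup G) ⊔ K = ⊤
    · by_cases hQn : normalizer (((P : Subgroup G) ⊓ K : Subgroup G) : Set G) = ⊤
      · by_cases hQ : (P : Subgroup G) ⊓ K = ⊥
        · apply good_of_complement P K _ htop
          intro hd
          obtain ⟨x, hx⟩ := exists_prime_orderOf_dvd_card' p hd
          have hxp : IsPGroup p (zpowers (x : G)) := by
            apply IsPGroup.of_card (n := 1)
            rw [Nat.card_zpowers, orderOf_coe, hx, pow_one]
          obtain ⟨T, hT⟩ := hxp.exists_le_sylow
          obtain ⟨g, hg⟩ := MulAction.exists_smul_eq G T P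
          have h1 : g * x * g⁻¹ ∈ (P : Subgroup G) ⊓ K := by
            refine mem_inf.mpr ⟨?_, hKn.conj_mem _ x.2 g⟩
            rw [← hg, Sylow.coe_subgroup_smul]
            exact Subgroup.smul_mem_pointwise_smul _ _ _ (hT (mem_zpowers _))
          rw [hQ, mem_bot] at h1
          have h2 : (x : G) = 1 := by
            have : (x : G) = g⁻¹ * (g * x * g⁻¹) * g := by group
            rw [this, h1]; group
          have h3 : x = 1 := Subtype.ext h2
          rw [h3, orderOf_one] at hx
          exact (Fact.out : p.Prime).one_lt.ne hx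
        · have hQn' : ((P : Subgroup G) ⊓ K).Normal := normalizer_eq_top_iff.mp hQn
          rw [← card_sylow_quot_of_isPGroup ((P : Subgroup G) ⊓ K) (P.2.to_le inf_le_left)]
          exact ih _ (hquo _ hQ) _ rfl
      · have h1 := card_sylow_le_eq_mul K P ⊤ le_top
        rw [top_inf_eq] at h1
        have h2 : Nat.card {Q : Sylow p G // (Q : Subgroup G) ≤ ⊤} = Nat.card (Sylow p G) :=
          Nat.card_congr (Equiv.subtypeUnivEquiv (fun Q => le_top))
        have hle : (P : Subgroup G) ≤ normalizer (((P : Subgroup G) ⊓ K : Subgroup G) : Set G) :=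
          (inf_eq_inf_iff_le_normalizer K P P).mp rfl
        rw [h2, ← card_sylow_subgroup_eq _ P hle] at h1
        rw [h1]
        exact (ih _ (hsub K hK2) _ rfl).mul (ih _ (hsub _ hQn) _ rfl)
    · rw [card_sylow_eq_quot_mul K P]
      exact (ih _ (hquo K hK1) _ rfl).mul (ih _ (hsub _ htop) _ rfl)

/-- For a finite group `G` and a prime `p`, the number of Sylow `p`-subgroups of `G` is a product of natural numbers each of which is either a prime power congruent to 1 modulo `p` or the number of Sylow `p`-subgroups of some finite simple group. -/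
theorem result {G : Type u} [Group G] [Finite G]
    (p : ℕ) [Fact p.Prime] :
    ∃ l : List ℕ, l.prod = Nat.card (Sylow p G) ∧
      ∀ m ∈ l, (IsPrimePow m ∧ m % p = 1) ∨
        ∃ (S : Type u) (_ : Group S) (_ : Finite S), IsSimpleGroup S ∧ m = Nat.card (Sylow p S) := by
  exact main _ G rfl

end Cfsg.Agent.S4303
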