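import Cfsg.Statements.S4304

set_option autoImplicit false
set_option linter.style.haveILetI false

open Cfsg

namespace Cfsg.Agent.S4304

section general

variable {G : Type*} [Group G] [Finite G]

theorem sylow_le_of_normal (p : ℕ) [hp : Fact p.Prime] (H : Subgroup G) [H.Normal]
    (hH : ¬ p ∣ H.index) (P : Sylow p G) : (P : Subgroup G) ≤ H := by
  rw [← Subgroup.relIndex_eq_one]
  have h1 : H.relIndex (P : Subgroup G) ∣ H.index := Subgroup.relIndex_dvd_index_of_normal _ _
  have h2 : H.relIndex (P : Subgroup G) ∣ Nat.card P := Subgroup.relIndex_dvd_card _ _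
  obtain ⟨n, hn⟩ := IsPGroup.iff_card.1 P.isPGroup'
  change Nat.card P = p ^ n at hn
  rw [hn, Nat.dvd_prime_pow hp.out] at h2
  obtain ⟨k, -, hk⟩ := h2
  rcases Nat.eq_zero_or_pos k with h0 | h0
  · rw [hk, h0, pow_zero]
  · exact absurd ((dvd_pow_self p h0.ne').trans (hk ▸ h1)) hH

theorem card_sylow_of_normal (p : ℕ) [hp : Fact p.Prime] (H : Subgroup G) [H.Normal]
    (hH : ¬ p ∣ H.index) : Nat.card (Sylow p H) = Nat.card (Sylow p G) := by
  symm
  refine Nat.card_congr (Equiv.ofBijective
    (fun P : Sylow p G => P.subtype (sylow_le_of_normal p H hH P)) ⟨?_, ?_⟩)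
  · intro P Q h
    exact Sylow.subtype_injective h
  · intro Q
    obtain ⟨P, hP⟩ := Sylow.exists_comap_subtype_eq Q
    refine ⟨P, ?_⟩
    apply Sylow.ext
    exact hP

theorem eq_of_le_normalizer (p : ℕ) [hp : Fact p.Prime] (P Q : Sylow p G)
    (h : (Q : Subgroup G) ≤ Subgroup.normalizer ((P : Subgroup G) : Set G)) : Q = P := by
  have h1 := IsPGroup.inf_normalizer_sylow Q.isPGroup' P
  have h2 : (Q : Subgroup G) ⊓ Subgroup.normalizer ((P : Subgroup G) : Set G) = Q :=
    inf_eq_left.2 h
  have h3 : (Q : Subgroup G) ≤ P := by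
    rw [← inf_eq_left, ← h1]
    exact h2
  apply Sylow.ext
  exact (Q.is_maximal' P.isPGroup' h3).symm

theorem card_sylow_quotient (p : ℕ) [hp : Fact p.Prime] (K : Subgroup G) [K.Normal]
    (hK : ∀ P : Sylow p G, K ≤ Subgroup.normalizer ((P : Subgroup G) : Set G)) :
    Nat.card (Sylow p (G ⧸ K)) = Nat.card (Sylow p G) := by
  symm
  refine Nat.card_congr (Equiv.ofBijective
    (fun P : Sylow p G => P.mapSurjective (QuotientGroup.mk'_surjective K)) ⟨?_, ?_⟩)
  · intro P Q h
    have h1 : (P : Subgroup G).map (QuotientGroup.mk' K) = (Q : Subgroup G).map (QuotientGroup.mk' K) := by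
      have := congrArg (fun R : Sylow p (G ⧸ K) => (R : Subgroup (G ⧸ K))) h
      exact this
    apply eq_of_le_normalizer p Q P
    have h2 : (P : Subgroup G) ≤ (Q : Subgroup G) ⊔ K := by
      have : (P : Subgroup G) ≤ ((Q : Subgroup G).map (QuotientGroup.mk' K)).comap (QuotientGroup.mk' K) := by
        rw [← h1]
        exact Subgroup.le_comap_map _ _
      rwa [Subgroup.comap_map_eq, QuotientGroup.ker_mk'] at this
    exact h2.trans (sup_le Subgroup.le_normalizer (hK Q))
  · exact Sylow.mapSurjective_surjective _ p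

end general

section seven

variable {G : Type*} [Group G] [Finite G]

theorem card_eq_card (p : ℕ) [hp : Fact p.Prime] (P Q : Sylow p G) : Nat.card P = Nat.card Q := by
  rw [P.card_eq_multiplicity, Q.card_eq_multiplicity]

theorem orbit_ncard (p : ℕ) [hp : Fact p.Prime] (P Q : Sylow p G) :
    (MulAction.orbit P Q).ncard = (Q : Subgroup G).relIndex (P : Subgroup G) := by
  rw [← MulAction.index_stabilizer (G := P) (x := Q), Subgroup.relIndex]
  congr 1
  ext x
  rw [MulAction.mem_stabilizer_iff, Subgroup.mem_subgroupOf]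
  have h1 := IsPGroup.inf_normalizer_sylow P.isPGroup' Q
  have h2 : x • Q = Q ↔ (x : G) ∈ Subgroup.normalizer ((Q : Subgroup G) : Set G) :=
    Sylow.smul_eq_iff_mem_normalizer
  rw [h2]
  constructor
  · intro h
    have : (x : G) ∈ (P : Subgroup G) ⊓ Subgroup.normalizer (Q : Set G) := ⟨x.2, h⟩
    rw [h1] at this
    exact this.2
  · intro h
    exact Subgroup.le_normalizer h

theorem eq_of_le (p : ℕ) [hp : Fact p.Prime] (P Q : Sylow p G)
    (h : (P : Subgroup G) ≤ Q) : Q = P := by
  apply Sylow.ext
  exact P.is_maximal' Q.isPGroup' h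

theorem relIndex_eq (h15 : Nat.card (Sylow 7 G) = 15) (P Q : Sylow 7 G) (hPQ : Q ≠ P) :
    (Q : Subgroup G).relIndex (P : Subgroup G) = 7 := by
  have hf : Fact (Nat.Prime 7) := ⟨by norm_num⟩
  have h2 : (MulAction.orbit P Q).ncard ≤ 14 := by
    have h3 : (MulAction.orbit P Q) ⊆ ({P}ᶜ : Set (Sylow 7 G)) := by
      rintro _ ⟨x, rfl⟩ hx
      apply hPQ
      have h4 : (x : G) • Q = P := hx
      have h5 : (x : G) • P = P := by
        rw [Sylow.smul_eq_iff_mem_normalizer]
        exact Subgroup.le_normalizer x.2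
      exact smul_left_cancel (x : G) (h4.trans h5.symm)
    have h4 := Set.ncard_le_ncard h3 (Set.toFinite _)
    have h5 : ({P}ᶜ : Set (Sylow 7 G)).ncard = 14 := by
      rw [Set.ncard_compl, h15, Set.ncard_singleton]
    rw [h5] at h4
    exact h4
  rw [orbit_ncard] at h2
  have h3 : (Q : Subgroup G).relIndex (P : Subgroup G) ∣ Nat.card P := Subgroup.relIndex_dvd_card _ _
  obtain ⟨n, hn⟩ := IsPGroup.iff_card.1 P.isPGroup'
  change Nat.card P = 7 ^ n at hn
  rw [hn, Nat.dvd_prime_pow hf.out] at h3
  obtain ⟨k, -, hk⟩ := h3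
  have h4 : k ≠ 0 := by
    rintro rfl
    rw [pow_zero, Subgroup.relIndex_eq_one] at hk
    exact hPQ (eq_of_le 7 P Q hk)
  have h5 : k < 2 := by
    by_contra hne
    have := Nat.pow_le_pow_right (n := 7) (by norm_num) (not_lt.1 hne)
    omega
  have h6 : k = 1 := by omega
  rw [hk, h6, pow_one]

theorem card_inf (h15 : Nat.card (Sylow 7 G) = 15) (P Q : Sylow 7 G) (hPQ : Q ≠ P) :
    Nat.card ((P : Subgroup G) ⊓ Q : Subgroup G) * 7 = Nat.card P := by
  have h1 := relIndex_eq h15 P Q hPQ
  rw [← Subgroup.inf_relIndex_left, Subgroup.relIndex] at h1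
  have h2 := Subgroup.card_mul_index (((P : Subgroup G) ⊓ Q).subgroupOf (P : Subgroup G))
  rw [h1] at h2
  rw [← h2]
  congr 1
  exact (Nat.card_congr (Subgroup.subgroupOfEquivOfLe inf_le_left).toEquiv).symm

theorem card_seven (h15 : Nat.card (Sylow 7 G) = 15)
    (hK : ∀ g : G, (∀ P : Sylow 7 G, g ∈ Subgroup.normalizer ((P : Subgroup G) : Set G)) → g = 1)
    (P : Sylow 7 G) : Nat.card P = 7 := by
  classical
  have hf : Fact (Nat.Prime 7) := ⟨by norm_num⟩
  have := Fintype.ofFinite (Sylow 7 G)
  by_contra hne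
  -- the pair map
  let φ : Sylow 7 G × Sylow 7 G → Subgroup G := fun x => (x.1 : Subgroup G) ⊓ x.2
  let S : Finset (Sylow 7 G × Sylow 7 G) := Finset.univ.offDiag
  have hS : S.card = 210 := by
    rw [Finset.offDiag_card, Finset.card_univ, ← Nat.card_eq_fintype_card, h15]
  have h1 := Finset.card_eq_sum_card_image φ S
  have h2 : ∀ D ∈ S.image φ, (S.filter (fun x => φ x = D)).card = 56 := by
    intro D hD
    rw [Finset.mem_image] at hD
    obtain ⟨⟨A, B⟩, hAB, hABD⟩ := hD
    rw [Finset.mem_offDiag] at hAB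
    have hne' : A ≠ B := hAB.2.2
    change (A : Subgroup G) ⊓ B = D at hABD
    have hDA : D ≤ A := hABD ▸ inf_le_left
    have hDB : D ≤ B := hABD ▸ inf_le_right
    have hDc : Nat.card D * 7 = Nat.card A := by
      rw [← hABD]; exact card_inf h15 A B hne'.symm
    have hDp : IsPGroup 7 D := A.isPGroup'.to_le hDA
    let Γ : Finset (Sylow 7 G) := Finset.univ.filter (fun R => D ≤ (R : Subgroup G))
    have hΓ : Γ.card ≡ 1 [MOD 7] := by
      have h3 := hDp.card_modEq_card_fixedPoints (Sylow 7 G)
      rw [h15] at h3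
      have h4 : Nat.card (MulAction.fixedPoints D (Sylow 7 G)) = Γ.card := by
        rw [← Nat.card_eq_finsetCard]
        apply Nat.card_congr
        apply Equiv.subtypeEquivRight
        intro R
        rw [IsPGroup.sylow_mem_fixedPoints_iff hDp]
        simp [Γ]
      rw [h4] at h3
      exact h3.symm.trans (by decide)
    have hΓ2 : 2 ≤ Γ.card := by
      have : ({A, B} : Finset (Sylow 7 G)) ⊆ Γ := by
        intro R hR
        simp only [Finset.mem_insert, Finset.mem_singleton] at hR
        rcases hR with rfl | rfl <;> simp [Γ, hDA, hDB]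
      have := Finset.card_le_card this
      rwa [Finset.card_pair hne'] at this
    have hΓ3 : Γ.card ≤ 15 := by
      have := Finset.card_le_univ Γ
      rwa [← Nat.card_eq_fintype_card, h15] at this
    have hΓ4 : Γ.card ≠ 15 := by
      intro h
      have h5 : Γ = Finset.univ := by
        rw [← Finset.card_eq_iff_eq_univ, h, ← Nat.card_eq_fintype_card, h15]
      apply hne
      have h6 : D = ⊥ := by
        rw [Subgroup.eq_bot_iff_forall]
        intro x hx
        apply hK
        intro R
        have : R ∈ Γ := by rw [h5]; exact Finset.mem_univ _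
        simp only [Γ, Finset.mem_filter, Finset.mem_univ, true_and] at this
        exact Subgroup.le_normalizer (this hx)
      rw [h6, Subgroup.card_bot, one_mul] at hDc
      rw [card_eq_card 7 P A, ← hDc]
    have hΓ5 : Γ.card = 8 := by
      unfold Nat.ModEq at hΓ
      omega
    have h7 : S.filter (fun x => φ x = D) = Γ.offDiag := by
      ext ⟨X, Y⟩
      simp only [Finset.mem_filter, S, Finset.mem_offDiag, Finset.mem_univ, true_and, Γ, φ]
      constructor
      · rintro ⟨h8, h9⟩
        exact ⟨h9 ▸ inf_le_left, h9 ▸ inf_le_right, h8⟩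
      · rintro ⟨h8, h9, h10⟩
        refine ⟨h10, ?_⟩
        symm
        apply Subgroup.eq_of_le_of_card_ge (le_inf h8 h9)
        have h11 := card_inf h15 X Y h10.symm
        rw [card_eq_card 7 X A, ← hDc] at h11
        omega
    rw [h7, Finset.offDiag_card, hΓ5]
  rw [Finset.sum_congr rfl h2, Finset.sum_const, smul_eq_mul, hS] at h1
  omega

end seven

section final

variable {G : Type*} [Group G] [Finite G]

theorem semireg (h15 : Nat.card (Sylow 7 G) = 15)
    (hK : ∀ g : G, (∀ P : Sylow 7 G, g ∈ Subgroup.normalizer ((P : Subgroup G) : Set G)) → g = 1)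
    (P Q : Sylow 7 G) (hQP : Q ≠ P) (c : G) (hc : c ∈ Subgroup.centralizer ((P : Subgroup G) : Set G))
    (hcQ : c • Q = Q) : c = 1 := by
  classical
  have hf : Fact (Nat.Prime 7) := ⟨by norm_num⟩
  have h7 := card_seven h15 hK
  have hcomm : ∀ x ∈ (P : Subgroup G), x * c = c * x := fun x hx => by
    rw [Subgroup.mem_centralizer_iff] at hc
    exact hc x hx
  have hcP : c • P = P := by
    rw [Sylow.smul_eq_iff_mem_normalizer]
    exact Subgroup.centralizer_le_normalizer _ hc
  have hc1 : ∀ x ∈ (P : Subgroup G), c • (x • Q) = x • Q := by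
    intro x hx
    rw [smul_smul, ← hcomm x hx, mul_smul, hcQ]
  have h7' : ∀ x ∈ (P : Subgroup G), x ^ 7 = 1 := by
    intro x hx
    have h := h7 P
    have h2 : (⟨x, hx⟩ : (P : Subgroup G)) ^ Nat.card (P : Subgroup G) = 1 := pow_card_eq_one'
    have h3 : Nat.card (P : Subgroup G) = 7 := h
    rw [h3] at h2
    have h4 := congrArg Subtype.val h2
    simpa using h4
  have hc7 : ∀ R : Sylow 7 G, c ^ 7 • R = R := by
    intro R
    have hfix : ∀ S : Sylow 7 G, c • S = S → c ^ 7 • S = S := by
      intro S hS
      have : c ^ 7 ∈ MulAction.stabilizer G S := Subgroup.pow_mem _ (MulAction.mem_stabilizer_iff.2 hS) 7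
      exact MulAction.mem_stabilizer_iff.1 this
    by_cases hR1 : R = P
    · rw [hR1]; exact hfix _ hcP
    by_cases hR2 : R ∈ MulAction.orbit P Q
    · obtain ⟨x, rfl⟩ := hR2
      exact hfix _ (hc1 x x.2)
    -- counting
    have e1 : (MulAction.orbit P Q).ncard = 7 := by
      rw [orbit_ncard, relIndex_eq h15 P Q hQP]
    have e2 : (MulAction.orbit P R).ncard = 7 := by
      rw [orbit_ncard, relIndex_eq h15 P R hR1]
    have hPorb : ∀ S : Sylow 7 G, S ≠ P → P ∉ MulAction.orbit P S := by
      rintro S hS ⟨x, hx⟩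
      have h4 : (x : G) • S = P := hx
      have h5 : (x : G) • P = P := by
        rw [Sylow.smul_eq_iff_mem_normalizer]
        exact Subgroup.le_normalizer x.2
      exact hS (smul_left_cancel (x : G) (h4.trans h5.symm))
    have e3 : Disjoint (MulAction.orbit P Q) (MulAction.orbit P R) := by
      refine (MulAction.orbit.eq_or_disjoint Q R).resolve_left (fun h => hR2 ?_)
      rw [h]
      exact MulAction.mem_orbit_self R
    have e4 : (MulAction.orbit P Q ∪ MulAction.orbit P R ∪ {P}).ncard = 15 := by
      rw [Set.ncard_union_eq, Set.ncard_union_eq e3, e1, e2, Set.ncard_singleton]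
      rw [Set.disjoint_singleton_right]
      rintro (h | h)
      · exact hPorb Q hQP h
      · exact hPorb R hR1 h
    have e5 : (MulAction.orbit P Q ∪ MulAction.orbit P R ∪ {P}) = Set.univ := by
      apply Set.eq_of_subset_of_ncard_le (Set.subset_univ _)
      rw [e4, Set.ncard_univ, h15]
    have e6 : c • R ∈ MulAction.orbit P R := by
      have : c • R ∈ (MulAction.orbit P Q ∪ MulAction.orbit P R ∪ {P}) := by rw [e5]; trivial
      rcases this with (h | h) | h
      · exfalso
        obtain ⟨x, hx⟩ := h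
        have hx' : (x : G) • Q = c • R := hx
        rw [← hc1 x x.2] at hx'
        have := smul_left_cancel c hx'
        exact hR2 ⟨x, this⟩
      · exact h
      · exfalso
        have h' : c • R = P := h
        rw [← hcP] at h'
        exact hR1 (smul_left_cancel c h')
    obtain ⟨x, hx⟩ := e6
    have hx' : c • R = (x : G) • R := hx.symm
    have e7 : ∀ n : ℕ, c ^ n • R = (x : G) ^ n • R := by
      intro n
      induction n with
      | zero => simp
      | succ n ih =>
        rw [pow_succ', mul_smul, ih, smul_smul, ← hcomm _ ((P : Subgroup G).pow_mem x.2 n), mul_smul,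
          hx', smul_smul, ← pow_succ]
    rw [e7, h7' _ x.2, one_smul]
  have hc71 : c ^ 7 = 1 := by
    apply hK
    intro R
    exact Sylow.smul_eq_iff_mem_normalizer.1 (hc7 R)
  have hcz : IsPGroup 7 (Subgroup.zpowers c) := by
    apply IsPGroup.of_card_dvd_pow (n := 1)
    rw [Nat.card_zpowers, pow_one]
    exact orderOf_dvd_of_pow_eq_one hc71
  have hcP' : c ∈ (P : Subgroup G) := by
    have h1 := IsPGroup.inf_normalizer_sylow hcz P
    have h2 : c ∈ Subgroup.zpowers c ⊓ Subgroup.normalizer (P : Set G) := by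
      refine ⟨Subgroup.mem_zpowers c, ?_⟩
      rw [Sylow.smul_eq_iff_mem_normalizer] at hcP
      exact hcP
    rw [h1] at h2
    exact h2.2
  have hcQ' : c ∈ (Q : Subgroup G) := by
    have h1 := IsPGroup.inf_normalizer_sylow hcz Q
    have h2 : c ∈ Subgroup.zpowers c ⊓ Subgroup.normalizer (Q : Set G) := by
      refine ⟨Subgroup.mem_zpowers c, ?_⟩
      rw [Sylow.smul_eq_iff_mem_normalizer] at hcQ
      exact hcQ
    rw [h1] at h2
    exact h2.2
  have h8 := card_inf h15 P Q hQP
  rw [h7 P] at h8
  have h9 : Nat.card ((P : Subgroup G) ⊓ Q : Subgroup G) = 1 := by omega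
  rw [Subgroup.card_eq_one] at h9
  have : c ∈ (P : Subgroup G) ⊓ Q := ⟨hcP', hcQ'⟩
  rw [h9] at this
  exact this

theorem card_centralizer (h15 : Nat.card (Sylow 7 G) = 15)
    (hK : ∀ g : G, (∀ P : Sylow 7 G, g ∈ Subgroup.normalizer ((P : Subgroup G) : Set G)) → g = 1)
    (P : Sylow 7 G) :
    7 ∣ Nat.card (Subgroup.centralizer ((P : Subgroup G) : Set G)) ∧
    Nat.card (Subgroup.centralizer ((P : Subgroup G) : Set G)) ≤ 14 := by
  have hf : Fact (Nat.Prime 7) := ⟨by norm_num⟩
  have h7 := card_seven h15 hK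
  constructor
  · have h1 : (P : Subgroup G) ≤ Subgroup.centralizer ((P : Subgroup G) : Set G) := by
      have : IsCyclic P := isCyclic_of_prime_card (p := 7) (h7 P)
      have : IsMulCommutative (P : Subgroup G) := IsCyclic.isMulCommutative
      exact Subgroup.le_centralizer _
    have h2 := Subgroup.card_dvd_of_le h1
    have h3 : Nat.card (P : Subgroup G) = 7 := h7 P
    rwa [h3] at h2
  · have : ∃ Q : Sylow 7 G, Q ≠ P := by
      have : Nontrivial (Sylow 7 G) := by
        rw [← Finite.one_lt_card_iff_nontrivial, h15]; norm_num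
      exact exists_ne P
    obtain ⟨Q, hQ⟩ := this
    let f : Subgroup.centralizer ((P : Subgroup G) : Set G) → ({P}ᶜ : Set (Sylow 7 G)) := fun c =>
      ⟨(c : G) • Q, by
        intro h
        have h' : (c : G) • Q = P := h
        have hcP : (c : G) • P = P := by
          rw [Sylow.smul_eq_iff_mem_normalizer]
          exact Subgroup.centralizer_le_normalizer _ c.2
        exact hQ (smul_left_cancel (c : G) (h'.trans hcP.symm))⟩
    have hfi : Function.Injective f := by
      intro c d h
      have h1 : (c : G) • Q = (d : G) • Q := congrArg Subtype.val h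
      have h2 : ((d : G)⁻¹ * c) • Q = Q := by rw [mul_smul, h1, inv_smul_smul]
      have h3 := semireg h15 hK P Q hQ ((d : G)⁻¹ * c)
        (Subgroup.mul_mem _ (Subgroup.inv_mem _ d.2) c.2) h2
      apply Subtype.ext
      rw [inv_mul_eq_one] at h3
      exact h3.symm
    have := Nat.card_le_card_of_injective f hfi
    refine this.trans ?_
    have h5 : ({P}ᶜ : Set (Sylow 7 G)).ncard = 14 := by
      rw [Set.ncard_compl, h15, Set.ncard_singleton]
    exact h5.le

theorem relIndex_normalizer_dvd (p : ℕ) (hp : p.Prime) (P : Subgroup G) (hP : Nat.card P = p) :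
    (Subgroup.centralizer (P : Set G)).relIndex (Subgroup.normalizer (P : Set G)) ∣ p - 1 := by
  have hf : Fact p.Prime := ⟨hp⟩
  have hc : IsCyclic P := isCyclic_of_prime_card hP
  have key := Subgroup.card_dvd_of_injective _ (QuotientGroup.kerLift_injective P.normalizerMonoidHom)
  rw [Subgroup.normalizerMonoidHom_ker, ← Subgroup.index, ← Subgroup.relIndex] at key
  rwa [hc.card_mulAut, hP, Nat.totient_prime hp] at key

theorem card_eq (h15 : Nat.card (Sylow 7 G) = 15) (P : Sylow 7 G) :
    Nat.card G = 15 * (Nat.card (Subgroup.centralizer ((P : Subgroup G) : Set G)) *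
      (Subgroup.centralizer ((P : Subgroup G) : Set G)).relIndex
        (Subgroup.normalizer ((P : Subgroup G) : Set G))) := by
  have hf : Fact (Nat.Prime 7) := ⟨by norm_num⟩
  have h1 := P.card_eq_index_normalizer
  rw [h15] at h1
  have h2 := Subgroup.card_mul_index (Subgroup.normalizer ((P : Subgroup G) : Set G))
  have h3 := Subgroup.card_mul_index ((Subgroup.centralizer ((P : Subgroup G) : Set G)).subgroupOf
    (Subgroup.normalizer ((P : Subgroup G) : Set G)))
  have h4 : Nat.card ((Subgroup.centralizer ((P : Subgroup G) : Set G)).subgroupOf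
    (Subgroup.normalizer ((P : Subgroup G) : Set G))) =
      Nat.card (Subgroup.centralizer ((P : Subgroup G) : Set G)) :=
    Nat.card_congr (Subgroup.subgroupOfEquivOfLe (Subgroup.centralizer_le_normalizer _)).toEquiv
  rw [h4] at h3
  rw [Subgroup.relIndex, h3, ← h2]
  have h5 : (Subgroup.normalizer ((P : Subgroup G) : Set G)).index = 15 := h1.symm
  rw [h5, mul_comm]

theorem card_sylow_eq_prime (p : ℕ) [hp : Fact p.Prime] (P : Sylow p G) (h1 : p ∣ Nat.card G)
    (h2 : ¬ p ^ 2 ∣ Nat.card G) : Nat.card P = p := by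
  obtain ⟨n, hn⟩ := IsPGroup.iff_card.1 P.isPGroup'
  have h3 := P.dvd_card_of_dvd_card h1
  change Nat.card P = p ^ n at hn
  have h4 : n ≠ 0 := by
    rintro rfl
    change p ∣ Nat.card P at h3
    rw [hn, pow_zero] at h3
    exact hp.out.one_lt.ne' (Nat.dvd_one.1 h3)
  have h5 : n < 2 := by
    by_contra h
    apply h2
    have h6 : p ^ 2 ∣ p ^ n := pow_dvd_pow p (not_lt.1 h)
    rw [← hn] at h6
    exact h6.trans (Subgroup.card_subgroup_dvd_card (P : Subgroup G))
  have h6 : n = 1 := by omega
  rw [hn, h6, pow_one]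

theorem odd_card (h15 : Nat.card (Sylow 7 G) = 15)
    (hK : ∀ g : G, (∀ P : Sylow 7 G, g ∈ Subgroup.normalizer ((P : Subgroup G) : Set G)) → g = 1)
    (hmin : ∀ H : Subgroup G, H.Normal → ¬ 7 ∣ H.index → H = ⊤) :
    Nat.card G = 105 ∨ Nat.card G = 315 := by
  classical
  have hf : Fact (Nat.Prime 7) := ⟨by norm_num⟩
  have P : Sylow 7 G := default
  have h1 := card_eq h15 P
  have h2 := card_centralizer h15 hK P
  have h7 := card_seven h15 hK P
  have h3 := relIndex_normalizer_dvd 7 (by norm_num) (P : Subgroup G) h7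
  set k := (Subgroup.centralizer ((P : Subgroup G) : Set G)).relIndex
        (Subgroup.normalizer ((P : Subgroup G) : Set G)) with hk
  have h4 : k ∈ Nat.divisors 6 := by rw [Nat.mem_divisors]; exact ⟨h3, by norm_num⟩
  have h5 : Nat.divisors 6 = {1, 2, 3, 6} := by decide
  rw [h5] at h4
  have hc0 : 0 < Nat.card (Subgroup.centralizer ((P : Subgroup G) : Set G)) := Nat.card_pos
  have h6 : Nat.card (Subgroup.centralizer ((P : Subgroup G) : Set G)) = 7 ∨
      Nat.card (Subgroup.centralizer ((P : Subgroup G) : Set G)) = 14 := by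
    obtain ⟨m, hm⟩ := h2.1
    have := h2.2
    rw [hm] at this hc0 ⊢
    omega
  rcases h6 with h6 | h6
  · rw [h6] at h1
    simp only [Finset.mem_insert, Finset.mem_singleton] at h4
    have hodd : ¬ 2 ∣ Nat.card G := by
      intro h2G
      have hf2 : Fact (Nat.Prime 2) := ⟨by norm_num⟩
      have S : Sylow 2 G := default
      have hS : Nat.card S = 2 := by
        apply card_sylow_eq_prime 2 S h2G
        rcases h4 with h | h | h | h <;> rw [h] at h1 <;> rw [h1] <;> norm_num
      have hcy : IsCyclic S := isCyclic_of_prime_card hS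
      have hmf : (Nat.card G).minFac = 2 := (Nat.minFac_eq_two_iff _).2 h2G
      have hcomp := IsCyclic.isComplement' hmf hcy
      have hidx := hcomp.symm.index_eq_card
      rw [show Nat.card (S : Subgroup G) = 2 from hS] at hidx
      have htop := hmin _ inferInstance (by rw [hidx]; norm_num)
      rw [htop, Subgroup.index_top] at hidx
      norm_num at hidx
    rcases h4 with h | h | h | h <;> rw [h] at h1
    · left; exact h1
    · exfalso; apply hodd; rw [h1]; norm_num
    · right; exact h1
    · exfalso; apply hodd; rw [h1]; norm_num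
  · exfalso
    have hf2 : Fact (Nat.Prime 2) := ⟨by norm_num⟩
    obtain ⟨t, ht⟩ := exists_prime_orderOf_dvd_card' (G := Subgroup.centralizer ((P : Subgroup G) : Set G)) 2
      (by rw [h6]; norm_num)
    have ht2 : orderOf (t : G) = 2 := by rw [Subgroup.orderOf_coe, ht]
    have := Fintype.ofFinite (Sylow 7 G)
    let σ : Equiv.Perm (Sylow 7 G) := MulAction.toPermHom G (Sylow 7 G) (t : G)
    have hσ2 : σ ^ 2 = 1 := by
      rw [← map_pow, ← ht2, pow_orderOf_eq_one, map_one]
    have hfixed : Fintype.card (Function.fixedPoints σ) = 1 := by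
      rw [Fintype.card_eq_one_iff]
      have hP : (t : G) • P = P := by
        rw [Sylow.smul_eq_iff_mem_normalizer]
        exact Subgroup.centralizer_le_normalizer _ t.2
      refine ⟨⟨P, hP⟩, ?_⟩
      rintro ⟨Q, hQ⟩
      by_contra hne
      have hne' : Q ≠ P := fun h => hne (Subtype.ext h)
      have := semireg h15 hK P Q hne' t t.2 hQ
      rw [this, orderOf_one] at ht2
      norm_num at ht2
    have hs := Equiv.Perm.sign_of_pow_two_eq_one hσ2
    rw [hfixed, ← Nat.card_eq_fintype_card, h15] at hs
    let φ : G →* ℤˣ := Equiv.Perm.sign.comp (MulAction.toPermHom G (Sylow 7 G))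
    have hφ : φ t = -1 := by
      change Equiv.Perm.sign σ = -1
      rw [hs]; norm_num
    have htop := hmin φ.ker inferInstance (by
      rw [Subgroup.index_ker]
      have h8 : Nat.card φ.range ≤ Nat.card ℤˣ :=
        Nat.card_le_card_of_injective _ Subtype.val_injective
      have h8' : Nat.card ℤˣ = 2 := by rw [Nat.card_eq_fintype_card]; rfl
      rw [h8'] at h8
      intro h9
      have := Nat.le_of_dvd Nat.card_pos h9
      omega)
    have : (t : G) ∈ φ.ker := by rw [htop]; trivial
    rw [MonoidHom.mem_ker, hφ] at this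
    exact absurd this (by decide)

theorem key (h15 : Nat.card (Sylow 7 G) = 15)
    (hK : ∀ g : G, (∀ P : Sylow 7 G, g ∈ Subgroup.normalizer ((P : Subgroup G) : Set G)) → g = 1)
    (hmin : ∀ H : Subgroup G, H.Normal → ¬ 7 ∣ H.index → H = ⊤) : False := by
  have h1 := odd_card h15 hK hmin
  have hf5 : Fact (Nat.Prime 5) := ⟨by norm_num⟩
  have R : Sylow 5 G := default
  have hR : Nat.card R = 5 := by
    rcases h1 with h1 | h1 <;>
      exact card_sylow_eq_prime 5 R (by rw [h1]; norm_num) (by rw [h1]; norm_num)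
  have h2 := relIndex_normalizer_dvd 5 (by norm_num) (R : Subgroup G) hR
  have h3 : (Subgroup.centralizer ((R : Subgroup G) : Set G)).relIndex
      (Subgroup.normalizer ((R : Subgroup G) : Set G)) ∣ Nat.card G :=
    (Subgroup.relIndex_dvd_card _ _).trans (Subgroup.card_subgroup_dvd_card _)
  have h4 : (Subgroup.centralizer ((R : Subgroup G) : Set G)).relIndex
      (Subgroup.normalizer ((R : Subgroup G) : Set G)) = 1 := by
    apply Nat.dvd_one.1
    have := Nat.dvd_gcd h2 h3
    rcases h1 with h1 | h1 <;> rw [h1] at this <;> exact this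
  rw [Subgroup.relIndex_eq_one] at h4
  have h5 := MonoidHom.ker_transferSylow_isComplement' R h4
  have hidx := h5.symm.index_eq_card
  rw [show Nat.card (R : Subgroup G) = 5 from hR] at hidx
  have htop := hmin _ inferInstance (by rw [hidx]; norm_num)
  rw [htop, Subgroup.index_top] at hidx
  norm_num at hidx

end final

theorem main (n : ℕ) : ∀ (G : Type*) [Group G] [Finite G], Nat.card G = n →
    Nat.card (Sylow 7 G) ≠ 15 := by
  induction n using Nat.strong_induction_on with
  | _ n ih =>
    intro G _ _ hG h15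
    have hf : Fact (Nat.Prime 7) := ⟨by norm_num⟩
    have hmin : ∀ H : Subgroup G, H.Normal → ¬ 7 ∣ H.index → H = ⊤ := by
      intro H hH h7
      by_contra hne
      have h1 : Nat.card H < n := by
        rw [← hG]
        exact lt_of_le_of_ne (Nat.le_of_dvd Nat.card_pos (Subgroup.card_subgroup_dvd_card H))
          (fun h => hne (Subgroup.eq_top_of_card_eq H h))
      apply ih _ h1 H rfl
      rw [card_sylow_of_normal 7 H h7, h15]
    -- the kernel
    let K : Subgroup G := (MulAction.toPermHom G (Sylow 7 G)).ker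
    have hK1 : ∀ P : Sylow 7 G, K ≤ Subgroup.normalizer ((P : Subgroup G) : Set G) := by
      intro P g hg
      have h1 : MulAction.toPermHom G (Sylow 7 G) g = 1 := hg
      have h2 : g • P = P := by
        have := congrArg (fun σ : Equiv.Perm (Sylow 7 G) => σ P) h1
        exact this
      exact Sylow.smul_eq_iff_mem_normalizer.1 h2
    have hK : K = ⊥ := by
      by_contra hne
      have h1 : Nat.card (G ⧸ K) < n := by
        have h2 := Subgroup.card_mul_index K
        have h3 : 1 < Nat.card K := by
          rw [Subgroup.one_lt_card_iff_ne_bot]; exact hne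
        have h4 : 0 < K.index := Nat.pos_of_ne_zero K.index_ne_zero_of_finite
        rw [← Subgroup.index_eq_card, ← hG, ← h2]
        nlinarith
      apply ih _ h1 (G ⧸ K) rfl
      rw [card_sylow_quotient 7 K hK1, h15]
    apply key h15 _ hmin
    intro g hg
    have : g ∈ K := by
      rw [MonoidHom.mem_ker]
      ext P
      have h2 : g • P = P := Sylow.smul_eq_iff_mem_normalizer.2 (hg P)
      change _ ∈ g • P ↔ _
      rw [h2]
      rfl
    rw [hK] at this
    exact this

/-- No finite group has exactly 15 Sylow 7-subgroups. -/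
theorem result {G : Type*} [Group G] [Finite G] : Nat.card (Sylow 7 G) ≠ 15 :=
  main _ G rfl

end Cfsg.Agent.S4304
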