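import Cfsg.Statements.S4305
import Cfsg.Agent.Lib.S3Fpf2
import Cfsg.Agent.Lib.ClosedRep

set_option autoImplicit false
open Cfsg

namespace Cfsg.Agent.S4305

open Subgroup
open scoped commutatorElement

universe u v

theorem main : ∀ n : ℕ, ∀ (G : Type u) [Group G] [Finite G] (_ : Group.IsSolvable G)
    (φ : Equiv.Perm (Fin 3) →* MulAut G) (_ : (Nat.card G).Coprime 6)
    (_ : ∀ g : G, (∀ a, φ a g = g) → g = 1), Nat.card G ≤ n →
    Group.IsNilpotent (_root_.commutator G) := by
  intro n
  induction n with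
  | zero =>
    intro G _ _ _ φ _ _ hcard
    exact absurd hcard (by have := Nat.card_pos (α := G); omega)
  | succ n ih =>
    intro G _ _ hG φ hcop6 hfpf hcard
    by_contra hnot
    have hA6 : Nat.card (Equiv.Perm (Fin 3)) = 6 := by
      rw [Nat.card_eq_fintype_card]; decide
    have hcop : (Nat.card (Equiv.Perm (Fin 3))).Coprime (Nat.card G) := by
      rw [hA6]
      exact hcop6.symm
    have hinv : ∀ N : Subgroup G, N.Characteristic → ∀ a, ∀ x ∈ N, φ a x ∈ N := fun N hNc a x hx =>
      (Subgroup.characteristic_iff_le_comap.1 hNc (φ a)) hx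
    have hquot : ∀ N : Subgroup G, ∀ [N.Normal], N.Characteristic → N ≠ ⊥ →
        Group.IsNilpotent (_root_.commutator (G ⧸ N)) := by
      intro N _ hNc hNb
      obtain ⟨ψ, hψ⟩ := Lib.ActRep.exists_quot φ N (hinv N hNc)
      refine ih (G ⧸ N) inferInstance ψ
        (Nat.Coprime.coprime_dvd_left (card_quotient_dvd_card N) hcop6)
        (Lib.FpfCop.quot_fpf φ hcop (Or.inr hG) hfpf N (hinv N hNc) ψ hψ) ?_
      have h1 := N.card_eq_card_quotient_mul_card_subgroup
      have h2 : 1 < Nat.card N := by
        rw [Subgroup.one_lt_card_iff_ne_bot]; exact hNb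
      have h3 : 0 < Nat.card (G ⧸ N) := Nat.card_pos
      nlinarith
    obtain ⟨r, hr, hFr, hPp, hPb, hPc, hPexp, -, hcent⟩ := Lib.FitRed.fit_red
      (fun N : Subgroup G => _root_.commutator G ≤ N) le_top
      (fun M N _ _ hMN hM => hM.trans hMN) (fun M N _ _ hM hN => le_inf hM hN)
      (by
        intro N hNc hNb
        have hNn : N.Normal := inferInstance
        obtain ⟨M, h1, h2, h3, h4⟩ := Lib.FpfQuot.lcs_le_of_quotient N (hquot N hNc hNb)
        exact ⟨M, h1, h2, h3, h4⟩)
      (fun h => hnot (Lib.Fitting.isNilpotent_of_le h Lib.Fitting.isNilpotent_fittingSubgroup))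
    have := Fact.mk hr
    have hPchar : (pCore r G).Characteristic := Lib.FitRed.characteristic_pCore G r
    have hPn : (pCore r G).Normal := inferInstance
    have hPinv := hinv _ hPchar
    obtain ⟨k, _, _, _, W, _, _, _, h, s, hker, hsh, hsum⟩ := Lib.ClosedRep.exists_closed_rep
      φ (pCore r G) hPinv hPc r hPexp
    obtain ⟨ψ, hψ⟩ := Lib.ActRep.exists_quot φ (pCore r G) hPinv
    have hker' : pCore r G ≤ h.ker := by
      intro x hx
      rw [MonoidHom.mem_ker, hker, hcent]
      exact hx
    let hb : (G ⧸ pCore r G) →* Module.End k W := QuotientGroup.lift (pCore r G) h hker'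
    have hb1 : ∀ g : G, hb (g : G ⧸ pCore r G) = h g := fun g => rfl
    let c : Equiv.Perm (Fin 3) := finRotate 3
    have hc3 : c ^ 3 = 1 := by decide
    have hc1 : c ≠ 1 := by decide
    have hAinv : ∀ a : Equiv.Perm (Fin 3), a ∉ zpowers c → a ^ 2 = 1 ∧ a * c * a⁻¹ = c⁻¹ := by
      have h1 : ∀ a : Equiv.Perm (Fin 3), (a = c ^ 0 ∨ a = c ^ 1 ∨ a = c ^ 2) ∨
        (a ^ 2 = 1 ∧ a * c * a⁻¹ = c⁻¹) := by decide
      intro a ha
      rcases h1 a with h2 | h2
      · exfalso
        apply ha
        rcases h2 with h2 | h2 | h2 <;> rw [h2] <;> exact pow_mem (mem_zpowers c) _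
      · exact h2
    have hAind : ∀ a b : Equiv.Perm (Fin 3), a ∉ zpowers c → b ∉ zpowers c →
        a * b ∈ zpowers c := by
      have h1 : ∀ a b : Equiv.Perm (Fin 3), (a = c ^ 0 ∨ a = c ^ 1 ∨ a = c ^ 2) ∨
        (b = c ^ 0 ∨ b = c ^ 1 ∨ b = c ^ 2) ∨ (a * b = c ^ 0 ∨ a * b = c ^ 1 ∨ a * b = c ^ 2) := by
          decide
      have h2 : ∀ a : Equiv.Perm (Fin 3), (a = c ^ 0 ∨ a = c ^ 1 ∨ a = c ^ 2) → a ∈ zpowers c := by
        intro a h2
        rcases h2 with h2 | h2 | h2 <;> rw [h2] <;> exact pow_mem (mem_zpowers c) _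
      intro a b ha hb
      rcases h1 a b with h3 | h3 | h3
      · exact absurd (h2 a h3) ha
      · exact absurd (h2 b h3) hb
      · exact h2 _ h3
    have hK := Lib.S3Fpf2.abelian_of_rep hA6 c hc3 hc1 hAinv hAind (r := r) s
      (by
        have hs := hsum (Equiv.Perm (Fin 3)) (fun a => a) Set.univ
          (fun b _ => ⟨Equiv.mulLeft b, fun i => rfl⟩)
          (fun x _ hx => hfpf x fun a => hx a trivial)
        exact hs)
      (Nat.card (G ⧸ pCore r G)) (G ⧸ pCore r G) inferInstance ψ
      (Nat.Coprime.coprime_dvd_left (card_quotient_dvd_card _) hcop6)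
      (Lib.FpfCop.quot_fpf φ hcop (Or.inr hG) hfpf _ hPinv ψ hψ) hb (by
        intro x
        induction x using QuotientGroup.induction_on with | H g => ?_
        intro hg
        rw [hb1, hker, hcent] at hg
        exact (QuotientGroup.eq_one_iff _).2 hg) (by
        intro a x
        induction x using QuotientGroup.induction_on with | H g => ?_
        rw [hψ, hb1, hb1]
        exact hsh a g)
      (Lib.FpfQuot.not_dvd_of_pCore (Lib.Fitting.pCore_quotient_pCore r) _
        (hquot (pCore r G) hPchar hPb)) le_rfl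
    apply hnot
    have hle : _root_.commutator G ≤ pCore r G := by
      have h1 : (_root_.commutator G).map (QuotientGroup.mk' (pCore r G)) = ⊥ := by
        rw [eq_bot_iff, ← hK, _root_.commutator_def, map_commutator]
        exact commutator_mono le_top le_top
      rwa [Subgroup.map_eq_bot_iff, QuotientGroup.ker_mk'] at h1
    exact Lib.Fitting.isNilpotent_of_le hle hPp.isNilpotent

/-- Let the symmetric group of degree 3 act by automorphisms on a finite solvable group `G` of order prime to 6, so that only the identity of `G` is fixed by all of it. Then the derived subgroup of `G` is nilpotent. -/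
theorem result {G : Type*} [Group G] [Finite G] [Group.IsSolvable G]
    [MulDistribMulAction (Equiv.Perm (Fin 3)) G] (hcop : (Nat.card G).Coprime 6)
    (hfpf : ∀ g : G, (∀ a : Equiv.Perm (Fin 3), a • g = g) → g = 1) :
    Group.IsNilpotent ↥(commutator G) := by
  exact main (Nat.card G) G inferInstance (MulDistribMulAction.toMulAut (Equiv.Perm (Fin 3)) G) hcop
    (fun g hg => hfpf g fun a => hg a) le_rfl

end Cfsg.Agent.S4305
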