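import Cfsg.Statements.S4306
import Cfsg.Agent.Lib.FpfPQ4
import Cfsg.Agent.Lib.ClosedRep
import Cfsg.Agent.Lib.FitRed

set_option autoImplicit false
open Cfsg

namespace Cfsg.Agent.S4306

open Subgroup
open scoped commutatorElement

universe u v

theorem main {A : Type v} [Group A] [Fintype A] {r₀ s₀ : ℕ} (hr₀ : r₀.Prime) (hs₀ : s₀.Prime)
    (hsr : s₀ < r₀) (hAc : Nat.card A = r₀ * s₀) (hAna : ¬ ∀ x y : A, x * y = y * x) :
    ∀ n : ℕ, ∀ (G : Type u) [Group G] [Finite G] (_ : Group.IsSolvable G)
    (φ : A →* MulAut G) (_ : (Nat.card A).Coprime (Nat.card G))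
    (_ : ∀ g : G, (∀ a, φ a g = g) → g = 1), Nat.card G ≤ n →
    ∃ k, (⊤ : Subgroup G).lowerCentralSeries k ≤ fittingSubgroup G := by
  intro n
  induction n with
  | zero =>
    intro G _ _ _ φ _ _ hcard
    exact absurd hcard (by have := Nat.card_pos (α := G); omega)
  | succ n ih =>
    intro G _ _ hG φ hcop hfpf hcard
    by_contra hnot
    have hcopq : ∀ N : Subgroup G, ∀ [N.Normal], (Nat.card A).Coprime (Nat.card (G ⧸ N)) :=
      fun N _ => hcop.coprime_dvd_right (Subgroup.card_quotient_dvd_card N)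
    -- quotients
    have hinv : ∀ N : Subgroup G, N.Characteristic → ∀ a, ∀ x ∈ N, φ a x ∈ N := fun N hNc a x hx =>
      (Subgroup.characteristic_iff_le_comap.1 hNc (φ a)) hx
    have hquot : ∀ N : Subgroup G, ∀ [N.Normal], N.Characteristic → N ≠ ⊥ →
        ∃ k, (⊤ : Subgroup (G ⧸ N)).lowerCentralSeries k ≤ fittingSubgroup (G ⧸ N) := by
      intro N _ hNc hNb
      obtain ⟨ψ, hψ⟩ := Lib.ActRep.exists_quot φ N (hinv N hNc)
      refine ih (G ⧸ N) inferInstance ψ (hcopq N)
        (Lib.FpfCop.quot_fpf φ hcop (Or.inr hG) hfpf N (hinv N hNc) ψ hψ) ?_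
      have h1 := N.card_eq_card_quotient_mul_card_subgroup
      have h2 : 1 < Nat.card N := by
        rw [Subgroup.one_lt_card_iff_ne_bot]; exact hNb
      have h3 : 0 < Nat.card (G ⧸ N) := Nat.card_pos
      nlinarith
    obtain ⟨r, hr, hFr, hPp, hPb, hPc, hPexp, -, hcent⟩ := Lib.FitRed.fit_red
      (fun N : Subgroup G => ∃ k, (⊤ : Subgroup G).lowerCentralSeries k ≤ N) ⟨0, le_top⟩
      (fun M N _ _ hMN ⟨k, hk⟩ => ⟨k, hk.trans hMN⟩)
      (fun M N _ _ ⟨k, hk⟩ ⟨l, hl⟩ => ⟨max k l, le_inf
        ((Subgroup.lowerCentralSeries_antitone _ (le_max_left _ _)).trans hk)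
        ((Subgroup.lowerCentralSeries_antitone _ (le_max_right _ _)).trans hl)⟩)
      (by
        intro N hNc hNb
        have hNn : N.Normal := inferInstance
        obtain ⟨k, hk⟩ := hquot N hNc hNb
        have hFn : (fittingSubgroup (G ⧸ N)).Normal := Lib.Fitting.normal_fittingSubgroup
        have hFnil : Group.IsNilpotent (fittingSubgroup (G ⧸ N)) :=
          Lib.Fitting.isNilpotent_fittingSubgroup
        rw [Subgroup.isNilpotent_iff_lowerCentralSeries] at hFnil
        obtain ⟨l, hl⟩ := hFnil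
        refine ⟨(fittingSubgroup (G ⧸ N)).comap (QuotientGroup.mk' N), hFn.comap _, ?_, ⟨k, ?_⟩,
          l, ?_⟩
        · intro x hx
          rw [mem_comap, QuotientGroup.mk'_apply, (QuotientGroup.eq_one_iff x).2 hx]
          exact one_mem _
        · rw [← map_le_iff_le_comap, map_lowerCentralSeries, ← MonoidHom.range_eq_map,
            QuotientGroup.range_mk']
          exact hk
        · have h1 : (((fittingSubgroup (G ⧸ N)).comap (QuotientGroup.mk' N)).lowerCentralSeries
              l).map (QuotientGroup.mk' N) = ⊥ := by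
            rw [map_lowerCentralSeries, Subgroup.map_comap_eq_self_of_surjective
              (QuotientGroup.mk'_surjective N), hl]
          rwa [Subgroup.map_eq_bot_iff, QuotientGroup.ker_mk'] at h1)
      hnot
    have := Fact.mk hr
    have hPchar : (pCore r G).Characteristic := Lib.FitRed.characteristic_pCore G r
    have hPn : (pCore r G).Normal := inferInstance
    have hPinv := hinv _ hPchar
    obtain ⟨k, _, _, _, W, _, _, _, h, s, hker, hsh, hsum⟩ := Lib.ClosedRep.exists_closed_rep
      φ (pCore r G) hPinv hPc r hPexp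
    obtain ⟨ψ, hψ⟩ := Lib.ActRep.exists_quot φ (pCore r G) hPinv
    have hker' : pCore r G ≤ h.ker := by
      intro x hx
      rw [MonoidHom.mem_ker, hker, hcent]
      exact hx
    let hb : (G ⧸ pCore r G) →* Module.End k W := QuotientGroup.lift (pCore r G) h hker'
    have hb1 : ∀ g : G, hb (g : G ⧸ pCore r G) = h g := fun g => rfl
    obtain ⟨a₀, v₀, hPQ, hv₀⟩ := Lib.FpfPQ4.exists_PQ hr₀ hs₀ hsr hAc hAna
    have hkA : (Nat.card A : k) ≠ 0 := by
      intro h0
      rw [CharP.cast_eq_zero_iff k r] at h0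
      have h1 : r ∣ Nat.card (pCore r G) := by
        have hPG : IsPGroup r (pCore r G) := Lib.Fitting.isPGroup_pCore (G := G) r
        obtain ⟨m, hm⟩ := IsPGroup.iff_card.1 hPG
        rcases m with _ | m
        · exact absurd (Subgroup.eq_bot_of_card_eq _ (by rw [hm, pow_zero])) hPb
        · rw [hm, pow_succ]; exact Dvd.intro_left _ rfl
      exact Nat.not_coprime_of_dvd_of_dvd hr.one_lt h0
        (h1.trans (Subgroup.card_subgroup_dvd_card _)) hcop
    have hK := Lib.FpfPQ4.nilp_of_rep (K := G ⧸ pCore r G) inferInstance ψ hPQ hv₀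
      (hcopq _) (Or.inr inferInstance)
      (Lib.FpfCop.quot_fpf φ hcop (Or.inr hG) hfpf _ hPinv ψ hψ) hr hkA hb s (by
        intro x
        induction x using QuotientGroup.induction_on with | H g => ?_
        intro hg
        rw [hb1, hker, hcent] at hg
        exact (QuotientGroup.eq_one_iff _).2 hg) (by
        intro a x
        induction x using QuotientGroup.induction_on with | H g => ?_
        rw [hψ, hb1, hb1]
        exact hsh a g) (by
        refine hsum A (fun a => a) Set.univ ?_ ?_
        · intro b _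
          exact ⟨Equiv.mulLeft b, fun i => rfl⟩
        · intro x _ hx
          exact hfpf x fun a => hx a trivial)
      (Lib.Fitting.pCore_quotient_pCore r) (hquot (pCore r G) hPchar hPb)
    apply hnot
    rw [hFr]
    have h1 : Group.IsNilpotent (⊤ : Subgroup (G ⧸ pCore r G)) :=
      (Group.isNilpotent_congr (Subgroup.topEquiv (G := G ⧸ pCore r G))).2 hK
    rw [Subgroup.isNilpotent_iff_lowerCentralSeries] at h1
    obtain ⟨l, hl⟩ := h1
    refine ⟨l, ?_⟩
    have h2 : ((⊤ : Subgroup G).lowerCentralSeries l).map (QuotientGroup.mk' (pCore r G)) = ⊥ := by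
      rw [map_lowerCentralSeries, ← MonoidHom.range_eq_map, QuotientGroup.range_mk', hl]
    rwa [Subgroup.map_eq_bot_iff, QuotientGroup.ker_mk'] at h2

theorem main' {A : Type v} [Group A] [Fintype A] {p q : ℕ} (hp : p.Prime) (hq : q.Prime)
    (hpq : p ≠ q) (hAc : Nat.card A = p * q) (hAna : ¬ ∀ x y : A, x * y = y * x)
    (G : Type u) [Group G] [Finite G] (hG : Group.IsSolvable G)
    (φ : A →* MulAut G) (hcop : (Nat.card A).Coprime (Nat.card G))
    (hfpf : ∀ g : G, (∀ a, φ a g = g) → g = 1) :
    ∃ k, (⊤ : Subgroup G).lowerCentralSeries k ≤ fittingSubgroup G := by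
  rcases lt_or_gt_of_ne hpq with h | h
  · exact main hq hp h (by rw [hAc, mul_comm]) hAna _ G hG φ hcop hfpf le_rfl
  · exact main hp hq h hAc hAna _ G hG φ hcop hfpf le_rfl


/-- Let `A` be a non-abelian group of order `pq` with `p, q` distinct primes, acting by automorphisms on a finite solvable group `G` of order prime to `pq`, so that only the identity of `G` is fixed by all of `A`. Then `G` has Fitting height at most 2: there is a normal nilpotent subgroup `F` of `G` with `G/F` nilpotent. -/
theorem result {G A : Type*} [Group G] [Finite G]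
    [Group.IsSolvable G] [Group A] [Finite A] [MulDistribMulAction A G] (p q : ℕ) (hp : p.Prime) (hq : q.Prime) (hpq : p ≠ q)
    (hA : Nat.card A = p * q) (hAna : ¬ IsMulCommutative A) (hcop : (Nat.card G).Coprime (p * q))
    (hfpf : ∀ g : G, (∀ a : A, a • g = g) → g = 1) :
    ∃ F : Subgroup G, ∃ hF : F.Normal, Group.IsNilpotent ↥F ∧ Group.IsNilpotent (G ⧸ F) := by
  have hfin : Fintype A := Fintype.ofFinite A
  obtain ⟨k, hk⟩ := main' (A := A) hp hq hpq hA
    (fun h => hAna ⟨⟨h⟩⟩) G ‹_› (MulDistribMulAction.toMulAut A G) (by rw [hA]; exact hcop.symm)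
    (fun g hg => hfpf g fun a => hg a)
  have hFn : (fittingSubgroup G).Normal := Lib.Fitting.normal_fittingSubgroup
  refine ⟨fittingSubgroup G, hFn, Lib.Fitting.isNilpotent_fittingSubgroup, ?_⟩
  have h1 : Group.IsNilpotent (⊤ : Subgroup (G ⧸ fittingSubgroup G)) := by
    rw [Subgroup.isNilpotent_iff_lowerCentralSeries]
    refine ⟨k, ?_⟩
    have h2 : ((⊤ : Subgroup G).lowerCentralSeries k).map (QuotientGroup.mk' (fittingSubgroup G))
        = ⊥ := by
      rw [Subgroup.map_eq_bot_iff, QuotientGroup.ker_mk']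
      exact hk
    rwa [map_lowerCentralSeries, ← MonoidHom.range_eq_map, QuotientGroup.range_mk'] at h2
  exact (Group.isNilpotent_congr (Subgroup.topEquiv (G := G ⧸ fittingSubgroup G))).1 h1

end Cfsg.Agent.S4306
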