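import Cfsg.Statements.S4309

set_option autoImplicit false
open Cfsg

namespace Cfsg.Agent.S4309

theorem relIndex_eq_sup {G : Type*} [Group G] [Finite G] (H A : Subgroup G) [A.Normal] :
    H.relIndex A = H.relIndex (A ⊔ H) := by
  have h1 := Subgroup.relIndex_mul_relIndex (A ⊓ H) H (A ⊔ H) inf_le_right le_sup_right
  have h2 := Subgroup.relIndex_mul_relIndex (A ⊓ H) A (A ⊔ H) inf_le_left le_sup_left
  rw [Subgroup.inf_relIndex_right] at h1
  rw [Subgroup.inf_relIndex_left, Subgroup.relIndex_sup_left] at h2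
  rw [← h2, mul_comm] at h1
  have h3 : A.relIndex H ≠ 0 := by
    intro h0
    exact Subgroup.index_ne_zero_of_finite (Subgroup.index_eq_zero_of_relIndex_eq_zero h0)
  exact (Nat.eq_of_mul_eq_mul_right (Nat.pos_of_ne_zero h3) h1).symm

/-- Let `π` be a set of primes, `G` a finite group with a Hall `π`-subgroup `H` (every prime divisor of the order of `H` lies in `π` and no prime of `π` divides its index), and `A` a normal subgroup of `G`. Then `H ∩ A` is a Hall `π`-subgroup of `A` and the image of `H` in `G/A` is a Hall `π`-subgroup of `G/A`. -/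
theorem result {G : Type*} [Group G] [Finite G] (π : Set ℕ)
    (H A : Subgroup G) [A.Normal] (hH : Cfsg.IsPiHall π H) :
    Cfsg.IsPiHall π ((H ⊓ A).subgroupOf A) ∧ Cfsg.IsPiHall π (H.map (QuotientGroup.mk' A)) := by
  obtain ⟨h1, h2⟩ := hH
  refine ⟨⟨?_, ?_⟩, ?_, ?_⟩
  · intro p hp hdvd
    apply h1 p hp
    have h3 : Nat.card ((H ⊓ A).subgroupOf A) = Nat.card (H ⊓ A : Subgroup G) :=
      Nat.card_congr (Subgroup.subgroupOfEquivOfLe inf_le_right).toEquiv
    rw [h3] at hdvd
    exact hdvd.trans (Subgroup.card_dvd_of_le inf_le_left)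
  · intro p hp hpπ hdvd
    apply h2 p hp hpπ
    have h3 : ((H ⊓ A).subgroupOf A).index = H.relIndex A := by
      rw [Subgroup.inf_subgroupOf_right]
      rfl
    rw [h3] at hdvd
    rw [relIndex_eq_sup H A] at hdvd
    have h5 : H.relIndex (A ⊔ H) ∣ H.index := Subgroup.relIndex_dvd_index_of_le le_sup_right
    exact hdvd.trans h5
  · intro p hp hdvd
    apply h1 p hp
    exact hdvd.trans (Subgroup.card_map_dvd H _)
  · intro p hp hpπ hdvd
    apply h2 p hp hpπ
    refine hdvd.trans ?_
    exact Subgroup.index_map_dvd H (QuotientGroup.mk'_surjective A)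

end Cfsg.Agent.S4309
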