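import Cfsg.Statements.S4316
import Cfsg.Agent.Lib.DerBddD

set_option autoImplicit false
universe u
open Cfsg

namespace Cfsg.Agent.S4316

/-- There is a function `f` of two natural-number arguments with the following property. Let `q` be a prime and `A` an elementary abelian group of order `q³` acting by automorphisms on a finite group `G` of order prime to `q`, and suppose that for every non-identity `a ∈ A` the derived subgroup of the fixed-point subgroup `C_G(a)` has order at most `m`. Then the derived subgroup of `G` has order at most `f(q, m)`. -/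
theorem result :
    ∃ f : ℕ → ℕ → ℕ, ∀ (q m : ℕ) (A G : Type u) [Group A] [Finite A] [Group G] [Finite G] [MulDistribMulAction A G],
      q.Prime → Nat.card A = q ^ 3 → (∀ a b : A, a * b = b * a) → (∀ a : A, a ^ q = 1) → ¬ q ∣ Nat.card G →
      (∀ a : A, a ≠ 1 → Nat.card ↥(commutator ↥(FixedPoints.subgroup (Subgroup.zpowers a) G)) ≤ m) →
      Nat.card ↥(commutator G) ≤ f q m := by
  refine ⟨Cfsg.Agent.Lib.DerBddB.bd, ?_⟩
  intro q m A G _ _ _ _ _ hq hA hcomm hexp hcop hm
  have hqf : Fact q.Prime := ⟨hq⟩
  let φ : A →* MulAut G := MulDistribMulAction.toMulAut A G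
  have hfin := Cfsg.Agent.Lib.DerBddD.finite_sdp φ
  have hn := Cfsg.Agent.Lib.DerBddD.range_inl_normal φ
  have hea : Cfsg.IsElementaryAbelian q (SemidirectProduct.inr : A →* G ⋊[φ] A).range := by
    refine ⟨?_, ?_⟩
    · rw [isMulCommutative_iff_of_setLike]
      rintro _ ⟨a, rfl⟩ _ ⟨b, rfl⟩
      rw [← map_mul, ← map_mul, hcomm]
    · rintro _ ⟨a, rfl⟩
      rw [← map_pow, hexp a, map_one]
  have key := Cfsg.Agent.Lib.DerBddC.main (X := (SemidirectProduct.inl : G →* G ⋊[φ] A).range) hea
    (by rw [Cfsg.Agent.Lib.DerBddD.card_inr, hA])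
    (by rw [Subgroup.normalizer_eq_top]; exact le_top)
    (by rw [Cfsg.Agent.Lib.DerBddD.card_inl]; exact hcop) (m := m) (by
      rintro _ ⟨a, rfl⟩ ha
      have ha1 : a ≠ 1 := by
        rintro rfl
        exact ha (map_one _)
      have h1 := Cfsg.Agent.Lib.DerBddD.map_fixed φ a (FixedPoints.subgroup (Subgroup.zpowers a) G) (by
        intro x
        constructor
        · intro hx
          exact hx ⟨a, Subgroup.mem_zpowers a⟩
        · intro hx
          rintro ⟨b, hb⟩
          show b • x = x
          have h2 : a ∈ MulAction.stabilizer A x := hx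
          exact (Subgroup.zpowers_le.mpr h2) hb)
      rw [← h1, Cfsg.Agent.Lib.DerBddD.card_commutator_map _ SemidirectProduct.inl_injective]
      exact hm a ha1)
  have h3 := Cfsg.Agent.Lib.DerBddD.card_commutator_map (SemidirectProduct.inl : G →* G ⋊[φ] A)
    SemidirectProduct.inl_injective ⊤
  rw [← MonoidHom.range_eq_map] at h3
  rw [h3] at key
  refine le_trans (le_of_eq ?_) key
  have h4 : (commutator ↥(⊤ : Subgroup G)).map (⊤ : Subgroup G).subtype = commutator G := by
    rw [commutator_def, Subgroup.map_commutator, ← MonoidHom.range_eq_map, Subgroup.range_subtype,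
      commutator_def]
  rw [← h4]
  exact Subgroup.card_map_of_injective (Subgroup.subtype_injective _)

end Cfsg.Agent.S4316
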