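import Cfsg.Agent.Lib.H64PIT

open Cfsg

namespace Cfsg.Agent.S4320

/-- The Principal Ideal Theorem of class field theory in its group-theoretic form: for every finite group `G`, the transfer homomorphism from `G` into the abelianization `G'/G''` of its derived subgroup `G'` is the trivial homomorphism. -/
theorem result {G : Type*} [Group G] [Finite G] :
    MonoidHom.transfer (Abelianization.of : ↥(commutator G) →* Abelianization ↥(commutator G)) =
      (1 : G →* Abelianization ↥(commutator G)) := by
  exact Cfsg.Agent.Lib.H64PIT.transfer_eq_one

end Cfsg.Agent.S4320
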