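import Cfsg.Agent.Lib.H64PSing

set_option autoImplicit false

open Cfsg

namespace Cfsg.Agent.S4321

/-- Let `G` be a finite group and `p` a prime not dividing the order of the centre of `G`. Consider the primes dividing the size of some conjugacy class of a `p`-singular element (an element of order divisible by `p`), two of them adjacent when their product divides such a class size. Then any two distinct such primes are joined by a path with at most 3 edges (the graph is connected of diameter at most 3). -/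
theorem result {G : Type*} [Group G] [Finite G] (p : ℕ) [Fact p.Prime]
    (hZ : ¬ p ∣ Nat.card ↥(Subgroup.center G)) (r s : ℕ) (hr : (r.Prime ∧ ∃ x : G, p ∣ orderOf x ∧ r ∣ (Subgroup.centralizer ({x} : Set G)).index)) (hs : (s.Prime ∧ ∃ x : G, p ∣ orderOf x ∧ s ∣ (Subgroup.centralizer ({x} : Set G)).index)) (hrs : r ≠ s) :
    (∃ x : G, p ∣ orderOf x ∧ r * s ∣ (Subgroup.centralizer ({x} : Set G)).index) ∨ (∃ t : ℕ, (t.Prime ∧ ∃ x : G, p ∣ orderOf x ∧ t ∣ (Subgroup.centralizer ({x} : Set G)).index) ∧ t ≠ r ∧ t ≠ s ∧ (∃ x : G, p ∣ orderOf x ∧ r * t ∣ (Subgroup.centralizer ({x} : Set G)).index) ∧ (∃ x : G, p ∣ orderOf x ∧ t * s ∣ (Subgroup.centralizer ({x} : Set G)).index)) ∨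
      (∃ t u : ℕ, (t.Prime ∧ ∃ x : G, p ∣ orderOf x ∧ t ∣ (Subgroup.centralizer ({x} : Set G)).index) ∧ (u.Prime ∧ ∃ x : G, p ∣ orderOf x ∧ u ∣ (Subgroup.centralizer ({x} : Set G)).index) ∧ t ≠ r ∧ u ≠ s ∧ t ≠ u ∧ (∃ x : G, p ∣ orderOf x ∧ r * t ∣ (Subgroup.centralizer ({x} : Set G)).index) ∧ (∃ x : G, p ∣ orderOf x ∧ t * u ∣ (Subgroup.centralizer ({x} : Set G)).index) ∧ (∃ x : G, p ∣ orderOf x ∧ u * s ∣ (Subgroup.centralizer ({x} : Set G)).index)) := by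
  obtain ⟨hr, x, hx, hrx⟩ := hr
  obtain ⟨hs, y, hy, hsy⟩ := hs
  obtain ⟨w, hw, hwx, hwy⟩ := Cfsg.Agent.Lib.H64PSing.linked p hZ hx hy
  obtain ⟨a, ha, haw, hax⟩ := Nat.Prime.not_coprime_iff_dvd.1 hwx
  obtain ⟨b, hb, hbw, hby⟩ := Nat.Prime.not_coprime_iff_dvd.1 hwy
  have hmul : ∀ {k l n : ℕ}, k.Prime → l.Prime → k ≠ l → k ∣ n → l ∣ n → k * l ∣ n := by
    intro k l n hk hl hkl h1 h2
    exact Nat.Coprime.mul_dvd_of_dvd_of_dvd ((Nat.coprime_primes hk hl).2 hkl) h1 h2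
  change a ∣ (Subgroup.centralizer ({w} : Set G)).index at haw
  change b ∣ (Subgroup.centralizer ({w} : Set G)).index at hbw
  change a ∣ (Subgroup.centralizer ({x} : Set G)).index at hax
  change b ∣ (Subgroup.centralizer ({y} : Set G)).index at hby
  by_cases h1 : r ∣ (Subgroup.centralizer ({y} : Set G)).index
  · exact Or.inl ⟨y, hy, hmul hr hs hrs h1 hsy⟩
  by_cases h2 : s ∣ (Subgroup.centralizer ({x} : Set G)).index
  · exact Or.inl ⟨x, hx, hmul hr hs hrs hrx h2⟩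
  have hbr : b ≠ r := fun h => h1 (h ▸ hby)
  have has : a ≠ s := fun h => h2 (h ▸ hax)
  by_cases har : a = r
  · subst har
    by_cases hbs : b = s
    · subst hbs
      exact Or.inl ⟨w, hw, hmul hr hs hrs haw hbw⟩
    · exact Or.inr (Or.inl ⟨b, ⟨hb, y, hy, hby⟩, hbr, hbs, ⟨w, hw, hmul hr hb hbr.symm haw hbw⟩,
        ⟨y, hy, hmul hb hs hbs hby hsy⟩⟩)
  · by_cases hbs : b = s
    · subst hbs
      exact Or.inr (Or.inl ⟨a, ⟨ha, x, hx, hax⟩, har, has, ⟨x, hx, hmul hr ha (Ne.symm har) hrx hax⟩,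
        ⟨w, hw, hmul ha hs has haw hbw⟩⟩)
    · by_cases hab : a = b
      · subst hab
        exact Or.inr (Or.inl ⟨a, ⟨ha, x, hx, hax⟩, har, has, ⟨x, hx, hmul hr ha (Ne.symm har) hrx hax⟩,
          ⟨y, hy, hmul ha hs has hby hsy⟩⟩)
      · exact Or.inr (Or.inr ⟨a, b, ⟨ha, x, hx, hax⟩, ⟨hb, y, hy, hby⟩, har, hbs, hab,
          ⟨x, hx, hmul hr ha (Ne.symm har) hrx hax⟩, ⟨w, hw, hmul ha hb hab haw hbw⟩, ⟨y, hy, hmul hb hs hbs hby hsy⟩⟩)

end Cfsg.Agent.S4321
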