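import Cfsg.Statements.S4421

set_option autoImplicit false
open Cfsg

namespace Cfsg.Agent.S4421

theorem result {G : Type*} [Group G] [Finite G] (A S H : Subgroup G)
    (hAS : A ≤ S) (hSH : S ≤ H)
    (h1 : ∀ g : G, A.map (MulAut.conj g).toMonoidHom ≤ S → ∃ s ∈ S, A.map (MulAut.conj g).toMonoidHom = A.map (MulAut.conj s).toMonoidHom)
    (h2 : ∀ g : G, S.map (MulAut.conj g).toMonoidHom ≤ H → ∃ y ∈ H, S.map (MulAut.conj g).toMonoidHom = S.map (MulAut.conj y).toMonoidHom)
    (h3 : ∀ x ∈ Subgroup.normalizer (A : Set G), S.map (MulAut.conj x).toMonoidHom ≤ H) :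
    ∀ x ∈ Subgroup.normalizer (A : Set G), ∃ y ∈ H ⊓ Subgroup.normalizer (A : Set G),
      ∃ z ∈ Subgroup.normalizer (S : Set G) ⊓ Subgroup.normalizer (A : Set G), x = y * z := by
  have key : ∀ (K : Subgroup G) (g : G), g ∈ Subgroup.normalizer (K : Set G) ↔ K.map (MulAut.conj g).toMonoidHom = K := by
    intro K g
    rw [Subgroup.mem_normalizer_iff]
    constructor
    · intro h
      ext k
      constructor
      · rintro ⟨a, ha, rfl⟩
        exact (h a).1 ha
      · intro hk
        refine ⟨g⁻¹ * k * g, ?_, ?_⟩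
        · have := (h (g⁻¹ * k * g)).2
          apply this
          have e : g * (g⁻¹ * k * g) * g⁻¹ = k := by group
          rw [e]; exact hk
        · simp [mul_assoc]
    · intro h k
      constructor
      · intro hk
        rw [← h]
        exact ⟨k, hk, rfl⟩
      · intro hk
        rw [← SetLike.mem_coe, ← h] at hk
        obtain ⟨a, ha, hak⟩ := hk
        have : a = k := by
          have : g * a * g⁻¹ = g * k * g⁻¹ := hak
          simpa using this
        exact this ▸ ha
  have mapmul : ∀ (K : Subgroup G) (g h : G), K.map (MulAut.conj (g * h)).toMonoidHom = (K.map (MulAut.conj h).toMonoidHom).map (MulAut.conj g).toMonoidHom := by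
    intro K g h
    rw [Subgroup.map_map]
    congr 1
    ext x
    simp [mul_assoc]
  intro x hx
  obtain ⟨y, hy, hxy⟩ := h2 x (h3 x hx)
  have hz : (y⁻¹ * x) ∈ Subgroup.normalizer (S : Set G) := by
    rw [key, mapmul, hxy, ← mapmul]
    simp
    ext x; simp
  have hzA : A.map (MulAut.conj (y⁻¹ * x)).toMonoidHom ≤ S := by
    have := Subgroup.map_mono (f := (MulAut.conj (y⁻¹ * x)).toMonoidHom) hAS
    rw [(key S _).1 hz] at this
    exact this
  obtain ⟨s, hs, hs2⟩ := h1 _ hzA
  have hsS : s ∈ Subgroup.normalizer (S : Set G) := Subgroup.le_normalizer hs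
  have hzz : s⁻¹ * (y⁻¹ * x) ∈ Subgroup.normalizer (A : Set G) := by
    rw [key, mapmul, hs2, ← mapmul]
    simp
    ext x; simp
  refine ⟨y * s, ⟨H.mul_mem hy (hSH hs), ?_⟩, s⁻¹ * (y⁻¹ * x), ⟨?_, hzz⟩, by group⟩
  · have : y * s = x * (s⁻¹ * (y⁻¹ * x))⁻¹ := by group
    rw [this]
    exact Subgroup.mul_mem _ hx (Subgroup.inv_mem _ hzz)
  · exact Subgroup.mul_mem _ (Subgroup.inv_mem _ hsS) hz

end Cfsg.Agent.S4421
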