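import Cfsg.Statements.S4422

set_option autoImplicit false
open Cfsg

namespace Cfsg.Agent.S4422

theorem modEq_one_of_primes (e : ℕ) (m : ℕ) (hm : m ≠ 0) (h : ∀ r : ℕ, r.Prime → r ∣ m → r ≡ 1 [MOD e]) :
    m ≡ 1 [MOD e] := by
  induction m using Nat.recOnMul with
  | zero => exact absurd rfl hm
  | one => rfl
  | prime p hp => exact h p hp dvd_rfl
  | mul a b ha hb =>
    have ha0 : a ≠ 0 := fun h => hm (by simp [h])
    have hb0 : b ≠ 0 := fun h => hm (by simp [h])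
    have h1 := ha ha0 (fun r hr hd => h r hr (hd.mul_right b))
    have h2 := hb hb0 (fun r hr hd => h r hr (hd.mul_left a))
    simpa using h1.mul h2

theorem result (q e m : ℕ) (hq : 2 ≤ q) (he : 1 ≤ e)
    (hm : m ∣ q ^ e - 1) (hcop : ∀ i : ℕ, 1 ≤ i → i < e → Nat.Coprime m (q ^ i - 1)) :
    m % e = 1 % e := by
  have hpos : q ^ e - 1 ≠ 0 := by
    have : 1 < q ^ e := Nat.one_lt_pow (by omega) (by omega)
    omega
  have hm0 : m ≠ 0 := by
    rintro rfl
    exact hpos (zero_dvd_iff.1 hm)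
  apply modEq_one_of_primes e m hm0
  intro r hr hrm
  have := Fact.mk hr
  have key : ∀ i : ℕ, ((q : ZMod r) ^ i = 1 ↔ r ∣ q ^ i - 1) := by
    intro i
    have h1 : 1 ≤ q ^ i := Nat.one_le_pow _ _ (by omega)
    rw [← ZMod.natCast_eq_zero_iff, Nat.cast_sub h1]
    push_cast
    rw [sub_eq_zero]
  have hqe : (q : ZMod r) ^ e = 1 := (key e).2 (hrm.trans hm)
  have hdvd : orderOf (q : ZMod r) ∣ e := orderOf_dvd_of_pow_eq_one hqe
  have hordpos : 0 < orderOf (q : ZMod r) := Nat.pos_of_dvd_of_pos hdvd (by omega)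
  have hord : orderOf (q : ZMod r) = e := by
    by_contra hne
    have hlt : orderOf (q : ZMod r) < e := lt_of_le_of_ne (Nat.le_of_dvd (by omega) hdvd) hne
    have h1 := hcop _ hordpos hlt
    have h2 : r ∣ q ^ orderOf (q : ZMod r) - 1 := (key _).1 (pow_orderOf_eq_one _)
    exact hr.one_lt.ne' (Nat.dvd_one.1 (h1 ▸ Nat.dvd_gcd hrm h2))
  have hq0 : (q : ZMod r) ≠ 0 := by
    intro h0
    rw [h0, zero_pow (by omega)] at hqe
    exact zero_ne_one hqe
  have h3 : e ∣ r - 1 := by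
    rw [← hord]
    apply orderOf_dvd_of_pow_eq_one
    exact ZMod.pow_card_sub_one_eq_one hq0
  exact ((Nat.modEq_iff_dvd' hr.one_lt.le).2 h3).symm

end Cfsg.Agent.S4422
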