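import Cfsg.Statements.S4423
import Mathlib
import Cfsg.Agent.Lib.Zsigmondy

set_option autoImplicit false
open Cfsg

namespace Cfsg.Agent.S4423

open Cfsg.Agent.Lib.Zsigmondy

/-- `(q, n, z, K)` with `q^n - 1 = z K`. -/
def excTab : List (ℕ × ℕ × ℕ × ℕ) :=
  [(2, 6, 1, 63), (2, 4, 5, 3), (2, 10, 11, 93), (2, 12, 13, 315), (2, 18, 19, 13797),
    (3, 4, 5, 16), (3, 6, 7, 104), (5, 6, 7, 2232), (2, 3, 7, 1), (2, 8, 17, 15),
    (2, 20, 41, 25575), (4, 3, 7, 9), (4, 6, 13, 315)]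

theorem excTab_ok : ∀ t ∈ excTab, t.2.2.1 * t.2.2.2 = t.1 ^ t.2.1 - 1 ∧
    t.2.2.2 ∣ (∏ i ∈ Finset.Ico 1 t.2.1, (t.1 ^ i - 1)) ^ 2 ∧ t.2.2.1 ≤ 2 * t.2.1 + 1 := by
  decide +kernel

theorem exc_mem : ∀ t ∈ exc, ∃ u ∈ excTab, u.1 = t.1 ∧ u.2.1 = t.2 := by decide +kernel

/-- Size of the primitive part of `q^e - 1`. -/
theorem result (q e : ℕ) (hq : IsPrimePow q) (he : 3 ≤ e) :
    ((q, e) ∉ [(2, 6), (2, 4), (2, 10), (2, 12), (2, 18), (3, 4), (3, 6), (5, 6), (2, 3), (2, 8), (2, 20), (4, 3), (4, 6)] →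
      ∃ m : ℕ, m ∣ q ^ e - 1 ∧ (∀ i : ℕ, 1 ≤ i → i < e → Nat.Coprime m (q ^ i - 1)) ∧ 3 * e + 1 ≤ m) ∧
    ((q, e) ∈ [(2, 6), (2, 4), (2, 10), (2, 12), (2, 18), (3, 4), (3, 6), (5, 6), (2, 3), (2, 8), (2, 20), (4, 3), (4, 6)] →
      ∀ m : ℕ, m ∣ q ^ e - 1 → (∀ i : ℕ, 1 ≤ i → i < e → Nat.Coprime m (q ^ i - 1)) → m ≤ 2 * e + 1) := by
  constructor
  · intro h
    exact primitive_part hq.one_lt he h
  · intro h m hm hco
    obtain ⟨⟨a, b, z, K⟩, hu, h1, h2⟩ := exc_mem (q, e) h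
    simp only at h1 h2
    subst h1 h2
    obtain ⟨h3, h4, h5⟩ := excTab_ok _ hu
    simp only at h3 h4 h5
    have h6 : Nat.Coprime m K := by
      apply Nat.Coprime.coprime_dvd_right h4
      apply Nat.Coprime.pow_right
      apply Nat.Coprime.prod_right
      intro i hi
      rw [Finset.mem_Ico] at hi
      exact hco i hi.1 hi.2
    rw [← h3] at hm
    have h7 := h6.dvd_of_dvd_mul_right hm
    have hz : 0 < z := by
      rcases Nat.eq_zero_or_pos z with h | h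
      · rw [h, zero_mul] at h3
        have h8 : a ^ b ≤ 1 := by omega
        have h9 : 1 < a ^ b := Nat.one_lt_pow (by omega) hq.one_lt
        omega
      · exact h
    exact (Nat.le_of_dvd hz h7).trans h5

end Cfsg.Agent.S4423
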