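import Cfsg.Statements.S4425
import Cfsg.Agent.Lib.Contrib
import Cfsg.Agent.Lib.H76Char

set_option autoImplicit false
open Cfsg

namespace Cfsg.Agent.S4425

/-- Let χ be an irreducible character of the finite group G, p a prime, p^a the p-part of the order of G and p^b the p-part of the degree χ(1). Let χ̃ be the class function equal to p^a · χ on p-regular elements and zero on p-singular elements. Then p^(−b) · χ̃ is a generalized character of G, while p^(−(b+1)) · χ̃ is not. -/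
theorem result {G : Type*} [Group G] [Finite G] (p : ℕ) [Fact p.Prime] (χ : Cfsg.IrrCharacter G) : Cfsg.IsGeneralizedCharacter G (fun x : G => if p ∣ orderOf x then (0 : ℂ) else ((p ^ ((Nat.card G).factorization p - (Cfsg.charDegree (χ : G → ℂ)).factorization p) : ℕ) : ℂ) * (χ : G → ℂ) x) ∧ ¬ Cfsg.IsGeneralizedCharacter G (fun x : G => if p ∣ orderOf x then (0 : ℂ) else ((p ^ (Nat.card G).factorization p : ℕ) : ℂ) / ((p ^ ((Cfsg.charDegree (χ : G → ℂ)).factorization p + 1) : ℕ) : ℂ) * (χ : G → ℂ) x) := by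
  classical
  have := Fintype.ofFinite G
  have hp : p.Prime := Fact.out
  obtain ⟨M, hM⟩ := Cfsg.Agent.Lib.H76Char.exists_isPModular p
  haveI := Cfsg.Agent.Lib.BlockRing.isPrime hM
  have hp0 : (p : ℂ) ≠ 0 := by exact_mod_cast hp.ne_zero
  have hG : (Nat.card G : ℂ) ≠ 0 := by exact_mod_cast Nat.card_pos.ne'
  set a := (Nat.card G).factorization p with ha
  set v := (Cfsg.charDegree (χ : G → ℂ)).factorization p with hv
  have hva : v ≤ a := Cfsg.Agent.Lib.BlockDeg.nuDeg_le_card χ.2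
  have hden : p ^ a * Cfsg.charDegree (χ : G → ℂ) ≠ 0 :=
    mul_ne_zero (pow_ne_zero _ hp.ne_zero) (Cfsg.Agent.Lib.BlockDeg.charDegree_pos χ.2).ne'
  have hfac2 : (p ^ a * Cfsg.charDegree (χ : G → ℂ)).factorization p = a + v := by
    rw [Nat.factorization_mul (pow_ne_zero _ hp.ne_zero) (Cfsg.Agent.Lib.BlockDeg.charDegree_pos χ.2).ne']
    rw [Finsupp.add_apply, Nat.factorization_pow]
    simp [hp.factorization_self, hv]
  have hfac1 : ∀ n : ℤ, n ≠ 0 → (((Nat.card G : ℤ) * n : ℤ).natAbs).factorization p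
      = a + n.natAbs.factorization p := by
    intro n hn0
    rw [Int.natAbs_mul, Int.natAbs_natCast, Nat.factorization_mul Nat.card_pos.ne'
      (Int.natAbs_ne_zero.2 hn0)]
    rfl
  have key : ∀ ψ : Cfsg.IrrCharacter G, ∃ n : ℤ,
      (n : ℂ) = (p : ℂ) ^ a * Cfsg.Agent.Lib.Contrib.contrib p (ψ : G → ℂ) (χ : G → ℂ) ∧
      Cfsg.Agent.Lib.BlockGA.omega (χ : G → ℂ) (Cfsg.Agent.Lib.BlockPair.pel p (ψ : G → ℂ))
        = ((Nat.card G : ℤ) * n : ℤ) / ((p ^ a * Cfsg.charDegree (χ : G → ℂ) : ℕ) : ℂ) := by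
    intro ψ
    obtain ⟨n, hn⟩ := Cfsg.Agent.Lib.Contrib.contrib_int hp ψ χ
    rw [← ha] at hn
    refine ⟨n, hn, ?_⟩
    rw [Cfsg.Agent.Lib.Contrib.omega_pel_eq]
    push_cast
    rw [hn, Cfsg.Agent.Lib.BlockDeg.charDegree_cast_irr]
    have := χ.2.one_ne_zero
    have := pow_ne_zero a hp0
    field_simp
  constructor
  · apply Cfsg.Agent.Lib.CharBasic.isGeneralized_of_classInner
    · intro g h
      have h1 : orderOf (h * g * h⁻¹) = orderOf g := by
        have := orderOf_injective (MulAut.conj h).toMonoidHom (MulAut.conj h).injective g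
        simpa using this
      simp only [h1, χ.2.isClassFunction g h]
    · intro ψ hψ
      obtain ⟨n, hn, hom⟩ := key ⟨ψ, hψ⟩
      have h1 : Cfsg.classInner (fun x : G => if p ∣ orderOf x then (0 : ℂ) else ((p ^ (a - v) : ℕ) : ℂ) * (χ : G → ℂ) x) ψ
          = (p : ℂ) ^ (a - v) * Cfsg.Agent.Lib.Contrib.contrib p (χ : G → ℂ) ψ := by
        rw [Cfsg.Agent.Lib.Contrib.contrib_eq_classInner (χ : G → ℂ) ⟨ψ, hψ⟩,
          ← Cfsg.Agent.Lib.CharBasic.classInner_smul_left]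
        congr 1
        ext g
        simp only [Pi.smul_apply, smul_eq_mul, Cfsg.Agent.Lib.BlockPair.preg]
        split_ifs <;> push_cast <;> ring
      rw [h1]
      by_cases hn0 : n = 0
      · refine ⟨0, ?_⟩
        rw [hn0, Int.cast_zero] at hn
        have h2 := (mul_eq_zero.1 hn.symm).resolve_left (pow_ne_zero _ hp0)
        rw [Cfsg.Agent.Lib.Contrib.contrib_comm, show Cfsg.Agent.Lib.Contrib.contrib p ψ (χ : G → ℂ) = 0 from h2]
        simp
      · have hloc : Cfsg.MemLocalRing M (Cfsg.Agent.Lib.BlockGA.omega (χ : G → ℂ)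
            (Cfsg.Agent.Lib.BlockPair.pel p ψ)) :=
          Cfsg.Agent.Lib.BlockGA.loc_omega χ.2 (Cfsg.Agent.Lib.BlockPair.pel_mem_center hψ.isClassFunction)
            (Cfsg.Agent.Lib.BlockPair.locA_pel hψ.isCharacter)
        have hom' : Cfsg.Agent.Lib.BlockGA.omega (χ : G → ℂ) (Cfsg.Agent.Lib.BlockPair.pel p ψ)
          = ((Nat.card G : ℤ) * n : ℤ) / ((p ^ a * Cfsg.charDegree (χ : G → ℂ) : ℕ) : ℂ) := hom
        rw [hom', Cfsg.Agent.Lib.Contrib.loc_div_intCast_iff hM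
          (mul_ne_zero (by exact_mod_cast Nat.card_pos.ne') hn0) hden, hfac1 n hn0, hfac2] at hloc
        have hdvd : (p : ℤ) ^ v ∣ n := by
          rw [Cfsg.Agent.Lib.Contrib.natAbs_pow_dvd hp hn0]
          omega
        obtain ⟨k, hk⟩ := hdvd
        refine ⟨k, ?_⟩
        have h3 : (p : ℂ) ^ v * k = (p : ℂ) ^ v * ((p : ℂ) ^ (a - v) * Cfsg.Agent.Lib.Contrib.contrib p (χ : G → ℂ) ψ) := by
          rw [← mul_assoc, ← pow_add, Nat.add_sub_cancel' hva, Cfsg.Agent.Lib.Contrib.contrib_comm, ← hn, hk]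
          push_cast
          ring
        exact (mul_left_cancel₀ (pow_ne_zero _ hp0) h3).symm
  · intro hgen
    -- a height zero character in the block of `χ`
    set B := Cfsg.blockOf M (χ : G → ℂ) with hB
    have hBb : Cfsg.IsPBlock M B := ⟨χ, rfl⟩
    have hχB : χ ∈ B := Cfsg.Agent.Lib.BlockIdem.mem_blockOf_self χ
    obtain ⟨χ0, hχ0, h0⟩ := Cfsg.Agent.Lib.BlockDeg.exists_height_zero (p := p) (B := B) ⟨χ, hχB⟩
    obtain ⟨n, hn, hom⟩ := key χ0
    have hnot := Cfsg.Agent.Lib.BlockPair.not_idl_pair hM hBb hχ0 hχB h0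
    obtain ⟨k, hk⟩ := hgen.classInner_int χ0.2.isGeneralized
    have h1 : Cfsg.classInner (fun x : G => if p ∣ orderOf x then (0 : ℂ) else ((p ^ a : ℕ) : ℂ) / ((p ^ (v + 1) : ℕ) : ℂ) * (χ : G → ℂ) x) (χ0 : G → ℂ)
          = ((p : ℂ) ^ a / (p : ℂ) ^ (v + 1)) * Cfsg.Agent.Lib.Contrib.contrib p (χ : G → ℂ) (χ0 : G → ℂ) := by
      rw [Cfsg.Agent.Lib.Contrib.contrib_eq_classInner (χ : G → ℂ) χ0,
        ← Cfsg.Agent.Lib.CharBasic.classInner_smul_left]
      congr 1
      ext g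
      simp only [Pi.smul_apply, smul_eq_mul, Cfsg.Agent.Lib.BlockPair.preg]
      split_ifs <;> push_cast <;> ring
    have hk' : (k : ℂ) * (p : ℂ) ^ (v + 1) = n := by
      rw [← hk]
      rw [show (Cfsg.classInner (fun x : G => if p ∣ orderOf x then (0 : ℂ) else ((p ^ a : ℕ) : ℂ) / ((p ^ (v + 1) : ℕ) : ℂ) * (χ : G → ℂ) x) (χ0 : G → ℂ)) = _ from h1]
      rw [hn, Cfsg.Agent.Lib.Contrib.contrib_comm]
      have := pow_ne_zero (v + 1) hp0
      field_simp
    apply hnot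
    rw [hom]
    by_cases hn0 : n = 0
    · rw [hn0]
      simp only [mul_zero, Int.cast_zero, zero_div]
      exact Cfsg.Agent.Lib.BlockRing.idl_zero
    · rw [Cfsg.Agent.Lib.Contrib.idl_div_intCast_iff hM
          (mul_ne_zero (by exact_mod_cast Nat.card_pos.ne') hn0) hden, hfac1 n hn0, hfac2]
      have hdvd : (p : ℤ) ^ (v + 1) ∣ n := ⟨k, by
        have : ((n : ℤ) : ℂ) = (((p : ℤ) ^ (v + 1) * k : ℤ) : ℂ) := by
          push_cast; rw [← hk']; ring
        exact_mod_cast this⟩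
      rw [Cfsg.Agent.Lib.Contrib.natAbs_pow_dvd hp hn0] at hdvd
      omega

end Cfsg.Agent.S4425
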