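import Cfsg.Statements.S4428
import Cfsg.Agent.Lib.SubsecHZ

set_option autoImplicit false
open Cfsg

namespace Cfsg.Agent.S4428

/-- Let χ be an irreducible character of height zero in the p-block B of the finite group G (relative to a maximal ideal M of the algebraic integers containing p). Let x be a p-element of G with centralizer C, and let b be a block of C that induces B. Form the class function ϑ(c) = χ(x c) on C and its b-part (the sum over ψ ∈ b of the inner product of ϑ with ψ, times ψ). Then the b-part of ϑ does not vanish identically on the p-regular elements of C. (Compare the second main Theorem, which gives vanishing when b does not induce B.) -/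
theorem result {G : Type*} [Group G] [Finite G] (p : ℕ) [Fact p.Prime] (M : Ideal Cfsg.AlgInt) (hM : Cfsg.IsPModular p M) (B : Set (Cfsg.IrrCharacter G)) (hB : Cfsg.IsPBlock M B) (χ : Cfsg.IrrCharacter G) (hχ : χ ∈ B) (h0 : Cfsg.blockHeight p B (χ : G → ℂ) = 0) (x : G) (hx : ∃ k : ℕ, orderOf x = p ^ k) (b : Set (Cfsg.IrrCharacter (Subgroup.centralizer ({x} : Set G)))) (hb : Cfsg.IsInducedBlock M (Subgroup.centralizer ({x} : Set G)) b B) : ∃ y : Subgroup.centralizer ({x} : Set G), ¬ p ∣ orderOf y ∧ Cfsg.blockPart b (fun c : Subgroup.centralizer ({x} : Set G) => (χ : G → ℂ) (x * (c : G))) y ≠ 0 := by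
  classical
  haveI := Lib.BlockRing.isPrime hM
  obtain ⟨k, hk⟩ := hx
  have hind : Cfsg.IsInducedBlock M (Lib.Subsec.Cz x) b B := hb
  have hz : x ^ p ^ k = 1 := by rw [← hk]; exact pow_orderOf_eq_one x
  have h1 := (Lib.Subsec.D_one_hz hM hz hind hχ h0).2
  have hne : Lib.BlockCount.D p x b (χ : G → ℂ) 1 ≠ 0 := by
    intro h
    apply h1
    rw [h, mul_zero, zero_div]
    exact Lib.BlockRing.idl_zero
  have h2 : ¬ p ∣ orderOf (1 : Subgroup.centralizer ({x} : Set G)) := by
    rw [orderOf_one]
    exact fun h => hM.1.one_lt.not_ge (Nat.le_of_dvd one_pos h)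
  refine ⟨1, h2, ?_⟩
  rw [← Lib.Subsec.D_reg h2]
  exact hne

end Cfsg.Agent.S4428
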