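import Cfsg.Statements.S4429
import Cfsg.Agent.Lib.M11D

set_option autoImplicit false
open Cfsg

namespace Cfsg.Agent.S4429

/-- Let G be a simple group of order 7920. Then G has exactly ten irreducible complex characters, and their degrees, listed with multiplicity, are 1, 10, 10, 10, 11, 16, 16, 44, 45, 55: for every natural number n, the number of irreducible characters of degree n is 1 if n ∈ {1, 11, 44, 45, 55}, 3 if n = 10, 2 if n = 16, and 0 otherwise. -/
theorem result {G : Type*} [Group G] [Finite G] [IsSimpleGroup G] (hG : Nat.card G = 7920) : Nat.card (Cfsg.IrrCharacter G) = 10 ∧ ∀ n : ℕ, Nat.card {χ : Cfsg.IrrCharacter G // Cfsg.charDegree (χ : G → ℂ) = n} = (if n = 1 ∨ n = 11 ∨ n = 44 ∨ n = 45 ∨ n = 55 then 1 else if n = 10 then 3 else if n = 16 then 2 else 0) := by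
  classical
  obtain ⟨A, B, C, D, X, E, F, H, h⟩ := Cfsg.Agent.Lib.M11ByOrder.exists_tab (G := G) hG
  have hcd : ∀ χ : Cfsg.IrrCharacter G, Cfsg.charDegree (χ : G → ℂ) = Cfsg.Agent.Lib.ColTools.deg χ := by
    intro χ
    unfold Cfsg.charDegree
    rw [Cfsg.Agent.Lib.ColTools.apply_one]
    simp
  have hfin : (Finset.univ : Finset (Cfsg.IrrCharacter G)) =
      [Cfsg.Agent.Lib.ColTools.triv G, A, B, C, D, X, Cfsg.Agent.Lib.ColTools.cc X, E, F, H].toFinset := by
    ext χ
    rw [List.mem_toFinset]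
    exact ⟨fun _ => h.all χ, fun _ => Finset.mem_univ _⟩
  constructor
  · rw [Nat.card_eq_fintype_card, ← Finset.card_univ, hfin, List.toFinset_card_of_nodup h.nodup]
    rfl
  · intro n
    rw [Nat.card_eq_fintype_card, Fintype.card_subtype, hfin]
    have h1 : ((([Cfsg.Agent.Lib.ColTools.triv G, A, B, C, D, X, Cfsg.Agent.Lib.ColTools.cc X, E, F, H].toFinset).filter
        (fun χ : Cfsg.IrrCharacter G => Cfsg.charDegree (χ : G → ℂ) = n)).card) =
        ([Cfsg.Agent.Lib.ColTools.triv G, A, B, C, D, X, Cfsg.Agent.Lib.ColTools.cc X, E, F, H].filter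
          (fun χ : Cfsg.IrrCharacter G => decide (Cfsg.charDegree (χ : G → ℂ) = n))).length := by
      rw [← List.toFinset_card_of_nodup (h.nodup.filter _)]
      congr 1
      ext χ
      simp
    rw [h1]
    simp only [List.filter_cons, hcd, Cfsg.Agent.Lib.ColTools.deg_triv, h.dA, h.dB, h.dC, h.dD, h.dX, h.dE, h.dF, h.dH,
      Cfsg.Agent.Lib.ColTools.deg_cc, List.filter_nil]
    by_cases k1 : n = 1
    · subst k1; simp
    by_cases k2 : n = 10
    · subst k2; simp
    by_cases k3 : n = 11
    · subst k3; simp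
    by_cases k4 : n = 16
    · subst k4; simp
    by_cases k5 : n = 44
    · subst k5; simp
    by_cases k6 : n = 45
    · subst k6; simp
    by_cases k7 : n = 55
    · subst k7; simp
    simp [k1, k2, k3, k4, k5, k6, k7, Ne.symm k1, Ne.symm k2, Ne.symm k3, Ne.symm k4, Ne.symm k5, Ne.symm k6, Ne.symm k7]

end Cfsg.Agent.S4429
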