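import Cfsg.Statements.S4430
import Mathlib
import Cfsg.Agent.Lib.BlockIndPart

set_option autoImplicit false
open Cfsg

namespace Cfsg.Agent.S4430
open Cfsg Cfsg.Agent.Lib.BlockRing Cfsg.Agent.Lib.BlockGA Cfsg.Agent.Lib.BlockIdem
open Cfsg.Agent.Lib.BlockRes (resH coeff_resH)
open Cfsg.Agent.Lib.BlockIndPart Cfsg.Agent.Lib.IndFun Cfsg.Agent.Lib.BlockInd


/-- Let H be a subgroup of the finite group G, b a block of H whose induced block B₀ in G is defined (relative to a maximal ideal M of the algebraic integers containing p), and ξ ∈ b. For a block B of G let n_B be the value at 1 of the B-part of the induced character ξ^G (a natural number: the sum over χ ∈ B of the multiplicity of χ in ξ^G times χ(1)). Then for B = B₀ the exact power of p dividing n_B equals the exact power of p dividing ξ^G(1), while for every other block B either n_B = 0 or n_B is divisible by a strictly higher power of p than ξ^G(1). -/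
theorem result {G : Type*} [Group G] [Fintype G] (p : ℕ) [Fact p.Prime] (M : Ideal Cfsg.AlgInt) (hM : Cfsg.IsPModular p M) (H : Subgroup G) [Fintype H] (b : Set (Cfsg.IrrCharacter H)) (B₀ : Set (Cfsg.IrrCharacter G)) (hind : Cfsg.IsInducedBlock M H b B₀) (ξ : Cfsg.IrrCharacter H) (hξ : ξ ∈ b) : (∃ n : ℕ, Cfsg.blockPart B₀ (Cfsg.indFun H (ξ : H → ℂ)) 1 = (n : ℂ) ∧ n ≠ 0 ∧ n.factorization p = (Cfsg.charDegree (Cfsg.indFun H (ξ : H → ℂ))).factorization p) ∧ ∀ B : Set (Cfsg.IrrCharacter G), Cfsg.IsPBlock M B → B ≠ B₀ → ∃ n : ℕ, Cfsg.blockPart B (Cfsg.indFun H (ξ : H → ℂ)) 1 = (n : ℂ) ∧ (n = 0 ∨ (Cfsg.charDegree (Cfsg.indFun H (ξ : H → ℂ))).factorization p < n.factorization p) := by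
  haveI := isPrime hM
  have hchar : IsCharacter G (indFun H (ξ : H → ℂ)) := Lib.BrauerInd.isCharacter_indFun H ξ.2.isCharacter
  obtain ⟨hd1, hd2⟩ := Lib.BlockDefect.charDegree_spec ξ.2
  have hdeg : indFun H (ξ : H → ℂ) 1 = ((H.index * charDegree (ξ : H → ℂ) : ℕ) : ℂ) := by
    rw [indFun_one, hd1]; push_cast; rfl
  have hcd := charDegree_of_eq hdeg
  have hne : H.index * charDegree (ξ : H → ℂ) ≠ 0 :=
    Nat.mul_ne_zero (Subgroup.index_ne_zero_of_finite) hd2
  have hneC : ((H.index * charDegree (ξ : H → ℂ) : ℕ) : ℂ) ≠ 0 := by exact_mod_cast hne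
  obtain ⟨χ, hχ⟩ := isPBlock_nonempty hind.2.1
  have key : ∀ B : Set (IrrCharacter G), IsPBlock M B → ∀ n : ℕ,
      blockPart B (indFun H (ξ : H → ℂ)) 1 = (n : ℂ) →
      MemLocalIdeal M ((n : ℂ) / ((H.index * charDegree (ξ : H → ℂ) : ℕ) : ℂ) -
        omega (χ : G → ℂ) (eB B)) := by
    intro B hB n hn
    have h1 := induced_omega hind hξ hχ (eB_mem_center B) (locA_eB hB)
    rw [blockPart_indFun_one H ξ.2.one_ne_zero B, hdeg] at hn
    rw [← hn, mul_div_cancel_left₀ _ hneC]
    exact h1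
  refine ⟨?_, ?_⟩
  · obtain ⟨n, hn⟩ := blockPart_one_nat hchar B₀
    have h1 := key B₀ hind.2.1 n hn
    rw [omega_eB_mem hχ] at h1
    have hn0 : n ≠ 0 := by
      rintro rfl
      rw [Nat.cast_zero, zero_div, zero_sub, idl_neg_iff] at h1
      exact one_not_idl h1
    refine ⟨n, hn, hn0, ?_⟩
    rw [hcd]
    apply le_antisymm
    · by_contra hlt
      rw [not_le] at hlt
      have h2 := (idl_div_natCast_iff hM hn0 hne).2 hlt
      have h3 := (idl_congr h1).1 h2
      exact one_not_idl h3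
    · rw [← loc_div_natCast_iff hM hn0 hne]
      exact (loc_congr h1).2 loc_one
  · intro B hB hne'
    obtain ⟨n, hn⟩ := blockPart_one_nat hchar B
    have h1 := key B hB n hn
    have hχB : χ ∉ B := fun h => hne' (block_eq_of_mem hB hind.2.1 h hχ)
    rw [omega_eB_not_mem hχB, sub_zero] at h1
    refine ⟨n, hn, ?_⟩
    by_cases hn0 : n = 0
    · exact Or.inl hn0
    · right
      rw [hcd]
      exact (idl_div_natCast_iff hM hn0 hne).1 h1

end Cfsg.Agent.S4430
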