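import Cfsg.Statements.S4431
import Mathlib
import Cfsg.Agent.Lib.BlockIndPart
import Cfsg.Agent.Lib.BlockPair

set_option autoImplicit false
open Cfsg

namespace Cfsg.Agent.S4431
open Cfsg Cfsg.Agent.Lib.BlockRing Cfsg.Agent.Lib.BlockGA Cfsg.Agent.Lib.BlockIdem
open Cfsg.Agent.Lib.BlockRes (resH coeff_resH)
open Cfsg.Agent.Lib.BlockIndPart Cfsg.Agent.Lib.IndFun Cfsg.Agent.Lib.BlockInd Cfsg.Agent.Lib.BlockPair
universe v
theorem key {G : Type v} [Group G] [Fintype G] (p : ℕ) [Fact p.Prime] (H : Subgroup G) [Fintype H]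
    (χ : Cfsg.IrrCharacter G) (ψ : Cfsg.IrrCharacter H) :
    Cfsg.classInner (fun h : H => if p ∣ orderOf h then (0 : ℂ) else
      ((p ^ (Nat.card H).factorization p : ℕ) : ℂ) * (χ : G → ℂ) h) (ψ : H → ℂ) / (ψ : H → ℂ) 1 =
    ((Nat.card H / p ^ (Nat.card H).factorization p : ℕ) : ℂ)⁻¹ *
      omega (ψ : H → ℂ) (resH H (pel p (χ : G → ℂ))) := by
  rw [resH_pel, omega_pel, pair_comm, pair_eq_classInner]
  have h1 : (fun h : H => if p ∣ orderOf h then (0 : ℂ) else
      ((p ^ (Nat.card H).factorization p : ℕ) : ℂ) * (χ : G → ℂ) h) =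
      ((p ^ (Nat.card H).factorization p : ℕ) : ℂ) • preg p (fun h : H => (χ : G → ℂ) h) := by
    funext h
    simp only [Pi.smul_apply, preg, smul_eq_mul]
    split_ifs
    · rw [mul_zero]
    · rfl
  rw [h1, classInner_smul_left]
  have h2 : (Nat.card H : ℂ) = ((p ^ (Nat.card H).factorization p : ℕ) : ℂ) *
      ((Nat.card H / p ^ (Nat.card H).factorization p : ℕ) : ℂ) := by
    rw [← Nat.cast_mul]
    exact_mod_cast (Nat.ordProj_mul_ordCompl_eq_self (Nat.card H) p).symm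
  have h3 : ((Nat.card H / p ^ (Nat.card H).factorization p : ℕ) : ℂ) ≠ 0 := by
    have := (Nat.ordCompl_pos p (Nat.card_pos (α := H)).ne')
    exact_mod_cast this.ne'
  rw [h2]
  have h4 := ψ.2.one_ne_zero
  field_simp

/-- Let H be a subgroup of the finite group G and b a block of H whose induced block B₀ in G is defined (relative to a maximal ideal M of the algebraic integers containing p). Let χ be an irreducible character of G, ψ ∈ b, and let η be the class function on H equal to p^a · χ on the p-regular elements of H and zero elsewhere, p^a being the p-part of the order of H. Then (a) if χ ∉ B₀, the number [η, ψ]/ψ(1) lies in the local ideal at M; (b) if χ ∈ B₀ has height zero, it does not. -/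
theorem result {G : Type*} [Group G] [Fintype G] (p : ℕ) [Fact p.Prime] (M : Ideal Cfsg.AlgInt) (hM : Cfsg.IsPModular p M) (H : Subgroup G) [Fintype H] (b : Set (Cfsg.IrrCharacter H)) (B₀ : Set (Cfsg.IrrCharacter G)) (hind : Cfsg.IsInducedBlock M H b B₀) (χ : Cfsg.IrrCharacter G) (ψ : Cfsg.IrrCharacter H) (hψ : ψ ∈ b) : (χ ∉ B₀ → Cfsg.MemLocalIdeal M (Cfsg.classInner (fun h : H => if p ∣ orderOf h then (0 : ℂ) else ((p ^ (Nat.card H).factorization p : ℕ) : ℂ) * (χ : G → ℂ) h) (ψ : H → ℂ) / (ψ : H → ℂ) 1)) ∧ (χ ∈ B₀ → Cfsg.blockHeight p B₀ (χ : G → ℂ) = 0 → ¬ Cfsg.MemLocalIdeal M (Cfsg.classInner (fun h : H => if p ∣ orderOf h then (0 : ℂ) else ((p ^ (Nat.card H).factorization p : ℕ) : ℂ) * (χ : G → ℂ) h) (ψ : H → ℂ) / (ψ : H → ℂ) 1)) := by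
  haveI := isPrime hM
  obtain ⟨χ₀, hχ₀⟩ := isPBlock_nonempty hind.2.1
  have hc := pel_mem_center (p := p) χ.2.isClassFunction
  have hl := locA_pel (p := p) (M := M) χ.2.isCharacter
  have h1 := induced_omega hind hψ hχ₀ hc hl
  have hndvd : ¬ p ∣ (Nat.card H / p ^ (Nat.card H).factorization p) :=
    Nat.not_dvd_ordCompl hM.1 (Nat.card_pos (α := H)).ne'
  have hu : MemLocalRing M (((Nat.card H / p ^ (Nat.card H).factorization p : ℕ) : ℂ)⁻¹) :=
    loc_inv_natCast hM hndvd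
  have hu0 : ((Nat.card H / p ^ (Nat.card H).factorization p : ℕ) : ℂ) ≠ 0 := by
    have := (Nat.ordCompl_pos p (Nat.card_pos (α := H)).ne')
    exact_mod_cast this.ne'
  have hu' : ¬ MemLocalIdeal M (((Nat.card H / p ^ (Nat.card H).factorization p : ℕ) : ℂ)⁻¹) :=
    not_idl_inv (loc_natCast _) hu0
  refine ⟨fun hχ => ?_, fun hχ h0 => ?_⟩
  · rw [key p H χ ψ]
    refine idl_mul_left hu ?_
    have h2 : omega (χ₀ : G → ℂ) (pel p (χ : G → ℂ)) = 0 :=
      omega_pel_eq_zero hM (fun h => hχ (mem_of_sameBlock hind.2.1 hχ₀ (sameBlock_symm h)))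
    rw [h2, sub_zero] at h1
    exact h1
  · rw [key p H χ ψ]
    intro h3
    have h4 := idl_of_mul_left hu hu' h3
    exact not_idl_pair hM hind.2.1 hχ hχ₀ h0 ((idl_congr h1).1 h4)

end Cfsg.Agent.S4431
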