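import Cfsg.Statements.S4432
import Mathlib
import Cfsg.Agent.Lib.BlockGraded4
import Cfsg.Agent.Lib.BlockKnorr
import Cfsg.Agent.Lib.BlockCover2

set_option autoImplicit false
open Cfsg

namespace Cfsg.Agent.S4432
open Cfsg Cfsg.Agent.Lib Cfsg.Agent.Lib.BlockRing Cfsg.Agent.Lib.BlockGA Cfsg.Agent.Lib.BlockIdem Cfsg.Agent.Lib.BlockCover Cfsg.Agent.Lib.BlockInv Cfsg.Agent.Lib.BlockAlg Cfsg.Agent.Lib.BlockFong Cfsg.Agent.Lib.BlockTransfer Cfsg.Agent.Lib.BlockKnorr
open Cfsg.Agent.Lib.CharBasic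
open Cfsg.Agent.Lib.BlockRes (resH coeff_resH)
open Cfsg.Agent.Lib.BlockSecond (incH coeff_incH_coe coeff_incH_of_not_mem lin_incH locA_incH)
open Cfsg.Agent.Lib.Clifford

section aux
universe u
variable {G : Type u} [Group G] [Finite G] {N : Subgroup G} [hN : N.Normal]

theorem trunc_mul_incH (q : G ⧸ N) (z : GA G) (y : GA N) :
    BrauerMap.trunc {g : G | (g : G ⧸ N) = q} z * incH N y =
      BrauerMap.trunc {g : G | (g : G ⧸ N) = q} (z * incH N y) := by
  classical
  have := Fintype.ofFinite G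
  apply BrauerMap.ext_coeff
  intro g
  rw [BrauerMap.mul_coeff]
  by_cases hg : (g : G ⧸ N) = q
  · rw [BrauerMap.trunc_coeff_mem (S := {g : G | (g : G ⧸ N) = q}) hg, BrauerMap.mul_coeff]
    refine Finset.sum_congr rfl fun a _ => ?_
    by_cases ha : a⁻¹ * g ∈ N
    · have h1 : (a : G ⧸ N) = q := by
        rw [← hg]; exact QuotientGroup.eq.2 ha
      rw [BrauerMap.trunc_coeff_mem (S := {g : G | (g : G ⧸ N) = q}) h1]
    · rw [coeff_incH_of_not_mem _ ha, mul_zero, mul_zero]
  · rw [BrauerMap.trunc_coeff_not_mem (S := {g : G | (g : G ⧸ N) = q}) hg]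
    refine Finset.sum_eq_zero fun a _ => ?_
    by_cases ha : a⁻¹ * g ∈ N
    · have h1 : (a : G ⧸ N) ≠ q := by
        intro h; apply hg; rw [← h]; exact (QuotientGroup.eq.2 ha).symm
      rw [BrauerMap.trunc_coeff_not_mem (S := {g : G | (g : G ⧸ N) = q}) h1, zero_mul]
    · rw [coeff_incH_of_not_mem _ ha, mul_zero]

theorem incH_resH_eq (z : GA G) :
    incH N (resH N z) = BrauerMap.trunc {g : G | (g : G ⧸ N) = 1} z := by
  apply BrauerMap.ext_coeff
  intro g
  by_cases hg : g ∈ N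
  · rw [BrauerMap.trunc_coeff_mem (S := {g : G | (g : G ⧸ N) = 1}) ((QuotientGroup.eq_one_iff g).2 hg)]
    exact coeff_incH_coe (resH N z) ⟨g, hg⟩
  · rw [BrauerMap.trunc_coeff_not_mem (S := {g : G | (g : G ⧸ N) = 1})
      (fun h => hg ((QuotientGroup.eq_one_iff g).1 h)), coeff_incH_of_not_mem _ hg]

end aux


/-- Let N be a normal subgroup of the finite group G, b a block of N and B a block of G (relative to a maximal ideal M of the algebraic integers containing p) such that B covers b: some member of B has a constituent in b on restriction to N. Then every θ ∈ b is a constituent of the restriction of some χ ∈ B. -/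
theorem result {G : Type*} [Group G] [Fintype G] (p : ℕ) [Fact p.Prime] (M : Ideal Cfsg.AlgInt) (hM : Cfsg.IsPModular p M) (N : Subgroup G) [hN : N.Normal] [Fintype N] (B : Set (Cfsg.IrrCharacter G)) (hB : Cfsg.IsPBlock M B) (b : Set (Cfsg.IrrCharacter N)) (hb : Cfsg.IsPBlock M b) (hcov : (∃ χ ∈ B, ∃ θ ∈ b, Cfsg.classInner (fun n : N => (χ : G → ℂ) n) (θ : N → ℂ) ≠ 0)) (θ : Cfsg.IrrCharacter N) (hθ : θ ∈ b) : ∃ χ ∈ B, Cfsg.classInner (fun n : N => (χ : G → ℂ) n) (θ : N → ℂ) ≠ 0 := by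
  classical
  haveI := isPrime hM
  haveI : M.IsMaximal := isMax hM
  haveI : Finite G := inferInstance
  by_contra hcon
  push Not at hcon
  -- `e_B e_θ = 0`
  have h1 : eB B * incH N (eB (orbitSet N {θ})) = 0 := by
    apply center_ext (Subalgebra.mul_mem _ (eB_mem_center B) (incH_eB_mem_center (stable_orbitSet _)))
      (Subalgebra.zero_mem _)
    intro χ
    rw [omega_mul χ.2 (eB_mem_center B)]
    by_cases hχ : χ ∈ B
    · obtain ⟨ψ, hψ⟩ := exists_constituent_res N χ
      have h2 : ψ ∉ orbitSet N {θ} := by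
        rintro ⟨g, θ', hθ', h3⟩
        rw [Set.mem_singleton_iff] at hθ'
        subst hθ'
        have h4 := classInner_cj_res χ.2.isClassFunction g (θ' : N → ℂ)
        rw [← h3] at h4
        exact hψ (h4.trans (hcon χ hχ))
      rw [omega_incH_eB_not_mem hψ (stable_orbitSet _) h2, mul_zero]
      simp [omega, lin_zero]
    · rw [omega_eB_not_mem hχ, zero_mul]
      simp [omega, lin_zero]
  have h2 : eB B * incH N (eB {θ}) = 0 := by
    have h3 : eB (orbitSet N {θ}) * eB {θ} = eB {θ} := by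
      rw [eB_mul_eB, Set.inter_eq_right.2 (subset_orbitSet _)]
    rw [← h3, map_mul, ← mul_assoc, h1, zero_mul]
  have h3 : eB b * eB {θ} = eB {θ} := by
    rw [eB_mul_eB, Set.inter_eq_right.2 (Set.singleton_subset_iff.2 hθ)]
  set ut : GA G := eB B * incH N (eB b) with hut
  have h4 : ut * incH N (eB {θ}) = 0 := by
    rw [hut, mul_assoc, ← map_mul, h3, h2]
  have hl1 : LocA M (eB B) := locA_eB hB
  have hl2 : LocA M (incH N (eB b)) := locA_incH (locA_eB hb)
  have hbid := bid_mem_ZAlg (M := M) N b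
  have hbb := bid_mul_self hb
  have hcl : ∀ g h : G, (eB B).coeff (h * g * h⁻¹) = (eB B).coeff g :=
    fun g h => mem_center_iff.1 (eB_mem_center B) g h
  have hBf : redA M (eB B) ∈ BrauerMap.fixAlg (Kf M) N :=
    BrauerMap.mem_fixAlg_iff_coeff.2 fun h _ g => by rw [redA_coeff, redA_coeff, hcl]
  have hBf' : eB B ∈ BrauerMap.fixAlg ℂ N := BrauerMap.mem_fixAlg_iff_coeff.2 fun h _ g => hcl g h
  have hbf' : incH N (eB b) ∈ BrauerMap.fixAlg ℂ N := by
    rw [BrauerMap.mem_fixAlg_iff_coeff]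
    intro h hh g
    by_cases hg : g ∈ N
    · have e1 := coeff_incH_coe (eB b) (⟨h, hh⟩ * ⟨g, hg⟩ * ⟨h, hh⟩⁻¹ : N)
      have e2 := coeff_incH_coe (eB b) (⟨g, hg⟩ : N)
      have e3 : (eB b).coeff (⟨h, hh⟩ * ⟨g, hg⟩ * ⟨h, hh⟩⁻¹ : N) = (eB b).coeff ⟨g, hg⟩ :=
        mem_center_iff.1 (eB_mem_center b) ⟨g, hg⟩ ⟨h, hh⟩
      rw [e3, ← e2] at e1
      exact e1
    · rw [coeff_incH_of_not_mem _ hg, coeff_incH_of_not_mem]
      intro h'
      apply hg
      have := hN.conj_mem _ h' h⁻¹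
      simpa [mul_assoc] using this
  have hcomm : bid M N b * redA M (eB B) = redA M (eB B) * bid M N b :=
    BrauerMap.comm_of_supp_fix hbid.1 hBf
  have hBB : redA M (eB B) * redA M (eB B) = redA M (eB B) := by
    rw [← redA_mul (locA_eB hB) (locA_eB hB), eB_mul_self]
  apply bid_mul_ne_zero hM hb hB hcov
  refine Cfsg.Agent.Lib.BlockGraded4.main_gen (N := N) hbid
    (fun x => ∃ xt : GA G, LocA M xt ∧ redA M xt = x ∧ xt ∈ BrauerMap.fixAlg ℂ N ∧ xt * incH N (eB {θ}) = 0)
    ?_ ?_ (Subalgebra.mul_mem _ hBf hbid.2) ?_ ?_ ?_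
  · rintro x y - - ⟨xt, hx1, rfl, hx2, hx3⟩ ⟨yt, hy1, rfl, hy2, hy3⟩
    exact ⟨xt * yt, locA_mul hx1 hy1, redA_mul hx1 hy1, Subalgebra.mul_mem _ hx2 hy2, by
      rw [mul_assoc, hy3, mul_zero]⟩
  · rintro z hz ⟨zt, hz1, hz2, hz3, hz4⟩
    set z0 : GA N := resH N zt with hz0
    have hz0c : z0 ∈ Subalgebra.center ℂ (GA N) := by
      rw [mem_center_iff]
      intro x g
      change (resH N zt).coeff (g * x * g⁻¹) = (resH N zt).coeff x
      rw [coeff_resH, coeff_resH]
      exact BrauerMap.mem_fixAlg_iff_coeff.1 hz3 g g.2 x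
    have hz0l : LocA M z0 := Cfsg.Agent.Lib.BlockRes.locA_resH hz1
    have e1 : z0 * eB {θ} = 0 := by
      apply incH_injective N
      rw [map_mul, hz0, incH_resH_eq, trunc_mul_incH, hz4, map_zero]
      apply BrauerMap.ext_coeff
      intro g
      rw [BrauerMap.zero_coeff]
      by_cases hg : (g : G ⧸ N) = 1
      · rw [BrauerMap.trunc_coeff_mem (S := {g : G | (g : G ⧸ N) = 1}) hg, BrauerMap.zero_coeff]
      · rw [BrauerMap.trunc_coeff_not_mem (S := {g : G | (g : G ⧸ N) = 1}) hg]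
    have e2 : omega (θ : N → ℂ) z0 = 0 := by
      have e3 := mul_eB_singleton hz0c θ
      rw [e1] at e3
      have e4 := congrArg (fun t => omega (θ : N → ℂ) t) e3
      simp only [omega_smul] at e4
      rw [omega_eB_mem (Set.mem_singleton θ), mul_one] at e4
      rw [← e4]; simp [omega, lin_zero]
    have e3 := bid_nilp hb hθ hz0c hz0l
    rw [e2, red_zero, zero_smul, sub_zero, inc_redA, hz0, incH_resH_eq] at e3
    have e4 : redA M (BrauerMap.trunc {g : G | (g : G ⧸ N) = 1} zt) = z := by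
      apply BrauerMap.ext_coeff
      intro g
      rw [redA_coeff]
      by_cases hg : g ∈ N
      · rw [BrauerMap.trunc_coeff_mem (S := {g : G | (g : G ⧸ N) = 1}) ((QuotientGroup.eq_one_iff g).2 hg),
          ← redA_coeff, hz2]
      · rw [BrauerMap.trunc_coeff_not_mem (S := {g : G | (g : G ⧸ N) = 1})
          (fun h => hg ((QuotientGroup.eq_one_iff g).1 h)), red_zero]
        exact (hz.1 g hg).symm
    rwa [e4] at e3
  · intro q
    refine ⟨BrauerMap.trunc {g : G | (g : G ⧸ N) = q} ut, ?_, ?_, ?_, ?_⟩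
    · intro g
      by_cases hg : (g : G ⧸ N) = q
      · rw [BrauerMap.trunc_coeff_mem (S := {g : G | (g : G ⧸ N) = q}) hg]
        exact locA_mul hl1 hl2 g
      · rw [BrauerMap.trunc_coeff_not_mem (S := {g : G | (g : G ⧸ N) = q}) hg]
        exact loc_zero
    · rw [bid, inc_redA, ← redA_mul hl1 hl2]
      apply BrauerMap.ext_coeff
      intro g
      rw [redA_coeff]
      by_cases hg : (g : G ⧸ N) = q
      · rw [BrauerMap.trunc_coeff_mem (S := {g : G | (g : G ⧸ N) = q}) hg,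
          BrauerMap.trunc_coeff_mem (S := {g : G | (g : G ⧸ N) = q}) hg, redA_coeff]
      · rw [BrauerMap.trunc_coeff_not_mem (S := {g : G | (g : G ⧸ N) = q}) hg,
          BrauerMap.trunc_coeff_not_mem (S := {g : G | (g : G ⧸ N) = q}) hg, red_zero]
    · exact Cfsg.Agent.Lib.BlockGraded.trunc_mem_fixAlg (Subalgebra.mul_mem _ hBf' hbf') q
    · rw [trunc_mul_incH, h4]
      apply BrauerMap.ext_coeff
      intro g
      rw [BrauerMap.zero_coeff]
      by_cases hg : (g : G ⧸ N) = q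
      · rw [BrauerMap.trunc_coeff_mem (S := {g : G | (g : G ⧸ N) = q}) hg, BrauerMap.zero_coeff]
      · rw [BrauerMap.trunc_coeff_not_mem (S := {g : G | (g : G ⧸ N) = q}) hg]
  · calc redA M (eB B) * bid M N b * (redA M (eB B) * bid M N b)
        = redA M (eB B) * (bid M N b * redA M (eB B)) * bid M N b := by noncomm_ring
      _ = redA M (eB B) * (redA M (eB B) * bid M N b) * bid M N b := by rw [hcomm]
      _ = (redA M (eB B) * redA M (eB B)) * (bid M N b * bid M N b) := by noncomm_ring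
      _ = _ := by rw [hBB, hbb]
  · rw [mul_assoc, hbb]

end Cfsg.Agent.S4432
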