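import Cfsg.Statements.S4439
import Cfsg.Agent.Lib.H16PS

set_option autoImplicit false
open Cfsg

namespace Cfsg.Agent.S4439

/-- Let G be a finite p-solvable group and B a p-block of G with defect group P (relative to a maximal ideal M of the algebraic integers containing p). Then the height of every irreducible character in B is at most the exponent of p in the index of the centre of P in P. -/
theorem result {G : Type*} [Group G] [Finite G] (p : ℕ) [Fact p.Prime] (M : Ideal Cfsg.AlgInt) (hM : Cfsg.IsPModular p M) (hsolv : Cfsg.IsPSolvable p G) (B : Set (Cfsg.IrrCharacter G)) (hB : Cfsg.IsPBlock M B) (P : Subgroup G) (hP : Cfsg.IsDefectGroup p M B P) (χ : Cfsg.IrrCharacter G) (hχ : χ ∈ B) : Cfsg.blockHeight p B (χ : G → ℂ) ≤ ((Subgroup.center P).index).factorization p := by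
  exact Cfsg.Agent.Lib.H16PS.height_le hM _ G rfl hsolv B hB P hP χ hχ

end Cfsg.Agent.S4439
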