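import Cfsg.Statements.S4440
import Mathlib
import Cfsg.Agent.Lib.FongSwan6

set_option autoImplicit false
open Cfsg

namespace Cfsg.Agent.S4440
open Cfsg Cfsg.Agent.Lib.CharBasic


/-- Let G be a finite p-solvable group and fix a maximal ideal M of the algebraic integers containing p. Let U be a set of irreducible characters of G such that the class function Σ_{χ ∈ U} χ(1)·χ vanishes at every p-singular element of G. Then U is a union of p-blocks: if χ ∈ U and ψ lies in the same block as χ, then ψ ∈ U. -/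
theorem result {G : Type*} [Group G] [Finite G] (p : ℕ) [Fact p.Prime] (M : Ideal Cfsg.AlgInt) (hM : Cfsg.IsPModular p M) (hsolv : Cfsg.IsPSolvable p G) (U : Set (Cfsg.IrrCharacter G)) (hU : ∀ x : G, p ∣ orderOf x → ∑ᶠ χ ∈ U, (χ : G → ℂ) 1 * (χ : G → ℂ) x = 0) (χ : Cfsg.IrrCharacter G) (hχ : χ ∈ U) (ψ : Cfsg.IrrCharacter G) (hψ : Cfsg.SameBlock M (χ : G → ℂ) (ψ : G → ℂ)) : ψ ∈ U := by
  refine Cfsg.Agent.Lib.FongSwan6.main hM hsolv ?_ hχ hψ
  intro x hx
  have h := hU x hx
  rwa [finsum_mem_eq_finite_toFinset_sum _ (Set.toFinite _)] at h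

end Cfsg.Agent.S4440
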