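import Cfsg.Statements.S4443
import Mathlib
import Cfsg.Agent.Lib.BlockRank

set_option autoImplicit false
open Cfsg

namespace Cfsg.Agent.S4443
open Cfsg Cfsg.Agent.Lib.BlockDefect


/-- Let D be a normal p-subgroup of the finite group G, of order p^d, let p^a be the p-part of the order of G, and fix a Sylow p-subgroup S and a maximal ideal M of the algebraic integers containing p. Index by a finite type ι (via an injective map K) exactly the conjugacy classes of p-regular elements x of G for which D is a Sylow p-subgroup of C_G(x). For classes K_i, K_j let ω(i, j) be the number of pairs (y, z) ∈ K_i × K_j with z y⁻¹ ∈ S; this number is divisible by p^(a−d). Then the number of p-blocks of G having D as a defect group equals the rank over ℤ/pℤ of the matrix with (i, j) entry ω(i, j)/p^(a−d) reduced modulo p. -/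
theorem result {G : Type*} [Group G] [Finite G] (p : ℕ) [Fact p.Prime] (M : Ideal Cfsg.AlgInt) (hM : Cfsg.IsPModular p M) (D : Subgroup G) [D.Normal] (hD : IsPGroup p D) (S : Sylow p G) {ι : Type*} [Fintype ι] [DecidableEq ι] (K : ι → ConjClasses G) (hKinj : Function.Injective K) (hK : ∀ C : ConjClasses G, (∃ i, K i = C) ↔ ∃ x ∈ C.carrier, ¬ p ∣ orderOf x ∧ ∃ Q : Sylow p (Subgroup.centralizer ({x} : Set G)), (Q : Subgroup (Subgroup.centralizer ({x} : Set G))).map (Subgroup.centralizer ({x} : Set G)).subtype = D) : Nat.card {B : Set (Cfsg.IrrCharacter G) // Cfsg.IsPBlock M B ∧ Cfsg.IsDefectGroup p M B D} = (Matrix.of fun i j : ι => ((Nat.card {yz : G × G // yz.1 ∈ (K i).carrier ∧ yz.2 ∈ (K j).carrier ∧ yz.2 * yz.1⁻¹ ∈ (S : Subgroup G)} / p ^ ((Nat.card G).factorization p - (Nat.card D).factorization p) : ℕ) : ZMod p)).rank := by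
  classical
  have hmk : ∀ C : ConjClasses G, ConjClasses.mk (Quotient.out C : G) = C :=
    fun C => Quotient.out_eq C
  have hmem : ∀ (C : ConjClasses G) (g : G), g ∈ C.carrier ↔ IsConj (Quotient.out C : G) g := by
    intro C g
    rw [ConjClasses.mem_carrier_iff_mk_eq, ← ConjClasses.mk_eq_mk_iff_isConj, hmk]
    exact eq_comm
  have hsyl : ∀ i, SylC p (Quotient.out (K i) : G) D := by
    intro i
    obtain ⟨x', hx', -, Q, hQ⟩ := (hK (K i)).1 ⟨i, rfl⟩
    have h1 : SylC p x' D := ⟨Q, hQ.symm⟩
    obtain ⟨c, hc⟩ := isConj_iff.mp ((hmem _ _).1 hx').symm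
    have h2 := sylC_conj h1 c
    rw [hc] at h2
    have hmap : D.map (MulAut.conj c).toMonoidHom = D := by
      ext y
      rw [mem_map_conj]
      constructor
      · intro h
        have h3 := (inferInstance : D.Normal).conj_mem _ h c
        have h4 : c * (c⁻¹ * y * c) * c⁻¹ = y := by group
        rwa [h4] at h3
      · intro h
        have h3 := (inferInstance : D.Normal).conj_mem _ h c⁻¹
        rwa [inv_inv] at h3
    rwa [hmap] at h2
  refine Cfsg.Agent.Lib.BlockRank.main hM hD S (fun i => (Quotient.out (K i) : G)) ?_ hsyl ?_ _ ?_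
  · intro i j h
    apply hKinj
    have h1 : ConjClasses.mk (Quotient.out (K i) : G) = ConjClasses.mk (Quotient.out (K j) : G) := h
    rwa [hmk, hmk] at h1
  · intro g hg hgD
    obtain ⟨Q, hQ⟩ := hgD
    obtain ⟨i, hi⟩ := (hK (ConjClasses.mk g)).2 ⟨g, ConjClasses.mem_carrier_mk, hg, Q, hQ.symm⟩
    exact ⟨i, (hmk _).trans hi⟩
  · intro i j
    rw [Matrix.of_apply]
    have h1 : Nat.card {yz : G × G // yz.1 ∈ (K i).carrier ∧ yz.2 ∈ (K j).carrier ∧
        yz.2 * yz.1⁻¹ ∈ (S : Subgroup G)} =
        Nat.card {yz : G × G // IsConj (Quotient.out (K i) : G) yz.1 ∧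
          IsConj (Quotient.out (K j) : G) yz.2 ∧ yz.2 * yz.1⁻¹ ∈ (S : Subgroup G)} := by
      refine Nat.card_congr (Equiv.subtypeEquivRight fun yz => ?_)
      rw [hmem, hmem]
    rw [h1]
    rfl

end Cfsg.Agent.S4443
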