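import Cfsg.Statements.S4444
import Mathlib
import Cfsg.Agent.Lib.GlaubCorr
import Cfsg.Agent.Lib.GlaubCorrConj

set_option autoImplicit false
open Cfsg

namespace Cfsg.Agent.S4444
open Cfsg Cfsg.Agent.Lib.GlaubCorr Cfsg.Agent.Lib.CharBasic
universe v

theorem triv {G : Type v} [Group G] [Finite G] {C : Type v} [Group C] [Fintype C] (ι : C →* G)
    (hι : Function.Bijective ι) (χ : IrrCharacter G) (β : IrrCharacter C) :
    mult ι χ β = 1 ∧ (β : C → ℂ) = (fun c => (χ : G → ℂ) (ι c)) ∨ mult ι χ β = 0 := by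
  classical
  have h1 : IsIrrCharacter C (fun c => (χ : G → ℂ) (ι c)) := χ.2.comp_surjective ι hι.2
  by_cases h : (fun c => (χ : G → ℂ) (ι c)) = (β : C → ℂ)
  · left
    refine ⟨mult_eq ?_, h.symm⟩
    rw [h, β.2.classInner_self, Nat.cast_one]
  · right
    apply mult_eq
    rw [h1.classInner_eq_zero β.2 h, Nat.cast_zero]

/-- The Glauberman correspondence for a p-group of operators. Inside a finite group Γ let S normalise G with the orders of G and S coprime, S a p-group, and let C = G ⊓ C(S) be the fixed points. Call an irreducible character χ of G S-invariant when χ(s g s⁻¹) = χ(g) for s ∈ S, g ∈ G. Then: (i) for every S-invariant χ there is exactly one irreducible character β of C whose multiplicity [χ_C, β] in the restriction of χ is not divisible by p; (ii) that multiplicity is ≡ 1 or ≡ −1 (mod p); (iii) distinct S-invariant χ give distinct β; (iv) every irreducible character of C arises in this way. So χ ↦ β is a bijection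 from the S-invariant irreducible characters of G onto the irreducible characters of C. -/
theorem result {Γ : Type*} [Group Γ] [Fintype Γ] (G S : Subgroup Γ) [Fintype G] (hnorm : ∀ s ∈ S, ∀ g ∈ G, s * g * s⁻¹ ∈ G) (hcop : (Nat.card G).Coprime (Nat.card S)) (p : ℕ) (hp : p.Prime) (hS : IsPGroup p S) (C : Subgroup Γ) [Fintype C] (hC : C = G ⊓ Subgroup.centralizer (S : Set Γ)) (hCG : C ≤ G) : (∀ χ : Cfsg.IrrCharacter G, (∀ s ∈ S, ∀ g g' : G, (g' : Γ) = s * g * s⁻¹ → (χ : G → ℂ) g' = (χ : G → ℂ) g) → ∃! β : Cfsg.IrrCharacter C, ∃ m : ℕ, Cfsg.classInner (fun c : C => (χ : G → ℂ) ⟨c, hCG c.2⟩) (β : C → ℂ) = (m : ℂ) ∧ ¬ p ∣ m) ∧ (∀ χ : Cfsg.IrrCharacter G, (∀ s ∈ S, ∀ g g' : G, (g' : Γ) = s * g * s⁻¹ → (χ : G → ℂ) g' = (χ : G → ℂ) g) → ∀ β : Cfsg.IrrCharacter C, ∀ m : ℕ, Cfsg.classInner (fun c : C => (χ : G → ℂ) ⟨c, hCG c.2⟩) (β : C → ℂ) = (m : ℂ) → ¬ p ∣ m → ((m : ℤ) ≡ 1 [ZMOD p] ∨ (m : ℤ) ≡ -1 [ZMOD p])) ∧ (∀ χ χ' : Cfsg.IrrCharacter G,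 (∀ s ∈ S, ∀ g g' : G, (g' : Γ) = s * g * s⁻¹ → (χ : G → ℂ) g' = (χ : G → ℂ) g) → (∀ s ∈ S, ∀ g g' : G, (g' : Γ) = s * g * s⁻¹ → (χ' : G → ℂ) g' = (χ' : G → ℂ) g) → ∀ β : Cfsg.IrrCharacter C, ∀ m m' : ℕ, Cfsg.classInner (fun c : C => (χ : G → ℂ) ⟨c, hCG c.2⟩) (β : C → ℂ) = (m : ℂ) → ¬ p ∣ m → Cfsg.classInner (fun c : C => (χ' : G → ℂ) ⟨c, hCG c.2⟩) (β : C → ℂ) = (m' : ℂ) → ¬ p ∣ m' → χ = χ') ∧ (∀ β : Cfsg.IrrCharacter C, ∃ χ : Cfsg.IrrCharacter G, (∀ s ∈ S, ∀ g g' : G, (g' : Γ) = s * g * s⁻¹ → (χ : G → ℂ) g' = (χ : G → ℂ) g) ∧ ∃ m : ℕ, Cfsg.classInner (fun c : C => (χ : G → ℂ) ⟨c, hCG c.2⟩) (β : C → ℂ) = (m : ℂ) ∧ ¬ p ∣ m) := by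
  classical
  have main : ∃ act : S →* MulAut G, (∀ χ : IrrCharacter G, Inv act (χ : G → ℂ) ↔
      ∀ s ∈ S, ∀ g g' : G, (g' : Γ) = s * g * s⁻¹ → (χ : G → ℂ) g' = (χ : G → ℂ) g) ∧
      (∀ χ : IrrCharacter G, Inv act (χ : G → ℂ) → ∃ β : IrrCharacter C, ¬ p ∣ mult (Subgroup.inclusion hCG) χ β) ∧
      (∀ χ : IrrCharacter G, Inv act (χ : G → ℂ) → ∀ β β' : IrrCharacter C,
        ¬ p ∣ mult (Subgroup.inclusion hCG) χ β → ¬ p ∣ mult (Subgroup.inclusion hCG) χ β' → β = β') ∧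
      (∀ χ χ' : IrrCharacter G, Inv act (χ : G → ℂ) → Inv act (χ' : G → ℂ) → ∀ β : IrrCharacter C,
        ¬ p ∣ mult (Subgroup.inclusion hCG) χ β → ¬ p ∣ mult (Subgroup.inclusion hCG) χ' β → χ = χ') ∧
      (∀ β : IrrCharacter C, ∃ χ : IrrCharacter G, Inv act (χ : G → ℂ) ∧
        ¬ p ∣ mult (Subgroup.inclusion hCG) χ β) ∧
      (∀ χ : IrrCharacter G, Inv act (χ : G → ℂ) → ∀ β : IrrCharacter C,
        ¬ p ∣ mult (Subgroup.inclusion hCG) χ β →
        ((mult (Subgroup.inclusion hCG) χ β : ℤ) ≡ 1 [ZMOD p] ∨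
         (mult (Subgroup.inclusion hCG) χ β : ℤ) ≡ -1 [ZMOD p])) := by
    refine ⟨conjAct G S hnorm, fun χ => inv_conjAct_iff hnorm _, ?_⟩
    haveI : Fact p.Prime := ⟨hp⟩
    by_cases hpG : p ∣ Nat.card G
    · -- then `S` is trivial
      have hS1 : S = ⊥ := by
        obtain ⟨n, hn⟩ := (IsPGroup.iff_card.1 hS)
        rcases Nat.eq_zero_or_pos n with h0 | h0
        · rw [h0, pow_zero] at hn
          exact Subgroup.card_eq_one.1 hn
        · exfalso
          have h1 : p ∣ Nat.card S := by rw [hn]; exact dvd_pow_self p h0.ne'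
          have h2 := Nat.dvd_gcd hpG h1
          rw [hcop] at h2
          exact hp.one_lt.ne' (Nat.dvd_one.1 h2)
      have hCeq : ∀ g : G, (g : Γ) ∈ C := by
        intro g
        rw [hC, hS1]
        refine Subgroup.mem_inf.2 ⟨g.2, ?_⟩
        rw [Subgroup.mem_centralizer_iff]
        intro h hh
        have : h = 1 := Subgroup.mem_bot.1 hh
        rw [this]; simp
      have hb : Function.Bijective (Subgroup.inclusion hCG) :=
        ⟨Subgroup.inclusion_injective hCG, fun g => ⟨⟨g, hCeq g⟩, rfl⟩⟩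
      have hinv : ∀ χ : IrrCharacter G, Inv (conjAct G S hnorm) (χ : G → ℂ) := by
        intro χ
        rw [inv_conjAct_iff]
        intro s hs g g' hg
        have h1 : s = 1 := by rw [hS1] at hs; exact Subgroup.mem_bot.1 hs
        have h2 : g' = g := Subtype.ext (by rw [hg, h1]; simp)
        rw [h2]
      have hne : ∀ (χ : IrrCharacter G) (β : IrrCharacter C), ¬ p ∣ mult (Subgroup.inclusion hCG) χ β →
          mult (Subgroup.inclusion hCG) χ β = 1 ∧
          (β : C → ℂ) = (fun c => (χ : G → ℂ) (Subgroup.inclusion hCG c)) := by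
        intro χ β h
        rcases triv (Subgroup.inclusion hCG) hb χ β with h1 | h1
        · exact h1
        · rw [h1] at h
          exact absurd (dvd_zero p) h
      refine ⟨?_, ?_, ?_, ?_, ?_⟩
      · intro χ _
        refine ⟨⟨_, χ.2.comp_surjective (Subgroup.inclusion hCG) hb.2⟩, ?_⟩
        rw [mult_eq (m := 1)]
        · exact fun h => hp.one_lt.ne' (Nat.dvd_one.1 h)
        · rw [(χ.2.comp_surjective (Subgroup.inclusion hCG) hb.2).classInner_self, Nat.cast_one]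
      · intro χ _ β β' h h'
        exact Subtype.ext ((hne χ β h).2.trans (hne χ β' h').2.symm)
      · intro χ χ' _ _ β h h'
        apply Subtype.ext
        funext g
        obtain ⟨c, rfl⟩ := hb.2 g
        have := (hne χ β h).2.symm.trans (hne χ' β h').2
        exact congrFun this c
      · intro β
        let e : C ≃* G := MulEquiv.ofBijective (Subgroup.inclusion hCG) hb
        have hi : IsIrrCharacter G (fun g => (β : C → ℂ) (e.symm g)) :=
          β.2.comp_surjective e.symm.toMonoidHom e.symm.surjective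
        refine ⟨⟨_, hi⟩, hinv _, ?_⟩
        rw [mult_eq (m := 1)]
        · exact fun h => hp.one_lt.ne' (Nat.dvd_one.1 h)
        · have : (fun c : C => ((⟨_, hi⟩ : IrrCharacter G) : G → ℂ) (Subgroup.inclusion hCG c)) = (β : C → ℂ) := by
            funext c
            show (β : C → ℂ) (e.symm (Subgroup.inclusion hCG c)) = _
            exact congrArg (β : C → ℂ) (e.symm_apply_apply c)
          rw [this, β.2.classInner_self, Nat.cast_one]
      · intro χ _ β h
        left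
        rw [(hne χ β h).1]
        rfl
    · obtain ⟨M, hM⟩ := Lib.H76Char.exists_isPModular p
      have D := data_conj hnorm hM hS hpG hC hCG
      exact ⟨fun χ _ => exists_beta D χ, fun χ hχ β β' h h' => unique_beta D hχ h h',
        fun χ χ' hχ hχ' β h h' => unique_chi D hχ hχ' h h', fun β => exists_chi D β,
        fun χ hχ β h => mult_sq D hχ h⟩
  obtain ⟨act, hinv, h1, h2, h3, h4, h5⟩ := main
  refine ⟨?_, ?_, ?_, ?_⟩
  · intro χ hχ
    rw [← hinv] at hχ
    obtain ⟨β, hβ⟩ := h1 χ hχ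
    refine ⟨β, ⟨_, mult_spec (Subgroup.inclusion hCG) χ β, hβ⟩, ?_⟩
    rintro β' ⟨m, hm, hpm⟩
    have : mult (Subgroup.inclusion hCG) χ β' = m := mult_eq hm
    rw [← this] at hpm
    exact h2 χ hχ β' β hpm hβ
  · intro χ hχ β m hm hpm
    rw [← hinv] at hχ
    have : mult (Subgroup.inclusion hCG) χ β = m := mult_eq hm
    rw [← this] at hpm ⊢
    exact h5 χ hχ β hpm
  · intro χ χ' hχ hχ' β m m' hm hpm hm' hpm'
    rw [← hinv] at hχ hχ'
    have e1 : mult (Subgroup.inclusion hCG) χ β = m := mult_eq hm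
    have e2 : mult (Subgroup.inclusion hCG) χ' β = m' := mult_eq hm'
    rw [← e1] at hpm
    rw [← e2] at hpm'
    exact h3 χ χ' hχ hχ' β hpm hpm'
  · intro β
    obtain ⟨χ, hχ, h⟩ := h4 β
    exact ⟨χ, (hinv χ).1 hχ, _, mult_spec (Subgroup.inclusion hCG) χ β, h⟩

end Cfsg.Agent.S4444
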