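import Cfsg.Statements.S4445
import Mathlib
import Cfsg.Agent.Lib.GlaubCorrCount

set_option autoImplicit false
open Cfsg

namespace Cfsg.Agent.S4445
open Cfsg Cfsg.Agent.Lib.GlaubCorr Cfsg.Agent.Lib.CharBasic


/-- Inside a finite group Γ let the solvable subgroup S normalise G with the orders of G and S coprime. Then the number of S-invariant irreducible characters of G (χ(s g s⁻¹) = χ(g) for all s ∈ S, g ∈ G) equals the number of conjugacy classes of G mapped to themselves by conjugation by every element of S. -/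
theorem result {Γ : Type*} [Group Γ] [Fintype Γ] (G S : Subgroup Γ) [Fintype G] (hnorm : ∀ s ∈ S, ∀ g ∈ G, s * g * s⁻¹ ∈ G) (hcop : (Nat.card G).Coprime (Nat.card S)) (hsolv : Group.IsSolvable S) : Nat.card {χ : Cfsg.IrrCharacter G // (∀ s ∈ S, ∀ g g' : G, (g' : Γ) = s * g * s⁻¹ → (χ : G → ℂ) g' = (χ : G → ℂ) g)} = Nat.card {K : ConjClasses G // ∀ s ∈ S, ∀ g g' : G, (g' : Γ) = s * g * s⁻¹ → ConjClasses.mk g = K → ConjClasses.mk g' = K} := by
  classical
  let r := conjAct G S hnorm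
  have hsolv' : Group.IsSolvable r.range :=
    Group.isSolvable_of_surjective (f := r.rangeRestrict) r.rangeRestrict_surjective
  have hcop' : (Nat.card G).Coprime (Nat.card r.range) := by
    refine Nat.Coprime.coprime_dvd_right ?_ hcop
    rw [← Subgroup.index_ker r]
    exact Subgroup.index_dvd_card _
  have h := count (Nat.card r.range) r.range rfl hsolv' hcop'
  have h1 : ∀ χ : IrrCharacter G, (∀ s ∈ S, ∀ g g' : G, (g' : Γ) = s * g * s⁻¹ → (χ : G → ℂ) g' = (χ : G → ℂ) g) ↔
      (∀ s ∈ r.range, ∀ g, (χ : G → ℂ) (s g) = (χ : G → ℂ) g) := by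
    intro χ
    rw [← inv_conjAct_iff hnorm]
    constructor
    · rintro h2 _ ⟨s, rfl⟩ g
      exact h2 s g
    · intro h2 s g
      exact h2 _ ⟨s, rfl⟩ g
  have h2 : ∀ K : ConjClasses G, (∀ s ∈ S, ∀ g g' : G, (g' : Γ) = s * g * s⁻¹ → ConjClasses.mk g = K → ConjClasses.mk g' = K) ↔
      (∀ s ∈ r.range, ∀ g, ConjClasses.mk g = K → ConjClasses.mk (s g) = K) := by
    intro K
    constructor
    · rintro h3 _ ⟨s, rfl⟩ g hg
      exact h3 s s.2 g _ (conjAct_coe hnorm s g) hg
    · intro h3 s hs g g' hg hgK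
      have h4 := h3 _ ⟨⟨s, hs⟩, rfl⟩ g hgK
      have h5 : g' = r ⟨s, hs⟩ g := Subtype.ext (by rw [hg]; exact (conjAct_coe hnorm ⟨s, hs⟩ g).symm)
      rw [h5]
      exact h4
  rw [Nat.card_congr (Equiv.subtypeEquivRight h1), Nat.card_congr (Equiv.subtypeEquivRight h2)]
  exact h

end Cfsg.Agent.S4445
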