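import Cfsg.Statements.S4446
import Mathlib
import Cfsg.Agent.Lib.GlaubCyc2

set_option autoImplicit false
open Cfsg

namespace Cfsg.Agent.S4446
open Cfsg Cfsg.Agent.Lib.GlaubCyc Cfsg.Agent.Lib.CharBasic


/-- Let the finite group Γ be generated by a normal subgroup G and a cyclic subgroup S of coprime orders, C = G ⊓ C(S), and let χ be an S-invariant irreducible character of G with canonical extension χ̂ to Γ (the extension whose determinantal order is coprime to the order of S). Then there are exactly one irreducible character β of C and one sign ε such that χ̂(c s) = ε β(c) for every c ∈ C and every generator s of S; this β is a constituent of the restriction of χ to C; distinct S-invariant χ give distinct β; and every irreducible character of C arises in this way. -/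
theorem result {Γ : Type*} [Group Γ] [Fintype Γ] (G S : Subgroup Γ) [Fintype G] (hnorm : ∀ s ∈ S, ∀ g ∈ G, s * g * s⁻¹ ∈ G) (hcop : (Nat.card G).Coprime (Nat.card S)) (htop : G ⊔ S = ⊤) (hcyc : IsCyclic S) (C : Subgroup Γ) [Fintype C] (hC : C = G ⊓ Subgroup.centralizer (S : Set Γ)) (hCG : C ≤ G) : (∀ (χ : Cfsg.IrrCharacter G) (χh : Cfsg.IrrCharacter Γ), (∀ s ∈ S, ∀ g g' : G, (g' : Γ) = s * g * s⁻¹ → (χ : G → ℂ) g' = (χ : G → ℂ) g) → (∀ g : G, (χh : Γ → ℂ) g = (χ : G → ℂ) g) → (Cfsg.detOrder (χh : Γ → ℂ)).Coprime (Nat.card S) → (∃! βε : Cfsg.IrrCharacter C × ℤ, (βε.2 = 1 ∨ βε.2 = -1) ∧ ∀ c : C, ∀ s : Γ, Subgroup.zpowers s = S → (χh : Γ → ℂ) ((c : Γ) * s) = (βε.2 : ℂ) * (βε.1 : C → ℂ) c) ∧ ∀ β : Cfsg.IrrCharacter C, ∀ ε : ℤ, (ε = 1 ∨ ε = -1) → (∀ c : C, ∀ s : Γ, Subgroup.zpowers s = S → (χh : Γ → ℂ) ((c : Γ) * s) = (ε : ℂ) * (β : C → ℂ) c) → Cfsg.classInner (fun c : C => (χ : G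 → ℂ) ⟨c, hCG c.2⟩) (β : C → ℂ) ≠ 0) ∧ (∀ (χ χ' : Cfsg.IrrCharacter G) (χh χh' : Cfsg.IrrCharacter Γ), (∀ s ∈ S, ∀ g g' : G, (g' : Γ) = s * g * s⁻¹ → (χ : G → ℂ) g' = (χ : G → ℂ) g) → (∀ s ∈ S, ∀ g g' : G, (g' : Γ) = s * g * s⁻¹ → (χ' : G → ℂ) g' = (χ' : G → ℂ) g) → (∀ g : G, (χh : Γ → ℂ) g = (χ : G → ℂ) g) → (∀ g : G, (χh' : Γ → ℂ) g = (χ' : G → ℂ) g) → (Cfsg.detOrder (χh : Γ → ℂ)).Coprime (Nat.card S) → (Cfsg.detOrder (χh' : Γ → ℂ)).Coprime (Nat.card S) → ∀ β : Cfsg.IrrCharacter C, ∀ ε ε' : ℤ, (ε = 1 ∨ ε = -1) → (ε' = 1 ∨ ε' = -1) → (∀ c : C, ∀ s : Γ, Subgroup.zpowers s = S → (χh : Γ → ℂ) ((c : Γ) * s) = (ε : ℂ) * (β : C → ℂ) c) → (∀ c : C, ∀ s : Γ, Subgroup.zpowers s = S → (χh' : Γ → ℂ) ((c : Γ) * s) = (ε' : ℂ) * (β : C → ℂ) c) → χ = χ') ∧ (∀ β : Cfsg.IrrCharacter C, ∃ (χ : Cfsg.IrrCharacter G) (χh : Cfsg.IrrCharacter Γ) (ε : ℤ), (∀ s ∈ S, ∀ g g' : G, (g' : Γ) = s * g * s⁻¹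 → (χ : G → ℂ) g' = (χ : G → ℂ) g) ∧ (∀ g : G, (χh : Γ → ℂ) g = (χ : G → ℂ) g) ∧ (Cfsg.detOrder (χh : Γ → ℂ)).Coprime (Nat.card S) ∧ (ε = 1 ∨ ε = -1) ∧ ∀ c : C, ∀ s : Γ, Subgroup.zpowers s = S → (χh : Γ → ℂ) ((c : Γ) * s) = (ε : ℂ) * (β : C → ℂ) c) := by
  have hn : G.Normal := by
    constructor
    intro g hg x
    have hx : x ∈ G ⊔ S := by rw [htop]; exact Subgroup.mem_top x
    have hSN : S ≤ Subgroup.normalizer (G : Set Γ) := by
      intro s hs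
      rw [Subgroup.mem_normalizer_iff]
      intro y
      constructor
      · intro hy; exact hnorm s hs y hy
      · intro hy
        have := hnorm s⁻¹ (S.inv_mem hs) _ hy
        have h2 : s⁻¹ * (s * y * s⁻¹) * s⁻¹⁻¹ = y := by group
        rwa [h2] at this
    have hGN : G ≤ Subgroup.normalizer (G : Set Γ) := Subgroup.le_normalizer
    have h3 := (sup_le hGN hSN) hx
    exact (Subgroup.mem_normalizer_iff.1 h3 g).1 hg
  have h : Cyc G S C := ⟨hn, hcop, htop, hC⟩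
  obtain ⟨⟨s, hsS⟩, hgen⟩ := hcyc.exists_generator
  have hs : Subgroup.zpowers s = S := by
    apply le_antisymm
    · rw [Subgroup.zpowers_le]; exact hsS
    · intro t ht
      obtain ⟨k, hk⟩ := Subgroup.mem_zpowers_iff.1 (hgen ⟨t, ht⟩)
      exact Subgroup.mem_zpowers_iff.2 ⟨k, congrArg Subtype.val hk⟩
  have hcan : ∀ {χ : IrrCharacter G} {χh : IrrCharacter Γ}, (∀ g : G, (χh : Γ → ℂ) g = (χ : G → ℂ) g) →
      (Cfsg.detOrder (χh : Γ → ℂ)).Coprime (Nat.card S) → Can G (χ : G → ℂ) (χh : Γ → ℂ) := by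
    intro χ χh h1 h2
    exact ⟨χ.2, χh.2, h1, by rw [h.index]; exact h2.symm⟩
  refine ⟨?_, ?_, ?_⟩
  · intro χ χh hinv hext hdet
    have c := hcan hext hdet
    constructor
    · obtain ⟨β, ε, hε, hβ⟩ := h.exists_beta hs c
      refine ⟨(β, ε), ⟨hε, hβ⟩, ?_⟩
      rintro ⟨β', ε'⟩ ⟨hε', hβ'⟩
      have h1 := eq_of_sign hε' hε (β := β') (β' := β) (fun x => by
        have a := hβ' x s hs
        have b := hβ x s hs
        rw [← b]; exact a.symm)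
      exact Prod.ext h1.1 h1.2
    · intro β ε hε hβ
      exact h.constituent hs c hε (fun x => hβ x s hs)
  · intro χ χ' χh χh' _ _ hext hext' hdet hdet' β ε ε' hε hε' hβ hβ'
    exact Subtype.ext (h.inj hs (hcan hext hdet) (hcan hext' hdet') hε hε' (fun x => hβ x s hs) (fun x => hβ' x s hs))
  · intro β
    obtain ⟨χ, χh, ε, h1, h2, h3, h4⟩ := h.surj hcyc hs β
    exact ⟨χ, ⟨χh, h2.irr'⟩, ε, h1, h2.ext, by have := h2.det; rw [h.index] at this; exact this.symm, h3, h4⟩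

end Cfsg.Agent.S4446
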