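import Cfsg.Statements.S4450
import Mathlib
import Cfsg.Agent.Lib.CharTripleCentral
import Cfsg.Agent.Lib.GlaubPerm

set_option autoImplicit false
open Cfsg

namespace Cfsg.Agent.S4450
open Cfsg Cfsg.Agent.Lib.CharBasic Cfsg.Agent.Lib.Clifford Cfsg.Agent.Lib.CharTriple
universe v

theorem case1 {Γ : Type v} [Group Γ] [Fintype Γ] (G N : Subgroup Γ) [hG : G.Normal] [hN : N.Normal] [Fintype G] [Fintype N] (hNG : N ≤ G) (hcop : (G.index).Coprime (N.relIndex G)) (hsolv : Group.IsSolvable (G ⧸ N.subgroupOf G)) (θ : Cfsg.IrrCharacter N) (hinv : ∀ (x : Γ) (n : N), (θ : N → ℂ) ⟨x * n * x⁻¹, hN.conj_mem n n.2 x⟩ = (θ : N → ℂ) n) : ∃ χ : Cfsg.IrrCharacter G, Cfsg.classInner (fun n : N => (χ : G → ℂ) ⟨n, hNG n.2⟩) (θ : N → ℂ) ≠ 0 ∧ ∀ (x : Γ) (g : G), (χ : G → ℂ) ⟨x * g * x⁻¹, hG.conj_mem g g.2 x⟩ = (χ : G → ℂ) g := by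
  classical
  let q := QuotientGroup.mk' N
  have hq : Function.Surjective q := QuotientGroup.mk'_surjective N
  have hqk : q.ker = N := QuotientGroup.ker_mk' N
  have hGq : (G.map q).Normal := Subgroup.Normal.map hG q hq
  have h1 : Nat.card (G.map q) = N.relIndex G := by
    rw [← Subgroup.relIndex_ker, hqk]
  have h2 : (G.map q).index = G.index := by
    rw [← Subgroup.index_comap_of_surjective (G.map q) hq, Subgroup.comap_map_eq, hqk, sup_eq_left.2 hNG]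
  obtain ⟨H, hH⟩ := Subgroup.exists_right_complement'_of_coprime (N := G.map q) (by
    rw [h1, h2]; exact hcop.symm)
  let S := H.comap q
  have hNS : N ≤ S := by
    intro n hn
    rw [Subgroup.mem_comap]
    have : q n = 1 := (QuotientGroup.eq_one_iff n).2 hn
    rw [this]; exact H.one_mem
  have h3 : N.relIndex S = G.index := by
    have : N.relIndex S = Nat.card (S.map q) := by rw [← Subgroup.relIndex_ker, hqk]
    rw [this, Subgroup.map_comap_eq_self_of_surjective hq, ← h2]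
    exact hH.symm.index_eq_card.symm
  obtain ⟨χ, hχ1, hχ2⟩ := Cfsg.Agent.Lib.GlaubPerm.above_solvable (S := S) (N := N)
    (fun s _ n hn => hN.conj_mem n hn s) θ (fun s _ g g' hg => by
      rw [← hinv s g]
      exact congrArg (θ : N → ℂ) (Subtype.ext hg)) _ G hNG rfl (fun s _ g hg => hG.conj_mem g hg s)
    (by rw [h3]; exact hcop.symm) hsolv
  refine ⟨χ, hχ1, fun x g => ?_⟩
  -- `x = g₀ s`
  have hx : q x ∈ ((G.map q ⊔ H : Subgroup (Γ ⧸ N)) : Set (Γ ⧸ N)) := by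
    rw [hH.sup_eq_top]; exact Subgroup.mem_top _
  rw [Subgroup.normal_mul] at hx
  obtain ⟨_, ⟨g0, hg0, rfl⟩, h, hh, hgh⟩ := hx
  have hs : g0⁻¹ * x ∈ S := by
    rw [Subgroup.mem_comap, map_mul, map_inv]
    have hgh' : q g0 * h = q x := hgh
    rw [← hgh', inv_mul_cancel_left]
    exact hh
  have h4 := hχ2 _ hs g ⟨g0⁻¹ * x * g * (g0⁻¹ * x)⁻¹, hG.conj_mem g g.2 _⟩ rfl
  rw [← h4]
  have h5 := χ.2.isClassFunction ⟨g0⁻¹ * x * g * (g0⁻¹ * x)⁻¹, hG.conj_mem g g.2 _⟩ ⟨g0, hg0⟩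
  rw [← h5]
  refine congrArg (χ : G → ℂ) (Subtype.ext ?_)
  show x * g * x⁻¹ = g0 * (g0⁻¹ * x * g * (g0⁻¹ * x)⁻¹) * g0⁻¹
  group

theorem case2 {Γ : Type v} [Group Γ] [Fintype Γ] (G N : Subgroup Γ) [hG : G.Normal] [hN : N.Normal] [Fintype G] [Fintype N] (hNG : N ≤ G) (hcop : (G.index).Coprime (N.relIndex G)) (hsolv : Group.IsSolvable (Γ ⧸ G)) (θ : Cfsg.IrrCharacter N) (hinv : ∀ (x : Γ) (n : N), (θ : N → ℂ) ⟨x * n * x⁻¹, hN.conj_mem n n.2 x⟩ = (θ : N → ℂ) n) : ∃ χ : Cfsg.IrrCharacter G, Cfsg.classInner (fun n : N => (χ : G → ℂ) ⟨n, hNG n.2⟩) (θ : N → ℂ) ≠ 0 ∧ ∀ (x : Γ) (g : G), (χ : G → ℂ) ⟨x * g * x⁻¹, hG.conj_mem g g.2 x⟩ = (χ : G → ℂ) g := by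
  classical
  obtain ⟨t⟩ := exists_triple θ.2 (fun g => funext fun n => hinv g n)
  let M := t.j.range
  haveI hM : M.Normal := t.j_norm
  let X := G.comap t.π
  haveI hX : X.Normal := inferInstance
  let q := QuotientGroup.mk' M
  have hq : Function.Surjective q := QuotientGroup.mk'_surjective M
  have hqk : q.ker = M := QuotientGroup.ker_mk' M
  let Z := t.π.ker
  have hMX : M ≤ X := by
    rintro _ ⟨n, rfl⟩
    rw [Subgroup.mem_comap, t.π_j]
    exact hNG n.2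
  have hZX : Z ≤ X := by
    intro z hz
    rw [Subgroup.mem_comap]
    have : t.π z = 1 := hz
    rw [this]; exact G.one_mem
  haveI hXq : (X.map q).Normal := Subgroup.Normal.map hX q hq
  have hZM : N.comap t.π = Z ⊔ M := by
    have h1 : N = M.map t.π := by
      ext x
      constructor
      · intro hx
        exact ⟨t.j ⟨x, hx⟩, ⟨⟨x, hx⟩, rfl⟩, t.π_j _⟩
      · rintro ⟨_, ⟨n, rfl⟩, rfl⟩
        show t.π (t.j n) ∈ N
        rw [t.π_j]; exact n.2
    refine (congrArg (Subgroup.comap t.π) h1).trans ?_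
    rw [Subgroup.comap_map_eq, sup_comm]
  have hrel : (Z.map q).relIndex (X.map q) = N.relIndex G := by
    rw [← Subgroup.relIndex_comap, Subgroup.comap_map_eq, hqk, ← hZM, Subgroup.relIndex_comap,
      Subgroup.map_comap_eq_self_of_surjective t.π_surj]
  have hidx : (X.map q).index = G.index := by
    rw [← Subgroup.index_comap_of_surjective (X.map q) hq, Subgroup.comap_map_eq, hqk, sup_eq_left.2 hMX]
    exact Subgroup.index_comap_of_surjective G t.π_surj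
  have hsolv1 : Group.IsSolvable (t.Y ⧸ X) := by
    let f : t.Y ⧸ X →* Γ ⧸ G := QuotientGroup.map X G t.π le_rfl
    have hf : Function.Injective f := by
      rw [injective_iff_map_eq_one]
      intro x hx
      obtain ⟨x, rfl⟩ := QuotientGroup.mk_surjective x
      have hx' : ((t.π x : Γ) : Γ ⧸ G) = 1 := hx
      rw [QuotientGroup.eq_one_iff] at hx' ⊢
      exact hx'
    exact Group.isSolvable_of_isSolvable_injective hf
  have hsolv2 : Group.IsSolvable ((t.Y ⧸ M) ⧸ X.map q) := by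
    let f : t.Y ⧸ X →* (t.Y ⧸ M) ⧸ X.map q := QuotientGroup.map X (X.map q) q (fun x hx => ⟨x, hx, rfl⟩)
    have hf : Function.Surjective f := by
      intro y
      obtain ⟨y, rfl⟩ := QuotientGroup.mk_surjective y
      obtain ⟨y, rfl⟩ := QuotientGroup.mk_surjective y
      exact ⟨(y : t.Y ⧸ X), rfl⟩
    exact Group.isSolvable_of_surjective hf
  have hZMinf : ∀ z ∈ Z, z ∈ M → z = 1 := by
    rintro _ hz ⟨n, rfl⟩
    have h1 : t.π (t.j n) = 1 := hz
    rw [t.π_j] at h1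
    have h2 : n = 1 := Subtype.ext h1
    rw [h2, map_one]
  let e : Z ≃* Z.map q := MulEquiv.ofBijective (q.subgroupMap Z) ⟨by
    rw [injective_iff_map_eq_one]
    rintro ⟨z, hz⟩ h
    have h1 : q z = 1 := congrArg Subtype.val h
    have h2 : z ∈ M := by rw [← hqk]; exact h1
    exact Subtype.ext (hZMinf z hz h2), q.subgroupMap_surjective Z⟩
  have he : ∀ z : Z, ((e z : Z.map q) : t.Y ⧸ M) = q z := fun z => rfl
  let μ : Z.map q →* ℂˣ := (t.lam⁻¹).comp e.symm.toMonoidHom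
  have hμ : ∀ (z : t.Y) (hz : z ∈ Z) (hz' : q z ∈ Z.map q), μ ⟨q z, hz'⟩ = (t.lam ⟨z, hz⟩)⁻¹ := by
    intro z hz hz'
    have h1 : e.symm ⟨q z, hz'⟩ = ⟨z, hz⟩ := by
      rw [MulEquiv.symm_apply_eq]
      exact Subtype.ext (he ⟨z, hz⟩).symm
    show (t.lam (e.symm ⟨q z, hz'⟩))⁻¹ = _
    rw [h1]
  obtain ⟨β, hβ, hβY, hβZ⟩ := central_case (Z.map q) (X.map q) (Subgroup.map_mono hZX) (by
    rintro _ ⟨z, hz, rfl⟩ y
    obtain ⟨y, rfl⟩ := hq y
    rw [← map_mul, ← map_mul, t.central z hz y]) (by rw [hrel, hidx]; exact hcop.symm) hsolv2 μ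
  let r : X →* X.map q := q.subgroupMap X
  have hr : Function.Surjective r := q.subgroupMap_surjective X
  have hβ' : IsIrrCharacter X (fun x => β (r x)) := hβ.comp_surjective r hr
  obtain ⟨χ, hχ, hχ1, hχ2⟩ := t.mul_irr θ.2 hNG hβ' (by
    intro n hn
    have h1 : r ⟨t.j n, hn⟩ = 1 := by
      apply Subtype.ext
      show q (t.j n) = 1
      exact (QuotientGroup.eq_one_iff _).2 ⟨n, rfl⟩
    rw [h1, map_one]) (by
    intro z hz x
    have h1 := hβZ (q z) ⟨z, z.2, rfl⟩ (r x)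
    have h5 : ((μ ⟨q z, ⟨z, z.2, rfl⟩⟩ : ℂˣ) : ℂ) = (((t.lam z)⁻¹ : ℂˣ) : ℂ) :=
      congrArg (fun u : ℂˣ => (u : ℂ)) (hμ z z.2 ⟨z, z.2, rfl⟩)
    have h2 : r (⟨z, hz⟩ * x) = ⟨q z, Subgroup.map_mono hZX ⟨z, z.2, rfl⟩⟩ * r x := by
      rw [map_mul]; rfl
    rw [h2]
    refine h1.trans ?_
    rw [← Units.val_inv_eq_inv_val]
    exact congrArg (fun u : ℂ => u * β (r x)) h5)
  refine ⟨⟨χ, hχ⟩, ?_, ?_⟩
  · have h1 : (fun n : N => χ ⟨n, hNG n.2⟩) = (β (r 1)) • (θ : N → ℂ) := by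
      funext n
      rw [hχ2, Pi.smul_apply, smul_eq_mul]
    show classInner (fun n : N => χ ⟨n, hNG n.2⟩) (θ : N → ℂ) ≠ 0
    rw [h1, classInner_smul_left, θ.2.classInner_self, mul_one]
    exact hβ'.one_ne_zero
  · intro x g
    obtain ⟨y, rfl⟩ := t.π_surj x
    obtain ⟨w, hw⟩ := t.π_surj g
    have hwX : w ∈ X := by rw [Subgroup.mem_comap, hw]; exact g.2
    have h1 := hχ1 ⟨w, hwX⟩
    have h2 := hχ1 ⟨y * w * y⁻¹, hX.conj_mem w hwX y⟩
    have e1 : (⟨t.π ((⟨w, hwX⟩ : X) : t.Y), hwX⟩ : G) = g := Subtype.ext hw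
    have e2 : (⟨t.π ((⟨y * w * y⁻¹, hX.conj_mem w hwX y⟩ : X) : t.Y), hX.conj_mem w hwX y⟩ : G) =
        ⟨t.π y * g * (t.π y)⁻¹, hG.conj_mem g g.2 (t.π y)⟩ := by
      apply Subtype.ext
      show t.π (y * w * y⁻¹) = t.π y * g * (t.π y)⁻¹
      rw [map_mul, map_mul, map_inv, hw]
    rw [e1] at h1
    rw [e2] at h2
    show χ _ = χ g
    rw [h2, h1]
    have h3 := hβY (q y) (r ⟨w, hwX⟩)
    have h4 : r ⟨y * w * y⁻¹, hX.conj_mem w hwX y⟩ = ⟨q y * (r ⟨w, hwX⟩) * (q y)⁻¹, hXq.conj_mem _ (r ⟨w, hwX⟩).2 (q y)⟩ := by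
      apply Subtype.ext
      show q (y * w * y⁻¹) = q y * q w * (q y)⁻¹
      rw [map_mul, map_mul, map_inv]
    rw [h4, h3]
    congr 1
    exact t.ρ_char.isClassFunction w y

/-- Let N ≤ G be normal subgroups of the finite group Γ with the index of G in Γ coprime to the index of N in G, and Γ/G or G/N solvable. Then for every irreducible character ϑ of N invariant under conjugation by Γ, the induced character ϑ^G has an irreducible constituent invariant under conjugation by Γ. -/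
theorem result {Γ : Type*} [Group Γ] [Fintype Γ] (G N : Subgroup Γ) [hG : G.Normal] [hN : N.Normal] [Fintype G] [Fintype N] (hNG : N ≤ G) (hcop : (G.index).Coprime (N.relIndex G)) (hsolv : Group.IsSolvable (Γ ⧸ G) ∨ Group.IsSolvable (G ⧸ N.subgroupOf G)) (θ : Cfsg.IrrCharacter N) (hinv : ∀ (x : Γ) (n : N), (θ : N → ℂ) ⟨x * n * x⁻¹, hN.conj_mem n n.2 x⟩ = (θ : N → ℂ) n) : ∃ χ : Cfsg.IrrCharacter G, Cfsg.classInner (fun n : N => (χ : G → ℂ) ⟨n, hNG n.2⟩) (θ : N → ℂ) ≠ 0 ∧ ∀ (x : Γ) (g : G), (χ : G → ℂ) ⟨x * g * x⁻¹, hG.conj_mem g g.2 x⟩ = (χ : G → ℂ) g := by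
  rcases hsolv with h | h
  · exact case2 G N hNG hcop h θ hinv
  · exact case1 G N hNG hcop h θ hinv

end Cfsg.Agent.S4450
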