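import Cfsg.Statements.S4451
import Mathlib
import Cfsg.Agent.Lib.GlaubCyc3
import Cfsg.Agent.Lib.BlockDefect

set_option autoImplicit false
open Cfsg

namespace Cfsg.Agent.S4451
open Cfsg Cfsg.Agent.Lib.GlaubCyc Cfsg.Agent.Lib.CharBasic
open scoped ComplexConjugate


/-- Let the finite group Γ be generated by a normal subgroup G and a cyclic subgroup S of coprime orders such that every non-identity element of S has the same centraliser C = G ⊓ C(S) in G. Let χ be an S-invariant irreducible character of G, χ̂ its canonical extension to Γ (determinantal order coprime to the order of S), and β the irreducible character of C with χ̂(c s) = ε₀ β(c) for c ∈ C and generators s of S (ε₀ = ±1). Then there are a sign ε = ±1, which may differ from ε₀, and a linear character μ of S with μ² = 1, such that: (a) χ̂(c x) = ε β(c) μ(x) for all c ∈ C and all x ∈ S other than 1; (b) the restriction of χ to C equals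 |S|·ϑ + ε β for some character ϑ of C or ϑ = 0; (c) |S| divides χ(1) − ε β(1). -/
theorem result {Γ : Type*} [Group Γ] [Fintype Γ] (G S : Subgroup Γ) [Fintype G] (hnorm : ∀ s ∈ S, ∀ g ∈ G, s * g * s⁻¹ ∈ G) (hcop : (Nat.card G).Coprime (Nat.card S)) (htop : G ⊔ S = ⊤) (hcyc : IsCyclic S) (C : Subgroup Γ) [Fintype C] (hC : C = G ⊓ Subgroup.centralizer (S : Set Γ)) (hCG : C ≤ G) (hfpf : ∀ x ∈ S, x ≠ 1 → G ⊓ Subgroup.centralizer ({x} : Set Γ) = C) (χ : Cfsg.IrrCharacter G) (hinv : (∀ s ∈ S, ∀ g g' : G, (g' : Γ) = s * g * s⁻¹ → (χ : G → ℂ) g' = (χ : G → ℂ) g)) (χh : Cfsg.IrrCharacter Γ) (hext : (∀ g : G, (χh : Γ → ℂ) g = (χ : G → ℂ) g)) (hdet : (Cfsg.detOrder (χh : Γ → ℂ)).Coprime (Nat.card S)) (β : Cfsg.IrrCharacter C) (ε₀ : ℤ) (hε₀ : ε₀ = 1 ∨ ε₀ = -1) (hβ : ∀ c : C, ∀ s : Γ, Subgroup.zpowers s = S → (χh : Γ → ℂ) ((c : Γ) * s) = (ε₀ : ℂ) * (β : C → ℂ) c) : ∃ ε : ℤ, (ε = 1 ∨ ε = -1) ∧ (∃ μ : S → ℂ,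 Cfsg.IsCharacter S μ ∧ μ 1 = 1 ∧ (∀ x : S, μ x * μ x = 1) ∧ ∀ c : C, ∀ x : S, x ≠ 1 → (χh : Γ → ℂ) ((c : Γ) * x) = (ε : ℂ) * (β : C → ℂ) c * μ x) ∧ (∃ ϑ : C → ℂ, Cfsg.IsCharacter C ϑ ∧ (fun c : C => (χ : G → ℂ) ⟨c, hCG c.2⟩) = fun c => (Nat.card S : ℂ) * ϑ c + (ε : ℂ) * (β : C → ℂ) c) ∧ (Nat.card S : ℤ) ∣ (Cfsg.charDegree (χ : G → ℂ) : ℤ) - ε * (Cfsg.charDegree (β : C → ℂ) : ℤ) := by
  classical
  have hn : G.Normal := by
    constructor
    intro g hg x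
    have hx : x ∈ G ⊔ S := by rw [htop]; exact Subgroup.mem_top x
    have hSN : S ≤ Subgroup.normalizer (G : Set Γ) := by
      intro s hs
      rw [Subgroup.mem_normalizer_iff]
      intro y
      constructor
      · intro hy; exact hnorm s hs y hy
      · intro hy
        have := hnorm s⁻¹ (S.inv_mem hs) _ hy
        have h2 : s⁻¹ * (s * y * s⁻¹) * s⁻¹⁻¹ = y := by group
        rwa [h2] at this
    have hGN : G ≤ Subgroup.normalizer (G : Set Γ) := Subgroup.le_normalizer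
    have h3 := (sup_le hGN hSN) hx
    exact (Subgroup.mem_normalizer_iff.1 h3 g).1 hg
  have h : Cyc G S C := ⟨hn, hcop, htop, hC⟩
  obtain ⟨⟨s, hsS⟩, hgen⟩ := hcyc.exists_generator
  have hs : Subgroup.zpowers s = S := by
    apply le_antisymm
    · rw [Subgroup.zpowers_le]; exact hsS
    · intro t ht
      obtain ⟨k, hk⟩ := Subgroup.mem_zpowers_iff.1 (hgen ⟨t, ht⟩)
      exact Subgroup.mem_zpowers_iff.2 ⟨k, congrArg Subtype.val hk⟩
  have c : Can G (χ : G → ℂ) (χh : Γ → ℂ) := ⟨χ.2, χh.2, hext, by rw [h.index]; exact hdet.symm⟩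
  have hsβ : ∀ y : C, (χh : Γ → ℂ) (y * s) = (ε₀ : ℂ) * (β : C → ℂ) y := fun y => hβ y s hs
  have hx : ∀ x ∈ S, x ≠ 1 → ∃ ε : ℤ, (ε = 1 ∨ ε = -1) ∧ ∀ y : C, (χh : Γ → ℂ) (y * x) = (ε : ℂ) * (β : C → ℂ) y := by
    intro x hxS hx1
    have hxs : x ∈ Subgroup.zpowers s := by rw [hs]; exact hxS
    obtain ⟨k, -, hk⟩ := (mem_zpowers_iff_mem_range_orderOf.mp hxs |> Finset.mem_image.mp)
    have hk' : s ^ k = x := hk
    have hk0 : 1 ≤ k := by
      rcases Nat.eq_zero_or_pos k with h0 | h0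
      · exfalso; apply hx1; rw [← hk', h0, pow_zero]
      · exact h0
    have := h.fpf_beta hfpf hs c hε₀ hsβ k hk0 (by rw [hk']; exact hx1)
    rwa [hk'] at this
  have := Fintype.ofFinite S
  have hab : ∀ a b : S, a * b = b * a := by
    haveI := hcyc
    intro a b
    obtain ⟨g, hg⟩ := IsCyclic.exists_generator (α := S)
    obtain ⟨k, rfl⟩ := Subgroup.mem_zpowers_iff.1 (hg a)
    obtain ⟨l, rfl⟩ := Subgroup.mem_zpowers_iff.1 (hg b)
    rw [← zpow_add, ← zpow_add, add_comm]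
  have hLx : ∀ (β' : IrrCharacter C) (x : S), x ≠ 1 → ∃ ε : ℤ, (ε = 1 ∨ ε = -1) ∧
      (∀ y : C, (χh : Γ → ℂ) (y * (x : Γ)) = (ε : ℂ) * (β : C → ℂ) y) ∧
      classInner (sl C (x : Γ) (χh : Γ → ℂ)) (β' : C → ℂ) = (ε : ℂ) * classInner (β : C → ℂ) (β' : C → ℂ) := by
    intro β' x hx1
    obtain ⟨ε, hε, h1⟩ := hx x x.2 (fun h0 => hx1 (Subtype.ext h0))
    refine ⟨ε, hε, h1, ?_⟩
    have h4 : sl C (x : Γ) (χh : Γ → ℂ) = (ε : ℂ) • (β : C → ℂ) := funext fun y => h1 y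
    rw [h4, classInner_smul_left]
  have hL1 : ∀ β' : IrrCharacter C, classInner (sl C ((1 : S) : Γ) (χh : Γ → ℂ)) (β' : C → ℂ) =
      classInner (fun y : C => (χ : G → ℂ) ⟨y, hCG y.2⟩) (β' : C → ℂ) := by
    intro β'
    refine congrArg (fun f => classInner f (β' : C → ℂ)) (funext fun y => ?_)
    show (χh : Γ → ℂ) (y * (1 : Γ)) = _
    rw [mul_one, ← hext ⟨y, hCG y.2⟩]
  have hch := h.isCharacter_slice c.irr'.isCharacter β.2
  obtain ⟨t, ε, lam, hε, hL⟩ := sign_char hab hch (by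
    intro x hx1
    obtain ⟨ε, hε, -, h2⟩ := hLx β x hx1
    refine ⟨ε, hε, ?_⟩
    show classInner (sl C (x : Γ) (χh : Γ → ℂ)) (β : C → ℂ) = _
    rw [h2, β.2.classInner_self, mul_one]) (by
    show classInner (sl C ((1 : S) : Γ) (χh : Γ → ℂ)) (β : C → ℂ) ≠ 0
    rw [hL1]
    exact h.constituent hs c hε₀ hsβ)
  have hlam1 : (lam : S → ℂ) 1 = 1 := lam.2.one_eq_one_of_comm hab
  have hεε : (ε : ℂ) * ε = 1 := by rcases hε with rfl | rfl <;> norm_num
  have hval : ∀ x : S, x ≠ 1 → ∀ ε' : ℤ, (∀ y : C, (χh : Γ → ℂ) (y * (x : Γ)) = (ε' : ℂ) * (β : C → ℂ) y) →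
      (ε' : ℂ) = (ε : ℂ) * (lam : S → ℂ) x := by
    intro x hx1 ε' h1
    have h2 := hL x
    rw [if_neg hx1, mul_zero, zero_add] at h2
    have h4 : sl C (x : Γ) (χh : Γ → ℂ) = (ε' : ℂ) • (β : C → ℂ) := funext fun y => h1 y
    have h5 : classInner (sl C (x : Γ) (χh : Γ → ℂ)) (β : C → ℂ) = (ε : ℂ) * (lam : S → ℂ) x := h2
    rw [← h5, h4, classInner_smul_left, β.2.classInner_self, mul_one]
  have hn0 : (Nat.card S : ℂ) ≠ 0 := Nat.cast_ne_zero.2 Nat.card_pos.ne'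
  let ϑ : C → ℂ := fun y => (Nat.card S : ℂ)⁻¹ * ((χ : G → ℂ) ⟨y, hCG y.2⟩ - (ε : ℂ) * (β : C → ℂ) y)
  have hϑeq : (fun y : C => (χ : G → ℂ) ⟨y, hCG y.2⟩) = fun y => (Nat.card S : ℂ) * ϑ y + (ε : ℂ) * (β : C → ℂ) y := by
    funext y
    show _ = (Nat.card S : ℂ) * ((Nat.card S : ℂ)⁻¹ * _) + _
    rw [mul_inv_cancel_left₀ hn0]; ring
  have hϑ : IsCharacter C ϑ := by
    apply isCharacter_of_classInner
    · intro a b
      show (Nat.card S : ℂ)⁻¹ * (_ - _) = (Nat.card S : ℂ)⁻¹ * (_ - _)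
      have h1 := χ.2.isClassFunction ⟨a, hCG a.2⟩ ⟨b, hCG b.2⟩
      have h2 := β.2.isClassFunction a b
      rw [h2, ← h1]
      rfl
    · intro β' hβ'
      have hch' := h.isCharacter_slice c.irr'.isCharacter hβ'
      have h1 : ϑ = (Nat.card S : ℂ)⁻¹ • ((fun y : C => (χ : G → ℂ) ⟨y, hCG y.2⟩) - (ε : ℂ) • (β : C → ℂ)) := rfl
      rw [h1, classInner_smul_left, classInner_sub_left, classInner_smul_left, ← hL1 ⟨β', hβ'⟩]
      by_cases hbb : (β : C → ℂ) = β'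
      · subst hbb
        have h2 : classInner (sl C ((1 : S) : Γ) (χh : Γ → ℂ)) (β : C → ℂ) = _ := hL 1
        refine ⟨t, ?_⟩
        rw [h2, β.2.classInner_self, if_pos rfl, hlam1]
        field_simp
        ring
      · rw [β.2.classInner_eq_zero hβ' hbb, mul_zero, sub_zero]
        obtain ⟨k, hk⟩ := hch'.classInner_nat (isCharacter_one (G := S))
        refine ⟨k, ?_⟩
        rw [← hk, classInner_def]
        congr 1
        rw [Finset.sum_eq_single (1 : S)]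
        · rw [Pi.one_apply, map_one, mul_one]
          rfl
        · intro x _ hx1
          obtain ⟨ε', -, -, h3⟩ := hLx ⟨β', hβ'⟩ x hx1
          show classInner (sl C (x : Γ) (χh : Γ → ℂ)) β' * _ = 0
          have h3' : classInner (sl C (x : Γ) (χh : Γ → ℂ)) β' = (ε' : ℂ) * classInner (β : C → ℂ) β' := h3
          rw [h3', β.2.classInner_eq_zero hβ' hbb]
          simp
        · intro h0; exact absurd (Finset.mem_univ _) h0
  refine ⟨ε, hε, ⟨lam, lam.2.isCharacter, hlam1, ?_, ?_⟩, ⟨ϑ, hϑ, hϑeq⟩, ?_⟩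
  · intro x
    by_cases hx1 : x = 1
    · rw [hx1, hlam1, one_mul]
    · obtain ⟨ε', hε', h1, -⟩ := hLx β x hx1
      have h2 := hval x hx1 ε' h1
      have h3 : (ε' : ℂ) * ε' = 1 := by rcases hε' with rfl | rfl <;> norm_num
      rw [h2] at h3
      have h4 : (ε : ℂ) * (lam : S → ℂ) x * ((ε : ℂ) * (lam : S → ℂ) x) = ((ε : ℂ) * ε) * ((lam : S → ℂ) x * (lam : S → ℂ) x) := by ring
      rw [h4, hεε, one_mul] at h3
      exact h3
  · intro y x hx1
    obtain ⟨ε', -, h1, -⟩ := hLx β x hx1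
    rw [h1, hval x hx1 ε' h1]
    ring
  · obtain ⟨m, hm⟩ := hϑ.exists_degree
    have h1 := congrFun hϑeq 1
    have h2 : (⟨((1 : C) : Γ), hCG (1 : C).2⟩ : G) = 1 := rfl
    simp only [h2] at h1
    rw [hm, (Cfsg.Agent.Lib.BlockDefect.charDegree_spec χ.2).1, (Cfsg.Agent.Lib.BlockDefect.charDegree_spec β.2).1] at h1
    refine ⟨(m : ℤ), ?_⟩
    have h3 : ((Cfsg.charDegree (χ : G → ℂ) : ℤ) : ℂ) = (((Nat.card S : ℤ) * m + ε * (Cfsg.charDegree (β : C → ℂ) : ℤ) : ℤ) : ℂ) := by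
      push_cast
      exact h1
    have h4 : (Cfsg.charDegree (χ : G → ℂ) : ℤ) = (Nat.card S : ℤ) * m + ε * (Cfsg.charDegree (β : C → ℂ) : ℤ) := by
      exact_mod_cast h3
    rw [h4]
    ring

end Cfsg.Agent.S4451
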