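import Cfsg.Statements.S4452
import Mathlib
import Cfsg.Agent.Lib.CoprimeCount
import Cfsg.Agent.Lib.GlaubStep

set_option autoImplicit false
open Cfsg

namespace Cfsg.Agent.S4452
open Cfsg Cfsg.Agent.Lib.GlaubCorr Cfsg.Agent.Lib.CharBasic Cfsg.Agent.Lib.Clifford Cfsg.Agent.Lib.CoprimeCount
universe v

theorem index_eq {G : Type v} [Group G] [Finite G] (K H : Subgroup G) [K.Normal] (h1 : K ⊔ H = ⊤)
    (h2 : K ⊓ H = ⊥) : K.index = Nat.card H := by
  have hc : K.IsComplement' H := by
    apply Subgroup.isComplement'_of_disjoint_and_mul_eq_univ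
    · rw [disjoint_iff]; exact h2
    · rw [← Subgroup.normal_mul, h1]; rfl
  have h3 := hc.card_mul
  rw [← K.card_mul_index] at h3
  exact (Nat.eq_of_mul_eq_mul_left Nat.card_pos h3).symm

/-- Let the finite group G be the product of a normal subgroup K and a solvable subgroup H of coprime orders, and let N = N_G(H). Then the number of irreducible characters of G of degree coprime to the order of H equals the number of irreducible characters of N of degree coprime to the order of H. (The two sets are in fact in a canonical bijection; only the equality of their sizes is stated here.) -/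
theorem result {G : Type*} [Group G] [Finite G] (K H : Subgroup G) [K.Normal] (hKH : K ⊔ H = ⊤) (hcop : (Nat.card K).Coprime (Nat.card H)) (hsolv : Group.IsSolvable H) : Nat.card {χ : Cfsg.IrrCharacter G // (Cfsg.charDegree (χ : G → ℂ)).Coprime (Nat.card H)} = Nat.card {η : Cfsg.IrrCharacter (Subgroup.normalizer (H : Set G)) // (Cfsg.charDegree (η : Subgroup.normalizer (H : Set G) → ℂ)).Coprime (Nat.card H)} := by
  classical
  have := Fintype.ofFinite G
  have hKHbot : K ⊓ H = ⊥ := Subgroup.inf_eq_bot_of_coprime hcop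
  have hidx := index_eq K H hKH hKHbot
  let N := Subgroup.normalizer (H : Set G)
  have hHN : H ≤ N := Subgroup.le_normalizer
  let KN : Subgroup N := K.subgroupOf N
  let HN : Subgroup N := H.subgroupOf N
  haveI hKNn : KN.Normal := inferInstance
  have hdec : ∀ g : G, ∃ k ∈ K, ∃ h ∈ H, k * h = g := by
    intro g
    have hg : g ∈ ((K ⊔ H : Subgroup G) : Set G) := by rw [hKH]; exact Subgroup.mem_top g
    rw [Subgroup.normal_mul] at hg
    obtain ⟨k, hk, h, hh, rfl⟩ := hg
    exact ⟨k, hk, h, hh, rfl⟩
  have hsup : KN ⊔ HN = ⊤ := by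
    rw [eq_top_iff]
    intro x _
    obtain ⟨k, hk, h, hh, hkh⟩ := hdec x
    have hkN : k ∈ N := by
      have : k = x * h⁻¹ := by rw [← hkh]; group
      rw [this]
      exact N.mul_mem x.2 (N.inv_mem (hHN hh))
    have hx : x = (⟨k, hkN⟩ : N) * ⟨h, hHN hh⟩ := Subtype.ext hkh.symm
    rw [hx]
    exact Subgroup.mul_mem_sup hk hh
  have hinf : KN ⊓ HN = ⊥ := by
    rw [eq_bot_iff]
    intro x hx
    have : (x : G) ∈ K ⊓ H := ⟨hx.1, hx.2⟩
    rw [hKHbot, Subgroup.mem_bot] at this
    exact Subtype.ext this
  have hidxN := index_eq KN HN hsup hinf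
  have hcHN : Nat.card HN = Nat.card H := Nat.card_congr (Subgroup.subgroupOfEquivOfLe hHN).toEquiv
  have hKNdvd : Nat.card KN ∣ Nat.card K := by
    have : Nat.card KN = Nat.card (K ⊓ N : Subgroup G) := by
      rw [← Subgroup.card_map_of_injective N.subtype_injective, Subgroup.subgroupOf_map_subtype]
    rw [this]
    exact Subgroup.card_dvd_of_le inf_le_left
  have hcomm : ∀ x ∈ K ⊓ N, ∀ h ∈ H, h * x * h⁻¹ = x := by
    intro x hx h hh
    have h1 : h * x * h⁻¹ * x⁻¹ ∈ K ⊓ H := by
      refine ⟨?_, ?_⟩
      · exact K.mul_mem ((inferInstance : K.Normal).conj_mem x hx.1 h) (K.inv_mem hx.1)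
      · have h2 : x * h⁻¹ * x⁻¹ ∈ H := by
          have := (Subgroup.mem_normalizer_iff.1 hx.2 h⁻¹).1 (H.inv_mem hh)
          exact this
        have h3 : h * x * h⁻¹ * x⁻¹ = h * (x * h⁻¹ * x⁻¹) := by group
        rw [h3]
        exact H.mul_mem hh h2
    rw [hKHbot, Subgroup.mem_bot] at h1
    exact mul_inv_eq_one.1 h1
  -- the operator group
  have hnorm : ∀ s ∈ H, ∀ g ∈ K, s * g * s⁻¹ ∈ K := fun s _ g hg =>
    (inferInstance : K.Normal).conj_mem g hg s
  let r := conjAct K H hnorm
  have hsolv' : Group.IsSolvable r.range :=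
    Group.isSolvable_of_surjective (f := r.rangeRestrict) r.rangeRestrict_surjective
  have hcop' : (Nat.card K).Coprime (Nat.card r.range) := by
    refine Nat.Coprime.coprime_dvd_right ?_ hcop
    rw [← Subgroup.index_ker r]
    exact Subgroup.index_dvd_card _
  have hcount := countC (Nat.card r.range) r.range rfl hsolv' hcop'
  have hA := card_coprime_degree K (by rw [hidx]; exact hcop)
  have hB := card_coprime_degree KN (by
    rw [hidxN, hcHN]; exact Nat.Coprime.coprime_dvd_left hKNdvd hcop)
  rw [hidx, card_lin K H hKH hKHbot] at hA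
  rw [hidxN, hcHN, card_lin KN HN hsup hinf] at hB
  rw [hA]
  refine Eq.trans ?_ hB.symm
  congr 1
  · -- invariant characters
    have e1 : Nat.card {θ : IrrCharacter K // ∀ g : G, cj K g (θ : K → ℂ) = (θ : K → ℂ)} =
        Nat.card {χ : IrrCharacter K // ∀ s ∈ r.range, ∀ g, (χ : K → ℂ) (s g) = (χ : K → ℂ) g} := by
      refine Nat.card_congr (Equiv.subtypeEquivRight fun θ => ?_)
      constructor
      · rintro h _ ⟨s, rfl⟩ g
        exact congrFun (h (s : G)) g
      · intro h g
        obtain ⟨k, hk, x, hx, rfl⟩ := hdec g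
        rw [cj_mem_mul θ.2.isClassFunction hk]
        funext n
        exact h _ ⟨⟨x, hx⟩, rfl⟩ n
    have e2 : Nat.card {θ : IrrCharacter KN // ∀ g : N, cj KN g (θ : KN → ℂ) = (θ : KN → ℂ)} =
        Nat.card (IrrCharacter KN) := by
      refine Nat.card_congr (Equiv.subtypeUnivEquiv fun θ => ?_)
      intro g
      have hg : g ∈ ((KN ⊔ HN : Subgroup N) : Set N) := by rw [hsup]; exact Subgroup.mem_top g
      rw [Subgroup.normal_mul] at hg
      obtain ⟨k, hk, x, hx, rfl⟩ := hg
      show cj KN (k * x) (θ : KN → ℂ) = _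
      rw [cj_mem_mul θ.2.isClassFunction hk]
      funext n
      rw [cj_apply]
      refine congrArg (θ : KN → ℂ) ?_
      apply Subtype.ext
      apply Subtype.ext
      exact hcomm _ ⟨n.2, n.1.2⟩ _ hx
    let e : KN ≃* fixAll r.range :=
      { toFun := fun x => ⟨⟨((x : N) : G), x.2⟩, by
          rintro _ ⟨s, rfl⟩
          apply Subtype.ext
          exact hcomm _ ⟨x.2, x.1.2⟩ s s.2⟩
        invFun := fun y => ⟨⟨((y : K) : G), by
          rw [Subgroup.mem_normalizer_iff]
          have hc : ∀ h ∈ H, h * ((y : K) : G) = (y : K) * h := by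
            intro h hh
            have := congrArg Subtype.val (y.2 _ ⟨⟨h, hh⟩, rfl⟩)
            have h2 : h * ((y : K) : G) * h⁻¹ = (y : K) := this
            exact mul_inv_eq_iff_eq_mul.1 h2
          intro h
          constructor
          · intro hh
            rw [← hc h hh, mul_inv_cancel_right]
            exact hh
          · intro hh
            have h3 := hc _ hh
            have h4 : ((y : K) : G) * h * ((y : K) : G)⁻¹ = h := by
              have h5 : ((y : K) : G) * h = ((y : K) : G) * (((y : K) : G) * h * ((y : K) : G)⁻¹) := by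
                rw [← h3]; group
              exact (mul_left_cancel h5).symm
            rwa [h4] at hh⟩, (y : K).2⟩
        left_inv := fun x => rfl
        right_inv := fun y => rfl
        map_mul' := fun x y => rfl }
    rw [e1, hcount, e2]
    exact Nat.card_congr (irrCongr e)
  · let e := Subgroup.subgroupOfEquivOfLe hHN
    exact Nat.card_congr
      { toFun := fun l => l.comp e.toMonoidHom
        invFun := fun l => l.comp e.symm.toMonoidHom
        left_inv := fun l => by ext h; simp
        right_inv := fun l => by ext h; simp }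

end Cfsg.Agent.S4452
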