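import Cfsg.Statements.S4454
import Cfsg.Agent.Lib.H3FullRam2

set_option autoImplicit false
open Cfsg Cfsg.Agent.Lib Cfsg.Agent.Lib.CharBasic Cfsg.Agent.Lib.Clifford
open scoped ComplexConjugate

namespace Cfsg.Agent.S4454

section

universe u

variable {Γ : Type u} [Group Γ]

/-- invariance of the ramified character -/
theorem inv_of_ram [Fintype Γ] (G N : Subgroup Γ) [hG : G.Normal] [hN : N.Normal] [Fintype G]
    (hNG : N ≤ G) (θ : N → ℂ)
    (hinv : ∀ (x : Γ) (n : N), θ ⟨x * n * x⁻¹, hN.conj_mem n n.2 x⟩ = θ n) (x : Γ) (g : G) :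
    indFun (N.subgroupOf G) (fun n : N.subgroupOf G => θ ⟨(n : G), n.2⟩) (MulAut.conjNormal x g) =
      indFun (N.subgroupOf G) (fun n : N.subgroupOf G => θ ⟨(n : G), n.2⟩) g := by
  classical
  rw [IndFun.indFun_apply, IndFun.indFun_apply]
  congr 1
  refine (Fintype.sum_equiv (MulAut.conjNormal x : G ≃* G).toEquiv _ _ ?_).symm
  intro y
  have hkey : ∀ h : G, extendByZero (N.subgroupOf G) (fun n : N.subgroupOf G => θ ⟨(n : G), n.2⟩)
      (MulAut.conjNormal x h) =
      extendByZero (N.subgroupOf G) (fun n : N.subgroupOf G => θ ⟨(n : G), n.2⟩) h := by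
    intro h
    by_cases hh : h ∈ N.subgroupOf G
    · have hh' : MulAut.conjNormal x h ∈ N.subgroupOf G := by
        rw [Subgroup.mem_subgroupOf, MulAut.conjNormal_apply]
        exact hN.conj_mem _ (Subgroup.mem_subgroupOf.1 hh) x
      rw [IndFun.extendByZero_mem _ _ hh, IndFun.extendByZero_mem _ _ hh']
      exact hinv x ⟨h, hh⟩
    · have hh' : MulAut.conjNormal x h ∉ N.subgroupOf G := by
        intro h1
        apply hh
        rw [Subgroup.mem_subgroupOf, MulAut.conjNormal_apply] at h1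
        rw [Subgroup.mem_subgroupOf]
        have := hN.conj_mem _ h1 x⁻¹
        have e : x⁻¹ * (x * (h : Γ) * x⁻¹) * x⁻¹⁻¹ = h := by group
        rwa [e] at this
      rw [IndFun.extendByZero_not_mem _ _ hh, IndFun.extendByZero_not_mem _ _ hh']
  rw [← hkey]
  congr 1
  simp

end

/-- Let N ≤ G be normal subgroups of the finite group Γ with Γ/G cyclic and Γ/N a Frobenius group with kernel G/N: G ≠ Γ, N ≠ G, and no element of Γ outside G fixes a non-identity coset of N in G under conjugation. Let ϑ be an irreducible character of N invariant under conjugation by Γ and suppose ϑ is fully ramified in G: the character of G induced from ϑ equals e·χ for an irreducible character χ of G and a natural number e. Then the index of G in Γ divides e − 1 or e + 1. -/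
theorem result {Γ : Type*} [Group Γ] [Fintype Γ] (G N : Subgroup Γ) [hG : G.Normal] [hN : N.Normal] [Fintype G] [Fintype N] (hNG : N ≤ G) (hGlt : G ≠ ⊤) (hNlt : N ≠ G) (hcyc : IsCyclic (Γ ⧸ G)) (hfrob : ∀ x : Γ, x ∉ G → ∀ g : Γ, g ∈ G → x * g * x⁻¹ * g⁻¹ ∈ N → g ∈ N) (θ : Cfsg.IrrCharacter N) (hinv : ∀ (x : Γ) (n : N), (θ : N → ℂ) ⟨x * n * x⁻¹, hN.conj_mem n n.2 x⟩ = (θ : N → ℂ) n) (χ : Cfsg.IrrCharacter G) (e : ℕ) (hram : Cfsg.indFun (N.subgroupOf G) (fun n : N.subgroupOf G => (θ : N → ℂ) ⟨(n : G), n.2⟩) = fun g => (e : ℂ) * (χ : G → ℂ) g) : (G.index : ℤ) ∣ (e : ℤ) - 1 ∨ (G.index : ℤ) ∣ (e : ℤ) + 1 := by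
  classical
  -- notation
  set N' := N.subgroupOf G with hN'
  have hN'n : N'.Normal := hN.subgroupOf G
  have := Fintype.ofFinite N'
  set θ' : N' → ℂ := fun n => (θ : N → ℂ) ⟨(n : G), n.2⟩ with hθ'
  have hθ'irr : IsIrrCharacter N' θ' := by
    have := (isIrrCharacter_comp_mulEquiv_iff (χ := (θ : N → ℂ)) (Subgroup.subgroupOfEquivOfLe hNG)).2 θ.2
    exact this
  have hθ'inv : ∀ g : G, cj N' g θ' = θ' := by
    intro g
    funext n
    rw [cj_apply]
    exact hinv g ⟨(n : G), n.2⟩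
  have he2 : (e : ℂ) ^ 2 = (N'.index : ℂ) := by
    have h1 := classInner_indFun_self_of_invariant hθ'irr hθ'inv
    rw [hram] at h1
    have h2 : (fun g => (e : ℂ) * (χ : G → ℂ) g) = (e : ℂ) • (χ : G → ℂ) := rfl
    rw [h2, classInner_smul_left, classInner_smul_right, χ.2.classInner_self] at h1
    rw [← h1]
    simp [pow_two]
  have he0 : (e : ℂ) ≠ 0 := by
    intro h
    rw [h] at he2
    have : (N'.index : ℂ) ≠ 0 := Nat.cast_ne_zero.2 Subgroup.index_ne_zero_of_finite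
    apply this
    rw [← he2]
    simp
  have hχN : ∀ n : N', (χ : G → ℂ) n = e * θ' n := by
    have h1 : classInner (fun n : N' => (χ : G → ℂ) n) θ' = e := by
      have := IndFun.frobenius_reciprocity' N' θ' (χ : G → ℂ) χ.2.isClassFunction
      rw [← this, hram]
      have h2 : (fun g => (e : ℂ) * (χ : G → ℂ) g) = (e : ℂ) • (χ : G → ℂ) := rfl
      rw [h2, classInner_smul_right, χ.2.classInner_self]
      simp
    have h3 := res_eq_smul_of_invariant χ.2 hθ'irr hθ'inv (by rw [h1]; exact he0)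
    rw [h1] at h3
    intro n
    exact congrFun h3 n
  -- `χ` is invariant in `Γ`
  have hχinv : ∀ x : Γ, cj G x (χ : G → ℂ) = (χ : G → ℂ) := by
    intro x
    rw [cj_eq_comp]
    funext g
    have h1 := inv_of_ram G N hNG (θ : N → ℂ) hinv x g
    rw [hram] at h1
    exact mul_left_cancel₀ he0 h1
  obtain ⟨χ', hχ', hext⟩ := CliffordExt.exists_extension_of_cyclic hcyc χ.2 hχinv
  -- averages over cosets of `G`
  have havgG : ∀ x : Γ, ∑ g : G, χ' (g * x) * conj (χ' (g * x)) = (Nat.card G : ℂ) := by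
    intro x
    have h1 := (CosetAvg.coset_average χ.2 hχ' hext hχ').1 1 isIrrCharacter_one (fun _ => rfl)
      (by rw [one_mul]) x
    have h0 : (Nat.card G : ℂ) ≠ 0 := Nat.cast_ne_zero.2 Nat.card_pos.ne'
    rw [Pi.one_apply, inv_mul_eq_one₀ h0] at h1
    exact h1.symm
  have havgN : ∀ x : Γ, x ∉ G → ∑ n : N, χ' (n * x) * conj (χ' (n * x)) = (Nat.card N : ℂ) := by
    intro x hx
    have h1 := H3FullRam.coset_sum G N hNG x (fun g hg h => hfrob x hx g hg h)
      (F := fun y => χ' y * conj (χ' y)) (by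
        intro g h
        change χ' (g * h * g⁻¹) * conj (χ' (g * h * g⁻¹)) = _
        rw [hχ'.isClassFunction h g])
    rw [havgG x] at h1
    have h0 : (Nat.card G : ℂ) ≠ 0 := Nat.cast_ne_zero.2 Nat.card_pos.ne'
    apply mul_left_cancel₀ h0
    rw [h1, mul_comm]
  -- the group `Γ₀`
  obtain ⟨c, hc⟩ := hcyc.exists_generator
  obtain ⟨x, rfl⟩ := QuotientGroup.mk_surjective c
  have hxG : x ∉ G := by
    intro hx
    apply hGlt
    rw [eq_top_iff]
    intro y _
    obtain ⟨k, hk⟩ := hc (y : Γ ⧸ G)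
    rw [(QuotientGroup.eq_one_iff x).2 hx] at hk
    simp only [one_zpow] at hk
    exact (QuotientGroup.eq_one_iff y).1 hk.symm
  set Γ₀ : Subgroup Γ := (Subgroup.zpowers (x : Γ ⧸ N)).comap (QuotientGroup.mk' N) with hΓ₀
  have hmemΓ₀ : ∀ y : Γ, y ∈ Γ₀ → y ∈ G → y ∈ N := by
    intro y hy hyG
    rw [hΓ₀, Subgroup.mem_comap, Subgroup.mem_zpowers_iff] at hy
    obtain ⟨k, hk⟩ := hy
    have h1 : (x ^ k)⁻¹ * y ∈ N := by
      rw [← QuotientGroup.eq, QuotientGroup.mk_zpow]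
      exact hk
    have h2 : x ^ k ∈ G := by
      have := G.mul_mem hyG (G.inv_mem (hNG h1))
      have e : y * ((x ^ k)⁻¹ * y)⁻¹ = x ^ k := by group
      rwa [e] at this
    have h3 : x ^ k ∈ N := by
      apply hfrob x hxG _ h2
      have e : x * x ^ k * x⁻¹ * (x ^ k)⁻¹ = 1 := by group
      rw [e]
      exact N.one_mem
    have := N.mul_mem h3 h1
    rwa [mul_inv_cancel_left] at this
  have hNΓ₀ : N ≤ Γ₀ := by
    intro n hn
    rw [hΓ₀, Subgroup.mem_comap, QuotientGroup.mk'_apply, (QuotientGroup.eq_one_iff n).2 hn]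
    exact Subgroup.one_mem _
  have hxΓ₀ : x ∈ Γ₀ := by
    rw [hΓ₀, Subgroup.mem_comap]
    exact Subgroup.mem_zpowers _
  let f : Γ₀ →* Γ ⧸ G := (QuotientGroup.mk' G).comp Γ₀.subtype
  have hfsurj : Function.Surjective f := by
    intro q
    obtain ⟨k, hk⟩ := hc q
    refine ⟨⟨x ^ k, Γ₀.zpow_mem hxΓ₀ k⟩, ?_⟩
    rw [← hk]
    rfl
  have hkermem : ∀ y : Γ₀, y ∈ f.ker ↔ (y : Γ) ∈ N := by
    intro y
    rw [MonoidHom.mem_ker]
    constructor
    · intro h
      exact hmemΓ₀ y y.2 ((QuotientGroup.eq_one_iff (y : Γ)).1 h)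
    · intro h
      exact (QuotientGroup.eq_one_iff (y : Γ)).2 (hNG h)
  let eqv : (Γ₀ ⧸ f.ker) ≃* Γ ⧸ G := QuotientGroup.quotientKerEquivOfSurjective f hfsurj
  have hcyc0 : IsCyclic (Γ₀ ⧸ f.ker) := isCyclic_of_surjective eqv.symm.toMonoidHom eqv.symm.surjective
  have := Fintype.ofFinite Γ₀
  have := Fintype.ofFinite f.ker
  -- the character of the kernel
  let kerEquiv : f.ker ≃* N :=
    { toFun := fun n => ⟨((n : Γ₀) : Γ), (hkermem n).1 n.2⟩
      invFun := fun n => ⟨⟨n, hNΓ₀ n.2⟩, (hkermem _).2 n.2⟩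
      left_inv := fun n => rfl
      right_inv := fun n => rfl
      map_mul' := fun a b => rfl }
  set θ₀ : f.ker → ℂ := fun n => (θ : N → ℂ) (kerEquiv n) with hθ₀
  have hθ₀irr : IsIrrCharacter f.ker θ₀ :=
    (isIrrCharacter_comp_mulEquiv_iff (χ := (θ : N → ℂ)) kerEquiv).2 θ.2
  have hθ₀inv : ∀ g : Γ₀, cj f.ker g θ₀ = θ₀ := by
    intro g
    funext n
    rw [cj_apply]
    exact hinv g (kerEquiv n)
  obtain ⟨τ, hτ, hτext⟩ := CliffordExt.exists_extension_of_cyclic hcyc0 hθ₀irr hθ₀inv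
  have hψ : IsCharacter Γ₀ (fun y : Γ₀ => χ' y) := hχ'.isCharacter.restrict Γ₀
  obtain ⟨b, hb, hbc, hbτ⟩ := H3FullRam.exists_mul_ext hθ₀irr hτ hτext e hψ (by
    intro n
    have h1 : ((n : Γ₀) : Γ) ∈ N := (hkermem n).1 n.2
    have h2 := hext ⟨((n : Γ₀) : Γ), hNG h1⟩
    change χ' ((n : Γ₀) : Γ) = _ at h2
    change χ' ((n : Γ₀) : Γ) = _
    rw [h2]
    exact hχN ⟨⟨((n : Γ₀) : Γ), hNG h1⟩, h1⟩)
  -- `|b y| = 1` off the kernel
  have hbabs : ∀ y : Γ₀, y ∉ f.ker → b y * conj (b y) = 1 := by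
    intro y hy
    have hyG : (y : Γ) ∉ G := fun h => hy ((hkermem y).2 (hmemΓ₀ y y.2 h))
    have h1 := havgN y hyG
    have h2 := (CosetAvg.coset_average hθ₀irr hτ hτext hτ).1 1 isIrrCharacter_one (fun _ => rfl)
      (by rw [one_mul]) y
    have h0 : (Nat.card f.ker : ℂ) ≠ 0 := Nat.cast_ne_zero.2 Nat.card_pos.ne'
    rw [Pi.one_apply, inv_mul_eq_one₀ h0] at h2
    have h3 : ∑ n : N, χ' (n * y) * conj (χ' (n * y)) =
        ∑ n : f.ker, χ' (((n : Γ₀) * y : Γ₀) : Γ) * conj (χ' (((n : Γ₀) * y : Γ₀) : Γ)) := by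
      refine (Fintype.sum_equiv kerEquiv.toEquiv _ _ ?_).symm
      intro n
      rfl
    have h4 : ∀ n : f.ker, χ' (((n : Γ₀) * y : Γ₀) : Γ) * conj (χ' (((n : Γ₀) * y : Γ₀) : Γ)) =
        (b y * conj (b y)) * (τ (n * y) * conj (τ (n * y))) := by
      intro n
      have h5 : χ' (((n : Γ₀) * y : Γ₀) : Γ) = b (n * y) * τ (n * y) := congrFun hbτ ((n : Γ₀) * y)
      rw [h5, CosetAvg.mul_eq_of_const' hb hbc, map_mul]
      ring
    rw [h3, Finset.sum_congr rfl (fun n _ => h4 n), ← Finset.mul_sum, ← h2] at h1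
    have hcard : (Nat.card N : ℂ) = (Nat.card f.ker : ℂ) := by
      rw [Nat.card_congr kerEquiv.toEquiv]
    rw [hcard] at h1
    exact mul_right_cancel₀ h0 (by rw [h1, one_mul])
  -- pass to the quotient
  obtain ⟨B, hB, hBb⟩ := hb.deflate f.ker (fun n hn => hbc ⟨n, hn⟩)
  let instC : CommGroup (Γ ⧸ G) := IsCyclic.commGroup
  have := Fintype.ofFinite (Γ ⧸ G)
  have hB' : IsCharacter (Γ ⧸ G) (fun q => B (eqv.symm q)) := hB.comp eqv.symm.toMonoidHom
  have hb1 : b 1 = e := by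
    have h1 := congrFun hbτ 1
    have h2 : χ' ((1 : Γ₀) : Γ) = e * τ 1 := by
      have h3 := hext 1
      have h4 := hχN 1
      have h5 := hτext 1
      rw [OneMemClass.coe_one] at h3 h4 h5
      rw [OneMemClass.coe_one, h3, h4, h5]
      rfl
    rw [Pi.mul_apply] at h1
    change χ' ((1 : Γ₀) : Γ) = _ at h1
    rw [h2] at h1
    exact (mul_right_cancel₀ hτ.one_ne_zero h1).symm
  have hfin := H3FullRam.arith (C := Γ ⧸ G) hB' (e := e) (by
      simp only [map_one]
      rw [← hb1, ← hBb 1]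
      rfl) (by
      intro q hq
      obtain ⟨y, hy⟩ := QuotientGroup.mk_surjective (eqv.symm q)
      simp only [← hy, hBb]
      apply hbabs
      intro hk
      apply hq
      rw [← (QuotientGroup.eq_one_iff y)] at hk
      rw [hk] at hy
      have := congrArg eqv hy
      rw [map_one, MulEquiv.apply_symm_apply] at this
      exact this.symm) (by
      rw [← Nat.card_eq_fintype_card]
      have : G.index ≠ 1 := fun h => hGlt (Subgroup.index_eq_one.1 h)
      have h2 : G.index ≠ 0 := Subgroup.index_ne_zero_of_finite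
      rw [Subgroup.index] at this h2
      omega)
  rw [← Nat.card_eq_fintype_card] at hfin
  exact hfin

end Cfsg.Agent.S4454
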