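import Cfsg.Statements.S4455
import Mathlib
import Cfsg.Agent.Lib.PResSum

set_option autoImplicit false
open Cfsg

namespace Cfsg.Agent.S4455
open Cfsg


/-- Fix a prime p and a finite group G. Let s be the sum of χ(1)² over the irreducible characters χ of G whose degree is not divisible by p and whose determinantal order o(χ) is not divisible by p. Then the order of O^p(G), the subgroup generated by the elements of order prime to p, is congruent to s modulo p. -/
theorem result {G : Type*} [Group G] [Finite G] (p : ℕ) (hp : p.Prime) : (Nat.card (Cfsg.pResidual p G) : ℤ) ≡ (∑ᶠ χ ∈ {χ : Cfsg.IrrCharacter G | ¬ p ∣ Cfsg.charDegree (χ : G → ℂ) ∧ ¬ p ∣ Cfsg.detOrder (χ : G → ℂ)}, (Cfsg.charDegree (χ : G → ℂ) : ℤ) ^ 2) [ZMOD p] := by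
  have : Fact p.Prime := ⟨hp⟩
  rw [← ZMod.intCast_eq_intCast_iff]
  have h1 := Cfsg.Agent.Lib.PResSum.card_pResidual (G := G) (p := p)
  have h2 := (Int.castAddHom (ZMod p)).map_finsum_mem (f := fun χ : IrrCharacter G =>
    (charDegree (χ : G → ℂ) : ℤ) ^ 2) (s := {χ : Cfsg.IrrCharacter G |
      ¬ p ∣ Cfsg.charDegree (χ : G → ℂ) ∧ ¬ p ∣ Cfsg.detOrder (χ : G → ℂ)})
    (Set.toFinite _)
  refine Eq.trans ?_ h2.symm
  push_cast
  rw [h1]
  refine finsum_mem_congr rfl fun χ _ => ?_
  simp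

end Cfsg.Agent.S4455
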