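import Cfsg.Statements.S4458
import Cfsg.Agent.Lib.Taketa

set_option autoImplicit false
open Cfsg

namespace Cfsg.Agent.S4458

/-- If a finite group has exactly two irreducible character degrees, 1 and m with m ≠ 1, then its commutator subgroup is abelian. -/
theorem result {G : Type*} [Group G] [Finite G] (m : ℕ) (hcd : ∀ χ : Cfsg.IrrCharacter G, Cfsg.charDegree (χ : G → ℂ) = 1 ∨ Cfsg.charDegree (χ : G → ℂ) = m) (hm : ∃ χ : Cfsg.IrrCharacter G, Cfsg.charDegree (χ : G → ℂ) = m) (hm1 : m ≠ 1) : ∀ a ∈ commutator G, ∀ b ∈ commutator G, a * b = b * a := by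
  have h : Cfsg.Agent.Lib.TwoDeg.TwoDeg m G := by
    intro χ hχ
    have h1 := Cfsg.Agent.Lib.BlockDeg.charDegree_cast hχ.isCharacter
    rcases hcd ⟨χ, hχ⟩ with h2 | h2
    · left; rw [← h1]; simp only at h2; rw [h2, Nat.cast_one]
    · right; rw [← h1]; simp only at h2; rw [h2]
  have hex : ∃ χ : G → ℂ, Cfsg.IsIrrCharacter G χ ∧ χ 1 = (m : ℂ) := by
    obtain ⟨χ, hχ⟩ := hm
    refine ⟨χ, χ.2, ?_⟩
    rw [← Cfsg.Agent.Lib.BlockDeg.charDegree_cast_irr χ, hχ]
  have h2 := Cfsg.Agent.Lib.Taketa.two h hm1 hex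
  rw [Subgroup.commutator_eq_bot_iff_le_centralizer] at h2
  intro a ha b hb
  exact ((Subgroup.mem_centralizer_iff.1 (h2 hb)) a ha)

end Cfsg.Agent.S4458
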