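import Cfsg.Statements.S4459
import Cfsg.Agent.Lib.CdP

set_option autoImplicit false
open Cfsg

namespace Cfsg.Agent.S4459

/-- Let G be a non-abelian finite group and p a prime. Then the irreducible character degrees of G are exactly 1 and p if and only if either G has an abelian normal subgroup of index p or the centre of G has index p³. -/
theorem result {G : Type*} [Group G] [Finite G] (hG : ∃ a b : G, a * b ≠ b * a) (p : ℕ) (hp : p.Prime) : ((∀ χ : Cfsg.IrrCharacter G, Cfsg.charDegree (χ : G → ℂ) = 1 ∨ Cfsg.charDegree (χ : G → ℂ) = p) ∧ ∃ χ : Cfsg.IrrCharacter G, Cfsg.charDegree (χ : G → ℂ) = p) ↔ ((∃ A : Subgroup G, A.Normal ∧ (∀ a ∈ A, ∀ b ∈ A, a * b = b * a) ∧ A.index = p) ∨ (Subgroup.center G).index = p ^ 3) := by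
  rw [← Cfsg.Agent.Lib.CdP.main hG p hp]
  constructor
  · rintro ⟨hcd, χ, hχ⟩
    refine ⟨?_, χ, ?_⟩
    · intro χ hχ
      have h1 := Cfsg.Agent.Lib.BlockDeg.charDegree_cast hχ.isCharacter
      rcases hcd ⟨χ, hχ⟩ with h2 | h2
      · left; rw [← h1]; simp only at h2; rw [h2, Nat.cast_one]
      · right; rw [← h1]; simp only at h2; rw [h2]
    · rw [← Cfsg.Agent.Lib.BlockDeg.charDegree_cast_irr χ, hχ]
  · rintro ⟨hcd, χ, hχ⟩
    refine ⟨?_, χ, ?_⟩
    · intro χ
      have h1 := Cfsg.Agent.Lib.BlockDeg.charDegree_cast_irr χ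
      rcases hcd χ χ.2 with h2 | h2
      · left; rw [h2] at h1; exact_mod_cast h1
      · right; rw [h2] at h1; exact_mod_cast h1
    · have h1 := Cfsg.Agent.Lib.BlockDeg.charDegree_cast_irr χ
      rw [hχ] at h1; exact_mod_cast h1

end Cfsg.Agent.S4459
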