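import Cfsg.Statements.S4467
import Cfsg.Agent.Lib.H39Lin3

set_option autoImplicit false
open Cfsg

namespace Cfsg.Agent.S4467

/-- Let the finite solvable group G have a faithful irreducible character of degree n, and suppose that for the prime p a Sylow p-subgroup of G is not normal. Then n is divisible by a prime power q > 1 with q congruent to −1, 0 or 1 modulo p. -/
theorem result {G : Type*} [Group G] [Finite G] (χ : Cfsg.IrrCharacter G) (hfaith : ∀ g : G, (χ : G → ℂ) g = (χ : G → ℂ) 1 → g = 1) (n : ℕ) (hn : Cfsg.charDegree (χ : G → ℂ) = n) (hsolv : Group.IsSolvable G) (p : ℕ) (hp : p.Prime) (P : Sylow p G) (hP : ¬ (P : Subgroup G).Normal) : ∃ q : ℕ, IsPrimePow q ∧ q ∣ n ∧ ((q : ℤ) ≡ -1 [ZMOD p] ∨ (q : ℤ) ≡ 0 [ZMOD p] ∨ (q : ℤ) ≡ 1 [ZMOD p]) := by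
  haveI : Fact p.Prime := ⟨hp⟩
  have hPC : ¬ Lib.H39Lin1.PC p G := fun h => hP ((Lib.H39Lin1.normal_iff_PC P).mpr h)
  obtain ⟨q, h1, h2, h3⟩ := Lib.H39Lin3.main hp hsolv χ.2 hfaith hPC
  refine ⟨q, h1, hn ▸ h2, ?_⟩
  have hq1 : 1 ≤ q := h1.pos
  rcases h3 with h | h | h
  · right; right
    apply Int.ModEq.symm; rw [Int.modEq_iff_dvd]
    have : ((q - 1 : ℕ) : ℤ) = (q : ℤ) - 1 := by push_cast [Nat.cast_sub hq1]; ring
    rw [← this]
    exact_mod_cast h
  · right; left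
    apply Int.ModEq.symm; rw [Int.modEq_iff_dvd]
    rw [sub_zero]
    exact_mod_cast h
  · left
    apply Int.ModEq.symm; rw [Int.modEq_iff_dvd]
    have : ((q + 1 : ℕ) : ℤ) = (q : ℤ) - -1 := by push_cast; ring
    rw [← this]
    exact_mod_cast h

end Cfsg.Agent.S4467
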