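import Cfsg.Statements.S4471
import Cfsg.Agent.Lib.H39Bld4

set_option autoImplicit false
open Cfsg

namespace Cfsg.Agent.S4471

/-- Let p ≥ 7 be a prime and let the finite group G have a faithful irreducible character of degree n with n < 2p and n ≠ p. If the Sylow p-subgroups of G are non-abelian then p² does not divide the index of O_p(G) in G; consequently, in every case G/O_p(G) has abelian Sylow p-subgroups. -/
theorem result {G : Type*} [Group G] [Finite G] (χ : Cfsg.IrrCharacter G) (hfaith : ∀ g : G, (χ : G → ℂ) g = (χ : G → ℂ) 1 → g = 1) (n : ℕ) (hn : Cfsg.charDegree (χ : G → ℂ) = n) (p : ℕ) (hp : p.Prime) (h7 : 7 ≤ p) (hn2 : n < 2 * p) (hnp : n ≠ p) : ((∃ P : Sylow p G, ∃ x ∈ (P : Subgroup G), ∃ y ∈ (P : Subgroup G), x * y ≠ y * x) → ¬ p ^ 2 ∣ (Cfsg.pCore p G).index) ∧ ∀ Q : Sylow p (G ⧸ Cfsg.pCore p G), ∀ x ∈ (Q : Subgroup (G ⧸ Cfsg.pCore p G)), ∀ y ∈ (Q : Subgroup (G ⧸ Cfsg.pCore p G)), x * y = y * x := by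
  haveI : Fact p.Prime := ⟨hp⟩
  subst hn
  have hfirst : (∃ P : Sylow p G, ∃ x ∈ (P : Subgroup G), ∃ y ∈ (P : Subgroup G), x * y ≠ y * x) →
      ¬ p ^ 2 ∣ (Cfsg.pCore p G).index := by
    rintro ⟨P, x, hx, y, hy, hxy⟩
    exact Lib.H39Bld.main h7 χ.2 hfaith hn2 hnp P hx hy hxy
  refine ⟨hfirst, ?_⟩
  intro Q x hx y hy
  by_cases hab : ∃ P : Sylow p G, ∃ x ∈ (P : Subgroup G), ∃ y ∈ (P : Subgroup G), x * y ≠ y * x
  · have h1 := hfirst hab
    -- the order of `Q` is `1` or `p`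
    obtain ⟨n, hn⟩ := Q.isPGroup'.exists_card_eq
    have h2 : p ^ n ∣ (Cfsg.pCore p G).index := by
      rw [← hn]
      exact Subgroup.card_subgroup_dvd_card _
    have h3 : n < 2 := by
      by_contra h4
      exact h1 ((pow_dvd_pow p (by omega)).trans h2)
    have hcyc : IsCyclic (Q : Subgroup (G ⧸ Cfsg.pCore p G)) := by
      rcases n with _ | _ | n
      · rw [pow_zero] at hn
        haveI : Subsingleton (Q : Subgroup (G ⧸ Cfsg.pCore p G)) := (Nat.card_eq_one_iff_unique.mp hn).1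
        exact isCyclic_of_subsingleton
      · rw [zero_add, pow_one] at hn
        exact isCyclic_of_prime_card hn
      · omega
    letI := hcyc.commGroup
    exact congrArg Subtype.val (mul_comm (⟨x, hx⟩ : (Q : Subgroup (G ⧸ Cfsg.pCore p G))) ⟨y, hy⟩)
  · push Not at hab
    obtain ⟨P⟩ : Nonempty (Sylow p G) := inferInstance
    set f := QuotientGroup.mk' (Cfsg.pCore p G) with hf
    obtain ⟨P', hP'⟩ := Sylow.mapSurjective_surjective (p := p) (f := f)
      (QuotientGroup.mk'_surjective _) Q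
    rw [← hP'] at hx hy
    obtain ⟨a, ha, rfl⟩ := hx
    obtain ⟨b, hb, rfl⟩ := hy
    rw [← map_mul, hab P' a ha b hb, map_mul]

end Cfsg.Agent.S4471
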