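import Cfsg.Statements.S4473
import Cfsg.Agent.Lib.Prim2Rep

set_option autoImplicit false
open Cfsg

namespace Cfsg.Agent.S4473

/-- Let the finite group G have a faithful irreducible character χ of degree 2 that is primitive: χ is not induced from a character of any proper subgroup. Then the centre of G has index 12, 24 or 60. -/
theorem result {G : Type*} [Group G] [Fintype G] (χ : Cfsg.IrrCharacter G) (hfaith : ∀ g : G, (χ : G → ℂ) g = (χ : G → ℂ) 1 → g = 1) (h2 : Cfsg.charDegree (χ : G → ℂ) = 2) (hprim : ∀ H : Subgroup G, H ≠ ⊤ → ∀ θ : H → ℂ, Cfsg.IsCharacter H θ → (χ : G → ℂ) ≠ Cfsg.indFun H θ) : (Subgroup.center G).index = 12 ∨ (Subgroup.center G).index = 24 ∨ (Subgroup.center G).index = 60 := by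
  exact Cfsg.Agent.Lib.Prim2Rep.main χ hfaith h2 hprim

end Cfsg.Agent.S4473
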