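import Cfsg.Statements.S4476
import Mathlib
import Cfsg.Agent.Lib.FrobSchur

set_option autoImplicit false
open Cfsg

namespace Cfsg.Agent.S4476
open Cfsg Cfsg.Agent.Lib.CharBasic Cfsg.Agent.Lib.FrobSchur
universe v
section
variable {G : Type v} [Group G] [Fintype G]

theorem degs (χ : Cfsg.IrrCharacter G) : (χ : G → ℂ) 1 = ((Cfsg.charDegree (χ : G → ℂ) : ℕ) : ℂ) ∧
    0 < Cfsg.charDegree (χ : G → ℂ) := by
  obtain ⟨n, hn0, hn⟩ := χ.2.exists_degree
  have h1 : Cfsg.charDegree (χ : G → ℂ) = n := by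
    rw [Cfsg.charDegree, hn, Complex.natCast_re, Nat.floor_natCast]
  rw [h1, hn]; exact ⟨rfl, hn0⟩

theorem sum_sq : ∑ χ : Cfsg.IrrCharacter G, (Cfsg.charDegree (χ : G → ℂ) : ℚ) ^ 2 = Nat.card G := by
  have h := sum_degree_sq (G := G)
  have h1 : ∑ χ : Cfsg.IrrCharacter G, (χ : G → ℂ) 1 ^ 2 =
      ((∑ χ : Cfsg.IrrCharacter G, (Cfsg.charDegree (χ : G → ℂ)) ^ 2 : ℕ) : ℂ) := by
    push_cast
    refine Finset.sum_congr rfl fun χ _ => ?_
    rw [(degs χ).1]
  rw [h1] at h
  have h2 : (∑ χ : Cfsg.IrrCharacter G, (Cfsg.charDegree (χ : G → ℂ)) ^ 2 : ℕ) = Nat.card G := by exact_mod_cast h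
  rw [← h2]; push_cast; rfl

theorem card_inv : Nat.card {s : G // s * s = 1} = Nat.card {x : G // orderOf x = 2} + 1 := by
  classical
  rw [Nat.card_eq_fintype_card, Nat.card_eq_fintype_card, Fintype.card_subtype, Fintype.card_subtype]
  have h1 : (Finset.univ.filter fun s : G => s * s = 1) = insert 1 (Finset.univ.filter fun x : G => orderOf x = 2) := by
    ext s
    simp only [Finset.mem_filter, Finset.mem_univ, true_and, Finset.mem_insert]
    constructor
    · intro h
      by_cases h1 : s = 1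
      · exact Or.inl h1
      · right
        apply orderOf_eq_prime _ h1
        rw [pow_two]; exact h
    · rintro (h | h)
      · rw [h, mul_one]
      · rw [← pow_two, ← h, pow_orderOf_eq_one]
  rw [h1, Finset.card_insert_of_notMem]
  simp

/-- nonprincipal real characters -/
noncomputable def RR (G : Type v) [Group G] [Fintype G] : Finset (Cfsg.IrrCharacter G) := by
  classical exact Finset.univ.filter fun χ => (χ : G → ℂ) ≠ (fun _ => 1) ∧ ∀ g : G, ((χ : G → ℂ) g).im = 0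

theorem mem_RR {χ : Cfsg.IrrCharacter G} : χ ∈ RR G ↔ (χ : G → ℂ) ≠ (fun _ => 1) ∧ ∀ g : G, ((χ : G → ℂ) g).im = 0 := by
  classical
  unfold RR; simp

theorem le_sum : (Nat.card {x : G // orderOf x = 2} : ℚ) ≤ ∑ χ ∈ RR G, (Cfsg.charDegree (χ : G → ℂ) : ℚ) := by
  classical
  have h := card_sq_eq_one (G := G)
  rw [card_inv] at h
  set one : Cfsg.IrrCharacter G := ⟨fun _ => 1, isIrrCharacter_fun_one⟩ with hone
  have h1 : ∀ χ : Cfsg.IrrCharacter G, ∃ ν : ℤ, fsInd (χ : G → ℂ) = ν ∧ ν ≤ 1 ∧ (ν ≠ 0 → ∀ g : G, ((χ : G → ℂ) g).im = 0) := by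
    intro χ
    obtain ⟨h2, h3⟩ := fsInd_trichotomy χ.2
    have h4 : fsInd (χ : G → ℂ) ≠ 0 → ∀ g : G, ((χ : G → ℂ) g).im = 0 := by
      intro h5
      by_contra h6
      push Not at h6
      exact h5 (h3.2 h6)
    rcases h2 with h2 | h2 | h2
    · exact ⟨0, by rw [h2]; simp, by norm_num, fun h => absurd rfl h⟩
    · exact ⟨1, by rw [h2]; simp, le_rfl, fun _ => h4 (by rw [h2]; norm_num)⟩
    · exact ⟨-1, by rw [h2]; simp, by norm_num, fun _ => h4 (by rw [h2]; norm_num)⟩
  choose ν hν1 hν2 hν3 using h1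
  have h2 : ((Nat.card {x : G // orderOf x = 2} + 1 : ℕ) : ℤ) = ∑ χ : Cfsg.IrrCharacter G, ν χ * (Cfsg.charDegree (χ : G → ℂ) : ℤ) := by
    have h3 : (((Nat.card {x : G // orderOf x = 2} + 1 : ℕ) : ℤ) : ℂ) = ((∑ χ : Cfsg.IrrCharacter G, ν χ * (Cfsg.charDegree (χ : G → ℂ) : ℤ) : ℤ) : ℂ) := by
      push_cast
      push_cast at h
      rw [h]
      refine Finset.sum_congr rfl fun χ _ => ?_
      rw [hν1, (degs χ).1]
    exact_mod_cast h3
  have hd1 : (Cfsg.charDegree (one : G → ℂ)) = 1 := by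
    have h3 := (degs one).1
    have h4 : (one : G → ℂ) 1 = 1 := rfl
    rw [h4] at h3
    exact_mod_cast h3.symm
  rw [← Finset.add_sum_erase _ _ (Finset.mem_univ one), hd1] at h2
  have h3 : ∑ χ ∈ (Finset.univ : Finset (Cfsg.IrrCharacter G)).erase one, ν χ * (Cfsg.charDegree (χ : G → ℂ) : ℤ) ≤
      ∑ χ ∈ RR G, (Cfsg.charDegree (χ : G → ℂ) : ℤ) := by
    have h4 : RR G ⊆ (Finset.univ : Finset (Cfsg.IrrCharacter G)).erase one := by
      intro χ hχ
      rw [Finset.mem_erase]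
      refine ⟨fun h => (mem_RR.1 hχ).1 (by rw [h]), Finset.mem_univ _⟩
    rw [← Finset.sum_sdiff h4]
    have h5 : ∑ χ ∈ (Finset.univ : Finset (Cfsg.IrrCharacter G)).erase one \ RR G, ν χ * (Cfsg.charDegree (χ : G → ℂ) : ℤ) = 0 := by
      refine Finset.sum_eq_zero fun χ hχ => ?_
      rw [Finset.mem_sdiff, Finset.mem_erase, mem_RR, not_and] at hχ
      have h6 : ν χ = 0 := by
        by_contra h6
        exact hχ.2 (fun h => hχ.1.1 (Subtype.ext h)) (hν3 χ h6)
      rw [h6, zero_mul]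
    rw [h5, zero_add]
    refine Finset.sum_le_sum fun χ _ => ?_
    have h6 : (0 : ℤ) ≤ (Cfsg.charDegree (χ : G → ℂ) : ℤ) := Nat.cast_nonneg _
    nlinarith [hν2 χ]
  have h4 := hν2 one
  have h5 : ((Nat.card {x : G // orderOf x = 2} : ℕ) : ℤ) ≤ ∑ χ ∈ RR G, (Cfsg.charDegree (χ : G → ℂ) : ℤ) := by
    push_cast at h2 ⊢
    linarith
  exact_mod_cast h5

theorem sum_sq_le : ∑ χ ∈ RR G, (Cfsg.charDegree (χ : G → ℂ) : ℚ) ^ 2 ≤ (Nat.card G : ℚ) - 1 := by
  classical
  set one : Cfsg.IrrCharacter G := ⟨fun _ => 1, isIrrCharacter_fun_one⟩ with hone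
  have hd1 : (Cfsg.charDegree (one : G → ℂ)) = 1 := by
    have h3 := (degs one).1
    have h4 : (one : G → ℂ) 1 = 1 := rfl
    rw [h4] at h3
    exact_mod_cast h3.symm
  have h4 : RR G ⊆ (Finset.univ : Finset (Cfsg.IrrCharacter G)).erase one := by
    intro χ hχ
    rw [Finset.mem_erase]
    refine ⟨fun h => (mem_RR.1 hχ).1 (by rw [h]), Finset.mem_univ _⟩
  have h5 : ∑ χ ∈ RR G, (Cfsg.charDegree (χ : G → ℂ) : ℚ) ^ 2 ≤
      ∑ χ ∈ (Finset.univ : Finset (Cfsg.IrrCharacter G)).erase one, (Cfsg.charDegree (χ : G → ℂ) : ℚ) ^ 2 :=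
    Finset.sum_le_sum_of_subset_of_nonneg h4 fun _ _ _ => by positivity
  have h6 := sum_sq (G := G)
  rw [← Finset.add_sum_erase _ _ (Finset.mem_univ one), hd1] at h6
  push_cast at h6
  linarith

theorem card_RR_le : ((RR G).card : ℚ) + 1 ≤ Nat.card (ConjClasses G) := by
  classical
  set one : Cfsg.IrrCharacter G := ⟨fun _ => 1, isIrrCharacter_fun_one⟩ with hone
  have h1 : (RR G).card + 1 ≤ Nat.card (ConjClasses G) := by
    rw [← card_irr, Nat.card_eq_fintype_card, ← Finset.card_univ]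
    have h2 : one ∉ RR G := fun h => (mem_RR.1 h).1 rfl
    rw [← Finset.card_insert_of_notMem h2]
    exact Finset.card_le_card (Finset.subset_univ _)
  exact_mod_cast h1

theorem sum_cent : ∑ x : G, (Nat.card (Subgroup.centralizer ({x} : Set G)) : ℚ) = Nat.card (ConjClasses G) * Nat.card G := by
  classical
  have h1 := card_comm_eq_card_conjClasses_mul_card G
  have h2 : Nat.card {p : G × G // Commute p.1 p.2} = ∑ x : G, Nat.card (Subgroup.centralizer ({x} : Set G)) := by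
    rw [Nat.card_congr (Equiv.subtypeProdEquivSigmaSubtype (fun a b : G => Commute a b)), Nat.card_sigma]
    refine Finset.sum_congr rfl fun x _ => ?_
    refine Nat.card_congr (Equiv.subtypeEquivRight fun y => ?_)
    rw [Subgroup.mem_centralizer_singleton_iff]
    exact ⟨fun h => h.eq.symm, fun h => (show Commute y x from h).symm⟩
  rw [← Nat.cast_mul, ← h1, h2]
  push_cast
  rfl

end

/-- Let G be a finite group of even order g with exactly t involutions, and put α = (g − 1)/t (a rational number). Then (a) some non-identity element x of G has at most α² conjugates; and (b) some non-principal real-valued irreducible character of G has degree at most α. -/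
theorem result {G : Type*} [Group G] [Fintype G] (heven : Even (Nat.card G)) (t : ℕ) (ht : Nat.card {x : G // orderOf x = 2} = t) : (∃ x : G, x ≠ 1 ∧ ((Subgroup.centralizer ({x} : Set G)).index : ℚ) ≤ (((Nat.card G : ℚ) - 1) / t) ^ 2) ∧ ∃ χ : Cfsg.IrrCharacter G, (χ : G → ℂ) ≠ (fun _ => 1) ∧ (∀ g : G, ((χ : G → ℂ) g).im = 0) ∧ (Cfsg.charDegree (χ : G → ℂ) : ℚ) ≤ ((Nat.card G : ℚ) - 1) / t := by
  classical
  have ht0 : 0 < t := by
    rw [← ht]
    haveI : Fact (Nat.Prime 2) := ⟨Nat.prime_two⟩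
    obtain ⟨x, hx⟩ := exists_prime_orderOf_dvd_card' (G := G) 2 (even_iff_two_dvd.1 heven)
    haveI : Nonempty {x : G // orderOf x = 2} := ⟨⟨x, hx⟩⟩
    exact Nat.card_pos
  have hg2 : 2 ≤ Nat.card G := Nat.le_of_dvd Nat.card_pos (even_iff_two_dvd.1 heven)
  have hgq : (2 : ℚ) ≤ Nat.card G := by exact_mod_cast hg2
  have htq : (0 : ℚ) < t := by exact_mod_cast ht0
  set α : ℚ := ((Nat.card G : ℚ) - 1) / t with hα
  have hα0 : 0 < α := div_pos (by linarith) htq
  have hαt : α * t = (Nat.card G : ℚ) - 1 := by rw [hα]; field_simp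
  have h1 := le_sum (G := G)
  rw [ht] at h1
  have h2 := sum_sq_le (G := G)
  refine ⟨?_, ?_⟩
  · by_contra hcon
    push Not at hcon
    have h3 : (t : ℚ) ^ 2 ≤ ((RR G).card : ℚ) * ((Nat.card G : ℚ) - 1) := by
      calc (t : ℚ) ^ 2 ≤ (∑ χ ∈ RR G, (Cfsg.charDegree (χ : G → ℂ) : ℚ)) ^ 2 := by gcongr
        _ ≤ ((RR G).card : ℚ) * ∑ χ ∈ RR G, (Cfsg.charDegree (χ : G → ℂ) : ℚ) ^ 2 := sq_sum_le_card_mul_sum_sq
        _ ≤ _ := by gcongr
    have h4 := card_RR_le (G := G)
    have h5 := sum_cent (G := G)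
    rw [← Finset.add_sum_erase _ _ (Finset.mem_univ (1 : G))] at h5
    have h6 : (Nat.card (Subgroup.centralizer ({(1 : G)} : Set G)) : ℚ) = Nat.card G := by
      have : Subgroup.centralizer ({(1 : G)} : Set G) = ⊤ := by
        rw [eq_top_iff]
        intro x _
        rw [Subgroup.mem_centralizer_singleton_iff]; simp
      rw [this, Subgroup.card_top]
    have h7 : (∑ x ∈ (Finset.univ : Finset G).erase 1, (Nat.card (Subgroup.centralizer ({x} : Set G)) : ℚ)) * α ^ 2 <
        ((Nat.card G : ℚ) - 1) * Nat.card G := by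
      have h8 : ∀ x ∈ (Finset.univ : Finset G).erase 1, (Nat.card (Subgroup.centralizer ({x} : Set G)) : ℚ) * α ^ 2 < Nat.card G := by
        intro x hx
        have h9 := hcon x (Finset.mem_erase.1 hx).1
        have h10 : (Nat.card (Subgroup.centralizer ({x} : Set G)) : ℚ) * (Subgroup.centralizer ({x} : Set G)).index = Nat.card G := by
          exact_mod_cast Subgroup.card_mul_index _
        have h11 : (0 : ℚ) < Nat.card (Subgroup.centralizer ({x} : Set G)) := by exact_mod_cast Nat.card_pos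
        rw [← h10]
        exact mul_lt_mul_of_pos_left h9 h11
      rw [Finset.sum_mul]
      obtain ⟨y, hy⟩ : ∃ y : G, y ≠ 1 := by
        by_contra h
        push Not at h
        have : Nat.card G = 1 := Nat.card_eq_one_iff_unique.2 ⟨⟨fun a b => by rw [h a, h b]⟩, ⟨1⟩⟩
        omega
      calc ∑ x ∈ (Finset.univ : Finset G).erase 1, (Nat.card (Subgroup.centralizer ({x} : Set G)) : ℚ) * α ^ 2
          < ∑ x ∈ (Finset.univ : Finset G).erase 1, (Nat.card G : ℚ) :=
            Finset.sum_lt_sum_of_nonempty ⟨y, Finset.mem_erase.2 ⟨hy, Finset.mem_univ _⟩⟩ h8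
        _ = ((Nat.card G : ℚ) - 1) * Nat.card G := by
            rw [Finset.sum_const, Finset.card_erase_of_mem (Finset.mem_univ _), Finset.card_univ, nsmul_eq_mul,
              ← Nat.card_eq_fintype_card, Nat.cast_sub (by omega)]
            simp
    have h8 : (∑ x ∈ (Finset.univ : Finset G).erase 1, (Nat.card (Subgroup.centralizer ({x} : Set G)) : ℚ)) =
        ((Nat.card (ConjClasses G) : ℚ) - 1) * Nat.card G := by
      rw [h6] at h5; linarith
    rw [h8] at h7
    have h9 : ((Nat.card (ConjClasses G) : ℚ) - 1) * α ^ 2 < (Nat.card G : ℚ) - 1 := by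
      have h10 : (0 : ℚ) < Nat.card G := by linarith
      by_contra h11
      push Not at h11
      nlinarith
    have h10 : ((RR G).card : ℚ) * α ^ 2 < (Nat.card G : ℚ) - 1 := by
      refine lt_of_le_of_lt ?_ h9
      gcongr
      linarith
    have h11 : ((RR G).card : ℚ) * (α * t) ^ 2 < ((Nat.card G : ℚ) - 1) * t ^ 2 := by
      rw [mul_pow, ← mul_assoc]
      exact mul_lt_mul_of_pos_right h10 (by positivity)
    rw [hαt] at h11
    have h12 : (0 : ℚ) < (Nat.card G : ℚ) - 1 := by linarith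
    nlinarith
  · by_contra hcon
    push Not at hcon
    have h3 : ∀ χ ∈ RR G, α < (Cfsg.charDegree (χ : G → ℂ) : ℚ) := fun χ hχ =>
      hcon χ (mem_RR.1 hχ).1 (mem_RR.1 hχ).2
    have hne : (RR G).Nonempty := by
      by_contra h
      rw [Finset.not_nonempty_iff_eq_empty] at h
      rw [h, Finset.sum_empty] at h1
      linarith
    have h4 : α * ∑ χ ∈ RR G, (Cfsg.charDegree (χ : G → ℂ) : ℚ) < ∑ χ ∈ RR G, (Cfsg.charDegree (χ : G → ℂ) : ℚ) ^ 2 := by
      rw [Finset.mul_sum]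
      refine Finset.sum_lt_sum_of_nonempty hne fun χ hχ => ?_
      have h5 := h3 χ hχ
      have h6 : (0 : ℚ) < (Cfsg.charDegree (χ : G → ℂ) : ℚ) := hα0.trans h5
      rw [pow_two]
      exact mul_lt_mul_of_pos_right h5 h6
    have h5 : α * t ≤ α * ∑ χ ∈ RR G, (Cfsg.charDegree (χ : G → ℂ) : ℚ) := by gcongr
    rw [hαt] at h5
    linarith

end Cfsg.Agent.S4476
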