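import Cfsg.Statements.S4478
import Cfsg.Agent.Lib.CharBasic
import Cfsg.Agent.Lib.CharBasic2
import Cfsg.Agent.Lib.FrobSchur
import Cfsg.Agent.Lib.BlockDeg
import Cfsg.Agent.Lib.DefectZeroVanish

set_option autoImplicit false
open Cfsg Cfsg.Agent.Lib Cfsg.Agent.Lib.CharBasic

namespace Cfsg.Agent.S4478

theorem vanish {G : Type*} [Group G] [Finite G] (χ : Cfsg.IrrCharacter G) (p : ℕ) (hp : p.Prime)
    (h : p ^ (Nat.card G).factorization p ∣ Cfsg.charDegree (χ : G → ℂ)) (x : G)
    (hx : p ∣ orderOf x) : (χ : G → ℂ) x = 0 := by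
  have hd := BlockDeg.charDegree_cast_irr χ
  obtain ⟨n, ρ, hρ, hχ⟩ := χ.2
  have hρ' := hρ
  rw [← hχ] at hd h ⊢
  have h1 : ρ.character 1 = (Module.finrank ℂ (Fin n → ℂ) : ℂ) := Representation.char_one ρ
  rw [h1, Nat.cast_inj] at hd
  rw [hd] at h
  exact DefectZeroVanish.character_eq_zero ρ p _ hp
    (Nat.pow_succ_factorization_not_dvd Nat.card_pos.ne' hp) h x hx

/-- Let G be a finite group of even order and χ an irreducible character of G whose degree x is divisible by the full power of 2 dividing the order of G and, for every odd prime p such that G has an element of order 2p, by the full power of p dividing the order of G. Then all involutions of G are conjugate, the centralizer of every involution has order exactly x with x coprime to its index, and the Frobenius–Schur indicator of χ equals 1. -/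
theorem result {G : Type*} [Group G] [Fintype G] (heven : Even (Nat.card G)) (χ : Cfsg.IrrCharacter G) (h2 : 2 ^ (Nat.card G).factorization 2 ∣ Cfsg.charDegree (χ : G → ℂ)) (hp : ∀ p : ℕ, p.Prime → p ≠ 2 → (∃ g : G, orderOf g = 2 * p) → p ^ (Nat.card G).factorization p ∣ Cfsg.charDegree (χ : G → ℂ)) : (∀ s t : G, orderOf s = 2 → orderOf t = 2 → IsConj s t) ∧ (∀ s : G, orderOf s = 2 → Nat.card (Subgroup.centralizer ({s} : Set G)) = Cfsg.charDegree (χ : G → ℂ) ∧ (Nat.card (Subgroup.centralizer ({s} : Set G))).Coprime (Subgroup.centralizer ({s} : Set G)).index) ∧ (Nat.card G : ℂ)⁻¹ * ∑ g : G, (χ : G → ℂ) (g * g) = 1 := by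
  classical
  have hodd2 : ∀ p : ℕ, p.Prime → (p = 2 ∨ ∃ g : G, orderOf g = 2 * p) →
      p ^ (Nat.card G).factorization p ∣ Cfsg.charDegree (χ : G → ℂ) := by
    intro p hpp h
    by_cases h' : p = 2
    · rw [h']; exact h2
    · exact hp p hpp h' (h.resolve_left h')
  set d := Cfsg.charDegree (χ : G → ℂ) with hd
  have hd1 : (χ : G → ℂ) 1 = (d : ℂ) := (BlockDeg.charDegree_cast_irr χ).symm
  have hdpos : 0 < d := BlockDeg.charDegree_pos χ.2
  -- `χ` is not the trivial character
  have hG2 : 2 ∣ Nat.card G := heven.two_dvd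
  have hd2 : 2 ∣ d := (dvd_pow_self 2 (by
    have := (Nat.Prime.factorization_pos_of_dvd Nat.prime_two Nat.card_pos.ne' hG2)
    omega)).trans h2
  have hsum : ∑ g : G, (χ : G → ℂ) g = 0 := by
    have h := χ.2.classInner_eq_zero (isIrrCharacter_one (G := G)) (fun h => by
      have := congrFun h 1
      rw [hd1, Pi.one_apply] at this
      have h3 : d = 1 := by exact_mod_cast this
      omega)
    rw [classInner_def] at h
    have h0 : (Nat.card G : ℂ) ≠ 0 := Nat.cast_ne_zero.2 Nat.card_pos.ne'
    have h4 := (mul_eq_zero.1 h).resolve_left (inv_ne_zero (by simpa using h0))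
    simpa using h4
  -- number of elements with square one
  set T : Finset G := Finset.univ.filter (fun g => g * g = 1) with hT
  -- for y with χ y ≠ 0: y has odd order and unique square root or y = 1
  have hreg : ∀ y : G, (χ : G → ℂ) y ≠ 0 → ∀ p : ℕ, p.Prime → p ∣ orderOf y →
      p ≠ 2 ∧ ∀ g : G, orderOf g ≠ 2 * p := by
    intro y hy p hpp hpy
    by_contra hcon
    apply hy
    refine vanish χ p hpp (hodd2 p hpp ?_) y hpy
    by_contra hc
    push Not at hc
    exact hcon ⟨hc.1, hc.2⟩
  have hodd : ∀ y : G, (χ : G → ℂ) y ≠ 0 → Odd (orderOf y) := by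
    intro y hy
    rw [← Nat.not_even_iff_odd]
    intro he
    exact (hreg y hy 2 Nat.prime_two he.two_dvd).1 rfl
  have hsq : ∀ g : G, g * g ≠ 1 → (χ : G → ℂ) (g * g) ≠ 0 → Odd (orderOf g) := by
    intro g hg1 hg
    rw [← Nat.not_even_iff_odd]
    intro he
    obtain ⟨k, hk⟩ := he.two_dvd
    have hk0 : 0 < orderOf g := orderOf_pos g
    have h1 : orderOf (g * g) = k := by
      rw [← pow_two, orderOf_pow' g (by norm_num), hk]
      rw [Nat.gcd_eq_right (Dvd.intro k rfl)]
      omega
    have hk1 : k ≠ 1 := by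
      intro h
      rw [h, orderOf_eq_one_iff] at h1
      exact hg1 h1
    obtain ⟨p, hpp, hpk⟩ := Nat.exists_prime_and_dvd hk1
    obtain ⟨j, hj⟩ := hpk
    have h3 := (hreg (g * g) hg p hpp (by rw [h1, hj]; exact Dvd.intro j rfl)).2 (g ^ j)
    apply h3
    have hj0 : j ≠ 0 := by
      intro h
      rw [h, mul_zero] at hj
      omega
    rw [orderOf_pow' g hj0, hk, hj]
    rw [Nat.gcd_eq_right (by exact ⟨2 * p, by ring⟩)]
    have : 2 * (p * j) = (2 * p) * j := by ring
    rw [this, Nat.mul_div_cancel _ (Nat.pos_of_ne_zero hj0)]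
  -- computation of the sum
  have hmain : ∑ g : G, (χ : G → ℂ) (g * g) = (T.card : ℂ) * d - d := by
    have h1 : ∑ g : G, (χ : G → ℂ) (g * g) =
        ∑ g ∈ T, (χ : G → ℂ) (g * g) + ∑ g ∈ Finset.univ.filter (fun g : G => ¬ g * g = 1), (χ : G → ℂ) (g * g) :=
      (Finset.sum_filter_add_sum_filter_not _ _ _).symm
    have h2' : ∑ g ∈ T, (χ : G → ℂ) (g * g) = (T.card : ℂ) * d := by
      rw [Finset.sum_congr rfl (g := fun _ => (d : ℂ)), Finset.sum_const, nsmul_eq_mul]
      intro g hg
      rw [(Finset.mem_filter.1 hg).2, hd1]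
    have h3 : ∑ g ∈ Finset.univ.filter (fun g : G => ¬ g * g = 1), (χ : G → ℂ) (g * g) =
        ∑ y ∈ Finset.univ.filter (fun y : G => ¬ y = 1), (χ : G → ℂ) y := by
      rw [← Finset.sum_filter_ne_zero, ← Finset.sum_filter_ne_zero
        (s := Finset.univ.filter (fun y : G => ¬ y = 1))]
      refine Finset.sum_nbij' (fun g => g * g) (fun y => y ^ ((orderOf y + 1) / 2)) ?_ ?_ ?_ ?_ ?_
      · intro g hg
        simp only [Finset.mem_filter, Finset.mem_univ, true_and] at hg ⊢
        exact ⟨hg.1, hg.2⟩
      · intro y hy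
        simp only [Finset.mem_filter, Finset.mem_univ, true_and] at hy ⊢
        obtain ⟨k, hk⟩ := hodd y hy.2
        have h5 : y ^ ((orderOf y + 1) / 2) * y ^ ((orderOf y + 1) / 2) = y := by
          rw [← pow_add]
          have : (orderOf y + 1) / 2 + (orderOf y + 1) / 2 = orderOf y + 1 := by omega
          rw [this, pow_succ, pow_orderOf_eq_one, one_mul]
        rw [h5]
        exact hy
      · intro g hg
        simp only [Finset.mem_filter, Finset.mem_univ, true_and] at hg ⊢
        obtain ⟨k, hk⟩ := hsq g hg.1 hg.2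
        have h6 : orderOf (g * g) = orderOf g := by
          rw [← pow_two]
          exact Nat.Coprime.orderOf_pow (by
            rw [hk]
            simp)
        rw [h6, ← pow_two, ← pow_mul]
        have : 2 * ((orderOf g + 1) / 2) = orderOf g + 1 := by omega
        rw [this, pow_succ, pow_orderOf_eq_one, one_mul]
      · intro y hy
        simp only [Finset.mem_filter, Finset.mem_univ, true_and] at hy ⊢
        obtain ⟨k, hk⟩ := hodd y hy.2
        rw [← pow_add]
        have : (orderOf y + 1) / 2 + (orderOf y + 1) / 2 = orderOf y + 1 := by omega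
        rw [this, pow_succ, pow_orderOf_eq_one, one_mul]
      · intro g hg
        rfl
    have h4 : ∑ y ∈ Finset.univ.filter (fun y : G => ¬ y = 1), (χ : G → ℂ) y = - (d : ℂ) := by
      have h5 := Finset.sum_filter_add_sum_filter_not (Finset.univ : Finset G) (fun y => y = 1)
        (fun y => (χ : G → ℂ) y)
      rw [hsum] at h5
      have h6 : ∑ y ∈ Finset.univ.filter (fun y : G => y = 1), (χ : G → ℂ) y = (d : ℂ) := by
        rw [Finset.filter_eq' Finset.univ (1 : G), if_pos (Finset.mem_univ _), Finset.sum_singleton, hd1]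
      rw [h6] at h5
      linear_combination h5
    rw [h1, h2', h3, h4]
    ring
  -- the number of involutions is positive
  obtain ⟨s₀, hs₀⟩ := exists_prime_orderOf_dvd_card' 2 hG2
  have hmemT : ∀ s : G, orderOf s = 2 → s ∈ T := by
    intro s hs
    rw [hT, Finset.mem_filter]
    refine ⟨Finset.mem_univ _, ?_⟩
    rw [← pow_two, ← hs, pow_orderOf_eq_one]
  have hTcard : 2 ≤ T.card := by
    have h1 : ({1, s₀} : Finset G) ⊆ T := by
      intro z hz
      rcases Finset.mem_insert.1 hz with h | h
      · rw [h, hT, Finset.mem_filter]; exact ⟨Finset.mem_univ _, by rw [mul_one]⟩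
      · rw [Finset.mem_singleton.1 h]; exact hmemT s₀ hs₀
    have h2' : (1 : G) ≠ s₀ := by
      rintro h
      rw [← h, orderOf_one] at hs₀
      omega
    have := Finset.card_le_card h1
    rwa [Finset.card_pair h2'] at this
  have hGpos : 0 < Nat.card G := Nat.card_pos
  -- the indicator is one
  have hfs : FrobSchur.fsInd (χ : G → ℂ) = 1 := by
    have h := (FrobSchur.fsInd_trichotomy χ.2).1
    have hval : FrobSchur.fsInd (χ : G → ℂ) = (((Nat.card G : ℝ)⁻¹ * (((T.card : ℝ) - 1) * d) : ℝ) : ℂ) := by
      unfold FrobSchur.fsInd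
      rw [hmain]
      push_cast
      ring
    have hpos : 0 < ((Nat.card G : ℝ)⁻¹ * (((T.card : ℝ) - 1) * d) : ℝ) := by
      have h1 : (0 : ℝ) < Nat.card G := by exact_mod_cast hGpos
      have h2' : (2 : ℝ) ≤ T.card := by exact_mod_cast hTcard
      have h3 : (0 : ℝ) < d := by exact_mod_cast hdpos
      have h4 : (0 : ℝ) < (T.card : ℝ) - 1 := by linarith
      positivity
    rcases h with h | h | h
    · rw [hval] at h
      have : ((Nat.card G : ℝ)⁻¹ * (((T.card : ℝ) - 1) * d) : ℝ) = 0 := by exact_mod_cast h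
      linarith
    · exact h
    · rw [hval] at h
      have : ((Nat.card G : ℝ)⁻¹ * (((T.card : ℝ) - 1) * d) : ℝ) = -1 := by exact_mod_cast h
      linarith
  have hcount : (T.card - 1) * d = Nat.card G := by
    have h1 : (Nat.card G : ℂ)⁻¹ * ((T.card : ℂ) * d - d) = 1 := by
      rw [← hmain]; exact hfs
    have h0 : (Nat.card G : ℂ) ≠ 0 := Nat.cast_ne_zero.2 hGpos.ne'
    have h3 : (T.card : ℂ) * d - d = Nat.card G := by
      field_simp at h1
      linear_combination h1
    have h4 : (((T.card - 1 : ℕ) : ℂ)) * d = Nat.card G := by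
      rw [Nat.cast_sub (by omega)]
      push_cast
      linear_combination h3
    exact_mod_cast h4
  -- centralizers of involutions
  have hcd : ∀ s : G, orderOf s = 2 → Nat.card (Subgroup.centralizer ({s} : Set G)) ∣ d ∧
      ∀ p : ℕ, p.Prime → p ∣ Nat.card (Subgroup.centralizer ({s} : Set G)) →
        p ^ (Nat.card G).factorization p ∣ d := by
    intro s hs
    have hpp : ∀ p : ℕ, p.Prime → p ∣ Nat.card (Subgroup.centralizer ({s} : Set G)) →
        p ^ (Nat.card G).factorization p ∣ d := by
      intro p hpp hpd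
      apply hodd2 p hpp
      by_cases h' : p = 2
      · exact Or.inl h'
      right
      have := Fact.mk hpp
      obtain ⟨y, hy⟩ := exists_prime_orderOf_dvd_card' p hpd
      refine ⟨s * y, ?_⟩
      have hc : Commute s (y : G) := (Subgroup.mem_centralizer_singleton_iff.1 y.2).symm
      have hyo : orderOf (y : G) = p := by rw [Subgroup.orderOf_coe, hy]
      rw [hc.orderOf_mul_eq_mul_orderOf_of_coprime (by
        rw [hs, hyo]
        exact (Nat.coprime_primes Nat.prime_two hpp).2 (Ne.symm h')), hs, hyo]
    refine ⟨?_, hpp⟩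
    rw [← Nat.factorization_le_iff_dvd Nat.card_pos.ne' hdpos.ne', Finsupp.le_def]
    intro p
    by_cases hprime : p.Prime
    · by_cases hdv : p ∣ Nat.card (Subgroup.centralizer ({s} : Set G))
      · have h1 : (Nat.card (Subgroup.centralizer ({s} : Set G))).factorization p ≤
            (Nat.card G).factorization p :=
          (Nat.factorization_le_iff_dvd Nat.card_pos.ne' hGpos.ne').2 (Subgroup.card_subgroup_dvd_card _) p
        exact h1.trans ((hprime.pow_dvd_iff_le_factorization hdpos.ne').1 (hpp p hprime hdv))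
      · rw [Nat.factorization_eq_zero_of_not_dvd hdv]
        exact Nat.zero_le _
    · rw [Nat.factorization_eq_zero_of_not_prime _ hprime]
      exact Nat.zero_le _
  -- classes of involutions
  have hcls : ∀ s : G, orderOf s = 2 →
      Finset.univ.filter (fun x => IsConj s x) = T.erase 1 ∧
      Nat.card (Subgroup.centralizer ({s} : Set G)) = d := by
    intro s hs
    have hsub : Finset.univ.filter (fun x => IsConj s x) ⊆ T.erase 1 := by
      intro x hx
      have hx1 : IsConj s x := (Finset.mem_filter.1 hx).2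
      have hxo : orderOf x = 2 := by
        obtain ⟨c, hc⟩ := isConj_iff.1 hx1
        rw [← hc, ← hs]
        exact orderOf_injective (MulAut.conj c).toMonoidHom (MulAut.conj c).injective s
      refine Finset.mem_erase.2 ⟨?_, hmemT x hxo⟩
      rintro rfl
      rw [orderOf_one] at hxo
      omega
    have h1T : (1 : G) ∈ T := by
      rw [hT, Finset.mem_filter]; exact ⟨Finset.mem_univ _, by rw [mul_one]⟩
    have hcard := card_isConj_mul_card_centralizer s
    have hcard' : Nat.card {x : G // IsConj s x} = (Finset.univ.filter (fun x => IsConj s x)).card := by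
      rw [Nat.card_eq_fintype_card, Fintype.card_subtype]
    rw [hcard'] at hcard
    have hle : (Finset.univ.filter (fun x => IsConj s x)).card ≤ T.card - 1 := by
      have := Finset.card_le_card hsub
      rwa [Finset.card_erase_of_mem h1T] at this
    have hcle : Nat.card (Subgroup.centralizer ({s} : Set G)) ≤ d := Nat.le_of_dvd hdpos (hcd s hs).1
    have hge : T.card - 1 ≤ (Finset.univ.filter (fun x => IsConj s x)).card := by
      by_contra hlt
      push Not at hlt
      have h5 : (Finset.univ.filter (fun x => IsConj s x)).card *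
          Nat.card (Subgroup.centralizer ({s} : Set G)) < (T.card - 1) * d :=
        lt_of_le_of_lt (Nat.mul_le_mul_left _ hcle) (Nat.mul_lt_mul_of_pos_right hlt hdpos)
      rw [hcard, hcount] at h5
      exact lt_irrefl _ h5
    have heq : (Finset.univ.filter (fun x => IsConj s x)).card = T.card - 1 := le_antisymm hle hge
    refine ⟨Finset.eq_of_subset_of_card_le hsub (by rw [Finset.card_erase_of_mem h1T]; exact hge), ?_⟩
    rw [heq, ← hcount] at hcard
    exact Nat.eq_of_mul_eq_mul_left (by omega) hcard
  refine ⟨?_, ?_, hfs⟩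
  · intro s t hs ht
    have h1 : t ∈ T.erase 1 := by
      refine Finset.mem_erase.2 ⟨?_, hmemT t ht⟩
      rintro rfl
      rw [orderOf_one] at ht
      omega
    rw [← (hcls s hs).1] at h1
    exact (Finset.mem_filter.1 h1).2
  · intro s hs
    refine ⟨(hcls s hs).2, ?_⟩
    by_contra hnc
    obtain ⟨p, hpp, hp1, hp2⟩ := Nat.Prime.not_coprime_iff_dvd.1 hnc
    have h1 := (hcd s hs).2 p hpp hp1
    rw [← (hcls s hs).2] at h1
    have h3 : p ^ ((Nat.card G).factorization p + 1) ∣ Nat.card G := by
      rw [← Subgroup.card_mul_index (Subgroup.centralizer ({s} : Set G)), pow_succ]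
      exact mul_dvd_mul (by rw [Subgroup.card_mul_index]; exact h1) hp2
    exact Nat.pow_succ_factorization_not_dvd hGpos.ne' hpp h3

end Cfsg.Agent.S4478
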