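import Cfsg.Statements.S4483
import Mathlib
import Cfsg.Agent.Lib.Contrib2

set_option autoImplicit false
open Cfsg

namespace Cfsg.Agent.S4483
open Cfsg Cfsg.Agent.Lib.BlockRing Cfsg.Agent.Lib.BlockGA Cfsg.Agent.Lib.BlockIdem Cfsg.Agent.Lib.BlockPair


/-- Let G be a finite group of order 2^n·g₀ with g₀ odd, and M a maximal ideal of the algebraic integers containing 2. Every real-valued irreducible character of G of odd degree lies in the principal 2-block; consequently G has at most 2^(2n) real-valued irreducible characters of odd degree. -/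
theorem result {G : Type*} [Group G] [Finite G] (M : Ideal Cfsg.AlgInt) (hM : Cfsg.IsPModular 2 M) : (∀ χ : Cfsg.IrrCharacter G, (∀ g : G, ((χ : G → ℂ) g).im = 0) → Odd (Cfsg.charDegree (χ : G → ℂ)) → χ ∈ Cfsg.principalBlock M G) ∧ Nat.card {χ : Cfsg.IrrCharacter G // (∀ g : G, ((χ : G → ℂ) g).im = 0) ∧ Odd (Cfsg.charDegree (χ : G → ℂ))} ≤ 2 ^ (2 * (Nat.card G).factorization 2) := by
  classical
  have hMp := isPrime hM
  have := Fintype.ofFinite G
  have key : ∀ χ : Cfsg.IrrCharacter G, (∀ g : G, ((χ : G → ℂ) g).im = 0) → Odd (Cfsg.charDegree (χ : G → ℂ)) →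
      χ ∈ Cfsg.principalBlock M G := by
    intro χ hreal hodd
    by_contra hno
    let t : IrrCharacter G := ⟨fun _ => 1, Lib.CharBasic.isIrrCharacter_fun_one⟩
    have h1 : ¬ SameBlock M (χ : G → ℂ) (t : G → ℂ) := fun h => hno (sameBlock_symm h)
    have h2 := pair_eq_zero hM χ t h1
    rw [pair_def] at h2
    have hinv : ∀ g, (χ : G → ℂ) g⁻¹ = (χ : G → ℂ) g := by
      intro g
      rw [χ.2.inv, Complex.conj_eq_iff_im]
      exact hreal g
    have h3 := Lib.Contrib2.sum_sub_one_idl (M := M) hM (f := preg 2 (χ : G → ℂ))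
      (fun g => by simp only [preg, orderOf_inv, hinv])
      (fun g hg => by simp only [preg, if_pos hg])
      (fun g => by
        simp only [preg]
        split_ifs
        · exact loc_zero
        · exact loc_irr χ g)
    have h4 : ∑ g : G, preg 2 (χ : G → ℂ) g = 0 := by
      rw [← h2]
      refine Finset.sum_congr rfl fun g _ => ?_
      simp only [preg]
      split_ifs
      · rfl
      · show _ = (χ : G → ℂ) g * 1
        rw [mul_one]
    rw [h4, zero_sub, idl_neg_iff] at h3
    have h5 : preg 2 (χ : G → ℂ) 1 = (charDegree (χ : G → ℂ) : ℂ) := by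
      simp only [preg, orderOf_one]
      rw [if_neg (by norm_num), (Lib.BlockDefect.charDegree_spec χ.2).1]
    rw [h5, idl_natCast_iff hM] at h3
    rw [← Nat.not_even_iff_odd] at hodd
    exact hodd (even_iff_two_dvd.2 h3)
  refine ⟨key, ?_⟩
  have hle : Nat.card {χ : Cfsg.IrrCharacter G // (∀ g : G, ((χ : G → ℂ) g).im = 0) ∧ Odd (Cfsg.charDegree (χ : G → ℂ))} ≤
      Nat.card (Cfsg.principalBlock M G) := by
    let f : {χ : Cfsg.IrrCharacter G // (∀ g : G, ((χ : G → ℂ) g).im = 0) ∧ Odd (Cfsg.charDegree (χ : G → ℂ))} →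
        {χ : Cfsg.IrrCharacter G // χ ∈ Cfsg.principalBlock M G} :=
      fun χ => ⟨χ.1, key χ.1 χ.2.1 χ.2.2⟩
    have hf : Function.Injective f := by
      intro a b h
      have h' : (f a).1 = (f b).1 := by rw [h]
      exact Subtype.ext h'
    exact Nat.card_le_card_of_injective f hf
  refine hle.trans ?_
  have h1 := Lib.Contrib.brauer_feit hM (Lib.Contrib2.isPBlock_principal (M := M) (G := G))
  rw [Lib.Contrib2.blockDefect_principal hM] at h1
  rcases Nat.eq_zero_or_pos ((Nat.card G).factorization 2) with h0 | h0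
  · rw [h0] at h1 ⊢
    simp only [mul_zero, pow_zero] at h1 ⊢
    omega
  · have h2 : 2 ^ 2 ≤ 2 ^ (2 * (Nat.card G).factorization 2) := Nat.pow_le_pow_right (by norm_num) (by omega)
    omega

end Cfsg.Agent.S4483
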