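import Cfsg.Statements.S4487
import Cfsg.Agent.Lib.BlockDefect
import Cfsg.Agent.Lib.BlockNormP
import Cfsg.Agent.Lib.Cores

set_option autoImplicit false
open Cfsg

namespace Cfsg.Agent.S4487

/-- Let G be a finite group and p a prime such that G has no non-trivial normal subgroup of order prime to p and C_G(O_p(G)) ≤ O_p(G). Then G has a single p-block: any two irreducible characters lie in the same block relative to every maximal ideal M of the algebraic integers containing p. -/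
theorem result {G : Type*} [Group G] [Finite G] (p : ℕ) [Fact p.Prime] (M : Ideal Cfsg.AlgInt) (hM : Cfsg.IsPModular p M) (hcore : Cfsg.pPrimeCore p G = ⊥) (hconstr : Subgroup.centralizer ((Cfsg.pCore p G) : Set G) ≤ Cfsg.pCore p G) (χ ψ : Cfsg.IrrCharacter G) : Cfsg.SameBlock M (χ : G → ℂ) (ψ : G → ℂ) := by
  classical
  haveI := Cfsg.Agent.Lib.BlockRing.isPrime hM
  have := Fintype.ofFinite (ConjClasses G)
  have hp := hM.1
  have hPp : IsPGroup p (Cfsg.pCore p G) := Cfsg.Agent.Lib.Cores.isPGroup_pCore p G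
  -- the central characters vanish modulo `M` at the `p`-regular elements different from `1`
  have key : ∀ (χ : Cfsg.IrrCharacter G) (g : G), ¬ p ∣ orderOf g → g ≠ 1 →
      Cfsg.MemLocalIdeal M (Cfsg.centralChar (χ : G → ℂ) g) := by
    intro χ g hg hg1
    by_contra hcon
    have hB := Cfsg.Agent.Lib.BlockIdem.isPBlock_blockOf (M := M) χ
    obtain ⟨D, hD⟩ := Cfsg.Agent.Lib.BlockDefect.exists_defectGroup hM hB
    obtain ⟨Q, hQ⟩ := Cfsg.Agent.Lib.BlockDefect.sylIn_exists (p := p)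
      (Subgroup.centralizer ({g} : Set G))
    obtain ⟨x, hx⟩ := Cfsg.Agent.Lib.BlockDefect.minmax_omega hM hB hD
      ⟨χ, Cfsg.Agent.Lib.BlockIdem.mem_blockOf_self χ, hcon⟩ hQ
    have h1 : Cfsg.pCore p G ≤ D := Cfsg.Agent.Lib.BlockNormP.le_defectGroup hM hPp hB hD
    have h2 : g ∈ Subgroup.centralizer ((Cfsg.pCore p G) : Set G) := by
      rw [Subgroup.mem_centralizer_iff]
      intro u hu
      have hn : (Cfsg.pCore p G).Normal := inferInstance
      have hu' : x * u * x⁻¹ ∈ Cfsg.pCore p G := hn.conj_mem u hu x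
      have h3 := hx (h1 hu')
      rw [Cfsg.Agent.Lib.BlockDefect.mem_map_conj] at h3
      have h4 : x⁻¹ * (x * u * x⁻¹) * x = u := by group
      rw [h4] at h3
      have h5 := Cfsg.Agent.Lib.BlockDefect.sylIn_le hQ h3
      rw [Subgroup.mem_centralizer_singleton_iff] at h5
      exact h5
    exact hg (Cfsg.Agent.Lib.BlockNormP.dvd_orderOf_of_isPGroup hp hPp (hconstr h2) hg1)
  by_contra hcon
  have hB := Cfsg.Agent.Lib.BlockIdem.isPBlock_blockOf (M := M) χ
  have hmain : ∀ θ : Cfsg.IrrCharacter G, Cfsg.MemLocalIdeal M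
      (Cfsg.Agent.Lib.BlockGA.omega (θ : G → ℂ) (Cfsg.Agent.Lib.BlockGA.eB (Cfsg.blockOf M (χ : G → ℂ)))
        - Cfsg.blockCoeff (Cfsg.blockOf M (χ : G → ℂ)) 1) := by
    intro θ
    rw [Cfsg.Agent.Lib.BlockGA.omega_eq_sum θ.2.isClassFunction (Cfsg.Agent.Lib.BlockGA.eB_mem_center _)]
    rw [← Finset.add_sum_erase _ _ (Finset.mem_univ (ConjClasses.mk (1 : G)))]
    have h1 : (Quotient.out (ConjClasses.mk (1 : G)) : G) = 1 := by
      have h2 : IsConj (Quotient.out (ConjClasses.mk (1 : G))) (1 : G) := by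
        rw [← ConjClasses.mk_eq_mk_iff_isConj]
        exact Quotient.out_eq (ConjClasses.mk (1 : G))
      obtain ⟨c, hc⟩ := isConj_iff.1 h2.symm
      rw [← hc]; group
    have h2 : (Cfsg.Agent.Lib.BlockGA.eB (Cfsg.blockOf M (χ : G → ℂ))).coeff
        (Quotient.out (ConjClasses.mk (1 : G))) *
        Cfsg.centralChar (θ : G → ℂ) (Quotient.out (ConjClasses.mk (1 : G))) =
        Cfsg.blockCoeff (Cfsg.blockOf M (χ : G → ℂ)) 1 := by
      rw [h1, Cfsg.Agent.Lib.BlockGA.coeff_eB, Cfsg.centralChar]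
      have h3 : (Subgroup.centralizer ({(1 : G)} : Set G)) = ⊤ := by
        ext y; simp [Subgroup.mem_centralizer_singleton_iff]
      rw [h3, Subgroup.index_top]
      have := θ.2.one_ne_zero
      field_simp
      simp
    rw [h2, add_sub_cancel_left]
    refine Cfsg.Agent.Lib.BlockRing.idl_sum fun C hC => ?_
    have hC1 : (Quotient.out C : G) ≠ 1 := by
      intro h
      apply Finset.ne_of_mem_erase hC
      have h3 : ConjClasses.mk (Quotient.out C : G) = C := Quotient.out_eq C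
      rw [← h3, h]
    by_cases hreg : p ∣ orderOf (Quotient.out C : G)
    · rw [Cfsg.Agent.Lib.BlockGA.coeff_eB, Cfsg.Agent.Lib.BlockOsima.blockCoeff_eq_zero hM hB hreg, zero_mul]
      exact Cfsg.Agent.Lib.BlockRing.idl_zero
    · exact Cfsg.Agent.Lib.BlockRing.idl_mul_left (Cfsg.Agent.Lib.BlockIdem.loc_blockCoeff hB _) (key θ _ hreg hC1)
  have h1 := hmain χ
  have h2 := hmain ψ
  rw [Cfsg.Agent.Lib.BlockGA.omega_eB_mem (Cfsg.Agent.Lib.BlockIdem.mem_blockOf_self χ)] at h1
  rw [Cfsg.Agent.Lib.BlockGA.omega_eB_not_mem (show ψ ∉ Cfsg.blockOf M (χ : G → ℂ) from hcon)] at h2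
  have h3 := Cfsg.Agent.Lib.BlockRing.idl_sub h1 h2
  apply Cfsg.Agent.Lib.BlockRing.one_not_idl (M := M)
  convert h3 using 1
  ring

end Cfsg.Agent.S4487
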