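import Cfsg.Statements.S4494
import Cfsg.Agent.Lib.Contrib

set_option autoImplicit false
open Cfsg

namespace Cfsg.Agent.S4494

/-- The Brauer–Feit bound. Let B be a p-block of the finite group G (relative to a maximal ideal M of the algebraic integers containing p) and let d be its defect. Then the number k(B) of irreducible characters in B satisfies k(B) ≤ p^(2d)/4 + 1, stated here as 4·k(B) ≤ p^(2d) + 4. -/
theorem result {G : Type*} [Group G] [Finite G] (p : ℕ) [Fact p.Prime] (M : Ideal Cfsg.AlgInt) (hM : Cfsg.IsPModular p M) (B : Set (Cfsg.IrrCharacter G)) (hB : Cfsg.IsPBlock M B) : 4 * Nat.card B ≤ p ^ (2 * Cfsg.blockDefect p B) + 4 := by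
  exact Cfsg.Agent.Lib.Contrib.brauer_feit hM hB

end Cfsg.Agent.S4494
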