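import Cfsg.Statements.S4495
import Cfsg.Agent.Lib.SelfCentPrime

set_option autoImplicit false
open Cfsg

namespace Cfsg.Agent.S4495

/-- Let the finite group G contain an element x of prime order p with C_G(x) = ⟨x⟩, and let t be the number of conjugacy classes of elements of order p. If t ≠ p − 1 then the commutator subgroup has index at most (p − 1)/t; if t = p − 1 it has index exactly p. -/
theorem result {G : Type*} [Group G] [Finite G] (p : ℕ) (hp : p.Prime) (x : G) (hx : orderOf x = p) (hC : Subgroup.centralizer ({x} : Set G) = Subgroup.zpowers x) (t : ℕ) (ht : Nat.card {C : ConjClasses G // ∃ g ∈ C.carrier, orderOf g = p} = t) : (t ≠ p - 1 → (commutator G).index * t ≤ p - 1) ∧ (t = p - 1 → (commutator G).index = p) := by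
  have h : Lib.SelfCentPrime.H p x := ⟨hp, hx, hC⟩
  have h1 := h.card_classes
  rw [ht] at h1
  refine ⟨fun hne => ?_, fun he => h.commutator_index ((h.eq_iff ht).1 he)⟩
  have he := fun e => hne ((h.eq_iff ht).2 e)
  have h2 := h.mem_commutator he
  have h3 := h.index_dvd (S := commutator G) inferInstance (h.dvd_card h2)
  have hpos : 0 < (Subgroup.zpowers x).relIndex (Subgroup.normalizer (Subgroup.zpowers x : Set G)) := by
    rcases Nat.eq_zero_or_pos ((Subgroup.zpowers x).relIndex (Subgroup.normalizer (Subgroup.zpowers x : Set G))) with h0 | h0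
    · exfalso
      rw [h0, mul_zero] at h1
      have := Nat.sub_pos_of_lt hp.one_lt
      omega
    · exact h0
  have h4 := Nat.le_of_dvd hpos h3
  calc (commutator G).index * t ≤ (Subgroup.zpowers x).relIndex (Subgroup.normalizer (Subgroup.zpowers x : Set G)) * t :=
        Nat.mul_le_mul_right t h4
    _ = p - 1 := by rw [mul_comm]; exact h1

end Cfsg.Agent.S4495
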