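import Cfsg.Statements.S4497
import Cfsg.Agent.Lib.SelfCentPrime

set_option autoImplicit false
open Cfsg

namespace Cfsg.Agent.S4497

/-- Let the finite group G contain an element x of prime order p with C_G(x) = ⟨x⟩, let t be the number of conjugacy classes of elements of order p, and let S* = O_{p′}(G) be the largest normal subgroup of order prime to p. Then S* ≤ G′; if t ≠ p − 1 the quotient G′/S* is simple (in particular non-trivial); if t = p − 1 then G′ = S*. -/
theorem result {G : Type*} [Group G] [Finite G] (p : ℕ) (hp : p.Prime) (x : G) (hx : orderOf x = p) (hC : Subgroup.centralizer ({x} : Set G) = Subgroup.zpowers x) (t : ℕ) (ht : Nat.card {C : ConjClasses G // ∃ g ∈ C.carrier, orderOf g = p} = t) : Cfsg.pPrimeCore p G ≤ commutator G ∧ (t ≠ p - 1 → ∀ h : ((Cfsg.pPrimeCore p G).subgroupOf (commutator G)).Normal, IsSimpleGroup (↥(commutator G) ⧸ (Cfsg.pPrimeCore p G).subgroupOf (commutator G))) ∧ (t = p - 1 → commutator G = Cfsg.pPrimeCore p G) := by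
  have h : Lib.SelfCentPrime.H p x := ⟨hp, hx, hC⟩
  haveI := Fact.mk hp
  have hcore : Cfsg.pPrimeCore p G ≤ commutator G := h.le_commutator' inferInstance h.not_dvd_core
  refine ⟨hcore, fun hne hn => ?_, fun he => ?_⟩
  · have he := fun e => hne ((h.eq_iff ht).2 e)
    have hxG' : x ∈ commutator G := h.mem_commutator he
    set D := commutator G with hD
    have hDn : D.Normal := inferInstance
    set K := Cfsg.pPrimeCore p G with hK
    have hKn : K.Normal := inferInstance
    -- nontrivial
    haveI : Nontrivial (↥D ⧸ K.subgroupOf D) := by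
      refine ⟨⟨QuotientGroup.mk ⟨x, hxG'⟩, 1, fun e => ?_⟩⟩
      rw [QuotientGroup.eq_one_iff] at e
      have hxK : x ∈ K := e
      exact h.not_dvd_core (h.dvd_card hxK)
    refine ⟨fun M hM => ?_⟩
    -- the preimage in D
    set L : Subgroup ↥D := M.comap (QuotientGroup.mk' (K.subgroupOf D)) with hL
    have hLn : L.Normal := hM.comap _
    by_cases hd : p ∣ Nat.card L
    · right
      have hxL : ∀ y : ↥D, orderOf y = p → y ∈ L := by
        have hxD : Lib.SelfCentPrime.H p (⟨x, hxG'⟩ : ↥D) := by
          refine ⟨hp, ?_, ?_⟩
          · rw [← Subgroup.orderOf_coe]; exact hx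
          · apply le_antisymm
            · intro u hu
              rw [Subgroup.mem_centralizer_singleton_iff] at hu
              have h1 : (u : G) ∈ Subgroup.zpowers x := h.mem (congrArg Subtype.val hu)
              obtain ⟨k, hk⟩ := Subgroup.mem_zpowers_iff.1 h1
              refine Subgroup.mem_zpowers_iff.2 ⟨k, ?_⟩
              apply Subtype.ext
              rw [← hk]
              simp
            · rw [Subgroup.zpowers_le, Subgroup.mem_centralizer_singleton_iff]
        intro y hy
        exact hxD.mem_of_dvd hLn hd hy
      -- the normal closure of x is contained in L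
      have hcl : Subgroup.normalClosure ({x} : Set G) ≤ L.map D.subtype := by
        rw [Subgroup.normalClosure, Subgroup.closure_le]
        intro y hy
        obtain ⟨a, ha, hay⟩ := Group.mem_conjugatesOfSet_iff.1 hy
        rw [Set.mem_singleton_iff] at ha
        subst ha
        have hyo : orderOf y = p := by
          obtain ⟨c, hc⟩ := isConj_iff.1 hay
          rw [← hc, ← hx]
          exact orderOf_injective (MulAut.conj c).toMonoidHom (MulAut.conj c).injective a
        have hyD : y ∈ D := by
          obtain ⟨c, hc⟩ := isConj_iff.1 hay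
          rw [← hc]
          exact hDn.conj_mem _ hxG' c
        refine ⟨⟨y, hyD⟩, hxL _ ?_, rfl⟩
        rw [← Subgroup.orderOf_coe]; exact hyo
      have h2 : D ≤ L.map D.subtype := by
        refine (h.commutator_le (S := Subgroup.normalClosure ({x} : Set G)) inferInstance ?_).trans hcl
        exact h.dvd_card (Subgroup.subset_normalClosure (Set.mem_singleton x))
      have h3 : L = ⊤ := by
        rw [eq_top_iff]
        intro y _
        obtain ⟨z, hz, hzy⟩ := h2 y.2
        have : z = y := Subtype.ext hzy
        rwa [this] at hz
      have h4 : M = L.map (QuotientGroup.mk' (K.subgroupOf D)) := by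
        rw [hL, Subgroup.map_comap_eq_self_of_surjective (QuotientGroup.mk'_surjective _)]
      rw [h4, h3, ← MonoidHom.range_eq_map, MonoidHom.range_eq_top]
      exact QuotientGroup.mk'_surjective _
    · left
      have h1 : L ≤ Cfsg.pPrimeCore p ↥D := Lib.Cores.le_pPrimeCore hLn
        (((Nat.Prime.coprime_iff_not_dvd hp).2 hd).symm)
      have h2 : L.map D.subtype ≤ K :=
        (Subgroup.map_mono h1).trans (Lib.Cores.map_pPrimeCore_subtype_le p D)
      have h4 : M = L.map (QuotientGroup.mk' (K.subgroupOf D)) := by
        rw [hL, Subgroup.map_comap_eq_self_of_surjective (QuotientGroup.mk'_surjective _)]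
      rw [h4, Subgroup.map_eq_bot_iff, QuotientGroup.ker_mk']
      intro y hy
      exact h2 ⟨y, hy, rfl⟩
  · have he' := (h.eq_iff ht).1 he
    apply le_antisymm _ hcore
    exact Lib.Cores.le_pPrimeCore inferInstance (h.coprime (h.commutator_eq he').1)

end Cfsg.Agent.S4497
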