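import Cfsg.Statements.S4498
import Cfsg.Agent.Lib.BlockOsima
import Cfsg.Agent.Lib.CharBasic2

set_option autoImplicit false
open Cfsg

namespace Cfsg.Agent.S4498

/-- Let p and q be distinct primes dividing the order of the finite group G, and suppose G has no element of order p·q. Fix maximal ideals M_p over p and M_q over q of the algebraic integers. Then the principal p-block and the principal q-block of G have a non-principal irreducible character in common. -/
theorem result {G : Type*} [Group G] [Finite G] (p q : ℕ) [Fact p.Prime] [Fact q.Prime] (hpq : p ≠ q) (hp : p ∣ Nat.card G) (hq : q ∣ Nat.card G) (hno : ∀ g : G, orderOf g ≠ p * q) (Mp Mq : Ideal Cfsg.AlgInt) (hMp : Cfsg.IsPModular p Mp) (hMq : Cfsg.IsPModular q Mq) : ∃ χ : Cfsg.IrrCharacter G, (χ : G → ℂ) ≠ (fun _ => 1) ∧ χ ∈ Cfsg.principalBlock Mp G ∧ χ ∈ Cfsg.principalBlock Mq G := by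
  classical
  have := Fintype.ofFinite G
  haveI := Cfsg.Agent.Lib.BlockRing.isPrime hMp
  haveI := Cfsg.Agent.Lib.BlockRing.isPrime hMq
  set t : Cfsg.IrrCharacter G := ⟨fun _ => 1, Cfsg.Agent.Lib.CharBasic.isIrrCharacter_fun_one⟩ with ht
  have hBp : Cfsg.IsPBlock Mp (Cfsg.principalBlock Mp G) := ⟨t, rfl⟩
  have hBq : Cfsg.IsPBlock Mq (Cfsg.principalBlock Mq G) := ⟨t, rfl⟩
  have htp : t ∈ Cfsg.principalBlock Mp G := Cfsg.Agent.Lib.BlockIdem.mem_blockOf_self t
  have htq : t ∈ Cfsg.principalBlock Mq G := Cfsg.Agent.Lib.BlockIdem.mem_blockOf_self t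
  obtain ⟨x, hx⟩ := exists_prime_orderOf_dvd_card' p hp
  obtain ⟨y, hy⟩ := exists_prime_orderOf_dvd_card' q hq
  by_contra hcon
  push Not at hcon
  set F : G → ℂ := ∑ χ ∈ (Cfsg.principalBlock Mp G).toFinset,
    ((starRingEnd ℂ) ((χ : G → ℂ) x)) • (χ : G → ℂ) with hF
  set H : G → ℂ := ∑ χ ∈ (Cfsg.principalBlock Mq G).toFinset,
    ((starRingEnd ℂ) ((χ : G → ℂ) y)) • (χ : G → ℂ) with hH
  have hF0 : ∀ g, ¬ p ∣ orderOf g → F g = 0 := by
    intro g hg
    have h1 := Cfsg.Agent.Lib.BlockOsima.weak_orthogonality hMp hBp hg (show p ∣ orderOf x by rw [hx])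
    rw [finsum_mem_eq_finite_toFinset_sum _ (Set.toFinite _)] at h1
    rw [hF, Finset.sum_apply, ← h1]
    refine Finset.sum_congr (by ext; simp) fun χ _ => ?_
    rw [Pi.smul_apply, smul_eq_mul, mul_comm]
  have hH0 : ∀ g, ¬ q ∣ orderOf g → H g = 0 := by
    intro g hg
    have h1 := Cfsg.Agent.Lib.BlockOsima.weak_orthogonality hMq hBq hg (show q ∣ orderOf y by rw [hy])
    rw [finsum_mem_eq_finite_toFinset_sum _ (Set.toFinite _)] at h1
    rw [hH, Finset.sum_apply, ← h1]
    refine Finset.sum_congr (by ext; simp) fun χ _ => ?_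
    rw [Pi.smul_apply, smul_eq_mul, mul_comm]
  have hzero : Cfsg.classInner F H = 0 := by
    rw [Cfsg.classInner, Finset.sum_eq_zero, mul_zero]
    intro g _
    by_cases h1 : p ∣ orderOf g
    · by_cases h2 : q ∣ orderOf g
      · exfalso
        have h3 : p * q ∣ orderOf g :=
          Nat.Coprime.mul_dvd_of_dvd_of_dvd ((Nat.coprime_primes Fact.out Fact.out).2 hpq) h1 h2
        obtain ⟨k, hk⟩ := h3
        apply hno (g ^ k)
        have hpos := orderOf_pos g
        have hk0 : k ≠ 0 := by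
          rintro rfl
          rw [mul_zero] at hk
          omega
        rw [orderOf_pow_of_dvd hk0 (by rw [hk]; exact dvd_mul_left _ _), hk]
        exact Nat.mul_div_cancel _ (Nat.pos_of_ne_zero hk0)
      · rw [hH0 g h2, map_zero, mul_zero]
    · rw [hF0 g h1, zero_mul]
  have hone : Cfsg.classInner F H = 1 := by
    rw [hF, Cfsg.Agent.Lib.CharBasic.classInner_sum_left]
    rw [Finset.sum_eq_single_of_mem t (Set.mem_toFinset.2 htp)]
    · rw [Cfsg.Agent.Lib.CharBasic.classInner_smul_left, hH,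
        Cfsg.Agent.Lib.CharBasic.classInner_sum_right, Finset.sum_eq_single_of_mem t (Set.mem_toFinset.2 htq)]
      · rw [Cfsg.Agent.Lib.CharBasic.classInner_smul_right, t.2.classInner_self]
        simp [ht]
      · intro χ _ hχ
        rw [Cfsg.Agent.Lib.CharBasic.classInner_smul_right, Cfsg.Agent.Lib.CharBasic.irr_orthonormal,
          if_neg (Ne.symm hχ), mul_zero]
    · intro χ hχ hχt
      have hχq : χ ∉ Cfsg.principalBlock Mq G := by
        apply hcon χ
        · intro h
          exact hχt (Subtype.ext h)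
        · exact Set.mem_toFinset.1 hχ
      rw [Cfsg.Agent.Lib.CharBasic.classInner_smul_left, hH,
        Cfsg.Agent.Lib.CharBasic.classInner_sum_right, Finset.sum_eq_zero, mul_zero]
      intro ψ hψ
      rw [Cfsg.Agent.Lib.CharBasic.classInner_smul_right, Cfsg.Agent.Lib.CharBasic.irr_orthonormal,
          if_neg, mul_zero]
      rintro rfl
      exact hχq (Set.mem_toFinset.1 hψ)
  rw [hzero] at hone
  exact zero_ne_one hone

end Cfsg.Agent.S4498
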