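import Cfsg.Statements.S4499
import Cfsg.Agent.Lib.Contrib

set_option autoImplicit false
open Cfsg

namespace Cfsg.Agent.S4499

/-- Let G be a finite group whose order has p-part p^a (a ≥ 1), and fix a maximal ideal M of the algebraic integers containing p. If the degree of one irreducible character of a p-block B is divisible by p^(a−1), then the degree of every irreducible character in B is divisible by p^(a−1) (so B has defect at most 1). -/
theorem result {G : Type*} [Group G] [Finite G] (p : ℕ) [Fact p.Prime] (M : Ideal Cfsg.AlgInt) (hM : Cfsg.IsPModular p M) (hpa : p ∣ Nat.card G) (B : Set (Cfsg.IrrCharacter G)) (hB : Cfsg.IsPBlock M B) (χ : Cfsg.IrrCharacter G) (hχ : χ ∈ B) (hdiv : p ^ ((Nat.card G).factorization p - 1) ∣ Cfsg.charDegree (χ : G → ℂ)) (ψ : Cfsg.IrrCharacter G) (hψ : ψ ∈ B) : p ^ ((Nat.card G).factorization p - 1) ∣ Cfsg.charDegree (ψ : G → ℂ) := by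
  open Cfsg.Agent.Lib.BlockRing Cfsg.Agent.Lib.BlockDeg in
  have hp := hM.1
  obtain ⟨χ0, hχ0, h0⟩ := Cfsg.Agent.Lib.BlockDeg.exists_height_zero (p := p) (B := B) ⟨χ, hχ⟩
  have hd1 := Cfsg.Agent.Lib.BlockDeg.blockDefect_add hχ0 h0
  have hmin := (Cfsg.Agent.Lib.BlockDeg.blockHeight_eq_zero_iff hχ0).1 h0
  have hch : (Nat.card G).factorization p - 1 ≤ Cfsg.Agent.Lib.BlockDeg.nuDeg p (χ : G → ℂ) := by
    rw [hp.pow_dvd_iff_le_factorization (Cfsg.Agent.Lib.BlockDeg.charDegree_pos χ.2).ne'] at hdiv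
    exact hdiv
  rw [hp.pow_dvd_iff_le_factorization (Cfsg.Agent.Lib.BlockDeg.charDegree_pos ψ.2).ne']
  have hψ0 := hmin ψ hψ
  have hχ1 := hmin χ hχ
  change (Nat.card G).factorization p - 1 ≤ Cfsg.Agent.Lib.BlockDeg.nuDeg p (ψ : G → ℂ)
  by_cases hh : Cfsg.blockHeight p B (χ : G → ℂ) = 0
  · exact hch.trans ((Cfsg.Agent.Lib.BlockDeg.blockHeight_eq_zero_iff hχ).1 hh ψ hψ)
  · have h1 := Cfsg.Agent.Lib.Contrib.height_le hM hB hχ hh
    have h2 := Cfsg.Agent.Lib.BlockDeg.card_le_blockDefect_add (p := p) hχ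
    have hsInf : sInf ((fun ψ : Cfsg.IrrCharacter G => (Cfsg.charDegree (ψ : G → ℂ)).factorization p) '' B)
        = Cfsg.Agent.Lib.BlockDeg.nuDeg p (χ0 : G → ℂ) := by
      apply le_antisymm
      · exact Nat.sInf_le ⟨χ0, hχ0, rfl⟩
      · obtain ⟨θ, hθ, h1⟩ := Nat.sInf_mem
          (s := (fun χ : Cfsg.IrrCharacter G => (Cfsg.charDegree (χ : G → ℂ)).factorization p) '' B)
          ⟨_, χ, hχ, rfl⟩
        rw [← h1]
        exact hmin θ hθ
    have hht : Cfsg.blockHeight p B (χ : G → ℂ) =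
        Cfsg.Agent.Lib.BlockDeg.nuDeg p (χ : G → ℂ) - Cfsg.Agent.Lib.BlockDeg.nuDeg p (χ0 : G → ℂ) := by
      rw [Cfsg.blockHeight, hsInf]; rfl
    omega

end Cfsg.Agent.S4499
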