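import Cfsg.Statements.S4500
import Cfsg.Agent.Lib.SmCof1

set_option autoImplicit false
open Cfsg

namespace Cfsg.Agent.S4500

/-- Let G be a non-trivial finite group of order p^a · q^b · r^c with p, q, r distinct primes and a ≤ 2. Then G has a non-principal irreducible character whose degree is a power of q, and a non-principal irreducible character whose degree is a power of r; the power may be the zeroth, so a non-principal linear character serves for both. -/
theorem result {G : Type*} [Group G] [Finite G] [Nontrivial G] (p q r a b c : ℕ) (hp : p.Prime) (hq : q.Prime) (hr : r.Prime) (hpq : p ≠ q) (hpr : p ≠ r) (hqr : q ≠ r) (ha : a ≤ 2) (hG : Nat.card G = p ^ a * q ^ b * r ^ c) : (∃ χ : Cfsg.IrrCharacter G, (χ : G → ℂ) ≠ (fun _ => 1) ∧ ∃ k : ℕ, Cfsg.charDegree (χ : G → ℂ) = q ^ k) ∧ ∃ χ : Cfsg.IrrCharacter G, (χ : G → ℂ) ≠ (fun _ => 1) ∧ ∃ k : ℕ, Cfsg.charDegree (χ : G → ℂ) = r ^ k := by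
  refine ⟨Lib.SmCof.s4500_aux p q r a b c hp hq hr hpq hpr ha hG, ?_⟩
  refine Lib.SmCof.s4500_aux p r q a c b hp hr hq hpr hpq ha ?_
  rw [hG]; ring

end Cfsg.Agent.S4500
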