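import Cfsg.Statements.S4509
import Cfsg.Agent.Lib.SelfCentPrime

set_option autoImplicit false
open Cfsg

namespace Cfsg.Agent.S4509

/-- Let the finite group G contain an element x of prime order p with C_G(x) = ⟨x⟩; let t be the number of conjugacy classes of elements of order p and 1 + n·p the number of subgroups of order p. Then G has a normal subgroup of order 1 + n·p if and only if either t = p − 1, or t < p − 1 and G″ ≠ G′. Moreover, if t = p − 1 then G′ has order 1 + n·p and G/G′ is cyclic of order p; and if t < p − 1 and G″ ≠ G′ then G″ has order 1 + n·p and G′ has order p·(1 + n·p). -/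
theorem result {G : Type*} [Group G] [Finite G] (p : ℕ) (hp : p.Prime) (x : G) (hx : orderOf x = p) (hC : Subgroup.centralizer ({x} : Set G) = Subgroup.zpowers x) (t : ℕ) (ht : Nat.card {C : ConjClasses G // ∃ g ∈ C.carrier, orderOf g = p} = t) (n : ℕ) (hn : Nat.card {H : Subgroup G // Nat.card H = p} = 1 + n * p) : ((∃ S : Subgroup G, S.Normal ∧ Nat.card S = 1 + n * p) ↔ (t = p - 1 ∨ (t < p - 1 ∧ derivedSeries G 2 ≠ derivedSeries G 1))) ∧ (t = p - 1 → Nat.card (commutator G) = 1 + n * p ∧ IsCyclic (G ⧸ commutator G) ∧ (commutator G).index = p) ∧ (t < p - 1 → derivedSeries G 2 ≠ derivedSeries G 1 → Nat.card (derivedSeries G 2) = 1 + n * p ∧ Nat.card (commutator G) = p * (1 + n * p)) := by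
  open scoped commutatorElement in
  have h : Lib.SelfCentPrime.H p x := ⟨hp, hx, hC⟩
  haveI := Fact.mk hp
  set N := Subgroup.normalizer (Subgroup.zpowers x : Set G) with hN
  have hidx : N.index = 1 + n * p := by rw [hN, ← h.card_subgroups, hn]
  have hPN : Subgroup.zpowers x ≤ N := Subgroup.le_normalizer
  have hD1 : derivedSeries G 1 = commutator G := derivedSeries_one G
  have hD2 : derivedSeries G 2 = ⁅commutator G, commutator G⁆ := by
    rw [derivedSeries_succ, hD1]
  have hD2n : (derivedSeries G 2).Normal := derivedSeries_normal G 2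
  have hle : derivedSeries G 2 ≤ commutator G := by
    rw [← hD1]; exact derivedSeries_antitone G (by norm_num)
  have hcls := h.card_classes
  rw [ht, ← hN] at hcls
  have hSN : ∀ S : Subgroup G, S.Normal → ¬ p ∣ Nat.card S →
      Nat.card S * Nat.card N = Nat.card ↥(S ⊔ N) := by
    intro S hS hd
    have h4 := Lib.Cores.card_mul_relIndex (le_sup_left : S ≤ S ⊔ N)
    rw [Subgroup.relIndex_sup_left, ← Subgroup.inf_relIndex_right, hN, h.inf_normalizer hS hd,
      Subgroup.relIndex_bot_left] at h4
    exact h4
  -- statement (ii)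
  have hii : t = p - 1 → Nat.card (commutator G) = 1 + n * p ∧ IsCyclic (G ⧸ commutator G) ∧
      (commutator G).index = p := by
    intro he
    have he' := (h.eq_iff ht).1 he
    have h1 := h.commutator_index he'
    have h2 := (h.commutator_eq he').2
    refine ⟨?_, ?_, h1⟩
    · rw [← hidx]
      have h3 := Lib.Cores.card_mul_relIndex hPN
      rw [he', mul_one, h.card] at h3
      have h4 := Subgroup.card_mul_index N
      rw [← h3, ← h2, mul_comm] at h4
      exact (Nat.eq_of_mul_eq_mul_right hp.pos h4).symm
    · exact isCyclic_of_prime_card (p := p) (by rw [← Subgroup.index_eq_card]; exact h1)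
  -- statement (iii)
  have hiii : t < p - 1 → derivedSeries G 2 ≠ derivedSeries G 1 →
      Nat.card (derivedSeries G 2) = 1 + n * p ∧ Nat.card (commutator G) = p * (1 + n * p) := by
    intro hlt hne
    have he := fun e => hlt.ne ((h.eq_iff ht).2 e)
    have hxG' : x ∈ commutator G := h.mem_commutator he
    have hd1 : p ∣ Nat.card (commutator G) := h.dvd_card hxG'
    have hd2 : ¬ p ∣ Nat.card (derivedSeries G 2) := by
      intro hd
      apply hne
      rw [hD1]
      exact le_antisymm hle (h.commutator_le hD2n hd)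
    have hq := h.quotient hD2n hd2
    have hsup : commutator G = derivedSeries G 2 ⊔ Subgroup.zpowers x := by
      apply le_antisymm
      · intro d hd
        have h1 : (QuotientGroup.mk d : G ⧸ derivedSeries G 2) ∈ Subgroup.zpowers (QuotientGroup.mk x : G ⧸ derivedSeries G 2) := by
          apply hq.mem
          have h2 : d * x * d⁻¹ * x⁻¹ ∈ derivedSeries G 2 := by
            rw [hD2]
            exact Subgroup.commutator_mem_commutator hd hxG'
          rw [← QuotientGroup.eq_one_iff] at h2
          simp only [QuotientGroup.mk_mul, QuotientGroup.mk_inv] at h2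
          rw [mul_inv_eq_one, mul_inv_eq_iff_eq_mul] at h2
          exact h2
        obtain ⟨k, hk⟩ := Subgroup.mem_zpowers_iff.1 h1
        rw [← QuotientGroup.mk_zpow, QuotientGroup.eq] at hk
        refine Subgroup.mem_sup_of_normal_left.2 ⟨d * x ^ (-k), ?_, x ^ k, Subgroup.zpow_mem_zpowers x k, by group⟩
        have h3 : d * x ^ (-k) = x ^ k * ((x ^ k)⁻¹ * d) * (x ^ k)⁻¹ := by group
        rw [h3]
        exact hD2n.conj_mem _ hk _
      · exact sup_le hle (Subgroup.zpowers_le.2 hxG')
    have htop : derivedSeries G 2 ⊔ N = ⊤ := by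
      have h1 := h.sup_eq_top (S := commutator G) inferInstance hd1
      rw [← hN, hsup] at h1
      rw [← top_le_iff, ← h1]
      exact sup_le le_sup_right (sup_le le_sup_left (hPN.trans le_sup_right))
    have hc2 : Nat.card (derivedSeries G 2) = 1 + n * p := by
      have h1 := hSN _ hD2n hd2
      rw [htop, Subgroup.card_top, ← Subgroup.card_mul_index N, mul_comm] at h1
      rw [← hidx]
      exact Nat.eq_of_mul_eq_mul_left Nat.card_pos h1
    refine ⟨hc2, ?_⟩
    have hinf : derivedSeries G 2 ⊓ Subgroup.zpowers x = ⊥ := by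
      rw [eq_bot_iff]
      intro u hu
      obtain ⟨hu1, hu2⟩ := Subgroup.mem_inf.1 hu
      exact Subgroup.mem_bot.2 (h.notMem hd2 hu2 hu1)
    have h4 := Lib.Cores.card_mul_relIndex (le_sup_left : derivedSeries G 2 ≤ derivedSeries G 2 ⊔ Subgroup.zpowers x)
    rw [Subgroup.relIndex_sup_left, ← Subgroup.inf_relIndex_right, hinf, Subgroup.relIndex_bot_left, h.card,
      ← hsup, hc2] at h4
    rw [← h4, mul_comm]
  refine ⟨⟨?_, ?_⟩, hii, hiii⟩
  · rintro ⟨S, hS, hSc⟩
    have hd : ¬ p ∣ Nat.card S := by
      rw [hSc]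
      intro hd
      have h1 : p ∣ 1 := by
        rw [Nat.dvd_add_left (Dvd.intro_left n rfl)] at hd
        exact hd
      exact hp.one_lt.ne' (Nat.dvd_one.1 h1)
    by_cases he : t = p - 1
    · exact Or.inl he
    right
    have hpos : 0 < (Subgroup.zpowers x).relIndex N := by
      rcases Nat.eq_zero_or_pos ((Subgroup.zpowers x).relIndex N) with h0 | h0
      · exfalso
        rw [h0, mul_zero] at hcls
        have := Nat.sub_pos_of_lt hp.one_lt
        omega
      · exact h0
    have hlt : t < p - 1 := by
      refine lt_of_le_of_ne ?_ he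
      rw [← hcls]
      exact Nat.le_mul_of_pos_right t hpos
    refine ⟨hlt, fun heq => ?_⟩
    have he' := fun e => hlt.ne ((h.eq_iff ht).2 e)
    have hxG' : x ∈ commutator G := h.mem_commutator he'
    have htop : S ⊔ N = ⊤ := by
      apply Subgroup.eq_top_of_card_eq
      rw [← hSN S hS hd, hSc, ← hidx, mul_comm, Subgroup.card_mul_index]
    set T := (Subgroup.zpowers (QuotientGroup.mk x : G ⧸ S)).comap (QuotientGroup.mk' S) with hT
    have h1 : commutator G ≤ T := by
      rw [_root_.commutator_def, Subgroup.commutator_le]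
      intro g _ k _
      have hg : g ∈ S ⊔ N := by rw [htop]; trivial
      have hk : k ∈ S ⊔ N := by rw [htop]; trivial
      obtain ⟨s, hs, n, hn, rfl⟩ := Subgroup.mem_sup_of_normal_left.1 hg
      obtain ⟨r, hr, m, hm, rfl⟩ := Subgroup.mem_sup_of_normal_left.1 hk
      have h2 := h.commutator_mem hn hm
      rw [hT, Subgroup.mem_comap]
      have h3 : (QuotientGroup.mk' S) ⁅s * n, r * m⁆ = QuotientGroup.mk ⁅n, m⁆ := by
        rw [← QuotientGroup.eq_one_iff] at hs hr
        simp only [commutatorElement_def, QuotientGroup.mk'_apply, QuotientGroup.mk_mul, QuotientGroup.mk_inv]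
        rw [hs, hr, one_mul, one_mul]
      rw [h3]
      obtain ⟨a, ha⟩ := Subgroup.mem_zpowers_iff.1 h2
      rw [← ha, QuotientGroup.mk_zpow]
      exact Subgroup.zpow_mem_zpowers _ a
    have h2 : derivedSeries G 2 ≤ S := by
      rw [hD2, Subgroup.commutator_le]
      intro g hg k hk
      obtain ⟨a, ha⟩ := Subgroup.mem_zpowers_iff.1 (h1 hg)
      obtain ⟨b, hb⟩ := Subgroup.mem_zpowers_iff.1 (h1 hk)
      rw [← QuotientGroup.eq_one_iff]
      simp only [commutatorElement_def, QuotientGroup.mk_mul, QuotientGroup.mk_inv]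
      rw [QuotientGroup.mk'_apply] at ha hb
      rw [← ha, ← hb]
      group
    apply hd
    apply h.dvd_card
    apply h2
    rw [heq, hD1]
    exact hxG'
  · rintro (he | ⟨hlt, hne⟩)
    · exact ⟨commutator G, inferInstance, (hii he).1⟩
    · exact ⟨_, hD2n, (hiii hlt hne).1⟩

end Cfsg.Agent.S4509
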