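import Cfsg.Statements.S4511
import Cfsg.Agent.Lib.BlockCount

set_option autoImplicit false
open Cfsg

namespace Cfsg.Agent.S4511

/-- Brauer's count of the irreducible characters in a block by subsections. Let M be a maximal ideal of the algebraic integers containing the prime p, B a p-block of the finite group G, and X a set of representatives of the conjugacy classes of p-elements of G (elements of p-power order, the identity included: every p-element is conjugate to exactly one member of X). Then the number of irreducible characters in B is the sum, over x ∈ X and over the blocks b of C_G(x) that induce B, of the p-regular rank of b (the number of irreducible Brauer characters of b, here the dimension of the span of the restrictions of the members of b to the p-regular elements of C_G(x)). -/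
theorem result {G : Type*} [Group G] [Finite G] (p : ℕ) (M : Ideal Cfsg.AlgInt) (hM : Cfsg.IsPModular p M)
    (B : Set (Cfsg.IrrCharacter G)) (hB : Cfsg.IsPBlock M B) (X : Finset G)
    (hX : ∀ x ∈ X, ∃ k : ℕ, orderOf x = p ^ k)
    (hXrep : ∀ g : G, (∃ k : ℕ, orderOf g = p ^ k) → ∃! x, x ∈ X ∧ IsConj g x) :
    Nat.card B = ∑ x ∈ X, ∑ᶠ b ∈ {b : Set (Cfsg.IrrCharacter ↥(Subgroup.centralizer ({x} : Set G))) | Cfsg.IsInducedBlock M (Subgroup.centralizer ({x} : Set G)) b B},
      Cfsg.blockRank p b := by
  exact Cfsg.Agent.Lib.BlockCount.card_eq hM hB X hX hXrep

end Cfsg.Agent.S4511
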