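import Cfsg.Statements.S4513
import Cfsg.Agent.Lib.BlockSmall
import Cfsg.Agent.Lib.BlockKlein
import Cfsg.Agent.S0917

set_option autoImplicit false
open Cfsg

namespace Cfsg.Agent.S4513

/-- Blocks of defect one for p = 2. Let M be a maximal ideal of the algebraic integers containing 2, B a 2-block of the finite group G whose defect group is the subgroup generated by an involution x, C = C_G(x), b a block of C inducing B and θ a member of b taking the same value at x as at 1 (there is exactly one). Then B consists of exactly two irreducible characters, which agree on every element of odd order, and they can be labelled χ₁, χ₂ with signs ε₁, ε₂ = ±1, ε₁ε₂ = −1, such that χᵢ(x y) = εᵢ θ(y) for every element y of C of odd order. -/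
theorem result {G : Type*} [Group G] [Finite G] (M : Ideal Cfsg.AlgInt) (hM : Cfsg.IsPModular 2 M) (x : G) (hx : orderOf x = 2)
    (B : Set (Cfsg.IrrCharacter G)) (hB : Cfsg.IsPBlock M B) (hBD : Cfsg.IsDefectGroup 2 M B (Subgroup.zpowers x))
    (b : Set (Cfsg.IrrCharacter ↥(Subgroup.centralizer ({x} : Set G)))) (hb : Cfsg.IsInducedBlock M (Subgroup.centralizer ({x} : Set G)) b B)
    (θ : Cfsg.IrrCharacter ↥(Subgroup.centralizer ({x} : Set G))) (hθ : θ ∈ b)
    (hθx : ∀ z : ↥(Subgroup.centralizer ({x} : Set G)), (z : G) = x → (θ : ↥(Subgroup.centralizer ({x} : Set G)) → ℂ) z = (θ : ↥(Subgroup.centralizer ({x} : Set G)) → ℂ) 1) :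
    Nat.card B = 2 ∧ (∀ χ ∈ B, ∀ ψ ∈ B, ∀ g : G, ¬ 2 ∣ orderOf g → (χ : G → ℂ) g = (ψ : G → ℂ) g) ∧
      ∃ χ₁ ∈ B, ∃ χ₂ ∈ B, χ₁ ≠ χ₂ ∧ ∃ ε₁ ε₂ : ℤ, (ε₁ = 1 ∨ ε₁ = -1) ∧ (ε₂ = 1 ∨ ε₂ = -1) ∧ ε₁ * ε₂ = -1 ∧
        ∀ y : ↥(Subgroup.centralizer ({x} : Set G)), ¬ 2 ∣ orderOf y →
          (χ₁ : G → ℂ) (x * y) = (ε₁ : ℂ) * (θ : ↥(Subgroup.centralizer ({x} : Set G)) → ℂ) y ∧ (χ₂ : G → ℂ) (x * y) = (ε₂ : ℂ) * (θ : ↥(Subgroup.centralizer ({x} : Set G)) → ℂ) y := by
  classical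
  haveI := Cfsg.Agent.Lib.BlockRing.isPrime hM
  haveI : Fact (Nat.Prime 2) := ⟨Nat.prime_two⟩
  have := Fintype.ofFinite G
  have hx1 : x ≠ 1 := by rintro rfl; rw [orderOf_one] at hx; norm_num at hx
  -- the defect of `B` is one
  have hdB : Cfsg.blockDefect 2 B = 1 := by
    have h1 := Cfsg.Agent.Lib.BlockDefect.defectGroup_card hM hB hBD
    rw [Nat.card_zpowers, hx] at h1
    have h2 : 2 ^ 1 = 2 ^ Cfsg.blockDefect 2 B := by rw [← h1]; norm_num
    exact (Nat.pow_right_injective (le_refl 2) h2).symm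
  obtain ⟨hcard, hagree⟩ := Cfsg.Agent.Lib.BlockSmall.defect_one hM hB hdB
  refine ⟨hcard, hagree, ?_⟩
  -- the defect of `b` is one
  have hdb : Cfsg.blockDefect 2 b = 1 := by
    obtain ⟨D, hD⟩ := Cfsg.Agent.Lib.BlockDefect.exists_defectGroup hM hb.1
    obtain ⟨E, hE, hDE⟩ := Cfsg.Agent.S0917.result 2 M hM _ b hb.1 B hB hb D hD
    have h1 := Cfsg.Agent.Lib.BlockDefect.defectGroup_card hM hB hE
    have h2 := Cfsg.Agent.Lib.BlockDefect.defectGroup_card hM hb.1 hD
    have h3 : Nat.card D ≤ Nat.card E := by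
      rw [← Subgroup.card_map_of_injective (Subgroup.centralizer ({x} : Set G)).subtype_injective]
      exact Subgroup.card_le_of_le hDE
    rw [h1, h2, hdB] at h3
    have h4 : Cfsg.blockDefect 2 b ≤ 1 := (Nat.pow_le_pow_iff_right (by norm_num)).1 h3
    -- the central subgroup generated by `x`
    set z : ↥(Subgroup.centralizer ({x} : Set G)) := ⟨x, by
      rw [Subgroup.mem_centralizer_singleton_iff]⟩ with hz
    have hzo : orderOf z = 2 := by rw [← Subgroup.orderOf_coe]; exact hx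
    have hzc : ∀ h : ↥(Subgroup.centralizer ({x} : Set G)), h * z = z * h := by
      intro h
      apply Subtype.ext
      exact Subgroup.mem_centralizer_singleton_iff.1 h.2
    have hn : (Subgroup.zpowers z).Normal := by
      constructor
      rintro _ ⟨n, rfl⟩ h
      have h5 : h * z ^ n * h⁻¹ = z ^ n := by
        rw [((show Commute h z from hzc h).zpow_right n).eq]; group
      simp only
      rw [h5]
      exact Subgroup.zpow_mem_zpowers z n
    have hzp : IsPGroup 2 (Subgroup.zpowers z) := by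
      apply IsPGroup.of_card (n := 1)
      rw [Nat.card_zpowers, hzo]; norm_num
    have h5 : Subgroup.zpowers z ≤ D := Cfsg.Agent.Lib.BlockNormP.le_defectGroup hM hzp hb.1 hD
    have h6 : Nat.card (Subgroup.zpowers z) ≤ Nat.card D := Subgroup.card_le_of_le h5
    rw [Nat.card_zpowers, hzo, h2] at h6
    by_contra hne
    have h7 : Cfsg.blockDefect 2 b = 0 := by omega
    rw [h7] at h6
    norm_num at h6
  obtain ⟨hcardb, hagreeb⟩ := Cfsg.Agent.Lib.BlockSmall.defect_one hM hb.1 hdb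
  -- `b` is the unique block of `C(x)` inducing `B`
  have hxk : orderOf x = 2 ^ 1 := by rw [hx]; norm_num
  have hsum := Cfsg.Agent.Lib.BlockSmall.sum_le hM hB (x := x) ⟨1, hxk⟩ hx1
  have hl := Cfsg.Agent.Lib.BlockSmall.blockRank_pos hM.1 (Cfsg.Agent.Lib.BlockIdem.isPBlock_nonempty hB)
  have hu : ∀ b', Cfsg.IsInducedBlock M (Subgroup.centralizer ({x} : Set G)) b' B → b' = b := by
    intro b' hb'
    by_contra hne
    rw [finsum_mem_eq_finite_toFinset_sum _ (Set.toFinite _)] at hsum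
    have h1 : ∑ c ∈ ({b, b'} : Finset (Set (Cfsg.IrrCharacter ↥(Subgroup.centralizer ({x} : Set G))))),
        Cfsg.blockRank 2 c ≤ ∑ c ∈ (Set.toFinite {b : Set (Cfsg.IrrCharacter ↥(Subgroup.centralizer ({x} : Set G))) |
          Cfsg.IsInducedBlock M (Subgroup.centralizer ({x} : Set G)) b B}).toFinset, Cfsg.blockRank 2 c := by
      apply Finset.sum_le_sum_of_subset
      intro c hc
      rw [Finset.mem_insert, Finset.mem_singleton] at hc
      rw [Set.Finite.mem_toFinset]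
      rcases hc with rfl | rfl
      · exact hb
      · exact hb'
    rw [Finset.sum_pair (Ne.symm hne)] at h1
    have h2 := Cfsg.Agent.Lib.BlockSmall.blockRank_pos hM.1 (Cfsg.Agent.Lib.BlockIdem.isPBlock_nonempty hb.1)
    have h3 := Cfsg.Agent.Lib.BlockSmall.blockRank_pos hM.1 (Cfsg.Agent.Lib.BlockIdem.isPBlock_nonempty hb'.1)
    omega
  -- the two characters
  have hBfin : (Set.toFinite B).toFinset.card = 2 := by
    rw [← hcard, Nat.card_coe_set_eq, Set.ncard_eq_toFinset_card B]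
  obtain ⟨χ₁, χ₂, hne, hBeq⟩ := Finset.card_eq_two.1 hBfin
  have h1B : χ₁ ∈ B := by
    have : χ₁ ∈ (Set.toFinite B).toFinset := by rw [hBeq]; simp
    simpa using this
  have h2B : χ₂ ∈ B := by
    have : χ₂ ∈ (Set.toFinite B).toFinset := by rw [hBeq]; simp
    simpa using this
  have hbfin : (Set.toFinite b).toFinset.card = 2 := by
    rw [← hcardb, Nat.card_coe_set_eq, Set.ncard_eq_toFinset_card b]
  have hθ0 := θ.2.one_ne_zero
  have hord1 : ¬ 2 ∣ orderOf (1 : ↥(Subgroup.centralizer ({x} : Set G))) := by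
    rw [orderOf_one]; norm_num
  -- sections are multiples of `θ`
  have hsec : ∀ χ ∈ B, ∀ y : ↥(Subgroup.centralizer ({x} : Set G)), ¬ 2 ∣ orderOf y →
      (χ : G → ℂ) (x * y) = ((χ : G → ℂ) x / (θ : ↥(Subgroup.centralizer ({x} : Set G)) → ℂ) 1) * (θ : ↥(Subgroup.centralizer ({x} : Set G)) → ℂ) y := by
    intro χ hχ
    have h1 : ∀ y : ↥(Subgroup.centralizer ({x} : Set G)), ¬ 2 ∣ orderOf y →
        (χ : G → ℂ) (x * y) = (∑ ψ ∈ (Set.toFinite b).toFinset,
          @Cfsg.classInner _ _ (Fintype.ofFinite _) (fun c : ↥(Subgroup.centralizer ({x} : Set G)) =>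
            (χ : G → ℂ) (x * (c : G))) (ψ : ↥(Subgroup.centralizer ({x} : Set G)) → ℂ)) * (θ : ↥(Subgroup.centralizer ({x} : Set G)) → ℂ) y := by
      intro y hy
      rw [Cfsg.Agent.Lib.BlockSmall.section_of_unique hM hB hxk hu hb.1 hχ hy, Cfsg.blockPart]
      rw [finsum_mem_eq_finite_toFinset_sum _ (Set.toFinite _), Finset.sum_mul]
      refine Finset.sum_congr rfl fun ψ hψ => ?_
      rw [hagreeb ψ (by simpa using hψ) θ hθ y hy]
    intro y hy
    have h2 := h1 1 hord1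
    rw [Subgroup.coe_one, mul_one] at h2
    rw [h1 y hy, h2, mul_div_assoc, div_self hθ0, mul_one]
  have h1x := hsec χ₁ h1B
  have h2x := hsec χ₂ h2B
  -- orthogonality between `1` and `x`
  have horth := Cfsg.Agent.Lib.BlockOsima.weak_orthogonality hM hB (x := (1 : G)) (y := x)
    (by rw [orderOf_one]; norm_num) (by rw [hx])
  rw [finsum_mem_eq_finite_toFinset_sum _ (Set.toFinite _), hBeq, Finset.sum_pair hne] at horth
  have hdeg : (χ₁ : G → ℂ) 1 = (χ₂ : G → ℂ) 1 := hagree χ₁ h1B χ₂ h2B 1 (by rw [orderOf_one]; norm_num)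
  obtain ⟨a₁, ha₁⟩ := Cfsg.Agent.Lib.BlockKlein.exists_int_of_involution χ₁.2.isCharacter hx
  obtain ⟨a₂, ha₂⟩ := Cfsg.Agent.Lib.BlockKlein.exists_int_of_involution χ₂.2.isCharacter hx
  have hneg : (χ₂ : G → ℂ) x = -(χ₁ : G → ℂ) x := by
    rw [← hdeg, ← mul_add] at horth
    have h3 := (mul_eq_zero.1 horth).resolve_left χ₁.2.one_ne_zero
    rw [ha₁, ha₂] at h3 ⊢
    simp only [map_intCast] at h3
    linear_combination h3
  have hnorm := Cfsg.Agent.Lib.BlockSmall.sum_of_unique hM hB hxk hu hb (y := 1) (y' := 1) hord1 hord1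
  rw [finsum_mem_eq_finite_toFinset_sum _ (Set.toFinite _), finsum_mem_eq_finite_toFinset_sum _ (Set.toFinite _),
    hBeq, Finset.sum_pair hne] at hnorm
  have hθn : ∑ ψ ∈ (Set.toFinite b).toFinset, (ψ : ↥(Subgroup.centralizer ({x} : Set G)) → ℂ) 1 * (starRingEnd ℂ) ((ψ : ↥(Subgroup.centralizer ({x} : Set G)) → ℂ) 1)
      = 2 * ((θ : ↥(Subgroup.centralizer ({x} : Set G)) → ℂ) 1 * (θ : ↥(Subgroup.centralizer ({x} : Set G)) → ℂ) 1) := by
    have h3 : ∀ ψ ∈ (Set.toFinite b).toFinset, (ψ : ↥(Subgroup.centralizer ({x} : Set G)) → ℂ) 1 * (starRingEnd ℂ) ((ψ : ↥(Subgroup.centralizer ({x} : Set G)) → ℂ) 1)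
        = (θ : ↥(Subgroup.centralizer ({x} : Set G)) → ℂ) 1 * (θ : ↥(Subgroup.centralizer ({x} : Set G)) → ℂ) 1 := by
      intro ψ hψ
      rw [hagreeb ψ (by simpa using hψ) θ hθ 1 hord1, ← Cfsg.Agent.Lib.BlockDeg.charDegree_cast_irr θ]
      simp
    rw [Finset.sum_congr rfl h3, Finset.sum_const, hbfin]
    simp
  rw [hθn, Subgroup.coe_one, mul_one, hneg, ha₁] at hnorm
  simp only [map_neg, map_intCast] at hnorm
  have hsq : ((a₁ : ℂ) / (θ : ↥(Subgroup.centralizer ({x} : Set G)) → ℂ) 1) * ((a₁ : ℂ) / (θ : ↥(Subgroup.centralizer ({x} : Set G)) → ℂ) 1) = 1 := by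
    field_simp
    linear_combination hnorm / 2
  have hε : (a₁ : ℂ) / (θ : ↥(Subgroup.centralizer ({x} : Set G)) → ℂ) 1 = 1 ∨ (a₁ : ℂ) / (θ : ↥(Subgroup.centralizer ({x} : Set G)) → ℂ) 1 = -1 := mul_self_eq_one_iff.1 hsq
  rcases hε with hε | hε
  · refine ⟨χ₁, h1B, χ₂, h2B, hne, 1, -1, Or.inl rfl, Or.inr rfl, by norm_num, ?_⟩
    intro y hy
    rw [h1x y hy, h2x y hy, hneg, ha₁, neg_div, hε]
    push_cast
    exact ⟨rfl, rfl⟩
  · refine ⟨χ₁, h1B, χ₂, h2B, hne, -1, 1, Or.inr rfl, Or.inl rfl, by norm_num, ?_⟩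
    intro y hy
    rw [h1x y hy, h2x y hy, hneg, ha₁, neg_div, hε]
    push_cast
    exact ⟨rfl, by ring⟩

end Cfsg.Agent.S4513
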