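import Cfsg.Statements.S4636

set_option autoImplicit false
open scoped Pointwise
open Cfsg

namespace Cfsg.Agent.S4636

theorem zle {G : Type*} [Group G] [Finite G] (p : ℕ) [Fact p.Prime] (P : Subgroup G) (hP : IsPGroup p P) (hcyc : IsCyclic P) (Z : Subgroup G) (hZ : Z ≤ P) (hZcard : Nat.card Z = p)
    (Q : Subgroup G) (hQ : Q ≤ P) (hQ1 : Q ≠ ⊥) : Z ≤ Q := by
  classical
  haveI := Fintype.ofFinite G
  haveI : Fintype P := Fintype.ofFinite P
  have hp : p.Prime := Fact.out
  have hQp : IsPGroup p Q := hP.to_le hQ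
  -- an element of order p in Q
  obtain ⟨n, hn⟩ := (IsPGroup.iff_card.mp hQp)
  have hdvd : p ∣ Nat.card Q := by
    rw [hn]
    apply dvd_pow_self
    rintro rfl
    apply hQ1
    rw [pow_zero] at hn
    exact Subgroup.card_eq_one.mp hn
  obtain ⟨x, hx⟩ := exists_prime_orderOf_dvd_card' p hdvd
  -- the set of elements of P with y ^ p = 1
  let S : Finset P := Finset.univ.filter (fun a : P => a ^ p = 1)
  have hS : S.card ≤ p := IsCyclic.card_pow_eq_one_le hp.pos
  let T : Finset P := Finset.univ.filter (fun a : P => (a : G) ∈ Z)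
  have hT : T.card = p := by
    rw [← hZcard]
    have : T.card = Nat.card (Z.subgroupOf P) := by
      rw [Nat.card_eq_fintype_card, Fintype.card_subtype]
      rfl
    rw [this]
    exact Nat.card_congr (Subgroup.subgroupOfEquivOfLe hZ).toEquiv
  have hTS : T ⊆ S := by
    intro a ha
    simp only [T, S, Finset.mem_filter, Finset.mem_univ, true_and] at ha ⊢
    have : (⟨(a : G), ha⟩ : Z) ^ p = 1 := by
      rw [← hZcard]; exact pow_card_eq_one'
    have h2 : (a : G) ^ p = 1 := by
      have := congrArg Subtype.val this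
      simpa using this
    exact Subtype.ext (by simpa using h2)
  have hTSeq : T = S := Finset.eq_of_subset_of_card_le hTS (by rw [hT]; exact hS)
  have hxZ : (x : G) ∈ Z := by
    have hxP : (x : G) ∈ P := hQ x.2
    have : (⟨(x : G), hxP⟩ : P) ∈ S := by
      simp only [S, Finset.mem_filter, Finset.mem_univ, true_and]
      apply Subtype.ext
      have h3 : x ^ p = 1 := by rw [← hx]; exact pow_orderOf_eq_one x
      have := congrArg Subtype.val h3
      simpa using this
    rw [← hTSeq] at this
    simpa [T] using this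
  have hzp : Subgroup.zpowers (x : G) = Z := by
    apply Subgroup.eq_of_le_of_card_ge
    · rw [Subgroup.zpowers_le]; exact hxZ
    · rw [hZcard, Nat.card_zpowers, Subgroup.orderOf_coe, hx]
  rw [← hzp, Subgroup.zpowers_le]
  exact x.2

theorem result {G : Type*} [Group G] [Finite G] (p : ℕ) [Fact p.Prime] (P : Subgroup G) (hP : IsPGroup p P) (hP1 : P ≠ ⊥) (hcyc : IsCyclic P) (Z : Subgroup G) (hZ : Z ≤ P) (hZcard : Nat.card Z = p) : (∀ x : G, x ∉ Subgroup.normalizer (Z : Set G) → P ⊓ MulAut.conj x • P = ⊥) ∧ ∀ Q : Subgroup G, Q ≤ P → Q ≠ ⊥ → Subgroup.normalizer (Q : Set G) ≤ Subgroup.normalizer (Z : Set G) := by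
  have hZ1 : Z ≠ ⊥ := by
    rintro rfl
    rw [Subgroup.card_bot] at hZcard
    exact (Fact.out : p.Prime).one_lt.ne hZcard
  have key : ∀ g : G, MulAut.conj g • Z ≤ P → g ∈ Subgroup.normalizer (Z : Set G) := by
    intro g hg
    have h1 : MulAut.conj g • Z ≠ ⊥ := by
      intro h
      apply hZ1
      have h2 : Z = (MulAut.conj g)⁻¹ • (⊥ : Subgroup G) := by
        rw [← h, inv_smul_smul]
      rw [h2, Subgroup.smul_bot]
    have h2 := zle p P hP hcyc Z hZ hZcard _ hg h1
    have h3 : Z = MulAut.conj g • Z := by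
      apply Subgroup.eq_of_le_of_card_ge h2
      exact (Nat.card_congr (Subgroup.equivSMul (MulAut.conj g) Z).toEquiv).ge
    rw [Subgroup.mem_normalizer_iff]
    intro h
    constructor
    · intro hh
      rw [h3]
      rw [Subgroup.mem_pointwise_smul_iff_inv_smul_mem]
      simpa [MulAut.smul_def, mul_assoc] using hh
    · intro hh
      rw [h3, Subgroup.mem_pointwise_smul_iff_inv_smul_mem] at hh
      simpa [MulAut.smul_def, mul_assoc] using hh
  refine ⟨?_, ?_⟩
  · intro x hx
    by_contra hne
    apply hx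
    have h1 := zle p P hP hcyc Z hZ hZcard _ inf_le_left hne
    have h2 : Z ≤ MulAut.conj x • P := h1.trans inf_le_right
    have h3 : x⁻¹ ∈ Subgroup.normalizer (Z : Set G) := by
      apply key
      rw [Subgroup.pointwise_smul_subset_iff]
      simpa using h2
    simpa using inv_mem h3
  · intro Q hQ hQ1 g hg
    apply key
    have h1 := zle p P hP hcyc Z hZ hZcard Q hQ hQ1
    have h2 : MulAut.conj g • Q = Q := by
      ext x
      rw [Subgroup.mem_pointwise_smul_iff_inv_smul_mem]
      rw [Subgroup.mem_normalizer_iff] at hg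
      rw [hg]
      simp [MulAut.smul_def, mul_assoc]
    refine le_trans ?_ hQ
    rw [← h2]
    exact Subgroup.pointwise_smul_le_pointwise_smul_iff.mpr h1

end Cfsg.Agent.S4636
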