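import Cfsg.Statements.S4638
import Cfsg.Agent.Lib.AbPI6
import Cfsg.Agent.Lib.AbKlein
-- import your own Cfsg.Agent.* helpers here

set_option autoImplicit false
open Cfsg

namespace Cfsg.Agent.S4638

open Cfsg Cfsg.Agent.Lib Cfsg.Agent.Lib.BlockAlg Cfsg.Agent.Lib.AbSec Cfsg.Agent.Lib.AbCount


/-- Let B be a block of the finite group G relative to a maximal ideal M of the algebraic integers containing 2, with a Klein four defect group P, and let c be its Brauer correspondent: the block of N_G(P) with defect group P that induces B. Then there is a perfect isometry from c onto B. -/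
theorem result {G : Type*} [Group G] [Finite G] (M : Ideal Cfsg.AlgInt) (hM : Cfsg.IsPModular 2 M) (B : Set (Cfsg.IrrCharacter G)) (hB : Cfsg.IsPBlock M B) (P : Subgroup G) (hPD : Cfsg.IsDefectGroup 2 M B P) (hV : IsKleinFour P) (c : Set (Cfsg.IrrCharacter (Subgroup.normalizer (P : Set G)))) (hcD : Cfsg.IsDefectGroup 2 M c (P.subgroupOf (Subgroup.normalizer (P : Set G)))) (hc : Cfsg.IsInducedBlock M (Subgroup.normalizer (P : Set G)) c B) : ∃ (I : Cfsg.IrrCharacter (Subgroup.normalizer (P : Set G)) → Cfsg.IrrCharacter G) (ε : Cfsg.IrrCharacter (Subgroup.normalizer (P : Set G)) → ℤ), Cfsg.IsPerfectIsometry 2 M c B I ε := by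
  have hMm : M.IsMaximal := hM.2.1
  have hch := charP_Kf hM
  haveI : Fact (Nat.Prime 2) := ⟨Nat.prime_two⟩
  have hab : ∀ x ∈ P, ∀ y ∈ P, x * y = y * x := by
    intro x hx y hy
    have h1 := (IsKleinFour.isMulCommutative (G := P)).is_comm.comm ⟨x, hx⟩ ⟨y, hy⟩
    exact congrArg Subtype.val h1
  obtain ⟨c1, h1, h2⟩ := exists_corr le_rfl hB hPD hab hc hcD
  have hP4 : Nat.card P = 4 := IsKleinFour.card_four
  have hne : P ≠ ⊥ := by
    intro h0
    rw [h0, Subgroup.card_bot] at hP4
    omega
  have h4 : Nat.card {x : P // x ^ 2 = 1} = 4 := by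
    rw [← hP4]
    have hall : ∀ x : P, x ^ 2 = 1 := fun x => by
      rw [← IsKleinFour.exponent_two (G := P)]
      exact Monoid.pow_exponent_eq_one x
    exact Nat.card_congr (Equiv.subtypeUnivEquiv hall)
  have hfree := free_of_omega_four h1 hne h4
  have e := Subgroup.subgroupOfEquivOfLe (Subgroup.le_normalizer (H := P))
  have hV' : IsKleinFour (P.subgroupOf (Subgroup.normalizer (P : Set G))) := by
    constructor
    · rw [Nat.card_congr e.toEquiv, hP4]
    · rw [Monoid.exponent_eq_of_mulEquiv e]
      exact IsKleinFour.exponent_two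
  have hl := (h1.klein hM hV _ rfl).2.2
  have hl' := (h2.klein hM hV' _ rfl).2.2
  exact (corr_perfect hM le_rfl hfree h2 hl hl').2.2

end Cfsg.Agent.S4638
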