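import Cfsg.Statements.S4642
import Cfsg.Agent.Lib.CoreTop
import Cfsg.Agent.Lib.BlockCover2
-- import your own Cfsg.Agent.* helpers here

set_option autoImplicit false
open Cfsg

namespace Cfsg.Agent.S4642

open Cfsg Cfsg.Agent.Lib Cfsg.Agent.Lib.BlockAlg Cfsg.Agent.Lib.BrauerPairs Cfsg.Agent.Lib.PairAlg
open Cfsg.Agent.Lib.PairMax Cfsg.Agent.Lib.BlkIdem Cfsg.Agent.Lib.NormalPBlk
open Cfsg.Agent.Lib.BlockGA Cfsg.Agent.Lib.BlockIdem Cfsg.Agent.Lib.BlockRing
open Cfsg.Agent.Lib.InducedPair Cfsg.Agent.Lib.BlkTransport Cfsg.Agent.Lib.CoreTop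
open Cfsg.Agent.Lib.DefPairs
open Cfsg.Agent.Lib.Clifford (cj)


/-- Let G be a finite group, p a prime, M a maximal ideal of the algebraic integers containing p, K the largest normal subgroup of G of order prime to p, and L the preimage in G of the largest normal p-subgroup of G/K. Let Q be a Sylow p-subgroup of L and suppose C_G(Q) ≤ L. Let θ be an irreducible character of K invariant under conjugation by every element of G, and let B be the set of irreducible characters of G whose restriction to K contains θ. Then B is a block of G, every Sylow p-subgroup of G is a defect group of B, and B is of principal type: for every p-subgroup R of G exactly one block of C_G(R) induces B. -/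
theorem result {G : Type*} [Group G] [Fintype G] (p : ℕ) [Fact p.Prime] (M : Ideal Cfsg.AlgInt) (hM : Cfsg.IsPModular p M) (K : Subgroup G) (hK : K = Cfsg.pPrimeCore p G) [Fintype K] (L : Subgroup G) (hL : L = Cfsg.pPrimePCore p G) (Q : Subgroup G) (hQL : Q ≤ L) (hQp : IsPGroup p Q) (hQS : ¬ p ∣ Q.relIndex L) (hCQ : Subgroup.centralizer (Q : Set G) ≤ L) (θ : Cfsg.IrrCharacter K) (hθ : ∀ g : G, Cfsg.IsConjCharOf K g (θ : K → ℂ) (θ : K → ℂ)) (B : Set (Cfsg.IrrCharacter G)) (hBdef : ∀ χ : Cfsg.IrrCharacter G, χ ∈ B ↔ Cfsg.classInner (fun k : K => (χ : G → ℂ) k) (θ : K → ℂ) ≠ 0) : Cfsg.IsPBlock M B ∧ (∀ S : Sylow p G, Cfsg.IsDefectGroup p M B S) ∧ ∀ R : Subgroup G, IsPGroup p R → ∃! f : Set (Cfsg.IrrCharacter (Subgroup.centralizer (R : Set G))), Cfsg.IsInducedBlock M (Subgroup.centralizer (R : Set G)) f B := by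
  have hMm : M.IsMaximal := hM.2.1
  have hch : CharP (Kf M) p := charP_Kf hM

  classical
  have hMP := hMm.isPrime
  have hpp : Fact p.Prime := ⟨Fact.out⟩
  subst hK
  subst hL
  have hKd : ¬ p ∣ Nat.card (pPrimeCore p G) := PConstrained.not_dvd_card_pPrimeCore
  have hKn : (pPrimeCore p G).Normal := inferInstance
  have hLn : (pPrimePCore p G).Normal := inferInstance
  -- `G` is `p`-constrained
  have hpc : IsPConstrained p G := by
    intro P
    have hQp' : IsPGroup p (Q.subgroupOf (pPrimePCore p G)) :=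
      hQp.comap_of_injective _ (Subgroup.subtype_injective _)
    obtain ⟨x, hx⟩ := MulAction.exists_smul_eq (pPrimePCore p G) (hQp'.toSylow hQS) P
    intro g hg
    -- `x⁻¹ g x` centralizes `Q`
    have h1 : (x : G)⁻¹ * g * x ∈ Subgroup.centralizer (Q : Set G) := by
      rw [Subgroup.mem_centralizer_iff]
      intro q hq
      have hxq : (x : G) * q * (x : G)⁻¹ ∈
          (P : Subgroup (pPrimePCore p G)).map (pPrimePCore p G).subtype := by
        refine ⟨x * ⟨q, hQL hq⟩ * x⁻¹, ?_, rfl⟩
        rw [← hx]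
        show x * ⟨q, hQL hq⟩ * x⁻¹ ∈ ((x • (hQp'.toSylow hQS) : Sylow p (pPrimePCore p G)) : Subgroup (pPrimePCore p G))
        rw [Sylow.coe_subgroup_smul, Subgroup.mem_pointwise_smul_iff_inv_smul_mem]
        have h3 : ((MulAut.conj x)⁻¹ • (x * ⟨q, hQL hq⟩ * x⁻¹)) = (⟨q, hQL hq⟩ : pPrimePCore p G) := by
          rw [← map_inv, MulAut.smul_def, MulAut.conj_apply, inv_inv]; group
        rw [h3]
        show (⟨q, hQL hq⟩ : pPrimePCore p G) ∈ hQp'.toSylow hQS
        exact (IsPGroup.mem_toSylow hQp' hQS).mpr (Subgroup.mem_subgroupOf.mpr hq)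
      have h2 := Subgroup.mem_centralizer_iff.mp hg _ hxq
      calc q * ((x : G)⁻¹ * g * x) = (x : G)⁻¹ * (((x : G) * q * (x : G)⁻¹) * g) * x := by group
        _ = (x : G)⁻¹ * (g * ((x : G) * q * (x : G)⁻¹)) * x := by rw [h2]
        _ = (x : G)⁻¹ * g * x * q := by group
    have h2 := hLn.conj_mem _ (hCQ h1) (x : G)
    have h3 : (x : G) * ((x : G)⁻¹ * g * x) * (x : G)⁻¹ = g := by group
    rwa [h3] at h2
  have hbθ : IsPBlock M ({θ} : Set (IrrCharacter (pPrimeCore p G))) := isPBlock_singleton hM hKd θ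
  have he : IsBlk (pPrimeCore p G) (bid M (pPrimeCore p G) {θ}) := isBlk_bid hbθ
  have hst : ∀ x : G, BrauerMap.cj x (bid M (pPrimeCore p G) {θ}) = bid M (pPrimeCore p G) {θ} := by
    intro x
    have hxN : x ∈ Subgroup.normalizer ((pPrimeCore p G : Subgroup G) : Set G) := by
      rw [Subgroup.normalizer_eq_top]; trivial
    refine (stabilizesBlock_iff (M := M) hxN hbθ).mp ⟨hxN, ?_⟩
    intro χ hχ
    rw [Set.mem_singleton_iff] at hχ
    exact ⟨θ, rfl, by rw [hχ]; exact hθ x⟩
  have htop := isBlk_top_of_constrained hM hpc he hst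
  obtain ⟨B', hB', hBe⟩ := exists_bidG htop
  -- the idempotent in characteristic zero
  have hstable : BlockCover.Stable (N := pPrimeCore p G) ({θ} : Set (IrrCharacter (pPrimeCore p G))) := by
    intro g θ' hθ' ψ hψ
    rw [Set.mem_singleton_iff] at hθ' ⊢
    apply Subtype.ext
    rw [hψ, hθ']
    funext n
    rw [Clifford.cj_apply]
    exact hθ g n _ rfl
  have hcen := BlockCover.incH_eB_mem_center hstable
  have hid : cid (pPrimeCore p G) {θ} = eB B' := by
    refine lift_unique_top hcen (eB_mem_center B') (cid_mul_self _ _) (eB_mul_self B') (locA_cid hbθ)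
      (locA_eB hB') ?_
    rw [redA_cid]
    exact hBe.symm
  have hBB' : B = B' := by
    ext χ
    rw [hBdef]
    have h1 : omega (χ : G → ℂ) (BlockSecond.incH (pPrimeCore p G) (eB {θ})) = omega (χ : G → ℂ) (eB B') :=
      congrArg (omega (χ : G → ℂ)) hid
    constructor
    · intro h
      by_contra hcon
      rw [BlockCover.omega_incH_eB_mem h hstable rfl, omega_eB_not_mem hcon] at h1
      exact one_ne_zero h1
    · intro h h0
      obtain ⟨θ', hθ'⟩ := BlockCover.exists_constituent_res (pPrimeCore p G) χ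
      have hne : θ' ∉ ({θ} : Set (IrrCharacter (pPrimeCore p G))) := by
        intro h2
        rw [Set.mem_singleton_iff] at h2
        rw [h2] at hθ'
        exact hθ' h0
      rw [BlockCover.omega_incH_eB_not_mem hθ' hstable hne, omega_eB_mem h] at h1
      exact zero_ne_one h1
  subst hBB'
  refine ⟨hB', ?_, ?_⟩
  · intro S
    refine (isDefectGroup_iff hB').mpr ⟨S.isPGroup', le_top, ?_, ?_⟩
    · rw [hBe]
      exact (isBlk_br_of_constrained hM hpc he hst S.isPGroup').ne_zero
    · intro g _ R _ hRp _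
      obtain ⟨T, hT⟩ := hRp.exists_le_sylow
      obtain ⟨x, hx⟩ := MulAction.exists_smul_eq G S T
      refine ⟨x, Subgroup.mem_top x, ?_⟩
      intro r hr
      have h1 : r ∈ ((x • S : Sylow p G) : Subgroup G) := by rw [hx]; exact hT hr
      rw [Sylow.coe_subgroup_smul, Subgroup.mem_pointwise_smul_iff_inv_smul_mem] at h1
      have h3 : ((MulAut.conj x)⁻¹ • r) = x⁻¹ * r * x := by
        rw [← map_inv, MulAut.smul_def, MulAut.conj_apply, inv_inv]
      rwa [h3] at h1
  · intro R hR
    have hR1 := isBlk_br_of_constrained hM hpc he hst hR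
    obtain ⟨f, hf, hfe⟩ := exists_bid hR1
    refine ⟨f, ?_, ?_⟩
    · refine (isInducedBlock_iff_br rfl hR hf hB').mpr ?_
      rw [hBe, hfe]
      exact hR1.idem
    · intro f' hf'
      have h1 := (isInducedBlock_iff_br rfl hR hf'.1 hB').mp hf'
      rw [hBe] at h1
      apply bid_injective hf'.1 hf
      rw [hfe]
      rcases hR1.eq_or_orth (isBlk_bid hf'.1) with h2 | h2
      · exact h2.symm
      · rw [h2] at h1
        exact absurd h1.symm (isBlk_bid hf'.1).ne_zero

end Cfsg.Agent.S4642
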