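import Cfsg.Statements.S4645
import Cfsg.Agent.Lib.AbLocal

set_option autoImplicit false
open Cfsg

namespace Cfsg.Agent.S4645

/-- Let B be a block of the finite group G relative to a maximal ideal M of the algebraic integers containing the prime p, with a nontrivial cyclic defect group P; let c be a block of C_G(P) inducing B and T the stabilizer of c in N_G(P). Let Q be a nontrivial subgroup of P (so C_G(P) ≤ C_G(Q)), f the block of C_G(Q) induced by c inside C_G(Q), and T' the stabilizer of f in N_G(Q). Then T' = T·C_G(Q), the index of C_G(Q) in T' equals the index of C_G(P) in T, f has p-regular rank 1, and f is a nilpotent block of C_G(Q). -/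
theorem result {G : Type*} [Group G] [Finite G] (p : ℕ) [Fact p.Prime] (M : Ideal Cfsg.AlgInt) (hM : Cfsg.IsPModular p M) (B : Set (Cfsg.IrrCharacter G)) (hB : Cfsg.IsPBlock M B) (P : Subgroup G) (hPD : Cfsg.IsDefectGroup p M B P) (hP1 : P ≠ ⊥) (hcyc : IsCyclic P) (c : Set (Cfsg.IrrCharacter (Subgroup.centralizer (P : Set G)))) (hc : Cfsg.IsInducedBlock M (Subgroup.centralizer (P : Set G)) c B) (T : Subgroup G) (hT : ∀ g : G, g ∈ T ↔ (g ∈ Subgroup.normalizer (P : Set G) ∧ Cfsg.StabilizesBlock (Subgroup.centralizer (P : Set G)) c g)) (Q : Subgroup G) (hQP : Q ≤ P) (hQ1 : Q ≠ ⊥) (f : Set (Cfsg.IrrCharacter (Subgroup.centralizer (Q : Set G)))) (hf : Cfsg.IsInducedBlockIn M (Subgroup.centralizer (Q : Set G)) (Subgroup.centralizer (P : Set G)) c f) (T' : Subgroup G) (hT' : ∀ g : G, g ∈ T' ↔ (g ∈ Subgroup.normalizer (Q : Set G) ∧ Cfsg.StabilizesBlock (Subgroup.centralizer (Q : Set G)) f g)) : T' = T ⊔ Subgroup.centralizer (Q : Set G) ∧ (Subgroup.centralizer (Q : Set G)).relIndex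 T' = (Subgroup.centralizer (P : Set G)).relIndex T ∧ Cfsg.blockRank p f = 1 ∧ Cfsg.IsNilpotentBlock p M f := by
  have := hM.2.1
  have := Lib.BlockAlg.charP_Kf hM
  have hcomm : ∀ x ∈ P, ∀ y ∈ P, x * y = y * x := by
    intro x hx y hy
    have h1 := hcyc.isMulCommutative.is_comm.comm (⟨x, hx⟩ : P) ⟨y, hy⟩
    exact congrArg Subtype.val h1
  have h := Lib.AbCount.AbMax.of hB hPD hcomm hc
  have hTe := Lib.AbCount.mem_T_iff hc.1 hT
  have hTe' := Lib.AbCount.mem_T_iff hf.2.1 hT'
  obtain ⟨h1, h2⟩ := Lib.AbCount.AbMax.pr_of_inducedIn hc.1 h hQP hf.2.1 hf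
  have hchar := Lib.AbCount.cyclic_normalizes (c := Lib.BlockAlg.bid M _ c) hcyc hQP
  have hfree := fun t ht htQ => h.cyclic_free hcyc hQP hQ1 (t := t) ht htQ
  have hres := h.resQ hQP
  rw [h2] at hres
  have htriv : ∀ t ∈ Lib.PairMax.stab (Subgroup.normalizer
      ((P.subgroupOf (Subgroup.centralizer (Q : Set G)) : Subgroup (Subgroup.centralizer (Q : Set G))) :
        Set (Subgroup.centralizer (Q : Set G))))
      (Lib.BlockAlg.res (Subgroup.centralizer (Q : Set G)) (Lib.BlockAlg.bid M _ c)),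
      (t : G) ∈ Subgroup.centralizer (P : Set G) := by
    intro t ht
    exact hfree _ ((h.mem_stab_resQ hQP).1 ht) t.2
  refine ⟨?_, ?_, ?_, ?_⟩
  · rw [hTe', ← h1, h.stab_eq hQP hchar, ← hTe]
  · rw [hTe', ← h1, h.relIndex_eq hQP hchar hfree, ← hTe]
  · refine (Lib.AbCount.AbMax.nilpotent hM _ le_rfl hres ?_).1
    intro t ht x hx
    apply Subtype.ext
    show (t : G) * x * (t : G)⁻¹ = x
    have h3 := Subgroup.mem_centralizer_iff.1 (htriv t ht) (x : G) (Subgroup.mem_subgroupOf.1 hx)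
    rw [← h3]; group
  · refine hres.isNilpotentBlock ?_
    intro t ht
    rw [Subgroup.mem_centralizer_iff]
    intro x hx
    apply Subtype.ext
    exact Subgroup.mem_centralizer_iff.1 (htriv t ht) (x : G) (Subgroup.mem_subgroupOf.1 hx)

end Cfsg.Agent.S4645
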