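import Cfsg.Statements.S4650
import Cfsg.Agent.Lib.AbDefect
-- import your own Cfsg.Agent.* helpers here

set_option autoImplicit false
open Cfsg

namespace Cfsg.Agent.S4650

open Cfsg Cfsg.Agent.Lib Cfsg.Agent.Lib.BlockAlg Cfsg.Agent.Lib.BrauerPairs Cfsg.Agent.Lib.PairAlg
open Cfsg.Agent.Lib.PairMax Cfsg.Agent.Lib.BlkIdem Cfsg.Agent.Lib.NormalPBlk
open Cfsg.Agent.Lib.BlockGA Cfsg.Agent.Lib.BlockIdem Cfsg.Agent.Lib.BlockRing
open Cfsg.Agent.Lib.InducedPair Cfsg.Agent.Lib.BlkTransport Cfsg.Agent.Lib.StabQuot Cfsg.Agent.Lib.AbDefect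
open Cfsg.Agent.Lib.DefPairs


/-- Let B be a block of the finite group G relative to a maximal ideal M of the algebraic integers containing the prime p, with a nontrivial commutative defect group P; let c be a block of C_G(P) inducing B and T the stabilizer of c in N_G(P). Then T/C_G(P) acts freely on the non-identity elements of P (an element of T fixing a non-identity element of P under conjugation lies in C_G(P)) if and only if, for every nontrivial subgroup Q of P, the block of C_G(Q) induced by c inside C_G(Q) is a nilpotent block of C_G(Q). -/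
theorem result {G : Type*} [Group G] [Finite G] (p : ℕ) [Fact p.Prime] (M : Ideal Cfsg.AlgInt) (hM : Cfsg.IsPModular p M) (B : Set (Cfsg.IrrCharacter G)) (hB : Cfsg.IsPBlock M B) (P : Subgroup G) (hPD : Cfsg.IsDefectGroup p M B P) (hPab : ∀ x ∈ P, ∀ y ∈ P, x * y = y * x) (hP1 : P ≠ ⊥) (c : Set (Cfsg.IrrCharacter (Subgroup.centralizer (P : Set G)))) (hc : Cfsg.IsInducedBlock M (Subgroup.centralizer (P : Set G)) c B) (T : Subgroup G) (hT : ∀ g : G, g ∈ T ↔ (g ∈ Subgroup.normalizer (P : Set G) ∧ Cfsg.StabilizesBlock (Subgroup.centralizer (P : Set G)) c g)) : (∀ g ∈ T, ∀ x ∈ P, x ≠ 1 → g * x * g⁻¹ = x → g ∈ Subgroup.centralizer (P : Set G)) ↔ ∀ Q : Subgroup G, Q ≤ P → Q ≠ ⊥ → ∀ f : Set (Cfsg.IrrCharacter (Subgroup.centralizer (Q : Set G))), Cfsg.IsInducedBlockIn M (Subgroup.centralizer (Q : Set G)) (Subgroup.centralizer (P : Set G)) c f → Cfsg.IsNilpotentBlock p M f := by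
  have hMm : M.IsMaximal := hM.2.1
  have hch : CharP (Kf M) p := charP_Kf hM

  have hMP := hMm.isPrime
  have hpp : Fact p.Prime := ⟨Fact.out⟩
  have hD := (isDefectGroup_iff hB).mp hPD
  have hPp : IsPGroup p P := hD.pg
  have hc1 : IsPBlock M c := hc.1
  have hPe : BPair p P (bid M _ c) := ⟨hPp, isBlk_bid hc1⟩
  have hbr := (isInducedBlock_iff_br rfl hPp hc1 hB).mp hc
  have hmax := maxPair_of_defectGroup hB hPD hbr
  have hb := hasBlocks (M := M) (G := G)
  have hBk := isBlk_bidG hB
  have hTs : ∀ g, g ∈ T ↔ g ∈ stab (Subgroup.normalizer (P : Set G)) (bid M (Subgroup.centralizer (P : Set G)) c) := by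
    intro g
    rw [hT g]
    constructor
    · intro h1
      exact ⟨h1.1, (stabilizesBlock_iff (normalizer_le_normalizer_centralizer P h1.1) hc1).mp h1.2⟩
    · intro h1
      exact ⟨h1.1, (stabilizesBlock_iff (normalizer_le_normalizer_centralizer P h1.1) hc1).mpr h1.2⟩
  have hab : P ≤ Subgroup.centralizer (P : Set G) := by
    intro x hx
    rw [Subgroup.mem_centralizer_iff]
    intro y hy
    exact hPab y hy x hx
  constructor
  · intro hfree Q hQP hQ1 f hcf
    have hf : IsPBlock M f := hcf.2.1
    have hPH : P ≤ Subgroup.centralizer (Q : Set G) :=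
      hab.trans (Subgroup.centralizer_le (SetLike.coe_subset_coe.mpr hQP))
    have hCH : Subgroup.centralizer (P : Set G) ≤ Subgroup.centralizer (Q : Set G) :=
      Subgroup.centralizer_le (SetLike.coe_subset_coe.mpr hQP)
    have hbf := (isInducedBlockIn_iff_br rfl hPp hPH hCH hc1 hf).mp hcf
    have hQp : IsPGroup p Q := hPp.to_le hQP
    have hQf : BPair p Q (bid M _ f) := ⟨hQp, isBlk_bid hf⟩
    have hQH : Q ≤ Subgroup.centralizer (Q : Set G) := hQP.trans hPH
    have hnle : NLE p Q (bid M _ f) P (bid M _ c) :=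
      ⟨hQf, hPe, hQP, hPH.trans (centralizer_le_normalizer Q),
        fun x hx => (isBlk_bid hf).mem.2 x (hPH hx), hbf⟩
    have hBf : BrauerMap.br Q (bidG M B) * bid M _ f = bid M _ f :=
      ple_blk_down' hb hBk hnle.ple hQf hbr
    refine ⟨hf, ?_⟩
    intro R e' hRe x hxN hxst _
    obtain ⟨⟨hRp, he'⟩, _, hbre⟩ := isBrauerPairOf_iff.mp hRe
    set S : Subgroup G := R.map (Subgroup.centralizer (Q : Set G)).subtype ⊔ Q with hSd
    have hRH : R.map (Subgroup.centralizer (Q : Set G)).subtype ≤ Subgroup.centralizer (Q : Set G) := by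
      rintro _ ⟨y, _, rfl⟩
      exact y.2
    have hSH : S ≤ Subgroup.centralizer (Q : Set G) := sup_le hRH hQH
    have hSp : IsPGroup p S :=
      IsPGroup.to_sup_of_normal_right' (hRp.map _) hQp (hRH.trans (centralizer_le_normalizer Q))
    have hmemC : ∀ y : Subgroup.centralizer (Q : Set G),
        (y : G) ∈ Subgroup.centralizer (S : Set G) ↔ y ∈ Subgroup.centralizer (R : Set _) := by
      intro y
      rw [← mem_centralizer_subtype]
      constructor
      · intro h
        exact Subgroup.centralizer_le (SetLike.coe_subset_coe.mpr le_sup_left) h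
      · intro h
        rw [Subgroup.mem_centralizer_iff]
        have h1 : S ≤ Subgroup.centralizer ({(y : G)} : Set G) := by
          refine sup_le ?_ ?_
          · intro r hr
            rw [Subgroup.mem_centralizer_singleton_iff]
            exact Subgroup.mem_centralizer_iff.mp h r hr
          · intro r hr
            rw [Subgroup.mem_centralizer_singleton_iff]
            exact Subgroup.mem_centralizer_iff.mp y.2 r hr
        intro r hr
        exact Subgroup.mem_centralizer_singleton_iff.mp (h1 hr)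
    have hCS : Subgroup.centralizer (S : Set G) ≤ Subgroup.centralizer (Q : Set G) :=
      Subgroup.centralizer_le (SetLike.coe_subset_coe.mpr le_sup_right)
    have hCeq : (Subgroup.centralizer (S : Set G)).subgroupOf (Subgroup.centralizer (Q : Set G)) =
        Subgroup.centralizer (R : Set _) := by
      ext y
      rw [Subgroup.mem_subgroupOf, hmemC]
    set E := inc (M := M) (Subgroup.centralizer (Q : Set G)) (bid M (Subgroup.centralizer (R : Set _)) e') with hE
    have hEblk : IsBlk (Subgroup.centralizer (S : Set G)) E := by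
      rw [hE, isBlk_inc_iff hCS, hCeq]
      exact isBlk_bid he'
    have hSE : BPair p S E := ⟨hSp, hEblk⟩
    have hbrS : BrauerMap.br S (bid M _ f) = inc (Subgroup.centralizer (Q : Set G)) (BrauerMap.br R (bidG M f)) := by
      apply BrauerMap.ext_coeff; intro g
      by_cases hg : g ∈ Subgroup.centralizer (Q : Set G)
      · have h1 := inc_coeff_coe (M := M) (Subgroup.centralizer (Q : Set G)) (BrauerMap.br R (bidG M f)) ⟨g, hg⟩
        rw [h1]
        by_cases hgS : g ∈ Subgroup.centralizer (S : Set G)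
        · rw [BrauerMap.br_coeff_mem hgS, BrauerMap.br_coeff_mem ((hmemC ⟨g, hg⟩).mp hgS)]
          exact inc_coeff_coe (M := M) (Subgroup.centralizer (Q : Set G)) (bidG M f) ⟨g, hg⟩
        · rw [BrauerMap.br_coeff_not_mem hgS,
            BrauerMap.br_coeff_not_mem (fun h => hgS ((hmemC ⟨g, hg⟩).mpr h))]
      · rw [inc_coeff_not_mem _ _ hg, BrauerMap.br_coeff_not_mem (fun h => hg (hCS h))]
    have hnS : NLE p Q (bid M _ f) S E := by
      refine ⟨hQf, hSE, le_sup_right, hSH.trans (centralizer_le_normalizer Q),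
        fun x hx => (isBlk_bid hf).mem.2 x (hSH hx), ?_⟩
      rw [hbrS, hE, ← map_mul, hbre]
    have hBE := ple_blk_up' (bidG_mem B) hnS.ple hBf
    obtain ⟨g, hg⟩ := MaxPair.conj_into hb hBk hPe hbr hmax hSE hBE
    set S' := S.map (MulAut.conj g).toMonoidHom with hS'
    set s := BrauerMap.cj g E with hs
    set y : G := g * x * g⁻¹ with hy
    have hSs : BPair p S' s := hSE.cj g
    have hS'P : S' ≤ P := hg.le
    -- `y` normalizes `S'` and fixes `s`
    have hxS : S.map (MulAut.conj (x : G)).toMonoidHom = S := by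
      have hle : ∀ (x' : Subgroup.centralizer (Q : Set G)),
          x' ∈ Subgroup.normalizer (R : Set _) → ∀ w ∈ S, (x' : G) * w * (x' : G)⁻¹ ∈ S := by
        intro x' hx' w hw
        have h1 : S ≤ S.comap (MulAut.conj (x' : G)).toMonoidHom := by
          refine sup_le ?_ ?_
          · rintro _ ⟨r, hr, rfl⟩
            have h2 := (Subgroup.mem_normalizer_iff.mp hx' r).mp hr
            exact (show R.map (Subgroup.centralizer (Q : Set G)).subtype ≤ S from le_sup_left) ⟨_, h2, rfl⟩
          · intro q hq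
            show (x' : G) * q * (x' : G)⁻¹ ∈ S
            have h3 := Subgroup.mem_centralizer_iff.mp x'.2 q hq
            rw [← h3, mul_inv_cancel_right]
            exact (show Q ≤ S from le_sup_right) hq
        exact h1 hw
      ext w
      rw [mem_map_conj_iff]
      constructor
      · intro hw
        have := hle x hxN _ hw
        have e1 : (x : G) * ((x : G)⁻¹ * w * x) * (x : G)⁻¹ = w := by group
        rwa [e1] at this
      · intro hw
        have := hle x⁻¹ (inv_mem hxN) _ hw
        have e1 : ((x⁻¹ : Subgroup.centralizer (Q : Set G)) : G) * w *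
          ((x⁻¹ : Subgroup.centralizer (Q : Set G)) : G)⁻¹ = (x : G)⁻¹ * w * x := by
          rw [Subgroup.coe_inv, inv_inv]
        rwa [e1] at this
    have hyS : S'.map (MulAut.conj y).toMonoidHom = S' := by
      ext w
      rw [mem_map_conj_iff, hS', mem_map_conj_iff, mem_map_conj_iff]
      have e1 : g⁻¹ * (y⁻¹ * w * y) * g = (x : G)⁻¹ * (g⁻¹ * w * g) * x := by
        rw [hy]; group
      rw [e1, ← mem_map_conj_iff, hxS]
    have hxE : BrauerMap.cj (x : G) E = E := by
      have hxC := normalizer_le_normalizer_centralizer R hxN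
      have h1 := (stabilizesBlock_iff (M := M) hxC he').mp hxst
      rw [hE, ← inc_cj, h1]
    have hys : BrauerMap.cj y s = s := by
      rw [hs, ← BrauerMap.cj_mul]
      have e1 : y * g = g * (x : G) := by rw [hy]; group
      rw [e1, BrauerMap.cj_mul, hxE]
    have hg2 : PLE p (S', s) (P.map (MulAut.conj y).toMonoidHom, BrauerMap.cj y (bid M _ c)) := by
      have := hg.cj y
      simp only at this
      rwa [hyS, hys] at this
    have hPS' : P ≤ Subgroup.centralizer (S' : Set G) :=
      hab.trans (Subgroup.centralizer_le (SetLike.coe_subset_coe.mpr hS'P))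
    have hPyS' : P.map (MulAut.conj y).toMonoidHom ≤ Subgroup.centralizer (S' : Set G) := by
      intro w hw
      rw [mem_map_conj_iff] at hw
      rw [← hyS, Subgroup.mem_centralizer_iff]
      intro v hv
      have hv' : y⁻¹ * v * y ∈ S' := mem_map_conj_iff.mp hv
      have h2 := Subgroup.mem_centralizer_iff.mp (hPS' hw) _ hv'
      have h3 : y * ((y⁻¹ * v * y) * (y⁻¹ * w * y)) * y⁻¹ = y * ((y⁻¹ * w * y) * (y⁻¹ * v * y)) * y⁻¹ := by
        rw [h2]
      calc v * w = y * ((y⁻¹ * v * y) * (y⁻¹ * w * y)) * y⁻¹ := by group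
        _ = y * ((y⁻¹ * w * y) * (y⁻¹ * v * y)) * y⁻¹ := h3
        _ = w * v := by group
    have hmaxy : MaxPair p (P.map (MulAut.conj y).toMonoidHom) (BrauerMap.cj y (bid M _ c)) := by
      intro U u hU
      have h1 := hU.cj y⁻¹
      rw [BrauerMap.cj_inv_cj] at h1
      have e1 : (P.map (MulAut.conj y).toMonoidHom).map (MulAut.conj y⁻¹).toMonoidHom = P := by
        ext w
        rw [mem_map_conj_iff, mem_map_conj_iff]
        have : y⁻¹ * (y⁻¹⁻¹ * w * y⁻¹) * y = w := by group
        rw [this]
      rw [e1] at h1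
      have h2 := hmax _ _ h1
      rw [← h2]
      ext w
      rw [mem_map_conj_iff, mem_map_conj_iff]
      have : y⁻¹⁻¹ * (y⁻¹ * w * y) * y⁻¹ = w := by group
      rw [this]
    obtain ⟨z, hzC, hz1, hz2⟩ := exists_centralizer_conj hSs hg2 hg hPyS' hPS' hmaxy hmax
    have htT : z * y ∈ T := by
      rw [hTs]
      refine ⟨?_, ?_⟩
      · rw [Subgroup.mem_normalizer_iff]
        intro w
        constructor
        · intro hw
          have : z * y * w * (z * y)⁻¹ ∈ (P.map (MulAut.conj y).toMonoidHom).map (MulAut.conj z).toMonoidHom := by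
            rw [mem_map_conj_iff, mem_map_conj_iff]
            have : y⁻¹ * (z⁻¹ * (z * y * w * (z * y)⁻¹) * z) * y = w := by group
            rw [this]; exact hw
          rwa [hz1] at this
        · intro hw
          rw [← hz1, mem_map_conj_iff, mem_map_conj_iff] at hw
          have : y⁻¹ * (z⁻¹ * (z * y * w * (z * y)⁻¹) * z) * y = w := by group
          rwa [this] at hw
      · rw [BrauerMap.cj_mul]; exact hz2
    have hact : ∀ w ∈ S', (z * y) * w * (z * y)⁻¹ = y * w * y⁻¹ := by
      intro w hw
      have h1 : y * w * y⁻¹ ∈ S' := by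
        rw [← hyS, mem_map_conj_iff]
        have : y⁻¹ * (y * w * y⁻¹) * y = w := by group
        rw [this]; exact hw
      have h2 := Subgroup.mem_centralizer_iff.mp hzC _ h1
      calc (z * y) * w * (z * y)⁻¹ = z * (y * w * y⁻¹) * z⁻¹ := by group
        _ = y * w * y⁻¹ := by rw [← h2, mul_inv_cancel_right]
    -- a nontrivial element of `Q`
    obtain ⟨q, hq, hq1⟩ : ∃ q : G, q ∈ Q ∧ q ≠ 1 := by
      by_contra hcon
      push Not at hcon
      exact hQ1 ((Subgroup.eq_bot_iff_forall Q).mpr hcon)
    have hq' : g * q * g⁻¹ ∈ S' := by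
      rw [hS', mem_map_conj_iff]
      have : g⁻¹ * (g * q * g⁻¹) * g = q := by group
      rw [this]
      exact (show Q ≤ S from le_sup_right) hq
    have hq1' : g * q * g⁻¹ ≠ 1 := by
      intro h
      apply hq1
      have : q = g⁻¹ * (g * q * g⁻¹) * g := by group
      rw [this, h]; group
    have hyq : y * (g * q * g⁻¹) * y⁻¹ = g * q * g⁻¹ := by
      have h1 := Subgroup.mem_centralizer_iff.mp x.2 q hq
      calc y * (g * q * g⁻¹) * y⁻¹ = g * ((x : G) * q * (x : G)⁻¹) * g⁻¹ := by rw [hy]; group
        _ = g * q * g⁻¹ := by rw [← h1, mul_inv_cancel_right]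
    have htC := hfree (z * y) htT (g * q * g⁻¹) (hS'P hq') hq1' (by rw [hact _ hq', hyq])
    -- conclusion
    rw [Subgroup.mem_centralizer_iff]
    intro r hr
    apply Subtype.ext
    have hrS : (r : G) ∈ S := (show R.map (Subgroup.centralizer (Q : Set G)).subtype ≤ S from le_sup_left)
      ⟨r, hr, rfl⟩
    have hrS' : g * (r : G) * g⁻¹ ∈ S' := by
      rw [hS', mem_map_conj_iff]
      have : g⁻¹ * (g * (r : G) * g⁻¹) * g = r := by group
      rw [this]; exact hrS
    have h1 := Subgroup.mem_centralizer_iff.mp htC _ (hS'P hrS')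
    have h2 := hact _ hrS'
    rw [← h1, mul_inv_cancel_right] at h2
    have h3 : (r : G) = (x : G) * r * (x : G)⁻¹ := by
      calc (r : G) = g⁻¹ * (g * (r : G) * g⁻¹) * g := by group
        _ = g⁻¹ * (y * (g * (r : G) * g⁻¹) * y⁻¹) * g := by rw [← h2]
        _ = (x : G) * r * (x : G)⁻¹ := by rw [hy]; group
    show (r : G) * x = x * r
    conv_lhs => rw [h3]
    group
  · intro hnil g hg x hx hx1 hgx
    have hgs := (hTs g).mp hg
    set Q := Subgroup.zpowers x with hQd
    have hQP : Q ≤ P := by rw [hQd, Subgroup.zpowers_le]; exact hx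
    have hQ1 : Q ≠ ⊥ := by
      rw [hQd, Ne, Subgroup.zpowers_eq_bot]; exact hx1
    have hQp : IsPGroup p Q := hPp.to_le hQP
    have hPH : P ≤ Subgroup.centralizer (Q : Set G) :=
      hab.trans (Subgroup.centralizer_le (SetLike.coe_subset_coe.mpr hQP))
    have hCH : Subgroup.centralizer (P : Set G) ≤ Subgroup.centralizer (Q : Set G) :=
      Subgroup.centralizer_le (SetLike.coe_subset_coe.mpr hQP)
    obtain ⟨F, hF⟩ := exists_sub hb hPe hQP
    have hQF : BPair p Q F := hF.pair hPe
    obtain ⟨f, hf, rfl⟩ := exists_bid hQF.2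
    have hnle := PLE.nle hb hPe hF (hPH.trans (centralizer_le_normalizer Q))
    have hcf := (isInducedBlockIn_iff_br rfl hPp hPH hCH hc1 hf).mpr hnle.br_mul
    have hn := (hnil Q hQP hQ1 f hcf).2
    -- the pair in `C_G(Q)`
    have hCeq := centralizer_subgroupOf hPH
    have hinc : inc (Subgroup.centralizer (Q : Set G)) (res (Subgroup.centralizer (Q : Set G))
        (bid M (Subgroup.centralizer (P : Set G)) c)) = bid M (Subgroup.centralizer (P : Set G)) c :=
      inc_res _ (BrauerMap.suppAlg_mono hCH hPe.2.mem.1)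
    have hE : BPair p (P.subgroupOf (Subgroup.centralizer (Q : Set G)))
        (res (Subgroup.centralizer (Q : Set G)) (bid M (Subgroup.centralizer (P : Set G)) c)) :=
      (bpair_inc_iff hPH hCH).mp (by rw [hinc]; exact hPe)
    obtain ⟨e', he', hee⟩ := exists_bid hE.2
    have hpair : IsBrauerPairOf p M f (P.subgroupOf (Subgroup.centralizer (Q : Set G))) e' := by
      refine isBrauerPairOf_iff.mpr ⟨⟨hE.1, he'⟩, hf, ?_⟩
      rw [hee]
      apply inc_injective (M := M) (Subgroup.centralizer (Q : Set G))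
      rw [map_mul, inc_br hPH, hinc]
      exact hnle.br_mul
    have hgH : g ∈ Subgroup.centralizer (Q : Set G) := by
      rw [Subgroup.mem_centralizer_iff]
      have h1 : Q ≤ Subgroup.centralizer ({g} : Set G) := by
        rw [hQd, Subgroup.zpowers_le, Subgroup.mem_centralizer_singleton_iff]
        conv_lhs => rw [← hgx]
        group
      intro w hw
      exact Subgroup.mem_centralizer_singleton_iff.mp (h1 hw)
    obtain ⟨s, m, hm, hsm⟩ := Nat.exists_eq_pow_mul_and_not_dvd (orderOf_pos g).ne' p hpp.out.ne_one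
    have hgps : g ^ p ^ s ∈ Subgroup.centralizer (P : Set G) := by
      have hmemN : (⟨g ^ p ^ s, pow_mem hgH _⟩ : Subgroup.centralizer (Q : Set G)) ∈
          Subgroup.normalizer ((P.subgroupOf (Subgroup.centralizer (Q : Set G)) : Subgroup _) : Set _) :=
        (mem_normalizer_subgroupOf hPH).mpr (pow_mem hgs.1 _)
      have h1 := hn _ e' hpair ⟨g ^ p ^ s, pow_mem hgH _⟩ hmemN ?_ ?_
      · exact (mem_centralizer_subgroupOf hPH).mp h1
      · refine (stabilizesBlock_iff (M := M) (normalizer_le_normalizer_centralizer _ hmemN) he').mpr ?_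
        rw [hee]
        apply inc_injective (M := M) (Subgroup.centralizer (Q : Set G))
        rw [inc_cj, hinc]
        exact (pow_mem hgs (p ^ s)).2
      · show ¬ p ∣ orderOf _
        rw [Subgroup.orderOf_mk, orderOf_pow' _ (pow_ne_zero _ hpp.out.ne_zero), hsm,
          Nat.gcd_eq_right (Dvd.intro _ rfl), Nat.mul_div_cancel_left _ (pow_pos hpp.out.pos _)]
        exact hm
    exact mem_centralizer_of_pow hPe hmax hab hgs hgps

end Cfsg.Agent.S4650
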