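import Cfsg.Statements.S4651
import Cfsg.Agent.Lib.H16KR
import Cfsg.Agent.Lib.H16KR2

set_option autoImplicit false
open Cfsg

namespace Cfsg.Agent.S4651

open Cfsg.Agent.Lib.H16KR Cfsg.Agent.Lib.H16KR2 Cfsg.Agent.Lib.BlockRing Cfsg.Agent.Lib
open scoped Classical

/-- An alternating-sum identity over chains of p-subgroups (the character-count form behind the chain reformulation of Alperin's weight conjecture, which holds unconditionally for the difference k − l). Let b be a block of the finite group G relative to a maximal ideal M of the algebraic integers containing the prime p. Consider the nonempty chains s = {Q_0 < Q_1 < ⋯ < Q_m} of nontrivial p-subgroups of G in which every member is normal in the largest member; let N_G(s) be the intersection of the normalizers of the members (the stabilizer of the chain), and let b_s be the set of irreducible characters of N_G(s) lying in blocks of N_G(s) that induce b. Then #G · (k(b) − l(b)) equals the sum over all such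 chains s of (−1)^m · #N_G(s) · (k(b_s) − l(b_s)), where k counts irreducible characters and l is the p-regular rank; equivalently, k(b) − l(b) is the alternating sum of k(b_s) − l(b_s) over representatives of the conjugacy classes of such chains. -/
theorem result {G : Type*} [Group G] [Finite G] (p : ℕ) [Fact p.Prime] (M : Ideal Cfsg.AlgInt) (hM : Cfsg.IsPModular p M) (b : Set (Cfsg.IrrCharacter G)) (hb : Cfsg.IsPBlock M b) : (Nat.card G : ℤ) * ((Nat.card b : ℤ) - (Cfsg.blockRank p b : ℤ)) = ∑ᶠ s ∈ {s : Finset (Subgroup G) | s.Nonempty ∧ (∀ Q ∈ s, ∀ R ∈ s, Q ≤ R ∨ R ≤ Q) ∧ (∀ Q ∈ s, Q ≠ ⊥ ∧ IsPGroup p Q) ∧ ∃ T ∈ s, ∀ Q ∈ s, Q ≤ T ∧ T ≤ Subgroup.normalizer ((Q : Subgroup G) : Set G)}, (-1 : ℤ) ^ (s.card - 1) * (Nat.card (((⨅ Q ∈ s, Subgroup.normalizer ((Q : Subgroup G) : Set G) : Subgroup G))) : ℤ) * ((Nat.card {ψ : Cfsg.IrrCharacter (((⨅ Q ∈ s, Subgroup.normalizer ((Q : Subgroup G) : Set G) : Subgroup G))) | ∃ β : Set (Cfsg.IrrCharacter (((⨅ Q ∈ s, Subgroup.normalizer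 ((Q : Subgroup G) : Set G) : Subgroup G)))), ψ ∈ β ∧ Cfsg.IsInducedBlock M (((⨅ Q ∈ s, Subgroup.normalizer ((Q : Subgroup G) : Set G) : Subgroup G))) β b} : ℤ) - (Cfsg.blockRank p {ψ : Cfsg.IrrCharacter (((⨅ Q ∈ s, Subgroup.normalizer ((Q : Subgroup G) : Set G) : Subgroup G))) | ∃ β : Set (Cfsg.IrrCharacter (((⨅ Q ∈ s, Subgroup.normalizer ((Q : Subgroup G) : Set G) : Subgroup G)))), ψ ∈ β ∧ Cfsg.IsInducedBlock M (((⨅ Q ∈ s, Subgroup.normalizer ((Q : Subgroup G) : Set G) : Subgroup G))) β b} : ℤ)) := by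
  haveI := isPrime hM
  haveI := Fintype.ofFinite G
  haveI : Fintype (Subgroup G) := Fintype.ofFinite _
  -- a p-element generates a p-subgroup
  have hzp : ∀ z : G, (∃ k : ℕ, orderOf z = p ^ k) → IsPGroup p (Subgroup.zpowers z) := by
    rintro z ⟨k, hk⟩
    apply IsPGroup.of_card (n := k)
    rw [Nat.card_zpowers, hk]
  -- the number attached to a subgroup
  let Φ : Subgroup G → ℤ := fun K => (Nat.card K : ℤ) * (blockRank p (US M b K) : ℤ)
  let E : Finset G := Finset.univ.filter fun z => (∃ k : ℕ, orderOf z = p ^ k) ∧ z ≠ 1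
  have hcount : ∀ H : Subgroup G,
      (Nat.card H : ℤ) * ((Nat.card (US M b H) : ℤ) - (blockRank p (US M b H) : ℤ)) =
        ∑ z ∈ E, if z ∈ H then Φ (Subgroup.centralizer ({z} : Set G) ⊓ H) else 0 := by
    intro H
    rw [count hM b H, ← Finset.sum_filter, finsum_mem_eq_finite_toFinset_sum _ (Set.toFinite _)]
    refine Finset.sum_congr ?_ fun z _ => rfl
    ext z
    rw [Set.Finite.mem_toFinset, Finset.mem_filter, Finset.mem_filter]
    simp only [Set.mem_setOf_eq, Finset.mem_univ, true_and]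
    tauto
  have htop : (Nat.card G : ℤ) * ((Nat.card b : ℤ) - (Cfsg.blockRank p b : ℤ)) =
      ∑ z ∈ E, Φ (Subgroup.centralizer ({z} : Set G)) := by
    have h1 := hcount ⊤
    rw [US_top hM hb, BlockTop.blockRank_image, BlockTop.card_image] at h1
    rw [Subgroup.card_top] at h1
    rw [h1]
    refine Finset.sum_congr rfl fun z _ => ?_
    rw [if_pos (Subgroup.mem_top z), inf_top_eq]
  rw [htop]
  have hrhs : ∀ s : Finset (Subgroup G),
      (-1 : ℤ) ^ (s.card - 1) * (Nat.card (((⨅ Q ∈ s, Subgroup.normalizer ((Q : Subgroup G) : Set G) : Subgroup G))) : ℤ) * ((Nat.card {ψ : Cfsg.IrrCharacter (((⨅ Q ∈ s, Subgroup.normalizer ((Q : Subgroup G) : Set G) : Subgroup G))) | ∃ β : Set (Cfsg.IrrCharacter (((⨅ Q ∈ s, Subgroup.normalizer ((Q : Subgroup G) : Set G) : Subgroup G)))), ψ ∈ β ∧ Cfsg.IsInducedBlock M (((⨅ Q ∈ s, Subgroup.normalizer ((Q : Subgroup G) : Set G) : Subgroup G))) β b} : ℤ) - (Cfsg.blockRank p {ψ : Cfsg.IrrCharacter (((⨅ Q ∈ s, Subgroup.normalizer ((Q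 : Subgroup G) : Set G) : Subgroup G))) | ∃ β : Set (Cfsg.IrrCharacter (((⨅ Q ∈ s, Subgroup.normalizer ((Q : Subgroup G) : Set G) : Subgroup G)))), ψ ∈ β ∧ Cfsg.IsInducedBlock M (((⨅ Q ∈ s, Subgroup.normalizer ((Q : Subgroup G) : Set G) : Subgroup G))) β b} : ℤ)) =
      ∑ z ∈ E, if z ∈ Ns s then (-1 : ℤ) ^ (s.card - 1) * Φ (Subgroup.centralizer ({z} : Set G) ⊓ Ns s) else 0 := by
    intro s
    have h1 := hcount (Ns s)
    rw [mul_assoc]
    refine Eq.trans (congrArg (fun t : ℤ => (-1 : ℤ) ^ (s.card - 1) * t) h1) ?_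
    rw [Finset.mul_sum]
    refine Finset.sum_congr rfl fun z _ => ?_
    split_ifs
    · rfl
    · rw [mul_zero]
  rw [finsum_mem_congr rfl (fun s _ => hrhs s), finsum_mem_eq_finite_toFinset_sum _ (Set.toFinite _),
    Finset.sum_comm]
  refine Finset.sum_congr rfl fun z hz => ?_
  have hz' := (Finset.mem_filter.1 hz).2
  rw [← Finset.sum_filter, ← main hz'.2 (hzp z hz'.1) Φ]
  refine Finset.sum_congr ?_ fun s _ => rfl
  ext s
  rw [Finset.mem_filter, Finset.mem_filter, Set.Finite.mem_toFinset]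
  simp only [Finset.mem_univ, true_and]
  exact Iff.rfl

end Cfsg.Agent.S4651
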