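import Cfsg.Statements.S4653
import Cfsg.Agent.Lib.NormalPBlk
-- import your own Cfsg.Agent.* helpers here

set_option autoImplicit false
open Cfsg

namespace Cfsg.Agent.S4653

open Cfsg Cfsg.Agent.Lib Cfsg.Agent.Lib.BlockAlg Cfsg.Agent.Lib.BrauerPairs Cfsg.Agent.Lib.PairAlg
open Cfsg.Agent.Lib.PairMax Cfsg.Agent.Lib.BlkIdem Cfsg.Agent.Lib.NormalPBlk
open Cfsg.Agent.Lib.BlockGA Cfsg.Agent.Lib.BlockIdem Cfsg.Agent.Lib.BlockRing

theorem mem_ZAlg_top {M : Ideal AlgInt} [M.IsMaximal] {G : Type*} [Group G] [Finite G] {z : GA G}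
    (hz : z ∈ Subalgebra.center ℂ (GA G)) : z ∈ BrauerMap.ZAlg ℂ (⊤ : Subgroup G) := by
  refine ⟨BrauerMap.mem_suppAlg_top _, ?_⟩
  apply BrauerMap.mem_fixAlg_iff_coeff.mpr
  intro h _ g
  exact mem_center_iff.mp hz g h


/-- Fix a prime p and a maximal ideal M of the algebraic integers containing p. Let P be a normal p-subgroup of the finite group G and B a p-block of G. Then the idempotent of B is supported on C_G(P): its coefficient at every element of G outside C_G(P) is zero. -/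
theorem result {G : Type*} [Group G] [Fintype G] (p : ℕ) [Fact p.Prime] (M : Ideal Cfsg.AlgInt) (hM : Cfsg.IsPModular p M) (P : Subgroup G) [P.Normal] (hP : IsPGroup p P) (B : Set (Cfsg.IrrCharacter G)) (hB : Cfsg.IsPBlock M B) (g : G) (hg : g ∉ Subgroup.centralizer (P : Set G)) : Cfsg.blockCoeff B g = 0 := by
  have hMm : M.IsMaximal := hM.2.1
  have hch : CharP (Kf M) p := charP_Kf hM
  have := hMm.isPrime
  have hN : (⊤ : Subgroup G) ≤ Subgroup.normalizer (P : Set G) := by
    rw [Subgroup.normalizer_eq_top]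
  have h1 : BrauerMap.br P (bidG M B) = bidG M B :=
    br_eq_self_of_idem hM le_top hN hP (bidG_mem B) (bidG_mul_self hB)
  set C := Subgroup.centralizer (P : Set G) with hC
  have h2 : bidG M B ∈ BrauerMap.ZAlg (Kf M) C := by
    refine ⟨?_, BrauerMap.fixAlg_anti le_top (bidG_mem B).2⟩
    rw [← h1]
    exact BrauerMap.br_mem_suppAlg P _
  obtain ⟨z, hz, hzz, hzl, hzr⟩ := exists_lift h2 (bidG_mul_self hB)
  have hzt : z ∈ BrauerMap.ZAlg ℂ (⊤ : Subgroup G) := by
    refine ⟨BrauerMap.mem_suppAlg_top _, ?_⟩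
    intro x hx
    apply lift_fixed (M := M) hz hzz hzl (normalizer_le_normalizer_centralizer P (hN hx))
    rw [hzr]
    exact (bidG_mem B).2 x hx
  have h3 : eB B = z :=
    lift_unique (M := M) (mem_ZAlg_top (M := M) (eB_mem_center B)) hzt (eB_mul_self B) hzz
      (locA_eB hB) hzl hzr.symm
  have h4 : (eB B).coeff g = 0 := by
    rw [h3]
    exact hz.1 g hg
  exact h4

end Cfsg.Agent.S4653
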