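import Cfsg.Statements.S4655
import Cfsg.Agent.Lib.BrauerPairs
-- import your own Cfsg.Agent.* helpers here

set_option autoImplicit false
open Cfsg

namespace Cfsg.Agent.S4655

open Cfsg Cfsg.Agent.Lib Cfsg.Agent.Lib.BlockAlg Cfsg.Agent.Lib.BrauerPairs Cfsg.Agent.Lib.PairAlg
open Cfsg.Agent.Lib.PairMax Cfsg.Agent.Lib.BlkIdem


/-- Fix a prime p and a maximal ideal M of the algebraic integers containing p. Let (P, e) be a Brauer pair of the finite group G (P a p-subgroup, e a p-block of C_G(P)) and Q a subgroup of P. Then there is exactly one p-block f of C_G(Q) such that the Brauer pair (Q, f) lies below (P, e). -/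
theorem result {G : Type*} [Group G] [Fintype G] (p : ℕ) [Fact p.Prime] (M : Ideal Cfsg.AlgInt) (hM : Cfsg.IsPModular p M) (P Q : Subgroup G) (e : Set (Cfsg.IrrCharacter (Subgroup.centralizer (P : Set G)))) (hPe : Cfsg.IsBrauerPair p M P e) (hQP : Q ≤ P) : ∃! f : Set (Cfsg.IrrCharacter (Subgroup.centralizer (Q : Set G))), Cfsg.IsPBlock M f ∧ Cfsg.SubpairLE p M Q f P e := by
  have hMm : M.IsMaximal := hM.2.1
  have hch : CharP (Kf M) p := charP_Kf hM
  obtain ⟨f, hf⟩ := exists_sub (p := p) hasBlocks (bpair_of hPe) hQP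
  have hfp : BPair p Q f := hf.pair (bpair_of hPe)
  obtain ⟨b, hb, rfl⟩ := exists_bid hfp.2
  refine ⟨b, ⟨hb, subpairLE_of hb hPe.2 hf⟩, ?_⟩
  rintro c ⟨hc, hc2⟩
  exact bid_injective hc hb (unique_sub hasBlocks (bpair_of hPe) (subpairLE_to hc2) hf)

end Cfsg.Agent.S4655
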