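import Cfsg.Statements.S4659
import Cfsg.Agent.Lib.BrauerPairs
-- import your own Cfsg.Agent.* helpers here

set_option autoImplicit false
open Cfsg

namespace Cfsg.Agent.S4659

open Cfsg Cfsg.Agent.Lib Cfsg.Agent.Lib.BlockAlg Cfsg.Agent.Lib.BrauerPairs Cfsg.Agent.Lib.PairAlg
open Cfsg.Agent.Lib.PairMax Cfsg.Agent.Lib.BlkIdem


/-- Fix a prime p and a maximal ideal M of the algebraic integers containing p. If (P, e) is a maximal Brauer pair of the p-block B of the finite group G, then P is a defect group of B. -/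
theorem result {G : Type*} [Group G] [Fintype G] (p : ℕ) [Fact p.Prime] (M : Ideal Cfsg.AlgInt) (hM : Cfsg.IsPModular p M) (B : Set (Cfsg.IrrCharacter G)) (P : Subgroup G) (e : Set (Cfsg.IrrCharacter (Subgroup.centralizer (P : Set G)))) (hmax : Cfsg.IsMaximalBrauerPair p M B P e) : Cfsg.IsDefectGroup p M B P := by
  have hMm : M.IsMaximal := hM.2.1
  have hch : CharP (Kf M) p := charP_Kf hM
  obtain ⟨h1, h2⟩ := isMaximalBrauerPair_iff.mp hmax
  obtain ⟨hPe, hB, hBe⟩ := isBrauerPairOf_iff.mp h1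
  have hd := h2.defIn hasBlocks (isBlk_bidG hB) (bpair_of hPe) hBe
  apply (isDefectGroup_iff hB).mpr
  refine ⟨hPe.1, le_top, ?_, hd⟩
  intro h
  rw [h, zero_mul] at hBe
  exact (isBlk_bid hPe.2).ne_zero hBe.symm

end Cfsg.Agent.S4659
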