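import Cfsg.Statements.S4661
import Cfsg.Agent.Lib.DefPairs
-- import your own Cfsg.Agent.* helpers here

set_option autoImplicit false
open Cfsg

namespace Cfsg.Agent.S4661

open Cfsg Cfsg.Agent.Lib Cfsg.Agent.Lib.BlockAlg Cfsg.Agent.Lib.BrauerPairs Cfsg.Agent.Lib.PairAlg
open Cfsg.Agent.Lib.PairMax Cfsg.Agent.Lib.BlkIdem Cfsg.Agent.Lib.NormalPBlk
open Cfsg.Agent.Lib.BlockGA Cfsg.Agent.Lib.BlockIdem Cfsg.Agent.Lib.BlockRing
open Cfsg.Agent.Lib.DefPairs


/-- Fix a prime p and a maximal ideal M of the algebraic integers containing p. Let (P, e) be a maximal Brauer pair of the p-block B of the finite group G, Q ≤ P, and f the p-block of C_G(Q) with (Q, f) ≤ (P, e). Then C_P(Q) is contained in a defect group of f (as a block of the group C_G(Q)); and for some x in G the conjugate pair (x Q x⁻¹, conjugate of f) again lies below (P, e) and C_P(x Q x⁻¹) is a defect group of the conjugate of f in C_G(x Q x⁻¹). -/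
theorem result {G : Type*} [Group G] [Fintype G] (p : ℕ) [Fact p.Prime] (M : Ideal Cfsg.AlgInt) (hM : Cfsg.IsPModular p M) (B : Set (Cfsg.IrrCharacter G)) (P Q : Subgroup G) (e : Set (Cfsg.IrrCharacter (Subgroup.centralizer (P : Set G)))) (f : Set (Cfsg.IrrCharacter (Subgroup.centralizer (Q : Set G)))) (hmax : Cfsg.IsMaximalBrauerPair p M B P e) (hQP : Q ≤ P) (hf : Cfsg.IsPBlock M f) (hle : Cfsg.SubpairLE p M Q f P e) : (∃ D : Subgroup (Subgroup.centralizer (Q : Set G)), Cfsg.IsDefectGroup p M f D ∧ (P ⊓ Subgroup.centralizer (Q : Set G)).subgroupOf (Subgroup.centralizer (Q : Set G)) ≤ D) ∧ ∃ x : G, Cfsg.SubpairLE p M (Q.map (MulAut.conj x).toMonoidHom) (Cfsg.conjBlock Q x f) P e ∧ Cfsg.IsDefectGroup p M (Cfsg.conjBlock Q x f) ((P ⊓ Subgroup.centralizer ((Q.map (MulAut.conj x).toMonoidHom) : Set G)).subgroupOf (Subgroup.centralizer ((Q.map (MulAut.conj x).toMonoidHom) : Set G))) := by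
  have hMm : M.IsMaximal := hM.2.1
  have hch : CharP (Kf M) p := charP_Kf hM
  have := hMm.isPrime
  obtain ⟨h1, h2⟩ := isMaximalBrauerPair_iff.mp hmax
  obtain ⟨hPe, hB, hBe⟩ := isBrauerPairOf_iff.mp h1
  have hPle := subpairLE_to hle
  have hCN : Subgroup.centralizer (Q : Set G) ≤ Subgroup.normalizer (Q : Set G) :=
    centralizer_le_normalizer Q
  have hst : ∀ x ∈ Subgroup.centralizer (Q : Set G),
      BrauerMap.cj x (bid M (Subgroup.centralizer (Q : Set G)) f) = bid M _ f :=
    (bid_mem_ZAlg _ f).2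
  refine ⟨?_, ?_⟩
  · obtain ⟨D, hD, hRD⟩ := exists_defectGroup_ge (p := p) hf (hPe.1.to_le inf_le_left)
      (inf_le_right : P ⊓ Subgroup.centralizer (Q : Set G) ≤ _)
      (br_ne_zero hasBlocks (bpair_of hPe) hPle hCN)
    exact ⟨_, isDefectGroup_subgroupOf hf hD, Subgroup.comap_mono hRD⟩
  · obtain ⟨D, hD⟩ := exists_defectGroup_sub (p := p) hf
    obtain ⟨x, hx, hxD⟩ := exists_good_conj hasBlocks (isBlk_bidG hB) (bpair_of hPe) hBe h2 hPle hCN
      hst hD
    have hcf : IsPBlock M (conjBlock Q x f) := isPBlock_conjBlock x hf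
    refine ⟨x, subpairLE_of hcf hPe.2 (by rw [bid_conjBlock]; exact hx), ?_⟩
    have hC' : (Subgroup.centralizer (Q : Set G)).map (MulAut.conj x).toMonoidHom =
        Subgroup.centralizer ((Q.map (MulAut.conj x).toMonoidHom : Subgroup G) : Set G) := by
      ext g
      rw [mem_map_conj_iff]
      exact BrauerMap.mem_centralizer_map_conj.symm
    have hD' := dg_conj hD x (H' := Subgroup.centralizer
      ((Q.map (MulAut.conj x).toMonoidHom : Subgroup G) : Set G))
      (fun g => BrauerMap.mem_centralizer_map_conj)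
    rw [← hxD, hC', ← bid_conjBlock] at hD'
    exact isDefectGroup_subgroupOf hcf hD'

end Cfsg.Agent.S4661
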