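import Cfsg.Statements.S4662
import Cfsg.Agent.Lib.DefPairs
-- import your own Cfsg.Agent.* helpers here

set_option autoImplicit false
open Cfsg

namespace Cfsg.Agent.S4662

open Cfsg Cfsg.Agent.Lib Cfsg.Agent.Lib.BlockAlg Cfsg.Agent.Lib.BrauerPairs Cfsg.Agent.Lib.PairAlg
open Cfsg.Agent.Lib.PairMax Cfsg.Agent.Lib.BlkIdem Cfsg.Agent.Lib.NormalPBlk
open Cfsg.Agent.Lib.BlockGA Cfsg.Agent.Lib.BlockIdem Cfsg.Agent.Lib.BlockRing
open Cfsg.Agent.Lib.DefPairs


/-- Fix a prime p and a maximal ideal M of the algebraic integers containing p. Let (P, e) be a maximal Brauer pair of the p-block B of the finite group G, Q ≤ P, and f the p-block of C_G(Q) with (Q, f) ≤ (P, e). Let T be the stabilizer of f in N_G(Q). Then the idempotent of f is a block idempotent of T, and N_P(Q) is contained in a defect group of that block of T; moreover for some x in G the conjugate pair (x Q x⁻¹, conjugate of f) again lies below (P, e) and, with T' the stabilizer of the conjugate of f in N_G(x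 Q x⁻¹), N_P(x Q x⁻¹) is a defect group of the block of T' whose idempotent is that of the conjugate of f. -/
theorem result {G : Type*} [Group G] [Fintype G] (p : ℕ) [Fact p.Prime] (M : Ideal Cfsg.AlgInt) (hM : Cfsg.IsPModular p M) (B : Set (Cfsg.IrrCharacter G)) (P Q : Subgroup G) (e : Set (Cfsg.IrrCharacter (Subgroup.centralizer (P : Set G)))) (f : Set (Cfsg.IrrCharacter (Subgroup.centralizer (Q : Set G)))) (hmax : Cfsg.IsMaximalBrauerPair p M B P e) (hQP : Q ≤ P) (hf : Cfsg.IsPBlock M f) (hle : Cfsg.SubpairLE p M Q f P e) (T : Subgroup G) (hT : ∀ y : G, y ∈ T ↔ y ∈ Subgroup.normalizer (Q : Set G) ∧ Cfsg.StabilizesBlock (Subgroup.centralizer (Q : Set G)) f y) : (∃ F : Set (Cfsg.IrrCharacter T), Cfsg.IsPBlock M F ∧ (∀ t : T, Cfsg.blockCoeff F t = Cfsg.subgroupBlockCoeff (Subgroup.centralizer (Q : Set G)) f (t : G)) ∧ ∃ D : Subgroup T, Cfsg.IsDefectGroup p M F D ∧ (P ⊓ Subgroup.normalizer (Q : Set G)).subgroupOf T ≤ D) ∧ ∃ x : G, Cfsg.SubpairLE p M (Q.map (MulAut.conj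 x).toMonoidHom) (Cfsg.conjBlock Q x f) P e ∧ ∀ (T' : Subgroup G), (∀ y : G, y ∈ T' ↔ y ∈ Subgroup.normalizer ((Q.map (MulAut.conj x).toMonoidHom) : Set G) ∧ Cfsg.StabilizesBlock (Subgroup.centralizer ((Q.map (MulAut.conj x).toMonoidHom) : Set G)) (Cfsg.conjBlock Q x f) y) → ∃ F' : Set (Cfsg.IrrCharacter T'), Cfsg.IsPBlock M F' ∧ (∀ t : T', Cfsg.blockCoeff F' t = Cfsg.subgroupBlockCoeff (Subgroup.centralizer ((Q.map (MulAut.conj x).toMonoidHom) : Set G)) (Cfsg.conjBlock Q x f) (t : G)) ∧ Cfsg.IsDefectGroup p M F' ((P ⊓ Subgroup.normalizer ((Q.map (MulAut.conj x).toMonoidHom) : Set G)).subgroupOf T') := by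
  have hMm : M.IsMaximal := hM.2.1
  have hch : CharP (Kf M) p := charP_Kf hM
  have := hMm.isPrime
  obtain ⟨h1, h2⟩ := isMaximalBrauerPair_iff.mp hmax
  obtain ⟨hPe, hB, hBe⟩ := isBrauerPairOf_iff.mp h1
  have hPle := subpairLE_to hle
  have hQp : IsPGroup p Q := hPe.1.to_le hQP
  have gen : ∀ (R : Subgroup G) (g : Set (IrrCharacter (Subgroup.centralizer (R : Set G))))
      (U : Subgroup G), IsPBlock M g → (∀ y : G, y ∈ U ↔ y ∈ Subgroup.normalizer (R : Set G) ∧
        StabilizesBlock (Subgroup.centralizer (R : Set G)) g y) →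
      U = stab (Subgroup.normalizer (R : Set G)) (bid M (Subgroup.centralizer (R : Set G)) g) := by
    intro R g U hg hU
    ext y
    rw [hU, mem_stab]
    refine and_congr_right fun hy => ?_
    exact stabilizesBlock_iff (normalizer_le_normalizer_centralizer R hy) hg
  have gen2 : ∀ (R : Subgroup G) (g : Set (IrrCharacter (Subgroup.centralizer (R : Set G))))
      (U : Subgroup G), IsPBlock M g → IsPGroup p R →
      U = stab (Subgroup.normalizer (R : Set G)) (bid M (Subgroup.centralizer (R : Set G)) g) →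
      ∃ F : Set (IrrCharacter U), IsPBlock M F ∧ bid M U F = bid M _ g ∧
        ∀ t : U, blockCoeff F t = subgroupBlockCoeff (Subgroup.centralizer (R : Set G)) g (t : G) := by
    intro R g U hg hR hU
    have hblk := isBlk_bid hg
    apply exists_block_of_stable (p := p) hM
    · rw [hU]
      intro x hx
      exact ⟨self_le_normalizer R hx, (mem_fixAlg_of_supp_centralizer hblk.mem.1) x hx⟩
    · rw [hU]; exact stab_le _ _
    · rw [hU]
      intro x hx
      exact ⟨centralizer_le_normalizer R hx, hblk.mem.2 x hx⟩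
    · exact hR
    · exact hg
    · rw [hU]
      intro x hx
      exact hx.2
  have hTs := gen Q f T hf hT
  obtain ⟨F, hF, hFf, hFc⟩ := gen2 Q f T hf hQp hTs
  have hTN : T ≤ Subgroup.normalizer (Q : Set G) := by rw [hTs]; exact stab_le _ _
  have hst : ∀ x ∈ T, BrauerMap.cj x (bid M (Subgroup.centralizer (Q : Set G)) f) = bid M _ f := by
    rw [hTs]; exact fun x hx => hx.2
  refine ⟨⟨F, hF, hFc, ?_⟩, ?_⟩
  · have h3 := inf_stab_eq hasBlocks (bpair_of hPe) hPle
    rw [← hTs] at h3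
    have h4 := br_ne_zero hasBlocks (bpair_of hPe) hPle hTN
    rw [← hFf] at h4
    obtain ⟨D, hD, hRD⟩ := exists_defectGroup_ge (p := p) hF (hPe.1.to_le inf_le_left)
      (inf_le_right : P ⊓ T ≤ T) h4
    refine ⟨_, isDefectGroup_subgroupOf hF hD, ?_⟩
    rw [← h3]
    exact Subgroup.comap_mono hRD
  · obtain ⟨D, hD⟩ := exists_defectGroup_sub (p := p) hF
    rw [hFf] at hD
    obtain ⟨x, hx, hxD⟩ := exists_good_conj hasBlocks (isBlk_bidG hB) (bpair_of hPe) hBe h2 hPle hTN
      hst hD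
    have hcf : IsPBlock M (conjBlock Q x f) := isPBlock_conjBlock x hf
    have hx' : PLE p (Q.map (MulAut.conj x).toMonoidHom, bid M _ (conjBlock Q x f))
        (P, bid M _ e) := by rw [bid_conjBlock]; exact hx
    refine ⟨x, subpairLE_of hcf hPe.2 hx', ?_⟩
    intro T' hT'
    have hTs' := gen _ _ T' hcf hT'
    obtain ⟨F', hF', hFf', hFc'⟩ := gen2 _ _ T' hcf (hQp.map _) hTs'
    refine ⟨F', hF', hFc', ?_⟩
    have hTT : T.map (MulAut.conj x).toMonoidHom = T' := by
      rw [hTs, hTs', map_stab_eq, bid_conjBlock]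
    have h3 := inf_stab_eq hasBlocks (bpair_of hPe) hx'
    rw [← hTs'] at h3
    have hD' := dg_conj hD x (H' := T') (fun g => by rw [← hTT, mem_map_conj_iff])
    rw [← hxD, hTT, ← bid_conjBlock, ← hFf', h3] at hD'
    exact isDefectGroup_subgroupOf hF' hD'

end Cfsg.Agent.S4662
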