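import Cfsg.Statements.S4664
import Cfsg.Agent.Lib.BlockOsima
import Cfsg.Agent.Lib.BlockAlg
import Cfsg.Agent.Lib.NormalPBlk
-- import your own Cfsg.Agent.* helpers here

set_option autoImplicit false
open Cfsg

namespace Cfsg.Agent.S4664

open Cfsg Cfsg.Agent.Lib Cfsg.Agent.Lib.BlockAlg Cfsg.Agent.Lib.BrauerPairs Cfsg.Agent.Lib.PairAlg
open Cfsg.Agent.Lib.PairMax Cfsg.Agent.Lib.BlkIdem Cfsg.Agent.Lib.NormalPBlk
open Cfsg.Agent.Lib.BlockGA Cfsg.Agent.Lib.BlockIdem Cfsg.Agent.Lib.BlockRing

theorem mem_adjoin {G : Type*} [Group G] [Finite G] {χ : G → ℂ} (hχ : IsCharacter G χ) {m : ℕ}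
    (hm : 0 < m) {g : G} (hg : orderOf g ∣ m) :
    χ g ∈ IntermediateField.adjoin ℚ ({Complex.exp (2 * Real.pi * Complex.I / (m : ℂ))} : Set ℂ) := by
  obtain ⟨n, ρ, rfl⟩ := hχ
  obtain ⟨μ, h1, h2⟩ := CharValues.exists_eigenvalues ρ g
  have h3 := h2 1
  simp only [pow_one] at h3
  rw [h3]
  apply sum_mem
  intro i _
  have hz := Complex.isPrimitiveRoot_exp m hm.ne'
  have : NeZero m := ⟨hm.ne'⟩
  have h4 : μ i ^ m = 1 := by
    obtain ⟨c, rfl⟩ := hg
    rw [pow_mul, h1, one_pow]
  obtain ⟨j, _, hj⟩ := hz.eq_pow_of_pow_eq_one h4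
  rw [← hj]
  exact pow_mem (IntermediateField.subset_adjoin _ _ (Set.mem_singleton _)) j


/-- Fix a prime p and a maximal ideal M of the algebraic integers containing p, and let B be a p-block of the finite group G. Let m be the p'-part of the order of G and η = exp(2πi/m). Then every coefficient of the idempotent of B lies in the cyclotomic field ℚ(η). -/
theorem result {G : Type*} [Group G] [Fintype G] (p : ℕ) [Fact p.Prime] (M : Ideal Cfsg.AlgInt) (hM : Cfsg.IsPModular p M) (B : Set (Cfsg.IrrCharacter G)) (hB : Cfsg.IsPBlock M B) (g : G) : Cfsg.blockCoeff B g ∈ IntermediateField.adjoin ℚ ({Complex.exp (2 * Real.pi * Complex.I / ((Nat.card G / p ^ (Nat.card G).factorization p : ℕ) : ℂ))} : Set ℂ) := by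
  classical
  by_cases hpg : p ∣ orderOf g
  · rw [BlockOsima.blockCoeff_eq_zero hM hB hpg]
    exact zero_mem _
  have hcard : Nat.card G ≠ 0 := Nat.card_pos.ne'
  have hm : 0 < Nat.card G / p ^ (Nat.card G).factorization p :=
    Nat.ordCompl_pos p hcard
  have hdvd : orderOf g⁻¹ ∣ Nat.card G / p ^ (Nat.card G).factorization p := by
    rw [orderOf_inv]
    have h1 : orderOf g ∣ p ^ (Nat.card G).factorization p *
        (Nat.card G / p ^ (Nat.card G).factorization p) := by
      rw [Nat.ordProj_mul_ordCompl_eq_self]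
      exact orderOf_dvd_natCard g
    have h2 : (orderOf g).Coprime (p ^ (Nat.card G).factorization p) :=
      (((Nat.Prime.coprime_iff_not_dvd (Fact.out : p.Prime)).mpr hpg).symm).pow_right _
    exact h2.dvd_of_dvd_mul_left h1
  rw [blockCoeff_eq_sum]
  apply mul_mem
  · apply inv_mem
    exact natCast_mem _ _
  · apply sum_mem
    intro χ _
    split_ifs with hχ
    · apply mul_mem
      · exact mem_adjoin χ.2.isCharacter hm (by rw [orderOf_one]; exact one_dvd _)
      · have h5 := mem_adjoin χ.2.isCharacter hm hdvd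
        rwa [χ.2.isCharacter.inv] at h5
    · exact zero_mem _

end Cfsg.Agent.S4664
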