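import Cfsg.Statements.S4665
import Cfsg.Agent.Lib.NormalPBlk
import Cfsg.Agent.Lib.CharBasic2
-- import your own Cfsg.Agent.* helpers here

set_option autoImplicit false
open Cfsg

namespace Cfsg.Agent.S4665

open Cfsg Cfsg.Agent.Lib Cfsg.Agent.Lib.BlockAlg Cfsg.Agent.Lib.BrauerPairs Cfsg.Agent.Lib.PairAlg
open Cfsg.Agent.Lib.PairMax Cfsg.Agent.Lib.BlkIdem Cfsg.Agent.Lib.NormalPBlk
open Cfsg.Agent.Lib.BlockGA Cfsg.Agent.Lib.BlockIdem Cfsg.Agent.Lib.BlockRing

theorem gen_of_comb {G : Type*} [Group G] [Finite G] {B : Set (IrrCharacter G)} {θ : G → ℂ}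
    (h : ∃ n : IrrCharacter G → ℤ, ∀ g : G, θ g = ∑ᶠ ψ ∈ B, (n ψ : ℂ) * (ψ : G → ℂ) g) :
    IsGeneralizedCharacter G θ := by
  classical
  obtain ⟨n, hn⟩ := h
  have h1 : θ = ∑ ψ ∈ (Set.toFinite B).toFinset, (n ψ : ℂ) • (ψ : G → ℂ) := by
    funext g
    rw [hn, finsum_mem_eq_finite_toFinset_sum _ (Set.toFinite _), Finset.sum_apply]
    rfl
  rw [h1]
  exact CharBasic.isGeneralized_sum _ _ fun ψ _ => ψ.2.isGeneralized.intCast_smul _


/-- Fix a prime p, a maximal ideal M of the algebraic integers containing p, and a p-block B of the finite group G, and let p^a be the p-part of the order of G. Let χ be an integer combination of the irreducible characters in B. If the function that agrees with χ on p-regular elements and vanishes on p-singular elements is again an integer combination of the irreducible characters in B, then p^a divides χ(1). -/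
theorem result {G : Type*} [Group G] [Fintype G] (p : ℕ) [Fact p.Prime] (M : Ideal Cfsg.AlgInt) (hM : Cfsg.IsPModular p M) (B : Set (Cfsg.IrrCharacter G)) (hB : Cfsg.IsPBlock M B) (χ : G → ℂ) (hχ : (∃ n : Cfsg.IrrCharacter G → ℤ, ∀ g : G, χ g = ∑ᶠ ψ ∈ B, (n ψ : ℂ) * (ψ : G → ℂ) g)) (h0 : (∃ n : Cfsg.IrrCharacter G → ℤ, ∀ g : G, Cfsg.pRegularPart p χ g = ∑ᶠ ψ ∈ B, (n ψ : ℂ) * (ψ : G → ℂ) g)) : ∃ k : ℤ, χ 1 = (p ^ (Nat.card G).factorization p : ℂ) * k := by
  classical
  have h1 : IsGeneralizedCharacter G (pRegularPart p χ) := gen_of_comb h0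
  obtain ⟨P⟩ := (inferInstance : Nonempty (Sylow p G))
  have := Fintype.ofFinite P
  obtain ⟨k, hk⟩ := (h1.restrict (P : Subgroup G)).classInner_int
    (CharBasic.isGeneralized_one (G := P))
  refine ⟨k, ?_⟩
  have hcard : Nat.card P = p ^ (Nat.card G).factorization p := P.card_eq_multiplicity
  have h2 : classInner (fun h : P => pRegularPart p χ (h : G)) (1 : P → ℂ) =
      (Nat.card P : ℂ)⁻¹ * χ 1 := by
    rw [CharBasic.classInner_def]
    congr 1
    rw [Finset.sum_eq_single 1]
    · have h3 : pRegularPart p χ ((1 : P) : G) = χ 1 := by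
        unfold pRegularPart
        rw [if_pos]
        · rfl
        · unfold IsPRegular
          rw [OneMemClass.coe_one, orderOf_one]
          exact fun h => (Fact.out : p.Prime).one_lt.not_ge (Nat.le_of_dvd one_pos h)
      rw [h3]
      simp
    · intro x _ hx
      have h3 : pRegularPart p χ (x : G) = 0 := by
        unfold pRegularPart
        rw [if_neg]
        unfold IsPRegular
        rw [not_not]
        rw [Subgroup.orderOf_coe]
        obtain ⟨j, hj⟩ := (IsPGroup.iff_orderOf.mp P.isPGroup') x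
        rw [hj]
        apply dvd_pow_self
        rintro rfl
        rw [pow_zero, orderOf_eq_one_iff] at hj
        exact hx hj
      rw [h3, zero_mul]
    · intro h; exact absurd (Finset.mem_univ _) h
  have hk2 : (Nat.card P : ℂ)⁻¹ * χ 1 = k := h2.symm.trans hk
  rw [hcard] at hk2
  have hp0 : ((p ^ (Nat.card G).factorization p : ℕ) : ℂ) ≠ 0 :=
    Nat.cast_ne_zero.mpr (pow_ne_zero _ (Fact.out : p.Prime).ne_zero)
  have h4 := (inv_mul_eq_iff_eq_mul₀ hp0).mp hk2
  rw [h4]
  push_cast
  ring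

end Cfsg.Agent.S4665
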