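import Cfsg.Statements.S4666
import Cfsg.Agent.Lib.RegGen
-- import your own Cfsg.Agent.* helpers here

set_option autoImplicit false
open Cfsg

namespace Cfsg.Agent.S4666

open Cfsg Cfsg.Agent.Lib Cfsg.Agent.Lib.BlockGA Cfsg.Agent.Lib.BlockIdem Cfsg.Agent.Lib.BlockRing
open Cfsg.Agent.Lib.BlockPair

theorem pRegularPart_eq {G : Type*} [Group G] (p : ℕ) (χ : G → ℂ) :
    pRegularPart p χ = BlockPair.preg p χ := by
  classical
  funext g
  unfold pRegularPart BlockPair.preg IsPRegular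
  by_cases h : p ∣ orderOf g <;> simp [h]


/-- Fix a prime p and a maximal ideal M of the algebraic integers containing p, and a p-block B of the finite group G of defect d. For every integer combination χ of the irreducible characters in B, p^d times the function that agrees with χ on p-regular elements and vanishes elsewhere is again an integer combination of the irreducible characters in B. -/
theorem result {G : Type*} [Group G] [Fintype G] (p : ℕ) [Fact p.Prime] (M : Ideal Cfsg.AlgInt) (hM : Cfsg.IsPModular p M) (B : Set (Cfsg.IrrCharacter G)) (hB : Cfsg.IsPBlock M B) (χ : G → ℂ) (hχ : (∃ n : Cfsg.IrrCharacter G → ℤ, ∀ g : G, χ g = ∑ᶠ ψ ∈ B, (n ψ : ℂ) * (ψ : G → ℂ) g)) : (∃ n : Cfsg.IrrCharacter G → ℤ, ∀ g : G, (p ^ Cfsg.blockDefect p B : ℂ) * Cfsg.pRegularPart p χ g = ∑ᶠ ψ ∈ B, (n ψ : ℂ) * (ψ : G → ℂ) g) := by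
  classical
  have hMp := BlockRing.isPrime hM
  obtain ⟨n, hn⟩ := hχ
  have hc : ∀ χ₁ : IrrCharacter G, ∃ c : IrrCharacter G → ℤ, χ₁ ∈ B →
      ∀ ψ : IrrCharacter G, ((p ^ blockDefect p B : ℕ) : ℂ) *
        classInner (preg p (χ₁ : G → ℂ)) (ψ : G → ℂ) = c ψ := by
    intro χ₁
    by_cases h : χ₁ ∈ B
    · choose c hc using fun ψ => RegGen.pow_defect_inner (p := p) hM h ψ
      exact ⟨c, fun _ => hc⟩
    · exact ⟨0, fun h' => absurd h' h⟩
  choose c hc using hc
  refine ⟨fun ψ => ∑ χ₁ ∈ (Set.toFinite B).toFinset, n χ₁ * c χ₁ ψ, ?_⟩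
  intro g
  have h1 : pRegularPart p χ g = ∑ χ₁ ∈ (Set.toFinite B).toFinset,
      (n χ₁ : ℂ) * preg p (χ₁ : G → ℂ) g := by
    rw [pRegularPart_eq]
    unfold preg
    split_ifs with hg
    · simp
    · rw [hn, finsum_mem_eq_finite_toFinset_sum _ (Set.toFinite _)]
  rw [h1, finsum_mem_eq_finite_toFinset_sum _ (Set.toFinite _), Finset.mul_sum]
  have h2 : ∀ ψ : IrrCharacter G, ((∑ χ₁ ∈ (Set.toFinite B).toFinset, n χ₁ * c χ₁ ψ : ℤ) : ℂ) =
      ∑ χ₁ ∈ (Set.toFinite B).toFinset, (n χ₁ : ℂ) * (c χ₁ ψ : ℂ) := by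
    intro ψ; push_cast; rfl
  simp only [h2, Finset.sum_mul]
  rw [Finset.sum_comm]
  apply Finset.sum_congr rfl
  intro χ₁ hχ₁
  have hχB : χ₁ ∈ B := (Set.Finite.mem_toFinset _).mp hχ₁
  have hcf : IsClassFunction G (preg p (χ₁ : G → ℂ)) := isClassFunction_preg χ₁.2.isClassFunction
  have h3 : preg p (χ₁ : G → ℂ) g = ∑ ψ ∈ (Set.toFinite B).toFinset,
      classInner (preg p (χ₁ : G → ℂ)) (ψ : G → ℂ) * (ψ : G → ℂ) g := by
    rw [hcf.expansion_apply g]
    symm
    apply Finset.sum_subset (Finset.subset_univ _)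
    intro ψ _ hψ
    have h4 : ¬ SameBlock M (χ₁ : G → ℂ) (ψ : G → ℂ) := by
      intro h
      apply hψ
      rw [Set.Finite.mem_toFinset]
      exact mem_of_sameBlock hB hχB h
    have h5 := pair_eq_zero hM χ₁ ψ h4
    rw [pair_eq_classInner] at h5
    have h6 := (mul_eq_zero.mp h5).resolve_left (Nat.cast_ne_zero.mpr Nat.card_pos.ne')
    rw [h6, zero_mul]
  rw [h3, Finset.mul_sum, Finset.mul_sum]
  apply Finset.sum_congr rfl
  intro ψ _
  rw [← hc χ₁ hχB ψ]
  push_cast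
  ring

end Cfsg.Agent.S4666
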