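import Cfsg.Statements.S4668
import Cfsg.Agent.S4653
import Cfsg.Agent.Lib.H49Base
import Cfsg.Agent.Lib.BlockOsima
-- import your own Cfsg.Agent.* helpers here

set_option autoImplicit false
open Cfsg

namespace Cfsg.Agent.S4668

open Cfsg Cfsg.Agent.Lib Cfsg.Agent.Lib.BlockAlg Cfsg.Agent.Lib.BrauerPairs Cfsg.Agent.Lib.PairAlg
open Cfsg.Agent.Lib.PairMax Cfsg.Agent.Lib.BlkIdem Cfsg.Agent.Lib.NormalPBlk
open Cfsg.Agent.Lib.BlockGA Cfsg.Agent.Lib.BlockIdem Cfsg.Agent.Lib.BlockRing


/-- Fix a prime p and a maximal ideal M of the algebraic integers containing p. Let Q₀ < Q₁ < ⋯ < Q_m be a strictly increasing chain of p-subgroups of the finite group G and N the intersection of their normalizers. Then every block idempotent of N is supported on C_G(Q_m): for every p-block E of N, the idempotent coefficient of E vanishes at every element of N outside C_G(Q_m). -/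
theorem result {G : Type*} [Group G] [Fintype G] (p : ℕ) [Fact p.Prime] (M : Ideal Cfsg.AlgInt) (hM : Cfsg.IsPModular p M) (m : ℕ) (Q : Fin (m + 1) → Subgroup G) (hQ : StrictMono Q) (hQp : ∀ i, IsPGroup p (Q i)) (N : Subgroup G) (hN : ∀ g : G, g ∈ N ↔ ∀ i, g ∈ Subgroup.normalizer (Q i : Set G)) (E : Set (Cfsg.IrrCharacter N)) (hE : Cfsg.IsPBlock M E) (n : N) (hn : (n : G) ∉ Subgroup.centralizer (Q (Fin.last m) : Set G)) : Cfsg.blockCoeff E n = 0 := by
  classical
  have hMm : M.IsMaximal := hM.2.1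
  by_cases hpn : p ∣ orderOf n
  · exact BlockOsima.blockCoeff_eq_zero hM hE hpn
  set R : Subgroup G := Q (Fin.last m) ⊓ N with hR
  have hRn : (R.subgroupOf N).Normal := by
    refine ⟨fun r hr g => ?_⟩
    rw [Subgroup.mem_subgroupOf] at hr ⊢
    refine ⟨?_, (g * r * g⁻¹).2⟩
    exact (Subgroup.mem_normalizer_iff.mp ((hN g).mp g.2 (Fin.last m)) _).mp hr.1
  have hRp : IsPGroup p (R.subgroupOf N) :=
    ((hQp (Fin.last m)).to_le inf_le_left).comap_of_injective N.subtype N.subtype_injective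
  by_cases hnR : n ∈ Subgroup.centralizer ((R.subgroupOf N : Subgroup N) : Set N)
  swap
  · exact Cfsg.Agent.S4653.result p M hM (R.subgroupOf N) hRp E hE n hnR
  exfalso
  apply hn
  have hcR : ∀ x ∈ R, Commute (n : G) x := by
    intro x hx
    rw [Subgroup.mem_centralizer_iff] at hnR
    have := hnR ⟨x, hx.2⟩ (Subgroup.mem_subgroupOf.mpr hx)
    exact (congrArg Subtype.val this).symm
  have hmono : ∀ i j : Fin (m + 1), i ≤ j → Q i ≤ Q j := fun i j h => hQ.monotone h
  have hord : (orderOf (n : G)).Coprime p := by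
    rw [Subgroup.orderOf_coe]
    exact ((Nat.Prime.coprime_iff_not_dvd (Fact.out : p.Prime)).mpr hpn).symm
  have key : ∀ i : ℕ, ∀ hi : i < m + 1, ∀ x ∈ Q ⟨i, hi⟩, Commute (n : G) x := by
    intro i
    induction i with
    | zero =>
      intro hi x hx
      apply hcR
      refine ⟨hmono _ _ (Fin.le_last _) hx, (hN x).mpr ?_⟩
      intro j
      exact self_le_normalizer _ (hmono _ _ (Fin.mk_le_mk.mpr (Nat.zero_le _)) hx)
    | succ i ih =>
      intro hi
      have hi' : i < m + 1 := by omega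
      have hle : Q ⟨i, hi'⟩ ≤ Q ⟨i + 1, hi⟩ := hmono _ _ (Fin.mk_le_mk.mpr (by omega))
      apply H49Base.thompson_axb (A := Q ⟨i, hi'⟩) (hQp _) (hQp _)
        (hle.trans (self_le_normalizer _)) hord (fun a ha => ih hi' a ha) ((hN _).mp n.2 _)
      intro x hx hxA
      apply hcR
      refine ⟨hmono _ _ (Fin.le_last _) hx, (hN x).mpr ?_⟩
      intro j
      by_cases hj : (j : ℕ) ≤ i
      · apply centralizer_le_normalizer
        rw [Subgroup.mem_centralizer_iff]
        intro a ha
        exact (hxA a (hmono j ⟨i, hi'⟩ hj ha)).eq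
      · apply self_le_normalizer
        have hj' : i + 1 ≤ (j : ℕ) := by omega
        exact hmono ⟨i + 1, hi⟩ j hj' hx
  rw [Subgroup.mem_centralizer_iff]
  intro x hx
  exact (key m (Nat.lt_succ_self m) x hx).eq.symm

end Cfsg.Agent.S4668
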