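import Cfsg.Statements.S4670
import Cfsg.Agent.Lib.BrCorr

set_option autoImplicit false
open Cfsg

namespace Cfsg.Agent.S4670

/-- Fix a prime p and a maximal ideal M of the algebraic integers containing p. Let P be a p-subgroup of the finite group G and H a subgroup containing N_G(P). For every p-block B of G with defect group P there is exactly one p-block c of H with defect group P whose idempotent agrees with that of B, modulo the local ideal at M, at every element of C_G(P) (their Brauer-map images at P coincide); and every p-block c of H with defect group P arises in this way from exactly one such B. This is the Brauer correspondence over H. -/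
theorem result {G : Type*} [Group G] [Fintype G] (p : ℕ) [Fact p.Prime] (M : Ideal Cfsg.AlgInt) (hM : Cfsg.IsPModular p M) (P H : Subgroup G) (hP : IsPGroup p P) (hH : Subgroup.normalizer (P : Set G) ≤ H) : (∀ B : Set (Cfsg.IrrCharacter G), Cfsg.IsPBlock M B → Cfsg.IsDefectGroup p M B P → ∃! c : Set (Cfsg.IrrCharacter H), Cfsg.IsPBlock M c ∧ Cfsg.IsDefectGroup p M c (P.subgroupOf H) ∧ ∀ x : G, x ∈ Subgroup.centralizer (P : Set G) → Cfsg.MemLocalIdeal M (Cfsg.blockCoeff B x - Cfsg.subgroupBlockCoeff H c x)) ∧ (∀ c : Set (Cfsg.IrrCharacter H), Cfsg.IsPBlock M c → Cfsg.IsDefectGroup p M c (P.subgroupOf H) → ∃! B : Set (Cfsg.IrrCharacter G), Cfsg.IsPBlock M B ∧ Cfsg.IsDefectGroup p M B P ∧ ∀ x : G, x ∈ Subgroup.centralizer (P : Set G) → Cfsg.MemLocalIdeal M (Cfsg.blockCoeff B x - Cfsg.subgroupBlockCoeff H c x)) := by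
  classical
  haveI : M.IsMaximal := hM.2.1
  exact Cfsg.Agent.Lib.BrCorr.result hM P H hP hH


end Cfsg.Agent.S4670
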