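import Cfsg.Statements.S4672
import Cfsg.Agent.Lib.BlockKnorr3

set_option autoImplicit false
open Cfsg

namespace Cfsg.Agent.S4672

open Cfsg Cfsg.Agent.Lib.BlockRing Cfsg.Agent.Lib.BlockIdem Cfsg.Agent.Lib.BlockCover Cfsg.Agent.Lib.BlockKnorr
  Cfsg.Agent.Lib.BlockGA

/-- Fix a prime p and a maximal ideal M of the algebraic integers containing p. Let N be a normal subgroup of the finite group G of p-power index and c a p-block of N stable under conjugation by G. Then the idempotent of c is a block idempotent of G: there is a p-block B of G whose idempotent coefficients agree with those of c on N and vanish off N; and for every defect group P of such a block B, G = NP and P ∩ N is a defect group of c. -/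
theorem result {G : Type*} [Group G] [Fintype G] (p : ℕ) [Fact p.Prime] (M : Ideal Cfsg.AlgInt) (hM : Cfsg.IsPModular p M) (N : Subgroup G) [N.Normal] (hN : ∃ k : ℕ, N.index = p ^ k) (c : Set (Cfsg.IrrCharacter N)) (hc : Cfsg.IsPBlock M c) (hst : ∀ x : G, Cfsg.StabilizesBlock N c x) : (∃ B : Set (Cfsg.IrrCharacter G), Cfsg.IsPBlock M B ∧ ∀ g : G, Cfsg.blockCoeff B g = Cfsg.subgroupBlockCoeff N c g) ∧ ∀ B : Set (Cfsg.IrrCharacter G), Cfsg.IsPBlock M B → (∀ g : G, Cfsg.blockCoeff B g = Cfsg.subgroupBlockCoeff N c g) → ∀ P : Subgroup G, Cfsg.IsDefectGroup p M B P → N ⊔ P = ⊤ ∧ Cfsg.IsDefectGroup p M c ((P ⊓ N).subgroupOf N) := by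
  classical
  haveI := isPrime hM
  haveI := Fintype.ofFinite N
  have hst' : Stable (G := G) c := by
    intro g θ hθ ψ hψ
    have h1 := (stabilizes_iff hc).1 (hst g)
    have h2 : ψ = cjEquiv g θ := Subtype.ext hψ
    rw [h2]
    exact (h1 θ).1 hθ
  constructor
  · obtain ⟨θ, hθ⟩ := isPBlock_nonempty hc
    obtain ⟨χ, hχ⟩ := exists_above (G := G) θ
    have hB : IsPBlock M (blockOf M (χ : G → ℂ)) := isPBlock_blockOf χ
    refine ⟨blockOf M (χ : G → ℂ), hB, fun g => ?_⟩
    have h1 := incH_eB_eq hM hN hc hst' hB ⟨χ, mem_blockOf_self χ, θ, hθ, hχ⟩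
    rw [← coeff_incH_eB, h1, coeff_eB]
  · intro B hB hcoef P hP
    have h1 := covers_of_coeff hM hc hst' hB hcoef
    have h2 := sup_eq_top hM hN hc hst' hB h1 hP
    refine ⟨by rw [sup_comm]; exact h2.1, h2.2⟩

end Cfsg.Agent.S4672
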