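import Cfsg.Statements.S4673
import Cfsg.Agent.Lib.BlockKnorr3

set_option autoImplicit false
open Cfsg

namespace Cfsg.Agent.S4673

open Cfsg Cfsg.Agent.Lib.BlockRing Cfsg.Agent.Lib.BlockIdem Cfsg.Agent.Lib.BlockCover Cfsg.Agent.Lib.BlockKnorr
  Cfsg.Agent.Lib.BlockGA Cfsg.Agent.Lib.BlockDefect Cfsg.Agent.Lib.BlockTransfer Cfsg.Agent.Lib.Clifford
open scoped ComplexConjugate

universe u

/-- a block between -/
theorem exists_between {G : Type u} [Group G] [Fintype G] {N L : Subgroup G} [N.Normal] [Fintype N] [Fintype L]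
    [Fintype (N.subgroupOf L)] (hNL : N ≤ L) {χ : IrrCharacter G} {θ : IrrCharacter N}
    (h : classInner (fun n : N => (χ : G → ℂ) n) (θ : N → ℂ) ≠ 0) :
    ∃ ψ : IrrCharacter L, classInner (fun l : L => (χ : G → ℂ) l) (ψ : L → ℂ) ≠ 0 ∧
      classInner (fun x : N.subgroupOf L => (ψ : L → ℂ) x)
        ((trI (subE hNL) θ : IrrCharacter (N.subgroupOf L)) : N.subgroupOf L → ℂ) ≠ 0 := by
  classical
  set θ' : IrrCharacter (N.subgroupOf L) := trI (subE hNL) θ with hθ'
  have hα : IsCharacter L (indFun (N.subgroupOf L) (θ' : N.subgroupOf L → ℂ)) :=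
    isCharacter_indFun _ θ'.2.isCharacter
  have h1 : classInner (indFun (N.subgroupOf L) (θ' : N.subgroupOf L → ℂ)) (fun l : L => (χ : G → ℂ) l) ≠ 0 := by
    rw [Cfsg.Agent.Lib.IndFun.frobenius_reciprocity _ _ _ (χ.2.isCharacter.restrict L).isClassFunction]
    have h2 := classInner_comp_equiv (subE hNL) (θ : N → ℂ) (fun n : N => (χ : G → ℂ) n)
    intro h3
    apply h
    have h4 : classInner (θ : N → ℂ) (fun n : N => (χ : G → ℂ) n) = 0 := by
      rw [← h2]; exact h3
    rw [← Cfsg.Agent.Lib.CharBasic.conj_classInner, h4, map_zero]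
  obtain ⟨ψ, h2, h3⟩ := exists_common_constituent hα h1
  refine ⟨ψ, h3, ?_⟩
  rw [Cfsg.Agent.Lib.IndFun.frobenius_reciprocity _ _ _ ψ.2.isClassFunction] at h2
  intro h4
  apply h2
  rw [← Cfsg.Agent.Lib.CharBasic.conj_classInner, h4, map_zero]

/-- Fix a prime p and a maximal ideal M of the algebraic integers containing p. Let N ≤ L be normal subgroups of the finite group G with L/N a p-group, let B be a p-block of G covering the p-block c of N (some member of B has a constituent in c on restriction to N), and suppose that N contains a defect group of B. Then the stabilizer T of c in G satisfies T ∩ L = N. -/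
theorem result {G : Type*} [Group G] [Fintype G] (p : ℕ) [Fact p.Prime] (M : Ideal Cfsg.AlgInt) (hM : Cfsg.IsPModular p M) (N L : Subgroup G) [N.Normal] [L.Normal] [Fintype N] (hNL : N ≤ L) (hLN : ∃ k : ℕ, (N.subgroupOf L).index = p ^ k) (B : Set (Cfsg.IrrCharacter G)) (hB : Cfsg.IsPBlock M B) (c : Set (Cfsg.IrrCharacter N)) (hc : Cfsg.IsPBlock M c) (hcov : (∃ χ ∈ B, ∃ θ ∈ c, Cfsg.classInner (fun n : N => (χ : G → ℂ) n) (θ : N → ℂ) ≠ 0)) (hD : ∃ D : Subgroup G, Cfsg.IsDefectGroup p M B D ∧ D ≤ N) (T : Subgroup G) (hT : ∀ x : G, x ∈ T ↔ Cfsg.StabilizesBlock N c x) : T ⊓ L = N := by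
  classical
  haveI := isPrime hM
  haveI := Fintype.ofFinite L
  haveI := Fintype.ofFinite (N.subgroupOf L)
  obtain ⟨D, hD, hDN⟩ := hD
  obtain ⟨χ, hχ, θ, hθ, h0⟩ := hcov
  obtain ⟨ψ, h1, h2⟩ := exists_between hNL h0
  have hbL : IsPBlock M (blockOf M (ψ : L → ℂ)) := isPBlock_blockOf ψ
  have hcovB : Covers B (blockOf M (ψ : L → ℂ)) := ⟨χ, hχ, ψ, mem_blockOf_self ψ, h1⟩
  have hcL : IsPBlock M (trB (subE hNL) c) := isPBlock_tr_iff.2 hc
  have hcovL : Covers (blockOf M (ψ : L → ℂ)) (trB (subE hNL) c) :=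
    ⟨ψ, mem_blockOf_self ψ, trI (subE hNL) θ, trI_mem_trB.2 hθ, h2⟩
  obtain ⟨E, hE⟩ := exists_defectGroup hM hbL
  obtain ⟨x, hx⟩ := covered_defect_le hM hbL hB hcovB hE hD
  have hEN : E ≤ N.subgroupOf L := by
    intro y hy
    rw [Subgroup.mem_subgroupOf]
    have h3 := hx ⟨y, hy, rfl⟩
    rw [Cfsg.Agent.Lib.BlockDefect.mem_map_conj] at h3
    have h4 := (inferInstance : N.Normal).conj_mem _ (hDN h3) x
    have h5 : x * (x⁻¹ * L.subtype y * x) * x⁻¹ = (y : G) := by
      change x * (x⁻¹ * (y : G) * x) * x⁻¹ = (y : G)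
      group
    rwa [h5] at h4
  have hstab := stabT_le hM hLN hcL hbL hcovL hE hEN
  apply le_antisymm
  · rintro y ⟨hyT, hyL⟩
    have h3 := (stabilizes_iff hc).1 ((hT y).1 hyT)
    have h4 : (⟨y, hyL⟩ : L) ∈ stabT (G := L) (trB (subE hNL) c) := by
      intro θ'
      obtain ⟨η, rfl⟩ := (trI (subE hNL)).surjective θ'
      have h5 : cjEquiv (⟨y, hyL⟩ : L) (trI (subE hNL) η) = trI (subE hNL) (cjEquiv y η) := by
        apply Subtype.ext
        funext n
        rfl
      rw [h5, trI_mem_trB, trI_mem_trB]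
      exact h3 η
    have h5 := hstab h4
    exact h5
  · intro y hy
    exact ⟨(hT y).2 ((stabilizes_iff hc).2 ((stab_stabT (G := G) hc).hNT hy)), hNL hy⟩

end Cfsg.Agent.S4673
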