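import Cfsg.Statements.S4674
import Cfsg.Agent.Lib.H16HK
import Cfsg.Prelude.Def_BrauerPairs

set_option autoImplicit false
open Cfsg

namespace Cfsg.Agent.S4674

open Cfsg Cfsg.Agent.Lib.BlockRing Cfsg.Agent.Lib.BlockIdem Cfsg.Agent.Lib.BlockCover Cfsg.Agent.Lib.BlockKnorr
  Cfsg.Agent.Lib.BlockGA Cfsg.Agent.Lib.BlockDefect Cfsg.Agent.Lib.BlockTransfer Cfsg.Agent.Lib.Clifford
  Cfsg.Agent.Lib.H16HK
open scoped ComplexConjugate

universe u

theorem induced_of_in {G : Type u} [Group G] {M : Ideal AlgInt} {L N : Subgroup G} (hLN : L ≤ N)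
    {e : Set (IrrCharacter L)} {d : Set (IrrCharacter N)} (h : IsInducedBlockIn M N L e d) :
    IsInducedBlock M (L.subgroupOf N) (trB (subE hLN) e) d := by
  refine ⟨isPBlock_tr h.1, h.2.1, ?_⟩
  rintro _ ⟨ξ, hξ, rfl⟩ χ hχ n
  have h1 := h.2.2 ξ hξ χ hχ n
  have h2 : inducedCentralChar (L.subgroupOf N) (trI (subE hLN) ξ : L.subgroupOf N → ℂ) n =
      inducedCentralCharIn N L (ξ : L → ℂ) (n : G) := by
    unfold inducedCentralChar inducedCentralCharIn
    refine finsum_mem_eq_of_bijOn (subE hLN) ⟨?_, (subE hLN).injective.injOn, ?_⟩ ?_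
    · intro x hx
      obtain ⟨c, hc⟩ := isConj_iff.1 (show IsConj n (x : N) from hx)
      refine ⟨c⁻¹, ?_⟩
      rw [subE_coe, ← hc]
      simp [mul_assoc]
    · rintro k ⟨x, hx⟩
      refine ⟨(subE hLN).symm k, ?_, (subE hLN).apply_symm_apply k⟩
      show IsConj n (((subE hLN).symm k : L.subgroupOf N) : N)
      refine isConj_iff.2 ⟨x⁻¹, Subtype.ext ?_⟩
      show (x : G)⁻¹ * (n : G) * ((x : G)⁻¹)⁻¹ = (k : G)
      rw [← hx]
      group
    · intro x _
      rw [trI_apply, trI_apply, map_one]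
  rw [h2]
  exact h1

theorem covers_iff {G : Type u} [Group G] {H L : Subgroup G} (hLH : L ≤ H) [Finite G] [Fintype L]
    [Fintype (L.subgroupOf H)] {e : Set (IrrCharacter L)} {c : Set (IrrCharacter H)} :
    (∃ ψ ∈ c, ∃ ξ ∈ e, classInner (fun l : L => (ψ : H → ℂ) (Subgroup.inclusion hLH l)) (ξ : L → ℂ) ≠ 0) ↔
      Covers c (trB (subE hLH) e) := by
  have key : ∀ (ψ : IrrCharacter H) (ξ : IrrCharacter L),
      classInner (fun l : L => (ψ : H → ℂ) (Subgroup.inclusion hLH l)) (ξ : L → ℂ) =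
      classInner (fun l : L.subgroupOf H => (ψ : H → ℂ) l) (trI (subE hLH) ξ : L.subgroupOf H → ℂ) := by
    intro ψ ξ
    exact (classInner_comp_equiv (subE hLH) (fun l : L => (ψ : H → ℂ) (Subgroup.inclusion hLH l)) (ξ : L → ℂ)).symm
  constructor
  · rintro ⟨ψ, hψ, ξ, hξ, h⟩
    exact ⟨ψ, hψ, trI (subE hLH) ξ, trI_mem_trB.2 hξ, by rwa [← key]⟩
  · rintro ⟨ψ, hψ, _, ⟨ξ, hξ, rfl⟩, h⟩
    exact ⟨ψ, hψ, ξ, hξ, by rwa [key]⟩

/-- Fix a prime p and a maximal ideal M of the algebraic integers containing p. Let N be a normal subgroup of the finite group G, Q a p-subgroup of N, H = N_G(Q) and L = H ∩ N = N_N(Q). Let d be a p-block of N with defect group Q and e the p-block of L with defect group Q that induces d inside N (its Brauer correspondent). Then block induction from H to G is a bijection from the p-blocks of H covering e onto the p-blocks of G covering d: every block of H covering e induces exactly one block of G, and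 that block covers d; and every block of G covering d is induced by exactly one block of H covering e. -/
theorem result {G : Type*} [Group G] [Fintype G] (p : ℕ) [Fact p.Prime] (M : Ideal Cfsg.AlgInt) (hM : Cfsg.IsPModular p M) (N : Subgroup G) [N.Normal] [Fintype N] (Q : Subgroup G) (hQ : IsPGroup p Q) (hQN : Q ≤ N) [Fintype ↥(Subgroup.normalizer (Q : Set G) ⊓ N)] (d : Set (Cfsg.IrrCharacter N)) (hd : Cfsg.IsPBlock M d) (hdQ : Cfsg.IsDefectGroup p M d (Q.subgroupOf N)) (e : Set (Cfsg.IrrCharacter ↥(Subgroup.normalizer (Q : Set G) ⊓ N))) (he : Cfsg.IsPBlock M e) (heQ : Cfsg.IsDefectGroup p M e (Q.subgroupOf (Subgroup.normalizer (Q : Set G) ⊓ N))) (hed : Cfsg.IsInducedBlockIn M N (Subgroup.normalizer (Q : Set G) ⊓ N) e d) : (∀ c : Set (Cfsg.IrrCharacter ↥(Subgroup.normalizer (Q : Set G))), Cfsg.IsPBlock M c → (∃ ψ ∈ c, ∃ ξ ∈ e, Cfsg.classInner (fun l : ↥(Subgroup.normalizer (Q : Set G) ⊓ N) => (ψ : ↥(Subgroup.normalizer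 (Q : Set G)) → ℂ) (Subgroup.inclusion inf_le_left l)) (ξ : ↥(Subgroup.normalizer (Q : Set G) ⊓ N) → ℂ) ≠ 0) → ∃! B : Set (Cfsg.IrrCharacter G), Cfsg.IsInducedBlock M (Subgroup.normalizer (Q : Set G)) c B ∧ (∃ χ ∈ B, ∃ θ ∈ d, Cfsg.classInner (fun n : N => (χ : G → ℂ) n) (θ : N → ℂ) ≠ 0)) ∧ (∀ B : Set (Cfsg.IrrCharacter G), Cfsg.IsPBlock M B → (∃ χ ∈ B, ∃ θ ∈ d, Cfsg.classInner (fun n : N => (χ : G → ℂ) n) (θ : N → ℂ) ≠ 0) → ∃! c : Set (Cfsg.IrrCharacter ↥(Subgroup.normalizer (Q : Set G))), (Cfsg.IsPBlock M c ∧ ∃ ψ ∈ c, ∃ ξ ∈ e, Cfsg.classInner (fun l : ↥(Subgroup.normalizer (Q : Set G) ⊓ N) => (ψ : ↥(Subgroup.normalizer (Q : Set G)) → ℂ) (Subgroup.inclusion inf_le_left l)) (ξ : ↥(Subgroup.normalizer (Q : Set G) ⊓ N) → ℂ) ≠ 0) ∧ Cfsg.IsInducedBlock M (Subgroup.normalizer (Q : Set G)) c B) := by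
  classical
  haveI := isPrime hM
  have hLH : Subgroup.normalizer (Q : Set G) ⊓ N ≤ Subgroup.normalizer (Q : Set G) := inf_le_left
  have hLN : Subgroup.normalizer (Q : Set G) ⊓ N ≤ N := inf_le_right
  haveI hLn : ((Subgroup.normalizer (Q : Set G) ⊓ N).subgroupOf (Subgroup.normalizer (Q : Set G))).Normal := by
    rw [Subgroup.inf_subgroupOf_left]; infer_instance
  haveI := Fintype.ofFinite ((Subgroup.normalizer (Q : Set G) ⊓ N).subgroupOf (Subgroup.normalizer (Q : Set G)))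
  haveI := Fintype.ofFinite (Subgroup.normalizer (Q : Set G))
  have hed' := induced_of_in hLN hed
  constructor
  · intro c hc hce
    have hce' := (covers_iff hLH).1 hce
    obtain ⟨B, hB⟩ := Cfsg.Agent.Lib.BlockHom.inducedBlockDefined hM hQ Subgroup.le_normalizer
      (Subgroup.centralizer_le_normalizer _) le_rfl hc
    refine ⟨B, ⟨hB, ?_⟩, ?_⟩
    · exact covers_induced hM hQ hQN Subgroup.le_normalizer le_rfl hLH hLN le_rfl hed' hc hce' hB
    · rintro B' ⟨hB', -⟩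
      exact Cfsg.Agent.Lib.BlockInd.induced_unique hB' hB
  · intro B hB hcov
    obtain ⟨c, hcB, hce⟩ := hk_exists hM hQ hQN rfl hLH hLN le_rfl hed' heQ hdQ hB hcov
    refine ⟨c, ⟨⟨hcB.1, (covers_iff hLH).2 hce⟩, hcB⟩, ?_⟩
    rintro c' ⟨⟨hc', hce'⟩, hcB'⟩
    exact hk_unique hM hQN rfl hLH hLN le_rfl he heQ ((covers_iff hLH).1 hce') hce hcB' hcB

end Cfsg.Agent.S4674
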