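import Cfsg.Statements.S4675
import Cfsg.Agent.Lib.H76Rank1
import Cfsg.Agent.Lib.BlockLattice
import Cfsg.Agent.Lib.BlockDefect
import Cfsg.Agent.Lib.Subsec

set_option autoImplicit false
open Cfsg

namespace Cfsg.Agent.S4675

/-- Fix a prime p and a maximal ideal M of the algebraic integers containing p. Let B be a p-block of the finite group G with defect group P and p-regular rank one (a single irreducible Brauer character). Then there are a function φ on G that is, on the p-regular elements, an integer combination of the members of B, and natural numbers d_χ (χ ∈ B), such that every χ ∈ B agrees with d_χ·φ on the p-regular elements and Σ_{χ ∈ B} d_χ² equals the order of P (the single Cartan invariant of B is the order of P). -/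
theorem result {G : Type*} [Group G] [Fintype G] (p : ℕ) [Fact p.Prime] (M : Ideal Cfsg.AlgInt) (hM : Cfsg.IsPModular p M) (B : Set (Cfsg.IrrCharacter G)) (hB : Cfsg.IsPBlock M B) (P : Subgroup G) (hP : Cfsg.IsDefectGroup p M B P) (hl : Cfsg.blockRank p B = 1) : ∃ φ : G → ℂ, ∃ d : Cfsg.IrrCharacter G → ℕ, (∃ n : Cfsg.IrrCharacter G → ℤ, ∀ x : G, Cfsg.IsPRegular p x → φ x = ∑ᶠ ψ ∈ B, (n ψ : ℂ) * (ψ : G → ℂ) x) ∧ (∀ χ ∈ B, ∀ x : G, Cfsg.IsPRegular p x → (χ : G → ℂ) x = (d χ : ℂ) * φ x) ∧ ∑ᶠ χ ∈ B, d χ ^ 2 = Nat.card P := by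
  classical
  have hp := hM.1
  haveI := Lib.BlockRing.isPrime hM
  obtain ⟨f, a, hf, ha, hdeg, hsum, -, hht⟩ := Lib.H76Rank1.rank_one hM hB hl
  obtain ⟨φ, hφL, hφs, -⟩ := Lib.BlockLattice.exists_basis hM hB
  set i0 : Fin (blockRank p B) := ⟨0, by rw [hl]; exact one_pos⟩ with hi0
  have huniv : ∀ i : Fin (blockRank p B), i = i0 := by
    intro i
    apply Fin.ext
    have h1 : (i : ℕ) < 1 := lt_of_lt_of_eq i.2 hl
    show (i : ℕ) = 0
    omega
  have hone : ∀ (c : Fin (blockRank p B) → ℤ), ∑ i, (c i : ℂ) • φ i = (c i0 : ℂ) • φ i0 := by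
    intro c
    exact Finset.sum_eq_single i0 (fun i _ hi => absurd (huniv i) hi) (fun h => absurd (Finset.mem_univ _) h)
  -- coefficients
  have hc : ∀ χ : Cfsg.IrrCharacter G, ∃ c : ℤ, χ ∈ B → Lib.BlockPair.preg p (χ : G → ℂ) = (c : ℂ) • φ i0 := by
    intro χ
    by_cases hχ : χ ∈ B
    · obtain ⟨c, hc⟩ := hφs _ (Lib.BlockLattice.preg_mem (p := p) hχ)
      exact ⟨c i0, fun _ => by rw [hc, hone]⟩
    · exact ⟨0, fun h => absurd h hχ⟩
  choose c hc using hc
  -- `φ i0` is an integer combination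
  have hcomb : ∀ g ∈ Lib.BlockLattice.Lat p B, ∃ n : Cfsg.IrrCharacter G → ℤ,
      g = ∑ ψ ∈ Lib.Subsec.fs B, (n ψ : ℂ) • Lib.BlockPair.preg p (ψ : G → ℂ) := by
    intro g hg
    refine Lib.BlockLattice.lat_induction (P := fun g => ∃ n : Cfsg.IrrCharacter G → ℤ,
      g = ∑ ψ ∈ Lib.Subsec.fs B, (n ψ : ℂ) • Lib.BlockPair.preg p (ψ : G → ℂ)) ?_ ?_ ?_ ?_ hg
    · intro χ hχ
      refine ⟨fun ψ => if ψ = χ then 1 else 0, ?_⟩
      rw [Finset.sum_eq_single χ]
      · simp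
      · intro ψ _ h; simp [h]
      · intro h; exact absurd (Lib.Subsec.mem_fs.2 hχ) h
    · exact ⟨0, by simp⟩
    · rintro f g - - ⟨n, hn⟩ ⟨m, hm⟩
      refine ⟨n + m, ?_⟩
      conv_lhs => rw [hn, hm]
      rw [← Finset.sum_add_distrib]
      refine Finset.sum_congr rfl fun ψ _ => ?_
      rw [Pi.add_apply, Int.cast_add, add_smul]
    · rintro e f - ⟨n, hn⟩
      refine ⟨fun ψ => e * n ψ, ?_⟩
      conv_lhs => rw [hn]
      rw [Finset.smul_sum]
      refine Finset.sum_congr rfl fun ψ _ => ?_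
      rw [Int.cast_mul, smul_smul]
  obtain ⟨n, hn⟩ := hcomb _ (hφL i0)
  have hpreg1 : ∀ h : G → ℂ, Lib.BlockPair.preg p h 1 = h 1 := fun h => Lib.H76Rank1.preg_one_eq hp h
  -- the value at one
  have hval : ∃ m : ℤ, φ i0 1 = m * f := by
    refine ⟨∑ ψ ∈ Lib.Subsec.fs B, n ψ * a ψ, ?_⟩
    conv_lhs => rw [hn]
    rw [Finset.sum_apply]
    push_cast
    rw [Finset.sum_mul]
    refine Finset.sum_congr rfl fun ψ hψ => ?_
    rw [Pi.smul_apply, hpreg1, hdeg ψ (Lib.Subsec.mem_fs.1 hψ), smul_eq_mul]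
    ring
  obtain ⟨m, hm⟩ := hval
  have hf0 : (f : ℂ) ≠ 0 := by exact_mod_cast hf.ne'
  have hcm : ∀ χ ∈ B, (a χ : ℤ) = c χ * m := by
    intro χ hχ
    have h1 := congrFun (hc χ hχ) 1
    rw [hpreg1, hdeg χ hχ, Pi.smul_apply, hm, smul_eq_mul] at h1
    have h2 : (a χ : ℂ) = c χ * m := mul_right_cancel₀ hf0 (by rw [h1]; ring)
    exact_mod_cast h2
  -- `m` is a unit
  have hm1 : m = 1 ∨ m = -1 := by
    obtain ⟨χ₀, hχ₀, h0⟩ := Lib.BlockDeg.exists_height_zero (p := p) (Lib.BlockIdem.isPBlock_nonempty hB)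
    have h1 : (m * m) ∣ (p : ℤ) ^ blockDefect p B := by
      have h2 : ((∑ᶠ χ ∈ B, a χ ^ 2 : ℕ) : ℤ) = (p : ℤ) ^ blockDefect p B := by rw [hsum]; push_cast; rfl
      rw [← h2, finsum_mem_eq_finite_toFinset_sum _ (Set.toFinite B), Nat.cast_sum]
      refine Finset.dvd_sum fun χ hχ => ?_
      have hχ' : χ ∈ B := by simpa using hχ
      rw [Nat.cast_pow, hcm χ hχ']
      exact ⟨c χ ^ 2, by ring⟩
    have h3 : ¬ (p : ℤ) ∣ m := by
      intro h4
      apply hht χ₀ hχ₀ h0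
      have : (p : ℤ) ∣ (a χ₀ : ℤ) := by rw [hcm χ₀ hχ₀]; exact Dvd.dvd.mul_left h4 _
      exact_mod_cast this
    have h4 : IsUnit m := by
      have h5 : IsCoprime m ((p : ℤ) ^ blockDefect p B) := by
        apply IsCoprime.pow_right
        rw [isCoprime_comm, Prime.coprime_iff_not_dvd (Nat.prime_iff_prime_int.1 hp)]
        exact h3
      exact h5.isUnit_of_dvd' dvd_rfl ((dvd_mul_right m m).trans h1)
    exact Int.isUnit_iff.1 h4
  have hmm : (m : ℂ) * m = 1 := by rcases hm1 with h | h <;> rw [h] <;> norm_num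
  refine ⟨(m : ℂ) • φ i0, a, ⟨fun ψ => m * n ψ, ?_⟩, ?_, ?_⟩
  · intro x hx
    rw [Pi.smul_apply, smul_eq_mul]
    have hx' : ¬ p ∣ orderOf x := hx
    conv_lhs => rw [hn]
    rw [Finset.sum_apply, finsum_mem_eq_finite_toFinset_sum _ (Set.toFinite B), Finset.mul_sum]
    have e : (Set.toFinite B).toFinset = Lib.Subsec.fs B := by ext; simp [Lib.Subsec.mem_fs]
    rw [e]
    refine Finset.sum_congr rfl fun ψ _ => ?_
    rw [Pi.smul_apply, smul_eq_mul, Lib.BlockPair.preg, if_neg hx']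
    push_cast
    ring
  · intro χ hχ x hx
    have hx' : ¬ p ∣ orderOf x := hx
    have h1 := congrFun (hc χ hχ) x
    rw [Lib.BlockPair.preg, if_neg hx', Pi.smul_apply, smul_eq_mul] at h1
    rw [h1, Pi.smul_apply, smul_eq_mul]
    have h2 : ((a χ : ℕ) : ℂ) = c χ * m := by exact_mod_cast congrArg (Int.cast : ℤ → ℂ) (hcm χ hχ)
    rw [h2]
    linear_combination (-(c χ : ℂ) * φ i0 x) * hmm
  · rw [hsum, Lib.BlockDefect.defectGroup_card hM hB hP]

end Cfsg.Agent.S4675
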