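import Cfsg.Statements.S4678
import Cfsg.Agent.Lib.BlkFusDef
-- import your own Cfsg.Agent.* helpers here

set_option autoImplicit false
open Cfsg

namespace Cfsg.Agent.S4678

open Cfsg Cfsg.Agent.Lib Cfsg.Agent.Lib.BlockAlg Cfsg.Agent.Lib.BrauerPairs Cfsg.Agent.Lib.PairAlg
open Cfsg.Agent.Lib.PairMax Cfsg.Agent.Lib.BlkIdem Cfsg.Agent.Lib.NormalPBlk
open Cfsg.Agent.Lib.BlockGA Cfsg.Agent.Lib.BlockIdem Cfsg.Agent.Lib.BlockRing
open Cfsg.Agent.Lib.DefPairs Cfsg.Agent.Lib.BlkFus Cfsg.Agent.Lib.BlkFusDef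


/-- Fix a prime p and a maximal ideal M of the algebraic integers containing p, a p-block B of the finite group G with maximal Brauer pair (P, e), its fusion system F on P, and a Brauer pair (Q, f) ≤ (P, e). Then Q is fully centralized in F if and only if C_P(Q) is a defect group of f as a block of C_G(Q). -/
theorem result {G : Type*} [Group G] [Fintype G] (p : ℕ) [Fact p.Prime] (M : Ideal Cfsg.AlgInt) (hM : Cfsg.IsPModular p M) (B : Set (Cfsg.IrrCharacter G)) (P : Subgroup G) (e : Set (Cfsg.IrrCharacter (Subgroup.centralizer (P : Set G)))) (hmax : Cfsg.IsMaximalBrauerPair p M B P e) (F : Cfsg.FusionSystem P) (hF : Cfsg.IsBlockFusionSystemOn p M B P e F) (Q : Subgroup G) (f : Set (Cfsg.IrrCharacter (Subgroup.centralizer (Q : Set G)))) (hQP : Q ≤ P) (hf : Cfsg.IsPBlock M f) (hle : Cfsg.SubpairLE p M Q f P e) : F.IsFullyCentralized Q ↔ Cfsg.IsDefectGroup p M f ((P ⊓ Subgroup.centralizer (Q : Set G)).subgroupOf (Subgroup.centralizer (Q : Set G))) := by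
  have hMm : M.IsMaximal := hM.2.1
  have hch : CharP (Kf M) p := charP_Kf hM

  have hMP := hMm.isPrime
  obtain ⟨h1, h2⟩ := isMaximalBrauerPair_iff.mp hmax
  obtain ⟨hPe, hB, hBe⟩ := isBrauerPairOf_iff.mp h1
  have hb := hasBlocks (M := M) (G := G)
  have hPb := bpair_of hPe
  have hPle := subpairLE_to hle
  have hQp : IsPGroup p Q := hPe.1.to_le hQP

  obtain ⟨D, hD⟩ := exists_defectGroup_sub (p := p) hf
  have key := fully_iff hb (isBlk_bidG hB) hPb hBe h2 hPle
    (fun R _ => Subgroup.centralizer (R : Set G)) (fun R _ => centralizer_le_normalizer R)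
    (fun x hx => ⟨trivial, (isBlk_bid hf).mem.2 x hx⟩) (fun x R _ => centralizer_cg x R) hD
  have e1 : F.IsFullyCentralized Q ↔ (∀ g, BHom p P (bid M _ e) Q g →
      Nat.card (P ⊓ Subgroup.centralizer ((cg g Q : Subgroup G) : Set G) : Subgroup G) ≤
        Nat.card (P ⊓ Subgroup.centralizer (Q : Set G) : Subgroup G)) := by
    constructor
    · intro h g hg
      exact h.2 _ ((isConj_iff hF).mpr ⟨g, hg, rfl⟩)
    · intro h
      refine ⟨hQP, ?_⟩
      intro R hR
      obtain ⟨g, hg, rfl⟩ := (isConj_iff hF).mp hR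
      exact h g hg
  rw [e1, key]
  constructor
  · intro h
    have h3 := isDefectGroup_subgroupOf hf h
    exact h3
  · intro h
    have h3 := (isDefectGroup_sub_iff hf).mp h
    rw [Subgroup.map_subgroupOf_eq_of_le inf_le_right] at h3
    exact h3

end Cfsg.Agent.S4678
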