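import Cfsg.Statements.S4679
import Cfsg.Agent.Lib.BlkFusDef
-- import your own Cfsg.Agent.* helpers here

set_option autoImplicit false
open Cfsg

namespace Cfsg.Agent.S4679

open Cfsg Cfsg.Agent.Lib Cfsg.Agent.Lib.BlockAlg Cfsg.Agent.Lib.BrauerPairs Cfsg.Agent.Lib.PairAlg
open Cfsg.Agent.Lib.PairMax Cfsg.Agent.Lib.BlkIdem Cfsg.Agent.Lib.NormalPBlk
open Cfsg.Agent.Lib.BlockGA Cfsg.Agent.Lib.BlockIdem Cfsg.Agent.Lib.BlockRing
open Cfsg.Agent.Lib.DefPairs Cfsg.Agent.Lib.BlkFus Cfsg.Agent.Lib.BlkFusDef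


/-- Fix a prime p and a maximal ideal M of the algebraic integers containing p, a p-block B of the finite group G with maximal Brauer pair (P, e), its fusion system F on P, a Brauer pair (Q, f) ≤ (P, e), and let T be the stabilizer of f in N_G(Q). Then Q is fully normalized in F if and only if N_P(Q) is a defect group of the block of T whose idempotent is that of f. -/
theorem result {G : Type*} [Group G] [Fintype G] (p : ℕ) [Fact p.Prime] (M : Ideal Cfsg.AlgInt) (hM : Cfsg.IsPModular p M) (B : Set (Cfsg.IrrCharacter G)) (P : Subgroup G) (e : Set (Cfsg.IrrCharacter (Subgroup.centralizer (P : Set G)))) (hmax : Cfsg.IsMaximalBrauerPair p M B P e) (F : Cfsg.FusionSystem P) (hF : Cfsg.IsBlockFusionSystemOn p M B P e F) (Q : Subgroup G) (f : Set (Cfsg.IrrCharacter (Subgroup.centralizer (Q : Set G)))) (hQP : Q ≤ P) (hf : Cfsg.IsPBlock M f) (hle : Cfsg.SubpairLE p M Q f P e) (T : Subgroup G) (hT : ∀ y : G, y ∈ T ↔ y ∈ Subgroup.normalizer (Q : Set G) ∧ Cfsg.StabilizesBlock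 (Subgroup.centralizer (Q : Set G)) f y) : F.IsFullyNormalized Q ↔ ∃ F' : Set (Cfsg.IrrCharacter T), Cfsg.IsPBlock M F' ∧ (∀ t : T, Cfsg.blockCoeff F' t = Cfsg.subgroupBlockCoeff (Subgroup.centralizer (Q : Set G)) f (t : G)) ∧ Cfsg.IsDefectGroup p M F' ((P ⊓ Subgroup.normalizer (Q : Set G)).subgroupOf T) := by
  have hMm : M.IsMaximal := hM.2.1
  have hch : CharP (Kf M) p := charP_Kf hM

  have hMP := hMm.isPrime
  obtain ⟨h1, h2⟩ := isMaximalBrauerPair_iff.mp hmax
  obtain ⟨hPe, hB, hBe⟩ := isBrauerPairOf_iff.mp h1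
  have hb := hasBlocks (M := M) (G := G)
  have hPb := bpair_of hPe
  have hPle := subpairLE_to hle
  have hQp : IsPGroup p Q := hPe.1.to_le hQP

  have gen : ∀ (R : Subgroup G) (g : Set (IrrCharacter (Subgroup.centralizer (R : Set G))))
      (U : Subgroup G), IsPBlock M g → (∀ y : G, y ∈ U ↔ y ∈ Subgroup.normalizer (R : Set G) ∧
        StabilizesBlock (Subgroup.centralizer (R : Set G)) g y) →
      U = stab (Subgroup.normalizer (R : Set G)) (bid M (Subgroup.centralizer (R : Set G)) g) := by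
    intro R g U hg hU
    ext y
    rw [hU, mem_stab]
    refine and_congr_right fun hy => ?_
    exact stabilizesBlock_iff (normalizer_le_normalizer_centralizer R hy) hg
  have hTs := gen Q f T hf hT
  have hblk := isBlk_bid (M := M) hf
  have hQT : Q ≤ T := by
    rw [hTs]
    intro x hx
    exact ⟨self_le_normalizer Q hx, (mem_fixAlg_of_supp_centralizer hblk.mem.1) x hx⟩
  have hTN : T ≤ Subgroup.normalizer (Q : Set G) := by rw [hTs]; exact stab_le _ _
  have hCT : Subgroup.centralizer (Q : Set G) ≤ T := by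
    rw [hTs]
    intro x hx
    exact ⟨centralizer_le_normalizer Q hx, hblk.mem.2 x hx⟩
  have hstT : ∀ x ∈ T, BrauerMap.cj x (bid M (Subgroup.centralizer (Q : Set G)) f) = bid M _ f := by
    rw [hTs]; exact fun x hx => hx.2
  obtain ⟨F₁, hF₁, hFf, hFc⟩ := exists_block_of_stable (p := p) hM hQT hTN hCT hQp hf hstT
  obtain ⟨D, hD⟩ := exists_defectGroup_sub (p := p) hF₁
  rw [hFf] at hD
  have hinf : P ⊓ T = P ⊓ Subgroup.normalizer (Q : Set G) := by
    rw [hTs]
    exact inf_stab_eq hb hPb hPle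
  rw [hTs] at hD
  have key := fully_iff hb (isBlk_bidG hB) hPb hBe h2 hPle
    (fun R g => stab (Subgroup.normalizer (R : Set G)) g) (fun R g => stab_le _ _)
    (fun x hx => ⟨trivial, hx.2⟩) (fun x R g => stab_cg R g x) hD
  have e1 : F.IsFullyNormalized Q ↔ (∀ g, BHom p P (bid M _ e) Q g →
      Nat.card (P ⊓ stab (Subgroup.normalizer ((cg g Q : Subgroup G) : Set G))
        (BrauerMap.cj g (bid M (Subgroup.centralizer (Q : Set G)) f)) : Subgroup G) ≤
        Nat.card (P ⊓ stab (Subgroup.normalizer (Q : Set G))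
          (bid M (Subgroup.centralizer (Q : Set G)) f) : Subgroup G)) := by
    constructor
    · intro h g hg
      rw [inf_stab_eq hb hPb hPle, inf_stab_eq hb hPb (hg.of_pair hb hPb hPle)]
      exact h.2 _ ((isConj_iff hF).mpr ⟨g, hg, rfl⟩)
    · intro h
      refine ⟨hQP, ?_⟩
      intro R hR
      obtain ⟨g, hg, rfl⟩ := (isConj_iff hF).mp hR
      have h3 := h g hg
      rw [inf_stab_eq hb hPb hPle, inf_stab_eq hb hPb (hg.of_pair hb hPb hPle)] at h3
      exact h3
  rw [e1, key, ← hTs]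
  constructor
  · intro h
    refine ⟨F₁, hF₁, hFc, ?_⟩
    rw [← hinf]
    rw [← hFf] at h
    exact isDefectGroup_subgroupOf hF₁ h
  · rintro ⟨F', hF', hFc', hD'⟩
    have h3 := (isDefectGroup_sub_iff hF').mp hD'
    have h4 : bid M T F' = bid M _ f := bid_eq_of_coeff hCT hFc'
    rw [h4, ← hinf, Subgroup.map_subgroupOf_eq_of_le inf_le_right] at h3
    exact h3

end Cfsg.Agent.S4679
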