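import Cfsg.Statements.S4680
import Cfsg.Agent.Lib.BlkFusDef
-- import your own Cfsg.Agent.* helpers here

set_option autoImplicit false
open Cfsg

namespace Cfsg.Agent.S4680

open Cfsg Cfsg.Agent.Lib Cfsg.Agent.Lib.BlockAlg Cfsg.Agent.Lib.BrauerPairs Cfsg.Agent.Lib.PairAlg
open Cfsg.Agent.Lib.PairMax Cfsg.Agent.Lib.BlkIdem Cfsg.Agent.Lib.NormalPBlk
open Cfsg.Agent.Lib.BlockGA Cfsg.Agent.Lib.BlockIdem Cfsg.Agent.Lib.BlockRing
open Cfsg.Agent.Lib.DefPairs Cfsg.Agent.Lib.BlkFus Cfsg.Agent.Lib.BlkFusDef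


/-- Fix a prime p and a maximal ideal M of the algebraic integers containing p, a p-block B of the finite group G with maximal Brauer pair (P, e), its fusion system F on P, and a Brauer pair (Q, f) ≤ (P, e). Then Q is centric in F if and only if Z(Q) is a defect group of f as a block of C_G(Q). -/
theorem result {G : Type*} [Group G] [Fintype G] (p : ℕ) [Fact p.Prime] (M : Ideal Cfsg.AlgInt) (hM : Cfsg.IsPModular p M) (B : Set (Cfsg.IrrCharacter G)) (P : Subgroup G) (e : Set (Cfsg.IrrCharacter (Subgroup.centralizer (P : Set G)))) (hmax : Cfsg.IsMaximalBrauerPair p M B P e) (F : Cfsg.FusionSystem P) (hF : Cfsg.IsBlockFusionSystemOn p M B P e F) (Q : Subgroup G) (f : Set (Cfsg.IrrCharacter (Subgroup.centralizer (Q : Set G)))) (hQP : Q ≤ P) (hf : Cfsg.IsPBlock M f) (hle : Cfsg.SubpairLE p M Q f P e) : F.IsCentric Q ↔ Cfsg.IsDefectGroup p M f ((Q ⊓ Subgroup.centralizer (Q : Set G)).subgroupOf (Subgroup.centralizer (Q : Set G))) := by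
  have hMm : M.IsMaximal := hM.2.1
  have hch : CharP (Kf M) p := charP_Kf hM

  have hMP := hMm.isPrime
  obtain ⟨h1, h2⟩ := isMaximalBrauerPair_iff.mp hmax
  obtain ⟨hPe, hB, hBe⟩ := isBrauerPairOf_iff.mp h1
  have hb := hasBlocks (M := M) (G := G)
  have hPb := bpair_of hPe
  have hPle := subpairLE_to hle
  have hQp : IsPGroup p Q := hPe.1.to_le hQP

  obtain ⟨D, hD⟩ := exists_defectGroup_sub (p := p) hf
  have hCp : IsPGroup p (Q ⊓ Subgroup.centralizer (Q : Set G) : Subgroup G) := hQp.to_le inf_le_left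
  -- the centre of `Q` lies in every defect group
  have hZ : ∀ {D' : Subgroup G}, DG p (Subgroup.centralizer (Q : Set G)) D' (bid M _ f) →
      Q ⊓ Subgroup.centralizer (Q : Set G) ≤ D' := by
    intro D' hD'
    have hne : BrauerMap.br (Q ⊓ Subgroup.centralizer (Q : Set G)) (bid M _ f) ≠ 0 := by
      have h3 : BrauerMap.br (Q ⊓ Subgroup.centralizer (Q : Set G)) (bid M _ f) = bid M _ f := by
        apply BrauerMap.br_eq_self
        refine BrauerMap.suppAlg_mono ?_ (isBlk_bid hf).mem.1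
        exact Subgroup.centralizer_le (SetLike.coe_subset_coe.mpr inf_le_left)
      rw [h3]
      exact (isBlk_bid hf).ne_zero
    obtain ⟨x, hx, hxD⟩ := hD'.le_conj hCp inf_le_right hne
    intro z hz
    have h4 : x * z * x⁻¹ = z := by
      have h5 := Subgroup.mem_centralizer_iff.mp hx z hz.1
      rw [← h5, mul_inv_cancel_right]
    have h5 := hxD hz
    rw [mem_map_conj_iff] at h5
    have h6 : x⁻¹ * z * x = z := by
      have h5 := Subgroup.mem_centralizer_iff.mp (inv_mem hx) z hz.1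
      rw [← h5, inv_mul_cancel_right]
    rwa [h6] at h5
  constructor
  · intro hc
    obtain ⟨x, hx1, hx2⟩ := exists_good_conj hb (isBlk_bidG hB) hPb hBe h2 hPle
      (centralizer_le_normalizer Q) (fun x hx => (isBlk_bid hf).mem.2 x hx) hD
    have hx3 : BHom p P (bid M _ e) Q x := ⟨_, hPle, hx1⟩
    have h3 := hc.2 _ ((isConj_iff hF).mpr ⟨x, hx3, rfl⟩)
    have h4 : D.map (MulAut.conj x).toMonoidHom ≤ cg x Q := by
      rw [← hx2]
      have h5 := centralizer_cg x Q
      intro y hy
      apply h3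
      refine ⟨hy.1, ?_⟩
      rw [h5]
      exact hy.2
    have h5 : D = Q ⊓ Subgroup.centralizer (Q : Set G) := by
      refine le_antisymm (le_inf ?_ hD.le) (hZ hD)
      have h6 := cg_mono x⁻¹ h4
      rw [cg_inv_cg] at h6
      have h7 : cg x⁻¹ (D.map (MulAut.conj x).toMonoidHom) = D := cg_inv_cg x D
      rwa [h7] at h6
    rw [← h5]
    exact isDefectGroup_subgroupOf hf hD
  · intro h
    have h3 := (isDefectGroup_sub_iff hf).mp h
    rw [Subgroup.map_subgroupOf_eq_of_le inf_le_right] at h3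
    refine ⟨hQP, ?_⟩
    intro R hR
    obtain ⟨g, hg, rfl⟩ := (isConj_iff hF).mp hR
    have hg2 := hg.of_pair hb hPb hPle
    have h4 : DG p (Subgroup.centralizer ((cg g Q : Subgroup G) : Set G))
        (cg g (Q ⊓ Subgroup.centralizer (Q : Set G))) (BrauerMap.cj g (bid M _ f)) := by
      rw [centralizer_cg]
      exact dg_conj h3 g (fun y => mem_cg)
    have h5 := card_inf_le hb hPb hg2 (centralizer_le_normalizer _) h4
    have h6 : cg g (Q ⊓ Subgroup.centralizer (Q : Set G)) ≤
        P ⊓ Subgroup.centralizer ((cg g Q : Subgroup G) : Set G) := by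
      refine le_inf ((cg_mono g inf_le_left).trans hg2.le) ?_
      rw [centralizer_cg]
      exact cg_mono g inf_le_right
    have h7 := Subgroup.eq_of_le_of_card_ge h6 h5
    show P ⊓ Subgroup.centralizer ((cg g Q : Subgroup G) : Set G) ≤ cg g Q
    rw [← h7]
    exact cg_mono g inf_le_left

end Cfsg.Agent.S4680
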