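import Cfsg.Statements.S4681
import Cfsg.Agent.Lib.BlkFusDef
import Cfsg.Agent.Lib.PrincNilp
-- import your own Cfsg.Agent.* helpers here

set_option autoImplicit false
open Cfsg

namespace Cfsg.Agent.S4681

open Cfsg Cfsg.Agent.Lib Cfsg.Agent.Lib.BlockAlg Cfsg.Agent.Lib.BrauerPairs Cfsg.Agent.Lib.PairAlg
open Cfsg.Agent.Lib.PairMax Cfsg.Agent.Lib.BlkIdem Cfsg.Agent.Lib.NormalPBlk
open Cfsg.Agent.Lib.BlockGA Cfsg.Agent.Lib.BlockIdem Cfsg.Agent.Lib.BlockRing
open Cfsg.Agent.Lib.DefPairs Cfsg.Agent.Lib.BlkFus Cfsg.Agent.Lib.BlkFusDef Cfsg.Agent.Lib.PrincPairs Cfsg.Agent.Lib.BlockThird Cfsg.Agent.Lib.BlockThird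


/-- Fix a prime p and a maximal ideal M of the algebraic integers containing p. Let B₀ be the principal p-block of the finite group G, P a Sylow p-subgroup and e₀ the principal p-block of C_G(P). Then (P, e₀) is a maximal Brauer pair of B₀, and the fusion system of B₀ on (P, e₀) is the fusion system of G on P: its maps from each subgroup of P are exactly the conjugation maps into P by elements of G. -/
theorem result {G : Type*} [Group G] [Fintype G] (p : ℕ) [Fact p.Prime] (M : Ideal Cfsg.AlgInt) (hM : Cfsg.IsPModular p M) (S : Sylow p G) : Cfsg.IsMaximalBrauerPair p M (Cfsg.principalBlock M G) (S : Subgroup G) (Cfsg.principalBlock M (Subgroup.centralizer ((S : Subgroup G) : Set G))) ∧ ∀ F : Cfsg.FusionSystem (S : Subgroup G), Cfsg.IsBlockFusionSystemOn p M (Cfsg.principalBlock M G) (S : Subgroup G) (Cfsg.principalBlock M (Subgroup.centralizer ((S : Subgroup G) : Set G))) F → ∀ Q : Subgroup G, F.Hom Q = (Cfsg.groupFusionSystem (S : Subgroup G)).Hom Q := by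
  have hMm : M.IsMaximal := hM.2.1
  have hch : CharP (Kf M) p := charP_Kf hM

  have hMP := hMm.isPrime
  have hb := hasBlocks (M := M) (G := G)
  have hp0 : IsPBlock M (Cfsg.principalBlock M (Subgroup.centralizer ((S : Subgroup G) : Set G))) :=
    isPBlock_principal
  have hG0 : IsPBlock M (Cfsg.principalBlock M G) := isPBlock_principal
  have hmax : Cfsg.IsMaximalBrauerPair p M (Cfsg.principalBlock M G) (S : Subgroup G)
      (Cfsg.principalBlock M (Subgroup.centralizer ((S : Subgroup G) : Set G))) := by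
    rw [isMaximalBrauerPair_iff, isBrauerPairOf_iff]
    exact ⟨⟨⟨S.2, hp0⟩, hG0, principal_pair S.2⟩, maxPair_sylow S _⟩
  refine ⟨hmax, ?_⟩
  intro F hF Q
  have hPb : BPair p (S : Subgroup G) (bid M _ (Cfsg.principalBlock M
      (Subgroup.centralizer ((S : Subgroup G) : Set G)))) := bpair_of ⟨S.2, hp0⟩
  have haug := (principal_iff_aug hp0).mp rfl
  ext φ
  rw [hom_iff hF]
  constructor
  · rintro ⟨g, hg, hgB⟩
    refine ⟨hgB.le, fun x => ?_, g, hg⟩
    rw [hg]
    apply hgB.cg_le
    rw [mem_cg]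
    have : g⁻¹ * (g * (x : G) * g⁻¹) * g = x := by group
    rw [this]; exact x.2
  · rintro ⟨hQ, hQ2, g, hg⟩
    refine ⟨g, hg, ?_⟩
    have hgQ : cg g Q ≤ S := by
      intro y hy
      rw [mem_cg] at hy
      have h1 := hQ2 ⟨_, hy⟩
      rw [hg] at h1
      have : g * (g⁻¹ * y * g) * g⁻¹ = y := by group
      rwa [this] at h1
    obtain ⟨f, hf⟩ := exists_sub hb hPb hQ
    obtain ⟨f', hf'⟩ := exists_sub hb hPb hgQ
    have h1 := aug_ple hf haug
    have h1' := aug_ple hf' haug
    have hfB : BPair p Q f := hf.pair hPb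
    have hfB' : BPair p (cg g Q) f' := hf'.pair hPb
    have h2 : BrauerMap.cj g f = f' := by
      have h3 : BPair p (cg g Q) (BrauerMap.cj g f) := hfB.cj g
      obtain ⟨b, hb1, hb2⟩ := exists_bid h3.2
      obtain ⟨b', hb1', hb2'⟩ := exists_bid hfB'.2
      have h4 : b = Cfsg.principalBlock M _ := by
        rw [principal_iff_aug hb1, hb2, aug_cj]; exact h1
      have h5 : b' = Cfsg.principalBlock M _ := by
        rw [principal_iff_aug hb1', hb2']; exact h1'
      rw [← hb2, ← hb2', h4, h5]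
    exact ⟨f, hf, by rw [h2]; exact hf'⟩

end Cfsg.Agent.S4681
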