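import Cfsg.Statements.S4682
import Cfsg.Agent.Lib.AbFusion
-- import your own Cfsg.Agent.* helpers here

set_option autoImplicit false
open Cfsg

namespace Cfsg.Agent.S4682

open Cfsg Cfsg.Agent.Lib Cfsg.Agent.Lib.BlockAlg Cfsg.Agent.Lib.BrauerPairs Cfsg.Agent.Lib.PairAlg
open Cfsg.Agent.Lib.PairMax Cfsg.Agent.Lib.BlkIdem Cfsg.Agent.Lib.NormalPBlk
open Cfsg.Agent.Lib.BlockGA Cfsg.Agent.Lib.BlockIdem Cfsg.Agent.Lib.BlockRing
open Cfsg.Agent.Lib.DefPairs Cfsg.Agent.Lib.BlkFus Cfsg.Agent.Lib.BlkFusDef Cfsg.Agent.Lib.AbFusion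
open Cfsg.Agent.Lib.AbDefect



/-- Fix a prime p and a maximal ideal M of the algebraic integers containing p, a p-block B of the finite group G with maximal Brauer pair (P, e), P abelian, and a Brauer pair (Q, f) ≤ (P, e). Let T_Q be the stabilizer of f in N_G(Q) and T_P the stabilizer of e in N_G(P). Then every element of T_Q is a product of an element of T_P and an element of C_G(Q); and the index of C_G(Q) in T_Q equals the index of T_P ∩ C_G(Q) in T_P ∩ N_G(Q). -/
theorem result {G : Type*} [Group G] [Fintype G] (p : ℕ) [Fact p.Prime] (M : Ideal Cfsg.AlgInt) (hM : Cfsg.IsPModular p M) (B : Set (Cfsg.IrrCharacter G)) (P : Subgroup G) (e : Set (Cfsg.IrrCharacter (Subgroup.centralizer (P : Set G)))) (hmax : Cfsg.IsMaximalBrauerPair p M B P e) (hab : ∀ x ∈ P, ∀ y ∈ P, x * y = y * x) (Q : Subgroup G) (f : Set (Cfsg.IrrCharacter (Subgroup.centralizer (Q : Set G)))) (hQP : Q ≤ P) (hf : Cfsg.IsPBlock M f) (hle : Cfsg.SubpairLE p M Q f P e) (TQ : Subgroup G)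 (hTQ : ∀ y : G, y ∈ TQ ↔ y ∈ Subgroup.normalizer (Q : Set G) ∧ Cfsg.StabilizesBlock (Subgroup.centralizer (Q : Set G)) f y) (TP : Subgroup G) (hTP : ∀ y : G, y ∈ TP ↔ y ∈ Subgroup.normalizer (P : Set G) ∧ Cfsg.StabilizesBlock (Subgroup.centralizer (P : Set G)) e y) : (∀ x ∈ TQ, ∃ y ∈ TP, ∃ c ∈ Subgroup.centralizer (Q : Set G), x = y * c) ∧ ((Subgroup.centralizer (Q : Set G)).subgroupOf TQ).index = ((TP ⊓ Subgroup.centralizer (Q : Set G)).subgroupOf (TP ⊓ Subgroup.normalizer (Q : Set G))).index := by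
  have hMm : M.IsMaximal := hM.2.1
  have hch : CharP (Kf M) p := charP_Kf hM

  have hMP := hMm.isPrime
  obtain ⟨h1, h2⟩ := isMaximalBrauerPair_iff.mp hmax
  obtain ⟨hPe, hB, hBe⟩ := isBrauerPairOf_iff.mp h1
  have hb := hasBlocks (M := M) (G := G)
  have hPb := bpair_of hPe
  have hpp : Fact p.Prime := ⟨Fact.out⟩
  have gen : ∀ (R : Subgroup G) (g : Set (IrrCharacter (Subgroup.centralizer (R : Set G))))
      (x : G), IsPBlock M g → (x ∈ stab (Subgroup.normalizer (R : Set G))
        (bid M (Subgroup.centralizer (R : Set G)) g) ↔ x ∈ Subgroup.normalizer (R : Set G) ∧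
        StabilizesBlock (Subgroup.centralizer (R : Set G)) g x) := by
    intro R g x hg
    rw [mem_stab]
    refine and_congr_right fun hy => ?_
    exact (stabilizesBlock_iff (normalizer_le_normalizer_centralizer R hy) hg).symm
  have hab' : P ≤ Subgroup.centralizer (P : Set G) := by
    intro x hx
    rw [Subgroup.mem_centralizer_iff]
    intro y hy
    exact hab y hy x hx

  have hPle := subpairLE_to hle
  have hTQ' : ∀ x, x ∈ TQ ↔ x ∈ stab (Subgroup.normalizer (Q : Set G))
        (bid M (Subgroup.centralizer (Q : Set G)) f) := fun x => by rw [hTQ, gen Q f x hf]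
  have hTP' : ∀ x, x ∈ TP ↔ x ∈ stab (Subgroup.normalizer (P : Set G))
        (bid M (Subgroup.centralizer (P : Set G)) e) := fun x => by rw [hTP, gen P e x hPe.2]
  have hCN := centralizer_le_normalizer Q
  have hfac : ∀ x ∈ TQ, ∃ y ∈ TP, ∃ c ∈ Subgroup.centralizer (Q : Set G), x = y * c := by
    intro x hx
    have hx' := (hTQ' x).mp hx
    obtain ⟨z, hz, hzx⟩ := ab_factor' hPb h2 hab' hPle hx'
    refine ⟨z * x, (hTP' _).mpr hzx, (z * x)⁻¹ * z⁻¹ * (z * x), ?_, by group⟩
    have h3 : z * x ∈ Subgroup.normalizer (Q : Set G) := mul_mem (hCN hz) hx'.1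
    have h4 := normalizer_le_normalizer_centralizer Q h3
    have h5 := (Subgroup.mem_normalizer_iff.mp (inv_mem h4) z⁻¹).mp (inv_mem hz)
    rwa [inv_inv] at h5
  refine ⟨hfac, ?_⟩
  have hsub : TP ⊓ Subgroup.normalizer (Q : Set G) ≤ TQ := by
    intro x hx
    rw [hTQ']
    exact stab_of_stab hb hPb hPle ((hTP' x).mp hx.1) hx.2
  have hCT : Subgroup.centralizer (Q : Set G) ≤ TQ := by
    intro x hx
    rw [hTQ']
    exact ⟨hCN hx, (isBlk_bid hf).mem.2 x hx⟩
  have hnorm : ((Subgroup.centralizer (Q : Set G)).subgroupOf TQ).Normal := by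
    constructor
    intro n hn g
    rw [Subgroup.mem_subgroupOf] at hn ⊢
    have h3 : (g : G) ∈ Subgroup.normalizer (Q : Set G) := ((hTQ' g).mp g.2).1
    exact (Subgroup.mem_normalizer_iff.mp (normalizer_le_normalizer_centralizer Q h3) _).mp hn
  let φ : ↥(TP ⊓ Subgroup.normalizer (Q : Set G)) →* TQ ⧸ ((Subgroup.centralizer (Q : Set G)).subgroupOf TQ) :=
    (QuotientGroup.mk' _).comp (Subgroup.inclusion hsub)
  have hker : φ.ker = (TP ⊓ Subgroup.centralizer (Q : Set G)).subgroupOf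
      (TP ⊓ Subgroup.normalizer (Q : Set G)) := by
    ext x
    rw [MonoidHom.mem_ker, Subgroup.mem_subgroupOf, Subgroup.mem_inf]
    show (QuotientGroup.mk (Subgroup.inclusion hsub x) : TQ ⧸ _) = 1 ↔ _
    rw [QuotientGroup.eq_one_iff, Subgroup.mem_subgroupOf]
    constructor
    · intro h
      exact ⟨x.2.1, h⟩
    · intro h
      exact h.2
  have hsurj : Function.Surjective φ := by
    intro y
    induction y using QuotientGroup.induction_on with
    | H x =>
      obtain ⟨y, hy, c, hc, hxyc⟩ := hfac x x.2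
      have hyN : y ∈ Subgroup.normalizer (Q : Set G) := by
        have h3 : y = x * c⁻¹ := by rw [hxyc]; group
        rw [h3]
        exact mul_mem ((hTQ' x).mp x.2).1 (hCN (inv_mem hc))
      refine ⟨⟨y, hy, hyN⟩, ?_⟩
      show (QuotientGroup.mk (Subgroup.inclusion hsub _) : TQ ⧸ _) = QuotientGroup.mk x
      rw [QuotientGroup.eq, Subgroup.mem_subgroupOf]
      show y⁻¹ * (x : G) ∈ _
      rw [hxyc]
      simpa using hc
  rw [← hker, Subgroup.index_ker, MonoidHom.range_eq_top.mpr hsurj]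
  rw [Nat.card_congr Subgroup.topEquiv.toEquiv]
  rfl

end Cfsg.Agent.S4682
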