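import Cfsg.Statements.S4685
import Cfsg.Agent.Lib.H25BpAct
-- import your own Cfsg.Agent.* helpers here

set_option autoImplicit false
open Cfsg

namespace Cfsg.Agent.S4685


open Cfsg.Agent.Lib Cfsg.Agent.Lib.BlockAlg Cfsg.Agent.Lib.BrauerPairs Cfsg.Agent.Lib.PairAlg
open Cfsg.Agent.Lib.PairMax Cfsg.Agent.Lib.H25BpS

theorem ctx {G : Type*} [Group G] [Finite G] {p : ℕ} [Fact p.Prime] {M : Ideal Cfsg.AlgInt} [M.IsMaximal]
    [CharP (Kf M) p] (hM : Cfsg.IsPModular p M) {B : Set (Cfsg.IrrCharacter G)} {P : Subgroup G}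
    {e : Set (Cfsg.IrrCharacter (Subgroup.centralizer (P : Set G)))} (hmax : Cfsg.IsMaximalBrauerPair p M B P e) :
    Ctx p B P (bid M (Subgroup.centralizer (P : Set G)) e) := by
  obtain ⟨h1, h2⟩ := isMaximalBrauerPair_iff.mp hmax
  obtain ⟨hPe, hB, hBe⟩ := isBrauerPairOf_iff.mp h1
  exact ⟨hM, hB, bpair_of hPe, hBe, h2⟩

/-- Fix a prime p and a maximal ideal M of the algebraic integers containing p, a p-block B of the finite group G with maximal Brauer pair (P, e) and fusion system F on P. Then for every h the number of irreducible characters of height h in B is divisible by the index of Z(P) ∩ foc(F) in Z(P), where foc(F) is the focal subgroup of F. -/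
theorem result {G : Type*} [Group G] [Fintype G] (p : ℕ) [Fact p.Prime] (M : Ideal Cfsg.AlgInt) (hM : Cfsg.IsPModular p M) (B : Set (Cfsg.IrrCharacter G)) (P : Subgroup G) (e : Set (Cfsg.IrrCharacter (Subgroup.centralizer (P : Set G)))) (hmax : Cfsg.IsMaximalBrauerPair p M B P e) (F : Cfsg.FusionSystem P) (hF : Cfsg.IsBlockFusionSystemOn p M B P e F) (h : ℕ) : ((P ⊓ Subgroup.centralizer (P : Set G) ⊓ F.focalSubgroup).subgroupOf (P ⊓ Subgroup.centralizer (P : Set G))).index ∣ Nat.card {χ : Cfsg.IrrCharacter G // χ ∈ B ∧ Cfsg.blockHeight p B (χ : G → ℂ) = h} := by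
  have hMm : M.IsMaximal := hM.2.1
  have hch : CharP (Kf M) p := charP_Kf hM
  exact (ctx hM hmax).height_dvd (BlkSat.isBF_of hF) h

end Cfsg.Agent.S4685
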