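import Cfsg.Statements.S4686
import Cfsg.Agent.Lib.BlkNil
-- import your own Cfsg.Agent.* helpers here

set_option autoImplicit false
open Cfsg

namespace Cfsg.Agent.S4686

open Cfsg Cfsg.Agent.Lib Cfsg.Agent.Lib.BlockAlg Cfsg.Agent.Lib.BrauerPairs Cfsg.Agent.Lib.PairAlg
open Cfsg.Agent.Lib.PairMax Cfsg.Agent.Lib.BlkIdem Cfsg.Agent.Lib.NormalPBlk
open Cfsg.Agent.Lib.BlockGA Cfsg.Agent.Lib.BlockIdem Cfsg.Agent.Lib.BlockRing
open Cfsg.Agent.Lib.DefPairs Cfsg.Agent.Lib.BlkFus Cfsg.Agent.Lib.BlkFusDef Cfsg.Agent.Lib.BlkSat Cfsg.Agent.Lib.BlkNil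



/-- Fix a prime p and a maximal ideal M of the algebraic integers containing p, a p-block B of the finite group G with maximal Brauer pair (P, e) and fusion system F on P. Then B is nilpotent (for every Brauer pair (Q, f) of B the stabilizer of f in N_G(Q) is C_G(Q) extended by a p-group) if and only if F is the inner fusion system of P: its maps from each subgroup of P are exactly the conjugations by elements of P. -/
theorem result {G : Type*} [Group G] [Fintype G] (p : ℕ) [Fact p.Prime] (M : Ideal Cfsg.AlgInt) (hM : Cfsg.IsPModular p M) (B : Set (Cfsg.IrrCharacter G)) (P : Subgroup G) (e : Set (Cfsg.IrrCharacter (Subgroup.centralizer (P : Set G)))) (hmax : Cfsg.IsMaximalBrauerPair p M B P e) (F : Cfsg.FusionSystem P) (hF : Cfsg.IsBlockFusionSystemOn p M B P e F) : Cfsg.IsNilpotentBlock p M B ↔ ∀ Q : Subgroup G, F.Hom Q = (Cfsg.innerFusionSystem P).Hom Q := by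
  have hMm : M.IsMaximal := hM.2.1
  have hch : CharP (Kf M) p := charP_Kf hM

  have hMP := hMm.isPrime
  obtain ⟨h1, h2⟩ := isMaximalBrauerPair_iff.mp hmax
  obtain ⟨hPe, hB, hBe⟩ := isBrauerPairOf_iff.mp h1
  have hb := hasBlocks (M := M) (G := G)
  have hPb := bpair_of hPe
  rw [isNilpotentBlock_iff]
  constructor
  · rintro ⟨_, hnil⟩ Q
    rw [Nil.inner hM (isBlk_bidG hB) hPb hBe h2 hnil (isBF_of hF)]
  · intro h
    refine ⟨hB, nil_of_inner hb (isBlk_bidG hB) hPb hBe h2 ?_⟩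
    intro Q g hg
    have h3 : (MulAut.conj g).toMonoidHom.comp Q.subtype ∈ F.Hom Q :=
      (isBF_of hF Q _).mpr ⟨g, fun _ => rfl, hg⟩
    rw [h] at h3
    obtain ⟨_, u, hu, hx⟩ := h3
    refine ⟨u, hu, ?_⟩
    rw [Subgroup.mem_centralizer_iff]
    intro q hq
    have h3 : g * q * g⁻¹ = u * q * u⁻¹ := hx ⟨q, hq⟩
    calc q * (u⁻¹ * g) = u⁻¹ * (u * q * u⁻¹) * g := by group
      _ = u⁻¹ * g * q := by rw [← h3]; group

end Cfsg.Agent.S4686
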