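import Cfsg.Statements.S4687
import Cfsg.Agent.Lib.AbFusion
-- import your own Cfsg.Agent.* helpers here

set_option autoImplicit false
open Cfsg

namespace Cfsg.Agent.S4687

open Cfsg Cfsg.Agent.Lib Cfsg.Agent.Lib.BlockAlg Cfsg.Agent.Lib.BrauerPairs Cfsg.Agent.Lib.PairAlg
open Cfsg.Agent.Lib.PairMax Cfsg.Agent.Lib.BlkIdem Cfsg.Agent.Lib.NormalPBlk
open Cfsg.Agent.Lib.BlockGA Cfsg.Agent.Lib.BlockIdem Cfsg.Agent.Lib.BlockRing
open Cfsg.Agent.Lib.DefPairs Cfsg.Agent.Lib.BlkFus Cfsg.Agent.Lib.BlkFusDef Cfsg.Agent.Lib.AbFusion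
open Cfsg.Agent.Lib.AbDefect



/-- Fix a prime p and a maximal ideal M of the algebraic integers containing p, and a p-block B of the finite group G with maximal Brauer pair (P, e), P abelian. Then B is nilpotent if and only if its inertial quotient is trivial: every element of N_G(P) stabilizing e centralizes P. -/
theorem result {G : Type*} [Group G] [Fintype G] (p : ℕ) [Fact p.Prime] (M : Ideal Cfsg.AlgInt) (hM : Cfsg.IsPModular p M) (B : Set (Cfsg.IrrCharacter G)) (P : Subgroup G) (e : Set (Cfsg.IrrCharacter (Subgroup.centralizer (P : Set G)))) (hmax : Cfsg.IsMaximalBrauerPair p M B P e) (hab : ∀ x ∈ P, ∀ y ∈ P, x * y = y * x) : Cfsg.IsNilpotentBlock p M B ↔ ∀ x : G, x ∈ Subgroup.normalizer (P : Set G) → Cfsg.StabilizesBlock (Subgroup.centralizer (P : Set G)) e x → x ∈ Subgroup.centralizer (P : Set G) := by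
  have hMm : M.IsMaximal := hM.2.1
  have hch : CharP (Kf M) p := charP_Kf hM

  have hMP := hMm.isPrime
  obtain ⟨h1, h2⟩ := isMaximalBrauerPair_iff.mp hmax
  obtain ⟨hPe, hB, hBe⟩ := isBrauerPairOf_iff.mp h1
  have hb := hasBlocks (M := M) (G := G)
  have hPb := bpair_of hPe
  have hpp : Fact p.Prime := ⟨Fact.out⟩
  have gen : ∀ (R : Subgroup G) (g : Set (IrrCharacter (Subgroup.centralizer (R : Set G))))
      (x : G), IsPBlock M g → (x ∈ stab (Subgroup.normalizer (R : Set G))
        (bid M (Subgroup.centralizer (R : Set G)) g) ↔ x ∈ Subgroup.normalizer (R : Set G) ∧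
        StabilizesBlock (Subgroup.centralizer (R : Set G)) g x) := by
    intro R g x hg
    rw [mem_stab]
    refine and_congr_right fun hy => ?_
    exact (stabilizesBlock_iff (normalizer_le_normalizer_centralizer R hy) hg).symm
  have hab' : P ≤ Subgroup.centralizer (P : Set G) := by
    intro x hx
    rw [Subgroup.mem_centralizer_iff]
    intro y hy
    exact hab y hy x hx

  constructor
  · intro hnil x hx hst
    have hgs := (gen P e x hPe.2).mpr ⟨hx, hst⟩
    obtain ⟨s, m, hm, hsm⟩ := Nat.exists_eq_pow_mul_and_not_dvd (orderOf_pos x).ne' p hpp.out.ne_one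
    have hgps : x ^ p ^ s ∈ Subgroup.centralizer (P : Set G) := by
      have h3 := pow_mem hgs (p ^ s)
      have h4 := (gen P e _ hPe.2).mp h3
      refine hnil.2 P e h1 _ h4.1 h4.2 ?_
      show ¬ p ∣ orderOf _
      rw [orderOf_pow' _ (pow_ne_zero _ hpp.out.ne_zero), hsm,
        Nat.gcd_eq_right (Dvd.intro _ rfl), Nat.mul_div_cancel_left _ (pow_pos hpp.out.pos _)]
      exact hm
    exact mem_centralizer_of_pow hPb h2 hab' hgs hgps
  · intro h
    refine ⟨hB, ?_⟩
    intro Q f hQf x hx hst _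
    obtain ⟨hQp, _, hBf⟩ := isBrauerPairOf_iff.mp hQf
    have hgs := (gen Q f x hQp.2).mpr ⟨hx, hst⟩
    obtain ⟨g, hg⟩ := MaxPair.conj_into hb (isBlk_bidG hB) hPb hBe h2 (bpair_of hQp) hBf
    have h3 : g * x * g⁻¹ ∈ stab (Subgroup.normalizer ((cg g Q : Subgroup G) : Set G))
        (BrauerMap.cj g (bid M (Subgroup.centralizer (Q : Set G)) f)) := by
      rw [stab_cg, mem_cg]
      have : g⁻¹ * (g * x * g⁻¹) * g = x := by group
      rwa [this]
    obtain ⟨z, hz, hzx⟩ := ab_factor' hPb h2 hab' hg h3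
    have h4 := (gen P e _ hPe.2).mp hzx
    have h5 := h _ h4.1 h4.2
    have h6 := Subgroup.centralizer_le (SetLike.coe_subset_coe.mpr hg.le) h5
    have h7 : g * x * g⁻¹ ∈ Subgroup.centralizer ((cg g Q : Subgroup G) : Set G) := by
      have : g * x * g⁻¹ = z⁻¹ * (z * (g * x * g⁻¹)) := by group
      rw [this]
      exact mul_mem (inv_mem hz) h6
    rw [centralizer_cg, mem_cg] at h7
    have : g⁻¹ * (g * x * g⁻¹) * g = x := by group
    rwa [this] at h7

end Cfsg.Agent.S4687
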