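import Cfsg.Statements.S4688
import Cfsg.Agent.Lib.BlkNilIn
-- import your own Cfsg.Agent.* helpers here

set_option autoImplicit false
open Cfsg

namespace Cfsg.Agent.S4688

open Cfsg Cfsg.Agent.Lib Cfsg.Agent.Lib.BlockAlg Cfsg.Agent.Lib.BrauerPairs Cfsg.Agent.Lib.PairAlg
open Cfsg.Agent.Lib.PairMax Cfsg.Agent.Lib.BlkIdem Cfsg.Agent.Lib.NormalPBlk
open Cfsg.Agent.Lib.BlockGA Cfsg.Agent.Lib.BlockIdem Cfsg.Agent.Lib.BlockRing
open Cfsg.Agent.Lib.DefPairs Cfsg.Agent.Lib.BlkFus Cfsg.Agent.Lib.BlkFusDef Cfsg.Agent.Lib.BlkSat Cfsg.Agent.Lib.BlkNil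
open Cfsg.Agent.Lib.BlkNilIn



/-- Fix a prime p and a maximal ideal M of the algebraic integers containing p, and a nilpotent p-block B of the finite group G with maximal Brauer pair (P, e). Then for every Brauer pair (Q, f) of B, f is a nilpotent block of C_G(Q); and if moreover (Q, f) ≤ (P, e), then C_P(Q) is a defect group of f as a block of C_G(Q). -/
theorem result {G : Type*} [Group G] [Fintype G] (p : ℕ) [Fact p.Prime] (M : Ideal Cfsg.AlgInt) (hM : Cfsg.IsPModular p M) (B : Set (Cfsg.IrrCharacter G)) (P : Subgroup G) (e : Set (Cfsg.IrrCharacter (Subgroup.centralizer (P : Set G)))) (hmax : Cfsg.IsMaximalBrauerPair p M B P e) (hnil : Cfsg.IsNilpotentBlock p M B) (Q : Subgroup G) (f : Set (Cfsg.IrrCharacter (Subgroup.centralizer (Q : Set G)))) (hQf : Cfsg.IsBrauerPairOf p M B Q f) : Cfsg.IsNilpotentBlock p M f ∧ (Cfsg.SubpairLE p M Q f P e → Cfsg.IsDefectGroup p M f ((P ⊓ Subgroup.centralizer (Q : Set G)).subgroupOf (Subgroup.centralizer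 (Q : Set G)))) := by
  have hMm : M.IsMaximal := hM.2.1
  have hch : CharP (Kf M) p := charP_Kf hM

  have hMP := hMm.isPrime
  have hpp : Fact p.Prime := ⟨Fact.out⟩
  obtain ⟨h1, h2⟩ := isMaximalBrauerPair_iff.mp hmax
  obtain ⟨hPe, hB, hBe⟩ := isBrauerPairOf_iff.mp h1
  obtain ⟨hQp, _, hBf⟩ := isBrauerPairOf_iff.mp hQf
  have hb := hasBlocks (M := M) (G := G)
  have hPb := bpair_of hPe
  have hnil' := (isNilpotentBlock_iff.mp hnil).2
  have hf : IsPBlock M f := hQp.2
  refine ⟨isNilpotentBlock_sub_iff.mpr ⟨hf, nilIn_centralizer (isBlk_bidG hB) hnil' (bpair_of hQp) hBf⟩, ?_⟩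
  intro hle
  have hPle := subpairLE_to hle
  obtain ⟨D, hD⟩ := exists_defectGroup_sub (p := p) hf
  have key := fully_iff hb (isBlk_bidG hB) hPb hBe h2 hPle
    (fun R _ => Subgroup.centralizer (R : Set G)) (fun R _ => centralizer_le_normalizer R)
    (fun x hx => ⟨trivial, (isBlk_bid hf).mem.2 x hx⟩) (fun x R _ => centralizer_cg x R) hD
  apply isDefectGroup_subgroupOf hf
  refine key.mp ?_
  intro g hg
  obtain ⟨u, hu, hug⟩ := (nil_iff hM (isBlk_bidG hB) hPb hBe h2).mp hnil' Q g hg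
  have e1 : cg g Q = cg u Q := by
    have : g = u * (u⁻¹ * g) := by group
    rw [this, cg_mul, cg_of_mem_centralizer hug]
  have e2 : P ⊓ Subgroup.centralizer ((cg g Q : Subgroup G) : Set G) =
      cg u (P ⊓ Subgroup.centralizer (Q : Set G)) := by
    rw [e1, centralizer_cg]
    ext y
    rw [Subgroup.mem_inf, mem_cg, mem_cg, Subgroup.mem_inf]
    refine and_congr_left fun _ => ?_
    exact normalizer_iff (self_le_normalizer P hu) y
  show Nat.card (P ⊓ Subgroup.centralizer ((cg g Q : Subgroup G) : Set G) : Subgroup G) ≤ _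
  rw [e2, card_cg]

end Cfsg.Agent.S4688
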