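import Cfsg.Statements.S4689
import Cfsg.Agent.Lib.H25BpY
-- import your own Cfsg.Agent.* helpers here

set_option autoImplicit false
open Cfsg

namespace Cfsg.Agent.S4689


open Cfsg.Agent.Lib Cfsg.Agent.Lib.BlockAlg Cfsg.Agent.Lib.BrauerPairs Cfsg.Agent.Lib.PairAlg
open Cfsg.Agent.Lib.PairMax Cfsg.Agent.Lib.H25BpS Cfsg.Agent.Lib.BlkNil Cfsg.Agent.Lib.BlkIdem

/-- a nilpotent block has a maximal pair with inner fusion at each defect group -/
theorem ctx {G : Type*} [Group G] [Finite G] {p : ℕ} [Fact p.Prime] {M : Ideal Cfsg.AlgInt} [M.IsMaximal]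
    [CharP (Kf M) p] (hM : Cfsg.IsPModular p M) {B : Set (Cfsg.IrrCharacter G)}
    (hnil : Cfsg.IsNilpotentBlock p M B) {P : Subgroup G} (hD : DG p ⊤ P (bidG M B)) :
    ∃ e : MonoidAlgebra (Kf M) G, Ctx p B P e ∧ Cfsg.Agent.Lib.H25BpS.Inn p P e := by
  obtain ⟨hB, hN⟩ := isNilpotentBlock_iff.1 hnil
  have hb := hasBlocks (M := M) (G := G)
  have hblk := isBlk_bidG (M := M) hB
  have hfix : bidG M B ∈ BrauerMap.fixAlg (Kf M) P := fun x _ => hblk.mem.2 x (Subgroup.mem_top x)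
  have hidem : BrauerMap.br P (bidG M B) * BrauerMap.br P (bidG M B) = BrauerMap.br P (bidG M B) := by
    rw [← BrauerMap.br_mul (p := p) hD.pg hfix hfix, hblk.idem]
  have hZ : BrauerMap.br P (bidG M B) ∈ BrauerMap.ZAlg (Kf M) (Subgroup.centralizer (P : Set G)) :=
    ⟨BrauerMap.br_mem_suppAlg _ _, BrauerMap.br_mem_fixAlg (centralizer_le_normalizer P)
      (fun x _ => hblk.mem.2 x (Subgroup.mem_top x))⟩
  obtain ⟨e, he, hBe⟩ := exists_blk_of_idem hb hZ hidem hD.ne
  have hPe : BPair p P e := ⟨hD.pg, he⟩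
  have hmax := BlkSat.maxPair_of_dg hblk.mem hD hBe
  exact ⟨e, ⟨hM, hB, hPe, hBe, hmax⟩, (nil_iff hM hblk hPe hBe hmax).1 hN⟩

/-- Fix a prime p and a maximal ideal M of the algebraic integers containing p, and a nilpotent p-block B of the finite group G. Then B has p-regular rank one (a single irreducible Brauer character), and some χ₀ ∈ B restricts to that Brauer character: every χ ∈ B agrees on the p-regular elements with a natural-number multiple of χ₀. -/
theorem result {G : Type*} [Group G] [Fintype G] (p : ℕ) [Fact p.Prime] (M : Ideal Cfsg.AlgInt) (hM : Cfsg.IsPModular p M) (B : Set (Cfsg.IrrCharacter G)) (hnil : Cfsg.IsNilpotentBlock p M B) : Cfsg.blockRank p B = 1 ∧ ∃ χ₀ ∈ B, ∀ χ ∈ B, ∃ d : ℕ, ∀ x : G, Cfsg.pRegularPart p (χ : G → ℂ) x = (d : ℂ) * Cfsg.pRegularPart p (χ₀ : G → ℂ) x := by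
  have hMm : M.IsMaximal := hM.2.1
  have hch : CharP (Kf M) p := charP_Kf hM
  have hB := hnil.1
  obtain ⟨g, hg⟩ := exists_defectClass (M := M) hB
  obtain ⟨S⟩ := (inferInstance : Nonempty (Sylow p (Subgroup.centralizer ({g} : Set G))))
  obtain ⟨e, hc, hin⟩ := ctx hM hnil ((isDefectGroup_iff hB).1 ⟨g, hg, S, rfl⟩)
  exact hc.nil_rank hin

end Cfsg.Agent.S4689
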