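import Cfsg.Statements.S4691
import Cfsg.Agent.Lib.PrincNilp
-- import your own Cfsg.Agent.* helpers here

set_option autoImplicit false
open Cfsg

namespace Cfsg.Agent.S4691

open Cfsg Cfsg.Agent.Lib Cfsg.Agent.Lib.BlockAlg Cfsg.Agent.Lib.BrauerPairs Cfsg.Agent.Lib.PairAlg
open Cfsg.Agent.Lib.PairMax Cfsg.Agent.Lib.BlkIdem Cfsg.Agent.Lib.NormalPBlk
open Cfsg.Agent.Lib.BlockGA Cfsg.Agent.Lib.BlockIdem Cfsg.Agent.Lib.BlockRing


/-- Fix a prime p and a maximal ideal M of the algebraic integers containing p. A finite group G has a normal p-complement if and only if its principal p-block is nilpotent. -/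
theorem result {G : Type*} [Group G] [Fintype G] (p : ℕ) [Fact p.Prime] (M : Ideal Cfsg.AlgInt) (hM : Cfsg.IsPModular p M) : Cfsg.HasNormalPComplement p G ↔ Cfsg.IsNilpotentBlock p M (Cfsg.principalBlock M G) := by
  have hMm : M.IsMaximal := hM.2.1
  have hch : CharP (Kf M) p := charP_Kf hM
  exact (Cfsg.Agent.Lib.PrincNilp.nilpotent_principal_iff hM).symm

end Cfsg.Agent.S4691
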