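import Cfsg.Statements.S4692
import Cfsg.Agent.Lib.BlkPPower
-- import your own Cfsg.Agent.* helpers here

set_option autoImplicit false
open Cfsg

namespace Cfsg.Agent.S4692

open Cfsg Cfsg.Agent.Lib Cfsg.Agent.Lib.BlockAlg Cfsg.Agent.Lib.BrauerPairs Cfsg.Agent.Lib.PairAlg
open Cfsg.Agent.Lib.PairMax Cfsg.Agent.Lib.BlkIdem Cfsg.Agent.Lib.NormalPBlk
open Cfsg.Agent.Lib.BlockGA Cfsg.Agent.Lib.BlockIdem Cfsg.Agent.Lib.BlockRing
open Cfsg.Agent.Lib.BlkFusDef Cfsg.Agent.Lib.BlkNil Cfsg.Agent.Lib.BlkNilIn Cfsg.Agent.Lib.BlkPPower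



/-- Fix a prime p and a maximal ideal M of the algebraic integers containing p. Let N be a normal subgroup of p-power index in the finite group G and c a p-block of N stable under conjugation by G, and let B be the p-block of G whose idempotent is that of c (it exists and is unique). Then c is nilpotent as a block of N if and only if B is nilpotent as a block of G. -/
theorem result {G : Type*} [Group G] [Fintype G] (p : ℕ) [Fact p.Prime] (M : Ideal Cfsg.AlgInt) (hM : Cfsg.IsPModular p M) (N : Subgroup G) [N.Normal] (hN : ∃ k : ℕ, N.index = p ^ k) (c : Set (Cfsg.IrrCharacter N)) (hc : Cfsg.IsPBlock M c) (hst : ∀ x : G, Cfsg.StabilizesBlock N c x) (B : Set (Cfsg.IrrCharacter G)) (hB : Cfsg.IsPBlock M B) (hBc : ∀ g : G, Cfsg.blockCoeff B g = Cfsg.subgroupBlockCoeff N c g) : Cfsg.IsNilpotentBlock p M c ↔ Cfsg.IsNilpotentBlock p M B := by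
  have hMm : M.IsMaximal := hM.2.1
  have hch : CharP (Kf M) p := charP_Kf hM

  have hMP := hMm.isPrime
  have hpp : Fact p.Prime := ⟨Fact.out⟩
  have h1 : bidG M B = bid M N c := bidG_eq_of_coeff hBc
  have h2 := isBlk_bidG (M := M) hB
  rw [isNilpotentBlock_sub_iff, isNilpotentBlock_iff]
  rw [h1] at h2 ⊢
  constructor
  · rintro ⟨_, h⟩
    exact ⟨hB, nil_of_nilIn hM hN h2 h⟩
  · rintro ⟨_, h⟩
    exact ⟨hc, nilIn_of_nil hM hN h2 h⟩

end Cfsg.Agent.S4692
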