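import Cfsg.Statements.S4693
import Cfsg.Agent.Lib.BlkNilIn
import Cfsg.Agent.S4680
-- import your own Cfsg.Agent.* helpers here

set_option autoImplicit false
open Cfsg

namespace Cfsg.Agent.S4693

open Cfsg Cfsg.Agent.Lib Cfsg.Agent.Lib.BlockAlg Cfsg.Agent.Lib.BrauerPairs Cfsg.Agent.Lib.PairAlg
open Cfsg.Agent.Lib.PairMax Cfsg.Agent.Lib.BlkIdem Cfsg.Agent.Lib.NormalPBlk
open Cfsg.Agent.Lib.BlockGA Cfsg.Agent.Lib.BlockIdem Cfsg.Agent.Lib.BlockRing
open Cfsg.Agent.Lib.DefPairs Cfsg.Agent.Lib.BlkFus Cfsg.Agent.Lib.BlkFusDef Cfsg.Agent.Lib.BlkSat Cfsg.Agent.Lib.BlkNil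
open Cfsg.Agent.Lib.BlkNilIn Cfsg.Agent.Lib.StabQuot



/-- Fix a prime p and a maximal ideal M of the algebraic integers containing p, a p-block B of the finite group G with maximal Brauer pair (P, e) and fusion system F on P, and a Brauer pair (Q, f) ≤ (P, e) with Q centric in F. Suppose every element of G normalizes Q and stabilizes f. Then the idempotent of B agrees with that of f modulo M at every element of G, and f is the idempotent of a nilpotent block of Q·C_G(Q): some p-block of Q·C_G(Q) has the idempotent coefficients of f and is nilpotent. -/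
theorem result {G : Type*} [Group G] [Fintype G] (p : ℕ) [Fact p.Prime] (M : Ideal Cfsg.AlgInt) (hM : Cfsg.IsPModular p M) (B : Set (Cfsg.IrrCharacter G)) (P : Subgroup G) (e : Set (Cfsg.IrrCharacter (Subgroup.centralizer (P : Set G)))) (hmax : Cfsg.IsMaximalBrauerPair p M B P e) (F : Cfsg.FusionSystem P) (hF : Cfsg.IsBlockFusionSystemOn p M B P e F) (Q : Subgroup G) (f : Set (Cfsg.IrrCharacter (Subgroup.centralizer (Q : Set G)))) (hQP : Q ≤ P) (hf : Cfsg.IsPBlock M f) (hle : Cfsg.SubpairLE p M Q f P e) (hcen : F.IsCentric Q) (hG : ∀ x : G, x ∈ Subgroup.normalizer (Q : Set G) ∧ Cfsg.StabilizesBlock (Subgroup.centralizer (Q : Set G)) f x) : (∀ g : G, Cfsg.MemLocalIdeal M (Cfsg.blockCoeff B g - Cfsg.subgroupBlockCoeff (Subgroup.centralizer (Q : Set G)) f g)) ∧ ∃ F' : Set (Cfsg.IrrCharacter ↥(Q ⊔ Subgroup.centralizer (Q : Set G))), Cfsg.IsPBlock M F' ∧ (∀ t : ↥(Q ⊔ Subgroup.centralizer (Q : Set G)), Cfsg.blockCoeff F' t = Cfsg.subgroupBlockCoeff (Subgroup.centralizer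 (Q : Set G)) f (t : G)) ∧ Cfsg.IsNilpotentBlock p M F' := by
  have hMm : M.IsMaximal := hM.2.1
  have hch : CharP (Kf M) p := charP_Kf hM

  have hMP := hMm.isPrime
  have hpp : Fact p.Prime := ⟨Fact.out⟩
  obtain ⟨h1, h2⟩ := isMaximalBrauerPair_iff.mp hmax
  obtain ⟨hPe, hB, hBe⟩ := isBrauerPairOf_iff.mp h1
  have hb := hasBlocks (M := M) (G := G)
  have hPb := bpair_of hPe
  have hPle := subpairLE_to hle
  have hQp : IsPGroup p Q := hPe.1.to_le hQP
  have hQb : BPair p Q (bid M _ f) := ⟨hQp, isBlk_bid hf⟩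
  have hGN : (⊤ : Subgroup G) ≤ Subgroup.normalizer (Q : Set G) := fun x _ => (hG x).1
  have hGst : ∀ x ∈ (⊤ : Subgroup G), BrauerMap.cj x (bid M (Subgroup.centralizer (Q : Set G)) f) = bid M _ f := by
    intro x _
    exact (stabilizesBlock_iff (normalizer_le_normalizer_centralizer Q (hG x).1) hf).mp (hG x).2
  have hft : IsBlk ⊤ (bid M (Subgroup.centralizer (Q : Set G)) f) :=
    isBlk_of_centralizer hM le_top hGN le_top hQp (isBlk_bid hf) hGst
  have hBf := ple_blk_down' hb (isBlk_bidG hB) hPle hQb hBe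
  have hff : BrauerMap.br Q (bid M (Subgroup.centralizer (Q : Set G)) f) * bid M _ f = bid M _ f := by
    rw [BrauerMap.br_eq_self (isBlk_bid hf).mem.1, (isBlk_bid hf).idem]
  have hBeq : bidG M B = bid M (Subgroup.centralizer (Q : Set G)) f :=
    blk_unique hQb (isBlk_bidG hB) hft hBf hff
  constructor
  · intro g
    have h3 := congrArg (fun w => w.coeff g) hBeq
    simp only [bidG_coeff] at h3
    rw [← redA_cid, redA_coeff, cid_coeff] at h3
    refine (red_eq_iff ?_ ?_).mp h3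
    · exact locA_eB (M := M) hB g
    · rw [← cid_coeff]
      exact locA_cid hf g
  · have hXN : Q ⊔ Subgroup.centralizer (Q : Set G) ≤ Subgroup.normalizer (Q : Set G) := fun x _ => hGN trivial
    obtain ⟨F', hF', hFf, hFc⟩ := exists_block_of_stable (p := p) hM (H := Q ⊔ Subgroup.centralizer (Q : Set G)) le_sup_left hXN
      le_sup_right hQp hf (fun x _ => hGst x trivial)
    refine ⟨F', hF', hFc, ?_⟩
    rw [isNilpotentBlock_sub_iff, hFf]
    refine ⟨hF', ?_⟩
    have hD := (Cfsg.Agent.S4680.result p M hM B P e hmax F hF Q f hQP hf hle).mp hcen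
    have hD' := (isDefectGroup_sub_iff hf).mp hD
    rw [Subgroup.map_subgroupOf_eq_of_le inf_le_right] at hD'
    have hQC : Q ≤ Subgroup.normalizer ((Subgroup.centralizer (Q : Set G) : Subgroup G) : Set G) :=
      (self_le_normalizer Q).trans (normalizer_le_normalizer_centralizer Q)
    obtain ⟨D, hDG, hQD⟩ := exists_defectGroup_ge (p := p) hF' hQp (le_sup_left : Q ≤ Q ⊔ Subgroup.centralizer (Q : Set G))
      (by rw [hFf, BrauerMap.br_eq_self (isBlk_bid hf).mem.1]; exact (isBlk_bid hf).ne_zero)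
    rw [hFf] at hDG
    have hDQ : D ≤ Q := by
      intro t ht
      obtain ⟨q, hq, hqt⟩ := (mem_sup_iff_of_norm hQC).mp (hDG.le ht)
      have hcD : q⁻¹ * t ∈ D := mul_mem (inv_mem (hQD hq)) ht
      obtain ⟨y, hy, hy0⟩ := exists_coeff_of_br_ne hDG.ne
      have hne : BrauerMap.br (D ⊓ Subgroup.centralizer (Q : Set G)) (bid M (Subgroup.centralizer (Q : Set G)) f) ≠ 0 := by
        intro h0
        apply hy0
        have hy' : y ∈ Subgroup.centralizer ((D ⊓ Subgroup.centralizer (Q : Set G) : Subgroup G) : Set G) :=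
          Subgroup.centralizer_le (SetLike.coe_subset_coe.mpr inf_le_left) hy
        rw [← BrauerMap.br_coeff_mem hy', h0, BrauerMap.zero_coeff]
      obtain ⟨z, hz, hzE⟩ := hD'.le_conj (hDG.pg.to_le inf_le_left) inf_le_right hne
      have h5 := hzE ⟨hcD, hqt⟩
      rw [mem_map_conj_iff] at h5
      have h6 : z⁻¹ * (q⁻¹ * t) * z ∈ Q := h5.1
      have h7 := (normalizer_iff (centralizer_le_normalizer Q hz) (q⁻¹ * t)).mpr h6
      have : t = q * (q⁻¹ * t) := by group
      rw [this]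
      exact mul_mem hq h7
    have hDeq : D = Q := le_antisymm hDQ hQD
    rw [hDeq] at hDG
    intro R e' hR hRX he' hbr x hxX hxN _ hxp
    have hne : BrauerMap.br R (bid M (Subgroup.centralizer (Q : Set G)) f) ≠ 0 := by
      intro h0
      rw [h0, zero_mul] at hbr
      exact he'.ne_zero hbr.symm
    obtain ⟨y, hy, hRy⟩ := hDG.le_conj hR hRX hne
    have hRQ : R ≤ Q := by
      intro r hr
      have h5 := hRy hr
      rw [mem_map_conj_iff] at h5
      exact (normalizer_iff (hXN hy) r).mpr h5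
    obtain ⟨q, hq, hqx⟩ := (mem_sup_iff_of_norm hQC).mp hxX
    obtain ⟨n, hn⟩ := hQp ⟨q, hq⟩
    have h8 := centralizes_of_act hxp (hXN hxX) (congrArg Subtype.val hn : q ^ p ^ n = 1) hqx
    exact Subgroup.centralizer_le (SetLike.coe_subset_coe.mpr hRQ) h8

end Cfsg.Agent.S4693
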