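import Cfsg.Statements.S4694
import Cfsg.Agent.Lib.BlkWeight
-- import your own Cfsg.Agent.* helpers here

set_option autoImplicit false
open Cfsg

namespace Cfsg.Agent.S4694

open Cfsg Cfsg.Agent.Lib Cfsg.Agent.Lib.BlockAlg Cfsg.Agent.Lib.BrauerPairs Cfsg.Agent.Lib.PairAlg
open Cfsg.Agent.Lib.PairMax Cfsg.Agent.Lib.BlkIdem Cfsg.Agent.Lib.NormalPBlk
open Cfsg.Agent.Lib.BlockGA Cfsg.Agent.Lib.BlockIdem Cfsg.Agent.Lib.BlockRing
open Cfsg.Agent.Lib.DefPairs Cfsg.Agent.Lib.BlkFus Cfsg.Agent.Lib.BlkFusDef Cfsg.Agent.Lib.BlkNilIn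
open Cfsg.Agent.Lib.StabQuot Cfsg.Agent.Lib.BlkWeight Cfsg.Agent.Lib.InducedPair Cfsg.Agent.Lib.BlkTransport
open Cfsg.Agent.Lib.BlockSecond



/-- Fix a prime p and a maximal ideal M of the algebraic integers containing p, a p-block B of the finite group G and a Brauer pair (Q, e) of B. Let T be the stabilizer of e in N_G(Q) and suppose that (Q, e) carries a weight: the block of T whose idempotent is that of e contains an irreducible character χ that is constant on the cosets of Q and whose degree has p-part equal to the p-part of the index of Q in T. Then Z(Q) is a defect group of e as a block of C_G(Q), and Q is the largest normal p-subgroup of T: every p-subgroup of T normalized by T lies in Q. -/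
theorem result {G : Type*} [Group G] [Fintype G] (p : ℕ) [Fact p.Prime] (M : Ideal Cfsg.AlgInt) (hM : Cfsg.IsPModular p M) (B : Set (Cfsg.IrrCharacter G)) (Q : Subgroup G) (e : Set (Cfsg.IrrCharacter (Subgroup.centralizer (Q : Set G)))) (hQe : Cfsg.IsBrauerPairOf p M B Q e) (T : Subgroup G) (hT : ∀ y : G, y ∈ T ↔ y ∈ Subgroup.normalizer (Q : Set G) ∧ Cfsg.StabilizesBlock (Subgroup.centralizer (Q : Set G)) e y) (F' : Set (Cfsg.IrrCharacter T)) (hF' : Cfsg.IsPBlock M F') (hF'e : ∀ t : T, Cfsg.blockCoeff F' t = Cfsg.subgroupBlockCoeff (Subgroup.centralizer (Q : Set G)) e (t : G)) (χ : Cfsg.IrrCharacter T) (hχ : χ ∈ F') (hχQ : ∀ q : G, q ∈ Q → ∀ t : T, ∀ t' : T, (t' : G) = q * (t : G) → (χ : T → ℂ) t' = (χ : T → ℂ) t) (hdeg : (Cfsg.charDegree (χ : T → ℂ)).factorization p + (Nat.card Q).factorization p = (Nat.card T).factorization p) : Cfsg.IsDefectGroup p M e ((Q ⊓ Subgroup.centralizer (Q : Set G)).subgroupOf (Subgroup.centralizer (Q : Set G))) ∧ ∀ R : Subgroup G, R ≤ T → IsPGroup p R → (∀ t ∈ T, t ∈ Subgroup.normalizer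 (R : Set G)) → R ≤ Q := by
  have hMm : M.IsMaximal := hM.2.1
  have hch : CharP (Kf M) p := charP_Kf hM

  classical
  have hMP := hMm.isPrime
  have hpp : Fact p.Prime := ⟨Fact.out⟩
  obtain ⟨hQe', hB, hBe⟩ := isBrauerPairOf_iff.mp hQe
  have hQp : IsPGroup p Q := hQe'.1
  have he : IsPBlock M e := hQe'.2
  have hblk := isBlk_bid (M := M) he
  have hQb : BPair p Q (bid M _ e) := ⟨hQp, hblk⟩
  have hTs : T = stab (Subgroup.normalizer (Q : Set G)) (bid M (Subgroup.centralizer (Q : Set G)) e) := by
    ext y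
    rw [hT, mem_stab]
    refine and_congr_right fun hy => ?_
    exact stabilizesBlock_iff (normalizer_le_normalizer_centralizer Q hy) he
  have hQT : Q ≤ T := by
    rw [hTs]
    intro x hx
    exact ⟨self_le_normalizer Q hx, (mem_fixAlg_of_supp_centralizer hblk.mem.1) x hx⟩
  have hTN : T ≤ Subgroup.normalizer (Q : Set G) := by rw [hTs]; exact stab_le _ _
  have hCT : Subgroup.centralizer (Q : Set G) ≤ T := by
    rw [hTs]
    intro x hx
    exact ⟨centralizer_le_normalizer Q hx, hblk.mem.2 x hx⟩
  have hstT : ∀ x ∈ T, BrauerMap.cj x (bid M (Subgroup.centralizer (Q : Set G)) e) = bid M _ e := by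
    rw [hTs]; exact fun x hx => hx.2
  -- the group `T`
  have hNn : (Q.subgroupOf T).Normal := by
    constructor
    intro n hn g
    rw [Subgroup.mem_subgroupOf] at hn ⊢
    exact (Subgroup.mem_normalizer_iff.mp (hTN g.2) n).mp hn
  have hχ1 : ∀ u ∈ Q.subgroupOf T, (χ : T → ℂ) u = (χ : T → ℂ) 1 := by
    intro u hu
    refine hχQ (u : G) (Subgroup.mem_subgroupOf.mp hu) 1 u ?_
    simp
  have hcardQ : Nat.card (Q.subgroupOf T) = Nat.card Q :=
    Nat.card_congr (Subgroup.subgroupOfEquivOfLe hQT).toEquiv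
  have hdegT : (Nat.card T).factorization p ≤ (charDegree (χ : T → ℂ)).factorization p +
      (Nat.card (Q.subgroupOf T)).factorization p := by
    rw [hcardQ, hdeg]
  constructor
  · -- the central product `X = Q C(Q)`
    have hXT : Q ⊔ Subgroup.centralizer (Q : Set G) ≤ T := sup_le hQT hCT
    have hXN : Q ⊔ Subgroup.centralizer (Q : Set G) ≤ Subgroup.normalizer (Q : Set G) := hXT.trans hTN
    set X := Q ⊔ Subgroup.centralizer (Q : Set G) with hX
    obtain ⟨FX, hFX, hFXf, hFXc⟩ := exists_block_of_stable (p := p) hM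
      (H := X) le_sup_left hXN le_sup_right hQp he
      (fun x hx => hstT x (hXT hx))
    have hXn : (X.subgroupOf T).Normal := by
      constructor
      intro n hn g
      rw [Subgroup.mem_subgroupOf] at hn ⊢
      have h1 : (g : G) ∈ Subgroup.normalizer (X : Set G) := by
        apply mem_normalizer_of_cg
        unfold cg
        rw [hX, Subgroup.map_sup]
        congr 1
        · exact cg_of_mem_normalizer (hTN g.2)
        · exact cg_of_mem_normalizer (normalizer_le_normalizer_centralizer Q (hTN g.2))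
      exact (Subgroup.mem_normalizer_iff.mp h1 n).mp hn
    have := Fintype.ofFinite (X.subgroupOf T)
    have := Fintype.ofFinite T
    obtain ⟨θ, hθc, hθ1⟩ := exists_constituent_trivial (X := X.subgroupOf T) hχ1
    have hXs : X.subgroupOf T = X.subgroupOf T := rfl
    -- `θ` lies in the block
    set b' : Set (IrrCharacter (X.subgroupOf T)) := irrMap (subEquiv hXT) '' FX with hb'
    have hincb : incH (X.subgroupOf T) (eB b') = eB F' := by
      rw [← ofFun_coeff (incH (X.subgroupOf T) (eB b')), ← ofFun_coeff (eB F')]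
      congr 1
      funext t
      by_cases ht : (t : G) ∈ X
      · have h1 := coeff_incH_coe (eB b') (⟨t, Subgroup.mem_subgroupOf.mpr ht⟩ : X.subgroupOf T)
        rw [h1, coeff_eB, coeff_eB, hF'e]
        have h2 : (⟨t, Subgroup.mem_subgroupOf.mpr ht⟩ : X.subgroupOf T) = subEquiv hXT ⟨t, ht⟩ := rfl
        rw [h2, hb', blockCoeff_irrMap, hFXc]
      · rw [coeff_incH_of_not_mem _ (fun h => ht (Subgroup.mem_subgroupOf.mp h)), coeff_eB, hF'e]
        have h3 : (t : G) ∉ Subgroup.centralizer (Q : Set G) := fun h => ht (le_sup_right (a := Q) h)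
        rw [← cid_coeff, cid_coeff_not_mem _ _ h3]
    have hom : omega (θ : X.subgroupOf T → ℂ) (eB b') = 1 := by
      rw [← BlockCover.omega_incH_eq hθc (by rw [hincb]; exact eB_mem_center F'), hincb]
      exact omega_eB_mem hχ
    have hθb : θ ∈ b' := by
      by_contra h
      rw [omega_eB_not_mem h] at hom
      exact zero_ne_one hom
    obtain ⟨ψ, hψ, hψθ⟩ := hθb
    -- the group `X`
    have hNXn : (Q.subgroupOf X).Normal := by
      constructor
      intro n hn g
      rw [Subgroup.mem_subgroupOf] at hn ⊢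
      exact (Subgroup.mem_normalizer_iff.mp (hXN g.2) n).mp hn
    have hQX : Q ≤ X := le_sup_left
    have hNXp : IsPGroup p (Q.subgroupOf X) := hQp.comap_of_injective X.subtype X.subtype_injective
    have hQC : Q ≤ Subgroup.normalizer ((Subgroup.centralizer (Q : Set G) : Subgroup G) : Set G) :=
      (self_le_normalizer Q).trans (normalizer_le_normalizer_centralizer Q)
    have hXq : ∀ x : X, ∃ q ∈ Q.subgroupOf X,
        q⁻¹ * x ∈ Subgroup.centralizer ((Q.subgroupOf X : Subgroup X) : Set X) := by
      intro x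
      obtain ⟨q, hq, hqx⟩ := (mem_sup_iff_of_norm hQC).mp x.2
      refine ⟨⟨q, hQX hq⟩, Subgroup.mem_subgroupOf.mpr hq, ?_⟩
      rw [mem_centralizer_subgroupOf hQX]
      exact hqx
    have hval : ∀ x : X, (ψ : X → ℂ) x = (θ : X.subgroupOf T → ℂ) (subEquiv hXT x) := by
      intro x
      rw [← hψθ, irrMap_apply, MulEquiv.symm_apply_apply]
    have hψ1 : ∀ u ∈ Q.subgroupOf X, (ψ : X → ℂ) u = (ψ : X → ℂ) 1 := by
      intro u hu
      rw [hval, hval, map_one]
      exact hθ1 _ hu
    have hd1 := DefectZero.charDegree_eq χ.2.isCharacter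
    have hd2 := DefectZero.charDegree_eq θ.2.isCharacter
    have hd3 := DefectZero.charDegree_eq ψ.2.isCharacter
    obtain ⟨c, hc1, hc2⟩ := DegRatio.degree_ratio χ.2 θ.2 hθc hd1.symm hd2.symm
    have hd4 : charDegree (ψ : X → ℂ) = charDegree (θ : X.subgroupOf T → ℂ) := by
      have h1 : (ψ : X → ℂ) 1 = (θ : X.subgroupOf T → ℂ) 1 := by rw [hval, map_one]
      rw [h1, ← hd2] at hd3
      exact_mod_cast hd3
    have hθpos := DefectZero.charDegree_pos θ.2
    have hχpos := DefectZero.charDegree_pos χ.2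
    have hc0 : c ≠ 0 := by
      rintro rfl
      rw [zero_mul] at hc1
      omega
    have hidx0 : (X.subgroupOf T).index ≠ 0 := Subgroup.index_ne_zero_of_finite
    have hcard : Nat.card T = Nat.card X * (X.subgroupOf T).index := by
      rw [← Subgroup.card_mul_index (X.subgroupOf T)]
      congr 1
      exact Nat.card_congr (Subgroup.subgroupOfEquivOfLe hXT).toEquiv
    have hcardQX : Nat.card (Q.subgroupOf X) = Nat.card Q :=
      Nat.card_congr (Subgroup.subgroupOfEquivOfLe hQX).toEquiv
    have hfin : (Nat.card X).factorization p ≤ (charDegree (ψ : X → ℂ)).factorization p +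
        (Nat.card (Q.subgroupOf X)).factorization p := by
      rw [hd4, hcardQX]
      have h1 : c.factorization p ≤ (X.subgroupOf T).index.factorization p :=
        (Nat.factorization_le_iff_dvd hc0 hidx0).mpr hc2 p
      rw [hc1, Nat.factorization_mul hc0 hθpos.ne', Finsupp.add_apply, hcard,
        Nat.factorization_mul Nat.card_pos.ne' hidx0, Finsupp.add_apply] at hdeg
      omega
    -- the defect group of the block of `X`
    obtain ⟨D, hD⟩ := exists_defectGroup_sub (p := p) hFX
    have hDQ := defectGroup_eq_of_defzero hM hNXp hXq hFX hψ hψ1 hfin (isDefectGroup_subgroupOf hFX hD)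
    have hDQ' : D = Q := by
      have h1 := congrArg (Subgroup.map X.subtype) hDQ
      rwa [Subgroup.map_subgroupOf_eq_of_le hD.le, Subgroup.map_subgroupOf_eq_of_le hQX] at h1
    rw [hDQ', hFXf] at hD
    -- the defect group of `e`
    obtain ⟨E, hE⟩ := exists_defectGroup_sub (p := p) he
    have hEQ : E ≤ Q := by
      obtain ⟨x, hx, hxE⟩ := hD.le_conj hE.pg (hE.le.trans le_sup_right) hE.ne
      intro y hy
      have h1 := hxE hy
      rw [mem_map_conj_iff] at h1
      exact (normalizer_iff (hXN hx) y).mpr h1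
    have hZ : Q ⊓ Subgroup.centralizer (Q : Set G) ≤ E := by
      have hne : BrauerMap.br (Q ⊓ Subgroup.centralizer (Q : Set G)) (bid M _ e) ≠ 0 := by
        have h3 : BrauerMap.br (Q ⊓ Subgroup.centralizer (Q : Set G)) (bid M _ e) = bid M _ e := by
          apply BrauerMap.br_eq_self
          refine BrauerMap.suppAlg_mono ?_ hblk.mem.1
          exact Subgroup.centralizer_le (SetLike.coe_subset_coe.mpr inf_le_left)
        rw [h3]
        exact hblk.ne_zero
      obtain ⟨x, hx, hxD⟩ := hE.le_conj (hQp.to_le inf_le_left) inf_le_right hne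
      intro z hz
      have h5 := hxD hz
      rw [mem_map_conj_iff] at h5
      have h6 : x⁻¹ * z * x = z := by
        have h5 := Subgroup.mem_centralizer_iff.mp (inv_mem hx) z hz.1
        rw [← h5, inv_mul_cancel_right]
      rwa [h6] at h5
    have hEe : E = Q ⊓ Subgroup.centralizer (Q : Set G) := le_antisymm (le_inf hEQ hE.le) hZ
    rw [← hEe]
    exact isDefectGroup_subgroupOf he hE
  · intro R hRT hRp hRN
    have hRn : (R.subgroupOf T).Normal := by
      constructor
      intro n hn g
      rw [Subgroup.mem_subgroupOf] at hn ⊢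
      exact (Subgroup.mem_normalizer_iff.mp (hRN g g.2) n).mp hn
    have hRp' : IsPGroup p (R.subgroupOf T) := hRp.comap_of_injective T.subtype T.subtype_injective
    have h1 := pgroup_le_of_defzero hχ1 hdegT hRp'
    intro r hr
    exact Subgroup.mem_subgroupOf.mp (h1 (Subgroup.mem_subgroupOf.mpr hr : (⟨r, hRT hr⟩ : T) ∈ R.subgroupOf T))

end Cfsg.Agent.S4694
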