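import Cfsg.Statements.S4698
import Cfsg.Agent.Lib.BFBound

set_option autoImplicit false
open Cfsg

namespace Cfsg.Agent.S4698

/-- Let p be a prime, M a maximal ideal of the algebraic integers containing p, and B a p-block of defect d of the finite group G, containing k irreducible characters. Then k ≤ p^d when d ≤ 2, and k ≤ p^(2d − 2) when d ≥ 3. -/
theorem result {G : Type*} [Group G] [Finite G] (p : ℕ) [Fact p.Prime] (M : Ideal Cfsg.AlgInt) (hM : Cfsg.IsPModular p M) (B : Set (Cfsg.IrrCharacter G)) (hB : Cfsg.IsPBlock M B) (d : ℕ) (hd : Cfsg.blockDefect p B = d) : (d ≤ 2 → Nat.card B ≤ p ^ d) ∧ (3 ≤ d → Nat.card B ≤ p ^ (2 * d - 2)) := by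
  refine ⟨fun h => ?_, fun h => ?_⟩
  · have := Lib.BFBound.card_le_of_le_two hM hB (by omega)
    rwa [hd] at this
  · exact Lib.BFBound.main hM d G B hB hd h

end Cfsg.Agent.S4698
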