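import Cfsg.Statements.S4699
import Cfsg.Agent.Lib.CycTI

set_option autoImplicit false
open Cfsg

namespace Cfsg.Agent.S4699

/-- Let p be a prime and G a finite group whose Sylow p-subgroup P is cyclic of order p^n with n ≥ 2 and meets every other Sylow p-subgroup trivially. Then every faithful irreducible representation of G on a finite-dimensional space over a finite field of characteristic p has dimension at least p^n − (p − 1). -/
theorem result {G : Type*} [Group G] [Finite G] (p : ℕ) [Fact p.Prime] (P : Sylow p G) (hcyc : IsCyclic P) (n : ℕ) (hn : 2 ≤ n) (hPn : Nat.card P = p ^ n) (hTI : ∀ Q : Sylow p G, Q ≠ P → (P : Subgroup G) ⊓ (Q : Subgroup G) = ⊥) (F : Type*) [Field F] [Finite F] [CharP F p] (V : Type*) [AddCommGroup V] [Module F V] [FiniteDimensional F V] (ρ : Representation F G V) (hfaith : Function.Injective ρ) (hirr : ρ.IsIrreducible) : p ^ n - (p - 1) ≤ Module.finrank F V := by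
  exact Cfsg.Agent.Lib.CycTI.result p P hcyc n hn hPn hTI F V ρ hfaith hirr

end Cfsg.Agent.S4699
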