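import Cfsg.Statements.S4708
import Cfsg.Agent.Lib.BlockCover2
import Cfsg.Agent.Lib.BlockPair
import Cfsg.Agent.Lib.BlockThird
import Cfsg.Agent.Lib.BlockDeg

set_option autoImplicit false
open Cfsg

namespace Cfsg.Agent.S4708

open Cfsg Cfsg.Agent.Lib Cfsg.Agent.Lib.BlockRing Cfsg.Agent.Lib.BlockGA Cfsg.Agent.Lib.BlockIdem Cfsg.Agent.Lib.BlockCover
open Cfsg.Agent.Lib.BlockThird (triv coe_triv principalBlock_eq isPBlock_principal triv_mem)
open Cfsg.Agent.Lib.Clifford Cfsg.Agent.Lib.CharBasic Cfsg.Agent.Lib.BlockPair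
open scoped ComplexConjugate

universe u

/-- multiplicities: restriction and induction of degrees -/
theorem mult_facts {G : Type u} [Group G] [Fintype G] (H : Subgroup G) [Fintype H] :
    ∃ m : IrrCharacter G → IrrCharacter H → ℕ,
      (∀ (χ : IrrCharacter G) (θ : IrrCharacter H), classInner (fun x : H => (χ : G → ℂ) x) (θ : H → ℂ) = m χ θ) ∧
      (∀ χ : IrrCharacter G, charDegree (χ : G → ℂ) = ∑ θ : IrrCharacter H, m χ θ * charDegree (θ : H → ℂ)) ∧
      (∀ θ : IrrCharacter H, ∑ χ : IrrCharacter G, charDegree (χ : G → ℂ) * m χ θ = H.index * charDegree (θ : H → ℂ)) := by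
  choose m hm using fun (χ : IrrCharacter G) (θ : IrrCharacter H) =>
    (χ.2.isCharacter.restrict H).classInner_nat θ.2.isCharacter
  refine ⟨m, hm, ?_, ?_⟩
  · intro χ
    have h1 := (χ.2.isCharacter.restrict H).isClassFunction.expansion_apply 1
    have h2 : ((charDegree (χ : G → ℂ) : ℕ) : ℂ) = ((∑ θ : IrrCharacter H, m χ θ * charDegree (θ : H → ℂ) : ℕ) : ℂ) := by
      rw [BlockDeg.charDegree_cast_irr]
      push_cast
      have h3 : (χ : G → ℂ) 1 = (χ : G → ℂ) ((1 : H) : G) := rfl
      rw [h3, h1]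
      refine Finset.sum_congr rfl fun θ _ => ?_
      rw [hm, BlockDeg.charDegree_cast_irr]
    exact_mod_cast h2
  · intro θ
    have h1 := (IndFun.indFun_isClassFunction H (θ : H → ℂ)).expansion_apply 1
    rw [IndFun.indFun_one] at h1
    have h2 : ((∑ χ : IrrCharacter G, charDegree (χ : G → ℂ) * m χ θ : ℕ) : ℂ) = ((H.index * charDegree (θ : H → ℂ) : ℕ) : ℂ) := by
      push_cast
      rw [BlockDeg.charDegree_cast_irr, h1]
      refine Finset.sum_congr rfl fun χ _ => ?_
      rw [BlockDeg.charDegree_cast_irr, ← hm, ← IndFun.frobenius_reciprocity' H (θ : H → ℂ) (χ : G → ℂ)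
        χ.2.isClassFunction, mul_comm]
      congr 1
      have h3 : (starRingEnd ℂ) (classInner (χ : G → ℂ) (indFun H (θ : H → ℂ))) =
        classInner (χ : G → ℂ) (indFun H (θ : H → ℂ)) := by
        rw [IndFun.frobenius_reciprocity' H (θ : H → ℂ) (χ : G → ℂ) χ.2.isClassFunction, hm, Complex.conj_natCast]
      rw [← h3, conj_classInner]
    exact_mod_cast h2

variable {G : Type u} [Group G] [Finite G] {p : ℕ} {M : Ideal AlgInt}

theorem height_triv (p : ℕ) (B : Set (IrrCharacter G)) : blockHeight p B (triv G : G → ℂ) = 0 := by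
  have h1 : charDegree (triv G : G → ℂ) = 1 := by
    have := BlockDeg.charDegree_cast_irr (triv G)
    rw [show ((triv G : IrrCharacter G) : G → ℂ) 1 = 1 from rfl] at this
    exact_mod_cast this
  rw [blockHeight, h1]
  simp

/-- every member of the principal block of `H` lies under a member of the principal block of `G`. -/
theorem exists_principal_above [Fintype G] (hM : IsPModular p M) (H : Subgroup G) [Fintype H]
    {θ : IrrCharacter H} (hθ : θ ∈ principalBlock M H) :
    ∃ χ ∈ principalBlock M G, classInner (fun x : H => (χ : G → ℂ) x) (θ : H → ℂ) ≠ 0 := by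
  classical
  haveI := isPrime hM
  by_contra hn
  push_neg at hn
  have h1 := not_idl_pair hM isPBlock_principal triv_mem hθ (height_triv p (principalBlock M H))
  apply h1
  rw [omega_pel]
  have hf : IsClassFunction G (fun x : G => if p ∣ orderOf x then (0 : ℂ) else 1) := by
    intro g h
    have : orderOf (h * g * h⁻¹) = orderOf g := MulEquiv.orderOf_eq (MulAut.conj h) g
    simp only [this]
  have h2 := IndFun.sum_indFun_mul H (θ : H → ℂ) _ hf
  have h3 : ∑ g : G, indFun H (θ : H → ℂ) g * (if p ∣ orderOf g then (0 : ℂ) else 1) = 0 := by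
    have h4 : ∀ g : G, indFun H (θ : H → ℂ) g * (if p ∣ orderOf g then (0 : ℂ) else 1) =
        ∑ χ : IrrCharacter G, classInner (indFun H (θ : H → ℂ)) (χ : G → ℂ) *
          (if p ∣ orderOf g then (0 : ℂ) else (χ : G → ℂ) g * (triv G : G → ℂ) g⁻¹) := by
      intro g
      rw [(IndFun.indFun_isClassFunction H (θ : H → ℂ)).expansion_apply g, Finset.sum_mul]
      refine Finset.sum_congr rfl fun χ _ => ?_
      rw [coe_triv]
      split_ifs
      · ring
      · ring
    rw [Finset.sum_congr rfl fun g _ => h4 g, Finset.sum_comm]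
    refine Finset.sum_eq_zero fun χ _ => ?_
    rw [← Finset.mul_sum]
    by_cases hχ : χ ∈ principalBlock M G
    · have h5 := hn χ hχ
      rw [← IndFun.frobenius_reciprocity' H (θ : H → ℂ) (χ : G → ℂ) χ.2.isClassFunction] at h5
      have h6 : classInner (indFun H (θ : H → ℂ)) (χ : G → ℂ) = 0 := by
        rw [← conj_classInner, h5, map_zero]
      rw [h6, zero_mul]
    · have h5 := pair_eq_zero hM χ (triv G) (fun h => hχ (by
        rw [principalBlock_eq]
        exact sameBlock_symm h))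
      rw [pair_def] at h5
      rw [h5, mul_zero]
  rw [h3, mul_zero] at h2
  have h4 : ∑ h : H, (θ : H → ℂ) h * (if p ∣ orderOf (h : G) then (0 : ℂ) else 1) = 0 := by
    rcases mul_eq_zero.1 h2.symm with h5 | h5
    · exact absurd h5 (inv_ne_zero (by exact_mod_cast Nat.card_pos.ne'))
    · exact h5
  have h5 : pair p (θ : H → ℂ) (triv H : H → ℂ) = 0 := by
    rw [pair_def]
    refine Eq.trans (Finset.sum_congr rfl fun x _ => ?_) h4
    rw [coe_triv, Subgroup.orderOf_coe]
    split_ifs
    · ring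
    · ring
  rw [h5, zero_div]
  exact idl_zero

/-- Let p be a prime, M a maximal ideal of the algebraic integers containing p, G a finite group and H a normal subgroup. Write λ(X) for the sum of the squares of the degrees of the irreducible characters in the principal p-block of a group X. Then λ(H) ≤ λ(G) ≤ [G : H]·λ(H). -/
theorem result {G : Type*} [Group G] [Finite G] (p : ℕ) [Fact p.Prime] (M : Ideal Cfsg.AlgInt) (hM : Cfsg.IsPModular p M) (H : Subgroup G) [H.Normal] : (∑ᶠ θ ∈ Cfsg.principalBlock M H, Cfsg.charDegree (θ : H → ℂ) ^ 2) ≤ (∑ᶠ χ ∈ Cfsg.principalBlock M G, Cfsg.charDegree (χ : G → ℂ) ^ 2) ∧ (∑ᶠ χ ∈ Cfsg.principalBlock M G, Cfsg.charDegree (χ : G → ℂ) ^ 2) ≤ H.index * ∑ᶠ θ ∈ Cfsg.principalBlock M H, Cfsg.charDegree (θ : H → ℂ) ^ 2 := by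
  classical
  haveI := isPrime hM
  haveI := Fintype.ofFinite G
  haveI := Fintype.ofFinite H
  obtain ⟨m, hm, hres, hind⟩ := mult_facts H
  set B := principalBlock M G with hB
  set b := principalBlock M H with hb
  have hst : Stable (G := G) b := by
    intro g θ hθ ψ hψ
    have h1 : SameBlock M (fun _ : H => (1 : ℂ)) (θ : H → ℂ) := hθ
    have h2 := sameBlock_cj h1 g
    rw [← hψ] at h2
    exact h2
  have hcov : Covers B b := by
    refine ⟨triv G, triv_mem, triv H, triv_mem, ?_⟩
    have h1 : (fun n : H => (triv G : G → ℂ) n) = (triv H : H → ℂ) := rfl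
    rw [h1, (triv H).2.classInner_self]
    exact one_ne_zero
  -- constituents
  have hdown : ∀ χ ∈ B, ∀ θ, m χ θ ≠ 0 → θ ∈ b := by
    intro χ hχ θ h
    have h1 : classInner (fun x : H => (χ : G → ℂ) x) (θ : H → ℂ) ≠ 0 := by
      rw [hm]; exact_mod_cast h
    have h2 := mem_orbitSet_of_covers isPBlock_principal (unionOfBlocks_of_isPBlock isPBlock_principal) hcov hχ h1
    rwa [orbitSet_eq_of_stable hst] at h2
  have hup : ∀ θ ∈ b, ∃ χ ∈ B, m χ θ ≠ 0 := by
    intro θ hθ
    obtain ⟨χ, hχ, h⟩ := exists_principal_above hM H hθ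
    refine ⟨χ, hχ, ?_⟩
    rw [hm] at h
    exact_mod_cast h
  rw [finsum_mem_eq_finite_toFinset_sum _ (Set.toFinite B), finsum_mem_eq_finite_toFinset_sum _ (Set.toFinite b)]
  have hmB : ∀ χ, χ ∈ (Set.toFinite B).toFinset ↔ χ ∈ B := fun χ => Set.Finite.mem_toFinset _
  have hmb : ∀ θ, θ ∈ (Set.toFinite b).toFinset ↔ θ ∈ b := fun θ => Set.Finite.mem_toFinset _
  have hres' : ∀ χ ∈ B, charDegree (χ : G → ℂ) = ∑ θ ∈ (Set.toFinite b).toFinset, m χ θ * charDegree (θ : H → ℂ) := by
    intro χ hχ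
    rw [hres χ]
    symm
    apply Finset.sum_subset (Finset.subset_univ _)
    intro θ _ hθ
    by_cases h : m χ θ = 0
    · rw [h, zero_mul]
    · exact absurd ((hmb θ).2 (hdown χ hχ θ h)) hθ
  constructor
  · calc ∑ θ ∈ (Set.toFinite b).toFinset, charDegree (θ : H → ℂ) ^ 2
        ≤ ∑ θ ∈ (Set.toFinite b).toFinset, ∑ χ ∈ (Set.toFinite B).toFinset, (m χ θ * charDegree (θ : H → ℂ)) ^ 2 := by
          refine Finset.sum_le_sum fun θ hθ => ?_
          obtain ⟨χ, hχ, h⟩ := hup θ ((hmb θ).1 hθ)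
          refine le_trans ?_ (Finset.single_le_sum (f := fun χ : IrrCharacter G => (m χ θ * charDegree (θ : H → ℂ)) ^ 2)
            (fun _ _ => Nat.zero_le _) ((hmB χ).2 hχ))
          apply Nat.pow_le_pow_left
          exact Nat.le_mul_of_pos_left _ (Nat.pos_of_ne_zero h)
      _ = ∑ χ ∈ (Set.toFinite B).toFinset, ∑ θ ∈ (Set.toFinite b).toFinset, (m χ θ * charDegree (θ : H → ℂ)) ^ 2 :=
          Finset.sum_comm
      _ ≤ ∑ χ ∈ (Set.toFinite B).toFinset, charDegree (χ : G → ℂ) ^ 2 := by
          refine Finset.sum_le_sum fun χ hχ => ?_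
          rw [hres' χ ((hmB χ).1 hχ)]
          exact Finset.sum_sq_le_sq_sum_of_nonneg (fun _ _ => Nat.zero_le _)
  · calc ∑ χ ∈ (Set.toFinite B).toFinset, charDegree (χ : G → ℂ) ^ 2
        = ∑ χ ∈ (Set.toFinite B).toFinset, ∑ θ ∈ (Set.toFinite b).toFinset,
            charDegree (θ : H → ℂ) * (charDegree (χ : G → ℂ) * m χ θ) := by
          refine Finset.sum_congr rfl fun χ hχ => ?_
          rw [pow_two]
          conv_lhs => rw [hres' χ ((hmB χ).1 hχ), Finset.sum_mul, ← hres' χ ((hmB χ).1 hχ)]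
          refine Finset.sum_congr rfl fun θ _ => by ring
      _ = ∑ θ ∈ (Set.toFinite b).toFinset, charDegree (θ : H → ℂ) *
            ∑ χ ∈ (Set.toFinite B).toFinset, (charDegree (χ : G → ℂ) * m χ θ) := by
          rw [Finset.sum_comm]
          refine Finset.sum_congr rfl fun θ _ => by rw [Finset.mul_sum]
      _ ≤ ∑ θ ∈ (Set.toFinite b).toFinset, charDegree (θ : H → ℂ) * (H.index * charDegree (θ : H → ℂ)) := by
          refine Finset.sum_le_sum fun θ hθ => ?_
          apply Nat.mul_le_mul_left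
          rw [← hind θ]
          exact Finset.sum_le_sum_of_subset (Finset.subset_univ _)
      _ = H.index * ∑ θ ∈ (Set.toFinite b).toFinset, charDegree (θ : H → ℂ) ^ 2 := by
          rw [Finset.mul_sum]
          refine Finset.sum_congr rfl fun θ _ => by ring

end Cfsg.Agent.S4708
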