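import Cfsg.Statements.S4713
import Cfsg.Agent.Lib.ItoPSolv
import Cfsg.Agent.Lib.CharDegrees
import Cfsg.Agent.Lib.BlockDeg

set_option autoImplicit false
open Cfsg

namespace Cfsg.Agent.S4713

/-- Let p be a prime and G a finite p-solvable group. Then G has a normal abelian Sylow p-subgroup if and only if the degree of every irreducible character of G is prime to p. -/
theorem result {G : Type*} [Group G] [Finite G] (p : ℕ) [Fact p.Prime] (hsolv : Cfsg.IsPSolvable p G) (P : Sylow p G) : ((P : Subgroup G).Normal ∧ IsMulCommutative P) ↔ ∀ χ : Cfsg.IrrCharacter G, ¬ p ∣ Cfsg.charDegree (χ : G → ℂ) := by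
  constructor
  · rintro ⟨hPn, hPc⟩ χ hd
    haveI := hPn
    have h1 := Cfsg.Agent.Lib.CharDegrees.ito χ.2 (P : Subgroup G)
      (fun x hx y hy => congrArg Subtype.val (hPc.is_comm.comm ⟨x, hx⟩ ⟨y, hy⟩)) _
      (Cfsg.Agent.Lib.BlockDeg.charDegree_cast_irr χ).symm
    exact P.not_dvd_index (hd.trans h1)
  · intro h
    obtain ⟨h1, h2⟩ := Cfsg.Agent.Lib.ItoPSolv.ito_psolvable hsolv h P
    exact ⟨h1, ⟨⟨fun x y => Subtype.ext (h2 x x.2 y y.2)⟩⟩⟩

end Cfsg.Agent.S4713
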