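import Cfsg.Statements.S4715
import Cfsg.Agent.Lib.H25BpHC
-- import your own Cfsg.Agent.* helpers here

set_option autoImplicit false
open Cfsg

namespace Cfsg.Agent.S4715


open Cfsg.Agent.Lib Cfsg.Agent.Lib.BlockAlg Cfsg.Agent.Lib.BrauerPairs Cfsg.Agent.Lib.PairAlg
open Cfsg.Agent.Lib.PairMax Cfsg.Agent.Lib.H25BpS Cfsg.Agent.Lib.BlkIdem


/-- Let p be a prime, M a maximal ideal of the algebraic integers containing p, B a p-block of the finite group G with defect group D of order p^d, H = D·C_G(D), b a block of H inducing B, T the stabilizer of b in N_G(D) and e = [T : H] the inertial index of B; let n be the integer with p^n ≤ e < p^(n+1) and p^c the order of the centre of D. Then every irreducible character in B has height h with h + c ≤ n + d. -/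
theorem result {G : Type*} [Group G] [Finite G] (p : ℕ) [Fact p.Prime] (M : Ideal Cfsg.AlgInt) (hM : Cfsg.IsPModular p M) (B : Set (Cfsg.IrrCharacter G)) (hB : Cfsg.IsPBlock M B) (D : Subgroup G) (hBD : Cfsg.IsDefectGroup p M B D) (d : ℕ) (hDd : Nat.card D = p ^ d) (H : Subgroup G) (hH : H = D ⊔ Subgroup.centralizer (D : Set G)) (b : Set (Cfsg.IrrCharacter H)) (hind : Cfsg.IsInducedBlock M H b B) (T : Subgroup G) (hT : ∀ g : G, g ∈ T ↔ (g ∈ Subgroup.normalizer (D : Set G) ∧ ∀ θ ∈ b, ∀ θ' : Cfsg.IrrCharacter H, (∀ h h' : H, (h' : G) = g * h * g⁻¹ → (θ' : H → ℂ) h' = (θ : H → ℂ) h) → θ' ∈ b)) (e : ℕ) (he : H.relIndex T = e) (n : ℕ) (hn : p ^ n ≤ e ∧ e < p ^ (n + 1)) (c : ℕ) (hc : Nat.card (Subgroup.center D) = p ^ c) : ∀ χ ∈ B, Cfsg.blockHeight p B (χ : G → ℂ) + c ≤ n + d := by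
  have hMm : M.IsMaximal := hM.2.1
  have hch : CharP (Kf M) p := charP_Kf hM
  have hp := (Fact.out : p.Prime)
  intro χ hχ
  have hc1 := ctx_of_induced hM hBD hB hH hind
  have hHN : H ≤ Subgroup.normalizer (D : Set G) := by
    rw [hH]; exact sup_le (self_le_normalizer D) (centralizer_le_normalizer D)
  have hgH : ∀ g ∈ Subgroup.normalizer (D : Set G), g ∈ Subgroup.normalizer (H : Set G) := by
    intro g hg
    apply BlkFus.mem_normalizer_of_cg
    have h1 : BlkFus.cg g D = D := BlkFus.cg_of_mem_normalizer hg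
    have h2 : BlkFus.cg g (Subgroup.centralizer (D : Set G)) = Subgroup.centralizer (D : Set G) := by
      rw [← BlkFus.centralizer_cg, h1]
    have h3 : BlkFus.cg g H = BlkFus.cg g D ⊔ BlkFus.cg g (Subgroup.centralizer (D : Set G)) := by
      rw [hH]; exact Subgroup.map_sup _ _ _
    rw [h3, h1, h2, hH]
  have hST : stab (Subgroup.normalizer (D : Set G)) (bid M H b) ≤ T := by
    intro g hg
    rw [hT]
    refine ⟨hg.1, ?_⟩
    intro θ hθ θ' hθ'
    obtain ⟨_, h2⟩ := (stabilizesBlock_iff (hgH g hg.1) hind.1).2 hg.2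
    obtain ⟨χ', hχ', hconj⟩ := h2 θ hθ
    have : θ' = χ' := by
      apply Subtype.ext
      funext k
      have hk : g⁻¹ * (k : G) * g ∈ H := by
        have := (normalizer_iff (hgH g hg.1) (k : G)).1 k.2
        exact this
      have e1 : (k : G) = g * ((⟨g⁻¹ * (k : G) * g, hk⟩ : H) : G) * g⁻¹ := by
        show (k : G) = g * (g⁻¹ * (k : G) * g) * g⁻¹
        group
      rw [hθ' _ _ e1, hconj _ _ e1]
    rw [this]; exact hχ'
  have hrel : (D ⊔ Subgroup.centralizer (D : Set G)).relIndex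
      (stab (Subgroup.normalizer (D : Set G)) (bid M H b)) ≤ e := by
    rw [← he]
    have hne : H.relIndex T ≠ 0 := Subgroup.index_ne_zero_of_finite
    have h0 : ∀ K : Subgroup G, K = H → ∀ S : Subgroup G, S ≤ T → K.relIndex S ≤ H.relIndex T := by
      rintro K rfl S hS
      exact Subgroup.relIndex_le_of_le_right hS hne
    exact h0 _ hH.symm _ hST
  have h1 := hc1.height_center hχ hrel hc
  have h2 : p ^ Cfsg.blockDefect p B = p ^ d := by rw [← hc1.card_P, hDd]
  have h3 : Cfsg.blockDefect p B = d := Nat.pow_right_injective hp.two_le h2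
  rw [h3] at h1
  have h4 : p ^ (c + Cfsg.blockHeight p B (χ : G → ℂ)) < p ^ (n + 1 + d) := by
    rw [pow_add]
    refine lt_of_le_of_lt h1 ?_
    rw [pow_add p (n + 1) d]
    exact Nat.mul_lt_mul_of_pos_right hn.2 (pow_pos hp.pos _)
  have h5 := (Nat.pow_lt_pow_iff_right hp.one_lt).1 h4
  omega

end Cfsg.Agent.S4715
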