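import Cfsg.Statements.S4716
import Cfsg.Agent.Lib.SubsecCount

set_option autoImplicit false
open Cfsg

namespace Cfsg.Agent.S4716

/-- Let p be a prime, M a maximal ideal of the algebraic integers containing p, and B a p-block of defect d of the finite group G all of whose irreducible characters have height zero. Let y be a p-element, C = C_G(y), and b a block of C inducing B and having the same defect d (a major subsection). Then k(B)^2 ≤ p^(2d)·l(b), where k(B) is the number of irreducible characters in B and l(b) the p-regular rank of b (its number of irreducible Brauer characters); in particular (y = 1) k(B)^2 ≤ p^(2d)·l(B). -/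
theorem result {G : Type*} [Group G] [Finite G] (p : ℕ) [Fact p.Prime] (M : Ideal Cfsg.AlgInt) (hM : Cfsg.IsPModular p M) (B : Set (Cfsg.IrrCharacter G)) (hB : Cfsg.IsPBlock M B) (d : ℕ) (hd : Cfsg.blockDefect p B = d) (hh : ∀ χ ∈ B, Cfsg.blockHeight p B (χ : G → ℂ) = 0) (y : G) (hy : ∃ k : ℕ, orderOf y = p ^ k) (b : Set (Cfsg.IrrCharacter ↥(Subgroup.centralizer ({y} : Set G)))) (hind : Cfsg.IsInducedBlock M (Subgroup.centralizer ({y} : Set G)) b B) (hbd : Cfsg.blockDefect p b = d) : Nat.card B ^ 2 ≤ p ^ (2 * d) * Cfsg.blockRank p b := by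
  classical
  haveI := Lib.BlockRing.isPrime hM
  have hp := hM.1
  obtain ⟨k, hk⟩ := hy
  have hind' : Cfsg.IsInducedBlock M (Lib.Subsec.Cz y) b B := hind
  have : NeZero (p ^ (k + 1)) := ⟨pow_ne_zero _ hp.ne_zero⟩
  have hdd : Cfsg.blockDefect p b = Cfsg.blockDefect p B := by rw [hbd, hd]
  have h1 := Lib.Subsec.sum_Av hM hk hind'
  have hP : (0 : ℝ) < (p : ℝ) ^ d := by
    have : (0 : ℝ) < p := by exact_mod_cast hp.pos
    positivity
  have h2 : ∀ χ ∈ Lib.Subsec.fs B, (Nat.card B : ℝ) / (p : ℝ) ^ d ≤ Lib.Subsec.Av p k y b B (χ : G → ℂ) := by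
    intro χ hχ
    rw [div_le_iff₀ hP, mul_comm]
    have h3 := Lib.Subsec.mul_Av (p := p) (k := k) (z := y) (b := b) (B := B) hp (χ : G → ℂ)
    rw [hbd] at h3
    rw [h3, ← Lib.Subsec.card_fs]
    have h4 : ∑ ψ ∈ Lib.Subsec.fs B, (1 : ℝ) ≤
        ∑ ψ ∈ Lib.Subsec.fs B, Lib.CycAvg.avn (p ^ (k + 1)) (Lib.Subsec.al p y b (χ : G → ℂ) (ψ : G → ℂ)) := by
      refine Finset.sum_le_sum fun ψ hψ => ?_
      exact Lib.CycAvg.one_le_avn (Lib.Subsec.al_mem hM (Lib.Subsec.pow_of_orderOf hk) hind.1 χ ψ)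
        (Lib.Subsec.al_ne_zero hM hk hind' hdd (Lib.Subsec.mem_fs.1 hχ) (Lib.Subsec.mem_fs.1 hψ)
          (hh ψ (Lib.Subsec.mem_fs.1 hψ)))
    rwa [Finset.sum_const, nsmul_eq_mul, mul_one] at h4
  have h5 := Finset.sum_le_sum h2
  rw [h1, Finset.sum_const, nsmul_eq_mul, Lib.Subsec.card_fs, hbd, ← mul_div_assoc, div_le_iff₀ hP] at h5
  have h6 : ((Nat.card B ^ 2 : ℕ) : ℝ) ≤ ((p ^ (2 * d) * Cfsg.blockRank p b : ℕ) : ℝ) := by
    push_cast
    rw [two_mul, pow_add]
    nlinarith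
  exact_mod_cast h6

end Cfsg.Agent.S4716
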