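import Cfsg.Statements.S4717
import Cfsg.Agent.Lib.DefClassR

set_option autoImplicit false
open Cfsg

namespace Cfsg.Agent.S4717

/-- Let p be a prime, M a maximal ideal of the algebraic integers containing p, and r a natural number; say that a finite group X has deficiency class r when X has no non-principal p-block of defect ≥ r. If G has deficiency class r then so does the centralizer of every p-element of G; conversely, if r > 0 and the centralizer of every element of order p has deficiency class r, then G has deficiency class r. -/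
theorem result {G : Type*} [Group G] [Finite G] (p : ℕ) [Fact p.Prime] (M : Ideal Cfsg.AlgInt) (hM : Cfsg.IsPModular p M) (r : ℕ) : ((∀ B' : Set (Cfsg.IrrCharacter G), Cfsg.IsPBlock M B' → B' ≠ Cfsg.principalBlock M G → Cfsg.blockDefect p B' < r) → ∀ y : G, (∃ k : ℕ, orderOf y = p ^ k) → (∀ B' : Set (Cfsg.IrrCharacter ↥(Subgroup.centralizer ({y} : Set G))), Cfsg.IsPBlock M B' → B' ≠ Cfsg.principalBlock M ↥(Subgroup.centralizer ({y} : Set G)) → Cfsg.blockDefect p B' < r)) ∧ (0 < r → (∀ y : G, orderOf y = p → (∀ B' : Set (Cfsg.IrrCharacter ↥(Subgroup.centralizer ({y} : Set G))), Cfsg.IsPBlock M B' → B' ≠ Cfsg.principalBlock M ↥(Subgroup.centralizer ({y} : Set G)) → Cfsg.blockDefect p B' < r)) → (∀ B' : Set (Cfsg.IrrCharacter G), Cfsg.IsPBlock M B' → B' ≠ Cfsg.principalBlock M G → Cfsg.blockDefect p B' < r)) := by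
  exact ⟨fun h y hy B' hB' hne => Cfsg.Agent.Lib.DefClassR.down hM r h y hy B' hB' hne,
    fun hr h B hB hne => Cfsg.Agent.Lib.DefClassR.up hM r hr h B hB hne⟩


end Cfsg.Agent.S4717
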