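import Cfsg.Statements.S4720
import Cfsg.Agent.Lib.BlockColumn

set_option autoImplicit false
open Cfsg

namespace Cfsg.Agent.S4720

/-- Let p be a prime, M a maximal ideal of the algebraic integers containing p, P a p-subgroup of the finite group G, N a subgroup with P ≤ N ≤ N_G(P), and U a nonempty subset of P normalized by N such that an element of U and an element of P that are conjugate in G are already conjugate in N, and such that λ(C_G(y)) = w·#C_N(y) for every y ∈ U with one rational number w, where λ(X) denotes the sum of the squares of the degrees of the irreducible characters in the principal p-block of X. For a complex function θ on P and χ in the principal block of G put a_χ(θ) = #P⁻¹ Σ_{y ∈ P} χ(y) θ(y⁻¹). Then for generalized characters θ, η of P with θ vanishing outside U, Σ_χ a_χ(θ)·conj(a_χ(η)) = (w/#P²)·Σ_{y ∈ P} θ(y)·conj(Σ_{x ∈ N} η(x y x⁻¹)) (η extended by zero off P; the conjugates lie in P), the first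 sum over the principal p-block of G. -/
theorem result {G : Type*} [Group G] [Finite G] (p : ℕ) [Fact p.Prime] (M : Ideal Cfsg.AlgInt) (hM : Cfsg.IsPModular p M) (P : Subgroup G) (hP : IsPGroup p P) (N : Subgroup G) (hPN : P ≤ N) (hNN : N ≤ Subgroup.normalizer (P : Set G)) (U : Set G) (hUne : U.Nonempty) (hUP : U ⊆ (P : Set G)) (hUN : ∀ n ∈ N, ∀ u ∈ U, n * u * n⁻¹ ∈ U) (hfus : ∀ u ∈ U, ∀ g : G, g * u * g⁻¹ ∈ (P : Set G) → ∃ n ∈ N, n * u * n⁻¹ = g * u * g⁻¹) (w : ℚ) (hw : ∀ y ∈ U, ((∑ᶠ ψ ∈ Cfsg.principalBlock M ↥(Subgroup.centralizer ({y} : Set G)), Cfsg.charDegree (ψ : ↥(Subgroup.centralizer ({y} : Set G)) → ℂ) ^ 2) : ℚ) = w * Nat.card ↥(N ⊓ Subgroup.centralizer ({y} : Set G))) (θ η : ↥P → ℂ) (hθ : Cfsg.IsGeneralizedCharacter ↥P θ) (hη : Cfsg.IsGeneralizedCharacter ↥P η) (hθU : ∀ y : ↥P, (y : G) ∉ U → θ y = 0) : ∑ᶠ χ ∈ Cfsg.principalBlock M G, ((Nat.card ↥P : ℂ)⁻¹ * ∑ᶠ y : ↥P, (χ : G → ℂ) (y : G) * θ y⁻¹) * (starRingEnd ℂ)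 ((Nat.card ↥P : ℂ)⁻¹ * ∑ᶠ y : ↥P, (χ : G → ℂ) (y : G) * η y⁻¹) = ((w : ℂ) / ((Nat.card ↥P : ℂ) ^ 2)) * ∑ᶠ y : ↥P, θ y * (starRingEnd ℂ) (∑ᶠ x : ↥N, Cfsg.extendByZero P η ((x : G) * (y : G) * (x : G)⁻¹)) := 
  Lib.BlockColumn.inner_formula hM P hP N hNN U hfus w (fun y hy => by
    have h := hw y hy
    rw [← h]
    unfold Lib.BlockColumn.lamB
    rw [finsum_mem_eq_finite_toFinset_sum _ (Set.toFinite _),
      finsum_mem_eq_finite_toFinset_sum _ (Set.toFinite _)]
    push_cast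
    rfl) θ η hθU

end Cfsg.Agent.S4720
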