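import Cfsg.Statements.S4726
import Cfsg.Agent.Lib.NestDef

set_option autoImplicit false
open Cfsg

namespace Cfsg.Agent.S4726

/-- Let p be a prime, M a maximal ideal of the algebraic integers containing p, H a subgroup of the finite group G and b a p-block of H with defect group D₀ such that C_G(D₀) ≤ H. Then b induces a block of G, and for every block B of G induced by b there is a defect group D of B with Z(D) ≤ Z(D₀) ≤ D₀ ≤ D (as subgroups of G). In particular, if the defect groups of B are abelian then D₀ is a defect group of B. -/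
theorem result {G : Type*} [Group G] [Finite G] (p : ℕ) [Fact p.Prime] (M : Ideal Cfsg.AlgInt) (hM : Cfsg.IsPModular p M) (H : Subgroup G) (b : Set (Cfsg.IrrCharacter ↥H)) (hb : Cfsg.IsPBlock M b) (D₀ : Subgroup ↥H) (hD₀ : Cfsg.IsDefectGroup p M b D₀) (hC : Subgroup.centralizer ((D₀.map H.subtype : Subgroup G) : Set G) ≤ H) : Cfsg.InducedBlockDefined M H b ∧ ∀ B : Set (Cfsg.IrrCharacter G), Cfsg.IsInducedBlock M H b B → (∃ D : Subgroup G, Cfsg.IsDefectGroup p M B D ∧ (Subgroup.center ↥D).map D.subtype ≤ ((Subgroup.center ↥D₀).map D₀.subtype).map H.subtype ∧ ((Subgroup.center ↥D₀).map D₀.subtype).map H.subtype ≤ D₀.map H.subtype ∧ D₀.map H.subtype ≤ D) ∧ (∀ D : Subgroup G, Cfsg.IsDefectGroup p M B D → IsMulCommutative ↥D → Cfsg.IsDefectGroup p M B (D₀.map H.subtype)) := by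
  haveI : M.IsMaximal := hM.2.1
  haveI := Cfsg.Agent.Lib.BlockAlg.charP_Kf hM
  exact Cfsg.Agent.Lib.NestDef.result hM H hb hD₀ hC


end Cfsg.Agent.S4726
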