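import Cfsg.Statements.S4728
import Cfsg.Agent.Lib.HallKer2

set_option autoImplicit false
open Cfsg

namespace Cfsg.Agent.S4728

/-- Let p be a prime, π a set of primes containing p, M a maximal ideal of the algebraic integers containing p, B a p-block of the finite group G with defect group D, and B₁ the block of N_G(D) with defect group D inducing B. Let D₀ be a p-subgroup, H₀ = D₀·C_G(D₀), and b a block of H₀ inducing B. Write O_π'(X) for the largest normal subgroup of X whose order has no prime divisor in π. Suppose that O_π'(C_G(D₀)) is a normal Hall π'-subgroup of C_G(D₀) (it contains every element of C_G(D₀) whose order has no prime divisor in π) and that every element of it lies in the kernel of every member of b. Then every element of O_π'(N_G(D)) lies in the kernel of every member of B₁. -/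
theorem result {G : Type*} [Group G] [Finite G] (p : ℕ) [Fact p.Prime] (M : Ideal Cfsg.AlgInt) (hM : Cfsg.IsPModular p M) (π : Set ℕ) (hpπ : p ∈ π) (B : Set (Cfsg.IrrCharacter G)) (hB : Cfsg.IsPBlock M B) (D : Subgroup G) (hBD : Cfsg.IsDefectGroup p M B D) (B₁ : Set (Cfsg.IrrCharacter ↥(Subgroup.normalizer (D : Set G)))) (hB₁ : Cfsg.IsInducedBlock M (Subgroup.normalizer (D : Set G)) B₁ B) (hB₁D : Cfsg.IsDefectGroup p M B₁ (D.subgroupOf (Subgroup.normalizer (D : Set G)))) (D₀ : Subgroup G) (hD₀ : IsPGroup p D₀) (H₀ : Subgroup G) (hH₀ : H₀ = D₀ ⊔ Subgroup.centralizer (D₀ : Set G)) (b : Set (Cfsg.IrrCharacter ↥H₀)) (hb : Cfsg.IsInducedBlock M H₀ b B) (hcompl : ∀ x : ↥(Subgroup.centralizer (D₀ : Set G)), (∀ q : ℕ, q.Prime → q ∣ orderOf x → q ∉ π) → x ∈ Cfsg.piCore {q | q ∉ π} ↥(Subgroup.centralizer (D₀ : Set G))) (hkerb : ∀ x : ↥(Subgroup.centralizer (D₀ : Set G)), x ∈ Cfsg.piCore {q | q ∉ π} ↥(Subgroup.centralizer (D₀ : Set G)) → ∀ θ ∈ b, ∀ h : ↥H₀,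 (h : G) = (x : G) → (θ : ↥H₀ → ℂ) h = (θ : ↥H₀ → ℂ) 1) : ∀ n : ↥(Subgroup.normalizer (D : Set G)), n ∈ Cfsg.piCore {q | q ∉ π} ↥(Subgroup.normalizer (D : Set G)) → n ∈ Cfsg.blockKer B₁ := by
  have hK := Cfsg.Agent.Lib.HallKer.hs_of_core (π := π) (Q := D₀) rfl hcompl
  have hN : H₀ ≤ Subgroup.normalizer (D₀ : Set G) := by
    rw [hH₀]
    exact sup_le Subgroup.le_normalizer (Subgroup.centralizer_le_normalizer _)
  refine (Cfsg.Agent.Lib.HallKer.ker_iff hM hpπ hBD hB₁ hB₁D hD₀ (hH₀ ▸ le_sup_left)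
    (hH₀ ▸ le_sup_right) hN hb hK).1 ?_
  rintro a ⟨x, hx, hxa⟩ θ hθ
  exact hkerb x hx θ hθ a hxa.symm

end Cfsg.Agent.S4728
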