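import Cfsg.Statements.S4729
import Cfsg.Agent.Lib.BlockDeg
import Cfsg.Agent.Lib.DetChar
import Cfsg.Agent.Lib.MGroups
import Cfsg.Agent.Lib.DefectZero

set_option autoImplicit false
open Cfsg

namespace Cfsg.Agent.S4729

open Cfsg.Agent.Lib.BlockRing Cfsg.Agent.Lib.CharBasic Cfsg.Agent.Lib

theorem detChar_const {G : Type*} [Group G] [Finite G] (n : ℕ) (g : G) :
    detChar (fun _ : G => (n : ℂ)) g = 1 := by
  have h1 : (fun _ : G => (n : ℂ)) = (Representation.trivial ℂ G (Fin n → ℂ)).character := by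
    funext g
    simp [Representation.character, Representation.trivial]
  rw [h1, DetChar.detChar_character]
  simp [Representation.trivial]

theorem isCharacter_const {G : Type*} [Group G] (n : ℕ) : IsCharacter G (fun _ : G => (n : ℂ)) := by
  refine ⟨n, Representation.trivial ℂ G (Fin n → ℂ), ?_⟩
  funext g
  simp [Representation.character, Representation.trivial]

theorem aux {G : Type*} [Group G] [Finite G] (p : ℕ) [Fact p.Prime] (M : Ideal Cfsg.AlgInt)
    (hM : Cfsg.IsPModular p M) (hperf : commutator G = ⊤) (P : Sylow p G)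
    (χ : Cfsg.IrrCharacter G) (hχ : χ ∈ Cfsg.principalBlock M G)
    (hfaith : ∀ g : G, (χ : G → ℂ) g = (χ : G → ℂ) 1 → g = 1)
    (hdeg : Cfsg.charDegree (χ : G → ℂ) < 2 * p) (x : G)
    (hx : x ∈ Subgroup.centralizer ((P : Subgroup G) : Set G)) (q : ℕ) (hq : q.Prime) (hqp : q ≠ p)
    (hxq : orderOf x = q) : False := by
  classical
  haveI := isPrime hM
  haveI : Fact q.Prime := ⟨hq⟩
  have hp : p.Prime := Fact.out
  letI : Fintype G := Fintype.ofFinite G
  have hdegC : ((charDegree (χ : G → ℂ) : ℕ) : ℂ) = (χ : G → ℂ) 1 := BlockDeg.charDegree_cast_irr χ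
  -- values congruent to the degree
  have hcong : ∀ i : ℤ, MemLocalIdeal M ((χ : G → ℂ) (x ^ i) - (χ : G → ℂ) 1) := by
    intro i
    set g := x ^ i with hg
    have hgP : (P : Subgroup G) ≤ Subgroup.centralizer ({g} : Set G) := by
      intro y hy
      rw [Subgroup.mem_centralizer_singleton_iff]
      have h1 : x * y = y * x := (Subgroup.mem_centralizer_iff.mp hx y hy).symm
      have h2 : Commute x y := h1
      exact (h2.zpow_left i).eq.symm
    have hidx : ¬ p ∣ (Subgroup.centralizer ({g} : Set G)).index := by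
      intro h
      exact P.not_dvd_index (h.trans (Subgroup.index_dvd_of_le hgP))
    have h1 := hχ g
    have h0 : (χ : G → ℂ) 1 ≠ 0 := χ.2.one_ne_zero
    have hl1 : MemLocalRing M ((χ : G → ℂ) 1) := by rw [← hdegC]; exact loc_natCast _
    have h2 := idl_mul_left hl1 h1
    have h3 : (χ : G → ℂ) 1 * (centralChar (fun _ : G => (1 : ℂ)) g - centralChar (χ : G → ℂ) g) =
        ((Subgroup.centralizer ({g} : Set G)).index : ℂ) * ((χ : G → ℂ) 1 - (χ : G → ℂ) g) := by
      unfold centralChar
      field_simp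
    rw [h3] at h2
    have h4 := idl_of_mul_left (loc_natCast _) (by rw [idl_natCast_iff hM]; exact hidx) h2
    exact idl_sub_symm h4
  -- restriction to `⟨x⟩`
  let X : Subgroup G := Subgroup.zpowers x
  have hXc : ∀ a b : X, a * b = b * a := by
    intro a b
    obtain ⟨i, hi⟩ := Subgroup.mem_zpowers_iff.mp a.2
    obtain ⟨j, hj⟩ := Subgroup.mem_zpowers_iff.mp b.2
    apply Subtype.ext
    rw [Subgroup.coe_mul, Subgroup.coe_mul, ← hi, ← hj, ← zpow_add, ← zpow_add, add_comm]
  have hXcard : Nat.card X = q := by rw [Nat.card_zpowers, hxq]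
  have hres : IsCharacter X (fun y : X => (χ : G → ℂ) y) := χ.2.isCharacter.restrict X
  have hlin : ∀ l : IrrCharacter X, (l : X → ℂ) 1 = 1 := fun l => l.2.one_eq_one_of_comm hXc
  choose m hm using fun l : IrrCharacter X => hres.classInner_nat l.2.isCharacter
  let l1 : IrrCharacter X := ⟨fun _ => 1, isIrrCharacter_fun_one⟩
  have hqM : ¬ MemLocalIdeal M (q : ℂ) := by
    rw [idl_natCast_iff hM]
    intro h
    exact hqp ((Nat.prime_dvd_prime_iff_eq hp hq).mp h).symm
  have hpm : ∀ l : IrrCharacter X, l ≠ l1 → p ∣ m l := by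
    intro l hl
    rw [← idl_natCast_iff hM, ← hm l]
    have h1 : classInner (fun y : X => (χ : G → ℂ) y) (l : X → ℂ) =
        classInner (fun y : X => (χ : G → ℂ) y - (χ : G → ℂ) 1) (l : X → ℂ) := by
      have h2 : (fun y : X => (χ : G → ℂ) y) = (fun y : X => (χ : G → ℂ) y - (χ : G → ℂ) 1) +
          (χ : G → ℂ) 1 • (l1 : X → ℂ) := by
        funext y; simp [l1]
      conv_lhs => rw [h2]
      rw [classInner_add_left, classInner_smul_left, l1.2.classInner_eq_zero l.2
        (fun h => hl (Subtype.ext h).symm), mul_zero, add_zero]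
    rw [h1, classInner]
    have hinv : MemLocalRing M ((Nat.card X : ℂ)⁻¹) := by
      rw [hXcard]
      exact loc_inv (loc_natCast _) hqM
    apply idl_mul_left hinv
    apply idl_sum
    intro y _
    obtain ⟨i, hi⟩ := Subgroup.mem_zpowers_iff.mp y.2
    apply idl_mul_right
    · rw [← hi]; exact hcong i
    · rw [← l.2.isCharacter.inv]
      exact loc_of_isIntegral (DefectZero.isIntegral_value l.2.isCharacter _)
  have hsum : ∑ l, m l = charDegree (χ : G → ℂ) := by
    have h1 := hres.isClassFunction.expansion_apply 1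
    have h2 : ((∑ l, m l : ℕ) : ℂ) = (charDegree (χ : G → ℂ) : ℂ) := by
      rw [hdegC]
      push_cast
      refine Eq.trans ?_ h1.symm
      refine Finset.sum_congr rfl fun l _ => ?_
      rw [hm, hlin, mul_one]
    exact_mod_cast h2
  have hx1 : x ≠ 1 := by
    intro h
    rw [h, orderOf_one] at hxq
    exact hq.one_lt.ne hxq
  have hne : ∃ l0, l0 ≠ l1 ∧ m l0 ≠ 0 := by
    by_contra hcon
    push Not at hcon
    apply hx1
    apply hfaith
    have h1 := hres.isClassFunction.expansion_apply ⟨x, Subgroup.mem_zpowers x⟩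
    have h2 := hres.isClassFunction.expansion_apply 1
    refine h1.trans (Eq.trans ?_ h2.symm)
    refine Finset.sum_congr rfl fun l _ => ?_
    by_cases hl : l = l1
    · subst hl; rfl
    · rw [hm, hcon l hl, Nat.cast_zero, zero_mul, zero_mul]
  obtain ⟨l0, hl0, hml0⟩ := hne
  have hle0 : p ≤ m l0 := Nat.le_of_dvd (Nat.pos_of_ne_zero hml0) (hpm l0 hl0)
  have hothers : ∀ l, l ≠ l1 → l ≠ l0 → m l = 0 := by
    intro l h1 h2
    by_contra h3
    have h4 : p ≤ m l := Nat.le_of_dvd (Nat.pos_of_ne_zero h3) (hpm l h1)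
    have h5 : m l0 + m l ≤ ∑ l, m l := by
      rw [← Finset.add_sum_erase _ _ (Finset.mem_univ l0)]
      apply Nat.add_le_add_left
      exact Finset.single_le_sum (f := m) (fun _ _ => Nat.zero_le _)
        (Finset.mem_erase.mpr ⟨h2, Finset.mem_univ l⟩)
    omega
  have hml0p : m l0 = p := by
    have h5 : m l0 ≤ ∑ l, m l := Finset.single_le_sum (f := m) (fun _ _ => Nat.zero_le _)
      (Finset.mem_univ l0)
    obtain ⟨c, hc⟩ := hpm l0 hl0
    have : c < 2 := by
      by_contra h
      have h6 : p * 2 ≤ p * c := Nat.mul_le_mul_left p (by omega)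
      omega
    have : c ≠ 0 := by rintro rfl; exact hml0 (by rw [hc, mul_zero])
    have : c = 1 := by omega
    rw [hc, this, mul_one]
  -- determinant
  obtain ⟨lam, hlam⟩ := MGroups.exists_hom_of_one_eq_one l0.2.isCharacter (hlin l0)
  have hdecomp : (fun y : X => (χ : G → ℂ) y) = (fun _ : X => ((m l1 : ℕ) : ℂ)) +
      (fun y : X => (lam y : ℂ) * ((p : ℕ) : ℂ)) := by
    funext y
    have h1 := hres.isClassFunction.expansion_apply y
    refine h1.trans ?_
    rw [← Finset.add_sum_erase _ _ (Finset.mem_univ l1),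
      ← Finset.add_sum_erase _ _ (Finset.mem_erase.mpr ⟨hl0, Finset.mem_univ l0⟩),
      Finset.sum_eq_zero, add_zero]
    · rw [hm, hm, hml0p, hlam, Pi.add_apply]
      simp only [l1, mul_one]
      rw [mul_comm (p : ℂ)]
    · intro l hl
      rw [Finset.mem_erase, Finset.mem_erase] at hl
      rw [hm, hothers l hl.2.1 hl.1, Nat.cast_zero, zero_mul]
  let x' : X := ⟨x, Subgroup.mem_zpowers x⟩
  have hd1 : detChar (fun y : X => (χ : G → ℂ) y) x' = (lam x' : ℂ) ^ p := by
    have hc2 : IsCharacter X (fun y : X => (lam y : ℂ) * ((p : ℕ) : ℂ)) := by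
      have h1 := (isCharacter_of_unitsHom lam).mul (isCharacter_const (G := X) p)
      exact h1
    rw [hdecomp, DetChar.detChar_add (isCharacter_const _) hc2, detChar_const, one_mul,
      DetChar.detChar_mul_linear (isCharacter_const (G := X) p) (d := p) rfl lam, detChar_const, mul_one]
  have hd2 : detChar (fun y : X => (χ : G → ℂ) y) x' = 1 := by
    rw [DetChar.detChar_restrict χ.2.isCharacter]
    obtain ⟨δ, hδ⟩ := DetChar.exists_detHom χ.2.isCharacter
    rw [hδ]
    have h1 : δ (x' : G) = 1 := by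
      have h2 : (x' : G) ∈ commutator G := by rw [hperf]; trivial
      have h3 : commutator G ≤ δ.ker := Abelianization.commutator_subset_ker δ
      exact h3 h2
    rw [h1]; rfl
  rw [hd2] at hd1
  have h1 : lam x' ^ p = 1 := Units.ext (by push_cast; exact hd1.symm)
  have h2 : lam x' ^ q = 1 := by
    rw [← map_pow]
    have : x' ^ q = 1 := by
      apply Subtype.ext
      show x ^ q = 1
      rw [← hxq, pow_orderOf_eq_one]
    rw [this, map_one]
  have h3 : lam x' = 1 := by
    have h4 := Nat.dvd_gcd (orderOf_dvd_of_pow_eq_one h1) (orderOf_dvd_of_pow_eq_one h2)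
    have h5 : Nat.gcd p q = 1 := (Nat.coprime_primes hp hq).mpr (Ne.symm hqp)
    rw [h5] at h4
    exact orderOf_eq_one_iff.mp (Nat.dvd_one.mp h4)
  apply hl0
  apply Subtype.ext
  rw [hlam]
  funext y
  obtain ⟨i, hi⟩ := Subgroup.mem_zpowers_iff.mp y.2
  have h4 : y = x' ^ i := Subtype.ext hi.symm
  rw [h4, map_zpow, h3, one_zpow]
  rfl

theorem result {G : Type*} [Group G] [Finite G] (p : ℕ) [Fact p.Prime] (M : Ideal Cfsg.AlgInt) (hM : Cfsg.IsPModular p M) (hperf : commutator G = ⊤) (P : Sylow p G) (χ : Cfsg.IrrCharacter G) (hχ : χ ∈ Cfsg.principalBlock M G) (hfaith : ∀ g : G, (χ : G → ℂ) g = (χ : G → ℂ) 1 → g = 1) (hdeg : Cfsg.charDegree (χ : G → ℂ) < 2 * p) : IsPGroup p ↥(Subgroup.centralizer ((P : Subgroup G) : Set G)) := by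
  by_contra hcon
  have h1 : ∃ q : ℕ, q.Prime ∧ q ≠ p ∧ q ∣ Nat.card (Subgroup.centralizer ((P : Subgroup G) : Set G)) := by
    by_contra h
    push Not at h
    apply hcon
    have hc0 : Nat.card (Subgroup.centralizer ((P : Subgroup G) : Set G)) ≠ 0 := Nat.card_pos.ne'
    rw [IsPGroup.iff_card]
    exact ⟨_, Nat.eq_prime_pow_of_unique_prime_dvd hc0 (fun {q} hq hd => by
      by_contra hne
      exact h q hq hne hd)⟩
  obtain ⟨q, hq, hqp, hd⟩ := h1
  haveI : Fact q.Prime := ⟨hq⟩
  obtain ⟨x, hx⟩ := exists_prime_orderOf_dvd_card' q hd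
  exact aux p M hM hperf P χ hχ hfaith hdeg (x : G) x.2 q hq hqp (by rw [Subgroup.orderOf_coe, hx])

end Cfsg.Agent.S4729
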