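import Cfsg.Statements.S4730
import Cfsg.Agent.Lib.DegTools
import Cfsg.Agent.Lib.BlockIdem

set_option autoImplicit false
open Cfsg

namespace Cfsg.Agent.S4730

open Cfsg.Agent.Lib.DefectZero Cfsg.Agent.Lib Cfsg.Agent.Lib.BlockRing Cfsg.Agent.Lib.CharBasic
open scoped ComplexConjugate

/-- A faithful character vanishes at noncentral elements with class size prime to the degree. -/
theorem vanish {G : Type*} [Group G] [Finite G] (hZ : Subgroup.center G = ⊥) (χ : IrrCharacter G)
    (hfaith : ∀ g : G, (χ : G → ℂ) g = (χ : G → ℂ) 1 → g = 1) (z : G) (hz : z ≠ 1)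
    (hcop : Nat.Coprime (charDegree (χ : G → ℂ)) (Subgroup.centralizer ({z} : Set G)).index) :
    (χ : G → ℂ) z = 0 := by
  obtain ⟨χ, n, ρ, hρ, rfl⟩ := χ
  simp only at hfaith hcop ⊢
  have hdeg : charDegree ρ.character = n := by
    have := charDegree_eq (G := G) (χ := ρ.character) ⟨n, ρ, rfl⟩
    rw [Representation.char_one, Module.finrank_fin_fun] at this
    exact_mod_cast this
  rw [hdeg] at hcop
  have h1 := CharCentral.zero_or_norm_eq_of_coprime ρ z (by rw [Module.finrank_fin_fun]; exact hcop)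
  rcases h1 with h1 | h1
  · exact h1
  exfalso
  obtain ⟨ω, hω⟩ := (CharValues.norm_character_eq_iff ρ z).mp h1
  have hinj : Function.Injective ρ := by
    intro a b hab
    have h2 : ρ (a * b⁻¹) = LinearMap.id := by
      rw [map_mul, hab, ← map_mul, mul_inv_cancel, map_one]; rfl
    have h3 := (CharValues.character_eq_finrank_iff ρ (a * b⁻¹)).mpr h2
    have h4 := hfaith (a * b⁻¹) (by rw [h3, Representation.char_one])
    exact mul_inv_eq_one.mp h4
  have hc : z ∈ Subgroup.center G := by
    rw [Subgroup.mem_center_iff]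
    intro x
    apply hinj
    rw [map_mul, map_mul, hω]
    ext v
    simp
  rw [hZ, Subgroup.mem_bot] at hc
  exact hz hc

/-- Sum of a character over a subgroup. -/
theorem sum_over_subgroup {G : Type*} [Group G] [Finite G] (H : Subgroup G) [Fintype H] {χ : G → ℂ}
    (hχ : IsCharacter G χ) : ∃ m : ℕ, ∑ h : H, χ h = (Nat.card H : ℂ) * m := by
  obtain ⟨m, hm⟩ := (hχ.restrict H).classInner_nat (isCharacter_one (G := H))
  refine ⟨m, ?_⟩
  rw [classInner_def] at hm
  have hH : (Nat.card H : ℂ) ≠ 0 := by exact_mod_cast Nat.card_pos.ne'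
  rw [← hm]
  field_simp
  simp

theorem main {G : Type*} [Group G] [Finite G] (p : ℕ) [Fact p.Prime] (M : Ideal Cfsg.AlgInt) (hM : Cfsg.IsPModular p M) (hZ : Subgroup.center G = ⊥) (P : Sylow p G) (a b : ℕ) (ha : Nat.card P = p ^ a) (hb : Nat.card (Subgroup.center ↥(P : Subgroup G)) = p ^ b) (χ : Cfsg.IrrCharacter G) (hfaith : ∀ g : G, (χ : G → ℂ) g = (χ : G → ℂ) 1 → g = 1) (n : ℕ) (hdeg : Cfsg.charDegree (χ : G → ℂ) = p ^ n) : Cfsg.blockDefect p (Cfsg.blockOf M (χ : G → ℂ)) ≤ a - b := by
  classical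
  have hMp := isPrime hM
  have hp : p.Prime := Fact.out
  -- the centre of P as a subgroup of G
  set Z : Subgroup G := (Subgroup.center ↥(P : Subgroup G)).map (P : Subgroup G).subtype with hZdef
  have hZcard : Nat.card Z = p ^ b := by
    rw [← hb]
    exact Subgroup.card_map_of_injective (Subgroup.subtype_injective _)
  have hidx : ∀ z ∈ Z, ¬ p ∣ (Subgroup.centralizer ({z} : Set G)).index := by
    rintro _ ⟨z, hz, rfl⟩ hd
    have hPle : (P : Subgroup G) ≤ Subgroup.centralizer ({(P : Subgroup G).subtype z} : Set G) := by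
      intro y hy
      rw [Subgroup.mem_centralizer_iff]; rintro v rfl
      exact (congrArg Subtype.val ((Subgroup.mem_center_iff.mp hz) ⟨y, hy⟩)).symm
    exact P.not_dvd_index (hd.trans (Subgroup.index_dvd_of_le hPle))
  have hvan : ∀ z ∈ Z, z ≠ 1 → (χ : G → ℂ) z = 0 := by
    intro z hz hz1
    apply vanish hZ χ hfaith z hz1
    rw [hdeg]
    exact ((Nat.Prime.coprime_iff_not_dvd hp).mpr (hidx z hz)).pow_left n
  have key : ∀ ψ ∈ blockOf M (χ : G → ℂ), b ≤ (charDegree (ψ : G → ℂ)).factorization p := by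
    intro ψ hψ
    have hψ1 := ψ.2.one_ne_zero
    have h1 : ∀ z ∈ Z, z ≠ 1 → MemLocalIdeal M ((ψ : G → ℂ) z / (ψ : G → ℂ) 1) := by
      intro z hz hz1
      have h2 := hψ z
      have h3 : centralChar (χ : G → ℂ) z = 0 := by
        rw [centralChar, hvan z hz hz1]; simp
      rw [h3, zero_sub, idl_neg_iff] at h2
      rw [centralChar, mul_div_assoc] at h2
      set k := (Subgroup.centralizer ({z} : Set G)).index with hk
      have hk0 : ¬ p ∣ k := hidx z hz
      have hk1 : (k : ℂ) ≠ 0 := by
        intro h; apply hk0; have : k = 0 := by exact_mod_cast h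
        rw [this]; exact dvd_zero _
      have h4 := idl_mul_left (loc_inv_natCast hM hk0) h2
      rwa [← mul_assoc, inv_mul_cancel₀ hk1, one_mul] at h4
    have := Fintype.ofFinite Z
    obtain ⟨m, hm⟩ := sum_over_subgroup Z ψ.2.isCharacter
    rw [← Finset.add_sum_erase _ _ (Finset.mem_univ (1 : Z))] at hm
    set u : ℂ := ∑ z ∈ Finset.univ.erase (1 : Z), (ψ : G → ℂ) z / (ψ : G → ℂ) 1 with hu
    have hu1 : MemLocalIdeal M u := by
      apply idl_sum
      intro z hz
      exact h1 z z.2 (fun h => (Finset.mem_erase.mp hz).1 (Subtype.ext h))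
    have hu2 : (ψ : G → ℂ) 1 * (1 + u) = (p : ℂ) ^ b * m := by
      have : (Nat.card Z : ℂ) = (p : ℂ) ^ b := by rw [hZcard]; push_cast; rfl
      rw [← this, ← hm, mul_add, mul_one, hu, Finset.mul_sum]
      congr 1
      apply Finset.sum_congr rfl
      intro z _
      field_simp
    have hu3 : MemLocalRing M (1 + u) := loc_add loc_one (loc_of_idl hu1)
    have hu4 : ¬ MemLocalIdeal M (1 + u) := by
      intro h
      have := idl_sub h hu1
      rw [add_sub_cancel_right] at this
      exact one_not_idl this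
    have hu5 : (1 + u) ≠ 0 := ne_zero_of_not_idl hu4
    have hdpos := charDegree_pos ψ.2
    have hd : ((charDegree (ψ : G → ℂ) : ℕ) : ℂ) = (ψ : G → ℂ) 1 := charDegree_eq ψ.2.isCharacter
    have hpc : (p : ℂ) ≠ 0 := by exact_mod_cast hp.ne_zero
    have h5 : MemLocalRing M (((charDegree (ψ : G → ℂ) : ℕ) : ℂ) / ((p ^ b : ℕ) : ℂ)) := by
      have e : ((charDegree (ψ : G → ℂ) : ℕ) : ℂ) / ((p ^ b : ℕ) : ℂ) = (m : ℂ) * (1 + u)⁻¹ := by
        rw [hd]
        push_cast
        field_simp
        linear_combination hu2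
      rw [e]
      exact loc_mul (loc_natCast m) (loc_inv hu3 hu4)
    have h6 := (loc_div_natCast_iff hM hdpos.ne' (pow_pos hp.pos b).ne').mp h5
    rwa [hp.factorization_pow, Finsupp.single_eq_same] at h6
  rw [blockDefect]
  have hGa : (Nat.card G).factorization p = a := by
    have := P.card_eq_multiplicity
    rw [ha] at this
    exact (Nat.pow_right_injective hp.two_le this).symm
  rw [hGa]
  have hne : ((fun χ : IrrCharacter G => (charDegree (χ : G → ℂ)).factorization p) ''
      (blockOf M (χ : G → ℂ))).Nonempty := ⟨_, χ, BlockIdem.mem_blockOf_self χ, rfl⟩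
  have hinf : b ≤ sInf ((fun χ : IrrCharacter G => (charDegree (χ : G → ℂ)).factorization p) ''
      (blockOf M (χ : G → ℂ))) := by
    obtain ⟨ψ, hψ, h7⟩ := Nat.sInf_mem hne
    rw [← h7]
    exact key ψ hψ
  omega

/-- Let p be a prime, M a maximal ideal of the algebraic integers containing p, and G a finite group with trivial centre, Sylow p-subgroup P of order p^a and centre Z(P) of order p^b. If χ is a faithful irreducible character of G whose degree is a power of p, then the p-block of χ has defect at most a − b; in particular, if P is abelian then χ lies in a block of defect zero. -/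
theorem result {G : Type*} [Group G] [Finite G] (p : ℕ) [Fact p.Prime] (M : Ideal Cfsg.AlgInt) (hM : Cfsg.IsPModular p M) (hZ : Subgroup.center G = ⊥) (P : Sylow p G) (a b : ℕ) (ha : Nat.card P = p ^ a) (hb : Nat.card (Subgroup.center ↥(P : Subgroup G)) = p ^ b) (χ : Cfsg.IrrCharacter G) (hfaith : ∀ g : G, (χ : G → ℂ) g = (χ : G → ℂ) 1 → g = 1) (n : ℕ) (hdeg : Cfsg.charDegree (χ : G → ℂ) = p ^ n) : Cfsg.blockDefect p (Cfsg.blockOf M (χ : G → ℂ)) ≤ a - b ∧ (IsMulCommutative ↥(P : Subgroup G) → Cfsg.blockDefect p (Cfsg.blockOf M (χ : G → ℂ)) = 0) := by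
  refine ⟨main p M hM hZ P a b ha hb χ hfaith n hdeg, fun hcomm => ?_⟩
  have h1 : Subgroup.center ↥(P : Subgroup G) = ⊤ := by
    rw [eq_top_iff]
    intro x _
    rw [Subgroup.mem_center_iff]
    intro y
    exact hcomm.is_comm.comm y x
  have h2 : Nat.card (Subgroup.center ↥(P : Subgroup G)) = p ^ a := by
    rw [h1, Subgroup.card_top]
    exact ha
  have := main p M hM hZ P a a ha h2 χ hfaith n hdeg
  omega

end Cfsg.Agent.S4730
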