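import Cfsg.Statements.S4731
import Cfsg.Agent.Lib.BlockPow
import Cfsg.Agent.Lib.IntLocal
import Cfsg.Agent.Lib.BlockSecond2
import Cfsg.Agent.Lib.BlockDeg

set_option autoImplicit false
open Cfsg

namespace Cfsg.Agent.S4731

open Cfsg.Agent.Lib Cfsg.Agent.Lib.CharBasic Cfsg.Agent.Lib.BlockPow
open Cfsg.Agent.Lib.BlockRing Cfsg.Agent.Lib.BlockGA Cfsg.Agent.Lib.BlockIdem Cfsg.Agent.Lib.BlockSecond
open scoped ComplexConjugate
open MonoidAlgebra (single)

section
variable {G : Type*} [Group G] [Finite G]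

open scoped Classical in
theorem finsum_mem_eq' {β : Type*} [AddCommMonoid β] (B : Set (IrrCharacter G)) (f : IrrCharacter G → β) :
    ∑ᶠ χ ∈ B, f χ = ∑ χ : IrrCharacter G, if χ ∈ B then f χ else 0 := by
  rw [finsum_mem_def, finsum_eq_sum_of_fintype]
  rfl

/-- coefficients of block idempotents of a `q'`-group are local at `q` -/
theorem locA_eB_of_not_dvd {q : ℕ} {Mq : Ideal AlgInt} (hMq : IsPModular q Mq) {H : Type*} [Group H]
    [Finite H] (hH : ¬ q ∣ Nat.card H) (b : Set (IrrCharacter H)) : LocA Mq (eB b) := by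
  classical
  have := isPrime hMq
  intro h
  rw [eB, coeff_ofFun, blockCoeff, finsum_mem_eq']
  refine loc_mul (loc_inv_natCast hMq hH) (loc_sum fun χ _ => ?_)
  split_ifs
  · refine loc_mul (loc_irr χ 1) ?_
    rw [← χ.2.inv]; exact loc_irr χ _
  · exact loc_zero

theorem local_sum {p q : ℕ} (hp : p.Prime) (hq : q.Prime) (hpq : p ≠ q)
    {Mp Mq : Ideal AlgInt} (hMp : IsPModular p Mp) (hMq : IsPModular q Mq)
    (hno : ∀ g : G, orderOf g ≠ p * q) {b : ℕ} (hb : (Nat.card G).factorization q = b)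
    {Bp Bq : Set (IrrCharacter G)} (hBp : IsPBlock Mp Bp) (hBq : IsPBlock Mq Bq) (y : G)
    (hy : p ∣ orderOf y) :
    MemLocalRing Mq ((∑ᶠ χ ∈ Bp ∩ Bq, (charDegree (χ : G → ℂ) : ℂ) * (χ : G → ℂ) y) / (q : ℂ) ^ b) := by
  classical
  have := Fintype.ofFinite G
  have := isPrime hMp
  have := isPrime hMq
  obtain ⟨u, x, hux, hcomm, ⟨k, hk⟩, hx, -, -⟩ := exists_ppart hp y
  have hk0 : k ≠ 0 := by
    rintro rfl
    rw [pow_zero, orderOf_eq_one_iff] at hk
    rw [hk, one_mul] at hux
    rw [hux] at hx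
    exact hx hy
  set H := Subgroup.centralizer ({u} : Set G) with hH
  have hmem : ∀ g, g ∈ H ↔ Commute u g := by
    intro g
    rw [hH, Subgroup.mem_centralizer_singleton_iff]
    exact ⟨fun h => h.symm, fun h => h.symm⟩
  have hqH : ¬ q ∣ Nat.card H := by
    intro hd
    have : Fact q.Prime := ⟨hq⟩
    obtain ⟨z, hz⟩ := exists_prime_orderOf_dvd_card' (G := H) q hd
    have hz' : orderOf (z : G) = q := by rw [Subgroup.orderOf_coe, hz]
    have hu' : orderOf (u ^ p ^ (k - 1)) = p := by
      rw [orderOf_pow' _ (pow_ne_zero _ hp.ne_zero), hk,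
        Nat.gcd_eq_right (pow_dvd_pow p (by omega)), Nat.pow_div (by omega) hp.pos]
      have : k - (k - 1) = 1 := by omega
      rw [this, pow_one]
    have hc : Commute (u ^ p ^ (k - 1)) (z : G) := ((hmem z).mp z.2).pow_left _
    apply hno (u ^ p ^ (k - 1) * z)
    rw [hc.orderOf_mul_eq_mul_orderOf_of_coprime, hu', hz']
    rw [hu', hz']
    exact (Nat.coprime_primes hp hq).mpr hpq
  let _ : Fintype {c : Set (IrrCharacter H) // IsPBlock Mp c} := Fintype.ofFinite _
  set f : GA H := ∑ c : {c : Set (IrrCharacter H) // IsPBlock Mp c},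
    if IsInducedBlock Mp H c.1 Bp then eB c.1 else 0 with hf
  have hfl : LocA Mq f := by
    rw [hf]
    apply locA_sum
    intro c _
    split_ifs
    · exact locA_eB_of_not_dvd hMq hqH c.1
    · exact locA_zero
  have hval : ∀ χ : IrrCharacter G, lin (χ : G → ℂ) (single y 1 * incH H f) =
      if χ ∈ Bp then (χ : G → ℂ) y else 0 := by
    intro χ
    have h1 : lin (χ : G → ℂ) (single y 1 * incH H f) =
        ∑ c : {c : Set (IrrCharacter H) // IsPBlock Mp c},
          if IsInducedBlock Mp H c.1 Bp then lin (χ : G → ℂ) (single y 1 * incH H (eB c.1)) else 0 := by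
      rw [hf, map_sum, Finset.mul_sum, lin_sum]
      apply Finset.sum_congr rfl
      intro c _
      split_ifs
      · rfl
      · rw [map_zero, mul_zero, lin_zero]
    rw [h1]
    by_cases hχ : χ ∈ Bp
    · rw [if_pos hχ]
      have h2 : (χ : G → ℂ) y = ∑ c : {c : Set (IrrCharacter H) // IsPBlock Mp c},
          lin (χ : G → ℂ) (single y 1 * incH H (eB c.1)) := by
        have h3 : (1 : GA H) = ∑ c : {c : Set (IrrCharacter H) // IsPBlock Mp c}, eB c.1 :=
          sum_eB_blocks.symm
        have h4 : lin (χ : G → ℂ) (single y 1 * incH H 1) = (χ : G → ℂ) y := by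
          rw [map_one, mul_one, lin_single, one_mul]
        rw [← h4, h3, map_sum, Finset.mul_sum, lin_sum]
      rw [h2]
      apply Finset.sum_congr rfl
      intro c _
      split_ifs with h5
      · rfl
      · have := second_main hMp hk hx hcomm hmem c.2 hBp h5 hχ
        rw [hux] at this
        exact this.symm
    · rw [if_neg hχ]
      apply Finset.sum_eq_zero
      intro c _
      split_ifs with h5
      · have := second_main_idem hMp h5 hk hx hcomm (fun g hg => (hmem g).mpr hg) hχ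
        rwa [hux] at this
      · rfl
  -- the sum
  have hG : Nat.card G = q ^ b * (Nat.card G / q ^ b) := by
    rw [← hb]; exact (Nat.ordProj_mul_ordCompl_eq_self _ _).symm
  have hG0 : (Nat.card G : ℂ) ≠ 0 := by exact_mod_cast Nat.card_pos.ne'
  have hq0 : (q : ℂ) ^ b ≠ 0 := pow_ne_zero _ (by exact_mod_cast hq.ne_zero)
  set z : GA G := single y 1 * incH H f with hz
  have hzl : LocA Mq z := locA_mul (locA_single loc_one) (locA_incH hfl)
  have hF : ∀ g : G, ∑ χ : IrrCharacter G, (if χ ∈ Bq then (charDegree (χ : G → ℂ) : ℂ) * (χ : G → ℂ) g else 0)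
      = (Nat.card G : ℂ) * blockCoeff Bq g⁻¹ := by
    intro g
    rw [blockCoeff, mul_inv_cancel_left₀ hG0, finsum_mem_eq']
    apply Finset.sum_congr rfl
    intro χ _
    split_ifs
    · rw [BlockDeg.charDegree_cast_irr, ← χ.2.inv, inv_inv]
    · rfl
  have hS : ∑ᶠ χ ∈ Bp ∩ Bq, (charDegree (χ : G → ℂ) : ℂ) * (χ : G → ℂ) y =
      ∑ g : G, z.coeff g * ((Nat.card G : ℂ) * blockCoeff Bq g⁻¹) := by
    rw [finsum_mem_eq']
    refine Eq.trans (Finset.sum_congr rfl (g := fun χ : IrrCharacter G =>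
      if χ ∈ Bq then (charDegree (χ : G → ℂ) : ℂ) * lin (χ : G → ℂ) z else 0) (fun χ _ => ?_)) ?_
    · rw [hval]
      by_cases h2 : χ ∈ Bq
      · by_cases h3 : χ ∈ Bp
        · rw [if_pos (show χ ∈ Bp ∩ Bq from ⟨h3, h2⟩), if_pos h2, if_pos h3]
        · rw [if_neg (fun h : χ ∈ Bp ∩ Bq => h3 h.1), if_pos h2, if_neg h3, mul_zero]
      · rw [if_neg (fun h : χ ∈ Bp ∩ Bq => h2 h.2), if_neg h2]
    simp only [← hF]
    simp only [lin_apply, Finset.mul_sum]
    rw [Finset.sum_comm]
    apply Finset.sum_congr rfl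
    intro χ _
    by_cases h2 : χ ∈ Bq
    · simp only [if_pos h2]
      apply Finset.sum_congr rfl
      intro g _
      ring
    · simp only [if_neg h2, mul_zero, Finset.sum_const_zero]
  rw [hS, Finset.sum_div]
  apply loc_sum
  intro g _
  have h5 : z.coeff g * ((Nat.card G : ℂ) * blockCoeff Bq g⁻¹) / (q : ℂ) ^ b =
      z.coeff g * (((Nat.card G / q ^ b : ℕ) : ℂ) * blockCoeff Bq g⁻¹) := by
    rw [div_eq_iff hq0]
    conv_lhs => rw [hG]
    push_cast
    ring
  rw [h5]
  exact loc_mul (hzl g) (loc_mul (loc_natCast _) (loc_blockCoeff hBq _))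

end

/-- Let p ≠ q be primes, M_p and M_q maximal ideals of the algebraic integers containing p and q respectively, and G a finite group with no element of order pq; let q^b be the q-part of the order of G. For a p-block B_p (relative to M_p), a q-block B_q (relative to M_q) and a p-singular element y, the sum of χ(1)χ(y) over the irreducible characters χ lying in both B_p and B_q is q^b times an algebraic integer. -/
theorem result {G : Type*} [Group G] [Finite G] (p q : ℕ) [Fact p.Prime] [Fact q.Prime] (hpq : p ≠ q) (Mp Mq : Ideal Cfsg.AlgInt) (hMp : Cfsg.IsPModular p Mp) (hMq : Cfsg.IsPModular q Mq) (hno : ∀ g : G, orderOf g ≠ p * q) (b : ℕ) (hb : (Nat.card G).factorization q = b) (Bp : Set (Cfsg.IrrCharacter G)) (hBp : Cfsg.IsPBlock Mp Bp) (Bq : Set (Cfsg.IrrCharacter G)) (hBq : Cfsg.IsPBlock Mq Bq) (y : G) (hy : p ∣ orderOf y) : ∃ ω : Cfsg.AlgInt, ∑ᶠ χ ∈ Bp ∩ Bq, (Cfsg.charDegree (χ : G → ℂ) : ℂ) * (χ : G → ℂ) y = (q : ℂ) ^ b * (ω : ℂ) := by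
  classical
  have hp : p.Prime := Fact.out
  have hq : q.Prime := Fact.out
  have := isPrime hMq
  set S := ∑ᶠ χ ∈ Bp ∩ Bq, (charDegree (χ : G → ℂ) : ℂ) * (χ : G → ℂ) y with hS
  have hq0 : (q : ℂ) ^ b ≠ 0 := pow_ne_zero _ (by exact_mod_cast hq.ne_zero)
  have hSi : IsIntegral ℤ S := by
    rw [hS, finsum_mem_eq']
    apply IsIntegral.sum
    intro χ _
    split_ifs
    · apply IsIntegral.mul
      · have := isIntegral_algebraMap (R := ℤ) (A := ℂ) (x := (charDegree (χ : G → ℂ) : ℤ))
        simpa using this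
      · obtain ⟨n, ρ, hρ⟩ := χ.2.isCharacter
        rw [← hρ]
        exact CharValues.isIntegral_character ρ y
    · exact isIntegral_zero
  have hω : IsIntegral ℤ (S / (q : ℂ) ^ b) := by
    apply IntLocal.isIntegral_of_local hMq b
    · rw [mul_div_cancel₀ _ hq0]; exact hSi
    · intro σ
      obtain ⟨k, hk, hσ⟩ := CharGalois.exists_pow_of_ringHom (n := Nat.card G) Nat.card_pos σ
      have h1 : σ S = ∑ᶠ χ ∈ (powIrr hk '' Bp) ∩ (powIrr hk '' Bq),
          (charDegree (χ : G → ℂ) : ℂ) * (χ : G → ℂ) y := by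
        rw [← Set.image_inter (powIrr_injective hk)]
        rw [← finsum_mem_eq_of_bijOn (f := fun χ : IrrCharacter G =>
          (charDegree (χ : G → ℂ) : ℂ) * (χ : G → ℂ) (y ^ k)) (powIrr hk) (bijOn_image hk (Bp ∩ Bq))
          (fun χ _ => by
            rw [powIrr_apply]
            congr 2
            unfold charDegree
            rw [powIrr_apply, one_pow])]
        rw [hS, finsum_mem_eq', finsum_mem_eq', map_sum]
        apply Finset.sum_congr rfl
        intro χ _
        split_ifs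
        · rw [map_mul, map_natCast, CharGalois.map_apply_eq χ.2.isCharacter σ k y]
          intro μ hμ
          apply hσ
          obtain ⟨m, hm⟩ := orderOf_dvd_natCard y
          rw [hm, pow_mul, hμ, one_pow]
        · rw [map_zero]
      rw [map_div₀, map_pow, map_natCast, h1]
      exact local_sum hp hq hpq hMp hMq hno hb (isPBlock_image hk hBp) (isPBlock_image hk hBq) y hy
  exact ⟨⟨S / (q : ℂ) ^ b, hω⟩, (mul_div_cancel₀ _ hq0).symm⟩

end Cfsg.Agent.S4731
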