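import Cfsg.Statements.S4734
import Cfsg.Agent.Lib.BlockAlong
import Cfsg.Agent.Lib.FTIso

set_option autoImplicit false
open Cfsg

namespace Cfsg.Agent.S4734

open Cfsg.Agent.Lib.BlockRing Cfsg.Agent.Lib.BlockGA Cfsg.Agent.Lib.BlockIdem
open Cfsg.Agent.Lib.CharBasic Cfsg.Agent.Lib.BlockNormP Cfsg.Agent.Lib.BlockHom Cfsg.Agent.Lib.BlockDefect
open Cfsg.Agent.Lib.BlockFirst Cfsg.Agent.Lib.BlockCover Cfsg.Agent.Lib.BlockTransfer
open Cfsg.Agent.Lib.BlockAlong Cfsg.Agent.Lib

set_option linter.all false

universe u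

section aux

variable {G : Type u} [Group G] [Finite G] {p : ℕ} {M : Ideal AlgInt}

theorem root_case (hM : IsPModular p M) {π : Set ℕ} (hpπ : p ∈ π) {B : Set (IrrCharacter G)}
    {D : Subgroup G} (hBD : IsDefectGroup p M B D)
    {B₁ : Set (IrrCharacter (Subgroup.normalizer (D : Set G)))}
    (hB₁ : IsInducedBlock M (Subgroup.normalizer (D : Set G)) B₁ B)
    (hB₁D : IsDefectGroup p M B₁ (D.subgroupOf (Subgroup.normalizer (D : Set G))))
    (hker : ∀ n ∈ piCore {q | q ∉ π} (Subgroup.normalizer (D : Set G)), n ∈ blockKer B₁)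
    {Q : Subgroup G} (hQp : IsPGroup p Q) {c : Set (IrrCharacter (Subgroup.normalizer (Q : Set G)))}
    (hc : IsInducedBlock M (Subgroup.normalizer (Q : Set G)) c B)
    (hcQ : IsDefectGroup p M c (Q.subgroupOf (Subgroup.normalizer (Q : Set G)))) :
    ∀ n ∈ piCore {q | q ∉ π} (Subgroup.normalizer (Q : Set G)), n ∈ blockKer c := by
  haveI := isPrime hM
  haveI : Fact p.Prime := ⟨hM.1⟩
  have hBQ := first_main_defect hM hQp hc hcQ
  obtain ⟨x, hx⟩ := defectGroup_conj hM hc.2.1 hBD hBQ
  have hDp : IsPGroup p D := defectGroup_isPGroup hBD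
  have hxQ : ∀ w : G, x * w * x⁻¹ ∈ Q ↔ w ∈ D := by
    intro w
    rw [hx, mem_map_conj]
    simp [mul_assoc]
  have hmap : (Subgroup.normalizer (D : Set G)).map (MulAut.conj x).toMonoidHom =
      Subgroup.normalizer (Q : Set G) := by
    rw [hx]
    ext g
    rw [mem_map_conj, Subgroup.mem_normalizer_iff, Subgroup.mem_normalizer_iff]
    constructor
    · intro h y
      rw [mem_map_conj, mem_map_conj]
      have := h (x⁻¹ * y * x)
      rw [this]
      simp [mul_assoc]
    · intro h y
      have := h (x * y * x⁻¹)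
      rw [mem_map_conj, mem_map_conj] at this
      simpa [mul_assoc] using this
  let e : Subgroup.normalizer (D : Set G) ≃* Subgroup.normalizer (Q : Set G) :=
    ((MulAut.conj x).subgroupMap (Subgroup.normalizer (D : Set G))).trans (MulEquiv.subgroupCongr hmap)
  have he : ∀ n, ((e n : Subgroup.normalizer (Q : Set G)) : G) = x * n * x⁻¹ := fun n => rfl
  have hcD : IsDefectGroup p M (trB e c) (D.subgroupOf (Subgroup.normalizer (D : Set G))) := by
    rw [isDefectGroup_tr_iff]
    have h1 : (D.subgroupOf (Subgroup.normalizer (D : Set G))).map e.toMonoidHom =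
        Q.subgroupOf (Subgroup.normalizer (Q : Set G)) := by
      ext y
      rw [Subgroup.mem_subgroupOf, Subgroup.mem_map]
      constructor
      · rintro ⟨d, hd, rfl⟩
        rw [Subgroup.mem_subgroupOf] at hd
        change ((e d : Subgroup.normalizer (Q : Set G)) : G) ∈ Q
        rw [he, hx, mem_map_conj]
        simpa [mul_assoc] using hd
      · intro hy
        refine ⟨e.symm y, ?_, e.apply_symm_apply y⟩
        rw [Subgroup.mem_subgroupOf]
        have h2 := he (e.symm y)
        rw [e.apply_symm_apply] at h2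
        rw [h2] at hy
        exact (hxQ _).1 hy
    rw [h1]
    exact hcQ
  have h1 : IndAlong M (Subgroup.normalizer (D : Set G)).subtype (trB e c) B := by
    have h2 := ((indAlong_equiv e hc.1).comp (indAlong_subtype_iff.2 hc)).comp (indAlong_conj x⁻¹ hc.2.1)
    have h3 : (MulAut.conj x⁻¹).toMonoidHom.comp ((Subgroup.normalizer (Q : Set G)).subtype.comp e.toMonoidHom) =
        (Subgroup.normalizer (D : Set G)).subtype := by
      ext n
      change x⁻¹ * ((e n : Subgroup.normalizer (Q : Set G)) : G) * x⁻¹⁻¹ = n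
      rw [he]
      simp [mul_assoc]
    rwa [h3] at h2
  have h2 := first_main_unique hM hDp (indAlong_subtype_iff.1 h1) hcD hB₁ hB₁D
  have hcop : ¬ p ∣ Nat.card (piCore {q | q ∉ π} (Subgroup.normalizer (Q : Set G))) := fun hd =>
    H32Cores.piCore_primes {q | q ∉ π} _ p hM.1 hd hpπ
  rw [normal_le_blockKer_iff hM e.injective (indAlong_equiv e hc.1) hcop]
  intro a ha
  rw [h2]
  apply hker
  rw [← FTIso.piCore_map e] at ha
  obtain ⟨a', ha', haa⟩ := ha
  have : a' = a := e.injective haa
  rwa [← this]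

theorem main_aux (hM : IsPModular p M) {π : Set ℕ} (hpπ : p ∈ π) {B : Set (IrrCharacter G)}
    {D : Subgroup G} (hBD : IsDefectGroup p M B D)
    {B₁ : Set (IrrCharacter (Subgroup.normalizer (D : Set G)))}
    (hB₁ : IsInducedBlock M (Subgroup.normalizer (D : Set G)) B₁ B)
    (hB₁D : IsDefectGroup p M B₁ (D.subgroupOf (Subgroup.normalizer (D : Set G))))
    (hker : ∀ n ∈ piCore {q | q ∉ π} (Subgroup.normalizer (D : Set G)), n ∈ blockKer B₁) :
    ∀ (n : ℕ) (A : Type u) [Group A] [Finite A] (f : A →* G) (hf : Function.Injective f)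
      (b : Set (IrrCharacter A)) (h : IndAlong M f b B) (Q : Subgroup A) (hQ : IsDefectGroup p M b Q)
      (hC : Subgroup.centralizer ((Q.map f : Subgroup G) : Set G) ≤ f.range)
      (hn : Nat.card G - Nat.card Q = n), ∀ a ∈ piCore {q | q ∉ π} A, a ∈ blockKer b := by
  intro n
  induction n using Nat.strong_induction_on with
  | _ n ih =>
    intro A _ _ f hf b h Q hQ hC hn
    haveI := isPrime hM
    have hQp : IsPGroup p Q := defectGroup_isPGroup hQ
    obtain ⟨c, hc, hstep⟩ := local_step hM hf h hQ hC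
    apply hstep π hpπ
    obtain ⟨R, hR⟩ := exists_defectGroup hM hc.1
    have h1 := subgroupOf_le_defectGroup hM (hQp.map f) Subgroup.le_normalizer le_rfl hc.1 hR
    by_cases heq : (Q.map f).subgroupOf (Subgroup.normalizer ((Q.map f : Subgroup G) : Set G)) = R
    · rw [← heq] at hR
      exact root_case hM hpπ hBD hB₁ hB₁D hker (hQp.map f) hc hR
    · have hlt : Nat.card Q < Nat.card R := by
        have h2 : Nat.card ((Q.map f).subgroupOf (Subgroup.normalizer ((Q.map f : Subgroup G) : Set G))) = Nat.card Q := by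
          rw [Nat.card_congr (Subgroup.subgroupOfEquivOfLe Subgroup.le_normalizer).toEquiv]
          exact Subgroup.card_map_of_injective hf
        rw [← h2]
        by_contra hge
        exact heq (Subgroup.eq_of_le_of_card_ge h1 (not_lt.1 hge))
      have hRG : Nat.card R ≤ Nat.card G :=
        (Subgroup.card_le_card_group R).trans (Subgroup.card_le_card_group _)
      refine ih _ ?_ _ (Subgroup.subtype _) (Subgroup.subtype_injective _) c (indAlong_subtype_iff.2 hc) R hR ?_ rfl
      · omega
      · rw [Subgroup.range_subtype]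
        refine le_trans (Subgroup.centralizer_le ?_) (Subgroup.centralizer_le_normalizer _)
        intro y hy
        exact ⟨⟨y, Subgroup.le_normalizer hy⟩, h1 (by rw [Subgroup.mem_subgroupOf]; exact hy), rfl⟩

end aux

/-- Let p be a prime, π a set of primes containing p, M a maximal ideal of the algebraic integers containing p, B a p-block of the finite group G with defect group D, and B₁ the block of N_G(D) with defect group D inducing B. Write O_π'(X) for the largest normal subgroup of X whose order has no prime divisor in π, and suppose every element of O_π'(N_G(D)) lies in the kernel of every member of B₁. Let G₀ be a subgroup and B₀ a block of G₀ with defect group D₀ such that C_G(D₀) ≤ G₀ and B₀ induces B. Then every element of O_π'(G₀) lies in the kernel of every member of B₀. -/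
theorem result {G : Type*} [Group G] [Finite G] (p : ℕ) [Fact p.Prime] (M : Ideal Cfsg.AlgInt) (hM : Cfsg.IsPModular p M) (π : Set ℕ) (hpπ : p ∈ π) (B : Set (Cfsg.IrrCharacter G)) (hB : Cfsg.IsPBlock M B) (D : Subgroup G) (hBD : Cfsg.IsDefectGroup p M B D) (B₁ : Set (Cfsg.IrrCharacter ↥(Subgroup.normalizer (D : Set G)))) (hB₁ : Cfsg.IsInducedBlock M (Subgroup.normalizer (D : Set G)) B₁ B) (hB₁D : Cfsg.IsDefectGroup p M B₁ (D.subgroupOf (Subgroup.normalizer (D : Set G)))) (hker : ∀ n : ↥(Subgroup.normalizer (D : Set G)), n ∈ Cfsg.piCore {q | q ∉ π} ↥(Subgroup.normalizer (D : Set G)) → n ∈ Cfsg.blockKer B₁) (G₀ : Subgroup G) (B₀ : Set (Cfsg.IrrCharacter ↥G₀)) (hB₀ : Cfsg.IsInducedBlock M G₀ B₀ B) (D₀ : Subgroup ↥G₀) (hD₀ : Cfsg.IsDefectGroup p M B₀ D₀) (hC : Subgroup.centralizer ((D₀.map G₀.subtype : Subgroup G) : Set G) ≤ G₀) : ∀ x : ↥G₀, x ∈ Cfsg.piCore {q | q ∉ π} ↥G₀ → x ∈ Cfsg.blockKer B₀ := by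
  haveI := isPrime hM
  refine main_aux hM hpπ hBD hB₁ hB₁D hker _ G₀ G₀.subtype G₀.subtype_injective B₀
    (indAlong_subtype_iff.2 hB₀) D₀ hD₀ ?_ rfl
  rw [Subgroup.range_subtype]
  exact hC

end Cfsg.Agent.S4734
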