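import Cfsg.Statements.S4736
import Cfsg.Agent.Lib.ItoPSolv
import Cfsg.Agent.Lib.BlockInfl

set_option autoImplicit false
open Cfsg

namespace Cfsg.Agent.S4736

open Cfsg.Agent.Lib Cfsg.Agent.Lib.CharBasic Cfsg.Agent.Lib.DefectZero
open scoped ComplexConjugate commutatorElement

section
variable {G : Type*} [Group G] [Finite G]

theorem height_iff {p : ℕ} {M : Ideal AlgInt} (hM : IsPModular p M) {χ : IrrCharacter G}
    (hχ : χ ∈ principalBlock M G) :
    blockHeight p (principalBlock M G) (χ : G → ℂ) = 0 ↔ ¬ p ∣ charDegree (χ : G → ℂ) := by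
  have := BlockRing.isPrime hM
  have h0 : charDegree ((BlockThird.triv G : IrrCharacter G) : G → ℂ) = 1 := by
    have h1 := charDegree_eq (BlockThird.triv G).2.isCharacter
    simp only [BlockThird.coe_triv] at h1 ⊢
    exact_mod_cast h1
  have hpos := BlockDeg.charDegree_pos χ.2
  rw [BlockDeg.blockHeight_eq_zero_iff hχ]
  constructor
  · intro h hp
    have h1 := h _ (BlockThird.triv_mem (M := M))
    unfold BlockDeg.nuDeg at h1
    rw [h0, Nat.factorization_one] at h1
    have h2 : 1 ≤ (charDegree (χ : G → ℂ)).factorization p :=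
      (hM.1.dvd_iff_one_le_factorization hpos.ne').mp hp
    simp only [Finsupp.coe_zero, Pi.zero_apply] at h1
    omega
  · intro h ψ _
    unfold BlockDeg.nuDeg
    rw [Nat.factorization_eq_zero_of_not_dvd h]
    exact Nat.zero_le _

end

/-- Let p be a prime, M a maximal ideal of the algebraic integers containing p, and G a finite p-solvable group with Sylow p-subgroup P. Then P is abelian if and only if every irreducible character in the principal p-block of G has height zero. -/
theorem result {G : Type*} [Group G] [Finite G] (p : ℕ) [Fact p.Prime] (M : Ideal Cfsg.AlgInt) (hM : Cfsg.IsPModular p M) (hsolv : Cfsg.IsPSolvable p G) (P : Sylow p G) : IsMulCommutative P ↔ ∀ χ ∈ Cfsg.principalBlock M G, Cfsg.blockHeight p (Cfsg.principalBlock M G) (χ : G → ℂ) = 0 := by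
  classical
  have hp : p.Prime := Fact.out
  set N := pPrimeCore p G with hN
  have hNc : (Nat.card N).Coprime p := Cores.coprime_card_pPrimeCore p G
  have hNp : ¬ p ∣ Nat.card N := fun h => by
    have h2 : p ∣ 1 := by rw [← hNc]; exact Nat.dvd_gcd h dvd_rfl
    exact hp.one_lt.ne' (Nat.dvd_one.mp h2)
  have hps : IsPSolvable p (G ⧸ N) := H32PSolv.isPSolvable_quotient hsolv N
  have hcore : pPrimeCore p (G ⧸ N) = ⊥ := Cores.pPrimeCore_quotient_pPrimeCore p G
  have hC := H32PSolv.centralizer_pCore_le hps hcore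
  set Pb : Sylow p (G ⧸ N) := P.mapSurjective (QuotientGroup.mk'_surjective N) with hPb
  have hPmem : ∀ x : G ⧸ N, x ∈ (Pb : Subgroup (G ⧸ N)) ↔ ∃ y ∈ (P : Subgroup G), QuotientGroup.mk' N y = x :=
    fun x => Subgroup.mem_map
  constructor
  · intro hab χ hχ
    rw [height_iff hM hχ]
    obtain ⟨ψ, -, hψ⟩ := BlockInfl.exists_deflate hM N hNp hχ
    have h1 : charDegree (χ : G → ℂ) = charDegree (ψ : G ⧸ N → ℂ) := by
      unfold charDegree
      rw [hψ 1]; rfl
    rw [h1]
    have hPc : ∀ a ∈ (Pb : Subgroup (G ⧸ N)), ∀ b ∈ (Pb : Subgroup (G ⧸ N)), a * b = b * a := by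
      intro a ha b hb
      obtain ⟨a, ha', rfl⟩ := (hPmem a).mp ha
      obtain ⟨b, hb', rfl⟩ := (hPmem b).mp hb
      rw [← map_mul, ← map_mul]
      congr 1
      exact congrArg Subtype.val (hab.is_comm.comm ⟨a, ha'⟩ ⟨b, hb'⟩)
    have hOP : pCore p (G ⧸ N) ≤ Pb := Cores.pCore_le_sylow Pb
    have hPO : (Pb : Subgroup (G ⧸ N)) ≤ pCore p (G ⧸ N) := by
      refine le_trans ?_ hC
      intro x hx
      rw [Subgroup.mem_centralizer_iff]
      intro y hy
      exact hPc y (hOP hy) x hx
    have heq : pCore p (G ⧸ N) = Pb := le_antisymm hOP hPO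
    intro hd
    have h2 := CharDegrees.ito ψ.2 (pCore p (G ⧸ N)) (fun a ha b hb => hPc a (hOP ha) b (hOP hb))
      (charDegree (ψ : G ⧸ N → ℂ)) (charDegree_eq ψ.2.isCharacter).symm
    rw [heq] at h2
    exact Pb.not_dvd_index (hd.trans h2)
  · intro hall
    have hdeg : ∀ ψ : IrrCharacter (G ⧸ N), ¬ p ∣ charDegree (ψ : G ⧸ N → ℂ) := by
      intro ψ
      have := BlockRing.isPrime hM
      have h1 := BlockInfl.mem_principal_of_centralizer_le hM (Cores.isPGroup_pCore p (G ⧸ N)) hC ψ
      have h2 := BlockInfl.inflate_mem_principal N h1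
      exact (height_iff hM h2).mp (hall _ h2)
    have h1 := (ItoPSolv.ito_psolvable hps hdeg Pb).2
    refine ⟨⟨fun a b => ?_⟩⟩
    have h2 := h1 (QuotientGroup.mk' N (a : G)) ((hPmem _).mpr ⟨a, a.2, rfl⟩)
      (QuotientGroup.mk' N (b : G)) ((hPmem _).mpr ⟨b, b.2, rfl⟩)
    have h3 : QuotientGroup.mk' N ⁅(a : G), (b : G)⁆ = 1 := by
      rw [map_commutatorElement]
      exact commutatorElement_eq_one_iff_mul_comm.mpr h2
    have h4 : ⁅(a : G), (b : G)⁆ ∈ N := (QuotientGroup.eq_one_iff _).mp h3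
    have h5 : ⁅(a : G), (b : G)⁆ ∈ (P : Subgroup G) := by
      rw [commutatorElement_def]
      exact mul_mem (mul_mem (mul_mem a.2 b.2) (inv_mem a.2)) (inv_mem b.2)
    obtain ⟨j, hj⟩ := IsPGroup.iff_card.mp P.isPGroup'
    have h6 : orderOf ⁅(a : G), (b : G)⁆ ∣ p ^ j := by
      rw [← hj]; exact Subgroup.orderOf_dvd_natCard _ h5
    have h7 : orderOf ⁅(a : G), (b : G)⁆ ∣ Nat.card N := Subgroup.orderOf_dvd_natCard _ h4
    have h8 : orderOf ⁅(a : G), (b : G)⁆ = 1 := Nat.eq_one_of_dvd_coprimes (hNc.pow_right j) h7 h6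
    exact Subtype.ext (commutatorElement_eq_one_iff_mul_comm.mp (orderOf_eq_one_iff.mp h8))

end Cfsg.Agent.S4736
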