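import Cfsg.Statements.S4959
import Cfsg.Agent.Lib.KGVReal
import Cfsg.Agent.Lib.H76Char

set_option autoImplicit false
open Cfsg

namespace Cfsg.Agent.S4959

theorem smul_of_add {p : ℕ} [Fact p.Prime] {W : Type*} [AddCommGroup W] [Module (ZMod p) W] (g : W → ZMod p)
    (hg : ∀ x y, g (x + y) = g x + g y) (c : ZMod p) (x : W) : g (c • x) = c • g x :=
  ZMod.map_smul (AddMonoidHom.mk' g hg) c x

/-- Let X be a finite group and V a normal subgroup of X in which every element has order dividing the prime p, whose index in X is prime to p and which is its own centralizer in X; so V is an elementary abelian normal Sylow p-subgroup, and any complement G to V in X is a group of order prime to p acting faithfully on the vector space V by conjugation (the coprime linear setting of the k(GV) problem). Let G be a complement to V in X, let v be in V and let H be the centralizer of v in G. Suppose there is a subgroup U of V normalized by H, on which H acts faithfully, and carrying an H-invariant bi-additive pairing β with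 values in the integers modulo p that is nondegenerate on U (equivalently: the restriction of the module V to H has a faithful self-dual submodule; such a v is called a real vector for G). Then the number of conjugacy classes of X is at most the order of V (the real-vector criterion for the k(GV) problem). The pairing is given as a function on X whose relevant values are those on pairs from U. -/
theorem result {X : Type*} [Group X] [Finite X] (p : ℕ) [Fact p.Prime] (V : Subgroup X) [V.Normal] (hVexp : ∀ v ∈ V, v ^ p = 1) (hidx : ¬ p ∣ V.index) (hself : Subgroup.centralizer (V : Set X) = V) (G : Subgroup X) (hGV : Subgroup.IsComplement' V G) (v : X) (hv : v ∈ V) (U : Subgroup X) (hUV : U ≤ V) (hUinv : ∀ h ∈ G, h * v * h⁻¹ = v → ∀ u ∈ U, h * u * h⁻¹ ∈ U) (hUfaith : ∀ h ∈ G, h * v * h⁻¹ = v → (∀ u ∈ U, h * u * h⁻¹ = u) → h = 1) (β : X → X → ZMod p) (hβl : ∀ u ∈ U, ∀ u' ∈ U, ∀ w ∈ U, β (u * u') w = β u w + β u' w) (hβr : ∀ u ∈ U, ∀ w ∈ U, ∀ w' ∈ U, β u (w * w') = β u w + β u w') (hβinv : ∀ h ∈ G, h * v * h⁻¹ = v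 → ∀ u ∈ U, ∀ w ∈ U, β (h * u * h⁻¹) (h * w * h⁻¹) = β u w) (hβnd : ∀ u ∈ U, (∀ w ∈ U, β u w = 0) → u = 1) : Nat.card (ConjClasses X) ≤ Nat.card V := by
  obtain ⟨M, hM⟩ := Lib.H76Char.exists_isPModular p
  have hp : p.Prime := Fact.out
  have hVab : ∀ a ∈ V, ∀ b ∈ V, a * b = b * a := by
    intro a ha b hb
    have h5 : a ∈ Subgroup.centralizer (V : Set X) := by rw [hself]; exact ha
    exact (Subgroup.mem_centralizer_iff.1 h5 b hb).symm
  haveI : NeZero (Nat.card X * p) := ⟨Nat.mul_ne_zero Nat.card_pos.ne' hp.ne_zero⟩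
  obtain ⟨H, hH⟩ : ∃ H, H = G ⊓ Subgroup.centralizer ({v} : Set X) := ⟨_, rfl⟩
  have hHm : ∀ h ∈ H, h ∈ G ∧ h * v * h⁻¹ = v := by
    intro h hh
    rw [hH] at hh
    refine ⟨hh.1, ?_⟩
    have h1 := Subgroup.mem_centralizer_singleton_iff.1 hh.2
    rw [h1, mul_inv_cancel_right]
  have hnorm : ∀ h ∈ H, ∀ u ∈ U, h * u * h⁻¹ ∈ U := fun h hh => hUinv h (hHm h hh).1 (hHm h hh).2
  obtain ⟨W, _, _, e, ρ, he, hρ⟩ := Lib.KGVRep.exists_rep (p := p) U H (fun a ha b hb => hVab a (hUV ha) b (hUV hb))
    (fun u hu => hVexp u (hUV hu)) hnorm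
  haveI : Finite W := Finite.of_equiv _ e
  have hcop : ¬ p ∣ Nat.card H := by
    intro h
    apply hidx
    rw [hGV.symm.index_eq_card]
    exact h.trans (Subgroup.card_dvd_of_le (hH ▸ inf_le_left))
  have hes : ∀ x y, e.symm (x + y) = e.symm x * e.symm y := by
    intro x y
    rw [Equiv.symm_apply_eq, he, e.apply_symm_apply, e.apply_symm_apply]
  let f : W → W → ZMod p := fun x y => β (e.symm x) (e.symm y)
  have hf1 : ∀ x x' y, f (x + x') y = f x y + f x' y := by
    intro x x' y
    show β (e.symm (x + x') : U) (e.symm y) = _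
    rw [hes]
    exact hβl _ (e.symm x).2 _ (e.symm x').2 _ (e.symm y).2
  have hf2 : ∀ x y y', f x (y + y') = f x y + f x y' := by
    intro x y y'
    show β (e.symm x) (e.symm (y + y') : U) = _
    rw [hes]
    exact hβr _ (e.symm x).2 _ (e.symm y).2 _ (e.symm y').2
  let B : LinearMap.BilinForm (ZMod p) W := LinearMap.mk₂ (ZMod p) f hf1
    (fun c x y => smul_of_add (fun x => f x y) (fun x x' => hf1 x x' y) c x) hf2
    (fun c x y => smul_of_add (fun y => f x y) (fun y y' => hf2 x y y') c y)
  have hBf : ∀ x y, B x y = f x y := fun x y => rfl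
  have hB : B.Nondegenerate := by
    apply LinearMap.BilinForm.Nondegenerate.ofSeparatingLeft
    intro x hx
    have h1 : ((e.symm x : U) : X) = 1 := by
      refine hβnd _ (e.symm x).2 fun w hw => ?_
      have h2 := hx (e ⟨w, hw⟩)
      have h3 : β (e.symm x) (e.symm (e ⟨w, hw⟩)) = 0 := h2
      rwa [e.symm_apply_apply] at h3
    have h2 : e.symm x = e.symm 0 := by
      have h3 := hes 0 0
      rw [add_zero] at h3
      have h4 : e.symm 0 = 1 := left_eq_mul.1 h3
      rw [h4]
      exact Subtype.ext h1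
    exact e.symm.injective h2
  have hBinv : ∀ g : H, ∀ x y : W, B (ρ g x) (ρ g y) = B x y := by
    intro g x y
    have h1 : ∀ z : W, ((e.symm (ρ g z) : U) : X) = g * (e.symm z : U) * (g : X)⁻¹ := by
      intro z
      have h2 := hρ g (e.symm z)
      rw [e.apply_symm_apply] at h2
      rw [← h2, e.symm_apply_apply]
    rw [hBf, hBf]
    show β (e.symm (ρ g x) : U) (e.symm (ρ g y) : U) = _
    rw [h1, h1]
    exact hβinv g (hHm g g.2).1 (hHm g g.2).2 _ (e.symm x).2 _ (e.symm y).2
  have hgood := Lib.KGVReal.good_selfdual (M := M) (N := Nat.card X * p) hM (Dvd.intro_left _ rfl)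
    ((Subgroup.card_subgroup_dvd_card H).trans (Dvd.intro _ rfl)) hcop ρ B hB hBinv
  rw [← Nat.card_congr e] at hgood
  simp only [Lib.KGVRep.card_fixed U H hnorm e ρ hρ] at hgood
  refine Lib.KGVGood.crit_of_good V hVexp hidx hself G hGV v hv hM (N := Nat.card X * p) (Dvd.intro _ rfl) H hH U hUV ?_ hgood
  intro h hh
  apply Subtype.ext
  refine hUfaith h (hHm h h.2).1 (hHm h h.2).2 fun u hu => ?_
  rw [mul_inv_eq_iff_eq_mul]
  exact (hh u hu).eq.symm

end Cfsg.Agent.S4959
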