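import Cfsg.Statements.S4964
import Cfsg.Agent.S0941
import Cfsg.Agent.Lib.CoprimeAction2
import Cfsg.Agent.Lib.FratFit

set_option autoImplicit false
set_option maxHeartbeats 400000
open Cfsg

namespace Cfsg.Agent.S4964

open Cfsg Cfsg.Agent.Lib.BlockRing Cfsg.Agent.Lib.BlockGA Cfsg.Agent.Lib.BlockIdem Cfsg.Agent.Lib.BlockHom
open Cfsg.Agent.Lib.CharBasic Cfsg.Agent.Lib.BlockCover Cfsg.Agent.Lib.BlockNormP
open scoped commutatorElement

/-- A `p'`-element acting trivially on `D/D'` centralizes the `p`-group `D`. -/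
theorem mem_centralizer {G : Type*} [Group G] [Finite G] {p : ℕ} [Fact p.Prime] (D : Subgroup G) [D.Normal]
    (hD : IsPGroup p D) {s : G} (hs : ¬ p ∣ orderOf s)
    (hc : (QuotientGroup.mk s : G ⧸ ⁅D, D⁆) ∈ Subgroup.centralizer ((D.map (QuotientGroup.mk' ⁅D, D⁆) :
      Subgroup (G ⧸ ⁅D, D⁆)) : Set (G ⧸ ⁅D, D⁆))) : s ∈ Subgroup.centralizer (D : Set G) := by
  have h1 : Subgroup.zpowers s ≤ Subgroup.centralizer (D : Set G) := by
    apply Lib.CoprimeAction2.le_centralizer_of_frattini
    · rw [Subgroup.normalizer_eq_top]; exact le_top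
    · rw [Nat.card_zpowers]
      have h2 : IsPGroup p (frattini D) := hD.to_subgroup _
      obtain ⟨k, hk⟩ := IsPGroup.iff_card.1 h2
      rw [hk]
      exact Nat.Coprime.pow_right k ((Nat.Prime.coprime_iff_not_dvd (Fact.out : p.Prime)).2 hs).symm
    · intro a ha k hk
      obtain ⟨n, rfl⟩ := Subgroup.mem_zpowers_iff.1 ha
      have h2 : Commute (QuotientGroup.mk k : G ⧸ ⁅D, D⁆) (QuotientGroup.mk s : G ⧸ ⁅D, D⁆) :=
        Subgroup.mem_centralizer_iff.1 hc _ ⟨k, hk, rfl⟩
      have h3 := h2.zpow_right n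
      have h4 : (QuotientGroup.mk (s ^ n * k * (s ^ n)⁻¹ * k⁻¹) : G ⧸ ⁅D, D⁆) = 1 := by
        show (QuotientGroup.mk s : G ⧸ ⁅D, D⁆) ^ n * QuotientGroup.mk k * ((QuotientGroup.mk s : G ⧸ ⁅D, D⁆) ^ n)⁻¹ *
          (QuotientGroup.mk k)⁻¹ = 1
        rw [← h3.eq]; group
      rw [QuotientGroup.eq_one_iff] at h4
      rw [← D.map_subtype_commutator] at h4
      haveI : Group.IsNilpotent D := hD.isNilpotent
      exact Subgroup.map_mono (Lib.FratFit.commutator_le_frattini inferInstance) h4
  exact h1 (Subgroup.mem_zpowers s)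

/-- Let D be a normal p-subgroup of the finite group G, let D′ be its commutator subgroup (normal in G), and fix a maximal ideal M of the algebraic integers containing p. Then (i) two irreducible characters of G ⧸ D′ lie in the same p-block if and only if their inflations to G do, and (ii) every p-block of G contains the inflation of some irreducible character of G ⧸ D′; so inflation induces a bijection between the p-blocks of G ⧸ D′ and the p-blocks of G. -/
theorem result {G : Type*} [Group G] [Finite G] (p : ℕ) [Fact p.Prime] (M : Ideal Cfsg.AlgInt) (hM : Cfsg.IsPModular p M) (D : Subgroup G) [D.Normal] (hD : IsPGroup p D) : (∀ χ ψ : Cfsg.IrrCharacter (G ⧸ ⁅D, D⁆), Cfsg.SameBlock M (χ : G ⧸ ⁅D, D⁆ → ℂ) (ψ : G ⧸ ⁅D, D⁆ → ℂ) ↔ Cfsg.SameBlock M ((χ : G ⧸ ⁅D, D⁆ → ℂ) ∘ QuotientGroup.mk) ((ψ : G ⧸ ⁅D, D⁆ → ℂ) ∘ QuotientGroup.mk)) ∧ ∀ B : Set (Cfsg.IrrCharacter G), Cfsg.IsPBlock M B → ∃ χ : Cfsg.IrrCharacter (G ⧸ ⁅D, D⁆), ∃ θ ∈ B, (θ : G → ℂ) = (χ : G ⧸ ⁅D, D⁆ → ℂ) ∘ QuotientGroup.mk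 := by
  classical
  haveI := isPrime hM
  haveI := Fintype.ofFinite G
  have hPn : (⁅D, D⁆ : Subgroup G).Normal := inferInstance
  have hPD : ⁅D, D⁆ ≤ D := Subgroup.commutator_le_left D D
  have hP : IsPGroup p (⁅D, D⁆ : Subgroup G) := hD.to_le hPD
  refine ⟨fun χ ψ => ⟨fun h => sameBlock_inflate _ h, fun h => ?_⟩, fun B hB => ?_⟩
  · set P : Subgroup G := ⁅D, D⁆ with hPdef
    set b := blockOf M (χ : G ⧸ P → ℂ) with hbdef
    have hb : IsPBlock M b := isPBlock_blockOf χ
    have hCn : (Subgroup.centralizer (D : Set G)).Normal := inferInstance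
    let z : GA G := ofFun fun x => if ¬ p ∣ orderOf x ∧ x ∈ Subgroup.centralizer (D : Set G) then
      blockCoeff b (x : G ⧸ P) else 0
    have hzco : ∀ x, z.coeff x = if ¬ p ∣ orderOf x ∧ x ∈ Subgroup.centralizer (D : Set G) then
      blockCoeff b (x : G ⧸ P) else 0 := fun x => rfl
    have hzc : z ∈ Subalgebra.center ℂ (GA G) := by
      rw [mem_center_iff]
      intro x g
      show z.coeff (g * x * g⁻¹) = z.coeff x
      rw [hzco, hzco]
      have h1 : orderOf (g * x * g⁻¹) = orderOf x := MulEquiv.orderOf_eq (MulAut.conj g) x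
      have h2 : blockCoeff b ((g * x * g⁻¹ : G) : G ⧸ P) = blockCoeff b (x : G ⧸ P) :=
        isClassFunction_blockCoeff b (x : G ⧸ P) (g : G ⧸ P)
      have h3 : g * x * g⁻¹ ∈ Subgroup.centralizer (D : Set G) ↔ x ∈ Subgroup.centralizer (D : Set G) :=
        ⟨fun h => by
          have := hCn.conj_mem _ h g⁻¹
          simpa [mul_assoc] using this, fun h => hCn.conj_mem _ h g⟩
      rw [h1, h2, h3]
    have hzl : LocA M z := by
      intro x
      rw [hzco]
      split_ifs
      · exact loc_blockCoeff hb _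
      · exact loc_zero
    set Db : Subgroup (G ⧸ P) := D.map (QuotientGroup.mk' P) with hDb
    have hDbn : Db.Normal := Subgroup.Normal.map inferInstance _ (QuotientGroup.mk'_surjective P)
    have hDbp : IsPGroup p Db := hD.map _
    have hpz : ∀ y ∈ Subgroup.centralizer (Db : Set (G ⧸ P)), MemLocalIdeal M ((projQ P z - eB b).coeff y) := by
      intro y hyC
      have h0 : (projQ P z - eB b).coeff y = 0 := by
        show (projQ P z).coeff y - (eB b).coeff y = 0
        rw [sub_eq_zero, coeff_projQ, coeff_eB]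
        by_cases hy : p ∣ orderOf y
        · rw [Cfsg.Agent.Lib.BlockOsima.blockCoeff_eq_zero hM hb hy]
          refine Finset.sum_eq_zero fun x _ => ?_
          split_ifs with h1
          · rw [hzco, if_neg]
            rintro ⟨h2, -⟩
            apply h2
            subst h1
            exact hy.trans (orderOf_map_dvd (QuotientGroup.mk' P) x)
          · rfl
        · obtain ⟨s, hs, hsy⟩ := S0941.exists_regular_lift hM.1 hP y hy
          have hsC : s ∈ Subgroup.centralizer (D : Set G) := mem_centralizer D hD hs (by rw [hsy]; exact hyC)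
          rw [Finset.sum_eq_single s]
          · rw [if_pos hsy, hzco, if_pos ⟨hs, hsC⟩, hsy]
          · intro t _ hts
            by_cases h1 : (t : G ⧸ P) = y
            · rw [if_pos h1, hzco, if_neg]
              rintro ⟨ht, htC⟩
              apply hts
              have hw : s⁻¹ * t ∈ P := by
                rw [← QuotientGroup.eq]
                rw [hsy, h1]
              have hcomm : Commute (s⁻¹ * t) s := Subgroup.mem_centralizer_iff.1 hsC _ (hPD hw)
              obtain ⟨k, hk⟩ := (IsPGroup.iff_orderOf.1 hP) ⟨s⁻¹ * t, hw⟩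
              rw [Subgroup.orderOf_mk] at hk
              have h2 := Cfsg.Agent.Lib.BlockSecond.eq_of_comm_of_orders hM.1 (x := s⁻¹ * t) (y := s) (x' := 1) (y' := t)
                hcomm (Commute.one_left t) (by rw [hcomm.eq]; group) hk (k' := 0) (by simp) hs ht
              exact h2.2.symm
            · rw [if_neg h1]
          · intro h1; exact absurd (Finset.mem_univ _) h1
      rw [h0]; exact idl_zero
    have hdiff : ∀ ξ : IrrCharacter (G ⧸ P), MemLocalIdeal M (omega (ξ : G ⧸ P → ℂ) (projQ P z) - omega (ξ : G ⧸ P → ℂ) (eB b)) := by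
      intro ξ
      rw [← omega_sub]
      exact idl_omega_of_centralizer hM hDbp ξ (Subalgebra.sub_mem _ (projQ_mem_center P hzc) (eB_mem_center b))
        (locA_sub (locA_projQ P hzl) (locA_eB hb)) hpz
    have h1 := sameBlock_omega (χ.2.inflate P).isClassFunction (ψ.2.inflate P).isClassFunction h hzc hzl
    rw [← omega_projQ, ← omega_projQ] at h1
    have h2 : MemLocalIdeal M (omega (χ : G ⧸ P → ℂ) (eB b) - omega (ψ : G ⧸ P → ℂ) (eB b)) :=
      idl_sub_trans (idl_sub_trans (idl_sub_symm (hdiff χ)) h1) (hdiff ψ)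
    rw [omega_eB_mem (mem_blockOf_self χ)] at h2
    have h3 : ψ ∈ b := by
      by_contra hn
      rw [omega_eB_not_mem hn, sub_zero] at h2
      exact one_not_idl h2
    exact h3
  · obtain ⟨χ, hχ, h1⟩ := exists_trivial hM hP (unionOfBlocks_of_isPBlock hB) (isPBlock_nonempty hB)
    obtain ⟨ψ, hψ, h2⟩ := χ.2.deflate ⁅D, D⁆ h1
    exact ⟨⟨ψ, hψ⟩, χ, hχ, funext fun x => (h2 x).symm⟩

end Cfsg.Agent.S4964
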