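import Cfsg.Statements.S4965
import Mathlib.GroupTheory.CommutingProbability

set_option autoImplicit false
open Cfsg

namespace Cfsg.Agent.S4965

/-- Let X be a finite group with an abelian normal subgroup V (any two elements of V commute), and let φ be the action of X ⧸ V on V induced by conjugation (well defined because V is abelian; the hypothesis hφ says that the class of x acts as conjugation by x). Then X has at most as many conjugacy classes as the semidirect product of V by X ⧸ V formed with this action: the split extension has the largest class number among extensions with the given action. -/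
theorem result {X : Type*} [Group X] [Finite X] (V : Subgroup X) [V.Normal] (hab : ∀ a ∈ V, ∀ b ∈ V, a * b = b * a) (φ : X ⧸ V →* MulAut ↥V) (hφ : ∀ (x : X) (v : ↥V), ((φ (QuotientGroup.mk x) v : ↥V) : X) = x * v * x⁻¹) : Nat.card (ConjClasses X) ≤ Nat.card (ConjClasses (SemidirectProduct ↥V (X ⧸ V) φ)) := by
  classical
  have hYeq : Nat.card (SemidirectProduct ↥V (X ⧸ V) φ) = Nat.card X := by
    rw [Nat.card_congr (SemidirectProduct.equivProd (φ := φ)), Nat.card_prod]
    rw [← Subgroup.card_mul_index V]; rfl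
  have : Finite (SemidirectProduct ↥V (X ⧸ V) φ) := Finite.of_equiv _ (SemidirectProduct.equivProd (φ := φ)).symm
  have hXpos : 0 < Nat.card X := Nat.card_pos
  have hφ' : ∀ (x x0 : X) (v : ↥V), (QuotientGroup.mk x0 : X ⧸ V) = QuotientGroup.mk x →
      ((φ (QuotientGroup.mk x) v : ↥V) : X) = x0 * v * x0⁻¹ := by
    intro x x0 v h
    rw [← h]; exact hφ x0 v
  have key : Nat.card {p : X × X // Commute p.1 p.2} ≤ Nat.card {p : SemidirectProduct ↥V (X ⧸ V) φ × SemidirectProduct ↥V (X ⧸ V) φ // Commute p.1 p.2} := by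
    let c : (X ⧸ V) × (X ⧸ V) → X × X := fun ab =>
      if h : ∃ q : X × X, Commute q.1 q.2 ∧ (QuotientGroup.mk q.1 : X ⧸ V) = ab.1 ∧
        (QuotientGroup.mk q.2 : X ⧸ V) = ab.2 then h.choose else 1
    have hc : ∀ p : X × X, Commute p.1 p.2 →
        Commute (c (QuotientGroup.mk p.1, QuotientGroup.mk p.2)).1
          (c (QuotientGroup.mk p.1, QuotientGroup.mk p.2)).2 ∧
        (QuotientGroup.mk (c (QuotientGroup.mk p.1, QuotientGroup.mk p.2)).1 : X ⧸ V) = QuotientGroup.mk p.1 ∧
        (QuotientGroup.mk (c (QuotientGroup.mk p.1, QuotientGroup.mk p.2)).2 : X ⧸ V) = QuotientGroup.mk p.2 := by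
      intro p hp
      have h : ∃ q : X × X, Commute q.1 q.2 ∧ (QuotientGroup.mk q.1 : X ⧸ V) = (QuotientGroup.mk p.1 : X ⧸ V) ∧
        (QuotientGroup.mk q.2 : X ⧸ V) = (QuotientGroup.mk p.2 : X ⧸ V) := ⟨p, hp, rfl, rfl⟩
      have : c (QuotientGroup.mk p.1, QuotientGroup.mk p.2) = h.choose := dif_pos h
      rw [this]
      exact h.choose_spec
    have hmem : ∀ x y : X, (QuotientGroup.mk y : X ⧸ V) = QuotientGroup.mk x → x * y⁻¹ ∈ V := by
      intro x y h
      have h1 : (QuotientGroup.mk (x * y⁻¹) : X ⧸ V) = 1 := by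
        rw [QuotientGroup.mk_mul, QuotientGroup.mk_inv, h, mul_inv_cancel]
      exact (QuotientGroup.eq_one_iff _).1 h1
    let f : {p : X × X // Commute p.1 p.2} → {p : SemidirectProduct ↥V (X ⧸ V) φ × SemidirectProduct ↥V (X ⧸ V) φ // Commute p.1 p.2} := fun p =>
      ⟨(⟨⟨p.1.1 * (c (QuotientGroup.mk p.1.1, QuotientGroup.mk p.1.2)).1⁻¹, hmem _ _ (hc p.1 p.2).2.1⟩, QuotientGroup.mk p.1.1⟩,
        ⟨⟨p.1.2 * (c (QuotientGroup.mk p.1.1, QuotientGroup.mk p.1.2)).2⁻¹, hmem _ _ (hc p.1 p.2).2.2⟩, QuotientGroup.mk p.1.2⟩), by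
          obtain ⟨h1, h2, h3⟩ := hc p.1 p.2
          generalize hq : c (QuotientGroup.mk p.1.1, QuotientGroup.mk p.1.2) = q at h1 h2 h3
          obtain ⟨⟨x, y⟩, hxy⟩ := p
          obtain ⟨x0, y0⟩ := q
          simp only at h1 h2 h3 hxy hq ⊢
          refine SemidirectProduct.ext ?_ ?_
          · apply Subtype.ext
            simp only [SemidirectProduct.mul_left, Subgroup.coe_mul]
            rw [hφ' x x0 _ h2, hφ' y y0 _ h3]
            change x * x0⁻¹ * (x0 * (y * y0⁻¹) * x0⁻¹) = y * y0⁻¹ * (y0 * (x * x0⁻¹) * y0⁻¹)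
            have e1 : x * x0⁻¹ * (x0 * (y * y0⁻¹) * x0⁻¹) = (x * y) * (x0 * y0)⁻¹ := by group
            have e2 : y * y0⁻¹ * (y0 * (x * x0⁻¹) * y0⁻¹) = (y * x) * (y0 * x0)⁻¹ := by group
            rw [e1, e2, h1.eq, hxy.eq]
          · simp only [SemidirectProduct.mul_right]
            rw [← QuotientGroup.mk_mul, ← QuotientGroup.mk_mul, hxy.eq]⟩
    have hf : Function.Injective f := by
      intro p q hpq
      have h1 := congrArg (fun z => z.1.1.right) hpq
      have h2 := congrArg (fun z => z.1.2.right) hpq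
      have h3 := congrArg (fun z => (z.1.1.left : X)) hpq
      have h4 := congrArg (fun z => (z.1.2.left : X)) hpq
      simp only [f] at h1 h2 h3 h4
      rw [h1, h2] at h3 h4
      apply Subtype.ext
      exact Prod.ext (mul_right_cancel h3) (mul_right_cancel h4)
    exact Nat.card_le_card_of_injective f hf
  rw [card_comm_eq_card_conjClasses_mul_card, card_comm_eq_card_conjClasses_mul_card, hYeq] at key
  exact Nat.le_of_mul_le_mul_right key hXpos

end Cfsg.Agent.S4965
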