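import Cfsg.Statements.S4966
import Cfsg.Agent.Lib.KGVForms

set_option autoImplicit false
open Cfsg

namespace Cfsg.Agent.S4966

/-- Let F be a finite field of characteristic p, G a finite group of order prime to p, and V a finite-dimensional representation of G over F carrying a nondegenerate G-invariant bilinear form (equivalently, V is self-dual). Then V is the direct sum of two G-invariant subspaces U and W such that U carries a G-invariant alternating bilinear form that is nondegenerate on U and W carries a G-invariant symmetric bilinear form that is nondegenerate on W; moreover when p = 2 the decomposition can be chosen with G acting trivially on W. -/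
theorem result {F : Type*} [Field F] [Fintype F] (p : ℕ) [Fact p.Prime] [CharP F p] {G : Type*} [Group G] [Finite G] (hcop : ¬ p ∣ Nat.card G) {V : Type*} [AddCommGroup V] [Module F V] [FiniteDimensional F V] (ρ : Representation F G V) (B : LinearMap.BilinForm F V) (hB : B.Nondegenerate) (hBinv : ∀ g : G, ∀ x y : V, B (ρ g x) (ρ g y) = B x y) : ∃ U W : Submodule F V, IsCompl U W ∧ (∀ g : G, ∀ u ∈ U, ρ g u ∈ U) ∧ (∀ g : G, ∀ w ∈ W, ρ g w ∈ W) ∧ (∃ A : LinearMap.BilinForm F V, (∀ x : V, A x x = 0) ∧ (∀ g : G, ∀ x ∈ U, ∀ y ∈ U, A (ρ g x) (ρ g y) = A x y) ∧ (∀ x ∈ U, (∀ y ∈ U, A x y = 0) → x = 0)) ∧ (∃ S : LinearMap.BilinForm F V, (∀ x y : V, S x y = S y x) ∧ (∀ g : G, ∀ x ∈ W, ∀ y ∈ W, S (ρ g x) (ρ g y) = S x y) ∧ (∀ x ∈ W, (∀ y ∈ W, S x y = 0) → x = 0)) ∧ (p = 2 → ∀ g : G, ∀ w ∈ W, ρ g w = w) := by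
  by_cases h2 : p = 2
  · subst h2
    have h20 : (2 : F) = 0 := by
      have := CharP.cast_eq_zero F 2
      exact_mod_cast this
    have hodd : Odd (Nat.card G) := by
      rw [← Nat.not_even_iff_odd, even_iff_two_dvd]
      exact hcop
    obtain ⟨U, W, h1, h3, h4, h5, S, h6, h7⟩ := Lib.KGVForms.two_case h20 hodd ρ B hB hBinv
    refine ⟨U, W, h1, h3, fun g w hw => ?_, h5, ⟨S, h6, fun g x hx y hy => ?_, h7⟩, fun _ => h4⟩
    · rw [h4 g w hw]; exact hw
    · rw [h4 g x hx, h4 g y hy]
  · have h20 : (2 : F) ≠ 0 := by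
      intro h
      apply h2
      have h3 : p ∣ 2 := (CharP.cast_eq_zero_iff F p 2).1 (by exact_mod_cast h)
      exact (Nat.prime_dvd_prime_iff_eq Fact.out Nat.prime_two).1 h3
    obtain ⟨U, W, h1, h3, h4, h5, h6⟩ := Lib.KGVForms.odd_case h20 ρ B hB hBinv
    exact ⟨U, W, h1, h3, h4, h5, h6, fun h => absurd h h2⟩

end Cfsg.Agent.S4966
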