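import Cfsg.Statements.S4967
import Cfsg.Agent.Lib.KGVSelfDual

set_option autoImplicit false
open Cfsg

namespace Cfsg.Agent.S4967

/-- Let F be a finite field with r elements and of characteristic p, H a finite abelian group of order prime to p, and V a faithful irreducible representation of H over F of dimension n (faithful: distinct elements act differently; irreducible: the only H-invariant subspaces are 0 and V). Call V self-dual when it carries a nondegenerate H-invariant bilinear form. If n = 1 and V is self-dual then H has order at most 2. If n ≥ 2 then V is self-dual if and only if n is even and the order of H divides r^(n/2) + 1. -/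
theorem result {F : Type*} [Field F] [Fintype F] (p : ℕ) [Fact p.Prime] [CharP F p] {H : Type*} [CommGroup H] [Finite H] (hcop : ¬ p ∣ Nat.card H) {V : Type*} [AddCommGroup V] [Module F V] [FiniteDimensional F V] (ρ : Representation F H V) (hfaith : Function.Injective ρ) (hirr : ∀ U : Submodule F V, (∀ h : H, ∀ u ∈ U, ρ h u ∈ U) → U = ⊥ ∨ U = ⊤) : (Module.finrank F V = 1 → (∃ B : LinearMap.BilinForm F V, B.Nondegenerate ∧ ∀ h : H, ∀ x y : V, B (ρ h x) (ρ h y) = B x y) → Nat.card H ≤ 2) ∧ (2 ≤ Module.finrank F V → ((∃ B : LinearMap.BilinForm F V, B.Nondegenerate ∧ ∀ h : H, ∀ x y : V, B (ρ h x) (ρ h y) = B x y) ↔ (Even (Module.finrank F V) ∧ Nat.card H ∣ Fintype.card F ^ (Module.finrank F V / 2) + 1))) := by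
  refine ⟨?_, fun h2 => Lib.KGVSelfDual.main ρ hfaith hirr h2⟩
  rintro h1 ⟨B, hBn, hB⟩
  classical
  obtain ⟨v, hv, hspan⟩ := finrank_eq_one_iff'.1 h1
  have hBvv : B v v ≠ 0 := by
    intro h0
    apply hv
    apply hBn.1
    intro y
    obtain ⟨c, rfl⟩ := hspan y
    rw [map_smul, h0, smul_zero]
  choose c hc using fun h : H => hspan (ρ h v)
  have hc2 : ∀ h, c h = 1 ∨ c h = -1 := by
    intro h
    have h3 := hB h v v
    rw [← hc h, B.map_smul, LinearMap.smul_apply, (B v).map_smul, smul_eq_mul, smul_eq_mul, ← mul_assoc] at h3
    have h4 : c h * c h = 1 := mul_right_cancel₀ hBvv (by rw [h3, one_mul])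
    exact mul_self_eq_one_iff.1 h4
  have hinj : Function.Injective c := by
    intro a b hab
    apply hfaith
    apply LinearMap.ext
    intro w
    obtain ⟨d, rfl⟩ := hspan w
    rw [LinearMap.map_smul, LinearMap.map_smul, ← hc a, ← hc b, hab]
  have : Fintype H := Fintype.ofFinite H
  rw [Nat.card_eq_fintype_card]
  calc Fintype.card H = (Finset.univ.image c).card := by
        rw [Finset.card_image_of_injective _ hinj, Finset.card_univ]
    _ ≤ ({1, -1} : Finset F).card := by
        apply Finset.card_le_card
        intro x hx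
        rw [Finset.mem_image] at hx
        obtain ⟨h, _, rfl⟩ := hx
        rw [Finset.mem_insert, Finset.mem_singleton]
        exact hc2 h
    _ ≤ 2 := Finset.card_le_two

end Cfsg.Agent.S4967
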