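import Cfsg.Statements.S5014
import Cfsg.Agent.Lib.RankOneGrp

set_option autoImplicit false
open Cfsg

namespace Cfsg.Agent.S5014

open Cfsg.Agent.Lib.RankOneGrp

/-- Let X = ⟨A, B⟩ be a rank one group with unipotent subgroups A and B and let Ω be the set of conjugates of A under X. Then Ω has at least three members, X acts doubly transitively on Ω by conjugation (any two ordered pairs of distinct members are carried to one another by a single element of X), and A acts regularly on Ω with A removed: for C, D in Ω different from A there is exactly one element of A conjugating C to D. -/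
theorem result {G : Type*} [Group G] {A B : Subgroup G} (h : Cfsg.IsRankOnePair A B) :
    (∃ C₁ ∈ Cfsg.unipotentSubgroups A B, ∃ C₂ ∈ Cfsg.unipotentSubgroups A B, ∃ C₃ ∈ Cfsg.unipotentSubgroups A B,
      C₁ ≠ C₂ ∧ C₁ ≠ C₃ ∧ C₂ ≠ C₃) ∧
    (∀ C₁ ∈ Cfsg.unipotentSubgroups A B, ∀ C₂ ∈ Cfsg.unipotentSubgroups A B, ∀ D₁ ∈ Cfsg.unipotentSubgroups A B,
      ∀ D₂ ∈ Cfsg.unipotentSubgroups A B, C₁ ≠ C₂ → D₁ ≠ D₂ →
        ∃ x ∈ A ⊔ B, Cfsg.conjBy C₁ x = D₁ ∧ Cfsg.conjBy C₂ x = D₂) ∧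
    (∀ C ∈ Cfsg.unipotentSubgroups A B, ∀ D ∈ Cfsg.unipotentSubgroups A B, C ≠ A → D ≠ A →
      ∃! a : G, a ∈ A ∧ Cfsg.conjBy C a = D) := by
  refine ⟨?_, ?_, ?_⟩
  · obtain ⟨a, ha, ha1⟩ := exists_left h
    refine ⟨A, left_mem_unip _ _, B, right_mem_unip h, Cfsg.conjBy B a,
      conj_mem_unip (right_mem_unip h) (Subgroup.mem_sup_left ha), h.ne, ?_, ?_⟩
    · intro e
      apply h.ne
      rw [eq_comm, conjBy_eq_iff, conjBy_of_mem (A.inv_mem ha)] at e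
      exact e.symm
    · intro e
      exact ha1 (eq_one_of_conj_right h ha e.symm)
  · intro C₁ hC₁ C₂ hC₂ D₁ hD₁ D₂ hD₂ hC hD
    obtain ⟨x, hx, e1, e2⟩ := two_trans h hC₁ hC₂ hC
    obtain ⟨y, hy, e3, e4⟩ := two_trans h hD₁ hD₂ hD
    refine ⟨y * x⁻¹, Subgroup.mul_mem _ hy (Subgroup.inv_mem _ hx), ?_, ?_⟩
    · rw [e1, e3, conjBy_mul, conjBy_inv_conjBy]
    · rw [e2, e4, conjBy_mul, conjBy_inv_conjBy]
  · intro C hC D hD hCA hDA
    obtain ⟨c, hc, rfl⟩ := exists_conj_of_ne h hC hCA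
    obtain ⟨d, hd, rfl⟩ := exists_conj_of_ne h hD hDA
    refine ⟨d * c⁻¹, ⟨A.mul_mem hd (A.inv_mem hc), by rw [conjBy_mul, conjBy_inv_conjBy]⟩, ?_⟩
    rintro a ⟨ha, e⟩
    rw [← conjBy_mul] at e
    have := left_unique' h (A.mul_mem ha hc) hd e
    rw [← this]; group

end Cfsg.Agent.S5014
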