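import Cfsg.Statements.S5015
import Cfsg.Agent.Lib.RankOneGrp

set_option autoImplicit false
open Cfsg

namespace Cfsg.Agent.S5015

open Cfsg.Agent.Lib.RankOneGrp

variable {Y Ω : Type*} [Group Y] [MulAction Y Ω]

/-- the conjugate of `A` attached to a point depends only on the point -/
lemma conj_eq_of_smul {α : Ω} {A : Subgroup Y}
    (hAn : ∀ y ∈ MulAction.stabilizer Y α, Cfsg.conjBy A y = A) {g h : Y} (e : g • α = h • α) :
    Cfsg.conjBy A g = Cfsg.conjBy A h := by
  have : h⁻¹ * g ∈ MulAction.stabilizer Y α := by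
    rw [MulAction.mem_stabilizer_iff, mul_smul, e, inv_smul_smul]
  have h1 := hAn _ this
  rw [conjBy_mul, conjBy_eq_iff, inv_inv] at h1
  exact h1

/-- one half of the rank one condition -/
lemma cond_aux {α β : Ω} {A B : Subgroup Y} (hAB : β ≠ α)
    (hAα : ∀ a ∈ A, a • α = α) (_hBβ : ∀ b ∈ B, b • β = β)
    (hregA : ∀ γ δ : Ω, γ ≠ α → δ ≠ α → ∃! a : Y, a ∈ A ∧ a • γ = δ)
    (hregB : ∀ γ δ : Ω, γ ≠ β → δ ≠ β → ∃! b : Y, b ∈ B ∧ b • γ = δ)
    (hwd : ∀ g h : Y, g • α = h • β → Cfsg.conjBy A g = Cfsg.conjBy B h) :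
    Cfsg.RankOneCondition A B := by
  intro a ha ha1
  have hai := A.inv_mem ha
  have h1 : a⁻¹ • β ≠ β := by
    intro e
    obtain ⟨_, _, huniq⟩ := hregA β β hAB hAB
    have e1 := huniq a⁻¹ ⟨hai, e⟩
    have e2 := huniq 1 ⟨A.one_mem, one_smul _ _⟩
    apply ha1
    rw [← inv_eq_one, e1, e2]
  obtain ⟨b, ⟨hb, e⟩, _⟩ := hregB α (a⁻¹ • β) hAB.symm h1
  refine ⟨b⁻¹, B.inv_mem hb, ?_, ?_⟩
  · intro hb1
    rw [inv_eq_one] at hb1
    rw [hb1, one_smul] at e
    have : a • α = β := by rw [e]; exact smul_inv_smul a β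
    rw [hAα a ha] at this
    exact hAB this.symm
  · rw [inv_inv]
    exact hwd _ _ e

/-- Let a group Y act doubly transitively on a set Ω with at least three points, and suppose that the stabilizer of a point α contains a nilpotent subgroup A, normalized by that stabilizer, which acts regularly on the points other than α. Then for any y in Y moving α, the subgroups A and y A y⁻¹ are the unipotent subgroups of a rank one group, and the normal closure of A in Y (the subgroup generated by all conjugates of A) is generated by A and y A y⁻¹ alone. -/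
theorem result {Y Ω : Type*} [Group Y] [MulAction Y Ω]
    (h2 : MulAction.IsMultiplyPretransitive Y Ω 2) (hΩ : 3 ≤ ENat.card Ω) (α : Ω) (A : Subgroup Y)
    (hA : A ≤ MulAction.stabilizer Y α) (hAn : ∀ y ∈ MulAction.stabilizer Y α, Cfsg.conjBy A y = A)
    (hnil : Group.IsNilpotent A) (hreg : ∀ β γ : Ω, β ≠ α → γ ≠ α → ∃! a : Y, a ∈ A ∧ a • β = γ)
    (y : Y) (hy : y ∉ MulAction.stabilizer Y α) :
    Cfsg.IsRankOnePair A (Cfsg.conjBy A y) ∧ Subgroup.normalClosure (A : Set Y) = A ⊔ Cfsg.conjBy A y := by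
  have hAα : ∀ a ∈ A, a • α = α := fun a ha => MulAction.mem_stabilizer_iff.1 (hA ha)
  have hyα : y • α ≠ α := fun e => hy (MulAction.mem_stabilizer_iff.2 e)
  set β := y • α with hβ
  set B := Cfsg.conjBy A y with hB
  have hBβ : ∀ b ∈ B, b • β = β := by
    rintro _ ⟨a, ha, rfl⟩
    show (y * a * y⁻¹) • (y • α) = y • α
    rw [← mul_smul]
    have : y * a * y⁻¹ * y = y * a := by group
    rw [this, mul_smul, hAα a ha]
  have hregB : ∀ γ δ : Ω, γ ≠ β → δ ≠ β → ∃! b : Y, b ∈ B ∧ b • γ = δ := by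
    intro γ δ hγ hδ
    have h1 : y⁻¹ • γ ≠ α := by
      intro e; apply hγ; rw [hβ, ← e, smul_inv_smul]
    have h2 : y⁻¹ • δ ≠ α := by
      intro e; apply hδ; rw [hβ, ← e, smul_inv_smul]
    obtain ⟨a, ⟨ha, e⟩, huniq⟩ := hreg _ _ h1 h2
    refine ⟨y * a * y⁻¹, ⟨conjBy_mem ha y, ?_⟩, ?_⟩
    · rw [mul_smul, mul_smul, e, smul_inv_smul]
    · rintro b ⟨hb, e'⟩
      rw [hB, mem_conjBy] at hb
      have := huniq (y⁻¹ * b * y) ⟨hb, by
        rw [mul_smul, mul_smul, smul_inv_smul, e']⟩
      rw [← this]; group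
  have hwd : ∀ g h : Y, g • α = h • β → Cfsg.conjBy A g = Cfsg.conjBy B h := by
    intro g h e
    rw [hB, ← conjBy_mul]
    apply conj_eq_of_smul hAn
    rw [e, hβ, mul_smul]
  have hne : A ≠ B := by
    intro e
    -- a third point
    have h3 : ∃ γ : Ω, γ ≠ α ∧ γ ≠ β := by
      by_contra hcon
      push Not at hcon
      have hsub : (Set.univ : Set Ω) ⊆ {α, β} := by
        intro γ _
        by_cases h : γ = α
        · left; exact h
        · right; exact hcon γ h
      have h4 : ENat.card Ω ≤ 2 := by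
        rw [← Set.encard_univ]
        refine (Set.encard_le_encard hsub).trans ?_
        refine (Set.encard_insert_le {β} α).trans ?_
        rw [Set.encard_singleton]
        norm_num
      have h5 := hΩ.trans h4
      exact absurd h5 (by decide)
    obtain ⟨γ, hγα, hγβ⟩ := h3
    obtain ⟨a, ⟨ha, hab⟩, _⟩ := hreg β γ hyα hγα
    have h6 : a • β = β := hBβ a (by rw [← e]; exact ha)
    exact hγβ (by rw [← hab, h6])
  refine ⟨⟨hne, hnil, conjBy_isNilpotent hnil y, ?_, ?_⟩, ?_⟩
  · exact cond_aux hyα hAα hBβ hreg hregB hwd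
  · exact cond_aux hyα.symm hBβ hAα hregB hreg (fun g h e => (hwd h g e.symm).symm)
  · apply le_antisymm
    · rw [Subgroup.normalClosure, Subgroup.closure_le]
      intro x hx
      rw [Group.mem_conjugatesOfSet_iff] at hx
      obtain ⟨a, ha, hax⟩ := hx
      rw [isConj_iff] at hax
      obtain ⟨g, rfl⟩ := hax
      have hg : g * a * g⁻¹ ∈ Cfsg.conjBy A g := conjBy_mem ha g
      by_cases hgα : g • α = α
      · rw [hAn g (MulAction.mem_stabilizer_iff.2 hgα)] at hg
        exact Subgroup.mem_sup_left hg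
      · obtain ⟨a', ⟨ha', e⟩, _⟩ := hreg β (g • α) hyα hgα
        rw [hwd g a' e.symm] at hg
        exact (conjBy_le_of_mem le_sup_right (Subgroup.mem_sup_left ha')) hg
    · refine sup_le ?_ ?_
      · exact Subgroup.subset_normalClosure
      · have h7 := conjBy_normal (Subgroup.normalClosure_normal (s := (A : Set Y))) y
        calc B ≤ Cfsg.conjBy (Subgroup.normalClosure (A : Set Y)) y :=
              conjBy_mono Subgroup.subset_normalClosure y
          _ = _ := h7

end Cfsg.Agent.S5015
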