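import Cfsg.Statements.S5020
import Cfsg.Agent.Lib.SpecialSL2

set_option autoImplicit false
open Cfsg

namespace Cfsg.Agent.S5020

open Cfsg.Agent.Lib.RankOneGrp Cfsg.Agent.Lib.SpecialRankOne

/-- the small case -/
lemma small {X : Type*} [Group X] {A B : Subgroup X} (h : Cfsg.IsRankOneGroup X A B)
    (hs : Cfsg.IsSpecialRankOnePair A B) (hab : Cfsg.HasAbelianUnipotents A B)
    {p : ℕ} [hp : Fact p.Prime] (hc : Nat.card A = p) :
    Nonempty (X ≃* Matrix.SpecialLinearGroup (Fin 2) (ZMod p)) ∨
      Nonempty (X ≃* Matrix.ProjectiveSpecialLinearGroup (Fin 2) (ZMod p)) := by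
  obtain ⟨a, ha, ha1⟩ := exists_left h.2
  obtain ⟨s, hst⟩ := exists_star h.2 ha ha1
  have hfin : Finite A := Nat.finite_of_card_ne_zero (by rw [hc]; exact hp.out.ne_zero)
  have hap : a ^ p = 1 := by
    have : (⟨a, ha⟩ : A) ^ Nat.card A = 1 := pow_card_eq_one'
    rw [hc] at this
    exact congrArg Subtype.val this
  have hgen : ∀ {C : Subgroup X} {c : X}, Nat.card C = p → c ∈ C → c ≠ 1 →
      C = Subgroup.zpowers c := by
    intro C c hC hcC hc1
    have hCfin : Finite C := Nat.finite_of_card_ne_zero (by rw [hC]; exact hp.out.ne_zero)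
    have h1 : Subgroup.zpowers c ≤ C := by rwa [Subgroup.zpowers_le]
    have h2 := Subgroup.card_dvd_of_le h1
    rw [hC, Nat.dvd_prime hp.out] at h2
    rcases h2 with h2 | h2
    · exfalso; apply hc1
      rw [Subgroup.card_eq_one, Subgroup.zpowers_eq_bot] at h2
      exact h2
    · exact (Subgroup.eq_of_le_of_card_ge h1 (by rw [h2, hC])).symm
  have hA := hgen hc ha ha1
  have hBcard : Nat.card B = p := by
    have e := n_conj_A hst
    rw [← e, ← Nat.card_congr (conjEquiv A (a * s * a)).toEquiv, hc]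
  have hB := hgen hBcard hst.2.2.1 hst.2.2.2.1
  have htop : Subgroup.closure ({a, s} : Set X) = ⊤ := by
    rw [eq_top_iff, ← h.1]
    refine sup_le ?_ ?_
    · rw [hA, Subgroup.zpowers_le]; exact Subgroup.subset_closure (by simp)
    · rw [hB, Subgroup.zpowers_le]; exact Subgroup.subset_closure (by simp)
  have key := Cfsg.Agent.Lib.SpecialSL2.closure_iso hs hab hst hap
  rw [htop] at key
  rcases key with ⟨⟨e⟩⟩ | ⟨⟨e⟩⟩
  · exact Or.inl ⟨Subgroup.topEquiv.symm.trans e⟩
  · exact Or.inr ⟨Subgroup.topEquiv.symm.trans e⟩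

lemma psl2_two : Nonempty (Matrix.ProjectiveSpecialLinearGroup (Fin 2) (ZMod 2) ≃*
    Matrix.SpecialLinearGroup (Fin 2) (ZMod 2)) := by
  have hc : Subgroup.center (Matrix.SpecialLinearGroup (Fin 2) (ZMod 2)) = ⊥ := by
    rw [eq_bot_iff]
    intro z hz
    rcases Cfsg.Agent.Lib.SL2PresH83.center_pm hz with e | e
    · exact Subgroup.mem_bot.2 e
    · rw [Subgroup.mem_bot, e]
      apply Cfsg.Agent.Lib.SL2RankOne.sl_ext <;> decide
  exact ⟨(QuotientGroup.quotientMulEquivOfEq hc).trans QuotientGroup.quotientBot⟩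


/-- Let X be a special rank one group with abelian unipotent subgroups A and B, and H = N(A) ∩ N(B) its diagonal subgroup. Then either A has at most three elements and X is isomorphic to SL₂(2), SL₂(3) or PSL₂(3); or X = X' A with the commutator subgroup X' quasisimple and the commutator subgroup ⁅A, H⁆ having more than three elements. -/
theorem result {X : Type*} [Group X] {A B : Subgroup X} (h : Cfsg.IsRankOneGroup X A B)
    (hs : Cfsg.IsSpecialRankOnePair A B) (hab : Cfsg.HasAbelianUnipotents A B) :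
    (ENat.card A ≤ 3 ∧ (Nonempty (X ≃* Matrix.SpecialLinearGroup (Fin 2) (ZMod 2)) ∨
        Nonempty (X ≃* Matrix.SpecialLinearGroup (Fin 2) (ZMod 3)) ∨
        Nonempty (X ≃* Matrix.ProjectiveSpecialLinearGroup (Fin 2) (ZMod 3)))) ∨
    (commutator X ⊔ A = ⊤ ∧ Cfsg.IsQuasisimple (commutator X) ∧
      3 < ENat.card ↥(⁅A, Cfsg.rankOneDiagonal A B⁆ : Subgroup X)) := by
  by_cases hc : ENat.card A ≤ 3
  · left
    refine ⟨hc, ?_⟩
    have hfin : Finite A := by
      rw [← not_infinite_iff_finite]
      intro hinf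
      rw [ENat.card_eq_top_of_infinite] at hc
      exact absurd hc (by decide)
    have hc' : Nat.card A ≤ 3 := by
      rw [ENat.card_eq_coe_natCard] at hc
      exact_mod_cast hc
    have h2 : 1 < Nat.card A := by
      rw [Subgroup.one_lt_card_iff_ne_bot]
      exact left_ne_bot h.2
    have h3 : Nat.card A = 2 ∨ Nat.card A = 3 := by omega
    rcases h3 with h3 | h3
    · have : Fact (Nat.Prime 2) := ⟨Nat.prime_two⟩
      rcases small h hs hab h3 with ⟨⟨e⟩⟩ | ⟨⟨e⟩⟩
      · exact Or.inl ⟨e⟩
      · obtain ⟨f⟩ := psl2_two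
        exact Or.inl ⟨e.trans f⟩
    · have : Fact (Nat.Prime 3) := ⟨Nat.prime_three⟩
      rcases small h hs hab h3 with ⟨⟨e⟩⟩ | ⟨⟨e⟩⟩
      · exact Or.inr (Or.inl ⟨e⟩)
      · exact Or.inr (Or.inr ⟨e⟩)
  · right
    have hcard : ∀ z ∈ A, ∃ w ∈ A, w ≠ 1 ∧ w ≠ z ∧ w ≠ z⁻¹ := by
      intro z hz
      by_contra hno
      push Not at hno
      apply hc
      have hsub : (A : Set X) ⊆ {1, z, z⁻¹} := by
        intro w hw
        simp only [Set.mem_insert_iff, Set.mem_singleton_iff]
        by_contra hn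
        push Not at hn
        exact hn.2.2 (hno w hw hn.1 hn.2.1)
      calc ENat.card A = (A : Set X).encard := rfl
        _ ≤ ({1, z, z⁻¹} : Set X).encard := Set.encard_le_encard hsub
        _ ≤ ({z, z⁻¹} : Set X).encard + 1 := Set.encard_insert_le _ _
        _ ≤ (({z⁻¹} : Set X).encard + 1) + 1 := by gcongr; exact Set.encard_insert_le _ _
        _ = 3 := by rw [Set.encard_singleton]; norm_num
    have hcomm := comm_diag_eq hs hab hcard
    have hA' : A ≤ commutator X := by
      conv_lhs => rw [← hcomm]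
      exact Subgroup.commutator_mono le_top le_top
    obtain ⟨a, ha, ha1⟩ := exists_left h.2
    obtain ⟨s, hst⟩ := exists_star h.2 ha ha1
    have hB' : B ≤ commutator X := by
      rw [← n_conj_A hst, ← conjBy_normal (N := commutator X) inferInstance (a * s * a)]
      exact conjBy_mono hA' _
    have htop : commutator X = ⊤ := by
      rw [eq_top_iff, ← h.1]
      exact sup_le hA' hB'
    refine ⟨by rw [htop, top_sup_eq], ?_, ?_⟩
    · have hperf : Group.IsPerfect X := Group.isPerfect_def.2 htop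
      have hg := group_of_pair h.2
      have hp2 : Group.IsPerfect ↥(A ⊔ B) := by
        rw [h.1]; exact Group.IsPerfect.top_iff.2 hperf
      have := quasisimple_of_perfect hg hp2
      rw [htop, ← h.1]
      exact this
    · rw [hcomm]
      exact not_le.1 hc

end Cfsg.Agent.S5020
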