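import Cfsg.Statements.S5022
import Cfsg.Agent.Lib.SpecialSL2

set_option autoImplicit false
open Cfsg

namespace Cfsg.Agent.S5022


/-- Let X be a special rank one group with abelian unipotent subgroups A and B, where A is an elementary abelian p-group for the prime p. Then for every non-identity a in A and the non-identity b in B with b⁻¹ A b = a⁻¹ B a, the subgroup generated by a and b is isomorphic to SL₂(p) or to PSL₂(p). -/
theorem result {X : Type*} [Group X] {A B : Subgroup X} (h : Cfsg.IsRankOneGroup X A B)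
    (hs : Cfsg.IsSpecialRankOnePair A B) (hab : Cfsg.HasAbelianUnipotents A B)
    {p : ℕ} [Fact p.Prime] (hA : Cfsg.IsElementaryAbelian p A)
    {a b : X} (ha : a ∈ A) (ha1 : a ≠ 1) (hb : b ∈ B) (hb1 : b ≠ 1) (hab' : Cfsg.conjBy A b⁻¹ = Cfsg.conjBy B a⁻¹) :
    Nonempty (↥(Subgroup.closure ({a, b} : Set X)) ≃* Matrix.SpecialLinearGroup (Fin 2) (ZMod p)) ∨
    Nonempty (↥(Subgroup.closure ({a, b} : Set X)) ≃* Matrix.ProjectiveSpecialLinearGroup (Fin 2) (ZMod p)) := by
  have hs' : Cfsg.Agent.Lib.SpecialRankOne.Star A B a b⁻¹ :=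
    ⟨ha, ha1, B.inv_mem hb, by simpa using hb1, hab'⟩
  have key := Cfsg.Agent.Lib.SpecialSL2.closure_iso hs hab hs' (hA.2 a ha)
  have hcl : Subgroup.closure ({a, b⁻¹} : Set X) = Subgroup.closure ({a, b} : Set X) := by
    apply le_antisymm
    · rw [Subgroup.closure_le]
      rintro x (rfl | rfl)
      · exact Subgroup.subset_closure (by simp)
      · exact Subgroup.inv_mem _ (Subgroup.subset_closure (by simp))
    · rw [Subgroup.closure_le]
      rintro x (rfl | rfl)
      · exact Subgroup.subset_closure (by simp)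
      · have : x⁻¹ ∈ Subgroup.closure ({a, x⁻¹} : Set X) := Subgroup.subset_closure (by simp)
        exact (Subgroup.inv_mem_iff _).1 this
  rw [hcl] at key
  exact key

end Cfsg.Agent.S5022
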