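import Cfsg.Statements.S5024
import Cfsg.Agent.Lib.RootSub

set_option autoImplicit false
open Cfsg

namespace Cfsg.Agent.S5024

open Cfsg.Agent.Lib.RankOneGrp Cfsg.Agent.Lib.RootSub

/-- Let S be a set of abstract root subgroups of G, A and C members of S, B a rank one partner of A in S and D a rank one partner of C in S. If the rank one group ⟨A, B⟩ is contained in ⟨C, D⟩ then the two coincide, and C and D are conjugates of A inside ⟨A, B⟩. -/
theorem result {G : Type*} [Group G] {S : Set (Subgroup G)} (hS : Cfsg.IsRootSubgroupSet S)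
    {A B C D : Subgroup G} (hA : A ∈ S) (hC : C ∈ S) (hB : B ∈ Cfsg.rankOnePartners S A) (hD : D ∈ Cfsg.rankOnePartners S C)
    (hle : A ⊔ B ≤ C ⊔ D) : A ⊔ B = C ⊔ D ∧ C ∈ Cfsg.unipotentSubgroups A B ∧ D ∈ Cfsg.unipotentSubgroups A B := by
  have hAm : A ∈ Cfsg.unipotentSubgroups C D := by
    rcases mem_unip_of_le hS hD.2 hC hA (le_sup_left.trans hle) with h1 | h1
    · exfalso
      obtain ⟨a, ha, ha1⟩ := exists_left hB.2
      exact ha1 (eq_one_of_commute_left hB.2 ha
        (fun b hb => h1 a ha b (hle (Subgroup.mem_sup_right hb))))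
    · exact h1
  have hBm : B ∈ Cfsg.unipotentSubgroups C D := by
    rcases mem_unip_of_le hS hD.2 hC hB.1 (le_sup_right.trans hle) with h1 | h1
    · exfalso
      obtain ⟨b, hb, hb1⟩ := exists_right hB.2
      exact hb1 (eq_one_of_commute_right hB.2 hb
        (fun a ha => h1 b hb a (hle (Subgroup.mem_sup_left ha))))
    · exact h1
  refine ⟨sup_eq_of_mem hD.2 hAm hBm hB.2.ne, ?_, ?_⟩
  · rw [unip_eq_of_mem hD.2 hAm hBm hB.2.ne]; exact left_mem_unip _ _
  · rw [unip_eq_of_mem hD.2 hAm hBm hB.2.ne]; exact right_mem_unip hD.2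

end Cfsg.Agent.S5024
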