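import Cfsg.Statements.S5026
import Cfsg.Agent.Lib.RootSub

set_option autoImplicit false
open Cfsg

namespace Cfsg.Agent.S5026

open Cfsg.Agent.Lib.RankOneGrp Cfsg.Agent.Lib.RootSub

/-- the asymmetric part of the argument -/
lemma aux {G : Type*} [Group G] {S : Set (Subgroup G)} (hS : Cfsg.IsRootSubgroupSet S)
    (hdeg : Cfsg.IsDegenerateRootSet S) {a b : G} {A B C : Subgroup G} (hA : A ∈ S) (hB : B ∈ S)
    (hC : C ∈ S) (ha : a ∈ A) (ha1 : a ≠ 1) (hb : b ∈ B) (hab : a * b = b * a) (hab1 : a * b ≠ 1)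
    (hCc : ∀ c ∈ C, a * b * c = c * (a * b)) : ∀ c ∈ C, a * c = c * a := by
  rcases hS.pair A hA C hC with h1 | h1 | h1
  · intro c hc
    exact commute_of_commutator_bot h1 ha hc
  · exfalso
    have hCa : Cfsg.conjBy C (a * b) = C := by
      ext x
      rw [mem_conjBy]
      constructor
      · intro hx
        have := hCc _ hx
        have e : x = (a * b)⁻¹ * x * (a * b) := by
          have h2 : (a * b) * ((a * b)⁻¹ * x * (a * b)) * (a * b)⁻¹ =
            ((a * b)⁻¹ * x * (a * b)) * (a * b) * (a * b)⁻¹ := by rw [this]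
          have h3 : (a * b) * ((a * b)⁻¹ * x * (a * b)) * (a * b)⁻¹ = x := by group
          have h4 : ((a * b)⁻¹ * x * (a * b)) * (a * b) * (a * b)⁻¹ = (a * b)⁻¹ * x * (a * b) := by
            group
          rw [h3, h4] at h2; exact h2
        rw [e]; exact hx
      · intro hx
        have : (a * b)⁻¹ * x * (a * b) = x := by rw [mul_assoc, ← hCc x hx]; group
        rw [this]; exact hx
    have hCb : Cfsg.conjBy C b = Cfsg.conjBy C a⁻¹ := by
      rw [conjBy_mul, conjBy_eq_iff] at hCa
      exact hCa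
    have hne : Cfsg.conjBy C b ≠ C := by
      rw [hCb]
      intro e
      have := eq_one_of_conj_right h1 (A.inv_mem ha) e
      exact ha1 (by simpa using this)
    have hBm := (mem_unip_of_move hS h1 hA (right_mem_unip h1) hB hb (by
      rw [hCb]
      exact conj_mem_unip (right_mem_unip h1) (Subgroup.mem_sup_left (A.inv_mem ha))) hne).2
    have hb1 : b ≠ 1 := by rintro rfl; exact hne (conjBy_one _)
    by_cases hBA : B = A
    · have h2 := eq_one_of_conj_right h1 (A.mul_mem ha (by rw [← hBA]; exact hb)) hCa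
      exact hab1 h2
    · have hp := pair_of_mem h1 (left_mem_unip _ _) hBm (Ne.symm hBA)
      have hBa : Cfsg.conjBy B a ∈ Cfsg.unipotentSubgroups A C :=
        conj_mem_unip hBm (Subgroup.mem_sup_left ha)
      have hbB : b ∈ Cfsg.conjBy B a := by
        rw [mem_conjBy, mul_assoc, ← hab]; simpa using hb
      have := unip_eq_of_common h1 hBm hBa hb hbB hb1
      exact ha1 (eq_one_of_conj_right hp ha this.symm)
  · exact absurd h1 (hdeg A hA C hC)

/-- Let S be a degenerate set of abstract root subgroups of G (a set of abstract transvection groups) and let a, b be commuting non-identity elements of members of S with a b ≠ 1. Then the members of S centralizing a b are exactly those centralizing both a and b. -/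
theorem result {G : Type*} [Group G] {S : Set (Subgroup G)} (hS : Cfsg.IsRootSubgroupSet S) (hdeg : Cfsg.IsDegenerateRootSet S)
    {a b : G} (ha : a ∈ Cfsg.rootElements S) (hb : b ∈ Cfsg.rootElements S) (hab : a * b = b * a) (hab1 : a * b ≠ 1) :
    Cfsg.centralizingMembers S (Subgroup.zpowers (a * b)) =
      Cfsg.centralizingMembers S (Subgroup.zpowers a) ∩ Cfsg.centralizingMembers S (Subgroup.zpowers b) := by
  obtain ⟨ha1, A, hA, haA⟩ := ha
  obtain ⟨hb1, B, hB, hbB⟩ := hb
  have hcen : ∀ (C : Subgroup G) (x : G), C ≤ Subgroup.centralizer ((Subgroup.zpowers x : Subgroup G) : Set G) ↔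
      ∀ c ∈ C, x * c = c * x := by
    intro C x
    constructor
    · intro h c hc
      exact (Subgroup.mem_centralizer_iff.1 (h hc)) x (Subgroup.mem_zpowers x)
    · intro h c hc
      rw [Subgroup.mem_centralizer_iff]
      rintro y ⟨n, rfl⟩
      exact (Commute.zpow_left (h c hc) n)
  ext C
  constructor
  · rintro ⟨hC, hCc⟩
    rw [hcen] at hCc
    refine ⟨⟨hC, ?_⟩, ⟨hC, ?_⟩⟩
    · rw [hcen]
      exact aux hS hdeg hA hB hC haA ha1 hbB hab hab1 hCc
    · rw [hcen]
      refine aux hS hdeg hB hA hC hbB hb1 haA hab.symm (by rw [← hab]; exact hab1) ?_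
      rw [← hab]; exact hCc
  · rintro ⟨⟨hC, h1⟩, ⟨_, h2⟩⟩
    refine ⟨hC, ?_⟩
    rw [hcen] at h1 h2 ⊢
    intro c hc
    rw [mul_assoc, h2 c hc, ← mul_assoc, h1 c hc, mul_assoc]

end Cfsg.Agent.S5026
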