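import Cfsg.Statements.S5027
import Cfsg.Agent.Lib.RootSub

set_option autoImplicit false
open Cfsg

namespace Cfsg.Agent.S5027

open Cfsg.Agent.Lib.RankOneGrp Cfsg.Agent.Lib.RootSub
open scoped commutatorElement

/-- Let S be a set of abstract root subgroups of G such that every member of S has a rank one partner in S (the graph of rank one pairs on S has no isolated vertex). Then the second centre of G equals its centre. -/
theorem result {G : Type*} [Group G] {S : Set (Subgroup G)} (hS : Cfsg.IsRootSubgroupSet S)
    (hF : ∀ A ∈ S, ¬ Cfsg.IsIsolatedIn (Cfsg.FAdj S) S A) : Subgroup.upperCentralSeries G 2 = Subgroup.center G := by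
  apply le_antisymm
  · intro x hx
    rw [Subgroup.mem_upperCentralSeries_succ_iff] at hx
    have hx' : ∀ y, ⁅x, y⁆ ∈ Subgroup.center G := by
      intro y
      have := hx y
      rwa [Subgroup.upperCentralSeries_one] at this
    have hcen : (⨆ A ∈ S, A) ≤ Subgroup.centralizer ({x} : Set G) := by
      refine iSup₂_le ?_
      intro A hA a ha
      rw [Subgroup.mem_centralizer_singleton_iff]
      by_cases ha1 : a = 1
      · simp [ha1]
      · obtain ⟨B, hB, hp⟩ := exists_partner hA (hF A hA)
        have hz := hx' a
        by_contra hne
        have hz1 : ⁅x, a⁆ ≠ 1 := by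
          intro h1
          rw [commutatorElement_eq_one_iff_mul_comm] at h1
          exact hne h1.symm
        refine translate_not_mem hS hp hA (hS.conj_mem A hA x) (z := ⁅x, a⁆) (a := a) ?_ hz1 ha ha1 ?_
        · intro y _
          exact (Subgroup.mem_center_iff.1 hz y).symm
        · have : ⁅x, a⁆ * a = x * a * x⁻¹ := by rw [commutatorElement_def]; group
          rw [this]
          exact conjBy_mem ha x
    rw [hS.generates] at hcen
    rw [Subgroup.mem_center_iff]
    intro g
    have := hcen (Subgroup.mem_top g)
    rw [Subgroup.mem_centralizer_singleton_iff] at this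
    exact this
  · rw [← Subgroup.upperCentralSeries_one]
    exact Subgroup.upperCentralSeries_mono G one_le_two

end Cfsg.Agent.S5027
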