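import Cfsg.Statements.S5030
import Cfsg.Agent.Lib.RootSub

set_option autoImplicit false
open Cfsg

namespace Cfsg.Agent.S5030

open Cfsg.Agent.Lib.RankOneGrp Cfsg.Agent.Lib.RootSub

/-- Let S be a set of abstract root subgroups of G and A, B, C ∈ S with ⁅A, B⁆ ∈ S and ⁅B, C⁆ ∈ S, where A and C are different and commute. For a non-identity b ∈ B put X = ⟨A, b⁻¹ C b⟩ and Y = ⟨b⁻¹ A b, C⟩ and R = ⟨A, B, C⟩. Then X and Y are either both abelian or both nilpotent of class exactly two; X and Y commute elementwise; XY is normal in R with R = (XY) B; and R is nilpotent. -/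
theorem result {G : Type*} [Group G] {S : Set (Subgroup G)} (hS : Cfsg.IsRootSubgroupSet S)
    {A B C : Subgroup G} (hA : A ∈ S) (hB : B ∈ S) (hC : C ∈ S) (hAB : ⁅A, B⁆ ∈ S) (hBC : ⁅B, C⁆ ∈ S)
    (hAC : C ∈ Cfsg.commutingPartners S A)
    {b : G} (hb : b ∈ B) (hb1 : b ≠ 1) :
    ((IsMulCommutative ↥(A ⊔ Cfsg.conjBy C b⁻¹) ∧ IsMulCommutative ↥(Cfsg.conjBy A b⁻¹ ⊔ C)) ∨
      ((¬ IsMulCommutative ↥(A ⊔ Cfsg.conjBy C b⁻¹) ∧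
          ⁅⁅A ⊔ Cfsg.conjBy C b⁻¹, A ⊔ Cfsg.conjBy C b⁻¹⁆, A ⊔ Cfsg.conjBy C b⁻¹⁆ = ⊥) ∧
        (¬ IsMulCommutative ↥(Cfsg.conjBy A b⁻¹ ⊔ C) ∧
          ⁅⁅Cfsg.conjBy A b⁻¹ ⊔ C, Cfsg.conjBy A b⁻¹ ⊔ C⁆, Cfsg.conjBy A b⁻¹ ⊔ C⁆ = ⊥))) ∧
    ⁅A ⊔ Cfsg.conjBy C b⁻¹, Cfsg.conjBy A b⁻¹ ⊔ C⁆ = ⊥ ∧
    (∀ r ∈ A ⊔ B ⊔ C, Cfsg.conjBy ((A ⊔ Cfsg.conjBy C b⁻¹) ⊔ (Cfsg.conjBy A b⁻¹ ⊔ C)) r =
      (A ⊔ Cfsg.conjBy C b⁻¹) ⊔ (Cfsg.conjBy A b⁻¹ ⊔ C)) ∧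
    ((A ⊔ Cfsg.conjBy C b⁻¹) ⊔ (Cfsg.conjBy A b⁻¹ ⊔ C)) ⊔ B = A ⊔ B ⊔ C ∧
    Group.IsNilpotent ↥(A ⊔ B ⊔ C) := by
  have hAB' := cc_of_mem hS hA hB hAB
  have hCB' := cc_of_mem hS hC hB (by rw [Subgroup.commutator_comm]; exact hBC)
  have h : Chain S A B C := ⟨hS, hA, hB, hC, hAB', hCB', hAC.2.2⟩
  have hb' := B.inv_mem hb
  have hb1' : b⁻¹ ≠ 1 := by simpa using hb1
  have hAc := hS.commutative A hA
  have hCc := hS.commutative C hC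
  refine ⟨?_, h.XY hb', fun r hr => h.conjR hb' hb1' hr, ?_, h.nilpotent hb' hb1'⟩
  · have e := h.comm_iff hb' hb1'
    by_cases h1 : ⁅A, Cfsg.conjBy C b⁻¹⁆ = ⊥
    · left
      exact ⟨commutative_sup hAc (hS.commutative _ (hS.conj_mem C hC b⁻¹)) h1,
        commutative_sup (hS.commutative _ (hS.conj_mem A hA b⁻¹)) hCc (e.1 h1)⟩
    · right
      have h2 : ¬ ⁅Cfsg.conjBy A b⁻¹, C⁆ = ⊥ := fun h2 => h1 (e.2 h2)
      have hYc := h.symm.X_class' hb'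
      rw [sup_comm] at hYc
      refine ⟨⟨?_, h.X_class' hb'⟩, ⟨?_, hYc⟩⟩
      · intro hc
        apply h1
        rw [comm_bot_iff]
        intro x hx y hy
        exact commute_of_isMulCommutative hc (Subgroup.mem_sup_left hx) (Subgroup.mem_sup_right hy)
      · intro hc
        apply h2
        rw [comm_bot_iff]
        intro x hx y hy
        exact commute_of_isMulCommutative hc (Subgroup.mem_sup_left hx) (Subgroup.mem_sup_right hy)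
  · rw [h.M_eq hb' hb1']
    exact Chain.R_eq

end Cfsg.Agent.S5030
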