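import Cfsg.Statements.S5038
import Cfsg.Agent.Lib.RootClass

set_option autoImplicit false
open Cfsg

namespace Cfsg.Agent.S5038

open Cfsg.Agent.Lib.RankOneGrp Cfsg.Agent.Lib.RootSub Cfsg.Agent.Lib.RootLines
open scoped commutatorElement


/-- Let S be a set of abstract root subgroups of G in which every member has a rank one partner, A ∈ S and B a line partner of A. Then the subgroup generated by the members of S normalizing AB permutes the members of S inside AB doubly transitively by conjugation. -/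
theorem result {G : Type*} [Group G] {S : Set (Subgroup G)} (hS : Cfsg.IsRootSubgroupSet S)
    (hF : ∀ A ∈ S, ¬ Cfsg.IsIsolatedIn (Cfsg.FAdj S) S A) {A B : Subgroup G} (hA : A ∈ S) (hB : B ∈ Cfsg.linePartners S A) :
    ∀ C₁ ∈ Cfsg.membersIn S (A ⊔ B), ∀ C₂ ∈ Cfsg.membersIn S (A ⊔ B), ∀ D₁ ∈ Cfsg.membersIn S (A ⊔ B),
      ∀ D₂ ∈ Cfsg.membersIn S (A ⊔ B), C₁ ≠ C₂ → D₁ ≠ D₂ →
        ∃ x ∈ ⨆ E ∈ Cfsg.normalizingMembers S (A ⊔ B), E, Cfsg.conjBy C₁ x = D₁ ∧ Cfsg.conjBy C₂ x = D₂ := by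
  have hiso : ∀ A ∈ S, ∃ B ∈ S, IsRankOnePair A B := fun A hA => exists_partner hA (hF A hA)
  obtain ⟨C, hC, h⟩ := hiso A hA
  obtain ⟨D, F, q, hsup⟩ := exists_config hS hiso hA hB hC h
  obtain ⟨C', hC', h'⟩ := hiso D q.hD
  obtain ⟨D', F', q', hsup'⟩ := exists_config hS hiso q.hD (line_symm hA (q.line hS)) hC' h'
  rw [hsup]
  have hN : A ⊔ D = D ⊔ D' := by rw [← hsup', sup_comm]
  set N := A ⊔ D with hNdef
  set Y : Subgroup G := ⨆ E ∈ Cfsg.normalizingMembers S N, E with hY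
  have hFY : F ≤ Y := by
    have : F ∈ Cfsg.normalizingMembers S N := ⟨q.hF, fun f hf => by
      rw [← conjBy_eq_self_iff]; exact q.line_norm hS hf⟩
    exact le_iSup₂_of_le F this le_rfl
  have hF'Y : F' ≤ Y := by
    have : F' ∈ Cfsg.normalizingMembers S N := ⟨q'.hF, fun f hf => by
      rw [← conjBy_eq_self_iff, hN]; exact q'.line_norm hS hf⟩
    exact le_iSup₂_of_le F' this le_rfl
  -- transitivity of `F` away from `D`
  have tF : ∀ P ∈ membersIn S N, ∀ Q ∈ membersIn S N, P ≠ D → Q ≠ D → ∃ x ∈ Y, conjBy P x = Q ∧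
      conjBy D x = D := by
    intro P hP Q hQ hPD hQD
    obtain ⟨f, hf, rfl⟩ := q.point hS hP.1 hP.2 hPD
    obtain ⟨g, hg, rfl⟩ := q.point hS hQ.1 hQ.2 hQD
    refine ⟨g * f⁻¹, hFY (F.mul_mem hg (F.inv_mem hf)), ?_, ?_⟩
    · rw [conjBy_mul, conjBy_inv_conjBy]
    · exact conj_eq_of_commutator_bot (q.FD hS) (F.mul_mem hg (F.inv_mem hf))
  have tF' : ∀ P ∈ membersIn S N, ∀ Q ∈ membersIn S N, P ≠ D' → Q ≠ D' → ∃ x ∈ Y,
      conjBy P x = Q := by
    intro P hP Q hQ hPD hQD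
    rw [hN] at hP hQ
    obtain ⟨f, hf, rfl⟩ := q'.point hS hP.1 hP.2 hPD
    obtain ⟨g, hg, rfl⟩ := q'.point hS hQ.1 hQ.2 hQD
    refine ⟨g * f⁻¹, hF'Y (F'.mul_mem hg (F'.inv_mem hf)), ?_⟩
    rw [conjBy_mul, conjBy_inv_conjBy]
  have hDD' : D ≠ D' := by
    have := cc_ne hS (q'.ccAF hS)
    rwa [q'.hAF] at this
  have hDm : D ∈ membersIn S N := ⟨q.hD, le_sup_right⟩
  have hD'm : D' ∈ membersIn S N := ⟨q'.hD, by rw [hN]; exact le_sup_right⟩
  -- a third point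
  obtain ⟨T, hT, hTD, hTD'⟩ : ∃ T ∈ membersIn S N, T ≠ D ∧ T ≠ D' := by
    obtain ⟨f, hf, hf1⟩ := exists_ne_one (hS.ne_bot F' q'.hF)
    have hle : conjBy D f ≤ N := by
      rw [hN, ← q'.line_norm hS hf]; exact conjBy_mono le_sup_left f
    refine ⟨conjBy D f, ⟨hS.conj_mem D q.hD f, hle⟩, ?_, ?_⟩
    · intro e
      apply hf1
      obtain ⟨d, hd, hd1⟩ := exists_ne_one (hS.ne_bot D q.hD)
      refine cc_injective hS q.hD h' (q'.ccAF hS) hd hd1 hf ?_
      have h1 : ⁅d, f⁆ ∈ D := by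
        have e2 : ⁅d, f⁆ = d * (f * d⁻¹ * f⁻¹) := by
          rw [commutatorElement_def]; group
        rw [e2]
        refine D.mul_mem hd ?_
        have := conjBy_mem (D.inv_mem hd) f
        rwa [e] at this
      have h2 : ⁅d, f⁆ ∈ D' := by
        rw [← q'.hAF]; exact Subgroup.commutator_mem_commutator hd hf
      by_contra hne
      exact hDD' (ti hS hiso q.hD q'.hD h1 h2 hne)
    · intro e
      apply hDD'
      have : conjBy D' f = D' := conj_eq_of_commutator_bot (q'.FD hS) hf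
      rw [← conjBy_inj (g := f), e, this]
  -- transitivity on points
  have tr : ∀ P ∈ membersIn S N, ∃ x ∈ Y, conjBy P x = D := by
    intro P hP
    by_cases hPD : P = D
    · exact ⟨1, Y.one_mem, by rw [hPD, conjBy_one]⟩
    · obtain ⟨x, hx, e, _⟩ := tF P hP T hT hPD hTD
      obtain ⟨y, hy, e2⟩ := tF' T hT D hDm hTD' hDD'
      refine ⟨y * x, Y.mul_mem hy hx, ?_⟩
      rw [conjBy_mul, e, e2]
  have hYN : ∀ x ∈ Y, conjBy N x = N := by
    intro x hx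
    have : Y ≤ Subgroup.normalizer (N : Set G) := by
      rw [hY]
      exact iSup₂_le fun E hE => hE.2
    rw [conjBy_eq_self_iff]
    exact this hx
  have hmem : ∀ P ∈ membersIn S N, ∀ x ∈ Y, conjBy P x ∈ membersIn S N := by
    intro P hP x hx
    refine ⟨hS.conj_mem P hP.1 x, ?_⟩
    have := conjBy_mono hP.2 x
    rwa [hYN x hx] at this
  intro C₁ h₁ C₂ h₂ D₁ h₃ D₂ h₄ hne hne'
  obtain ⟨x, hx, ex⟩ := tr C₁ h₁
  obtain ⟨y, hy, ey⟩ := tr D₁ h₃
  have hP : conjBy C₂ x ≠ D := by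
    intro e
    apply hne
    rw [← conjBy_inj (g := x), e, ex]
  have hQ : conjBy D₂ y ≠ D := by
    intro e
    apply hne'
    rw [← conjBy_inj (g := y), e, ey]
  obtain ⟨z, hz, e1, e2⟩ := tF _ (hmem _ h₂ x hx) _ (hmem _ h₄ y hy) hP hQ
  refine ⟨y⁻¹ * z * x, Y.mul_mem (Y.mul_mem (Y.inv_mem hy) hz) hx, ?_, ?_⟩
  · rw [conjBy_mul, conjBy_mul, ex, e2, ← ey, conjBy_inv_conjBy]
  · rw [conjBy_mul, conjBy_mul, e1, conjBy_inv_conjBy]

end Cfsg.Agent.S5038
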