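import Cfsg.Statements.S5043
import Cfsg.Agent.Lib.RootSLn
import Cfsg.Agent.S5032

set_option autoImplicit false
open Matrix
open Cfsg

namespace Cfsg.Agent.S5043

/-- Let k be a field and n a natural number. In SL_{n+3}(k) (so in every dimension at least 3) the conjugates of the root subgroup of elementary transvections 1 + c E₁₂ (c ∈ k) — that is, the groups of transvections attached to an incident point–hyperplane pair — form a non-degenerate class of abstract k-root subgroups of SL_{n+3}(k) whose graph of rank one pairs is connected. -/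
theorem result (k : Type*) [Field k] (n : ℕ) :
    Cfsg.IsRootSubgroupClass {A : Subgroup (Matrix.SpecialLinearGroup (Fin (n + 3)) k) |
        ∃ g : Matrix.SpecialLinearGroup (Fin (n + 3)) k,
          A = Cfsg.conjBy (Subgroup.closure {t : Matrix.SpecialLinearGroup (Fin (n + 3)) k |
            ∃ c : k, (t : Matrix (Fin (n + 3)) (Fin (n + 3)) k) = Matrix.transvection 0 1 c}) g} ∧
    Cfsg.IsNondegenerateRootSet {A : Subgroup (Matrix.SpecialLinearGroup (Fin (n + 3)) k) |
        ∃ g : Matrix.SpecialLinearGroup (Fin (n + 3)) k,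
          A = Cfsg.conjBy (Subgroup.closure {t : Matrix.SpecialLinearGroup (Fin (n + 3)) k |
            ∃ c : k, (t : Matrix (Fin (n + 3)) (Fin (n + 3)) k) = Matrix.transvection 0 1 c}) g} ∧
    Cfsg.IsKRootSubgroupSet k {A : Subgroup (Matrix.SpecialLinearGroup (Fin (n + 3)) k) |
        ∃ g : Matrix.SpecialLinearGroup (Fin (n + 3)) k,
          A = Cfsg.conjBy (Subgroup.closure {t : Matrix.SpecialLinearGroup (Fin (n + 3)) k |
            ∃ c : k, (t : Matrix (Fin (n + 3)) (Fin (n + 3)) k) = Matrix.transvection 0 1 c}) g} ∧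
    Cfsg.IsConnectedFamily (Cfsg.FAdj {A : Subgroup (Matrix.SpecialLinearGroup (Fin (n + 3)) k) |
        ∃ g : Matrix.SpecialLinearGroup (Fin (n + 3)) k,
          A = Cfsg.conjBy (Subgroup.closure {t : Matrix.SpecialLinearGroup (Fin (n + 3)) k |
            ∃ c : k, (t : Matrix (Fin (n + 3)) (Fin (n + 3)) k) = Matrix.transvection 0 1 c}) g})
      {A : Subgroup (Matrix.SpecialLinearGroup (Fin (n + 3)) k) |
        ∃ g : Matrix.SpecialLinearGroup (Fin (n + 3)) k,
          A = Cfsg.conjBy (Subgroup.closure {t : Matrix.SpecialLinearGroup (Fin (n + 3)) k |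
            ∃ c : k, (t : Matrix (Fin (n + 3)) (Fin (n + 3)) k) = Matrix.transvection 0 1 c}) g} := by
  rw [Lib.RootSLn.SS_eq]
  have hR := Lib.RootSLn.isRootSet (k := k) (by omega : 3 ≤ n + 3)
  have hC := Lib.RootSLn.isClass (k := k) (by omega : 3 ≤ n + 3)
  have hN := Lib.RootSLn.nondeg (k := k) (by omega : 3 ≤ n + 3)
  refine ⟨⟨hR, hC⟩, hN, Lib.RootSL2.kroot_of hR (fun A hA B hB => (Lib.RootSLn.pair_cases hA hB).imp_right (Or.imp_left And.right)), ?_⟩
  obtain ⟨⟨A, hA, B, hB, hne, _⟩, ⟨C, hC', D, hD, hp⟩, _⟩ := hN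
  refine (Cfsg.Agent.S5032.result hR ⟨A, hA, B, hB, hne⟩).2 ⟨hC, C, hC', ?_⟩
  rintro ⟨_, h⟩
  exact (h D).1 ⟨hC', hD, hp⟩

end Cfsg.Agent.S5043
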