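import Cfsg.Statements.S5045
import Cfsg.Agent.Lib.RootInvG

set_option autoImplicit false
open Cfsg

namespace Cfsg.Agent.S5045

open RootInvE

section
variable {G : Type*} [Group G] {D : Set G}

theorem iso_iff {w : G} : w ∈ {w | Cfsg.IsIsolatedElem (Cfsg.OddAdj D) D w} ↔ w ∈ D ∧ ∀ x ∈ D, ¬ Od w x := by
  constructor
  · rintro ⟨hw, h⟩
    exact ⟨hw, fun x hx ho => (h x).1 ⟨hw, hx, ho.1, ho.2⟩⟩
  · rintro ⟨hw, h⟩
    refine ⟨hw, fun x => ⟨fun ha => h x ha.2.1 ⟨ha.2.2.1, ha.2.2.2⟩, fun ha => h x ha.1 ?_⟩⟩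
    exact Od.symm ⟨ha.2.2.1, ha.2.2.2⟩

def R (D : Set G) (a b : G) : Prop := Relation.ReflTransGen (Cfsg.OddAdj D) a b

theorem adj_symm {a b : G} (h : Cfsg.OddAdj D a b) : Cfsg.OddAdj D b a :=
  ⟨h.2.1, h.1, h.2.2.1.symm, by rw [orderOf_swap]; exact h.2.2.2⟩

theorem R.symm {a b : G} (h : R D a b) : R D b a := by
  induction h with
  | refl => exact Relation.ReflTransGen.refl
  | tail _ h2 ih => exact Relation.ReflTransGen.head (adj_symm h2) ih

theorem R.of_od {a b : G} (ha : a ∈ D) (hb : b ∈ D) (h : Od a b) : R D a b :=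
  Relation.ReflTransGen.single ⟨ha, hb, h.1, h.2⟩

theorem R.conj (hD : Cfsg.IsRootInvolutionSet D) {a b : G} (h : R D a b) (g : G) :
    R D (g * a * g⁻¹) (g * b * g⁻¹) := by
  induction h with
  | refl => exact Relation.ReflTransGen.refl
  | tail _ h2 ih =>
    refine Relation.ReflTransGen.tail ih ⟨hD.conj_mem _ h2.1 g, hD.conj_mem _ h2.2.1 g, ?_⟩
    exact (show Od _ _ from ⟨h2.2.2.1, h2.2.2.2⟩).conj g

theorem R.conj' (hD : Cfsg.IsRootInvolutionSet D) {a b y : G} (h : R D a b) (hy : y ∈ D) :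
    R D (y * a * y) (y * b * y) := by
  have := R.conj hD h y
  rwa [inv_eq hD hy] at this

theorem claim1 (hD : Cfsg.IsRootInvolutionSet D) {a b : G} (ha : a ∈ D) (hb : b ∈ D) (hF : Fo a b)
    (hex : ∃ x ∈ D, Od a x) (hR : ¬ R D a b) : R D a (b * a * b) := by
  by_contra hcon
  have hFa : ∀ a' ∈ D, R D a a' → Fo b a' := by
    intro a' ha' h
    rcases tri hD hb ha' with h1 | h1 | h1
    · exfalso
      have h2 := R.conj' hD h hb
      have h3 : b * a' * b = a' := by rw [h1.eq, mul_assoc, sq hD hb, mul_one]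
      rw [h3] at h2
      exact hcon (Relation.ReflTransGen.trans h h2.symm)
    · exfalso
      exact hR (Relation.ReflTransGen.trans h (R.of_od ha' hb h1.symm))
    · exact h1.1
  obtain ⟨x, hx, hax⟩ := hex
  have hRx : R D a x := R.of_od ha hx hax
  have hl := ln_cm hD ha hb hF
  rcases line hD hl hx hax with h | h
  · have hc : R D a (cm a b) := Relation.ReflTransGen.trans hRx (R.of_od hl.hb hx h).symm
    exact (hFa _ hl.hb hc).not_commute hD hb hl.hb (ln_cm' hD ha hb hF).comm
  · rw [← conj_eq hD ha hb] at h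
    exact hcon (Relation.ReflTransGen.trans hRx (R.of_od (conj_mem' hD ha hb) hx h).symm)

theorem claim2 (hD : Cfsg.IsRootInvolutionSet D) {a b : G} (ha : a ∈ D) (hb : b ∈ D) (hF : Fo a b)
    (hex : ∃ x ∈ D, Od a x) (hR : ¬ R D a b) {x : G} (hx : x ∈ D) (hcx : Od (cm a b) x) : R D a x := by
  have h1 := claim1 hD ha hb hF hex hR
  have hl := ln_cm hD ha hb hF
  rcases line hD hl.symm hx hcx with h | h
  · exact R.of_od ha hx h
  · rw [← hl.comm.eq, ← conj_eq hD ha hb] at h
    exact Relation.ReflTransGen.trans h1 (R.of_od (conj_mem' hD ha hb) hx h)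

theorem exists_od {a : G} (h : ∃ a' ∈ Cfsg.elemComponentOf (Cfsg.OddAdj D) D a, a' ≠ a) :
    ∃ x ∈ D, Od a x := by
  obtain ⟨a', ⟨_, h⟩, hne⟩ := h
  rcases Relation.ReflTransGen.cases_head h with h1 | ⟨c, h1, _⟩
  · exact absurd h1.symm hne
  · exact ⟨c, h1.2.1, h1.2.2.1, h1.2.2.2⟩

end

/-- Let G be a finite group generated by a set D of root involutions, and W the set of members of D whose product with every other member of D has even order or is trivial (the isolated vertices of the odd-order-product graph on D). Then W is conjugation-invariant and generates a normal 2-subgroup of G meeting D in exactly W; the commutator of two members of D lying in different connected components of that graph, each with more than one member, lies in the subgroup generated by W; and for a in such a component, every member of D commuting with a, different from a and with product with a in D, lies in that component or in W. -/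
theorem result {G : Type*} [Group G] [Finite G] {D : Set G} (hD : Cfsg.IsRootInvolutionSet D) :
    (∀ w ∈ {w | Cfsg.IsIsolatedElem (Cfsg.OddAdj D) D w}, ∀ g : G, g * w * g⁻¹ ∈ {w | Cfsg.IsIsolatedElem (Cfsg.OddAdj D) D w}) ∧
    (Subgroup.closure {w | Cfsg.IsIsolatedElem (Cfsg.OddAdj D) D w}).Normal ∧
    IsPGroup 2 ↥(Subgroup.closure {w | Cfsg.IsIsolatedElem (Cfsg.OddAdj D) D w}) ∧
    (Subgroup.closure {w | Cfsg.IsIsolatedElem (Cfsg.OddAdj D) D w} : Set G) ∩ D = {w | Cfsg.IsIsolatedElem (Cfsg.OddAdj D) D w} ∧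
    (∀ a ∈ D, ∀ b ∈ D, (∃ a' ∈ Cfsg.elemComponentOf (Cfsg.OddAdj D) D a, a' ≠ a) →
      (∃ b' ∈ Cfsg.elemComponentOf (Cfsg.OddAdj D) D b, b' ≠ b) →
      Cfsg.elemComponentOf (Cfsg.OddAdj D) D a ≠ Cfsg.elemComponentOf (Cfsg.OddAdj D) D b →
        a * b * a⁻¹ * b⁻¹ ∈ Subgroup.closure {w | Cfsg.IsIsolatedElem (Cfsg.OddAdj D) D w}) ∧
    (∀ a ∈ D, (∃ a' ∈ Cfsg.elemComponentOf (Cfsg.OddAdj D) D a, a' ≠ a) →
      Cfsg.productPartners D a ⊆ Cfsg.elemComponentOf (Cfsg.OddAdj D) D a ∪ {w | Cfsg.IsIsolatedElem (Cfsg.OddAdj D) D w}) := by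
  have hconj : ∀ w ∈ {w | Cfsg.IsIsolatedElem (Cfsg.OddAdj D) D w}, ∀ g : G,
      g * w * g⁻¹ ∈ {w | Cfsg.IsIsolatedElem (Cfsg.OddAdj D) D w} := by
    intro w hw g
    rw [iso_iff] at hw ⊢
    refine ⟨hD.conj_mem w hw.1 g, fun x hx ho => ?_⟩
    have h1 := ho.conj g⁻¹
    have e1 : g⁻¹ * (g * w * g⁻¹) * g⁻¹⁻¹ = w := by group
    rw [e1] at h1
    exact hw.2 _ (hD.conj_mem x hx g⁻¹) h1
  have hcore : Subgroup.closure {w | Cfsg.IsIsolatedElem (Cfsg.OddAdj D) D w} ≤ Cfsg.pCore 2 G := by
    rw [Subgroup.closure_le]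
    intro w hw
    have := iso_iff.1 hw
    exact mem_pCore_of_isolated hD this.1 this.2
  refine ⟨hconj, ?_, ?_, ?_, ?_, ?_⟩
  · constructor
    intro n hn g
    induction hn using Subgroup.closure_induction with
    | mem x hx => exact Subgroup.subset_closure (hconj x hx g)
    | one => simp
    | mul x y _ _ hx hy =>
      have : g * (x * y) * g⁻¹ = (g * x * g⁻¹) * (g * y * g⁻¹) := by group
      rw [this]; exact mul_mem hx hy
    | inv x _ hx =>
      have : g * x⁻¹ * g⁻¹ = (g * x * g⁻¹)⁻¹ := by group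
      rw [this]; exact inv_mem hx
  · exact (Cfsg.Agent.Lib.Cores.isPGroup_pCore 2 G).to_le hcore
  · ext w
    constructor
    · rintro ⟨hw, hwD⟩
      refine iso_iff.2 ⟨hwD, fun x hx ho => ?_⟩
      have hwC : w ∈ Cfsg.pCore 2 G := hcore hw
      have hn : (Cfsg.pCore 2 G).Normal := inferInstance
      have h2 : (w * x) ^ 2 ∈ Cfsg.pCore 2 G := by
        have : (w * x) ^ 2 = w * (x * w * x⁻¹) := by
          rw [inv_eq hD hx, pow_two]; group
        rw [this]
        exact mul_mem hwC (hn.conj_mem w hwC x)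
      obtain ⟨k, hk⟩ := (Cfsg.Agent.Lib.Cores.isPGroup_pCore 2 G) ⟨_, h2⟩
      have hk' : (w * x) ^ (2 * 2 ^ k) = 1 := by
        rw [pow_mul]; simpa using congrArg Subtype.val hk
      have hdvd := orderOf_dvd_of_pow_eq_one hk'
      rw [← pow_succ'] at hdvd
      have hcop : (orderOf (w * x)).Coprime (2 ^ (k + 1)) := (Nat.coprime_two_right.2 ho.2).pow_right _
      have := Nat.Coprime.eq_one_of_dvd hcop hdvd
      rw [orderOf_eq_one_iff] at this
      exact ho.1 (by rw [← inv_eq hD hx]; exact eq_inv_of_mul_eq_one_left this)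
    · intro hw
      exact ⟨Subgroup.subset_closure hw, (iso_iff.1 hw).1⟩
  · intro a ha b hb hexa hexb hne
    have hexa' := exists_od hexa
    have hexb' := exists_od hexb
    have hR : ¬ R D a b := by
      intro h
      apply hne
      ext x
      constructor
      · rintro ⟨hx, h'⟩; exact ⟨hx, Relation.ReflTransGen.trans h.symm h'⟩
      · rintro ⟨hx, h'⟩; exact ⟨hx, Relation.ReflTransGen.trans h h'⟩
    rcases tri hD ha hb with h | h | h
    · have : a * b * a⁻¹ * b⁻¹ = 1 := by rw [h.eq]; group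
      rw [this]; exact one_mem _
    · exact absurd (R.of_od ha hb h) hR
    · have hc : a * b * a⁻¹ * b⁻¹ = cm a b := by
        rw [inv_eq hD ha, inv_eq hD hb, cm, pow_two]; group
      rw [hc]
      apply Subgroup.subset_closure
      refine iso_iff.2 ⟨h.2, fun x hx ho => hR ?_⟩
      have h1 := claim2 hD ha hb h.1 hexa' hR hx ho
      have h2 : R D b x := by
        refine claim2 hD hb ha h.1.symm hexb' (fun h' => hR h'.symm) hx ?_
        rw [cm_symm hD ha hb h.1]; exact ho
      exact Relation.ReflTransGen.trans h1 h2.symm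
  · intro a ha hexa b hb
    obtain ⟨⟨hbD, hba, hne⟩, hbaD⟩ := hb
    by_cases hW : b ∈ {w | Cfsg.IsIsolatedElem (Cfsg.OddAdj D) D w}
    · exact Or.inr hW
    left
    refine ⟨hbD, ?_⟩
    change R D a b
    have hl : Ln D b a := ⟨hbD, ha, hba, hbaD⟩
    rw [iso_iff] at hW
    push Not at hW
    obtain ⟨x, hx, hbx⟩ := hW hbD
    rcases line hD hl hx hbx with h | h
    · exact Relation.ReflTransGen.trans (R.of_od ha hx h) (R.of_od hbD hx hbx).symm
    · have hRb : R D b (b * a) := Relation.ReflTransGen.trans (R.of_od hbD hx hbx) (R.of_od hbaD hx h).symm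
      obtain ⟨y, hy, hay⟩ := exists_od hexa
      have hRy : R D a y := R.of_od ha hy hay
      rcases line hD hl.symm hy hay with h' | h'
      · exact Relation.ReflTransGen.trans hRy (R.of_od hbD hy h').symm
      · rw [← hba] at h'
        exact Relation.ReflTransGen.trans hRy
          (Relation.ReflTransGen.trans (R.of_od hbaD hy h').symm hRb.symm)

end Cfsg.Agent.S5045
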