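import Cfsg.Statements.S5046
import Cfsg.Agent.Lib.RootInvG

set_option autoImplicit false
open Cfsg

namespace Cfsg.Agent.S5046

/-- Let G be a finite group generated by a set D of root involutions whose odd-order-product graph is connected, and d ∈ D. Then the members e of D with the same commuting members as d are exactly those for which the union of the commuting members of d and the members whose product with d has order 4 equals the corresponding union for e. -/
theorem result {G : Type*} [Group G] [Finite G] {D : Set G} (hD : Cfsg.IsRootInvolutionSet D)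
    (hc : Cfsg.IsConnectedSet (Cfsg.OddAdj D) D) {d : G} (hd : d ∈ D) :
    Cfsg.sameCommutingClass D d =
      {e | e ∈ D ∧ Cfsg.commutingMembers D d ∪ Cfsg.fourPartners D d = Cfsg.commutingMembers D e ∪ Cfsg.fourPartners D e} := by
  ext e
  have hunion : ∀ e ∈ D, ∀ x, x ∈ Cfsg.commutingMembers D e ∪ Cfsg.fourPartners D e ↔ x ∈ D ∧ ¬ RootInvE.Od e x := by
    intro e he x
    constructor
    · rintro (⟨hx, h⟩ | ⟨hx, h⟩)
      · exact ⟨hx, fun ho => ho.not_commute hD he hx h.symm⟩
      · exact ⟨hx, RootInvE.Fo.not_od h⟩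
    · rintro ⟨hx, h⟩
      rcases RootInvE.tri hD he hx with h' | h' | h'
      · exact Or.inl ⟨hx, h'.symm⟩
      · exact absurd h' h
      · exact Or.inr ⟨hx, h'.1⟩
  constructor
  · rintro ⟨he, h⟩
    refine ⟨he, ?_⟩
    have key : ∀ d e : G, d ∈ D → e ∈ D → Cfsg.commutingMembers D d = Cfsg.commutingMembers D e →
        ∀ x ∈ D, RootInvE.Od d x → RootInvE.Od e x := by
      intro d e hd he h x hx hdx
      rcases RootInvE.tri hD he hx with h' | h' | h'
      · exfalso
        have : x ∈ Cfsg.commutingMembers D e := ⟨hx, h'.symm⟩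
        rw [← h] at this
        exact hdx.not_commute hD hd hx (Commute.symm this.2)
      · exact h'
      · exfalso
        -- c = [e,x] commutes with e hence with d
        have hl1 := RootInvE.ln_cm hD he hx h'.1
        have hl2 := RootInvE.ln_cm' hD he hx h'.1
        have : RootInvE.cm e x ∈ Cfsg.commutingMembers D e := ⟨h'.2, hl1.comm.symm⟩
        rw [← h] at this
        exact RootInvE.b4 hD hl2 hd hdx.symm this.2
    ext x
    rw [hunion d hd, hunion e he]
    constructor
    · rintro ⟨hx, hn⟩
      exact ⟨hx, fun ho => hn (key e d he hd h.symm x hx ho)⟩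
    · rintro ⟨hx, hn⟩
      exact ⟨hx, fun ho => hn (key d e hd he h x hx ho)⟩
  · rintro ⟨he, h⟩
    refine ⟨he, ?_⟩
    have hA : RootInvE.Aset D e = RootInvE.Aset D d := by
      ext x
      have h1 := hunion d hd x
      have h2 := hunion e he x
      rw [h] at h1
      constructor
      · rintro ⟨hx, ho⟩
        refine ⟨hx, ?_⟩
        by_contra hn
        exact (h2.1 (h1.2 ⟨hx, hn⟩)).2 ho
      · rintro ⟨hx, ho⟩
        refine ⟨hx, ?_⟩
        by_contra hn
        exact (h1.1 (h2.2 ⟨hx, hn⟩)).2 ho
    ext x
    constructor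
    · rintro ⟨hx, hxc⟩
      exact ⟨hx, RootInvE.same_comm hD hc hd he hA hx hxc⟩
    · rintro ⟨hx, hxc⟩
      exact ⟨hx, RootInvE.same_comm hD hc he hd hA.symm hx hxc⟩

end Cfsg.Agent.S5046
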