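import Cfsg.Statements.S5047
import Cfsg.Agent.Lib.RootInvG

set_option autoImplicit false
open Cfsg

namespace Cfsg.Agent.S5047

/-- Let G be a finite group generated by a set D of root involutions whose odd-order-product graph is connected, a ∈ D, and b a member of D different from a, commuting with a, with ab ∈ D, but not having the same commuting members as a. Then some member x of D with bx of order 4 has ax of order 3. -/
theorem result {G : Type*} [Group G] [Finite G] {D : Set G} (hD : Cfsg.IsRootInvolutionSet D)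
    (hc : Cfsg.IsConnectedSet (Cfsg.OddAdj D) D) {a b : G} (ha : a ∈ D) (hb : b ∈ Cfsg.productPartners D a)
    (hbE : b ∉ Cfsg.sameCommutingClass D a) : ∃ x ∈ Cfsg.fourPartners D b, orderOf (a * x) = 3 := by
  obtain ⟨⟨hbD, hba, hne⟩, hbaD⟩ := hb
  -- a member outside the block has an odd partner missing
  have hex : ∀ d ∈ D, ∀ e ∈ D, e ∉ Cfsg.sameCommutingClass D d → ∃ t, t ∈ RootInvE.Aset D d ∧ t ∉ RootInvE.Aset D e := by
    intro d hd e he hne
    by_contra hcon
    push Not at hcon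
    have hA : RootInvE.Aset D d = RootInvE.Aset D e := RootInvE.Aset_eq_of_subset hD hc hd he hcon
    apply hne
    refine ⟨he, ?_⟩
    ext x
    constructor
    · rintro ⟨hx, hxc⟩
      exact ⟨hx, RootInvE.same_comm hD hc hd he hA.symm hx hxc⟩
    · rintro ⟨hx, hxc⟩
      exact ⟨hx, RootInvE.same_comm hD hc he hd hA hx hxc⟩
  have hl : RootInvE.Ln D a b := ⟨ha, hbD, (show Commute b a from hba).symm, by
    rw [← hba]; exact hbaD⟩
  obtain ⟨t, ht, htb⟩ := hex a ha b hbD hbE
  have hFbt : RootInvE.Fo b t := by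
    rcases RootInvE.b4' hD hl ht.1 ht.2 with h | h
    · exact absurd ⟨ht.1, h⟩ htb
    · exact h
  obtain ⟨b', hlb', hFb', hcm⟩ := RootInvE.exists_preimage hD hl ht.1 ht.2 hFbt
  set s := RootInvE.cm b' t with hs
  have hsD : s ∈ D := RootInvE.cm_mem hD hlb'.hb ht.1 hFb'
  have hFas : RootInvE.Fo a s := RootInvE.b5' hD hlb' ht.1 ht.2 hFb'
  have hlsb : RootInvE.Ln D b s := by
    rw [← hcm]; exact (RootInvE.ln_cm hD hsD ha hFas.symm).symm
  have hsE : s ∉ Cfsg.sameCommutingClass D b := by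
    rintro ⟨_, h⟩
    have : a ∈ Cfsg.commutingMembers D b := ⟨ha, hba.symm⟩
    rw [h] at this
    exact hFas.not_commute hD ha hsD this.2
  obtain ⟨z, hz, hzs⟩ := hex b hbD s hsD hsE
  have hFsz : RootInvE.Fo s z := by
    rcases RootInvE.b4' hD hlsb hz.1 hz.2 with h | h
    · exact absurd ⟨hz.1, h⟩ hzs
    · exact h
  obtain ⟨s2, hls2, hFs2, hcm2⟩ := RootInvE.exists_preimage hD hlsb hz.1 hz.2 hFsz
  set x := RootInvE.cm s2 z with hx
  have hxD : x ∈ D := RootInvE.cm_mem hD hls2.hb hz.1 hFs2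
  have hFbx : RootInvE.Fo b x := RootInvE.b5' hD hls2 hz.1 hz.2 hFs2
  refine ⟨x, ⟨hxD, hFbx⟩, ?_⟩
  refine RootInvE.lemmaE hD ha hxD hsD hbD hlsb.comm.symm hFas hFbx.symm ?_ hcm2
  rw [RootInvE.cm_symm hD hsD ha hFas.symm]; exact hcm

end Cfsg.Agent.S5047
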