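import Cfsg.Statements.S5048
import Cfsg.Agent.Lib.RootInvG

set_option autoImplicit false
open Cfsg

namespace Cfsg.Agent.S5048

open RootInvE

section
variable {G : Type*} [Group G] [Finite G] {D : Set G}

theorem one_notMem_of_even {x : G} (h : Odd (orderOf x)) (h2 : x ^ 2 = 1) : x = 1 := by
  have := Nat.Coprime.eq_one_of_dvd (Nat.coprime_two_right.2 h) (orderOf_dvd_of_pow_eq_one h2)
  exact orderOf_eq_one_iff.1 this

/-- if a normal subgroup contains a member of `D`, it is everything -/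
theorem eq_top_of_mem (hD : Cfsg.IsRootInvolutionSet D) (hc : Cfsg.IsConnectedSet (Cfsg.OddAdj D) D)
    {N : Subgroup G} (hN : N.Normal) {d : G} (hd : d ∈ D) (hdN : d ∈ N) : N = ⊤ := by
  rw [eq_top_iff, ← hD.generates, Subgroup.closure_le]
  intro e he
  obtain ⟨g, rfl⟩ := class_of_connected hD hc hd he
  exact hN.conj_mem d hdN g

/-- every member lies on a line -/
theorem exists_line (hD : Cfsg.IsRootInvolutionSet D) (hc : Cfsg.IsConnectedSet (Cfsg.OddAdj D) D)
    (hDD : (D ∩ Cfsg.commutingProducts D).Nonempty) {d : G} (hd : d ∈ D) : ∃ b, Ln D d b := by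
  obtain ⟨x, hx, a, ha, b, hb, hab, hne, rfl⟩ := hDD
  have hl : Ln D a b := ⟨ha, hb, hab, hx⟩
  obtain ⟨g, rfl⟩ := class_of_connected hD hc ha hd
  refine ⟨g * b * g⁻¹, hd, hD.conj_mem b hb g, ?_, ?_⟩
  · change g * a * g⁻¹ * (g * b * g⁻¹) = g * b * g⁻¹ * (g * a * g⁻¹)
    calc g * a * g⁻¹ * (g * b * g⁻¹) = g * (a * b) * g⁻¹ := by group
      _ = g * (b * a) * g⁻¹ := by rw [hab]
      _ = _ := by group
  · have : g * a * g⁻¹ * (g * b * g⁻¹) = g * (a * b) * g⁻¹ := by group
    rw [this]; exact hD.conj_mem _ hx g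

theorem coset_comm (hD : Cfsg.IsRootInvolutionSet D) (hc : Cfsg.IsConnectedSet (Cfsg.OddAdj D) D)
    (hDD : (D ∩ Cfsg.commutingProducts D).Nonempty) {N : Subgroup G} (hN : N.Normal) (hNt : N ≠ ⊤)
    {d e : G} (hd : d ∈ D) (he : e ∈ D) (hde : d * e ∈ N) : Commute d e := by
  by_contra hne
  rcases tri hD hd he with h | h | h
  · exact hne h
  · obtain ⟨b, hl⟩ := exists_line hD hc hDD hd
    -- in the quotient
    have hq : (d : G ⧸ N) = (e : G ⧸ N) := by
      rw [QuotientGroup.eq, inv_eq hD hd]; exact hde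
    have hb2 : (b : G ⧸ N) ^ 2 = 1 := by
      rw [← QuotientGroup.mk_pow, pow_two, sq hD hl.hb, QuotientGroup.mk_one]
    have hbd : (b : G ⧸ N) * (d : G ⧸ N) = (d : G ⧸ N) * (b : G ⧸ N) := by
      rw [← QuotientGroup.mk_mul, ← QuotientGroup.mk_mul, hl.comm.eq]
    have hd2 : (d : G ⧸ N) * (d : G ⧸ N) = 1 := by
      rw [← QuotientGroup.mk_mul, sq hD hd, QuotientGroup.mk_one]
    rcases line hD hl he h with h1 | h1
    · have hodd : Odd (orderOf ((b * e : G) : G ⧸ N)) :=
        Odd.of_dvd_nat h1.2 (orderOf_map_dvd (QuotientGroup.mk' N) (b * e))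
      have h3 : ((b * e : G) : G ⧸ N) ^ 2 = 1 := by
        rw [QuotientGroup.mk_mul, ← hq, (show Commute (b : G ⧸ N) (d : G ⧸ N) from hbd).mul_pow, hb2, pow_two, hd2, one_mul]
      have h4 := one_notMem_of_even hodd h3
      have h5 : b * e ∈ N := (QuotientGroup.eq_one_iff _).1 h4
      -- then d * b ∈ N
      have h6 : d * b ∈ N := by
        have : ((d * b : G) : G ⧸ N) = 1 := by
          rw [QuotientGroup.mk_mul] at h4 ⊢
          rw [← hbd, hq]; exact h4
        exact (QuotientGroup.eq_one_iff _).1 this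
      exact hNt (eq_top_of_mem hD hc hN hl.mul_mem h6)
    · have hodd : Odd (orderOf ((d * b * e : G) : G ⧸ N)) :=
        Odd.of_dvd_nat h1.2 (orderOf_map_dvd (QuotientGroup.mk' N) (d * b * e))
      have h3 : ((d * b * e : G) : G ⧸ N) = (b : G ⧸ N) := by
        rw [QuotientGroup.mk_mul, QuotientGroup.mk_mul, ← hq, ← hbd, mul_assoc, hd2, mul_one]
      have h4 : (b : G ⧸ N) = 1 := by
        rw [h3] at hodd
        exact one_notMem_of_even hodd hb2
      exact hNt (eq_top_of_mem hD hc hN hl.hb ((QuotientGroup.eq_one_iff _).1 h4))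
  · apply hNt
    refine eq_top_of_mem hD hc hN h.2 ?_
    rw [cm]; exact pow_mem hde 2

theorem le_twoZCore (hD : Cfsg.IsRootInvolutionSet D) (hc : Cfsg.IsConnectedSet (Cfsg.OddAdj D) D)
    (hDD : (D ∩ Cfsg.commutingProducts D).Nonempty) {N : Subgroup G} (hN : N.Normal) (hNt : N ≠ ⊤) :
    N ≤ Cfsg.twoZCore G := by
  -- `[n, d] ∈ O₂(G)` for all `n ∈ N`, `d ∈ D`
  have key : ∀ d ∈ D, ∀ n ∈ N, d * (n * d * n⁻¹) ∈ Cfsg.pCore 2 G := by
    intro d hd n hn
    -- E = closure of the members of D in the coset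
    let M : Set G := {e | e ∈ D ∧ d * e ∈ N}
    have hMc : ∀ e ∈ M, ∀ f ∈ M, Commute e f := by
      intro e he f hf
      apply coset_comm hD hc hDD hN hNt he.1 hf.1
      have : e * f = (d * e)⁻¹ * (d * f) := by rw [mul_inv_rev, inv_eq hD he.1]; group
      rw [this]; exact mul_mem (inv_mem he.2) hf.2
    have hMN : ∀ m ∈ N, ∀ e ∈ M, m * e * m⁻¹ ∈ M := by
      intro m hm e he
      refine ⟨hD.conj_mem e he.1 m, ?_⟩
      have : d * (m * e * m⁻¹) = (d * m * d⁻¹) * (d * e) * m⁻¹ := by group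
      rw [this]
      exact mul_mem (mul_mem (hN.conj_mem m hm d) he.2) (inv_mem hm)
    -- U = closure M ⊓ N is a 2-group normalized by N
    have hEp : IsPGroup 2 ↥(Subgroup.closure M) := by
      apply isPGroup_closure (fun e he => hD.orderOf_eq e he.1)
      · intro e he f hf
        rw [(hMc e he f hf).eq, mul_assoc, sq hD he.1, mul_one]; exact hf
      · intro e he f hf ho
        exact ho.not_commute hD he.1 hf.1 (hMc e he f hf)
    let U : Subgroup G := Subgroup.closure M ⊓ N
    have hUN : (U.subgroupOf N).Normal := by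
      constructor
      rintro ⟨u, huN⟩ hu ⟨m, hm⟩
      rw [Subgroup.mem_subgroupOf] at hu ⊢
      refine ⟨?_, ?_⟩
      · change m * u * m⁻¹ ∈ Subgroup.closure M
        have hu1 : u ∈ Subgroup.closure M := hu.1
        clear hu
        have : ∀ x ∈ Subgroup.closure M, m * x * m⁻¹ ∈ Subgroup.closure M := by
          intro x hx
          induction hx using Subgroup.closure_induction with
          | mem x hx => exact Subgroup.subset_closure (hMN m hm x hx)
          | one => simp
          | mul x y _ _ hx hy =>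
            have : m * (x * y) * m⁻¹ = (m * x * m⁻¹) * (m * y * m⁻¹) := by group
            rw [this]; exact mul_mem hx hy
          | inv x _ hx =>
            have : m * x⁻¹ * m⁻¹ = (m * x * m⁻¹)⁻¹ := by group
            rw [this]; exact inv_mem hx
        exact this u hu1
      · exact N.mul_mem (N.mul_mem hm huN) (N.inv_mem hm)
    have hUp : IsPGroup 2 ↥(U.subgroupOf N) := by
      have h1 : IsPGroup 2 ↥U := hEp.to_le inf_le_left
      exact h1.comap_of_injective N.subtype N.subtype_injective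
    have h1 : (U.subgroupOf N).map N.subtype ≤ (Cfsg.pCore 2 N).map N.subtype :=
      Subgroup.map_mono (Cfsg.Agent.Lib.Cores.le_pCore hUN hUp)
    have h2 := Cfsg.Agent.Lib.Cores.map_pCore_subtype_le 2 N
    have hdM : d ∈ M := ⟨hd, by rw [sq hD hd]; exact one_mem _⟩
    have h3 : d * (n * d * n⁻¹) ∈ U := by
      refine ⟨mul_mem (Subgroup.subset_closure hdM) (Subgroup.subset_closure (hMN n hn d hdM)), ?_⟩
      exact (hMN n hn d hdM).2
    have h4 : d * (n * d * n⁻¹) ∈ (U.subgroupOf N).map N.subtype := by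
      rw [Subgroup.subgroupOf_map_subtype]; exact ⟨h3, h3.2⟩
    exact h2 (h1 h4)
  intro n hn
  change (QuotientGroup.mk' (Cfsg.pCore 2 G)) n ∈ Subgroup.center (G ⧸ Cfsg.pCore 2 G)
  rw [Subgroup.mem_center_iff]
  have hgen : ∀ g : G, (g : G ⧸ Cfsg.pCore 2 G) * (n : G ⧸ Cfsg.pCore 2 G) = (n : G ⧸ Cfsg.pCore 2 G) * (g : G ⧸ Cfsg.pCore 2 G) := by
    intro g
    have hg : g ∈ Subgroup.closure D := by rw [hD.generates]; trivial
    induction hg using Subgroup.closure_induction with
    | mem d hd =>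
      have h1 := key d hd n hn
      have h2 : ((d * (n * d * n⁻¹) : G) : G ⧸ Cfsg.pCore 2 G) = 1 := (QuotientGroup.eq_one_iff _).2 h1
      rw [QuotientGroup.mk_mul, QuotientGroup.mk_mul, QuotientGroup.mk_mul, QuotientGroup.mk_inv] at h2
      have hd2 : (d : G ⧸ Cfsg.pCore 2 G) * (d : G ⧸ Cfsg.pCore 2 G) = 1 := by
        rw [← QuotientGroup.mk_mul, sq hD hd, QuotientGroup.mk_one]
      have h3 : (n : G ⧸ Cfsg.pCore 2 G) * d * (n : G ⧸ Cfsg.pCore 2 G)⁻¹ = d := by
        calc (n : G ⧸ Cfsg.pCore 2 G) * d * (n : G ⧸ Cfsg.pCore 2 G)⁻¹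
            = d * (d * (n * d * (n : G ⧸ Cfsg.pCore 2 G)⁻¹)) := by rw [cancel_left hd2]
          _ = d := by rw [h2, mul_one]
      exact (mul_inv_eq_iff_eq_mul.1 h3).symm
    | one => simp
    | mul x y _ _ hx hy =>
      rw [QuotientGroup.mk_mul, mul_assoc, hy, ← mul_assoc, hx, mul_assoc]
    | inv x _ hx =>
      rw [QuotientGroup.mk_inv]
      exact ((show Commute (x : G ⧸ Cfsg.pCore 2 G) (n : G ⧸ Cfsg.pCore 2 G) from hx).inv_left).eq
  intro g
  obtain ⟨g, rfl⟩ := QuotientGroup.mk_surjective g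
  exact hgen g

theorem exists_odd_pair (hc : Cfsg.IsConnectedSet (Cfsg.OddAdj D) D)
    (hD : Cfsg.IsRootInvolutionSet D) (hDD : (D ∩ Cfsg.commutingProducts D).Nonempty) : ∃ a ∈ D, ∃ x ∈ D, Od a x := by
  obtain ⟨x, hx, a, ha, b, hb, hab, hne, rfl⟩ := hDD
  have hne' : a ≠ b := by
    rintro rfl; exact hne (sq hD ha)
  rcases Relation.ReflTransGen.cases_head (hc a ha b hb) with h1 | ⟨c, h1, _⟩
  · exact absurd h1 hne'
  · exact ⟨a, ha, c, h1.2.1, h1.2.2.1, h1.2.2.2⟩

/-- `G / Z*` is not abelian -/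
theorem not_abelian (hD : Cfsg.IsRootInvolutionSet D) (hc : Cfsg.IsConnectedSet (Cfsg.OddAdj D) D)
    (hDD : (D ∩ Cfsg.commutingProducts D).Nonempty) (h : ∀ x y : G, x * y * x⁻¹ * y⁻¹ ∈ Cfsg.twoZCore G) : False := by
  obtain ⟨a, ha, x, hx, hax⟩ := exists_odd_pair hc hD hDD
  have h1 : (a * x) ^ 2 ∈ Cfsg.twoZCore G := by
    have := h a x
    rw [inv_eq hD ha, inv_eq hD hx] at this
    rw [pow_two, ← mul_assoc]; exact this
  obtain ⟨k, hk⟩ := hax.2
  have h2 : a * x ∈ Cfsg.twoZCore G := by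
    have e : a * x = ((a * x) ^ 2) ^ (k + 1) := by
      rw [← pow_mul, show 2 * (k + 1) = orderOf (a * x) + 1 by omega, pow_succ, pow_orderOf_eq_one, one_mul]
    rw [e]; exact pow_mem h1 _
  have h3 : (QuotientGroup.mk' (Cfsg.pCore 2 G)) (a * x) ∈ Subgroup.center (G ⧸ Cfsg.pCore 2 G) := h2
  rw [Subgroup.mem_center_iff] at h3
  have h4 := h3 (a : G ⧸ Cfsg.pCore 2 G)
  have h5 : (a * x) ^ 2 ∈ Cfsg.pCore 2 G := by
    rw [← QuotientGroup.eq_one_iff]
    have h6 : ((a * (a * x) : G) : G ⧸ Cfsg.pCore 2 G) = ((a * x * a : G) : G ⧸ Cfsg.pCore 2 G) := h4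
    rw [cancel_left (sq hD ha)] at h6
    have : ((a * x) ^ 2 : G) = (a * x * a) * x := by rw [pow_two]; group
    rw [this, QuotientGroup.mk_mul, ← h6, ← QuotientGroup.mk_mul, sq hD hx, QuotientGroup.mk_one]
  obtain ⟨j, hj⟩ := (Cfsg.Agent.Lib.Cores.isPGroup_pCore 2 G) ⟨_, h5⟩
  have hk' : (a * x) ^ (2 * 2 ^ j) = 1 := by
    rw [pow_mul]; simpa using congrArg Subtype.val hj
  have hdvd := orderOf_dvd_of_pow_eq_one hk'
  rw [← pow_succ'] at hdvd
  have hcop : (orderOf (a * x)).Coprime (2 ^ (j + 1)) := (Nat.coprime_two_right.2 hax.2).pow_right _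
  have := Nat.Coprime.eq_one_of_dvd hcop hdvd
  rw [orderOf_eq_one_iff] at this
  exact hax.1 (by rw [← inv_eq hD hx]; exact eq_inv_of_mul_eq_one_left this)

end

/-- Let G be a finite group generated by a set D of root involutions whose odd-order-product graph is connected, with some product of two different commuting members of D again in D. Then the largest solvable normal subgroup of G is the preimage of the centre of G/O₂(G), and the quotient of G by it is a simple group. -/
theorem result {G : Type*} [Group G] [Finite G] {D : Set G} (hD : Cfsg.IsRootInvolutionSet D)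
    (hc : Cfsg.IsConnectedSet (Cfsg.OddAdj D) D) (hDD : (D ∩ Cfsg.commutingProducts D).Nonempty) :
    Cfsg.solvableRadical G = Cfsg.twoZCore G ∧ IsSimpleGroup (G ⧸ Cfsg.twoZCore G) := by
  have hnt : Cfsg.twoZCore G ≠ ⊤ := by
    intro h
    exact not_abelian hD hc hDD (fun x y => by rw [h]; trivial)
  have hnsolv : ¬ Group.IsSolvable G := by
    intro hs
    have hcne : _root_.commutator G ≠ ⊤ := by
      intro h
      have h1 : ∀ n, derivedSeries G n = ⊤ := by
        intro n
        induction n with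
        | zero => simp
        | succ n ih => rw [derivedSeries_succ, ih]; exact h
      obtain ⟨n, hn⟩ := hs
      rw [h1] at hn
      obtain ⟨a, ha, _⟩ := exists_odd_pair hc hD hDD
      have : a ∈ (⊤ : Subgroup G) := trivial
      rw [hn, Subgroup.mem_bot] at this
      exact ne_one hD ha this
    have h1 := le_twoZCore hD hc hDD (N := _root_.commutator G) inferInstance hcne
    exact not_abelian hD hc hDD (fun x y => h1 (Subgroup.commutator_mem_commutator (Subgroup.mem_top x) (Subgroup.mem_top y)))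
  have hsimple : ∀ N : Subgroup G, N.Normal → N ≤ Cfsg.twoZCore G ∨ N = ⊤ := by
    intro N hN
    by_cases h : N = ⊤
    · exact Or.inr h
    · exact Or.inl (le_twoZCore hD hc hDD hN h)
  refine ⟨?_, ?_⟩
  · apply le_antisymm
    · apply sSup_le
      rintro N ⟨hN, hs⟩
      rcases hsimple N hN with h | h
      · exact h
      · exfalso
        subst h
        apply hnsolv
        have hs' : Group.IsSolvable (⊤ : Subgroup G) := hs
        exact Group.isSolvable_of_isSolvable_injective (f := (Subgroup.topEquiv.symm : G ≃* (⊤ : Subgroup G)).toMonoidHom)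
          (Subgroup.topEquiv.symm : G ≃* (⊤ : Subgroup G)).injective
    · apply le_sSup
      refine ⟨inferInstance, ?_⟩
      change Group.IsSolvable (Cfsg.twoZCore G)
      have hle : Cfsg.pCore 2 G ≤ Cfsg.twoZCore G := by
        intro x hx
        change (QuotientGroup.mk' (Cfsg.pCore 2 G)) x ∈ Subgroup.center (G ⧸ Cfsg.pCore 2 G)
        have : (QuotientGroup.mk' (Cfsg.pCore 2 G)) x = 1 := (QuotientGroup.eq_one_iff x).2 hx
        rw [this]; exact one_mem _
      have : Fact (Nat.Prime 2) := ⟨Nat.prime_two⟩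
      have hnil : Group.IsNilpotent (Cfsg.pCore 2 G) := (Cfsg.Agent.Lib.Cores.isPGroup_pCore 2 G).isNilpotent
      let f : Cfsg.pCore 2 G →* Cfsg.twoZCore G := Subgroup.inclusion hle
      let g : Cfsg.twoZCore G →* Subgroup.center (G ⧸ Cfsg.pCore 2 G) :=
        ((QuotientGroup.mk' (Cfsg.pCore 2 G)).comp (Cfsg.twoZCore G).subtype).codRestrict _ (fun x => x.2)
      have hfg : g.ker ≤ f.range := by
        intro x hx
        have h1 : (QuotientGroup.mk' (Cfsg.pCore 2 G)) (x : G) = 1 := congrArg Subtype.val (MonoidHom.mem_ker.1 hx)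
        have h2 : (x : G) ∈ Cfsg.pCore 2 G := (QuotientGroup.eq_one_iff _).1 h1
        exact ⟨⟨x, h2⟩, rfl⟩
      have hcs : Group.IsSolvable (Subgroup.center (G ⧸ Cfsg.pCore 2 G)) :=
        Group.isSolvable_of_comm (fun a b => Subtype.ext ((Subgroup.mem_center_iff.1 b.2 (a : G ⧸ Cfsg.pCore 2 G))))
      exact Group.isSolvable_of_ker_le_range f g hfg
  · have hntr : Nontrivial (G ⧸ Cfsg.twoZCore G) := by
      rw [QuotientGroup.nontrivial_iff]; exact hnt
    refine ⟨fun H hH => ?_⟩
    have hcom : (H.comap (QuotientGroup.mk' (Cfsg.twoZCore G))).Normal := hH.comap _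
    rcases hsimple _ hcom with h | h
    · left
      rw [eq_bot_iff]
      intro x hx
      obtain ⟨g, rfl⟩ := QuotientGroup.mk_surjective x
      have : g ∈ H.comap (QuotientGroup.mk' (Cfsg.twoZCore G)) := hx
      exact (QuotientGroup.eq_one_iff g).2 (h this)
    · right
      rw [eq_top_iff]
      intro x _
      obtain ⟨g, rfl⟩ := QuotientGroup.mk_surjective x
      have : g ∈ H.comap (QuotientGroup.mk' (Cfsg.twoZCore G)) := by rw [h]; trivial
      exact this

end Cfsg.Agent.S5048
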