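import Cfsg.Statements.S5049
import Cfsg.Agent.Lib.RootInvG

set_option autoImplicit false
open Cfsg

namespace Cfsg.Agent.S5049

section
variable {G : Type*} [Group G] {D : Set G}

theorem comm_core (hD : Cfsg.IsOddTranspositionSet D) {a e : G} (ha : a ∈ D) (he : e ∈ D) (hae : Commute e a)
    {q : G} (hq : q ∈ Cfsg.pCore 2 G) : Commute e (q * a * q⁻¹) := by
  have hR := hD.1
  have h1 : q * a * q⁻¹ ∈ D := hR.conj_mem a ha q
  have h2 : (e * (q * a * q⁻¹)) ^ 2 ∈ Cfsg.pCore 2 G := by
    have hn : (Cfsg.pCore 2 G).Normal := inferInstance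
    rw [← QuotientGroup.eq_one_iff]
    have hq1 : (q : G ⧸ Cfsg.pCore 2 G) = 1 := (QuotientGroup.eq_one_iff q).2 hq
    rw [QuotientGroup.mk_pow, QuotientGroup.mk_mul, QuotientGroup.mk_mul, QuotientGroup.mk_mul, QuotientGroup.mk_inv, hq1]
    rw [inv_one, one_mul, mul_one, ← QuotientGroup.mk_mul, ← QuotientGroup.mk_pow,
      RootInvE.sq_of_commute hR he ha hae, QuotientGroup.mk_one]
  rcases RootInvE.tri hR he h1 with h | h | h
  · exact h
  · exfalso
    obtain ⟨k, hk⟩ := (Cfsg.Agent.Lib.Cores.isPGroup_pCore 2 G) ⟨_, h2⟩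
    have hk' : (e * (q * a * q⁻¹)) ^ (2 * 2 ^ k) = 1 := by
      rw [pow_mul]; simpa using congrArg Subtype.val hk
    have hdvd := orderOf_dvd_of_pow_eq_one hk'
    rw [← pow_succ'] at hdvd
    have hcop : (orderOf (e * (q * a * q⁻¹))).Coprime (2 ^ (k + 1)) := (Nat.coprime_two_right.2 h.2).pow_right _
    have := Nat.Coprime.eq_one_of_dvd hcop hdvd
    rw [orderOf_eq_one_iff] at this
    exact h.1 (by rw [← RootInvE.inv_eq hR h1]; exact eq_inv_of_mul_eq_one_left this)
  · exact absurd h.1 (hD.2 e he _ h1)

end

/-- Let G be a finite group generated by a set D of odd transpositions (root involutions with no product of order 4), Q = O₂(G), and for a ∈ D let Q_a be the commutator subgroup of Q with a. Then every member of D commuting with a centralizes Q_a; and for b ∈ D with ab of odd order greater than 1, the centralizer of ab in Q is the intersection of the centralizers of a and b in Q. -/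
theorem result {G : Type*} [Group G] [Finite G] {D : Set G} (hD : Cfsg.IsOddTranspositionSet D) {a : G} (ha : a ∈ D) :
    (∀ e ∈ Cfsg.commutingMembers D a, ∀ q ∈ ⁅Cfsg.pCore 2 G, Subgroup.zpowers a⁆, e * q = q * e) ∧
    (∀ b ∈ Cfsg.oddPartners D a,
      Cfsg.pCore 2 G ⊓ Subgroup.centralizer {a * b} = Cfsg.pCore 2 G ⊓ Subgroup.centralizer {a} ⊓ Subgroup.centralizer {b}) := by
  have hR := hD.1
  refine ⟨?_, ?_⟩
  · intro e he q hq
    have hle : ⁅Cfsg.pCore 2 G, Subgroup.zpowers a⁆ ≤ Subgroup.centralizer {e} := by
      rw [Subgroup.commutator_le]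
      intro x hx z hz
      have hcase : z = 1 ∨ z = a := by
        obtain ⟨k, rfl⟩ := hz
        rcases Int.even_or_odd' k with ⟨m, rfl | rfl⟩
        · left; change a ^ (2 * m) = 1
          rw [zpow_mul, zpow_two, RootInvE.sq hR ha, one_zpow]
        · right; change a ^ (2 * m + 1) = a
          rw [zpow_add, zpow_mul, zpow_two, RootInvE.sq hR ha, one_zpow, one_mul, zpow_one]
      rw [Subgroup.mem_centralizer_singleton_iff]
      rcases hcase with rfl | rfl
      · rw [commutatorElement_one_right, one_mul, mul_one]
      · have h1 := comm_core hD ha he.1 he.2 hx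
        have h2 : Commute e (x * z * x⁻¹ * z⁻¹) := h1.mul_right (Commute.inv_right he.2)
        exact h2.symm.eq
    exact (Subgroup.mem_centralizer_singleton_iff.1 (hle hq)).symm
  · intro b hb
    obtain ⟨hbD, hne, hodd⟩ := hb
    apply le_antisymm
    · rintro q ⟨hqQ, hqc⟩
      have hqc' : q * (a * b) = a * b * q := Subgroup.mem_centralizer_singleton_iff.1 hqc
      have hpa : Commute a (q * a * q⁻¹) := comm_core hD ha ha (Commute.refl a) hqQ
      have hpb : Commute b (q * b * q⁻¹) := comm_core hD hbD hbD (Commute.refl b) hqQ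
      have haa : q * a * q⁻¹ ∈ D := hR.conj_mem a ha q
      have hbb : q * b * q⁻¹ ∈ D := hR.conj_mem b hbD q
      set a' := q * a * q⁻¹ with ha'
      set b' := q * b * q⁻¹ with hb'
      have h1 : a' * b' = a * b := by
        rw [ha', hb']
        calc q * a * q⁻¹ * (q * b * q⁻¹) = (q * (a * b)) * q⁻¹ := by group
          _ = _ := by rw [hqc']; group
      have h2 : a * a' = b * b' := by
        have : a * a' * b' = b := by rw [mul_assoc, h1, RootInvE.cancel_left (RootInvE.sq hR ha)]
        calc a * a' = a * a' * b' * b' := by rw [mul_assoc (a * a'), RootInvE.sq hR hbb, mul_one]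
          _ = _ := by rw [this]
      set r := a * a' with hr
      have hra : Commute r a := (Commute.refl a).mul_left hpa.symm
      have hrb : Commute r b := by rw [h2]; exact (Commute.refl b).mul_left hpb.symm
      have ha'r : a' * b = r * (a * b) := by
        have : a' = r * a := by rw [hr, hpa.eq, mul_assoc, RootInvE.sq hR ha, mul_one]
        rw [this, mul_assoc]
      have hr1 : r = 1 := by
        by_contra hr1
        have hrr : r * r = 1 := by
          calc r * r = a * (a' * a) * a' := by rw [hr]; group
            _ = a * (a * a') * a' := by rw [hpa.eq]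
            _ = 1 := by rw [RootInvE.cancel_left (RootInvE.sq hR ha), RootInvE.sq hR haa]
        have hor : orderOf r = 2 := orderOf_eq_prime (by rw [pow_two, hrr]) hr1
        have hc : Commute r (a * b) := hra.mul_right hrb
        have ho : orderOf (a' * b) = 2 * orderOf (a * b) := by
          rw [ha'r, hc.orderOf_mul_eq_mul_orderOf_of_coprime, hor]
          rw [hor]; exact Nat.coprime_two_left.2 hodd
        refine RootInvE.not_two_odd hR haa hbD hodd ?_ ho
        intro h
        exact hne (by rw [← RootInvE.inv_eq hR ha]; exact (inv_eq_of_mul_eq_one_right h).symm)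
      have hqa : q * a = a * q := by
        have : a' = a := by
          have h3 : a' = a⁻¹ := eq_inv_of_mul_eq_one_right hr1
          rw [h3, RootInvE.inv_eq hR ha]
        exact mul_inv_eq_iff_eq_mul.1 this
      have hqb : q * b = b * q := by
        have : b' = b := by
          have h3 : b' = b⁻¹ := eq_inv_of_mul_eq_one_right (by rw [← h2, hr1])
          rw [h3, RootInvE.inv_eq hR hbD]
        exact mul_inv_eq_iff_eq_mul.1 this
      exact ⟨⟨hqQ, Subgroup.mem_centralizer_singleton_iff.2 hqa⟩, Subgroup.mem_centralizer_singleton_iff.2 hqb⟩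
    · rintro q ⟨⟨hqQ, hqa⟩, hqb⟩
      refine ⟨hqQ, Subgroup.mem_centralizer_singleton_iff.2 ?_⟩
      have hqa := Subgroup.mem_centralizer_singleton_iff.1 hqa
      have hqb := Subgroup.mem_centralizer_singleton_iff.1 hqb
      calc q * (a * b) = (q * a) * b := by group
        _ = a * (q * b) := by rw [hqa]; group
        _ = _ := by rw [hqb]; group

end Cfsg.Agent.S5049
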