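import Cfsg.Statements.S5057

set_option autoImplicit false
open Cfsg

namespace Cfsg.Agent.S5057

set_option maxRecDepth 100000 in
theorem orders : ∀ g : Equiv.Perm (Fin 6), Equiv.Perm.sign g = 1 → g^2=1 ∨ g^3=1 ∨ g^4=1 ∨ g^5=1 := by
  decide +kernel

theorem ordersA (g : ↥(alternatingGroup (Fin 6))) : g^2=1 ∨ g^3=1 ∨ g^4=1 ∨ g^5=1 := by
  have h := orders g.1 (Equiv.Perm.mem_alternatingGroup.mp g.2)
  rcases h with h | h | h | h
  · exact Or.inl (Subtype.ext h)
  · exact Or.inr (Or.inl (Subtype.ext h))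
  · exact Or.inr (Or.inr (Or.inl (Subtype.ext h)))
  · exact Or.inr (Or.inr (Or.inr (Subtype.ext h)))

theorem order_dvd (g : ↥(alternatingGroup (Fin 6))) :
    orderOf g ∣ 2 ∨ orderOf g ∣ 3 ∨ orderOf g ∣ 4 ∨ orderOf g ∣ 5 := by
  rcases ordersA g with h | h | h | h
  · exact Or.inl (orderOf_dvd_of_pow_eq_one h)
  · exact Or.inr (Or.inl (orderOf_dvd_of_pow_eq_one h))
  · exact Or.inr (Or.inr (Or.inl (orderOf_dvd_of_pow_eq_one h)))
  · exact Or.inr (Or.inr (Or.inr (orderOf_dvd_of_pow_eq_one h)))

theorem order_le (g : ↥(alternatingGroup (Fin 6))) : orderOf g ≤ 5 := by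
  rcases order_dvd g with h | h | h | h
  all_goals have := Nat.le_of_dvd (by norm_num) h; omega

def a0 : Equiv.Perm (Fin 6) := Equiv.swap 0 1 * Equiv.swap 2 3

theorem a0_mem : a0 ∈ alternatingGroup (Fin 6) := by
  rw [Equiv.Perm.mem_alternatingGroup]; decide

theorem a0_order : orderOf a0 = 2 := by
  have : Fact (Nat.Prime 2) := ⟨Nat.prime_two⟩
  refine orderOf_eq_prime ?_ ?_
  · decide
  · decide

theorem type_of_inv (g : Equiv.Perm (Fin 6)) (hg : Equiv.Perm.sign g = 1) (h2 : orderOf g = 2) :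
    g.cycleType = Multiset.replicate 2 2 := by
  have hp : (orderOf g).Prime := by rw [h2]; exact Nat.prime_two
  obtain ⟨n, hn⟩ := Equiv.Perm.cycleType_prime_order hp
  rw [h2] at hn
  have hs := Equiv.Perm.sum_cycleType_le g
  rw [hn] at hs
  simp at hs
  have hs2 := Equiv.Perm.sign_of_cycleType g
  rw [hn, hg] at hs2
  simp at hs2
  have : n = 0 ∨ n = 1 ∨ n = 2 := by omega
  rcases this with rfl | rfl | rfl
  · exact absurd hs2 (by decide)
  · exact hn
  · exact absurd hs2 (by decide)

theorem conj_a0 (g : ↥(alternatingGroup (Fin 6))) (h2 : orderOf g = 2) :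
    ∃ h : ↥(alternatingGroup (Fin 6)), g = h * ⟨a0, a0_mem⟩ * h⁻¹ := by
  have h2' : orderOf g.1 = 2 := by rw [← h2]; exact Subgroup.orderOf_coe g
  have hg := type_of_inv g.1 (Equiv.Perm.mem_alternatingGroup.mp g.2) h2'
  have ha := type_of_inv a0 (Equiv.Perm.mem_alternatingGroup.mp a0_mem) a0_order
  have hc := Equiv.Perm.isConj_of_cycleType_eq (ha.trans hg.symm)
  obtain ⟨π, hπ⟩ := isConj_iff.mp hc
  rcases Int.units_eq_one_or (Equiv.Perm.sign π) with h1 | h1
  · refine ⟨⟨π, Equiv.Perm.mem_alternatingGroup.mpr h1⟩, ?_⟩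
    apply Subtype.ext
    exact hπ.symm
  · have hm : π * Equiv.swap 0 1 ∈ alternatingGroup (Fin 6) := by
      rw [Equiv.Perm.mem_alternatingGroup, map_mul, h1]
      decide
    refine ⟨⟨π * Equiv.swap 0 1, hm⟩, ?_⟩
    apply Subtype.ext
    have h3 : Equiv.swap (0 : Fin 6) 1 * a0 * (Equiv.swap (0 : Fin 6) 1)⁻¹ = a0 := by decide
    show g.1 = (π * Equiv.swap 0 1) * a0 * (π * Equiv.swap 0 1)⁻¹
    rw [mul_inv_rev, ← hπ]
    calc π * a0 * π⁻¹ = π * (Equiv.swap (0 : Fin 6) 1 * a0 * (Equiv.swap (0 : Fin 6) 1)⁻¹) * π⁻¹ := by rw [h3]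
      _ = _ := by group

/-- The involutions of the alternating group of degree 6 form a class of root involutions (a single conjugacy class of involutions generating the group, any two of which commute, have product of odd order, or have product of order 4 whose square is again an involution of the class), and the product of any two of them has order at most 5. -/
theorem result :
    Cfsg.IsRootInvolutionClass {g : ↥(alternatingGroup (Fin 6)) | orderOf g = 2} ∧
    ∀ d ∈ {g : ↥(alternatingGroup (Fin 6)) | orderOf g = 2}, ∀ e ∈ {g : ↥(alternatingGroup (Fin 6)) | orderOf g = 2},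
      orderOf (d * e) ≤ 5 := by
  have hconj : ∀ (d : ↥(alternatingGroup (Fin 6))) (g : ↥(alternatingGroup (Fin 6))), orderOf d = 2 → orderOf (g * d * g⁻¹) = 2 := by
    intro d g hd
    rw [← hd]
    exact orderOf_injective (MulAut.conj g).toMonoidHom (MulAut.conj g).injective d
  have hmem0 : orderOf (⟨a0, a0_mem⟩ : ↥(alternatingGroup (Fin 6))) = 2 := by
    rw [← a0_order]; exact (Subgroup.orderOf_coe (⟨a0, a0_mem⟩ : ↥(alternatingGroup (Fin 6)))).symm
  refine ⟨⟨⟨fun d hd => hd, ?_, ?_, ?_⟩, ⟨⟨a0, a0_mem⟩, hmem0⟩, ?_⟩, fun d _ e _ => order_le _⟩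
  · have hs : IsSimpleGroup (alternatingGroup (Fin 6)) := alternatingGroup.isSimpleGroup (by simp)
    have hn : (Subgroup.closure {g : ↥(alternatingGroup (Fin 6)) | orderOf g = 2}).Normal := by
      apply Subgroup.Normal.mk
      intro n hn g
      induction hn using Subgroup.closure_induction with
      | mem x hx => exact Subgroup.subset_closure (hconj x g hx)
      | one => simp
      | mul x y _ _ hx hy =>
        have : g * (x * y) * g⁻¹ = (g * x * g⁻¹) * (g * y * g⁻¹) := by group
        rw [this]; exact mul_mem hx hy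
      | inv x _ hx =>
        have : g * x⁻¹ * g⁻¹ = (g * x * g⁻¹)⁻¹ := by group
        rw [this]; exact inv_mem hx
    refine (hn.eq_bot_or_eq_top).resolve_left ?_
    intro hb
    have h1 : (⟨a0, a0_mem⟩ : ↥(alternatingGroup (Fin 6))) ∈ Subgroup.closure {g : ↥(alternatingGroup (Fin 6)) | orderOf g = 2} :=
      Subgroup.subset_closure hmem0
    rw [hb, Subgroup.mem_bot] at h1
    rw [h1] at hmem0
    simp at hmem0
  · intro d hd g
    exact hconj d g hd
  · intro a ha b hb
    have ha2 : a * a = 1 := by rw [← pow_two, ← (show orderOf a = 2 from ha)]; exact pow_orderOf_eq_one a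
    have hb2 : b * b = 1 := by rw [← pow_two, ← (show orderOf b = 2 from hb)]; exact pow_orderOf_eq_one b
    have hdvd := order_dvd (a * b)
    have hcomm : (a * b) * (a * b) = 1 → a * b = b * a := by
      intro h
      have h' : (a * b) = (a * b)⁻¹ := eq_inv_of_mul_eq_one_left h
      rw [h', mul_inv_rev, inv_eq_of_mul_eq_one_left hb2, inv_eq_of_mul_eq_one_left ha2]
    rcases hdvd with h | h | h | h
    · left
      apply hcomm
      rw [← pow_two]; exact orderOf_dvd_iff_pow_eq_one.mp h
    · right; left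
      exact Odd.of_dvd_nat (by decide) h
    · rcases (Nat.dvd_prime_pow Nat.prime_two (m := 2)).mp h with ⟨k, hk, hk2⟩
      have hk' : k = 0 ∨ k = 1 ∨ k = 2 := by omega
      rcases hk' with rfl | rfl | rfl
      · right; left; rw [hk2]; decide
      · left
        apply hcomm
        rw [← pow_two, ← pow_one 2, ← hk2]; exact pow_orderOf_eq_one _
      · right; right
        have h4 : orderOf (a * b) = 4 := by rw [hk2]; norm_num
        refine ⟨h4, ?_⟩
        show orderOf ((a * b) ^ 2) = 2
        rw [orderOf_pow, h4]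
        decide
    · right; left
      exact Odd.of_dvd_nat (by decide) h
  · intro a ha b hb
    obtain ⟨g, rfl⟩ := conj_a0 a ha
    obtain ⟨h, rfl⟩ := conj_a0 b hb
    refine ⟨h * g⁻¹, ?_⟩
    group

end Cfsg.Agent.S5057
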