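import Cfsg.Statements.S5059
import Cfsg.Agent.Lib.QuadPair
-- import your own Cfsg.Agent.* helpers here

set_option autoImplicit false
universe u
open Cfsg Cfsg.Agent.Lib.QuadPair

namespace Cfsg.Agent.S5059

/-- Let k be a field of characteristic not 2 with k not of order 3, M a finite-dimensional k-vector space and G ≤ GL(M) such that (G, M) is a quadratic pair (M irreducible for G, and G generated by its quadratically acting elements σ whose scalar family 1 + c(σ − 1), c ∈ k, lies in G). Write 𝒬_d for the quadratic elements of G of minimal commutator rank, E(σ) for the subgroup generated by the members of 𝒬_d with the same fixed space and commutator space as σ, and Σ for the set of these subgroups. Then for σ ∈ 𝒬_d the subgroup E(σ) consists exactly of those members together with the identity, it is abelian, and if k has prime characteristic p every element of E(σ) has order dividing p. -/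
theorem result {k : Type u} [Field k] (hk2 : ringChar k ≠ 2) (hk3 : Nat.card k ≠ 3)
    {M : Type u} [AddCommGroup M] [Module k M] [FiniteDimensional k M]
    {G : Subgroup (LinearMap.GeneralLinearGroup k M)} (hG : Cfsg.IsQuadraticPair G)
    {σ : LinearMap.GeneralLinearGroup k M} (hσ : σ ∈ Cfsg.minimalQuadraticElements G) :
    (Cfsg.sameActionSubgroup G σ : Set (LinearMap.GeneralLinearGroup k M)) = Cfsg.sameActionClass G σ ∪ {1} ∧
    IsMulCommutative ↥(Cfsg.sameActionSubgroup G σ) ∧
    (∀ p : ℕ, p.Prime → ringChar k = p → ∀ x ∈ Cfsg.sameActionSubgroup G σ, x ^ p = 1) := by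
  refine ⟨sameActionSubgroup_coe σ, ⟨⟨?_⟩⟩, ?_⟩
  · rintro ⟨x, hx⟩ ⟨y, hy⟩
    apply Subtype.ext
    apply Units.ext
    show (x : M →ₗ[k] M) * (y : M →ₗ[k] M) = (y : M →ₗ[k] M) * (x : M →ₗ[k] M)
    rcases mem_sameActionSubgroup_iff.mp hx with hx | rfl
    · rcases mem_sameActionSubgroup_iff.mp hy with hy | rfl
      · have h1 := hx.mul_zero hy
        have h2 := hy.mul_zero hx
        have e1 : (x : M →ₗ[k] M) * (y : M →ₗ[k] M) = ((x : M →ₗ[k] M) - 1) * ((y : M →ₗ[k] M) - 1) + (x : M →ₗ[k] M) + y - 1 := by noncomm_ring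
        have e2 : (y : M →ₗ[k] M) * (x : M →ₗ[k] M) = ((y : M →ₗ[k] M) - 1) * ((x : M →ₗ[k] M) - 1) + (x : M →ₗ[k] M) + y - 1 := by noncomm_ring
        rw [e1, e2, h1, h2]
      · simp
    · simp
  · intro p hp hch x hx
    rcases mem_sameActionSubgroup_iff.mp hx with hx | rfl
    · apply Units.ext
      have hsq := hx.mn.fam.sq
      have key : ∀ n : ℕ, (x : M →ₗ[k] M) ^ n = 1 + n • ((x : M →ₗ[k] M) - 1) := by
        intro n
        induction n with
        | zero => simp
        | succ n ih =>
          rw [pow_succ, ih, add_smul, one_smul]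
          have : (1 + n • ((x : M →ₗ[k] M) - 1)) * (x : M →ₗ[k] M) =
            1 + n • ((x : M →ₗ[k] M) - 1) + ((x : M →ₗ[k] M) - 1) + n • (((x : M →ₗ[k] M) - 1) * ((x : M →ₗ[k] M) - 1)) := by
            rw [← smul_mul_assoc]; noncomm_ring
          rw [this, hsq, smul_zero, add_zero, add_assoc]
      rw [Units.val_pow_eq_pow_val, key p]
      have hcast : (p : k) = 0 := by rw [← hch]; exact ringChar.Nat.cast_ringChar
      rw [← Nat.cast_smul_eq_nsmul k, hcast, zero_smul, add_zero]
      rfl
    · exact one_pow p

end Cfsg.Agent.S5059
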