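import Cfsg.Statements.S5060
import Cfsg.Agent.Lib.SL2Gen

set_option autoImplicit false
open Cfsg

namespace Cfsg.Agent.S5060

open Cfsg.Agent.Lib.SL2Ring Cfsg.Agent.Lib.SL2Gen


/-- Let k ⊆ K be fields with the characteristic of k not 2 and k not of order 3, and let α ∈ K be a non-zero element algebraic over k. Then the subgroup of SL₂(K) generated by the upper unitriangular matrices with entry c and the lower unitriangular matrices with entry cα, c ranging over k, is exactly the group of matrices of SL₂(K) with all entries in k(α). -/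
theorem result {k K : Type*} [Field k] [Field K] [Algebra k K] (hk2 : ringChar k ≠ 2) (hk3 : Nat.card k ≠ 3)
    (α : K) (hα : IsAlgebraic k α) (hα0 : α ≠ 0) :
    (Subgroup.closure ({g : Matrix.SpecialLinearGroup (Fin 2) K | ∃ c : k, (g : Matrix (Fin 2) (Fin 2) K) = !![1, algebraMap k K c; 0, 1]} ∪
        {g : Matrix.SpecialLinearGroup (Fin 2) K | ∃ c : k, (g : Matrix (Fin 2) (Fin 2) K) = !![1, 0; algebraMap k K c * α, 1]}) :
      Set (Matrix.SpecialLinearGroup (Fin 2) K)) =
    {g : Matrix.SpecialLinearGroup (Fin 2) K | ∀ i j : Fin 2, (g : Matrix (Fin 2) (Fin 2) K) i j ∈ IntermediateField.adjoin k ({α} : Set K)} := by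
  have h20 : (2 : k) ≠ 0 := by
    intro h
    apply hk2
    have h1 : ringChar k ∣ 2 := by
      rw [← CharP.cast_eq_zero_iff k (ringChar k)]
      exact_mod_cast h
    rcases (Nat.dvd_prime Nat.prime_two).1 h1 with h2 | h2
    · exfalso
      have := CharP.cast_eq_zero k (ringChar k)
      rw [h2, Nat.cast_one] at this
      exact one_ne_zero this
    · exact h2
  have hint : IsIntegral k α := hα.isIntegral
  let E := IntermediateField.adjoin k ({α} : Set K)
  have hαE : α ∈ E := IntermediateField.mem_adjoin_simple_self k α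
  let z : ↥E := ⟨α, hαE⟩
  have hz : z ≠ 0 := fun h => hα0 (congrArg Subtype.val h)
  have : FiniteDimensional k ↥E := IntermediateField.adjoin.finiteDimensional hint
  have hgen : Algebra.adjoin k {z} = ⊤ := by
    rw [eq_top_iff]
    rintro ⟨x, hx⟩ _
    have h1 : x ∈ (IntermediateField.adjoin k ({α} : Set K)).toSubalgebra := hx
    rw [IntermediateField.adjoin_simple_toSubalgebra_of_isAlgebraic hα,
      Algebra.adjoin_singleton_eq_range_aeval] at h1
    obtain ⟨f, hf⟩ := h1
    have h2 : (⟨x, hx⟩ : ↥E) = Polynomial.aeval z f := by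
      apply Subtype.ext
      have h3 : ((Polynomial.aeval z f : ↥E) : K) = Polynomial.aeval α f := by
        have := Polynomial.aeval_algHom_apply (IntermediateField.val E) z f
        exact this.symm
      rw [h3]; exact hf.symm
    rw [h2, Algebra.adjoin_singleton_eq_range_aeval]
    exact ⟨f, rfl⟩
  have htop := grp_eq_top h20 hk3 hz hgen
  let ι : ↥E →+* K := algebraMap ↥E K
  have hX : ∀ r : ↥E, ((Matrix.SpecialLinearGroup.map ι (X r) : Matrix.SpecialLinearGroup (Fin 2) K) :
      Matrix (Fin 2) (Fin 2) K) = !![1, (r : K); 0, 1] := by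
    intro r
    ext i j
    fin_cases i <;> fin_cases j <;> simp [X, ι] <;> rfl
  have hY : ∀ r : ↥E, ((Matrix.SpecialLinearGroup.map ι (Y r) : Matrix.SpecialLinearGroup (Fin 2) K) :
      Matrix (Fin 2) (Fin 2) K) = !![1, 0; (r : K), 1] := by
    intro r
    ext i j
    fin_cases i <;> fin_cases j <;> simp [Y, ι] <;> rfl
  apply Set.Subset.antisymm
  · intro g hg
    have hle : Subgroup.closure ({g : Matrix.SpecialLinearGroup (Fin 2) K | ∃ c : k, (g : Matrix (Fin 2) (Fin 2) K) = !![1, algebraMap k K c; 0, 1]} ∪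
        {g : Matrix.SpecialLinearGroup (Fin 2) K | ∃ c : k, (g : Matrix (Fin 2) (Fin 2) K) = !![1, 0; algebraMap k K c * α, 1]}) ≤
        (Matrix.SpecialLinearGroup.map ι : Matrix.SpecialLinearGroup (Fin 2) ↥E →*
          Matrix.SpecialLinearGroup (Fin 2) K).range := by
      rw [Subgroup.closure_le]
      rintro g (⟨c, hc⟩ | ⟨c, hc⟩)
      · refine ⟨X (algebraMap k ↥E c), ?_⟩
        apply Subtype.ext
        show ((Matrix.SpecialLinearGroup.map ι (X (algebraMap k ↥E c)) :
          Matrix.SpecialLinearGroup (Fin 2) K) : Matrix (Fin 2) (Fin 2) K) = _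
        rw [hX]; exact hc.symm
      · refine ⟨Y (algebraMap k ↥E c * z), ?_⟩
        apply Subtype.ext
        show ((Matrix.SpecialLinearGroup.map ι (Y (algebraMap k ↥E c * z)) :
          Matrix.SpecialLinearGroup (Fin 2) K) : Matrix (Fin 2) (Fin 2) K) = _
        rw [hY]; exact hc.symm
    obtain ⟨g', rfl⟩ := hle hg
    intro i j
    exact (g'.1 i j).2
  · intro g hg
    let g' : Matrix.SpecialLinearGroup (Fin 2) ↥E :=
      mk4 ⟨g.1 0 0, hg 0 0⟩ ⟨g.1 0 1, hg 0 1⟩ ⟨g.1 1 0, hg 1 0⟩ ⟨g.1 1 1, hg 1 1⟩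
        (Subtype.ext (det_eq g))
    have hg' : Matrix.SpecialLinearGroup.map ι g' = g := by
      apply sl_ext <;> rfl
    rw [← hg']
    have hle : (⊤ : Subgroup (Matrix.SpecialLinearGroup (Fin 2) ↥E)) ≤
        (Subgroup.closure ({g : Matrix.SpecialLinearGroup (Fin 2) K | ∃ c : k, (g : Matrix (Fin 2) (Fin 2) K) = !![1, algebraMap k K c; 0, 1]} ∪
        {g : Matrix.SpecialLinearGroup (Fin 2) K | ∃ c : k, (g : Matrix (Fin 2) (Fin 2) K) = !![1, 0; algebraMap k K c * α, 1]})).comap
          (Matrix.SpecialLinearGroup.map ι) := by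
      rw [← htop]
      unfold grp
      rw [Subgroup.closure_le]
      rintro _ (⟨c, rfl⟩ | ⟨c, rfl⟩)
      · apply Subgroup.subset_closure
        left
        exact ⟨c, hX _⟩
      · apply Subgroup.subset_closure
        right
        exact ⟨c, hY _⟩
    exact hle (Subgroup.mem_top g')

end Cfsg.Agent.S5060
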