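import Cfsg.Statements.S5061
import Cfsg.Agent.Lib.LinBaerSuzuki
-- import your own Cfsg.Agent.* helpers here

set_option autoImplicit false
open Cfsg

namespace Cfsg.Agent.S5061

/-- Let M be a finite-dimensional vector space over a field k, G ≤ GL(M), and 𝒲 a set of subgroups of G, invariant under conjugation by G, such that any two members of 𝒲 generate a subgroup acting unipotently on M (for some n all products of n endomorphisms g − 1 from it vanish). Then the subgroup generated by all members of 𝒲 acts unipotently on M and is normal in G. -/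
theorem result {k : Type*} [Field k] {M : Type*} [AddCommGroup M] [Module k M] [FiniteDimensional k M]
    {G : Subgroup (LinearMap.GeneralLinearGroup k M)} {W : Set (Subgroup (LinearMap.GeneralLinearGroup k M))} (hWG : ∀ A ∈ W, A ≤ G)
    (hWW : ∀ A ∈ W, ∀ B ∈ W, Cfsg.IsUnipotentOn (A ⊔ B)) (hWconj : ∀ A ∈ W, ∀ g ∈ G, Cfsg.conjBy A g ∈ W) :
    Cfsg.IsUnipotentOn (⨆ A ∈ W, A) ∧ ∀ g ∈ G, Cfsg.conjBy (⨆ A ∈ W, A) g = ⨆ A ∈ W, A := by
  refine ⟨Cfsg.Agent.Lib.LinBaerSuzuki.iSup_unipotent (fun A hA B hB a ha => hWconj B hB a (hWG A hA ha)) hWW, ?_⟩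
  have key : ∀ g ∈ G, Cfsg.conjBy (⨆ A ∈ W, A) g ≤ ⨆ A ∈ W, A := by
    intro g hg
    unfold Cfsg.conjBy
    rw [Subgroup.map_iSup]
    refine iSup_le fun A => ?_
    rw [Subgroup.map_iSup]
    refine iSup_le fun hA => ?_
    exact le_iSup₂_of_le (Cfsg.conjBy A g) (hWconj A hA g hg) le_rfl
  intro g hg
  apply le_antisymm (key g hg)
  have h1 := key g⁻¹ (G.inv_mem hg)
  have h2 : (⨆ A ∈ W, A) = Cfsg.conjBy (Cfsg.conjBy (⨆ A ∈ W, A) g⁻¹) g := by
    ext x
    constructor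
    · intro hx
      exact ⟨g⁻¹ * x * g⁻¹⁻¹, ⟨x, hx, rfl⟩, by simp [mul_assoc]⟩
    · rintro ⟨_, ⟨y, hy, rfl⟩, rfl⟩
      simpa [mul_assoc] using hy
  conv_lhs => rw [h2]
  exact Subgroup.map_mono h1

end Cfsg.Agent.S5061
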