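import Cfsg.Statements.S5066
import Cfsg.Agent.Lib.QuadPairD

set_option autoImplicit false
universe u
open Cfsg

namespace Cfsg.Agent.S5066

/-- Let k be a field of characteristic not 2 with k not of order 3, M a finite-dimensional k-vector space and G ≤ GL(M) such that (G, M) is a quadratic pair (M irreducible for G, and G generated by its quadratically acting elements σ whose scalar family 1 + c(σ − 1), c ∈ k, lies in G). Write 𝒬_d for the quadratic elements of G of minimal commutator rank, E(σ) for the subgroup generated by the members of 𝒬_d with the same fixed space and commutator space as σ, and Σ for the set of these subgroups. Let E, F ∈ Σ generate a subgroup that is nilpotent of class exactly two. Then D = ⁅E, F⁆ belongs to Σ, equals the subgroup generated by the commutators of e with F, and also of E with f, for every non-identity e ∈ E, f ∈ F, and ⟨E, F⟩ lies in U(D), the set of elements g of G normalizing D with (g − 1)M inside the fixed space of D, (g − 1) mapping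 that fixed space into the commutator space of D, and g acting trivially on the commutator space of D. -/
theorem result {k : Type u} [Field k] (hk2 : ringChar k ≠ 2) (hk3 : Nat.card k ≠ 3)
    {M : Type u} [AddCommGroup M] [Module k M] [FiniteDimensional k M]
    {G : Subgroup (LinearMap.GeneralLinearGroup k M)} (hG : Cfsg.IsQuadraticPair G)
    {E F : Subgroup (LinearMap.GeneralLinearGroup k M)} (hE : E ∈ Cfsg.quadraticRootSubgroups G) (hF : F ∈ Cfsg.quadraticRootSubgroups G)
    (h2 : ⁅E ⊔ F, E ⊔ F⁆ ≠ ⊥ ∧ ⁅⁅E ⊔ F, E ⊔ F⁆, E ⊔ F⁆ = ⊥) :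
    ⁅E, F⁆ ∈ Cfsg.quadraticRootSubgroups G ∧
    (∀ e ∈ E, e ≠ 1 → Subgroup.closure ((fun f : LinearMap.GeneralLinearGroup k M => e * f * e⁻¹ * f⁻¹) '' (F : Set (LinearMap.GeneralLinearGroup k M))) = ⁅E, F⁆) ∧
    (∀ f ∈ F, f ≠ 1 → Subgroup.closure ((fun e : LinearMap.GeneralLinearGroup k M => e * f * e⁻¹ * f⁻¹) '' (E : Set (LinearMap.GeneralLinearGroup k M))) = ⁅E, F⁆) ∧
    ((E ⊔ F : Subgroup (LinearMap.GeneralLinearGroup k M)) : Set (LinearMap.GeneralLinearGroup k M)) ⊆ Cfsg.quadraticUnipotentCore G ⁅E, F⁆ := by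
  have h20 : (2 : k) ≠ 0 := Ring.two_ne_zero hk2
  obtain ⟨σ, hσ, rfl⟩ := hE
  obtain ⟨τ, hτ, rfl⟩ := hF
  rw [Cfsg.Agent.Lib.QuadPair.mem_minimal_iff] at hσ hτ
  rcases Cfsg.Agent.Lib.QuadPairNil.trich h20 hk3 hσ hτ with hc | hc | ho
  · exfalso
    apply h2.1
    have h3 := Cfsg.Agent.Lib.QuadPairNil.comm_E hc
    rw [Cfsg.Agent.Lib.RankOneGrp.commutator_eq_bot_iff] at h3
    have h4 := (Cfsg.Agent.Lib.QuadPairD.comm_sup_le (A := Cfsg.sameActionSubgroup G σ)
      (B := Cfsg.sameActionSubgroup G τ) (D := ⊥)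
      (by intro d hd a _; rw [Subgroup.mem_bot] at hd; rw [hd]; simp)
      (by intro d hd a _; rw [Subgroup.mem_bot] at hd; rw [hd]; simp)
      (fun a ha a' ha' => Cfsg.Agent.Lib.RankOneGrp.commute_of_isMulCommutative
        (Cfsg.Agent.Lib.QuadPairR.E_comm σ) ha ha')
      (fun a ha a' ha' => Cfsg.Agent.Lib.RankOneGrp.commute_of_isMulCommutative
        (Cfsg.Agent.Lib.QuadPairR.E_comm τ) ha ha')
      (by intro a ha b hb; rw [Subgroup.mem_bot, h3 a ha b hb]; group)).1
    exact le_bot_iff.1 h4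
  · obtain ⟨m1, m2, m3, _, _, m6, _⟩ := Cfsg.Agent.Lib.QuadPairD.nc_main h20 hk3 hG.1 hσ hτ hc
    exact ⟨m1, m2, m3, m6⟩
  · exact (Cfsg.Agent.Lib.QuadPairD.opp_not_class_two h20 hk3 hσ hτ ho h2.2).elim

end Cfsg.Agent.S5066
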