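import Cfsg.Statements.S5067

set_option autoImplicit false
open Cfsg

namespace Cfsg.Agent.S5067

open scoped commutatorElement in
open Subgroup in
theorem aux {P : Type*} [Group P] [Group.IsNilpotent P]
    (hna : ¬ IsMulCommutative P) {E : Subgroup P} (hE : IsMulCommutative ↥E) :
    Group.nilpotencyClass ↥(Subgroup.normalClosure (E : Set P)) < Group.nilpotencyClass P := by
  have hEc : ∀ x ∈ E, ∀ y ∈ E, x * y = y * x := by
    intro x hx y hy
    have := hE.is_comm.comm (⟨x, hx⟩ : E) ⟨y, hy⟩
    exact congrArg Subtype.val this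
  have hc2 : 2 ≤ Group.nilpotencyClass P := by
    by_contra h
    have h1 : Group.nilpotencyClass P ≤ 1 := by omega
    exact hna (Group.IsNilpotent.nilpotencyClass_le_one_iff.mp h1)
  set γ : ℕ → Subgroup P := fun n => Subgroup.lowerCentralSeries (⊤ : Subgroup P) n with hγ
  have hγn : ∀ n, (γ n).Normal := fun n => by simp only [hγ]; infer_instance
  set K : Subgroup P := E ⊔ γ 1 with hK
  have := hγn 1
  have := hγn 2
  have hKn : K.Normal := by
    refine ⟨fun x hx g => ?_⟩
    have h1 : ⁅g, x⁆ ∈ γ 1 := commutator_mem_commutator (mem_top g) (mem_top x)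
    have h2 : g * x * g⁻¹ = ⁅g, x⁆ * x := by simp [commutatorElement_def]
    rw [h2]
    exact K.mul_mem ((le_sup_right : γ 1 ≤ K) h1) hx
  have hNK : normalClosure (E : Set P) ≤ K := normalClosure_le_normal (le_sup_left (a := E) (b := γ 1))
  have hcent : ∀ c ∈ γ 1, ∀ g : P, (QuotientGroup.mk' (γ 2)) (c * g) = (QuotientGroup.mk' (γ 2)) (g * c) := by
    intro c hc g
    have h1 : ⁅c, g⁆ ∈ γ 2 := commutator_mem_commutator hc (mem_top g)
    have h2 : c * g = ⁅c, g⁆ * (g * c) := by simp [commutatorElement_def, mul_assoc]
    have h3 : (QuotientGroup.mk' (γ 2)) ⁅c, g⁆ = 1 := (QuotientGroup.eq_one_iff _).mpr h1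
    conv_lhs => rw [h2]
    rw [map_mul, h3, one_mul]
  have hKK : ⁅K, K⁆ ≤ γ 2 := by
    rw [commutator_le]
    intro x hx y hy
    obtain ⟨e, he, c, hc, rfl⟩ := mem_sup_of_normal_right.mp hx
    obtain ⟨f, hf, d, hd, rfl⟩ := mem_sup_of_normal_right.mp hy
    have hcc := hcent c hc
    have hdd := hcent d hd
    rw [← QuotientGroup.ker_mk' (γ 2), MonoidHom.mem_ker]
    have hef := congrArg (QuotientGroup.mk' (γ 2)) (hEc e he f hf)
    have h1 := hcc f
    have h2 := hcc d
    have h3 := hdd e
    have h4 := hcc e
    rw [map_commutatorElement, commutatorElement_eq_one_iff_mul_comm, map_mul, map_mul]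
    simp only [map_mul] at h1 h2 h3 h4 hef
    generalize (QuotientGroup.mk' (γ 2)) e = e' at *
    generalize (QuotientGroup.mk' (γ 2)) c = c' at *
    generalize (QuotientGroup.mk' (γ 2)) f = f' at *
    generalize (QuotientGroup.mk' (γ 2)) d = d' at *
    have hc1 : Commute c' f' := h1
    have hc2 : Commute c' d' := h2
    have hc3 : Commute d' e' := h3
    have hc4 : Commute e' f' := hef
    have : Commute (e' * c') (f' * d') := (hc4.mul_right hc3.symm).mul_left (hc1.mul_right hc2)
    exact this
  have hlcs : ∀ n, Subgroup.lowerCentralSeries K (n + 1) ≤ γ (n + 2) := by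
    intro n
    induction n with
    | zero => exact hKK
    | succ n ih => exact commutator_mono ih le_top
  have hfin : Subgroup.lowerCentralSeries (normalClosure (E : Set P)) (Group.nilpotencyClass P - 1) = ⊥ := by
    rw [eq_bot_iff, ← Subgroup.lowerCentralSeries_nilpotencyClass (G := P)]
    refine (Subgroup.lowerCentralSeries_mono _ hNK).trans ?_
    have := hlcs (Group.nilpotencyClass P - 2)
    rw [show Group.nilpotencyClass P - 2 + 1 = Group.nilpotencyClass P - 1 by omega,
      show Group.nilpotencyClass P - 2 + 2 = Group.nilpotencyClass P by omega] at this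
    exact this
  have : Group.nilpotencyClass ↥(Subgroup.normalClosure (E : Set P)) ≤ Group.nilpotencyClass P - 1 := by
    rw [← Subgroup.lowerCentralSeries_eq_bot_iff_nilpotencyClass_le, ← map_subtype_inj, Subgroup.map_bot, top_subtype_lowerCentralSeries]
    exact hfin
  omega

/-- Let P be a non-abelian nilpotent p-group (every element of p-power order; P possibly infinite) generated by two abelian subgroups E and F. Then the normal closure of E in P, and likewise that of F, has nilpotency class strictly smaller than that of P. -/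
theorem result {P : Type*} [Group P] {p : ℕ} [Fact p.Prime] (hP : IsPGroup p P) [Group.IsNilpotent P]
    (hna : ¬ IsMulCommutative P) {E F : Subgroup P} (hE : IsMulCommutative ↥E) (hF : IsMulCommutative ↥F) (hgen : E ⊔ F = ⊤) :
    Group.nilpotencyClass ↥(Subgroup.normalClosure (E : Set P)) < Group.nilpotencyClass P ∧
    Group.nilpotencyClass ↥(Subgroup.normalClosure (F : Set P)) < Group.nilpotencyClass P :=
  ⟨aux hna hE, aux hna hF⟩

end Cfsg.Agent.S5067
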