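import Cfsg.Statements.S5069
import Cfsg.Agent.Lib.QuadPairI

set_option autoImplicit false
universe u
open Cfsg

namespace Cfsg.Agent.S5069

open Cfsg.Agent.Lib.QuadPairI Cfsg.Agent.Lib.QuadPairF Cfsg.Agent.Lib.RootComp


/-- Let k be a field of characteristic not 2 with k not of order 3, M a finite-dimensional k-vector space and G ≤ GL(M) such that (G, M) is a quadratic pair (M irreducible for G, and G generated by its quadratically acting elements σ whose scalar family 1 + c(σ − 1), c ∈ k, lies in G). Write 𝒬_d for the quadratic elements of G of minimal commutator rank, E(σ) for the subgroup generated by the members of 𝒬_d with the same fixed space and commutator space as σ, and Σ for the set of these subgroups. Then Σ is a disjoint union of finitely many parts Σ₁, …, Σ_r such that the subgroups G_i generated by the Σ_i commute pairwise, each G_i is quasisimple, and inside G_i the members of Σ_i form a class of abstract root subgroups in which every rank one pair A, B contains subgroups A₀ ≤ A, B₀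 ≤ B generating an image of SL₂(k₁) with central kernel on unitriangular subgroups for some field k₁ with at least four elements. -/
theorem result {k : Type u} [Field k] (hk2 : ringChar k ≠ 2) (hk3 : Nat.card k ≠ 3)
    {M : Type u} [AddCommGroup M] [Module k M] [FiniteDimensional k M]
    {G : Subgroup (LinearMap.GeneralLinearGroup k M)} (hG : Cfsg.IsQuadraticPair G) :
    ∃ (r : ℕ) (part : Fin r → Set (Subgroup (LinearMap.GeneralLinearGroup k M))),
      (⋃ i, part i) = Cfsg.quadraticRootSubgroups G ∧ (∀ i j, i ≠ j → Disjoint (part i) (part j)) ∧ (∀ i, (part i).Nonempty) ∧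
      (∀ i j, i ≠ j → ⁅(⨆ A ∈ part i, A), (⨆ A ∈ part j, A)⁆ = ⊥) ∧
      (∀ i, Cfsg.IsQuasisimple ↥(⨆ A ∈ part i, A) ∧
        Cfsg.IsRootSubgroupClass ((fun A : Subgroup (LinearMap.GeneralLinearGroup k M) => A.subgroupOf (⨆ B ∈ part i, B)) '' (part i)) ∧
        ∀ A ∈ part i, ∀ B ∈ Cfsg.rankOnePartners (part i) A, ∃ A₀ B₀ : Subgroup (LinearMap.GeneralLinearGroup k M), A₀ ≤ A ∧ B₀ ≤ B ∧
          ∃ (k₁ : Type u) (_ : Field k₁), 3 < ENat.card k₁ ∧ Cfsg.IsPSL2PairOver k₁ A₀ B₀) := by
  have h20 : (2 : k) ≠ 0 := Ring.two_ne_zero hk2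
  obtain ⟨r, part, h1, h2, h3⟩ := main h20 hk3 hG
  refine ⟨r, part, ?_, ?_, ?_, ?_, ?_⟩
  · ext A
    rw [Set.mem_iUnion]
    constructor
    · rintro ⟨i, hi⟩
      have := Comps_eq (h1 i) hi
      rw [this] at hi
      exact hi.1
    · intro hA
      obtain ⟨i, hi⟩ := h3 _ ⟨A, hA, rfl⟩
      refine ⟨i, ?_⟩
      rw [hi]
      exact mem_comp_self hA
  · intro i j hij
    rw [Set.disjoint_left]
    intro A hA hA'
    exact hij (h2 (Comps_disj (h1 i) (h1 j) hA hA'))
  · intro i
    obtain ⟨A, hA, e⟩ := h1 i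
    rw [e]
    exact ⟨A, mem_comp_self hA⟩
  · intro i j hij
    exact Comps_comm' h20 hk3 hG (h1 i) (h1 j) (fun e => hij (h2 e))
  · intro i
    obtain ⟨A, hA, e⟩ := h1 i
    rw [e]
    refine ⟨comp_quasi h20 hk3 hG hA, ?_, ?_⟩
    · exact inner_class (comp_pre (preRoot h20 hk3 hG.1) (iso h20 hk3 hG)) ⟨A, mem_comp_self hA⟩ (comp_conn hA)
    · intro B hB C hC
      exact exists_psl' h20 hk3 hG.1 hB.1 hC.1.1 hC.2

end Cfsg.Agent.S5069
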