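import Cfsg.Statements.S5077
import Cfsg.Agent.Lib.FusionSat

set_option autoImplicit false
open Cfsg

namespace Cfsg.Agent.S5077

/-- A fusion system over a finite p-group S is saturated if and only if (Sylow axiom) every fully normalized subgroup is fully centralized and fully automized, and (extension axiom) every fully centralized subgroup is receptive. -/
theorem result {Ω : Type*} [Group Ω] {S : Subgroup Ω} [Finite S] (p : ℕ) [Fact p.Prime] (hS : IsPGroup p S) (F : Cfsg.FusionSystem S) : F.IsSaturated p ↔ ((∀ P : Subgroup Ω, F.IsFullyNormalized P → F.IsFullyCentralized P ∧ F.IsFullyAutomized p P) ∧ (∀ P : Subgroup Ω, F.IsFullyCentralized P → F.IsReceptive P)) := by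
  exact Cfsg.Agent.Lib.FusionSat.isSaturated_iff hS

end Cfsg.Agent.S5077
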