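import Cfsg.Statements.S5088
import Cfsg.Agent.Lib.FusionNormal

set_option autoImplicit false
open Cfsg

namespace Cfsg.Agent.S5088

open Cfsg.Agent.Lib.FusionBasic Cfsg.Agent.Lib.FusionSat Cfsg.Agent.Lib.FusionNormal in
theorem forward {Ω : Type*} [Group Ω] {S : Subgroup Ω} [Finite S] (p : ℕ) [Fact p.Prime] (hS : IsPGroup p S)
    (F : Cfsg.FusionSystem S) (Q : Subgroup Ω) (h : F.IsNormal Q) :
    ∃ (n : ℕ) (Qs : Fin (n + 1) → Subgroup Ω), Qs 0 = ⊥ ∧ Qs (Fin.last n) = Q ∧ Monotone Qs ∧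
      ∀ i : Fin n, F.StronglyClosed (Qs i.succ) ∧ ⁅Q, Qs i.succ⁆ ≤ Qs (Fin.castSucc i) := by
  have hQ := h.1
  have : Finite Q := finite_of_le hQ
  have hQp := isPGroup_of_le hS hQ
  have hnil := hQp.isNilpotent
  obtain ⟨n, hn⟩ := (Subgroup.isNilpotent_iff_lowerCentralSeries Q).1 hnil
  refine ⟨n, fun i => Q.lowerCentralSeries (n - i), ?_, ?_, ?_, ?_⟩
  · simp [hn]
  · simp [Fin.last]
  · intro i j hij
    apply Subgroup.lowerCentralSeries_antitone
    exact Nat.sub_le_sub_left hij n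
  · intro i
    have hle : Q.lowerCentralSeries (n - i.succ) ≤ Q :=
      (Subgroup.lowerCentralSeries_antitone Q (Nat.zero_le _)).trans_eq (Subgroup.lowerCentralSeries_zero Q)
    have hchar : ((Q.lowerCentralSeries (n - i.succ)).subgroupOf Q).Characteristic := by
      have h1 : (Q.lowerCentralSeries (n - i.succ)).subgroupOf Q =
          Subgroup.lowerCentralSeries (⊤ : Subgroup Q) (n - i.succ) := by
        rw [← Subgroup.top_subtype_lowerCentralSeries]
        ext x
        rw [Subgroup.mem_subgroupOf]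
        constructor
        · rintro ⟨y, hy, hyx⟩
          have : y = x := Subtype.ext hyx
          rwa [← this]
        · intro hx; exact ⟨x, hx, rfl⟩
      rw [h1]
      infer_instance
    refine ⟨isNormal_stronglyClosed (isNormal_of_characteristic h hle hchar), ?_⟩
    have hi : n - (i : ℕ) = (n - (i + 1 : ℕ)) + 1 := by omega
    show ⁅Q, Q.lowerCentralSeries (n - ((i.succ : Fin (n+1)) : ℕ))⁆ ≤
      Q.lowerCentralSeries (n - ((Fin.castSucc i : Fin (n+1)) : ℕ))
    rw [Fin.val_succ, Fin.val_castSucc, hi, Subgroup.commutator_comm]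
    exact le_rfl


/-- In a saturated fusion system over a finite p-group, a subgroup Q is normal in the system if and only if there is a chain of subgroups 1 = Q₀ ≤ Q₁ ≤ ⋯ ≤ Qₙ = Q such that each Qᵢ with i ≥ 1 is strongly closed in the system and [Q, Qᵢ] ≤ Qᵢ₋₁. -/
theorem result {Ω : Type*} [Group Ω] {S : Subgroup Ω} [Finite S] (p : ℕ) [Fact p.Prime] (hS : IsPGroup p S) (F : Cfsg.FusionSystem S) (hF : F.IsSaturated p) (Q : Subgroup Ω) : F.IsNormal Q ↔ ∃ (n : ℕ) (Qs : Fin (n + 1) → Subgroup Ω), Qs 0 = ⊥ ∧ Qs (Fin.last n) = Q ∧ Monotone Qs ∧ ∀ i : Fin n, F.StronglyClosed (Qs i.succ) ∧ ⁅Q, Qs i.succ⁆ ≤ Qs (Fin.castSucc i) := by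
  constructor
  · exact forward p hS F Q
  · rintro ⟨n, Qs, h0, hn, -, h⟩
    refine Cfsg.Agent.Lib.FusionNormal.isNormal_of_chain hS hF
      (fun i => if hi : i ≤ n then Qs ⟨i, Nat.lt_succ_of_le hi⟩ else ⊥) n ?_ ?_ ?_
    · simp only [Nat.zero_le, dif_pos]; exact h0
    · simp only [le_refl, dif_pos]; exact hn
    · intro i hi
      have h1 : i + 1 ≤ n := hi
      have h2 : i ≤ n := hi.le
      simp only [h1, h2, dif_pos]
      exact h ⟨i, hi⟩

end Cfsg.Agent.S5088
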