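import Cfsg.Statements.S5089
import Cfsg.Agent.Lib.FusionNormal

set_option autoImplicit false
open Cfsg

namespace Cfsg.Agent.S5089

/-- A saturated fusion system over a finite p-group has a nontrivial subgroup that is normal in the system (O_p(F) ≠ 1) if and only if some nontrivial abelian subgroup is strongly closed in the system. -/
theorem result {Ω : Type*} [Group Ω] {S : Subgroup Ω} [Finite S] (p : ℕ) [Fact p.Prime] (hS : IsPGroup p S) (F : Cfsg.FusionSystem S) (hF : F.IsSaturated p) : F.core ≠ ⊥ ↔ ∃ Q : Subgroup Ω, Q ≠ ⊥ ∧ IsMulCommutative Q ∧ F.StronglyClosed Q := by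
  constructor
  · intro h
    have h1 : ∃ Q : Subgroup Ω, F.IsNormal Q ∧ Q ≠ ⊥ := by
      by_contra hne
      apply h
      rw [eq_bot_iff]
      refine sSup_le fun Q hQ => ?_
      by_contra hQ'
      exact hne ⟨Q, hQ, fun hb => hQ' hb.le⟩
    obtain ⟨Q, hQ, hne⟩ := h1
    have hfin : Finite Q := Cfsg.Agent.Lib.FusionSat.finite_of_le hQ.1
    have hQp := Cfsg.Agent.Lib.FusionSat.isPGroup_of_le hS hQ.1
    have hnt : Nontrivial Q := (Subgroup.nontrivial_iff_ne_bot Q).2 hne
    have hc := hQp.center_nontrivial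
    have hz : ((Subgroup.center Q).map Q.subtype).subgroupOf Q = Subgroup.center Q := by
      ext x
      rw [Subgroup.mem_subgroupOf]
      constructor
      · rintro ⟨y, hy, hyx⟩
        have : y = x := Subtype.ext hyx
        rwa [← this]
      · intro hx; exact ⟨x, hx, rfl⟩
    refine ⟨(Subgroup.center Q).map Q.subtype, ?_, ?_, ?_⟩
    · intro hb
      rw [Subgroup.map_eq_bot_iff_of_injective _ Q.subtype_injective] at hb
      exact (Subgroup.nontrivial_iff_ne_bot _).1 hc hb
    · infer_instance
    · exact Cfsg.Agent.Lib.FusionNormal.isNormal_stronglyClosed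
        (Cfsg.Agent.Lib.FusionNormal.isNormal_of_characteristic hQ (Subgroup.map_subtype_le _)
          (by rw [hz]; infer_instance))
  · rintro ⟨Q, hne, hab, hQ⟩ hb
    apply hne
    have h1 : F.IsNormal Q := Cfsg.Agent.Lib.FusionNormal.isNormal_of_abelian_stronglyClosed hS hF hQ
      (fun x hx y hy => congrArg Subtype.val (hab.is_comm.comm (⟨x, hx⟩ : Q) ⟨y, hy⟩))
    rw [eq_bot_iff, ← hb]
    exact le_sSup h1

end Cfsg.Agent.S5089
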