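import Cfsg.Statements.S5091
import Cfsg.Agent.Lib.FusionModelUnique

set_option autoImplicit false
open Cfsg

namespace Cfsg.Agent.S5091

/-- Model Theorem, uniqueness: two models of a constrained saturated fusion system over a finite p-group S are isomorphic by an isomorphism compatible with the two embeddings of S. -/
theorem result {Ω : Type*} [Group Ω] {S : Subgroup Ω} [Finite S] (p : ℕ) [Fact p.Prime] (hS : IsPGroup p S) (F : Cfsg.FusionSystem S) (hF : F.IsConstrained p) {G₁ G₂ : Type*} [Group G₁] [Group G₂] (ι₁ : S →* G₁) (ι₂ : S →* G₂) (h₁ : F.IsModel p G₁ ι₁) (h₂ : F.IsModel p G₂ ι₂) : ∃ φ : G₁ ≃* G₂, ∀ x : S, φ (ι₁ x) = ι₂ x := by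
  have hc := Cfsg.Agent.Lib.FusionRealized.isCentric_core_of_isConstrained hF
  have hn := Cfsg.Agent.Lib.FusionJoin.isNormal_core F
  have e₁ := Cfsg.Agent.Lib.FusionRealized.im_core_eq h₁
  have e₂ := Cfsg.Agent.Lib.FusionRealized.im_core_eq h₂
  refine Cfsg.Agent.Lib.FusionModelUnique.exists_iso_of_normal_centric hS hF.1 hn hc h₁.2.1 h₂.2.1 ?_ ?_ ?_ ?_
  · rw [e₁]; exact Cfsg.pCore_normal _ _
  · rw [e₂]; exact Cfsg.pCore_normal _ _
  · rw [e₁]; exact h₁.2.2.2
  · rw [e₂]; exact h₂.2.2.2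

end Cfsg.Agent.S5091
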