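import Cfsg.Statements.S5095
import Cfsg.Agent.Lib.FusionCentricH85

set_option autoImplicit false
open Cfsg
open Cfsg.FusionSystem
open Cfsg.Agent.Lib.FusionBasic
open Cfsg.Agent.Lib.FusionSat
open Cfsg.Agent.Lib.FusionCentric

namespace Cfsg.Agent.S5095

/-- In a saturated fusion system over a finite p-group S: if Q ≤ P ≤ S with Q centric, and two maps of the system with source P agree on Q, then they differ by an inner automorphism of P induced by an element of the centre of Q. -/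
theorem result {Ω : Type*} [Group Ω] {S : Subgroup Ω} [Finite S] (p : ℕ) [Fact p.Prime] (hS : IsPGroup p S) (F : Cfsg.FusionSystem S) (hF : F.IsSaturated p) (P Q : Subgroup Ω) (hQP : Q ≤ P) (hQ : F.IsCentric Q) (φ φ' : P →* Ω) (hφ : φ ∈ F.Hom P) (hφ' : φ' ∈ F.Hom P) (h : ∀ x : P, (x : Ω) ∈ Q → φ x = φ' x) : ∃ z : P, (z : Ω) ∈ Q ∧ (z : Ω) ∈ Subgroup.centralizer (Q : Set Ω) ∧ ∀ y : P, φ' y = φ (z * y * z⁻¹) := by
  have h1 := fmap_toFun.2 hφ
  have h2 := fmap_toFun.2 hφ'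
  obtain ⟨z, hz, hzc, h3⟩ := eq_conj_of_agree hS hF hQP hQ h1 h2 (by
    intro x hx
    rw [toFun_of_mem φ (hQP hx), toFun_of_mem φ' (hQP hx)]
    exact h ⟨x, hQP hx⟩ hx)
  refine ⟨⟨z, hQP hz⟩, hz, hzc, fun y => ?_⟩
  have h4 := h3 y y.2
  rw [toFun_coe] at h4
  rw [h4]
  exact toFun_coe φ (⟨z, hQP hz⟩ * y * ⟨z, hQP hz⟩⁻¹)

end Cfsg.Agent.S5095
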