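import Cfsg.Statements.S5100
import Cfsg.Agent.Lib.FusionFactor
import Cfsg.Agent.Lib.SylCard

set_option autoImplicit false
open Cfsg
open Cfsg.FusionSystem
open Cfsg.Agent.Lib.FusionFactor
open Cfsg.Agent.Lib.SylCard

namespace Cfsg.Agent.S5100

/-- In the fusion system of a finite group G on a Sylow p-subgroup S, a subgroup P ≤ S is fully normalized if and only if N_S(P) is a Sylow p-subgroup of N_G(P). -/
theorem result {G : Type*} [Group G] [Finite G] (p : ℕ) [Fact p.Prime] (S : Sylow p G) (P : Subgroup G) (hP : P ≤ S) : (Cfsg.groupFusionSystem (S : Subgroup G)).IsFullyNormalized P ↔ ∃ R : Sylow p ↥(Subgroup.normalizer (P : Set G)), (R : Subgroup ↥(Subgroup.normalizer (P : Set G))) = (Cfsg.FusionSystem.normalizerIn (S : Subgroup G) P).subgroupOf (Subgroup.normalizer (P : Set G)) := by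
  have hNle : ∀ Q : Subgroup G, normalizerIn (S : Subgroup G) Q ≤ Subgroup.normalizer (Q : Set G) := fun Q => inf_le_right
  have hNp : ∀ Q : Subgroup G, IsPGroup p (normalizerIn (S : Subgroup G) Q) := fun Q => S.2.to_le inf_le_left
  rw [sylow_iff_card (hNle P) (hNp P)]
  constructor
  · rintro ⟨-, hfn⟩ K hKM hK
    have hKP : IsPGroup p (K ⊔ P : Subgroup G) := hK.to_sup_of_normal_right' (S.2.to_le hP) hKM
    obtain ⟨g, hg⟩ := exists_conj_mem_top S hKP
    have hgP : ∀ x : P, g * (x : G) * g⁻¹ ∈ (S : Subgroup G) := fun x => hg x (Subgroup.mem_sup_right x.2)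
    have hc : conjHom P g ∈ (groupFusionSystem (S : Subgroup G)).Hom P := ⟨hP, hgP, g, fun x => rfl⟩
    have hr : (conjHom P g).range = P.map (MulAut.conj g).toMonoidHom := by
      rw [conjHom, MonoidHom.range_comp, Subgroup.range_subtype]
    have h1 := hfn _ ⟨conjHom P g, hc, hr⟩
    refine le_trans ?_ h1
    rw [← card_map_conj g K]
    apply Subgroup.card_le_of_le
    rintro _ ⟨x, hx, rfl⟩
    refine ⟨hg x (Subgroup.mem_sup_left hx), ?_⟩
    show (MulAut.conj g).toMonoidHom x ∈ Subgroup.normalizer ((P.map (MulAut.conj g).toMonoidHom : Subgroup G) : Set G)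
    rw [mem_normalizer_map_conj]
    have : g⁻¹ * ((MulAut.conj g).toMonoidHom x) * g = x := by simp [mul_assoc]
    rw [this]
    exact hKM hx
  · intro h
    refine ⟨hP, ?_⟩
    rintro Q ⟨φ, ⟨-, hφS, g, hg⟩, rfl⟩
    have hr : φ.range = P.map (MulAut.conj g).toMonoidHom := by
      ext y
      constructor
      · rintro ⟨x, rfl⟩
        exact ⟨x, x.2, (hg x).symm⟩
      · rintro ⟨x, hx, rfl⟩
        exact ⟨⟨x, hx⟩, hg ⟨x, hx⟩⟩
    rw [hr]
    have h1 : Nat.card ((normalizerIn (S : Subgroup G) (P.map (MulAut.conj g).toMonoidHom)).map (MulAut.conj g⁻¹).toMonoidHom)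
        ≤ Nat.card (normalizerIn (S : Subgroup G) P) := by
      apply h
      · rintro _ ⟨x, hx, rfl⟩
        have h2 := (mem_normalizer_map_conj.mp hx.2)
        simpa using h2
      · exact (hNp _).map _
    rwa [card_map_conj] at h1

end Cfsg.Agent.S5100
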