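import Cfsg.Statements.S5102
import Cfsg.Agent.Lib.FusionMini

set_option autoImplicit false
open Cfsg
open Cfsg.Agent.Lib.FusionMini

namespace Cfsg.Agent.S5102

/-- A normal p-subgroup of a finite group G is normal in the fusion system of G on a Sylow p-subgroup. -/
theorem result {G : Type*} [Group G] [Finite G] (p : ℕ) [Fact p.Prime] (S : Sylow p G) (R : Subgroup G) [R.Normal] (hR : IsPGroup p R) : (Cfsg.groupFusionSystem (S : Subgroup G)).IsNormal R := by
  have hRS : R ≤ S := hR.le_sylow_of_normal S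
  refine ⟨hRS, ?_⟩
  rintro P φ ⟨hP, hφS, g, hg⟩
  refine ⟨conjHom (P ⊔ R) g, ⟨sup_le hP hRS, ?_, g, fun x => rfl⟩, fun x => (hg x).symm, ?_⟩
  · have h1 : P ⊔ R ≤ (S : Subgroup G).comap (MulAut.conj g).toMonoidHom := by
      refine sup_le (fun x hx => ?_) (fun x hx => ?_)
      · have h2 := hφS ⟨x, hx⟩
        rw [hg] at h2
        exact h2
      · exact hRS ((inferInstance : R.Normal).conj_mem x hx g)
    intro x
    exact h1 x.2
  · ext y
    constructor
    · rintro ⟨x, hx, rfl⟩
      exact (inferInstance : R.Normal).conj_mem _ hx g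
    · intro hy
      have h1 : g⁻¹ * y * g ∈ R := by
        have := Subgroup.Normal.conj_mem (inferInstance : R.Normal) y hy g⁻¹
        simpa using this
      refine ⟨⟨g⁻¹ * y * g, Subgroup.mem_sup_right h1⟩, h1, ?_⟩
      rw [conjHom_apply]
      simp [mul_assoc]

end Cfsg.Agent.S5102
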