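import Cfsg.Statements.S5103
import Cfsg.Agent.Lib.FusionSat
import Cfsg.Agent.Lib.FusionGroup
import Cfsg.Agent.Lib.LocBase

set_option autoImplicit false
open Cfsg
open Cfsg.FusionSystem
open Cfsg.Agent.Lib.FusionBasic
open Cfsg.Agent.Lib.FusionSat
open Cfsg.Agent.Lib.LocBase

namespace Cfsg.Agent.S5103

/-- A fusion system over a finite p-group that has a model (a finite group realizing it on a Sylow p-subgroup with self-centralizing largest normal p-subgroup) is constrained. -/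
theorem result {Ω : Type*} [Group Ω] {S : Subgroup Ω} [Finite S] (p : ℕ) [Fact p.Prime] (hS : IsPGroup p S) (F : Cfsg.FusionSystem S) {G : Type*} [Group G] (ι : S →* G) (hG : F.IsModel p G ι) : F.IsConstrained p := by
  obtain ⟨hfin, hreal, ⟨T, hT⟩, hcent⟩ := hG
  refine ⟨Cfsg.Agent.Lib.FusionGroup.isSaturated_of_isRealizedBy ι hreal T hT, ?_⟩
  set O : Subgroup G := pCore p G with hO
  have hOn : O.Normal := by
    have := pCore_characteristic p G
    exact inferInstance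
  have hOT : O ≤ ι.range := by
    rw [← hT]
    exact (isPGroup_pCore p G).le_sylow_of_normal T
  set Q : Subgroup Ω := (O.comap ι).map S.subtype with hQdef
  have hQS : Q ≤ S := by
    rintro _ ⟨x, -, rfl⟩
    exact x.2
  have hQmem : ∀ x : S, (x : Ω) ∈ Q ↔ ι x ∈ O := by
    intro x
    constructor
    · rintro ⟨y, hy, hyx⟩
      have : y = x := Subtype.ext hyx
      rw [← this]
      exact hy
    · intro h
      exact ⟨x, h, rfl⟩
  have hfinQ : Finite Q := finite_of_le hQS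
  have hnormal : F.IsNormal Q := by
    refine ⟨hQS, fun P φ hφ => ?_⟩
    obtain ⟨hP, hφS⟩ := F.le_of_mem hφ
    obtain ⟨g, hg⟩ := (hreal.2 P hP φ hφS).mp hφ
    have hPQ : P ⊔ Q ≤ S := sup_le hP hQS
    have hval : ∀ x : ↥(P ⊔ Q), g * ι ⟨x, hPQ x.2⟩ * g⁻¹ ∈ ι.range := by
      have h1 : P ⊔ Q ≤ ((ι.range.comap (MulAut.conj g).toMonoidHom).comap ι).map S.subtype := by
        refine sup_le (fun x hx => ?_) (fun x hx => ?_)
        · refine ⟨⟨x, hP hx⟩, ?_, rfl⟩
          show g * ι ⟨x, hP hx⟩ * g⁻¹ ∈ ι.range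
          rw [← hg ⟨x, hx⟩]
          exact ⟨_, rfl⟩
        · refine ⟨⟨x, hQS hx⟩, ?_, rfl⟩
          show g * ι ⟨x, hQS hx⟩ * g⁻¹ ∈ ι.range
          exact hOT (hOn.conj_mem _ ((hQmem ⟨x, hQS hx⟩).mp hx) g)
      intro x
      obtain ⟨y, hy, hyx⟩ := h1 x.2
      have : y = ⟨(x : Ω), hPQ x.2⟩ := Subtype.ext hyx
      rw [← this]
      exact hy
    obtain ⟨ψ, hψ, hψS, hψg⟩ := Cfsg.Agent.Lib.FusionGroup.exists_map ι hreal hPQ g hval
    refine ⟨ψ, hψ, fun x => ?_, ?_⟩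
    · have h1 := hψg (Subgroup.inclusion le_sup_left x)
      have h2 := hg x
      have h3 := hreal.1 (h1.trans h2.symm)
      exact congrArg Subtype.val h3
    · have hle : (Q.subgroupOf (P ⊔ Q)).map ψ ≤ Q := by
        rintro _ ⟨x, hx, rfl⟩
        have h1 := hψg x
        apply (hQmem ⟨ψ x, hψS x⟩).mpr
        rw [h1]
        exact hOn.conj_mem _ ((hQmem ⟨x, hPQ x.2⟩).mp hx) g
      apply Subgroup.eq_of_le_of_card_ge hle
      have h1 : Nat.card ((Q.subgroupOf (P ⊔ Q)).map ψ) = Nat.card (Q.subgroupOf (P ⊔ Q)) :=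
        Subgroup.card_map_of_injective (F.injective_of_mem hψ)
      rw [h1]
      exact (Nat.card_congr (Subgroup.subgroupOfEquivOfLe (le_sup_right : Q ≤ P ⊔ Q)).toEquiv).ge
  refine ⟨Q, hnormal, hQS, ?_⟩
  rintro R ⟨φ, hφ, rfl⟩ x hx
  -- φ(Q) = Q
  have hrange : φ.range = Q := by
    obtain ⟨ψ, hψ, h1, h2⟩ := hnormal.2 Q φ hφ
    refine Eq.trans ?_ h2
    ext y
    constructor
    · rintro ⟨z, rfl⟩
      exact ⟨Subgroup.inclusion le_sup_left z, z.2, h1 z⟩
    · rintro ⟨z, hz, rfl⟩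
      exact ⟨⟨z, hz⟩, (h1 ⟨z, hz⟩).symm⟩
  rw [hrange] at hx ⊢
  have hxS : x ∈ S := hx.1
  have hxC := mem_centralizer_iff'.mp hx.2
  apply (hQmem ⟨x, hxS⟩).mpr
  apply hcent
  rw [Subgroup.mem_centralizer_iff]
  intro y hy
  obtain ⟨s, rfl⟩ := hOT hy
  have h1 := hxC s ((hQmem s).mpr hy)
  rw [← map_mul, ← map_mul]
  congr 1
  apply Subtype.ext
  show (s : Ω) * x = x * s
  have h2 := congrArg (fun z => z * x) h1
  simpa using h2.symm

end Cfsg.Agent.S5103
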