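import Cfsg.Statements.S5105
import Cfsg.Agent.Lib.LocBase

set_option autoImplicit false
open Cfsg
open Cfsg.FusionSystem
open Cfsg.Agent.Lib.LocBase

namespace Cfsg.Agent.S5105

/-- Model Theorem, rigidity: if G is a model of a constrained fusion system over a finite p-group S (through ι : S → G), then every automorphism of G fixing ι(S) elementwise is conjugation by ι(z) for some z in the centre of S. -/
theorem result {Ω : Type*} [Group Ω] {S : Subgroup Ω} [Finite S] (p : ℕ) [Fact p.Prime] (hS : IsPGroup p S) (F : Cfsg.FusionSystem S) (hF : F.IsConstrained p) {G : Type*} [Group G] (ι : S →* G) (hG : F.IsModel p G ι) (ψ : G ≃* G) (hψ : ∀ x : S, ψ (ι x) = ι x) : ∃ z : S, z ∈ Subgroup.center S ∧ ∀ g : G, ψ g = ι z * g * (ι z)⁻¹ := by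
  classical
  obtain ⟨hfin, ⟨hinj, hreal⟩, ⟨T, hT⟩, hcent⟩ := hG
  set Q : Subgroup G := pCore p G with hQdef
  have hQn : Q.Normal := by
    have := pCore_characteristic p G
    exact inferInstance
  have hQp : IsPGroup p Q := isPGroup_pCore p G
  have hQT : Q ≤ T := hQp.le_sylow_of_normal T
  have hψT : ∀ x ∈ (T : Subgroup G), ψ x = x := by
    intro x hx
    rw [hT] at hx
    obtain ⟨s, rfl⟩ := hx
    exact hψ s
  set Z : Subgroup G := Subgroup.centralizer (Q : Set G) with hZdef
  have hZn : Z.Normal := by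
    rw [hZdef]
    infer_instance
  have hZcomm : ∀ a b : Z, a * b = b * a := by
    intro a b
    apply Subtype.ext
    exact (Subgroup.mem_centralizer_iff.mp b.2 a (hcent a.2))
  -- the cocycle
  have hc : ∀ g : G, ψ g * g⁻¹ ∈ Z := by
    intro g
    rw [hZdef, Subgroup.mem_centralizer_iff]
    intro x hx
    have h1 : ψ (g⁻¹ * x * g) = g⁻¹ * x * g := by
      apply hψT
      apply hQT
      have := hQn.conj_mem x hx g⁻¹
      simpa using this
    have h2 : ψ x = x := hψT x (hQT hx)
    rw [map_mul, map_mul, map_inv, h2] at h1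
    have h3 : x * ψ g = ψ g * g⁻¹ * x * g := by
      have := congrArg (fun z => ψ g * z) h1
      simpa [mul_assoc] using this
    calc x * (ψ g * g⁻¹) = (x * ψ g) * g⁻¹ := by group
      _ = ψ g * g⁻¹ * x := by rw [h3]; group
  let instZ : CommGroup Z := { (inferInstance : Group Z) with mul_comm := hZcomm }
  have hpoly : Fintype (G ⧸ (T : Subgroup G)) := Fintype.ofFinite _
  let c : G → Z := fun g => ⟨ψ g * g⁻¹, hc g⟩
  have hcT : ∀ (g : G) (t : G), t ∈ (T : Subgroup G) → c (g * t) = c g := by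
    intro g t ht
    apply Subtype.ext
    show ψ (g * t) * (g * t)⁻¹ = ψ g * g⁻¹
    rw [map_mul, hψT t ht]
    group
  let cb : G ⧸ (T : Subgroup G) → Z := Quotient.lift c (by
    intro a b hab
    have h1 : a⁻¹ * b ∈ (T : Subgroup G) := QuotientGroup.leftRel_apply.mp hab
    have h2 := hcT a _ h1
    rw [mul_inv_cancel_left] at h2
    exact h2.symm)
  have hcb : ∀ g : G, cb (g : G ⧸ (T : Subgroup G)) = c g := fun g => rfl
  have hcoc : ∀ g h : G, c (g * h) = MulAut.conjNormal g (c h) * c g := by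
    intro g h
    apply Subtype.ext
    have h1 : ((MulAut.conjNormal g (c h) : Z) : G) = g * (ψ h * h⁻¹) * g⁻¹ := by
      rw [MulAut.conjNormal_apply]
    have h2 : ((c g : Z) : G) = ψ g * g⁻¹ := rfl
    show ψ (g * h) * (g * h)⁻¹ = ((MulAut.conjNormal g (c h) : Z) : G) * ((c g : Z) : G)
    have h3 : ((MulAut.conjNormal g (c h) : Z) : G) * ((c g : Z) : G) = ((c g : Z) : G) * ((MulAut.conjNormal g (c h) : Z) : G) :=
      congrArg Subtype.val (hZcomm (MulAut.conjNormal g (c h)) (c g))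
    rw [h3, h1, h2, map_mul]
    have h4 : ψ g * (ψ h * h⁻¹) * (ψ g)⁻¹ = g * (ψ h * h⁻¹) * g⁻¹ := by
      have h5 : ψ (g * (ψ h * h⁻¹) * g⁻¹) = g * (ψ h * h⁻¹) * g⁻¹ := by
        apply hψT
        apply hQT
        exact hcent (hZn.conj_mem _ (hc h) g)
      have h6 : ψ (ψ h * h⁻¹) = ψ h * h⁻¹ := hψT _ (hQT (hcent (hc h)))
      rw [map_mul, map_mul, h6, map_inv] at h5
      exact h5
    calc ψ g * ψ h * (g * h)⁻¹ = (ψ g * (ψ h * h⁻¹) * (ψ g)⁻¹) * (ψ g * g⁻¹) := by group
      _ = (g * (ψ h * h⁻¹) * g⁻¹) * (ψ g * g⁻¹) := by rw [h4]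
      _ = (ψ g * g⁻¹) * (g * (ψ h * h⁻¹) * g⁻¹) := by
        have := congrArg Subtype.val (hZcomm (MulAut.conjNormal g (c h)) (c g))
        rw [Subgroup.coe_mul, Subgroup.coe_mul, h1, h2] at this
        exact this
  -- average
  let z : Z := ∏ q : G ⧸ (T : Subgroup G), cb q
  let m : ℕ := Fintype.card (G ⧸ (T : Subgroup G))
  have hz : ∀ g : G, z = MulAut.conjNormal g z * (c g) ^ m := by
    intro g
    have h1 : z = ∏ q : G ⧸ (T : Subgroup G), cb (g • q) := by
      exact (Fintype.prod_equiv (MulAction.toPerm g) _ _ (fun q => rfl)).symm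
    have h2 : ∀ q : G ⧸ (T : Subgroup G), cb (g • q) = MulAut.conjNormal g (cb q) * c g := by
      intro q
      induction q using QuotientGroup.induction_on with
      | H h => exact hcoc g h
    have h3 : ∏ q : G ⧸ (T : Subgroup G), MulAut.conjNormal g (cb q) = MulAut.conjNormal g z :=
      (map_prod (MulAut.conjNormal g : MulAut Z).toMonoidHom cb Finset.univ).symm
    calc z = ∏ q : G ⧸ (T : Subgroup G), cb (g • q) := h1
      _ = ∏ q : G ⧸ (T : Subgroup G), (MulAut.conjNormal g (cb q) * c g) := Finset.prod_congr rfl (fun q _ => h2 q)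
      _ = (∏ q : G ⧸ (T : Subgroup G), MulAut.conjNormal g (cb q)) * (c g) ^ m := by
        rw [Finset.prod_mul_distrib, Finset.prod_const, Finset.card_univ]
      _ = MulAut.conjNormal g z * (c g) ^ m := by rw [h3]
  -- invert m
  have hmcop : Nat.Coprime (Nat.card Z) m := by
    have h1 : ¬ p ∣ (T : Subgroup G).index := T.not_dvd_index
    have h2 : m = (T : Subgroup G).index := by
      rw [Subgroup.index, Nat.card_eq_fintype_card]
    have h3 : IsPGroup p Z := hQp.to_le hcent
    obtain ⟨k, hk⟩ := IsPGroup.iff_card.mp h3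
    rw [hk, h2]
    exact (Nat.Coprime.pow_left k ((Nat.Prime.coprime_iff_not_dvd Fact.out).mpr h1))
  let w : Z := (powCoprime hmcop).symm z
  have hw : w ^ m = z := (powCoprime hmcop).apply_symm_apply z
  have hcw : ∀ g : G, c g = (MulAut.conjNormal g w)⁻¹ * w := by
    intro g
    apply (powCoprime hmcop).injective
    show (c g) ^ m = ((MulAut.conjNormal g w)⁻¹ * w) ^ m
    rw [mul_pow, inv_pow, ← map_pow, hw]
    rw [eq_inv_mul_iff_mul_eq]
    exact (hz g).symm
  have hψw : ∀ g : G, ψ g = (w : G) * g * (w : G)⁻¹ := by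
    intro g
    have h1 : ((c g : Z) : G) = ψ g * g⁻¹ := rfl
    have h2 : c g = w * (MulAut.conjNormal g w)⁻¹ := by rw [hcw g]; exact hZcomm _ _
    have h3 : ((c g : Z) : G) = (w : G) * (g * (w : G) * g⁻¹)⁻¹ := by
      rw [h2, Subgroup.coe_mul, Subgroup.coe_inv, MulAut.conjNormal_apply]
    rw [h1] at h3
    calc ψ g = (ψ g * g⁻¹) * g := by group
      _ = (w : G) * g * (w : G)⁻¹ := by rw [h3]; group
  obtain ⟨s, hs⟩ : (w : G) ∈ ι.range := by
    rw [← hT]
    exact hQT (hcent w.2)
  refine ⟨s, ?_, fun g => by rw [hs]; exact hψw g⟩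
  rw [Subgroup.mem_center_iff]
  intro x
  apply hinj
  have h1 := hψw (ι x)
  rw [hψ x, ← hs] at h1
  rw [map_mul, map_mul]
  rw [eq_mul_inv_iff_mul_eq] at h1
  exact h1


end Cfsg.Agent.S5105
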