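import Cfsg.Statements.S5107
import Cfsg.Agent.Lib.FusionNormal
import Cfsg.Agent.Lib.FusionGroup

set_option autoImplicit false
open Cfsg
open Cfsg.FusionSystem
open Cfsg.Agent.Lib.FusionBasic
open Cfsg.Agent.Lib.FusionSat
open Cfsg.Agent.Lib.FusionNormal
open scoped commutatorElement

namespace Cfsg.Agent.S5107

/-- If a Sylow p-subgroup S of a finite group G has nilpotency class at most two and its centre is strongly closed in S with respect to G, then every map of the fusion system of G on S is conjugation by an element of N_G(S), and S is the largest subgroup normal in that fusion system. -/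
theorem result {G : Type*} [Group G] [Finite G] (p : ℕ) [Fact p.Prime] (S : Sylow p G) (hcl : ⁅(S : Subgroup G), (S : Subgroup G)⁆ ≤ (S : Subgroup G) ⊓ Subgroup.centralizer ((S : Subgroup G) : Set G)) (hZ : Cfsg.IsStronglyClosed ((S : Subgroup G) ⊓ Subgroup.centralizer ((S : Subgroup G) : Set G)) (S : Subgroup G)) : (∀ (P : Subgroup G) (φ : P →* G), φ ∈ (Cfsg.groupFusionSystem (S : Subgroup G)).Hom P → ∃ g ∈ Subgroup.normalizer ((S : Subgroup G) : Set G), ∀ x : P, φ x = g * (x : G) * g⁻¹) ∧ (Cfsg.groupFusionSystem (S : Subgroup G)).core = S := by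
  have hS := S.isPGroup'
  have hF := Cfsg.Agent.Lib.FusionGroup.groupFusionSystem_isSaturated (p := p) S
  set F := Cfsg.groupFusionSystem (S : Subgroup G) with hFdef
  set Z := (S : Subgroup G) ⊓ Subgroup.centralizer ((S : Subgroup G) : Set G) with hZdef
  have hZ' : F.StronglyClosed Z := by
    rw [stronglyClosed_iff]
    refine ⟨inf_le_left, fun P f hP hf x hx => ?_⟩
    obtain ⟨h1, h2, g, h3⟩ := fmap_group_iff.1 hf
    rw [h3 x hx]
    have h4 := h2 x hx
    rw [h3 x hx] at h4
    exact hZ.2 x (hP hx) g h4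
  have hSc : F.StronglyClosed S := (stronglyClosed_iff F).2 ⟨le_rfl, fun P f _ hf x hx => hf.map_mem hx⟩
  have hSn : F.IsNormal S := by
    refine isNormal_of_chain hS hF (fun i => if i = 0 then ⊥ else if i = 1 then Z else S) 2 (by simp) (by simp) ?_
    intro i hi
    have : i = 0 ∨ i = 1 := by omega
    rcases this with rfl | rfl
    · refine ⟨hZ', ?_⟩
      show ⁅(S : Subgroup G), Z⁆ ≤ ⊥
      rw [Subgroup.commutator_le]
      intro x hx z hz
      rw [Subgroup.mem_bot, commutatorElement_def]
      have := Subgroup.mem_centralizer_iff.1 hz.2 x hx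
      rw [this]; group
    · exact ⟨hSc, hcl⟩
  refine ⟨fun P φ hφ => ?_, ?_⟩
  · obtain ⟨h0, h⟩ := (isNormal_iff F).1 hSn
    obtain ⟨g, hg, h1, h2⟩ := h P (toFun φ) (fmap_toFun.2 hφ)
    obtain ⟨-, -, k, h3⟩ := fmap_group_iff.1 h2.1
    have hPS := (F.le_of_mem hφ).1
    refine ⟨k, ?_, fun x => ?_⟩
    · have : Finite ((S : Subgroup G) : Set G) := inferInstance
      refine Subgroup.mem_normalizer_iff.2 fun y => ⟨fun hy => ?_, fun hy => ?_⟩
      · have := h2.mem hy
        rwa [h3 y hy] at this
      · obtain ⟨z, hz, hzy⟩ := h2.mem_iff.1 hy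
        rw [h3 z hz] at hzy
        have h4 : z = y := by
          have := mul_left_cancel (mul_right_cancel hzy)
          exact this
        rwa [← h4]
    · rw [← h3 x (hPS x.2), h1 x x.2, toFun_coe]
  · refine le_antisymm (sSup_le fun Q hQ => hQ.1) (le_sSup hSn)

end Cfsg.Agent.S5107
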