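import Cfsg.Statements.S5111
import Cfsg.Agent.Lib.FusionSat

set_option autoImplicit false
open Cfsg
open Cfsg.FusionSystem
open Cfsg.Agent.Lib.FusionBasic
open Cfsg.Agent.Lib.FusionSat

namespace Cfsg.Agent.S5111


/-- The Kessar-Stancu argument: if `S` is fully automized and fully normalized subgroups are receptive then fully
normalized subgroups are fully automized. -/
theorem automized_of_top {Ω : Type*} [Group Ω] {S : Subgroup Ω} {F : Cfsg.FusionSystem S} {p : ℕ} [Fact p.Prime]
    [Finite S] (hS : IsPGroup p S) (h1 : F.IsFullyAutomized p S) (h2 : ∀ P : Subgroup Ω, F.IsFullyNormalized P → F.IsReceptive P)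
    {P : Subgroup Ω} (hP : F.IsFullyNormalized P) : F.IsFullyAutomized p P := by
  obtain ⟨n, hn⟩ : ∃ n, n = Nat.card S - Nat.card P := ⟨_, rfl⟩
  induction n using Nat.strong_induction_on generalizing P with
  | _ n ih =>
    have hPS := hP.1
    have hfinP := finite_of_le hPS
    by_cases hPeq : P = S
    · rw [hPeq]; exact h1
    have hlt : P < S := lt_of_le_of_ne hPS hPeq
    have hN := lt_normalizerIn hS le_rfl hlt
    set N := normalizerIn S P with hNdef
    have hNS : N ≤ S := inf_le_left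
    have hfinN := finite_of_le hNS
    rw [isFullyAutomized_iff hS]
    refine ⟨hPS, fun hdvd => ?_⟩
    set A := F.autGroup P with hA
    set T0 : Subgroup A := (autInducedBy S P).subgroupOf A with hT0
    have hT0p : IsPGroup p T0 := by
      have h3 : IsPGroup p (autInducedBy S P) := isPGroup_autInducedBy hS le_rfl
      exact h3.comap_of_injective A.subtype A.subtype_injective
    -- a larger p-group
    obtain ⟨R, hR⟩ := hT0p.exists_le_sylow
    have hTR : T0 ≠ R := by
      intro h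
      apply R.not_dvd_index
      rw [← h]
      exact hdvd
    have hTRlt : T0 < R := lt_of_le_of_ne hR hTR
    -- normalizer condition in R
    obtain ⟨χ, hχR, hχT, hχn⟩ : ∃ χ : A, χ ∈ (R : Subgroup A) ∧ χ ∉ T0 ∧ ∀ t ∈ T0, χ * t * χ⁻¹ ∈ T0 := by
      have h3 := lt_normalizerIn (S := (R : Subgroup A)) (P := T0) (R := (R : Subgroup A)) R.isPGroup' le_rfl hTRlt
      obtain ⟨χ, hχ, hχT⟩ := SetLike.exists_of_lt h3
      refine ⟨χ, hχ.1, hχT, fun t ht => ?_⟩
      exact (Subgroup.mem_normalizer_iff.mp hχ.2 t).mp ht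
    -- χ as an untyped map
    obtain ⟨c, hc, hcχ⟩ := exists_fmap_of_aut hPS χ.2
    -- χ extends to N
    have htrans : ∀ t ∈ N, ∃ h ∈ S, ∀ x ∈ P, c (t * x * t⁻¹) = h * c x * h⁻¹ := by
      intro t ht
      have htA : conjAut P t ht.2 ∈ A := conjAut_mem_autGroup hPS ht.2 ht.1
      have h3 := hχn ⟨conjAut P t ht.2, htA⟩ (conjAut_mem_autInducedBy ht.2 ht.1)
      obtain ⟨h, hh, h4⟩ := mem_autInducedBy_iff.1 h3
      refine ⟨h, hh, fun x hx => ?_⟩
      have h5 := h4 (χ.1 ⟨x, hx⟩)
      have h6 : (((χ * ⟨conjAut P t ht.2, htA⟩ * χ⁻¹ : A) : MulAut P) (χ.1 ⟨x, hx⟩)) = χ.1 (conjAut P t ht.2 ⟨x, hx⟩) := by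
        show χ.1 (conjAut P t ht.2 ((χ.1)⁻¹ (χ.1 ⟨x, hx⟩))) = _
        rw [MulAut.inv_apply_self]
      have h7 : c (t * x * t⁻¹) = ((χ.1 (conjAut P t ht.2 ⟨x, hx⟩) : P) : Ω) := by
        rw [← hcχ]
        rfl
      rw [h7, ← h6, hcχ ⟨x, hx⟩]
      exact h5
    obtain ⟨g, hg, hgc⟩ := (isReceptive_iff.1 (h2 P hP)).2 P c hc N hN.le hNS (fun t ht => ⟨ht.2, htrans t ht⟩)
    have hgP : FIso F P P g := (hc.congr (fun x hx => (hgc x hx).symm))
    have hgN : ∀ x ∈ N, g x ∈ N := by
      intro t ht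
      refine mem_normalizerIn.mpr ⟨hg.map_mem ht, ?_⟩
      apply mem_normalizer_of_transport hgP ht.2
      intro x hx
      exact hg.map_conj ht (hN.le hx)
    have hgNN : FIso F N N g := hg.fiso_of_card hNS hgN le_rfl
    set β : MulAut N := hgNN.equiv with hβ
    have hβA : β ∈ F.autGroup N := hgNN.equiv_mem_autGroup
    have hβc : ∀ x : N, ((β x : N) : Ω) = g x := fun x => rfl
    have hβpow : ∀ (k : ℕ) (x : P), (((β ^ k) ⟨x, hN.le x.2⟩ : N) : Ω) = (((χ.1 ^ k) x : P) : Ω) := by
      intro k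
      induction k with
      | zero => intro x; rfl
      | succ k ihk =>
        intro x
        rw [pow_succ, pow_succ, MulAut.mul_apply, MulAut.mul_apply]
        have h3 : β ⟨x, hN.le x.2⟩ = ⟨((χ.1 x : P) : Ω), hN.le (χ.1 x).2⟩ := by
          apply Subtype.ext
          rw [hβc]
          show g x = _
          rw [hgc x x.2, hcχ]
        rw [h3]
        exact ihk (χ.1 x)
    -- replace β by a power which is a p-element and still restricts to χ
    obtain ⟨a, ha⟩ : ∃ a : ℕ, χ.1 ^ p ^ a = 1 := by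
      obtain ⟨a, ha⟩ := R.isPGroup' ⟨χ, hχR⟩
      refine ⟨a, ?_⟩
      have h3 : (χ : A) ^ p ^ a = 1 := congrArg Subtype.val ha
      exact congrArg Subtype.val h3
    have hfinA : Finite (MulAut N) := by
      have : Finite (N ≃ N) := inferInstance
      exact Finite.of_injective (fun e : MulAut N => e.toEquiv) (fun e e' h => MulEquiv.toEquiv_injective h)
    obtain ⟨k, b, hk1, hk2⟩ : ∃ k b : ℕ, χ.1 ^ k = χ.1 ∧ (β ^ k) ^ p ^ b = 1 := by
      have hop : 0 < orderOf β := orderOf_pos β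
      obtain ⟨b, m, hm, hbm⟩ := Nat.exists_eq_pow_mul_and_not_dvd hop.ne' p (Nat.Prime.one_lt Fact.out).ne'
      have hcop : Nat.Coprime (p ^ a) m := Nat.Coprime.pow_left a ((Nat.Prime.coprime_iff_not_dvd Fact.out).mpr hm)
      obtain ⟨k, hk1, hk2⟩ := Nat.chineseRemainder hcop 1 0
      refine ⟨k, b, ?_, ?_⟩
      · have h3 : χ.1 ^ k = χ.1 ^ 1 := by
          rw [pow_eq_pow_iff_modEq]
          exact hk1.of_dvd (orderOf_dvd_of_pow_eq_one ha)
        rw [h3, pow_one]
      · obtain ⟨q, hq⟩ := (Nat.modEq_zero_iff_dvd).mp hk2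
        rw [hq, ← pow_mul]
        have h3 : m * q * p ^ b = orderOf β * q := by rw [hbm]; ring
        rw [h3, pow_mul, pow_orderOf_eq_one, one_pow]
    -- a fully normalized conjugate of N
    obtain ⟨N', hNN', hN'⟩ := exists_fullyNormalized_conj F hNS
    obtain ⟨r, hr⟩ := isConj_iff_fiso.1 hNN'
    have hN'S := hN'.1
    have hcardN' : Nat.card N = Nat.card N' := hr.card_eq
    have hPN : Nat.card P < Nat.card N := by
      rcases (Subgroup.card_le_of_le hN.le).lt_or_eq with h | h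
      · exact h
      · exact absurd (Subgroup.eq_of_le_of_card_ge hN.le h.ge) hN.ne
    have hNScard : Nat.card N ≤ Nat.card S := Subgroup.card_le_of_le hNS
    have hfa : F.IsFullyAutomized p N' := ih _ (by omega) hN' rfl
    set κ : MulAut N' := hr.autEquiv (β ^ k) with hκ
    have hκA : κ ∈ F.autGroup N' := by
      rw [← hr.map_autGroup]
      exact ⟨β ^ k, Subgroup.pow_mem _ hβA k, rfl⟩
    have hK : IsPGroup p (Subgroup.zpowers κ) := by
      rw [IsPGroup.iff_orderOf]
      rintro ⟨x, hx⟩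
      have h2 : x ^ p ^ b = 1 := by
        obtain ⟨n, rfl⟩ := hx
        show (κ ^ n) ^ p ^ b = 1
        rw [← zpow_natCast, ← zpow_mul, mul_comm, zpow_mul, zpow_natCast, hκ, ← map_pow, hk2, map_one, one_zpow]
      have h3 : (⟨x, hx⟩ : Subgroup.zpowers κ) ^ p ^ b = 1 := Subtype.ext h2
      obtain ⟨m, -, hm⟩ := (Nat.dvd_prime_pow Fact.out).mp (orderOf_dvd_of_pow_eq_one h3)
      exact ⟨m, hm⟩
    obtain ⟨ξ, hξ, hξK⟩ := exists_conj_le_autInducedBy hfa (Subgroup.zpowers κ) (by
      rw [Subgroup.zpowers_le]; exact hκA) hK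
    obtain ⟨t, htS, ht⟩ := mem_autInducedBy_iff.1 (hξK κ (Subgroup.mem_zpowers κ))
    obtain ⟨e, he, heξ⟩ := exists_fmap_of_aut hN'S hξ
    have hre := hr.trans he
    have hkey : ∀ y : N, e (r ((β ^ k) y : N)) = t * e (r y) * t⁻¹ := by
      intro y
      have h2 := ht ⟨e (r y), hre.mem y.2⟩
      have h3 : (ξ⁻¹ : MulAut N') ⟨e (r y), hre.mem y.2⟩ = ⟨r y, hr.mem y.2⟩ := by
        rw [MulAut.inv_apply, MulEquiv.symm_apply_eq]
        apply Subtype.ext
        exact heξ ⟨r y, hr.mem y.2⟩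
      rw [MulAut.mul_apply, MulAut.mul_apply, h3] at h2
      have h4 : κ ⟨r y, hr.mem y.2⟩ = ⟨r ((β ^ k) y : N), hr.mem ((β ^ k) y).2⟩ := by
        apply Subtype.ext
        exact hr.autEquiv_coe (β ^ k) y
      rw [h4] at h2
      rw [← h2]
      exact heξ ⟨r ((β ^ k) y : N), hr.mem ((β ^ k) y).2⟩
    -- the image of P
    obtain ⟨P', hP'⟩ := (hre.1.restrict hN.le).exists_iso
    have hPP' : F.IsConj P P' := hP'.isConj
    -- t normalizes P'
    have htP' : t ∈ Subgroup.normalizer (P' : Set Ω) := by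
      have hbij : ∀ y : P, e (r (((χ.1 y : P) : Ω))) = t * e (r y) * t⁻¹ := by
        intro y
        have h3 := hkey ⟨y, hN.le y.2⟩
        rw [hβpow k y, hk1] at h3
        exact h3
      rw [Subgroup.mem_normalizer_iff]
      intro u
      constructor
      · intro hu
        obtain ⟨v, hv, rfl⟩ := (hP'.2 u).1 hu
        have h3 := hbij ⟨v, hv⟩
        show t * e (r v) * t⁻¹ ∈ P'
        rw [← h3]
        exact hP'.mem (χ.1 ⟨v, hv⟩).2
      · intro hu
        obtain ⟨v, hv, hvu⟩ := (hP'.2 _).1 hu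
        have h3 := hbij (χ.1.symm ⟨v, hv⟩)
        rw [MulEquiv.apply_symm_apply] at h3
        have h4 : e (r v) = t * u * t⁻¹ := hvu
        have h5 : u = e (r ((χ.1.symm ⟨v, hv⟩ : P) : Ω)) := by
          have h6 : t * u * t⁻¹ = t * e (r ((χ.1.symm ⟨v, hv⟩ : P) : Ω)) * t⁻¹ := by
            rw [← h4]; exact h3
          exact mul_left_cancel (mul_right_cancel h6)
        rw [h5]
        exact hP'.mem (χ.1.symm ⟨v, hv⟩).2
    -- N' = N_S(P')
    have hN'P' : N' = normalizerIn S P' := by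
      have hfin' : Finite (normalizerIn S P') := finite_of_le (normalizerIn_le S P')
      apply Subgroup.eq_of_le_of_card_ge
      · intro y hy
        obtain ⟨x, hx, rfl⟩ := (hre.2 y).1 hy
        refine mem_normalizerIn.mpr ⟨hre.1.map_mem hx, ?_⟩
        apply mem_normalizer_of_transport hP' hx.2
        intro z hz
        exact hre.1.map_conj hx (hN.le hz)
      · rw [← hcardN']
        exact hP.2 P' hPP'
    have htN' : t ∈ N' := by
      rw [hN'P']
      exact mem_normalizerIn.mpr ⟨htS, htP'⟩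
    obtain ⟨s, hs, hst⟩ := (hre.2 t).1 htN'
    -- so χ is conjugation by s
    apply hχT
    show χ.1 ∈ autInducedBy S P
    rw [mem_autInducedBy_iff]
    refine ⟨s, hNS hs, fun x => ?_⟩
    have h3 := hkey ⟨x, hN.le x.2⟩
    rw [hβpow k x, hk1] at h3
    have h4 : e (r s) = t := hst
    rw [← h4] at h3
    have h5 : e (r (s * (x : Ω) * s⁻¹)) = e (r s) * e (r x) * (e (r s))⁻¹ := hre.1.map_conj hs (hN.le x.2)
    exact hre.1.inj (hN.le (χ.1 x).2) (N.mul_mem (N.mul_mem hs (hN.le x.2)) (N.inv_mem hs)) (h3.trans h5.symm)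

/-- A fusion system over a finite p-group S is saturated if and only if the inner automorphisms of S form a Sylow p-subgroup of Aut_F(S) and every fully normalized subgroup of S is receptive. -/
theorem result {Ω : Type*} [Group Ω] {S : Subgroup Ω} [Finite S] (p : ℕ) [Fact p.Prime] (hS : IsPGroup p S) (F : Cfsg.FusionSystem S) : F.IsSaturated p ↔ (F.IsFullyAutomized p S ∧ ∀ P : Subgroup Ω, F.IsFullyNormalized P → F.IsReceptive P) := by
  constructor
  · intro hF
    exact ⟨fullyAutomized_of_fullyNormalized hS hF (isFullyNormalized_top F),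
      fun P hP => receptive_of_fullyNormalized hS hF hP⟩
  · rintro ⟨h1, h2⟩
    exact isSaturated_of_fullyNormalized (fun P hP => ⟨automized_of_top hS h1 h2 hP, h2 P hP⟩)

end Cfsg.Agent.S5111
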