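import Cfsg.Statements.S5112
import Cfsg.Agent.Lib.FusionMini
import Cfsg.Agent.Lib.AutTwoGroup

set_option autoImplicit false
open Cfsg
open Cfsg.FusionSystem
open Cfsg.Agent.Lib.FusionMini
open Cfsg.Agent.Lib.AutTwoGroup

namespace Cfsg.Agent.S5112

/-- If S is a dihedral or generalized quaternion 2-group of order at least 16, then in every saturated fusion system over S (at the prime 2) the automorphism group Aut_F(S) consists of the inner automorphisms of S. -/
theorem result {Ω : Type*} [Group Ω] {S : Subgroup Ω} [Finite S] (n : ℕ) (hn : 4 ≤ n) (hshape : Nonempty (S ≃* DihedralGroup (2 ^ (n - 1))) ∨ Nonempty (S ≃* QuaternionGroup (2 ^ (n - 2)))) (F : Cfsg.FusionSystem S) (hF : F.IsSaturated 2) : F.autGroup S = Cfsg.Inn S := by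
  have hA : IsPGroup 2 (MulAut S) := by
    rcases hshape with ⟨⟨e⟩⟩ | ⟨⟨e⟩⟩
    · exact aut_dihedral n (by omega) e
    · exact aut_quaternion n hn e
  -- S itself is fully automized
  obtain ⟨Q, ⟨φ, hφ, hφQ⟩, hQ, -⟩ := hF S le_rfl
  have hQS : Q = S := by
    have hle : Q ≤ S := by
      rw [← hφQ]
      rintro _ ⟨x, rfl⟩
      exact val_mem F hφ x
    apply Subgroup.eq_of_le_of_card_ge hle
    rw [← hφQ]
    exact (Nat.card_congr (MonoidHom.ofInjective (F.injective_of_mem hφ)).toEquiv).le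
  subst hQS
  obtain ⟨-, R, hR⟩ := hQ
  have htop : (R : Subgroup (F.autGroup Q)) = ⊤ := by
    have h1 : IsPGroup 2 (⊤ : Subgroup (F.autGroup Q)) :=
      ((hA.to_subgroup (F.autGroup Q))).to_subgroup ⊤
    exact (R.is_maximal' h1 le_top).symm
  rw [htop] at hR
  apply le_antisymm
  · have h1 : F.autGroup Q ≤ autInducedBy Q Q := Subgroup.subgroupOf_eq_top.mp hR.symm
    refine h1.trans ?_
    rw [autInducedBy, Subgroup.closure_le]
    rintro α ⟨g, hg, hα⟩
    refine ⟨⟨g, hg⟩, ?_⟩
    apply MulEquiv.ext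
    intro x
    apply Subtype.ext
    rw [hα x]
    rfl
  · rintro _ ⟨g, rfl⟩
    apply Subgroup.subset_closure
    exact F.conj_mem (le_refl Q) g.2

end Cfsg.Agent.S5112
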