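import Cfsg.Statements.S5119
import Cfsg.Agent.Lib.FusionFrat

set_option autoImplicit false
open Cfsg
open Cfsg.FusionSystem
open Cfsg.Agent.Lib.FusionBasic
open Cfsg.Agent.Lib.FusionSat
open Cfsg.Agent.Lib.FusionInvar
open Cfsg.Agent.Lib.FusionFrat

namespace Cfsg.Agent.S5119

/-- Let F be a saturated fusion system over a finite p-group S and E a subsystem of F over a subgroup T that is strongly closed in F. Then E is invariant in F (invariance under Aut_F(T) plus the Frattini condition) if and only if the strong invariance condition holds: for P ≤ Q ≤ T, every map φ of E from P into Q and every map ψ of F with source Q, the transported map ψ φ ψ⁻¹ on ψ(P) is a map of E. -/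
theorem result {Ω : Type*} [Group Ω] {S : Subgroup Ω} [Finite S] (p : ℕ) [Fact p.Prime] (hS : IsPGroup p S) (F : Cfsg.FusionSystem S) (hF : F.IsSaturated p) {T : Subgroup Ω} (E : Cfsg.FusionSystem T) (hE : E.IsSubsystemOf F) (hT : F.StronglyClosed T) : E.IsInvariantIn F ↔ ∀ (P Q : Subgroup Ω) (hPQ : P ≤ Q) (_ : Q ≤ T) (φ : P →* Ω) (_ : φ ∈ E.Hom P) (hφQ : ∀ x : P, φ x ∈ Q) (ψ : Q →* Ω) (_ : ψ ∈ F.Hom Q), ∃ χ ∈ E.Hom ((P.subgroupOf Q).map ψ), ∀ (x : P) (hx : ψ (Subgroup.inclusion hPQ x) ∈ (P.subgroupOf Q).map ψ), χ ⟨ψ (Subgroup.inclusion hPQ x), hx⟩ = ψ ⟨φ x, hφQ x⟩ := by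
  rw [isInvariantIn_iff]
  have key : StrongInv F E ↔ ∀ (P Q : Subgroup Ω) (hPQ : P ≤ Q) (_ : Q ≤ T) (φ : P →* Ω) (_ : φ ∈ E.Hom P)
      (hφQ : ∀ x : P, φ x ∈ Q) (ψ : Q →* Ω) (_ : ψ ∈ F.Hom Q), ∃ χ ∈ E.Hom ((P.subgroupOf Q).map ψ),
        ∀ (x : P) (hx : ψ (Subgroup.inclusion hPQ x) ∈ (P.subgroupOf Q).map ψ),
          χ ⟨ψ (Subgroup.inclusion hPQ x), hx⟩ = ψ ⟨φ x, hφQ x⟩ := by
    constructor
    · intro h P Q hPQ hQT φ hφ hφQ ψ hψ
      obtain ⟨k, hk, h1⟩ := h P Q ((P.subgroupOf Q).map ψ) (toFun φ) (toFun ψ) hPQ hQT (fmap_toFun.2 hφ)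
        (fun x hx => by rw [toFun_of_mem φ hx]; exact hφQ _) (fmap_toFun.2 hψ) (by
          intro y
          constructor
          · rintro ⟨x, hx, rfl⟩
            exact ⟨x, hx, toFun_coe ψ x⟩
          · rintro ⟨x, hx, rfl⟩
            exact ⟨⟨x, hPQ hx⟩, hx, (toFun_of_mem ψ (hPQ hx)).symm⟩)
      obtain ⟨χ, hχ, hχk⟩ := hk
      refine ⟨χ, hχ, fun x hx => ?_⟩
      rw [hχk]
      have h2 : ψ (Subgroup.inclusion hPQ x) = toFun ψ x := (toFun_of_mem ψ (hPQ x.2)).symm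
      show k (ψ (Subgroup.inclusion hPQ x)) = _
      rw [h2, h1 x x.2, toFun_coe φ, toFun_of_mem ψ (hφQ x)]
    · intro h P Q R f g hPQ hQT hf hfQ hg hR
      obtain ⟨φ, hφ, hφf⟩ := hf
      obtain ⟨ψ, hψ, hψg⟩ := hg
      obtain ⟨χ, hχ, h1⟩ := h P Q hPQ hQT φ hφ (fun x => by rw [hφf]; exact hfQ x x.2) ψ hψ
      have hR' : (P.subgroupOf Q).map ψ = R := by
        ext y
        rw [hR y]
        constructor
        · rintro ⟨x, hx, rfl⟩
          exact ⟨x, hx, (hψg x).symm⟩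
        · rintro ⟨x, hx, rfl⟩
          exact ⟨⟨x, hPQ hx⟩, hx, hψg _⟩
      subst hR'
      refine ⟨toFun χ, fmap_toFun.2 hχ, fun x hx => ?_⟩
      have hx1 : ψ (Subgroup.inclusion hPQ ⟨x, hx⟩) ∈ (P.subgroupOf Q).map ψ := ⟨⟨x, hPQ hx⟩, hx, rfl⟩
      have h2 := h1 ⟨x, hx⟩ hx1
      have h3 : g x = ψ (Subgroup.inclusion hPQ ⟨x, hx⟩) := (hψg ⟨x, hPQ hx⟩).symm
      rw [h3, toFun_of_mem χ hx1, h2, hψg]
      show g (φ ⟨x, hx⟩) = _
      rw [hφf]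
  rw [← key]
  exact ⟨fun h => Inv.strong h, fun h => h.inv hS hF hT hE⟩

end Cfsg.Agent.S5119
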