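import Cfsg.Statements.S5122
import Cfsg.Agent.Lib.FusionFactor
import Cfsg.Agent.Lib.SylCard

set_option autoImplicit false
open Cfsg
open Cfsg.FusionSystem
open Cfsg.Agent.Lib.FusionFactor
open Cfsg.Agent.Lib.SylCard

namespace Cfsg.Agent.S5122

/-- Let G be a finite group with Sylow p-subgroup S. Every subgroup P of S has a G-conjugate Q ≤ S such that N_S(Q) is a Sylow p-subgroup of N_G(Q); and for any Q ≤ S with that property, C_S(Q) is a Sylow p-subgroup of C_G(Q) and the automorphisms of Q induced by N_S(Q) form a Sylow p-subgroup of those induced by N_G(Q). -/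
theorem result {G : Type*} [Group G] [Finite G] (p : ℕ) [Fact p.Prime] (S : Sylow p G) : (∀ P : Subgroup G, P ≤ S → ∃ g : G, P.map (MulAut.conj g).toMonoidHom ≤ S ∧ (∃ R : Sylow p ↥(Subgroup.normalizer ((P.map (MulAut.conj g).toMonoidHom : Subgroup G) : Set G)), (R : Subgroup ↥(Subgroup.normalizer ((P.map (MulAut.conj g).toMonoidHom : Subgroup G) : Set G))) = (Cfsg.FusionSystem.normalizerIn (S : Subgroup G) (P.map (MulAut.conj g).toMonoidHom)).subgroupOf (Subgroup.normalizer ((P.map (MulAut.conj g).toMonoidHom : Subgroup G) : Set G)))) ∧ ∀ Q : Subgroup G, Q ≤ S → (∃ R : Sylow p ↥(Subgroup.normalizer (Q : Set G)), (R : Subgroup ↥(Subgroup.normalizer (Q : Set G))) = (Cfsg.FusionSystem.normalizerIn (S : Subgroup G) Q).subgroupOf (Subgroup.normalizer (Q : Set G))) → (∃ R : Sylow p ↥(Subgroup.centralizer (Q : Set G)), (R : Subgroup ↥(Subgroup.centralizer (Q : Set G))) = (Cfsg.FusionSystem.centralizerIn (S : Subgroup G) Q).subgroupOf (Subgroup.centralizer (Q : Set G))) ∧ (∃ R : Sylow p ↥(Cfsg.autInducedBy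 ⊤ Q), (R : Subgroup ↥(Cfsg.autInducedBy ⊤ Q)) = (Cfsg.autInducedBy (S : Subgroup G) Q).subgroupOf (Cfsg.autInducedBy ⊤ Q)) := by
  have hNle : ∀ Q : Subgroup G, normalizerIn (S : Subgroup G) Q ≤ Subgroup.normalizer (Q : Set G) := fun Q => inf_le_right
  have hNp : ∀ Q : Subgroup G, IsPGroup p (normalizerIn (S : Subgroup G) Q) := fun Q => S.2.to_le inf_le_left
  have hCle : ∀ Q : Subgroup G, centralizerIn (S : Subgroup G) Q ≤ Subgroup.centralizer (Q : Set G) := fun Q => inf_le_right
  have hCp : ∀ Q : Subgroup G, IsPGroup p (centralizerIn (S : Subgroup G) Q) := fun Q => S.2.to_le inf_le_left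
  refine ⟨fun P hP => ?_, fun Q hQS hQ => ⟨?_, ?_⟩⟩
  · -- take a Sylow subgroup of the normalizer and conjugate it into S
    obtain ⟨R⟩ : Nonempty (Sylow p (Subgroup.normalizer (P : Set G))) := inferInstance
    have hPR : IsPGroup p ((((R : Subgroup (Subgroup.normalizer (P : Set G))).map (Subgroup.normalizer (P : Set G)).subtype) ⊔ P : Subgroup G)) :=
      (R.2.map _).to_sup_of_normal_right' (S.2.to_le hP) (Subgroup.map_subtype_le _)
    obtain ⟨g, hg⟩ := exists_conj_mem_top S hPR
    have hQS : P.map (MulAut.conj g).toMonoidHom ≤ S := by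
      rintro _ ⟨x, hx, rfl⟩
      exact hg x (Subgroup.mem_sup_right hx)
    refine ⟨g, hQS, ?_⟩
    rw [sylow_iff_card (hNle _) (hNp _)]
    intro K hKM hK
    have h1 : Nat.card (K.map (MulAut.conj g⁻¹).toMonoidHom) ≤
        Nat.card ((R : Subgroup (Subgroup.normalizer (P : Set G))).map (Subgroup.normalizer (P : Set G)).subtype) := by
      refine (sylow_iff_card (Subgroup.map_subtype_le _) (R.2.map _)).mp ⟨R, ?_⟩ _ ?_ (hK.map _)
      · exact (Subgroup.comap_map_eq_self_of_injective (Subgroup.subtype_injective _) _).symm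
      · rintro _ ⟨x, hx, rfl⟩
        have h2 := mem_normalizer_map_conj.mp (hKM hx)
        simpa using h2
    rw [card_map_conj] at h1
    refine h1.trans ?_
    rw [← card_map_conj g]
    apply Subgroup.card_le_of_le
    rintro _ ⟨x, hx, rfl⟩
    refine ⟨hg x (Subgroup.mem_sup_left hx), ?_⟩
    show _ ∈ Subgroup.normalizer ((P.map (MulAut.conj g).toMonoidHom : Subgroup G) : Set G)
    rw [mem_normalizer_map_conj]
    have h3 : g⁻¹ * ((MulAut.conj g).toMonoidHom x) * g = x := by simp [mul_assoc]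
    rw [h3]
    exact Subgroup.map_subtype_le _ hx
  · rw [sylow_iff_card (hCle _) (hCp _)]
    intro K hKM hK
    obtain ⟨R, hR⟩ := hQ
    obtain ⟨u, hu, hconj⟩ := exists_conj_mem R (hKM.trans (Subgroup.centralizer_le_normalizer _)) hK
    rw [← card_map_conj u]
    apply Subgroup.card_le_of_le
    rintro _ ⟨x, hx, rfl⟩
    obtain ⟨h1, h2⟩ := hconj x hx
    rw [hR] at h2
    refine ⟨h2.1, ?_⟩
    show u * x * u⁻¹ ∈ Subgroup.centralizer (Q : Set G)
    have hu' := Subgroup.mem_normalizer_iff.mp hu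
    have hx' := Subgroup.mem_centralizer_iff.mp (hKM hx)
    rw [Subgroup.mem_centralizer_iff]
    intro q hq
    have hq' : u⁻¹ * q * u ∈ Q := by
      apply (hu' _).mpr
      simpa [mul_assoc] using hq
    have h3 := congrArg (fun z => u * z * u⁻¹) (hx' _ hq')
    simpa [mul_assoc] using h3
  · obtain ⟨R, hR⟩ := hQ
    have hmem : ∀ (K : Subgroup G) (α : MulAut Q), α ∈ autInducedBy K Q ↔ ∃ g ∈ K, ∀ x : Q, ((α x : Q) : G) = g * (x : G) * g⁻¹ := by
      intro K α
      constructor
      · intro h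
        refine Subgroup.closure_induction (p := fun α _ => ∃ g ∈ K, ∀ x : Q, ((α x : Q) : G) = g * (x : G) * g⁻¹) ?_ ?_ ?_ ?_ h
        · intro β hβ
          exact hβ
        · exact ⟨1, K.one_mem, fun x => by simp⟩
        · rintro β γ - - ⟨g, hg, hβ⟩ ⟨h, hh, hγ⟩
          refine ⟨g * h, K.mul_mem hg hh, fun x => ?_⟩
          show ((β (γ x) : Q) : G) = _
          rw [hβ, hγ]
          simp [mul_assoc]
        · rintro β - ⟨g, hg, hβ⟩
          refine ⟨g⁻¹, K.inv_mem hg, fun x => ?_⟩
          have h1 := hβ (β⁻¹ x)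
          have h2 : β (β⁻¹ x) = x := by
            rw [← MulAut.mul_apply]; simp
          rw [h2] at h1
          rw [h1]
          simp [mul_assoc]
      · intro h
        exact Subgroup.subset_closure h
    have hnorm : ∀ (α : MulAut Q) (g : G), (∀ x : Q, ((α x : Q) : G) = g * (x : G) * g⁻¹) → g ∈ Subgroup.normalizer (Q : Set G) := by
      intro α g h
      rw [Subgroup.mem_normalizer_iff]
      intro x
      constructor
      · intro hx
        have := h ⟨x, hx⟩
        simp only at this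
        rw [← this]
        exact (α ⟨x, hx⟩).2
      · intro hx
        have h1 := h (α.symm ⟨_, hx⟩)
        rw [MulEquiv.apply_symm_apply] at h1
        have h2 : x = (α.symm ⟨_, hx⟩ : Q) := by
          have h3 := congrArg (fun z => g⁻¹ * z * g) h1
          simpa [mul_assoc] using h3
        rw [h2]
        exact (α.symm ⟨_, hx⟩).2
    -- the surjection of N_G(Q) onto Aut_G(Q)
    let f0 : ↥(Subgroup.normalizer (Q : Set G)) →* MulAut Q := Subgroup.normalizerMonoidHom Q
    have hf0 : ∀ (g : ↥(Subgroup.normalizer (Q : Set G))) (x : Q), ((f0 g x : Q) : G) = (g : G) * (x : G) * (g : G)⁻¹ := fun g x => rfl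
    have hf0mem : ∀ g, f0 g ∈ autInducedBy ⊤ Q := fun g => (hmem ⊤ _).mpr ⟨g, trivial, hf0 g⟩
    let f : ↥(Subgroup.normalizer (Q : Set G)) →* ↥(autInducedBy ⊤ Q) := f0.codRestrict _ hf0mem
    have hfs : Function.Surjective f := by
      rintro ⟨α, hα⟩
      obtain ⟨g, -, hg⟩ := (hmem ⊤ α).mp hα
      refine ⟨⟨g, hnorm α g hg⟩, ?_⟩
      apply Subtype.ext
      apply MulEquiv.ext
      intro x
      apply Subtype.ext
      exact (hf0 _ x).trans (hg x).symm
    refine ⟨R.mapSurjective hfs, ?_⟩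
    rw [Sylow.coe_mapSurjective, hR]
    ext ⟨α, hα⟩
    constructor
    · rintro ⟨g, hg, hgα⟩
      rw [Subgroup.mem_subgroupOf, hmem]
      have hg' : (g : G) ∈ normalizerIn (S : Subgroup G) Q := hg
      refine ⟨g, hg'.1, fun x => ?_⟩
      have h1 : f0 g = α := congrArg Subtype.val hgα
      show ((α x : Q) : G) = _
      rw [← h1]
      exact hf0 g x
    · intro h
      rw [Subgroup.mem_subgroupOf, hmem] at h
      obtain ⟨g, hgS, hg⟩ := h
      have hgN := hnorm α g hg
      refine ⟨⟨g, hgN⟩, ?_, ?_⟩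
      · show g ∈ normalizerIn (S : Subgroup G) Q
        exact ⟨hgS, hgN⟩
      · apply Subtype.ext
        apply MulEquiv.ext
        intro x
        apply Subtype.ext
        exact (hf0 _ x).trans (hg x).symm

end Cfsg.Agent.S5122
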