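import Cfsg.Statements.S5123
import Cfsg.Agent.Lib.FusionFactor
import Cfsg.Agent.Lib.SylCard

set_option autoImplicit false
open Cfsg
open Cfsg.FusionSystem
open Cfsg.Agent.Lib.FusionFactor
open Cfsg.Agent.Lib.SylCard

namespace Cfsg.Agent.S5123

/-- Let G be a finite group with Sylow p-subgroup S, P, Q ≤ S and g ∈ G with gPg⁻¹ = Q, and suppose N_S(Q) is a Sylow p-subgroup of N_G(Q). Let N be the set of x ∈ N_S(P) with gxg⁻¹ ∈ N_S(Q)C_G(Q). Then some h ∈ C_G(Q) satisfies (hg)N(hg)⁻¹ ≤ S. -/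
theorem result {G : Type*} [Group G] [Finite G] (p : ℕ) [Fact p.Prime] (S : Sylow p G) (P Q : Subgroup G) (hP : P ≤ S) (hQ : Q ≤ S) (g : G) (hg : P.map (MulAut.conj g).toMonoidHom = Q) (hN : (∃ R : Sylow p ↥(Subgroup.normalizer (Q : Set G)), (R : Subgroup ↥(Subgroup.normalizer (Q : Set G))) = (Cfsg.FusionSystem.normalizerIn (S : Subgroup G) Q).subgroupOf (Subgroup.normalizer (Q : Set G)))) : ∃ h ∈ Subgroup.centralizer (Q : Set G), ((Cfsg.FusionSystem.normalizerIn (S : Subgroup G) P) ⊓ (Cfsg.FusionSystem.normalizerIn (S : Subgroup G) Q ⊔ Subgroup.centralizer (Q : Set G)).comap (MulAut.conj g).toMonoidHom).map (MulAut.conj (h * g)).toMonoidHom ≤ S := by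
  obtain ⟨R, hR⟩ := hN
  set N : Subgroup G := (Cfsg.FusionSystem.normalizerIn (S : Subgroup G) P) ⊓
    (Cfsg.FusionSystem.normalizerIn (S : Subgroup G) Q ⊔ Subgroup.centralizer (Q : Set G)).comap (MulAut.conj g).toMonoidHom with hNdef
  have hNp : IsPGroup p N := S.2.to_le (inf_le_left.trans inf_le_left)
  have hNNp : IsPGroup p (normalizerIn (S : Subgroup G) Q) := S.2.to_le inf_le_left
  set M : Subgroup G := normalizerIn (S : Subgroup G) Q ⊔ Subgroup.centralizer (Q : Set G) with hM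
  have hMN : M ≤ Subgroup.normalizer (Q : Set G) := sup_le inf_le_right (Subgroup.centralizer_le_normalizer _)
  have h1 : N.map (MulAut.conj g).toMonoidHom ≤ M := by
    rintro _ ⟨x, hx, rfl⟩
    exact hx.2
  have h2 : ∀ K : Subgroup G, K ≤ Subgroup.normalizer (Q : Set G) → IsPGroup p K → Nat.card K ≤ Nat.card (normalizerIn (S : Subgroup G) Q) :=
    (sylow_iff_card inf_le_right hNNp).mp ⟨R, hR⟩
  obtain ⟨R', hR'⟩ := (sylow_iff_card (le_sup_left : normalizerIn (S : Subgroup G) Q ≤ M) hNNp).mpr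
    (fun K hK hKp => h2 K (hK.trans hMN) hKp)
  obtain ⟨u, hu, hconj⟩ := exists_conj_mem R' h1 (hNp.map _)
  have hnorm : normalizerIn (S : Subgroup G) Q ≤ Subgroup.normalizer ((Subgroup.centralizer (Q : Set G) : Subgroup G) : Set G) := by
    intro s hs
    have hs' := Subgroup.mem_normalizer_iff.mp hs.2
    rw [Subgroup.mem_normalizer_iff]
    intro c
    simp only [Subgroup.mem_centralizer_iff]
    constructor
    · intro h q hq
      have hq' : s⁻¹ * q * s ∈ Q := by
        apply (hs' _).mpr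
        simpa [mul_assoc] using hq
      have h3 := congrArg (fun z => s * z * s⁻¹) (h _ hq')
      simpa [mul_assoc] using h3
    · intro h q hq
      have h3 := congrArg (fun z => s⁻¹ * z * s) (h _ ((hs' q).mp hq))
      simpa [mul_assoc] using h3
  rw [← SetLike.mem_coe, Subgroup.coe_mul_of_left_le_normalizer_right _ _ hnorm] at hu
  obtain ⟨s, hs, c, hc, rfl⟩ := hu
  refine ⟨c, hc, ?_⟩
  rintro _ ⟨x, hx, rfl⟩
  obtain ⟨h3, h4⟩ := hconj _ ⟨x, hx, rfl⟩
  rw [hR'] at h4
  have h5 : (s * c) * (MulAut.conj g).toMonoidHom x * (s * c)⁻¹ ∈ normalizerIn (S : Subgroup G) Q := h4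
  have h6 := S.mul_mem (S.mul_mem (S.inv_mem hs.1) h5.1) hs.1
  convert h6 using 1
  simp [mul_assoc]

end Cfsg.Agent.S5123
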