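import Cfsg.Statements.S5129
import Cfsg.Agent.Lib.FusionMeet5

set_option autoImplicit false
open Cfsg
open Cfsg.FusionSystem
open Cfsg.Agent.Lib.FusionBasic
open Cfsg.Agent.Lib.FusionSat
open Cfsg.Agent.Lib.FusionInvar
open Cfsg.Agent.Lib.FusionPrime
open Cfsg.Agent.Lib.FusionMeet5

namespace Cfsg.Agent.S5129

/-- Let F be a saturated fusion system over a finite p-group S and E₁, E₂ normal subsystems over T₁, T₂. Then there is a normal subsystem of F over T₁ ∩ T₂ that is normal in E₁ and in E₂ and contains every other such subsystem. -/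
theorem result {Ω : Type*} [Group Ω] {S : Subgroup Ω} [Finite S] (p : ℕ) [Fact p.Prime] (hS : IsPGroup p S) (F : Cfsg.FusionSystem S) (hF : F.IsSaturated p) {T₁ T₂ : Subgroup Ω} (E₁ : Cfsg.FusionSystem T₁) (E₂ : Cfsg.FusionSystem T₂) (h₁ : E₁.IsNormalIn F p) (h₂ : E₂.IsNormalIn F p) : ∃ D : Cfsg.FusionSystem (T₁ ⊓ T₂), (D.IsNormalIn F p ∧ D.IsNormalIn E₁ p ∧ D.IsNormalIn E₂ p) ∧ ∀ D' : Cfsg.FusionSystem (T₁ ⊓ T₂), D'.IsNormalIn F p → D'.IsNormalIn E₁ p → D'.IsNormalIn E₂ p → D'.IsSubsystemOf D := by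
  obtain ⟨hs1, -, hi1, -⟩ := isNormalIn_iff.1 h₁
  obtain ⟨hs2, -, hi2, -⟩ := isNormalIn_iff.1 h₂
  obtain ⟨D, h1, h2, h3⟩ := meet (T := T₁ ⊓ T₂) (ι := Bool) (T' := fun b => match b with | true => T₁ | false => T₂)
    (E' := fun b => match b with | true => E₁ | false => E₂) hS hF (fun b => by cases b; exact hi2; exact hi1)
    (fun b => by cases b; exact hs2; exact hs1) (fun x => by
      constructor
      · rintro ⟨hx1, hx2⟩
        exact ⟨hi1.closed.1 hx1, fun b => by cases b; exact hx2; exact hx1⟩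
      · rintro ⟨-, hx⟩
        exact ⟨hx true, hx false⟩)
  refine ⟨D, ⟨h1, h2 true, h2 false⟩, fun D' k1 k2 k3 => h3 D' k1 fun b => ?_⟩
  cases b
  · exact k3
  · exact k2

end Cfsg.Agent.S5129
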