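import Cfsg.Statements.S5130
import Cfsg.Agent.Lib.FusionSys
import Cfsg.Agent.Lib.FusionStrong

set_option autoImplicit false
open Cfsg
open Cfsg.FusionSystem
open Cfsg.Agent.Lib.FusionBasic
open Cfsg.Agent.Lib.FusionSat
open Cfsg.Agent.Lib.FusionNormal
open Cfsg.Agent.Lib.FusionInvar
open Cfsg.Agent.Lib.FusionSys
open Cfsg.Agent.Lib.FusionPPower
open Cfsg.Agent.Lib.FusionNormSat

namespace Cfsg.Agent.S5130


/-- the extension of maps between subgroups of one factor to the other factor -/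
theorem exists_ext {Ω : Type*} [Group Ω] {S : Subgroup Ω} [Finite S] {p : ℕ} [Fact p.Prime] (hS : IsPGroup p S)
    {F : FusionSystem S} (hF : F.IsSaturated p) {S₁ S₂ : Subgroup Ω} (hinf : S₁ ⊓ S₂ = ⊥) (h₁ : F.StronglyClosed S₁)
    (h₂ : F.StronglyClosed S₂) {P : Subgroup Ω} {f : Ω → Ω} (hP : P ≤ S₁) (hf : FMap F P f) :
    ∃ g, FMap F (P ⊔ S₂) g ∧ (∀ x ∈ P, g x = f x) ∧ FIso F S₂ S₂ g := by
  obtain ⟨g, hg, h⟩ := Cfsg.Agent.Lib.FusionStrong.exists_map_mod hS hF h₂ P f hf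
  refine ⟨g, hg, fun x hx => ?_, (hg.restrict le_sup_right).fiso_of_card h₂.1 (fun x hx =>
    StronglyClosed.map_mem F h₂ hg (Subgroup.mem_sup_right hx) hx) le_rfl⟩
  have h1 : (f x)⁻¹ * g x ∈ S₁ ⊓ S₂ := ⟨Subgroup.mul_mem _ (Subgroup.inv_mem _ (StronglyClosed.map_mem F h₁ hf hx (hP hx)))
    (StronglyClosed.map_mem F h₁ hg (Subgroup.mem_sup_left hx) (hP hx)), h x hx⟩
  rw [hinf, Subgroup.mem_bot, inv_mul_eq_one] at h1
  exact h1.symm


/-- Let F be a saturated fusion system over a finite p-group S that is the direct product of two subgroups S₁ and S₂, each strongly closed in F. Let R be the full subsystem of F over S₁ (all maps of F between subgroups of S₁) and R′ the subsystem over S₁ of those maps that extend to the subgroup generated with S₂ fixing S₂ elementwise. Then R and R′ are saturated, R′ is normal in F and in R, and R is weakly normal in F. -/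
theorem result {Ω : Type*} [Group Ω] {S : Subgroup Ω} [Finite S] (p : ℕ) [Fact p.Prime] (hS : IsPGroup p S) (F : Cfsg.FusionSystem S) (hF : F.IsSaturated p) (S₁ S₂ : Subgroup Ω) (hprod : Cfsg.IsInternalDirectProduct S₁ S₂ S) (h₁ : F.StronglyClosed S₁) (h₂ : F.StronglyClosed S₂) (R R' : Cfsg.FusionSystem S₁) (hR : ∀ P : Subgroup Ω, P ≤ S₁ → R.Hom P = F.Hom P) (hR' : ∀ P : Subgroup Ω, P ≤ S₁ → R'.Hom P = F.centralizerHom S₂ P) : R.IsSaturated p ∧ R'.IsSaturated p ∧ R'.IsNormalIn F p ∧ R'.IsNormalIn R p ∧ R.IsWeaklyNormalIn F p := by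
  obtain ⟨h1S, h2S, hcomm, hinf, hsup⟩ := hprod
  have hsup' : ∀ s ∈ S, ∃ a ∈ S₁, ∃ b ∈ S₂, a * b = s := by
    intro s hs
    rw [← hsup] at hs
    exact (mem_sup_of_normalizes (h1S.trans (normalizes_of_stronglyClosed h₂))).1 hs
  have hfin1 : Finite S₁ := finite_of_le h1S
  have hRm : ∀ {P : Subgroup Ω} {f : Ω → Ω}, FMap R P f ↔ P ≤ S₁ ∧ FMap F P f := by
    intro P f
    constructor
    · intro h
      exact ⟨h.le, (hom_eq_iff_fmap.1 (hR P h.le) f).1 h⟩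
    · rintro ⟨h1, h2⟩
      exact (hom_eq_iff_fmap.1 (hR P h1) f).2 h2
  have hRsat : R.IsSaturated p := by
    have h1 := restrictTo_saturated hS hF h1S hcomm hsup' h₁
    have h2 : R = restrictTo F S₁ h1S := by
      rw [fusion_eq_iff_fmap]
      intro P f
      rw [hRm, fmap_restrictTo]
      exact ⟨fun h => ⟨h.2, h.1, fun x hx => StronglyClosed.map_mem F h₁ h.2 hx (h.1 hx)⟩, fun h => ⟨h.2.1, h.1⟩⟩
    rwa [h2]
  have hcen1 : S₁ ≤ centralizerIn S S₂ := fun x hx => ⟨h1S hx, Subgroup.mem_centralizer_iff.2 fun y hy =>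
    (hcomm x hx y hy).symm⟩
  have hR'm : ∀ {P : Subgroup Ω} {f : Ω → Ω}, FMap R' P f ↔ P ≤ S₁ ∧ ∃ g, FMap F (P ⊔ S₂) g ∧
      (∀ x ∈ P, g x = f x) ∧ ∀ x ∈ S₂, g x = x := by
    intro P f
    constructor
    · intro h
      obtain ⟨φ, hφ, h1⟩ := id h
      rw [hR' P h.le, mem_centralizerHom_iff h1] at hφ
      exact ⟨h.le, hφ.2.2⟩
    · rintro ⟨h1, g, h2, h3, h4⟩
      have h5 := (h2.restrict le_sup_left).congr h3
      obtain ⟨φ, hφ, h6⟩ := h5
      refine ⟨φ, ?_, h6⟩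
      rw [hR' P h1, mem_centralizerHom_iff h6]
      exact ⟨h1.trans hcen1, fun x hx => hcen1 (by
        rw [← h3 x hx]; exact StronglyClosed.map_mem F h₁ h2 (Subgroup.mem_sup_left hx) (h1 hx)), g, h2, h3, h4⟩
  have h2f : F.IsFullyCentralized S₂ := by
    refine fullyCentralized_of_fullyNormalized hS hF ⟨h2S, fun Q hQ => ?_⟩
    obtain ⟨f, hf⟩ := isConj_iff_fiso.1 hQ
    have hQ2 : Q ≤ S₂ := by
      intro y hy
      obtain ⟨x, hx, rfl⟩ := hf.mem_iff.1 hy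
      exact StronglyClosed.map_mem F h₂ hf.1 hx hx
    have h3 : Q = S₂ := by
      have : Finite S₂ := finite_of_le h2S
      exact Subgroup.eq_of_le_of_card_ge hQ2 (isConj_card_eq hQ).le
    rw [h3]
  have hCsat := centSys_saturated hS hF h2f
  have hR'sat : R'.IsSaturated p := by
    have hfc : Finite (centralizerIn S S₂) := finite_of_le (centralizerIn_le S S₂)
    have hcl : (centSys F S₂ h2f.1).StronglyClosed S₁ := by
      rw [stronglyClosed_iff]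
      exact ⟨hcen1, fun P f hP hf x hx => StronglyClosed.map_mem F h₁ (sub_fmap centSys_sub hf) hx (hP hx)⟩
    have h1 := restrictTo_saturated (S₂ := S₂ ⊓ centralizerIn S S₂) (isPGroup_of_le hS (centralizerIn_le S S₂)) hCsat
      hcen1 (fun a ha b hb => hcomm a ha b hb.1) (by
        intro s hs
        obtain ⟨a, ha, b, hb, rfl⟩ := hsup' s hs.1
        refine ⟨a, ha, b, ⟨hb, ?_⟩, rfl⟩
        have := Subgroup.mul_mem _ (Subgroup.inv_mem _ (hcen1 ha)) hs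
        rwa [inv_mul_cancel_left] at this) hcl
    have h2 : R' = restrictTo (centSys F S₂ h2f.1) S₁ hcen1 := by
      rw [fusion_eq_iff_fmap]
      intro P f
      rw [hR'm, fmap_restrictTo, fmap_centSys]
      constructor
      · rintro ⟨h1, g, h2, h3, h4⟩
        have h5 : ∀ x ∈ P, f x ∈ S₁ := fun x hx => by
          rw [← h3 x hx]; exact StronglyClosed.map_mem F h₁ h2 (Subgroup.mem_sup_left hx) (h1 hx)
        exact ⟨⟨h1.trans hcen1, fun x hx => hcen1 (h5 x hx), g, h2, h3, h4⟩, h1, h5⟩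
      · rintro ⟨⟨-, -, h1⟩, h2, -⟩
        exact ⟨h2, h1⟩
    rwa [h2]
  have hR'R : R'.IsSubsystemOf R := by
    rw [isSubsystemOf_iff]
    intro P f hf
    obtain ⟨h1, g, h2, h3, h4⟩ := hR'm.1 hf
    exact hRm.2 ⟨h1, (h2.restrict le_sup_left).congr h3⟩
  have hRF : R.IsSubsystemOf F := by
    rw [isSubsystemOf_iff]
    intro P f hf
    exact (hRm.1 hf).2
  -- extension of automorphisms
  have hext1 : ∀ a, FIso F S₁ S₁ a → ∃ b, FMap F S b ∧ (∀ x ∈ S₁, b x = a x) ∧ FIso F S₂ S₂ b := by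
    intro a ha
    obtain ⟨g, hg, h3, h4⟩ := exists_ext hS hF hinf h₁ h₂ le_rfl ha.1
    rw [hsup] at hg
    exact ⟨g, hg, h3, h4⟩
  have hext2 : ∀ a, FIso F S₂ S₂ a → ∃ b, FMap F S b ∧ (∀ x ∈ S₂, b x = a x) ∧ FIso F S₁ S₁ b := by
    intro a ha
    obtain ⟨g, hg, h3, h4⟩ := exists_ext hS hF (inf_comm S₁ S₂ ▸ hinf) h₂ h₁ le_rfl ha.1
    rw [sup_comm, hsup] at hg
    exact ⟨g, hg, h3, h4⟩
  have hconj : ∀ {P Q : Subgroup Ω} {a f : Ω → Ω}, FIso F S₁ S₁ a → FMap R' P f → (∀ y, y ∈ Q ↔ ∃ x ∈ P, a x = y) →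
      ∃ g, FMap R' Q g ∧ ∀ x ∈ P, g (a x) = a (f x) := by
    intro P Q a f ha hf hQ
    obtain ⟨b, hb, hb1, hb2⟩ := hext1 a ha
    have hbS := fiso_of_fmap_top hb
    obtain ⟨c, hc, hc1, hc2⟩ := hbS.symm
    obtain ⟨hP, g, hg, hg1, hg2⟩ := hR'm.1 hf
    have hPS := hP.trans h1S
    have hQ1 : Q ≤ S₁ := fun y hy => by
      obtain ⟨x, hx, rfl⟩ := (hQ y).1 hy
      exact ha.mem (hP hx)
    have hgP : ∀ x ∈ P, f x ∈ S₁ := fun x hx => by
      rw [← hg1 x hx]; exact StronglyClosed.map_mem F h₁ hg (Subgroup.mem_sup_left hx) (hP hx)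
    have hcP : ∀ x ∈ Q ⊔ S₂, c x ∈ P ⊔ S₂ := by
      refine map_sup_mem (hc.1.restrict (sup_le (hQ1.trans h1S) h2S)) (fun y hy => ?_) (fun y hy => ?_)
      · obtain ⟨x, hx, rfl⟩ := (hQ y).1 hy
        rw [← hb1 x (hP hx), hc1 x (hPS hx)]
        exact Subgroup.mem_sup_left hx
      · exact Subgroup.mem_sup_right (StronglyClosed.map_mem F h₂ hc.1 (h2S hy) hy)
    have hm : FMap F (Q ⊔ S₂) (fun x => b (g (c x))) :=
      ((hc.1.restrict (sup_le (hQ1.trans h1S) h2S)).comp hg hcP).comp hb (fun x hx => hg.map_mem (hcP x hx))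
    refine ⟨fun x => b (g (c x)), hR'm.2 ⟨hQ1, _, hm, fun _ _ => rfl, fun x hx => ?_⟩, fun x hx => ?_⟩
    · show b (g (c x)) = x
      rw [hg2 _ (StronglyClosed.map_mem F h₂ hc.1 (h2S hx) hx), hc2 x (h2S hx)]
    · show b (g (c (a x))) = a (f x)
      rw [← hb1 x (hP hx), hc1 x (hPS hx), hg1 x hx, hb1 _ (hgP x hx)]
  have hfrat : ∀ {P : Subgroup Ω} {f : Ω → Ω}, P ≤ S₁ → FMap F P f →
      ∃ a f₀ : Ω → Ω, FIso F S₁ S₁ a ∧ FMap R' P f₀ ∧ ∀ x ∈ P, f x = a (f₀ x) := by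
    intro P f hP hf
    obtain ⟨g, hg, h3, h4⟩ := exists_ext hS hF hinf h₁ h₂ hP hf
    obtain ⟨b, hb, hb1, hb2⟩ := hext2 g h4
    have hbS := fiso_of_fmap_top hb
    obtain ⟨c, hc, hc1, hc2⟩ := hbS.symm
    refine ⟨b, fun x => c (f x), hb2, hR'm.2 ⟨hP, fun x => c (g x), hg.comp hc.1 (fun x hx => hg.map_mem hx),
      fun x hx => ?_, fun x hx => ?_⟩, fun x hx => ?_⟩
    · show c (g x) = c (f x)
      rw [h3 x hx]
    · show c (g x) = x
      rw [← hb1 x hx, hc1 x (h2S hx)]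
    · show f x = b (c (f x))
      rw [hc2 _ (hf.map_mem hx)]
  have hRiso : ∀ {a : Ω → Ω}, FIso R S₁ S₁ a ↔ FIso F S₁ S₁ a := by
    intro a
    exact ⟨fun h => ⟨(hRm.1 h.1).2, h.2⟩, fun h => ⟨hRm.2 ⟨le_rfl, h.1⟩, h.2⟩⟩
  refine ⟨hRsat, hR'sat, ?_, ?_, ?_⟩
  · rw [isNormalIn_iff]
    refine ⟨hR'sat, hF, ⟨sub_trans hR'R hRF, h₁, hconj, hfrat⟩, fun a ha => ?_⟩
    obtain ⟨-, g, hg, h3, h4⟩ := hR'm.1 ha.1
    rw [hsup] at hg
    have hCle : S₁ ⊔ centralizerIn S S₁ = S := by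
      refine le_antisymm (sup_le h1S (centralizerIn_le S S₁)) ?_
      rw [← hsup]
      refine sup_le_sup_left (fun x hx => ⟨by rw [hsup]; exact h2S hx, Subgroup.mem_centralizer_iff.2 fun y hy => hcomm y hy x hx⟩) _
    rw [hCle]
    refine ⟨g, fiso_of_fmap_top hg, h3, fun c hc => ?_⟩
    obtain ⟨z, hz, s, hs, rfl⟩ := hsup' c hc.1
    have hz1 : z ∈ Subgroup.centralizer (S₁ : Set Ω) := by
      have hs' : s ∈ Subgroup.centralizer (S₁ : Set Ω) := Subgroup.mem_centralizer_iff.2 fun y hy => hcomm y hy s hs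
      have := Subgroup.mul_mem _ hc.2 (Subgroup.inv_mem _ hs')
      rwa [mul_inv_cancel_right] at this
    have hgz : g z ∈ S₁ ∧ g z ∈ Subgroup.centralizer (S₁ : Set Ω) := by
      rw [h3 z hz]
      refine ⟨ha.mem hz, Subgroup.mem_centralizer_iff.2 fun y hy => ?_⟩
      obtain ⟨w, hw, rfl⟩ := ha.mem_iff.1 hy
      have := Subgroup.mem_centralizer_iff.1 hz1 w hw
      have h6 := congrArg a this
      rwa [ha.1.map_mul hw hz, ha.1.map_mul hz hw] at h6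
    have h5 : (z * s)⁻¹ * g (z * s) = s⁻¹ * (z⁻¹ * g z) * s := by
      rw [hg.map_mul (h1S hz) (h2S hs), h4 s hs]; group
    have h6 : z⁻¹ * g z ∈ S₁ := Subgroup.mul_mem _ (Subgroup.inv_mem _ hz) hgz.1
    have h7 : s⁻¹ * (z⁻¹ * g z) * s = z⁻¹ * g z := by
      rw [mul_assoc, hcomm _ h6 s hs]; group
    rw [h5, h7]
    exact ⟨h6, Subgroup.mul_mem _ (Subgroup.inv_mem _ hz1) hgz.2⟩
  · rw [isNormalIn_iff]
    have hR1 : R.StronglyClosed S₁ := by
      rw [stronglyClosed_iff]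
      exact ⟨le_rfl, fun P f hP hf x hx => hf.map_mem hx⟩
    refine ⟨hR'sat, hRsat, ⟨hR'R, hR1, fun ha hf hQ => hconj (hRiso.1 ha) hf hQ, fun hP hf => ?_⟩, fun a ha => ?_⟩
    · obtain ⟨a, f₀, h3, h4, h5⟩ := hfrat hP (hRm.1 hf).2
      exact ⟨a, f₀, hRiso.2 h3, h4, h5⟩
    · have hCle : S₁ ⊔ centralizerIn S₁ S₁ = S₁ := sup_eq_left.2 (centralizerIn_le S₁ S₁)
      rw [hCle]
      refine ⟨a, sub_fiso hR'R ha, fun _ _ => rfl, fun c hc => ⟨Subgroup.mul_mem _ (Subgroup.inv_mem _ hc.1) (ha.mem hc.1),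
        Subgroup.mul_mem _ (Subgroup.inv_mem _ hc.2) (Subgroup.mem_centralizer_iff.2 fun y hy => ?_)⟩⟩
      obtain ⟨w, hw, rfl⟩ := ha.mem_iff.1 hy
      have := Subgroup.mem_centralizer_iff.1 hc.2 w hw
      have h6 := congrArg a this
      rwa [ha.1.map_mul hw hc.1, ha.1.map_mul hc.1 hw] at h6
  · rw [isWeaklyNormalIn_iff]
    refine ⟨hRsat, hF, hRF, h₁, ?_, ?_⟩
    · intro P Q a f ha hf hQ
      obtain ⟨c, hc, hc1, hc2⟩ := ha.symm
      obtain ⟨hP, hf'⟩ := hRm.1 hf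
      have hQ1 : Q ≤ S₁ := fun y hy => by
        obtain ⟨x, hx, rfl⟩ := (hQ y).1 hy
        exact ha.mem (hP hx)
      have hcP : ∀ y ∈ Q, c y ∈ P := fun y hy => by
        obtain ⟨x, hx, rfl⟩ := (hQ y).1 hy
        rw [hc1 x (hP hx)]; exact hx
      refine ⟨fun x => a (f (c x)), hRm.2 ⟨hQ1, ((hc.1.restrict hQ1).comp hf' hcP).comp ha.1 (fun x hx =>
        hf.map_mem (hcP x hx))⟩, fun x hx => ?_⟩
      show a (f (c (a x))) = _
      rw [hc1 x (hP hx)]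
    · intro P f hP hf
      exact ⟨fun x => x, f, FIso.refl F h1S, hRm.2 ⟨hP, hf⟩, fun _ _ => rfl⟩

end Cfsg.Agent.S5130
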