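import Cfsg.Statements.S5139
import Cfsg.Agent.S5093
import Cfsg.Agent.Lib.FusionGrp
import Cfsg.Agent.Lib.FusionPPower

set_option autoImplicit false
open Cfsg

namespace Cfsg.Agent.S5139

/-- Let G be a finite group with Sylow p-subgroup S and O^p(G) the subgroup generated by the elements of order prime to p. Then the p-residual subsystem of the fusion system of G on S — the saturated subsystem of p-power index over the hyperfocal subgroup — is the fusion system of O^p(G) on S ∩ O^p(G): its maps are exactly the conjugation maps by elements of O^p(G) between subgroups of S ∩ O^p(G). -/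
theorem result {G : Type*} [Group G] [Finite G] (p : ℕ) [Fact p.Prime] (S : Sylow p G) (E : Cfsg.FusionSystem ((Cfsg.groupFusionSystem (S : Subgroup G)).hyperfocalSubgroup p)) (hE : (Cfsg.groupFusionSystem (S : Subgroup G)).IsPResidual p E) : ∃ h : (S : Subgroup G) ⊓ Cfsg.pResidual p G ≤ Cfsg.pResidual p G, ∀ P : Subgroup G, E.Hom P = (Cfsg.fusionSystemOfSubgroup (Cfsg.pResidual p G) ((S : Subgroup G) ⊓ Cfsg.pResidual p G) h).Hom P := by
  classical
  have hp : p.Prime := Fact.out
  have hR : (Cfsg.pResidual p G).Normal := by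
    unfold Cfsg.pResidual
    refine ⟨fun a ha b => ?_⟩
    refine Subgroup.closure_induction (p := fun a _ => b * a * b⁻¹ ∈ Subgroup.closure {g : G | Nat.Coprime (orderOf g) p})
      ?_ ?_ ?_ ?_ ha
    · intro a ha
      refine Subgroup.subset_closure ?_
      show (orderOf (b * a * b⁻¹)).Coprime p
      have : orderOf (b * a * b⁻¹) = orderOf a := by
        have := orderOf_injective (MulAut.conj b).toMonoidHom (MulAut.conj b).injective a
        simpa using this
      rw [this]; exact ha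
    · simp
    · intro a c _ _ ha hc
      have : b * (a * c) * b⁻¹ = (b * a * b⁻¹) * (b * c * b⁻¹) := by group
      rw [this]; exact Subgroup.mul_mem _ ha hc
    · intro a _ ha
      have : b * a⁻¹ * b⁻¹ = (b * a * b⁻¹)⁻¹ := by group
      rw [this]; exact Subgroup.inv_mem _ ha
  have hTR : (S : Subgroup G) ⊓ Cfsg.pResidual p G ≤ Cfsg.pResidual p G := inf_le_right
  refine ⟨hTR, ?_⟩
  have hT : (Cfsg.groupFusionSystem (S : Subgroup G)).hyperfocalSubgroup p = (S : Subgroup G) ⊓ Cfsg.pResidual p G :=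
    Cfsg.Agent.S5093.result p S
  obtain ⟨h1, h2, h3, h4⟩ := hE
  -- replace the hyperfocal subgroup by a variable
  suffices key : ∀ (T : Subgroup G) (E : Cfsg.FusionSystem T), T = (S : Subgroup G) ⊓ Cfsg.pResidual p G → E.IsSaturated p →
      E.HasPPowerIndexIn (Cfsg.groupFusionSystem (S : Subgroup G)) p → ∀ P : Subgroup G, E.Hom P =
        (Cfsg.fusionSystemOfSubgroup (Cfsg.pResidual p G) ((S : Subgroup G) ⊓ Cfsg.pResidual p G) hTR).Hom P from
    key _ E hT h1 ⟨h2, h3, h4⟩
  rintro T E rfl hEs hEi P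
  have hTS : (S : Subgroup G) ⊓ Cfsg.pResidual p G ≤ (S : Subgroup G) := inf_le_left
  have hTp : IsPGroup p ↥((S : Subgroup G) ⊓ Cfsg.pResidual p G) := S.isPGroup'.to_le hTS
  obtain ⟨R, hRS⟩ := Cfsg.Agent.Lib.FusionGrp.exists_sylow_inf S (Cfsg.pResidual p G)
  have hsat := Cfsg.Agent.Lib.FusionGroup.fusionSystemOfSubgroup_isSaturated (p := p) (Cfsg.pResidual p G)
    ((S : Subgroup G) ⊓ Cfsg.pResidual p G) hTR R hRS
  have heq := Cfsg.Agent.Lib.FusionPPower.eq_of_index hTp hEs hsat hEi ⟨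
    Cfsg.Agent.Lib.FusionGrp.subgroup_isSubsystemOf hTR hTS, hT.le, fun P hP => ?_⟩
  · rw [heq]
  · rw [Subgroup.map_le_iff_le_comap]
    unfold Cfsg.pResidual
    rw [Subgroup.closure_le]
    intro α hα
    have hPS := hP.trans hTS
    obtain ⟨f, hf, hfα⟩ := Cfsg.Agent.Lib.FusionBasic.exists_fmap_of_aut hPS α.2
    obtain ⟨g, hg⟩ := (Cfsg.Agent.Lib.FusionBasic.fmap_group_iff.1 hf.1).2.2
    show (α : MulAut P) ∈ (Cfsg.fusionSystemOfSubgroup (Cfsg.pResidual p G) ((S : Subgroup G) ⊓ Cfsg.pResidual p G) hTR).autGroup P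
    -- the element g
    have hgα : ∀ x : P, (((α : MulAut P) x : P) : G) = g * (x : G) * g⁻¹ := fun x => by
      rw [← hfα x]; exact hg x x.2
    have hpow : ∀ (k : ℕ) (x : P), ((((α : MulAut P) ^ k) x : P) : G) = g ^ k * (x : G) * (g ^ k)⁻¹ := by
      intro k
      induction k with
      | zero => intro x; simp
      | succ k ih =>
        intro x
        rw [pow_succ', MulAut.mul_apply, hgα, ih, pow_succ']
        group
    -- orders
    have hαc : (orderOf (α : MulAut P)).Coprime p := by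
      have h1 : orderOf (α : MulAut P) = orderOf α := Subgroup.orderOf_coe α
      rw [h1]; exact hα
    set m := orderOf (α : MulAut P) with hm
    obtain ⟨a, n, hn, hgn⟩ : ∃ a n : ℕ, ¬ p ∣ n ∧ orderOf g = p ^ a * n := by
      obtain ⟨a, n, hn, h⟩ := Nat.exists_eq_pow_mul_and_not_dvd (orderOf_pos g).ne' p hp.ne_one
      exact ⟨a, n, hn, h⟩
    have hcop : Nat.Coprime m (p ^ a) := Nat.Coprime.pow_right a hαc
    obtain ⟨k, hk1, hk2⟩ := Nat.chineseRemainder hcop 1 0
    have hαk : (α : MulAut P) ^ k = α := by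
      have : (α : MulAut P) ^ k = (α : MulAut P) ^ 1 := by
        rw [pow_eq_pow_iff_modEq]; exact hk1
      rw [this, pow_one]
    have hgk : g ^ k ∈ Cfsg.pResidual p G := by
      unfold Cfsg.pResidual
      refine Subgroup.subset_closure ?_
      show (orderOf (g ^ k)).Coprime p
      have hdk : p ^ a ∣ k := (Nat.modEq_zero_iff_dvd).1 hk2
      have h1 : orderOf (g ^ k) ∣ n := by
        rw [orderOf_dvd_iff_pow_eq_one, ← pow_mul, ← orderOf_dvd_iff_pow_eq_one, hgn]
        exact Nat.mul_dvd_mul_right hdk n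
      refine Nat.Coprime.coprime_dvd_left h1 ?_
      exact (Nat.Coprime.symm ((Nat.Prime.coprime_iff_not_dvd hp).2 hn))
    have hfk : Cfsg.Agent.Lib.FusionBasic.FMap (Cfsg.fusionSystemOfSubgroup (Cfsg.pResidual p G) ((S : Subgroup G) ⊓ Cfsg.pResidual p G) hTR) P f := by
      refine Cfsg.Agent.Lib.FusionGrp.fmap_subgroup_iff hTR |>.2 ⟨hP, fun x hx => ?_, g ^ k, hgk, fun x hx => ?_⟩
      · rw [hfα ⟨x, hx⟩]; exact hP (Subtype.coe_prop _)
      · have h1 := hpow k ⟨x, hx⟩
        rw [hαk] at h1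
        rw [hfα ⟨x, hx⟩]; exact h1
    exact Cfsg.Agent.Lib.FusionBasic.mem_autGroup_of_fmap hfk (fun x => (hfα x).symm)

end Cfsg.Agent.S5139
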