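import Cfsg.Statements.S5142
import Cfsg.Agent.Lib.FusionSameP

set_option autoImplicit false
open Cfsg
open Cfsg.FusionSystem
open Cfsg.Agent.Lib.FusionBasic
open Cfsg.Agent.Lib.FusionSat
open Cfsg.Agent.Lib.FusionInvar
open Cfsg.Agent.Lib.FusionPrime
open Cfsg.Agent.Lib.FusionMeet5
open Cfsg.Agent.Lib.FusionSameP

namespace Cfsg.Agent.S5142

/-- Let F be a saturated fusion system over a finite p-group S and E a normal subsystem of F over T. Then the p'-residual subsystem of E (the least saturated subsystem of E over T of index prime to p) is contained in every normal subsystem of F over T; together with its normality in F (the case of a weakly normal E) this makes it the least normal subsystem of F over T. -/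
theorem result {Ω : Type*} [Group Ω] {S : Subgroup Ω} [Finite S] (p : ℕ) [Fact p.Prime] (hS : IsPGroup p S) (F : Cfsg.FusionSystem S) (hF : F.IsSaturated p) {T : Subgroup Ω} (E : Cfsg.FusionSystem T) (hE : E.IsNormalIn F p) (D : Cfsg.FusionSystem T) (hD : E.IsPPrimeResidual p D) : ∀ D' : Cfsg.FusionSystem T, D'.IsNormalIn F p → D.IsSubsystemOf D' := by
  intro D' hD'
  obtain ⟨hs1, -, hi1, -⟩ := isNormalIn_iff.1 hE
  obtain ⟨hs2, -, hi2, -⟩ := isNormalIn_iff.1 hD'
  obtain ⟨M, h1, h2, -⟩ := meet (T := T) (ι := Bool) (T' := fun _ => T)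
    (E' := fun b => match b with | true => E | false => D') hS hF (fun b => by cases b; exact hi2; exact hi1)
    (fun b => by cases b; exact hs2; exact hs1) (fun x => ⟨fun hx => ⟨hi1.closed.1 hx, fun _ => hx⟩, fun hx => hx.2 true⟩)
  have hTfin : Finite T := finite_of_le hi1.closed.1
  obtain ⟨hMs, -, hMi, -⟩ := isNormalIn_iff.1 (h2 true)
  have h3 := hD.2.2 M hMs (primeIndex_of_inv (isPGroup_of_le hS hi1.closed.1) hs1 hMi)
  exact sub_trans h3 (isNormalIn_iff.1 (h2 false)).2.2.1.sub

end Cfsg.Agent.S5142
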