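import Cfsg.Statements.S5156
import Cfsg.Agent.Lib.H34Term2


set_option autoImplicit false
universe u
open Cfsg

namespace Cfsg.Agent.S5156

open Cfsg Cfsg.FusionSystem Cfsg.Agent.Lib.FusionBasic Cfsg.Agent.Lib.FusionSat Cfsg.Agent.Lib.H34Term


/-- A saturated fusion system over a finite p-group has a terminating alternating chain of p'-residual and p-residual subsystems (the chain reaches the trivial system — the notion of solvability adapted to fusion systems of p-solvable groups) if and only if it is constrained and its models are p-solvable (a model is a finite group realizing the system on a Sylow p-subgroup with self-centralizing largest normal p-subgroup; it exists and is unique up to isomorphism for constrained systems). -/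
theorem result {Ω : Type u} [Group Ω] {S : Subgroup Ω} [Finite S] (p : ℕ) [Fact p.Prime] (hS : IsPGroup p S) (F : Cfsg.FusionSystem S) (hF : F.IsSaturated p) : F.HasTerminatingResidualSeries p ↔ (F.IsConstrained p ∧ ∀ (G : Type u) [Group G] (ι : S →* G), F.IsModel p G ι → Cfsg.IsPSolvable p G) := by
  constructor
  · intro h
    have h1 := pst_of_series h inferInstance inferInstance hS hF
    refine ⟨h1.1, fun G _ ι hG => ?_⟩
    have hGf : Finite G := hG.1
    have h2 := Cfsg.Agent.Lib.FusionRealized.im_core_eq hG
    refine Cfsg.Agent.Lib.FusionRealized2.isPSolvable_of_autGroup hS hG.2.1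
      (Cfsg.Agent.Lib.FusionJoin.isNormal_core F).1 ?_ ?_ h1.2
    · rw [h2]; exact Cfsg.Agent.Lib.FusionNormal.pCore_normal
    · rw [h2]; exact hG.2.2.2
  · rintro ⟨h1, h2⟩
    obtain ⟨G, i1, ι, hG⟩ := Cfsg.Agent.Lib.FusionModel.exists_isModel hS h1
    have hGf : Finite G := hG.1
    exact series_of_limit _ hS F hF rfl (limit_trivial _ F ι rfl hG.2.1 hG.2.2.1 (h2 G ι hG))

end Cfsg.Agent.S5156
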