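import Cfsg.Statements.S5159
import Cfsg.Agent.Lib.FusionSolv

set_option autoImplicit false
open Cfsg

namespace Cfsg.Agent.S5159

/-- Let F be a saturated fusion system over a finite p-group S, E a normal subsystem over T, and D the factor system of F modulo T (read through any homomorphism on S with kernel T). Then F is solvable if and only if E and D are solvable (solvable, for a system over a subgroup S: for every subgroup R other than S that is strongly closed in F, the factor system of F modulo R has a nontrivial subgroup normal in it). -/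
theorem result {Ω : Type*} [Group Ω] {S : Subgroup Ω} [Finite S] (p : ℕ) [Fact p.Prime] (hS : IsPGroup p S) (F : Cfsg.FusionSystem S) (hF : F.IsSaturated p) {T : Subgroup Ω} (E : Cfsg.FusionSystem T) (hE : E.IsNormalIn F p) {Ω' : Type*} [Group Ω'] {S' : Subgroup Ω'} (θ : S →* Ω') (D : Cfsg.FusionSystem S') (hD : F.IsFactorSystem T θ D) : F.IsSolvableSystem ↔ (E.IsSolvableSystem ∧ D.IsSolvableSystem) := by
  classical
  obtain ⟨hEs, -, hinv, -⟩ := Cfsg.Agent.Lib.FusionInvar.isNormalIn_iff.1 hE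
  have hTS := hinv.le
  have hfinT : Finite T := Cfsg.Agent.Lib.FusionSat.finite_of_le hTS
  have hTp : IsPGroup p T := Cfsg.Agent.Lib.FusionSat.isPGroup_of_le hS hTS
  obtain ⟨-, hθ, hS', -⟩ := id hD
  have hfin' : Finite S' := Cfsg.Agent.Lib.FusionQuot.finite_range hS'
  have hpS' : IsPGroup p S' := Cfsg.Agent.Lib.FusionQuot.isPGroup_range hS hS'
  have hDs : D.IsSaturated p := Cfsg.Agent.Lib.FusionQuot.isSaturated_factor hS hF hinv.closed hD
  rw [Cfsg.Agent.Lib.FusionSolv.solvable_iff hS hF, Cfsg.Agent.Lib.FusionSolv.solvable_iff hTp hEs,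
    Cfsg.Agent.Lib.FusionSolv.solvable_iff hpS' hDs]
  constructor
  · intro h
    constructor
    · have h1 := Cfsg.Agent.Lib.FusionSolv.ser_inf hinv h
      rwa [bot_inf_eq, inf_eq_right.2 hTS] at h1
    · have h1 := Cfsg.Agent.Lib.FusionSolv.ser_im hS hF hinv.closed hD h
      have e1 : Cfsg.FusionSystem.imageAlong θ (⊥ ⊔ T) = ⊥ := by
        rw [bot_sup_eq, eq_bot_iff]
        intro y hy
        obtain ⟨x, hx, hxS, rfl⟩ := Cfsg.Agent.Lib.FusionQuot.mem_im.1 hy
        rw [Subgroup.mem_bot, Cfsg.Agent.Lib.FusionQuot.ev_eq_one_iff hθ hxS]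
        exact hx
      have e2 : Cfsg.FusionSystem.imageAlong θ (S ⊔ T) = S' := by
        rw [sup_eq_left.2 hTS]
        apply le_antisymm (Cfsg.Agent.Lib.FusionQuot.im_le hS')
        intro y hy
        obtain ⟨x, hx, rfl⟩ := Cfsg.Agent.Lib.FusionQuot.exists_ev hS' hy
        exact Cfsg.Agent.Lib.FusionQuot.mem_im.2 ⟨x, hx, hx, rfl⟩
      rwa [e1, e2] at h1
  · rintro ⟨h1, h2⟩
    have h3 := Cfsg.Agent.Lib.FusionSolv.ser_of_inv hinv h1
    have h4 := Cfsg.Agent.Lib.FusionSolv.ser_pre hS hF hinv.closed hD h2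
    have e1 : Cfsg.FusionSystem.preimageAlong θ ⊥ = T := by
      ext x
      rw [Cfsg.Agent.Lib.FusionQuot.mem_pre, Subgroup.mem_bot]
      constructor
      · rintro ⟨hx, hx1⟩; exact (Cfsg.Agent.Lib.FusionQuot.ev_eq_one_iff hθ hx).1 hx1
      · intro hx; exact ⟨hTS hx, (Cfsg.Agent.Lib.FusionQuot.ev_eq_one_iff hθ (hTS hx)).2 hx⟩
    have e2 : Cfsg.FusionSystem.preimageAlong θ S' = S := by
      apply le_antisymm Cfsg.Agent.Lib.FusionQuot.pre_le
      intro x hx
      exact Cfsg.Agent.Lib.FusionQuot.mem_pre.2 ⟨hx, Cfsg.Agent.Lib.FusionQuot.ev_mem hS' hx⟩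
    rw [e1, e2] at h4
    exact h3.trans h4

end Cfsg.Agent.S5159
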