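import Cfsg.Statements.S5163
import Cfsg.Agent.Lib.FusionSimpleGroup
import Cfsg.Agent.Lib.SLCrit

set_option autoImplicit false
open Cfsg

namespace Cfsg.Agent.S5163

open Cfsg.Agent.Lib.FusionSimpleGroup Cfsg.Agent.Lib.SLCrit Matrix Matrix.SpecialLinearGroup

theorem center_coprime {K : Type*} [Field K] [Finite K] (p : ℕ) [Fact p.Prime] [CharP K p] (n : ℕ) :
    (Nat.card (Subgroup.center (Matrix.SpecialLinearGroup (Fin n) K))).Coprime p := by
  rw [Nat.coprime_comm, Nat.Prime.coprime_iff_not_dvd Fact.out]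
  intro hdvd
  obtain ⟨z, hz⟩ := exists_prime_orderOf_dvd_card' p hdvd
  obtain ⟨r, -, hr⟩ := mem_center_iff.mp z.2
  have h1 : (z : Matrix.SpecialLinearGroup (Fin n) K) ^ p = 1 := by
    have := pow_orderOf_eq_one z
    rw [hz] at this
    exact congrArg Subtype.val this
  have h2 : (Matrix.scalar (Fin n) r) ^ p = 1 := by
    have h3 : ((z : Matrix.SpecialLinearGroup (Fin n) K) ^ p).1 = 1 := by rw [h1]; rfl
    have h4 : ((z : Matrix.SpecialLinearGroup (Fin n) K) ^ p).1 =
      ((z : Matrix.SpecialLinearGroup (Fin n) K).1) ^ p := Matrix.SpecialLinearGroup.coe_pow _ _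
    rw [h4, ← hr] at h3
    exact h3
  have hz1 : z = 1 := by
    apply Subtype.ext
    apply Subtype.ext
    have hr' : (z : Matrix.SpecialLinearGroup (Fin n) K).1 = Matrix.scalar (Fin n) r := hr.symm
    rw [hr']
    show Matrix.scalar (Fin n) r = 1
    by_cases hn : n = 0
    · subst hn; exact Subsingleton.elim _ _
    · have : Nonempty (Fin n) := ⟨⟨0, Nat.pos_of_ne_zero hn⟩⟩
      rw [← map_pow, ← map_one (Matrix.scalar (Fin n)), Matrix.scalar_inj] at h2
      have h5 : (r - 1) ^ p = 0 := by rw [sub_pow_char, h2, one_pow, sub_self]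
      have h6 : r = 1 := sub_eq_zero.mp (pow_eq_zero_iff (Fact.out : p.Prime).ne_zero |>.mp h5)
      rw [h6, map_one]
  rw [hz1, orderOf_one] at hz
  exact (Fact.out : p.Prime).one_lt.ne hz

/-- For a finite field K of characteristic p and n ≥ 3, the p-fusion system of the projective special linear group PSL_n(K) on a Sylow p-subgroup is simple. -/
theorem result {K : Type*} [Field K] [Fintype K] (p : ℕ) [Fact p.Prime] [CharP K p] (n : ℕ) (hn : 3 ≤ n) (S : Sylow p (Matrix.ProjectiveSpecialLinearGroup (Fin n) K)) : (Cfsg.groupFusionSystem (S : Subgroup (Matrix.ProjectiveSpecialLinearGroup (Fin n) K))).IsSimple p := by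
  obtain ⟨P, hP⟩ := exists_sylow_U (K := K) (n := n) (p := p)
  have hker : (QuotientGroup.mk' (Subgroup.center (Matrix.SpecialLinearGroup (Fin n) K))).ker =
      Subgroup.center (Matrix.SpecialLinearGroup (Fin n) K) := QuotientGroup.ker_mk' _
  refine simple_of_cover (QuotientGroup.mk' (Subgroup.center (Matrix.SpecialLinearGroup (Fin n) K)))
    (QuotientGroup.mk'_surjective _) ?_ ?_ P ?_ ?_ S
  · intro z hz g
    rw [hker] at hz
    exact (Subgroup.mem_center_iff.mp hz) g
  · rw [hker]; exact center_coprime p n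
  · rw [hP]
    intro h
    have h1 : (⟨0, by omega⟩ : Fin n) < ⟨1, by omega⟩ := by
      show (0 : ℕ) < 1; omega
    have h2 := tv_mem_U (K := K) h1 1
    rw [h, Subgroup.mem_bot] at h2
    have h3 : (SpecialLinearGroup.transvection h1.ne (1 : K)).1 (⟨0, by omega⟩ : Fin n) (⟨1, by omega⟩ : Fin n) = 0 := by
      rw [h2]
      exact Matrix.one_apply_ne h1.ne
    rw [tv_apply] at h3
    simp at h3
  · rw [hker, hP]
    refine ⟨fun T hT hc => strongly_closed p hn T hT hc, fun g hg => normalizer_gen hn hg⟩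

end Cfsg.Agent.S5163
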