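import Cfsg.Statements.S5166
import Cfsg.Agent.Lib.MathieuFus3

set_option autoImplicit false
set_option linter.unusedVariables false
open Cfsg

namespace Cfsg.Agent.S5166

open Cfsg.Agent.Lib.Golay Cfsg.Agent.Lib.MathieuFus Cfsg.Spor
open scoped Pointwise

def z : ℕ := 849822317934813648356251079506233472

def L : List ℕ := [849822317934813648356251079506233472, 944569772236290697579231267829188640, 437663154183868701758285485082511552, 974027984896326309032851386650724640, 716029491075335350301462960033335552, 611867256012224692373451832700274976, 859801253374563838922762248489667136, 636849487031299735732264228450568608, 310455690604077890944739163781564928, 940269894933473655395652312465771072]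

def st : List (ℕ × ℕ × ℕ × ℕ) := [(0, 856301204328468227847763963413595648, 0, 944569772236290697579231267829188640), (0, 638300900915266350936707315968417888, 0, 974027984896326309032851386650724640), (1, 2, 1, 940269894933473655395652312465771072), (0, 320840284008341790468831142383521056, 3, 437663154183868701758285485082511552), (0, 977678824157170862756075505962823712, 3, 716029491075335350301462960033335552), (0, 715455268864627493939861143543089568, 0, 859801253374563838922762248489667136), (1, 6, 1, 611867256012224692373451832700274976), (0, 853310882173364053259203824749457664, 3, 636849487031299735732264228450568608), (0, 604078810834315571377059508479134912, 3, 310455690604077890944739163781564928)]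

def stepsX : List (ℕ × ℕ) := [(10825794, 9240913), (12656663, 8683614), (10305542, 421910), (10305542, 8937586), (4845570, 9347075), (4845570, 10170384), (13062145, 4845570), (13062145, 7221256), (13062145, 13062145), (13938692, 13938692), (7221256, 11952160), (7221256, 7221256), (11952160, 11952160), (2019456, 2019456), (11654144, 11654144), (14919680, 14919680)]

def EL : List ℕ := [984818244535754528103549039458486304, 561475773312554808336860583768983584, 720981692062171673584743151055243296, 358662142733855540651195105552730144, 841384528646309054241536335100872736, 651239579074641248992907580101724192]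

def steps7 : List (ℕ × ℕ) := [(806987, 6557781), (3416079, 1413139), (5902343, 421910), (5902343, 2031657), (9347075, 10305542), (13062145, 13938692), (13062145, 10170384), (13062145, 13062145), (4845570, 7221256), (4845570, 4845570), (7221256, 7221256), (11952160, 11952160), (2019456, 2019456), (4038912, 4038912), (8077824, 8077824), (11654144, 11654144), (14919680, 14919680)]

/-- the orbits `{0}`, `{2}`, `{3, 12}` and the rest -/
def co : ℕ := 128634967334024115579704985097667680

def in11 (c : ℕ) : Bool := inM c && (Nat.beq (imgM c DM) DM && Nat.beq (img c 0) 0)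

theorem hLin : ∀ c ∈ L, in11 c = true := by decide +kernel

theorem hG : ∀ c, in11 c = true → valid c = true ∧ toPerm c ∈ M11 := by
  intro c h
  unfold in11 at h
  rw [Bool.and_eq_true, Bool.and_eq_true] at h
  obtain ⟨h1, h2, h3⟩ := h
  have hv := valid_of_inM h1
  refine ⟨hv, ⟨toPerm_mem_M24 h1, ?_⟩, ?_⟩
  · refine MulAction.mem_stabilizer_iff.mpr ?_
    rw [squareDodecad_eq, toPerm_smul_mset hv, Nat.eq_of_beq_eq_true h2]
  · refine MulAction.mem_stabilizer_iff.mpr ?_
    have h4 := toPerm_pt hv (i := 0) (by norm_num)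
    rw [Nat.eq_of_beq_eq_true h3] at h4
    exact h4

theorem smulD {g : Equiv.Perm GolayPt} (hg : g ∈ M11) : g • mset DM = mset DM := by
  rw [← squareDodecad_eq]
  exact MulAction.mem_stabilizer_iff.mp hg.1.2

theorem memD {g : Equiv.Perm GolayPt} (hg : g ∈ M11) (y : GolayPt) : g y ∈ mset DM ↔ y ∈ mset DM := by
  conv_lhs => rw [← smulD hg]
  exact smul_mem_smul g _ y

theorem fix0 {g : Equiv.Perm GolayPt} (hg : g ∈ M11) : g (pt 0) = pt 0 := by
  have h : g • (some 0 : GolayPt) = some 0 := hg.2
  exact h

theorem hLv : ∀ c ∈ L, valid c = true := fun c hc => (hG c (hLin c hc)).1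

theorem hzL : z ∈ L := by decide +kernel

theorem hz1 : toPerm z ≠ 1 := toPerm_ne_one (hLv _ hzL) (i := 1) (by norm_num) (by decide +kernel)

theorem hzc : (L.all fun c => Nat.beq (mulC z c) (mulC c z)) = true := by decide +kernel

theorem hcen : ∀ c ∈ M11, (∀ w ∈ WL L, c * w = w * c) → c = 1 ∨ c = toPerm z := by
  intro c hc hw
  refine center_eq'' (x0 := 1) (X := 336722) (Y := DM) hLv (hLv _ hzL) (hG _ (hLin _ hzL)).2 (by norm_num) hzc
    (by decide +kernel) (fun g hg hX => fixRun_sound hg.1.1 stepsX 336722 (by decide +kernel) hX)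
    (fun g hg => (memD hg _).mpr (by decide +kernel)) ?_ hc hw
  have h : ∀ y : GolayPt, y ∈ mset DM → fxC L 1 (ix y) = true → fxC L (ix y) 1 = true →
      y = pt 1 ∨ y = pt (img z (ix (pt 1))) := by decide +kernel
  intro y hy
  rw [toPerm_apply (hLv _ hzL)]
  exact h y hy

theorem colo : invOK L co = true := by decide +kernel

/-- the octad fixed by `z` -/
def OZ : ℕ := 2627629

theorem hO : ∀ y : GolayPt, Nat.beq (img z (ix y)) (ix y) = true ↔ y ∈ mset OZ := by decide +kernel

theorem hWG : WL L ≤ M11 := WL_le fun c hc => (hG c (hLin c hc)).2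

variable {g : Equiv.Perm GolayPt}

theorem Oiff (hg : g ∈ NW M11 L) (y : GolayPt) : g y ∈ mset OZ ↔ y ∈ mset OZ :=
  fix_z (comm_z hcen hz1 (hG _ (hLin _ hzL)).2 (zc_of hLv (hLv _ hzL) hzc) hg) (hLv _ hzL) hO y

/-- `F = {0, 2, 3, 12}` is preserved -/
theorem Fiff (hg : g ∈ NW M11 L) (y : GolayPt) : g y ∈ mset 4109 ↔ y ∈ mset 4109 := by
  have h : ∀ y : GolayPt, y ∈ mset 4109 ↔ y ∈ mset OZ ∧ y ∈ mset DM := by decide +kernel
  rw [h, h, Oiff hg, memD (NW_mem hg)]

theorem g2 (hg : g ∈ NW M11 L) : g (pt 2) = pt 2 := by
  have h1 : P1 (WL L) (pt 2) := by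
    intro u hu
    have h1 := inv_eq hLv colo hu (pt 2)
    have h2 : ∀ y : GolayPt, img co (ix y) = img co (ix (pt 2)) → y = pt 2 := by decide +kernel
    exact h2 _ h1
  have h2 := p1_check hLv (h1.map (NW_norm hg))
  have h3 : ∀ y : GolayPt, p1C L (ix y) = true → y ≠ pt 0 → y = pt 2 := by decide +kernel
  exact h3 _ h2 (apply_ne (fix0 (NW_mem hg)) (by decide +kernel) rfl)

theorem g312 (hg : g ∈ NW M11 L) : g (pt 3) ∈ mset 4104 ∧ g (pt 12) ∈ mset 4104 := by
  have h0 := fix0 (NW_mem hg)
  have h2 := g2 hg
  have h6 := (Fiff hg (pt 3)).mpr (by decide +kernel)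
  have h8 := (Fiff hg (pt 12)).mpr (by decide +kernel)
  have h3 : ∀ y : GolayPt, y ∈ mset 4109 → y ≠ pt 0 → y ≠ pt 2 → y ∈ mset 4104 := by decide +kernel
  exact ⟨h3 _ h6 (apply_ne h0 (by decide +kernel) rfl) (apply_ne h2 (by decide +kernel) rfl),
    h3 _ h8 (apply_ne h0 (by decide +kernel) rfl) (apply_ne h2 (by decide +kernel) rfl)⟩

theorem g12 (hg : g ∈ NW M11 L) (h3 : g (pt 3) = pt 3) : g (pt 12) = pt 12 := by
  have h4 : ∀ y : GolayPt, y ∈ mset 4104 → y ≠ pt 3 → y = pt 12 := by decide +kernel
  exact h4 _ (g312 hg).2 (apply_ne h3 (by decide +kernel) rfl)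

theorem fixD {g : Equiv.Perm GolayPt} (hg : g ∈ M24) (hgD : g • mset DM = mset DM)
    (hF : ∀ p ∈ mset 4111, g p = p) : g = 1 :=
  fix_dodecad (o5 := 5279) (m5 := 4111) (s := 4) (b7 := 6) (restm := 336704) (m7 := 4191)
    (six := [0, 1, 2, 3, 12, 4]) (EL := EL) (steps7 := steps7) (by decide +kernel) (by norm_num) (by decide +kernel)
    (by decide +kernel) (by decide +kernel) (by decide +kernel) (by decide +kernel) (by decide +kernel) (by norm_num)
    (by decide +kernel) (by decide +kernel) (by decide +kernel) (by decide +kernel) hg hgD hF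

theorem hN : NW M11 L ≤ WL L ∧ ∃ k, Nat.card ↥(NW M11 L) = 2 ^ k := by
  have hWK := WL_le_NW hWG
  have key : NW M11 L ⊓ FS [] ≤ WL L ∧ ∃ k, Nat.card ↥(NW M11 L ⊓ FS []) = 2 ^ k := by
    refine sift_step (b := 3) (O := mset 4104) hWK ?_ (tr_exists hLv (by decide +kernel) (by simp) (by norm_num))
      ⟨1, by decide +kernel⟩ ?_
    · intro g hg _
      exact (g312 hg).1
    refine sift_step (b := 1) (O := mset 336722) hWK ?_ (tr_exists hLv (by decide +kernel) (by simp) (by norm_num))
      ⟨3, by decide +kernel⟩ ?_
    · intro g hg h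
      have h1 := (Fiff hg (pt 1)).not.mpr (by decide +kernel)
      have h1' := (memD (NW_mem hg) (pt 1)).mpr (by decide +kernel)
      have h2 : ∀ y : GolayPt, y ∈ mset DM → y ∉ mset 4109 → y ∈ mset 336722 := by decide +kernel
      exact h2 _ h1' h1
    refine sift_end ?_
    intro g hg h
    have h3 := h 3 (by simp)
    refine fixD (NW_mem hg).1.1 (smulD (NW_mem hg)) ?_
    have h9 : ∀ p : GolayPt, p ∈ mset 4111 → p = pt 0 ∨ p = pt 2 ∨ p = pt 3 ∨ p = pt 12 ∨ p = pt 1 := by
      decide +kernel
    intro p hp
    rcases h9 p hp with rfl | rfl | rfl | rfl | rfl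
    exacts [fix0 (NW_mem hg), g2 hg, h3, g12 hg h3, h 1 (by simp)]
  rwa [FS_nil, inf_top_eq] at key

/-- The 2-fusion system of the Mathieu group M₁₁ (as the explicit permutation group carved out of the automorphism group of the binary Golay code) on a Sylow 2-subgroup is simple: saturated, over a nontrivial 2-group, with no normal subsystem other than the trivial one and itself. -/
theorem result (S : Sylow 2 Cfsg.Spor.M11) : (Cfsg.groupFusionSystem (S : Subgroup Cfsg.Spor.M11)).IsSimple 2 :=
  simple_of_data hLin hG hzL hz1 hcen hN (st := st) (by decide +kernel) S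

end Cfsg.Agent.S5166
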