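import Cfsg.Statements.S5167
import Cfsg.Agent.Lib.MathieuFus3

set_option autoImplicit false
set_option linter.unusedVariables false
open Cfsg

namespace Cfsg.Agent.S5167

open Cfsg.Agent.Lib.Golay Cfsg.Agent.Lib.MathieuFus Cfsg.Spor
open scoped Pointwise

def z : ℕ := 803048693414536666626749225330871730

def L : List ℕ := [803048693414536666626749225330871730, 969202056781860934635753244362607648, 969241353870756385364331985140518304, 818417711753696974483914894103088416, 818496306144062415656110241739771264, 649942900287854214064184259269407297, 440925247547628127307617614868531235, 445870354023792647363881083902904610, 939216673276252353288635018373562755, 944538271603159541186892019544949154, 853792682375543172401868927312233577, 892577677275998929379108265719280716, 733846063977726549747100886380192781]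

def st : List (ℕ × ℕ × ℕ × ℕ) := [(0, 217684071572864026502386881336055912, 0, 969202056781860934635753244362607648), (0, 430372069614525266259633908436123777, 0, 969241353870756385364331985140518304), (0, 796553271526812613281204552570341668, 0, 818417711753696974483914894103088416), (0, 902796094550018433563809823869575241, 0, 818496306144062415656110241739771264), (0, 736590531237393357963440923435077200, 0, 440925247547628127307617614868531235), (1, 5, 3, 445870354023792647363881083902904610), (0, 653809234101250567450265533831727201, 6, 649942900287854214064184259269407297), (0, 608460063846507516751118495828676673, 0, 944538271603159541186892019544949154), (1, 8, 3, 939216673276252353288635018373562755), (0, 983351572974849664803883075435373632, 6, 853792682375543172401868927312233577), (0, 817119615347601466624347178512294994, 6, 892577677275998929379108265719280716), (0, 940436154353001548598461798963095106, 6, 733846063977726549747100886380192781)]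

def stepsX : List (ℕ × ℕ) := [(3416079, 2183687), (7221256, 14716939), (13938692, 5902343), (13938692, 1413139), (4845570, 9347075), (4845570, 6053905), (13062145, 4845570), (13062145, 13938692), (13062145, 13062145), (10170384, 10170384), (11952160, 11952160), (15515712, 15515712), (2019456, 2019456), (4038912, 4038912), (11654144, 11654144), (14919680, 14919680)]

def EL : List ℕ := [984818244535754528103549039458486304, 972560062960302233497009465070158912, 977667427692801621843532067064822880, 974181388156047706365233062509516064, 965016274200280537089072810760285568, 958477732636305396956478684837271968]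

def steps7 : List (ℕ × ℕ) := [(1413139, 237906), (1413139, 381252), (1413139, 1413139), (2854977, 10825794), (2605066, 14716939), (2605066, 3719203), (13062145, 4845570), (13062145, 13938692), (13062145, 13062145), (4845570, 13938692), (4845570, 4845570), (13938692, 13938692), (11952160, 11952160), (2019456, 2019456), (8077824, 8077824), (11654144, 11654144), (14919680, 14919680)]

/-- the colouring with the blocks `{4, 16}`, `{6, 8}` and the rest -/
def c2 : ℕ := 85756644886931559515853967532820546

def in12 (c : ℕ) : Bool := inM c && Nat.beq (imgM c DM) DM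

theorem hLin : ∀ c ∈ L, in12 c = true := by decide +kernel

theorem hG : ∀ c, in12 c = true → valid c = true ∧ toPerm c ∈ M12 := by
  intro c h
  unfold in12 at h
  rw [Bool.and_eq_true] at h
  obtain ⟨h1, h2⟩ := h
  have hv := valid_of_inM h1
  refine ⟨hv, toPerm_mem_M24 h1, ?_⟩
  refine MulAction.mem_stabilizer_iff.mpr ?_
  rw [squareDodecad_eq, toPerm_smul_mset hv, Nat.eq_of_beq_eq_true h2]

theorem smulD {g : Equiv.Perm GolayPt} (hg : g ∈ M12) : g • mset DM = mset DM := by
  rw [← squareDodecad_eq]
  exact MulAction.mem_stabilizer_iff.mp hg.2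

theorem memD {g : Equiv.Perm GolayPt} (hg : g ∈ M12) (y : GolayPt) : g y ∈ mset DM ↔ y ∈ mset DM := by
  conv_lhs => rw [← smulD hg]
  exact smul_mem_smul g _ y

theorem hLv : ∀ c ∈ L, valid c = true := fun c hc => (hG c (hLin c hc)).1

theorem hzL : z ∈ L := by decide +kernel

theorem hz1 : toPerm z ≠ 1 := toPerm_ne_one (hLv _ hzL) (i := 0) (by norm_num) (by decide +kernel)

theorem hzc : (L.all fun c => Nat.beq (mulC z c) (mulC c z)) = true := by decide +kernel

theorem hcen : ∀ c ∈ M12, (∀ w ∈ WL L, c * w = w * c) → c = 1 ∨ c = toPerm z := by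
  intro c hc hw
  refine center_eq'' (x0 := 0) (X := 274959) (Y := DM) hLv (hLv _ hzL) (hG _ (hLin _ hzL)).2 (by norm_num) hzc
    (by decide +kernel) (fun g hg hX => fixRun_sound hg.1 stepsX 274959 (by decide +kernel) hX)
    (fun g hg => (memD hg _).mpr (by decide +kernel)) ?_ hc hw
  have h : ∀ y : GolayPt, y ∈ mset DM → fxC L 0 (ix y) = true → fxC L (ix y) 0 = true →
      y = pt 0 ∨ y = pt (img z (ix (pt 0))) := by decide +kernel
  intro y hy
  rw [toPerm_apply (hLv _ hzL)]
  exact h y hy

theorem col2 : colOK L c2 = true := by decide +kernel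

/-- the octad fixed by `z` -/
def OZ : ℕ := 84464

theorem hO : ∀ y : GolayPt, Nat.beq (img z (ix y)) (ix y) = true ↔ y ∈ mset OZ := by decide +kernel

theorem hWG : WL L ≤ M12 := WL_le fun c hc => (hG c (hLin c hc)).2

variable {g : Equiv.Perm GolayPt}

theorem Oiff (hg : g ∈ NW M12 L) (y : GolayPt) : g y ∈ mset OZ ↔ y ∈ mset OZ :=
  fix_z (comm_z hcen hz1 (hG _ (hLin _ hzL)).2 (zc_of hLv (hLv _ hzL) hzc) hg) (hLv _ hzL) hO y

/-- `F = {4, 6, 8, 16}` is preserved -/
theorem Fiff (hg : g ∈ NW M12 L) (y : GolayPt) : g y ∈ mset 65872 ↔ y ∈ mset 65872 := by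
  have h : ∀ y : GolayPt, y ∈ mset 65872 ↔ y ∈ mset OZ ∧ y ∈ mset DM := by decide +kernel
  rw [h, h, Oiff hg, memD (NW_mem hg)]

theorem g16 (hg : g ∈ NW M12 L) (h4 : g (pt 4) = pt 4) : g (pt 16) = pt 16 := by
  have h1 : Fx (WL L) (pt 4) (pt 16) := fx_of_col hLv col2 (by decide +kernel) (by decide +kernel) (by decide +kernel)
  have h2 := fx_check hLv (h1.map (NW_norm hg))
  rw [h4] at h2
  have h5 := (Fiff hg (pt 16)).mpr (by decide +kernel)
  have h3 : ∀ y : GolayPt, fxC L (ix (pt 4)) (ix y) = true → y ∈ mset 65872 → y ≠ pt 4 → y = pt 16 := by decide +kernel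
  exact h3 _ h2 h5 (apply_ne h4 (by decide +kernel) rfl)

theorem g68 (hg : g ∈ NW M12 L) (h4 : g (pt 4) = pt 4) : g (pt 6) ∈ mset 320 ∧ g (pt 8) ∈ mset 320 := by
  have h16 := g16 hg h4
  have h6 := (Fiff hg (pt 6)).mpr (by decide +kernel)
  have h8 := (Fiff hg (pt 8)).mpr (by decide +kernel)
  have h3 : ∀ y : GolayPt, y ∈ mset 65872 → y ≠ pt 4 → y ≠ pt 16 → y ∈ mset 320 := by decide +kernel
  exact ⟨h3 _ h6 (apply_ne h4 (by decide +kernel) rfl) (apply_ne h16 (by decide +kernel) rfl),
    h3 _ h8 (apply_ne h4 (by decide +kernel) rfl) (apply_ne h16 (by decide +kernel) rfl)⟩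

theorem g8 (hg : g ∈ NW M12 L) (h4 : g (pt 4) = pt 4) (h6 : g (pt 6) = pt 6) : g (pt 8) = pt 8 := by
  have h3 : ∀ y : GolayPt, y ∈ mset 320 → y ≠ pt 6 → y = pt 8 := by decide +kernel
  exact h3 _ (g68 hg h4).2 (apply_ne h6 (by decide +kernel) rfl)

theorem fixD {g : Equiv.Perm GolayPt} (hg : g ∈ M24) (hgD : g • mset DM = mset DM)
    (hF : ∀ p ∈ mset 65873, g p = p) : g = 1 :=
  fix_dodecad (o5 := 9240913) (m5 := 65873) (s := 18) (b7 := 1) (restm := 12814) (m7 := 328019)
    (six := [0, 4, 6, 8, 16, 18]) (EL := EL) (steps7 := steps7) (by decide +kernel) (by norm_num) (by decide +kernel)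
    (by decide +kernel) (by decide +kernel) (by decide +kernel) (by decide +kernel) (by decide +kernel) (by norm_num)
    (by decide +kernel) (by decide +kernel) (by decide +kernel) (by decide +kernel) hg hgD hF

theorem hN : NW M12 L ≤ WL L ∧ ∃ k, Nat.card ↥(NW M12 L) = 2 ^ k := by
  have hWK := WL_le_NW hWG
  have key : NW M12 L ⊓ FS [] ≤ WL L ∧ ∃ k, Nat.card ↥(NW M12 L ⊓ FS []) = 2 ^ k := by
    refine sift_step (b := 4) (O := mset 65872) hWK ?_ (tr_exists hLv (by decide +kernel) (by simp) (by norm_num))
      ⟨2, by decide +kernel⟩ ?_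
    · intro g hg _
      exact (Fiff hg _).mpr (by decide +kernel)
    refine sift_step (b := 6) (O := mset 320) hWK ?_ (tr_exists hLv (by decide +kernel) (by simp) (by norm_num))
      ⟨1, by decide +kernel⟩ ?_
    · intro g hg h
      exact (g68 hg (h 4 (by simp))).1
    refine sift_step (b := 0) (O := mset 274959) hWK ?_ (tr_exists hLv (by decide +kernel) (by simp) (by norm_num))
      ⟨3, by decide +kernel⟩ ?_
    · intro g hg h
      have h1 := (Fiff hg (pt 0)).not.mpr (by decide +kernel)
      have h1' := (memD (NW_mem hg) (pt 0)).mpr (by decide +kernel)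
      have h2 : ∀ y : GolayPt, y ∈ mset DM → y ∉ mset 65872 → y ∈ mset 274959 := by decide +kernel
      exact h2 _ h1' h1
    refine sift_end ?_
    intro g hg h
    have h4 := h 4 (by simp)
    have h6 := h 6 (by simp)
    refine fixD (NW_mem hg).1 (smulD (NW_mem hg)) ?_
    have h9 : ∀ p : GolayPt, p ∈ mset 65873 → p = pt 4 ∨ p = pt 16 ∨ p = pt 6 ∨ p = pt 8 ∨ p = pt 0 := by
      decide +kernel
    intro p hp
    rcases h9 p hp with rfl | rfl | rfl | rfl | rfl
    exacts [h4, g16 hg h4, h6, g8 hg h4 h6, h 0 (by simp)]
  rwa [FS_nil, inf_top_eq] at key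

/-- The 2-fusion system of the Mathieu group M₁₂ (as the explicit permutation group carved out of the automorphism group of the binary Golay code) on a Sylow 2-subgroup is simple: saturated, over a nontrivial 2-group, with no normal subsystem other than the trivial one and itself. -/
theorem result (S : Sylow 2 Cfsg.Spor.M12) : (Cfsg.groupFusionSystem (S : Subgroup Cfsg.Spor.M12)).IsSimple 2 :=
  simple_of_data hLin hG hzL hz1 hcen hN (st := st) (by decide +kernel) S

end Cfsg.Agent.S5167
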