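import Cfsg.Statements.S5169
import Cfsg.Agent.Lib.MathieuFus22
-- import your own Cfsg.Agent.* helpers here

set_option autoImplicit false
open Cfsg

namespace Cfsg.Agent.S5169

/-- The 2-fusion system of the Mathieu group M₂₃ (as the explicit permutation group carved out of the automorphism group of the binary Golay code) on a Sylow 2-subgroup is simple: saturated, over a nontrivial 2-group, with no normal subsystem other than the trivial one and itself. -/
theorem result (S : Sylow 2 Cfsg.Spor.M23) : (Cfsg.groupFusionSystem (S : Subgroup Cfsg.Spor.M23)).IsSimple 2 := by
  refine Cfsg.Agent.Lib.MathieuFus22.main (fun g hg => hg.1) (fun g hg => hg.1) (fun g hg => ?_) S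
  have h : g • (none : GolayPt) = none := hg.2
  exact h

end Cfsg.Agent.S5169
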