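import Cfsg.Statements.S5171
import Cfsg.Agent.Lib.SpCrit3

set_option autoImplicit false
open Cfsg

namespace Cfsg.Agent.S5171

open Cfsg.Agent.Lib.FusionSimpleGroup Cfsg.Agent.Lib.SpCrit Cfsg.Agent.Lib.PSpAut

/-- For a finite field K of characteristic p and m ≥ 2, excluding the case m = 2 with K of two elements, the p-fusion system of the projective symplectic group PSp_{2m}(K) on a Sylow p-subgroup is simple. -/
theorem result {K : Type*} [Field K] [Fintype K] (p : ℕ) [Fact p.Prime] [CharP K p] (m : ℕ) (hm : 2 ≤ m) (hex : m = 2 → 3 ≤ Fintype.card K) (S : Sylow p (Cfsg.PSp m K)) : (Cfsg.groupFusionSystem (S : Subgroup (Cfsg.PSp m K))).IsSimple p := by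
  obtain ⟨P, hP⟩ := exists_sylow_U (F := K) (m := m) (p := p)
  have hker : (QuotientGroup.mk' (Subgroup.center (Matrix.symplecticGroup (Fin m) K))).ker =
      Subgroup.center (Matrix.symplecticGroup (Fin m) K) := QuotientGroup.ker_mk' _
  refine simple_of_cover (QuotientGroup.mk' (Subgroup.center (Matrix.symplecticGroup (Fin m) K)))
    (QuotientGroup.mk'_surjective _) ?_ ?_ P ?_ ?_ S
  · intro z hz g
    rw [hker] at hz
    exact (Subgroup.mem_center_iff.mp hz) g
  · rw [hker]; exact center_coprime p (by omega)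
  · rw [hP]
    intro h
    have h2 := tM_mem_U (1 : K) (inW_e (⟨0, by omega⟩ : Fin m))
    rw [h, Subgroup.mem_bot, ← tM_zero (Cfsg.Agent.Lib.PSpAut.e (⟨0, by omega⟩ : Fin m))] at h2
    exact one_ne_zero (scalar_eq_of_tM_eq (e_ne _) h2)
  · rw [hker, hP]
    exact ⟨fun T hT hc => strongly_closed p hm (fun h => by rw [Nat.card_eq_fintype_card]; exact hex h) T hT hc,
      fun g hg => normalizer_gen p hm hg⟩

end Cfsg.Agent.S5171
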