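import Cfsg.Statements.S5172
import Cfsg.Agent.Lib.UnCrit4

set_option autoImplicit false
open Cfsg

namespace Cfsg.Agent.S5172

open Cfsg.Agent.Lib.FusionSimpleGroup Cfsg.Agent.Lib.UnCrit

/-- For a finite field K with q² elements of characteristic p and n ≥ 4, the p-fusion system of the projective special unitary group PSU_n(q) (realised over K) on a Sylow p-subgroup is simple. -/
theorem result {K : Type*} [Field K] [Fintype K] (p q : ℕ) [Fact p.Prime] [CharP K p] (hK : Fintype.card K = q ^ 2) (n : ℕ) (hn : 4 ≤ n) (S : Sylow p (Cfsg.PSU n K q)) : (Cfsg.groupFusionSystem (S : Subgroup (Cfsg.PSU n K q))).IsSimple p := by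
  obtain ⟨b, hb⟩ := exists_gram (n := n) hK
  obtain ⟨P, hP⟩ := exists_sylow_U hK hb (p := p)
  have hker : (QuotientGroup.mk' (Subgroup.center (Cfsg.SU n K q))).ker =
      Subgroup.center (Cfsg.SU n K q) := QuotientGroup.ker_mk' _
  refine simple_of_cover (QuotientGroup.mk' (Subgroup.center (Cfsg.SU n K q)))
    (QuotientGroup.mk'_surjective _) ?_ ?_ P ?_ ?_ S
  · intro z hz g
    rw [hker] at hz
    exact (Subgroup.mem_center_iff.mp hz) g
  · rw [hker]; exact center_coprime hK p (by omega)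
  · rw [hP]
    intro h
    obtain ⟨a, ha0, ha⟩ := (Cfsg.Agent.Lib.UnBridge.herm_HS n hK).exists_tr0
    have h1 : Cfsg.Agent.Lib.PSUAut.tU hK a (b ⟨0, by omega⟩) ∈ U hK hb :=
      tU_mem_U hK hb (i := 1) (lt_b hK hb (by show 0 < 1; omega)) (by omega) ha
    have hzz : Cfsg.hermForm n K q (b ⟨0, by omega⟩) (b ⟨0, by omega⟩) = 0 := hne_form hK hb (by show 0 + 0 ≠ n - 1; omega)
    rw [h, Subgroup.mem_bot] at h1
    have h0 : (0 : K) + Cfsg.Agent.Lib.UnBridge.sig hK 0 = 0 := by rw [map_zero, add_zero]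
    refine ha0 (Cfsg.Agent.Lib.PSUAut.tU_inj' hK (b_ne hK hb ⟨0, by omega⟩) hzz ha h0 ?_)
    rw [h1]
    exact (Cfsg.Agent.Lib.PSUAut.rE_zero hK hzz).symm
  · rw [hker, hP]
    exact ⟨fun T hT hc => strongly_closed hK hb p hn T hT hc, fun g hg => normalizer_gen hK hb p hn hg⟩

end Cfsg.Agent.S5172
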