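import Cfsg.Statements.S5311
import Cfsg.Agent.Lib.H88Trans2

set_option autoImplicit false
open Cfsg Cfsg.FusionSystem Cfsg.Agent.Lib.FusionBasic Cfsg.Agent.Lib Cfsg.Agent.Lib.H88Trans

namespace Cfsg.Agent.S5311

/-- The layer of a saturated fusion system F over a finite p-group S is characteristic in F: for every automorphism α of S that is an automorphism of F (α and its inverse are morphisms from F to F) and every layer E of F over T, α carries T onto T and, for every map φ of E with source P, the map induced by α on α(P) (that is, α ∘ φ ∘ α⁻¹) is a map of E. -/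
theorem result {Ω : Type*} [Group Ω] {S : Subgroup Ω} [Finite S] (p : ℕ) [Fact p.Prime] (hS : IsPGroup p S) (F : Cfsg.FusionSystem S) (hF : F.IsSaturated p)
    (α : ↥S ≃* ↥S) (hα : F.IsMorphism F (S.subtype.comp α.toMonoidHom))
    (hα' : F.IsMorphism F (S.subtype.comp α.symm.toMonoidHom))
    {T : Subgroup Ω} (E : Cfsg.FusionSystem T) (hE : E.IsLayerOf F p) :
    Cfsg.FusionSystem.imageAlong (S.subtype.comp α.toMonoidHom) T = T ∧
      ∀ (P : Subgroup Ω) (φ : ↥P →* Ω), φ ∈ E.Hom P →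
        ∀ φ' : ↥(Cfsg.FusionSystem.imageAlong (S.subtype.comp α.toMonoidHom) P) →* Ω,
          Cfsg.FusionSystem.InducedAlong (S.subtype.comp α.toMonoidHom) φ φ' →
            φ' ∈ E.Hom (Cfsg.FusionSystem.imageAlong (S.subtype.comp α.toMonoidHom) P) := by
  have hrel : H88Trans.Rel (Bij.ofEquiv α) F F := rel_of_morphism α hα hα'
  obtain ⟨h1, h2⟩ := layer_char hS hrel hE
  have hTS : T ≤ S := h2.le
  refine ⟨by rw [imageAlong_eq α hTS]; exact h1, ?_⟩
  rintro P φ hφ φ' ⟨hP, hφS, hP', hind⟩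
  have hf : FMap E P (toFun φ) := fmap_toFun.2 hφ
  have h3 := h2.fmap hf (f' := toFun φ') (fun x hx => by
    have h4 := hind ⟨x, hx⟩
    have h5 : (Bij.ofEquiv α).a x = (S.subtype.comp α.toMonoidHom) ⟨x, hP hx⟩ := ofEquiv_a α ⟨x, hP hx⟩
    have h6 : (Bij.ofEquiv α).a (φ ⟨x, hx⟩) = (S.subtype.comp α.toMonoidHom) ⟨φ ⟨x, hx⟩, hφS ⟨x, hx⟩⟩ :=
      ofEquiv_a α ⟨φ ⟨x, hx⟩, hφS ⟨x, hx⟩⟩
    rw [h5, toFun_of_mem φ' (hP' ⟨x, hx⟩), toFun_of_mem φ hx, h6]
    exact h4)
  rw [← imageAlong_eq α hP] at h3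
  exact fmap_toFun.1 h3

end Cfsg.Agent.S5311
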