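import Cfsg.Statements.S5347
import Cfsg.Agent.Lib.ThreeTransp

set_option autoImplicit false
open Cfsg

namespace Cfsg.Agent.S5347

/-- Let D be a conjugation-invariant generating set of 3-transpositions of a finite group G, p a prime bigger than 3, and P a p-subgroup of G. If a member d of D normalizes P then d centralizes P. -/
theorem result {G : Type*} [Group G] [Finite G] {D : Set G} (hD : Cfsg.IsThreeTranspositionGroup D) {p : ℕ} (hp : p.Prime) (hp3 : 3 < p) (P : Subgroup G) (hP : IsPGroup p P) {d : G} (hd : d ∈ D) (hnorm : d ∈ Subgroup.normalizer (P : Set G)) : ∀ x ∈ P, Commute d x := by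
  exact Cfsg.Agent.Lib.ThreeTransp.centralizes_p_group hD.1 hD.2.1 hp hp3 P hP hd
    (fun x hx => (Subgroup.mem_normalizer_iff.1 hnorm x).1 hx)

end Cfsg.Agent.S5347
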