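import Cfsg.Statements.S5348
import Cfsg.Agent.Lib.ThreeTransp

set_option autoImplicit false
open Cfsg

namespace Cfsg.Agent.S5348

/-- Let D be a conjugation-invariant generating set of 3-transpositions of a finite group G and d a member of D. Let V be the set of members of D commuting with exactly the same members of D as d, and W the set of members w of D such that the members of D other than w commuting with w are precisely the members of D other than d commuting with d. Then V = {d} or W = {d}. -/
theorem result {G : Type*} [Group G] [Finite G] {D : Set G} (hD : Cfsg.IsThreeTranspositionGroup D) {d : G} (hd : d ∈ D) : {v : G | v ∈ D ∧ ∀ e ∈ D, Commute v e ↔ Commute d e} = {d} ∨ {w : G | w ∈ D ∧ {y : G | y ∈ D ∧ y ≠ d ∧ Commute d y} = {y : G | y ∈ D ∧ y ≠ w ∧ Commute w y}} = {d} := by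
  exact Cfsg.Agent.Lib.ThreeTransp.V_or_W_trivial hd

end Cfsg.Agent.S5348
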