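import Cfsg.Statements.S5358
import Cfsg.Agent.Lib.ReflThreeGrp

set_option autoImplicit false
open scoped MatrixGroups
open Cfsg

namespace Cfsg.Agent.S5358

/-- Let Q be a non-degenerate quadratic form on the n-dimensional coordinate space over the field with three elements and u, v vectors of the same non-zero norm Q(u) = Q(v) spanning different lines (v ≠ u and v ≠ −u). Then the reflection matrices of u and v commute if and only if u and v are orthogonal for the polar form of Q. -/
theorem result (n : ℕ) (Q : QuadraticForm (ZMod 3) (Fin n → ZMod 3)) (hQ : (QuadraticMap.polarBilin Q).Nondegenerate) (u v : Fin n → ZMod 3) (hu : Q u ≠ 0) (huv : Q u = Q v) (h1 : v ≠ u) (h2 : v ≠ -u) : Commute (Cfsg.reflectionMatrix (⇑Q) u) (Cfsg.reflectionMatrix (⇑Q) v) ↔ QuadraticMap.polar (⇑Q) u v = 0 := by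
  rw [← Cfsg.Agent.Lib.ReflThree.refl_commute_iff (Q := Q) hu huv h1 h2]
  have key : ∀ a b : Fin n → ZMod 3,
      Cfsg.reflectionMatrix (⇑Q) a * Cfsg.reflectionMatrix (⇑Q) b =
        Cfsg.reflectionMatrix (⇑Q) b * Cfsg.reflectionMatrix (⇑Q) a ↔
      Cfsg.Agent.Lib.Quad.refl Q a * Cfsg.Agent.Lib.Quad.refl Q b =
        Cfsg.Agent.Lib.Quad.refl Q b * Cfsg.Agent.Lib.Quad.refl Q a := by
    intro a b
    constructor
    · intro h
      apply LinearEquiv.ext
      intro x
      have h3 := congrArg (fun M => Matrix.mulVec M x) h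
      simp only [← Matrix.mulVec_mulVec, Cfsg.Agent.Lib.Quad.reflectionMatrix_mulVec] at h3
      exact h3
    · intro h
      apply Cfsg.Agent.Lib.Quad.matrix_ext_of_mulVec
      intro x
      rw [← Matrix.mulVec_mulVec, ← Matrix.mulVec_mulVec]
      simp only [Cfsg.Agent.Lib.Quad.reflectionMatrix_mulVec]
      exact congrArg (fun f => f x) h
  exact key u v

end Cfsg.Agent.S5358
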