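import Cfsg.Statements.S5363
import Cfsg.Agent.Lib.ThreeTransp

set_option autoImplicit false
open Cfsg

namespace Cfsg.Agent.S5363

/-- Let D be a conjugation-invariant set of involutions of a finite group G. Then every product of two members of D has odd order or order 2 if and only if, for every a in D and every b in D different from a and commuting with a, the members of D commuting with a b are exactly those commuting with both a and b. -/
theorem result {G : Type*} [Group G] [Finite G] {D : Set G} (hinv : ∀ d ∈ D, orderOf d = 2) (hconj : ∀ g : G, ∀ d ∈ D, g * d * g⁻¹ ∈ D) : (∀ a ∈ D, ∀ b ∈ D, Odd (orderOf (a * b)) ∨ orderOf (a * b) = 2) ↔ ∀ a ∈ D, ∀ b ∈ D, b ≠ a → Commute a b → {y : G | y ∈ D ∧ Commute (a * b) y} = {y : G | y ∈ D ∧ Commute a y} ∩ {y : G | y ∈ D ∧ Commute b y} := by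
  have hsq : ∀ d ∈ D, d * d = 1 := fun d hd => Cfsg.Agent.Lib.ThreeTransp.mul_self_of_orderOf (hinv d hd)
  constructor
  · intro h a ha b hb hba hab
    have haa := hsq a ha
    have hbb := hsq b hb
    have ha' : a⁻¹ = a := inv_eq_of_mul_eq_one_right haa
    have hb' : b⁻¹ = b := inv_eq_of_mul_eq_one_right hbb
    ext y
    simp only [Set.mem_setOf_eq, Set.mem_inter_iff]
    constructor
    · rintro ⟨hy, hcomm⟩
      have hyy := hsq y hy
      have hy' : y⁻¹ = y := inv_eq_of_mul_eq_one_right hyy
      -- t := a * b
      set t := a * b with ht
      have htt : t * t = 1 := by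
        rw [ht]; calc a * b * (a * b) = a * (b * a) * b := by group
          _ = a * (a * b) * b := by rw [hab.eq]
          _ = (a * a) * (b * b) := by group
          _ = 1 := by rw [haa, hbb, one_mul]
      have htne : t ≠ 1 := by
        intro h1
        apply hba
        have := eq_inv_of_mul_eq_one_right (ht ▸ h1 : a * b = 1)
        rw [this, ha']
      have hat : Commute a t := by
        show a * t = t * a
        rw [ht, ← mul_assoc, mul_assoc a b a, ← hab.eq]; group
      -- b = a * t
      have hbt : b = a * t := by rw [ht, ← mul_assoc, haa, one_mul]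
      have hyt : Commute y t := hcomm.symm
      have hay : Commute a y := by
        rcases h a ha y hy with hodd | h2
        · -- odd order
          set u := a * y with hu
          have hut : Commute u t := hat.mul_left hyt
          have hay' : y * a * y⁻¹ ∈ D := hconj y a ha
          have hby : y * b * y⁻¹ ∈ D := hconj y b hb
          have e : a * (y * b * y⁻¹) = u * u * t := by
            rw [hbt, hy', hu]
            calc a * (y * (a * t) * y) = a * y * a * (t * y) := by group
              _ = a * y * a * (y * t) := by rw [hyt.eq]
              _ = a * y * (a * y) * t := by group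
          have hcop : Nat.Coprime (orderOf (u * u)) (orderOf t) := by
            have h2 : orderOf t = 2 := by
              apply orderOf_eq_prime
              · rw [pow_two]; exact htt
              · exact htne
            rw [h2]
            rw [← pow_two]
            have := orderOf_pow_dvd (x := u) 2
            exact (Nat.Coprime.coprime_dvd_left this (Nat.coprime_two_right.2 hodd))
          have huut : Commute (u * u) t := (hut.mul_left hut)
          have hord := huut.orderOf_mul_eq_mul_orderOf_of_coprime hcop
          have ht2 : orderOf t = 2 := by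
            apply orderOf_eq_prime
            · rw [pow_two]; exact htt
            · exact htne
          rw [ht2] at hord
          have := h a ha _ hby
          rw [e, hord] at this
          rcases this with h1 | h1
          · exact absurd h1 (by
              rw [Nat.not_odd_iff_even]
              exact even_two.mul_left _)
          · have h3 : orderOf (u * u) = 1 := by omega
            have h4 : u * u = 1 := orderOf_eq_one_iff.1 h3
            have h5 : orderOf u ∣ 2 := orderOf_dvd_of_pow_eq_one (by rw [pow_two]; exact h4)
            have h6 : orderOf u = 1 := by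
              rcases (Nat.dvd_prime Nat.prime_two).1 h5 with h | h
              · exact h
              · rw [h] at hodd; exact absurd hodd (by decide)
            have h7 : u = 1 := orderOf_eq_one_iff.1 h6
            have h8 : y = a := by
              have := eq_inv_of_mul_eq_one_right (hu ▸ h7 : a * y = 1)
              rw [this, ha']
            rw [h8]
        · apply Cfsg.Agent.Lib.ThreeTransp.commute_of_sq haa hyy
          rw [← h2]; exact pow_orderOf_eq_one _
      refine ⟨⟨hy, hay⟩, hy, ?_⟩
      rw [hbt]
      exact hay.mul_left hyt.symm
    · rintro ⟨⟨hy, h1⟩, -, h2⟩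
      exact ⟨hy, h1.mul_left h2⟩
  · intro h a ha b hb
    by_contra hcon
    push Not at hcon
    obtain ⟨hno, hn2⟩ := hcon
    have haa := hsq a ha
    have hbb := hsq b hb
    have ha' : a⁻¹ = a := inv_eq_of_mul_eq_one_right haa
    have hb' : b⁻¹ = b := inv_eq_of_mul_eq_one_right hbb
    rw [Nat.not_odd_iff_even] at hno
    obtain ⟨m, hm⟩ := hno
    have hpos : 0 < orderOf (a * b) := orderOf_pos _
    set r := a * b with hr
    set z := r ^ m with hz
    have hzz : z * z = 1 := by
      rw [hz, ← pow_add, ← hm, pow_orderOf_eq_one]
    have hz1 : z ≠ 1 := by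
      intro h1
      have := orderOf_dvd_of_pow_eq_one h1
      have := Nat.le_of_dvd (by omega) this
      omega
    have hz' : z⁻¹ = z := inv_eq_of_mul_eq_one_right hzz
    -- a inverts r
    have har : a * r * a⁻¹ = r⁻¹ := by
      rw [hr, mul_inv_rev, ha', hb', ← mul_assoc, haa, one_mul]
    have harn : ∀ k : ℕ, a * r ^ k * a⁻¹ = (r ^ k)⁻¹ := by
      intro k
      rw [← conj_pow, har, inv_pow]
    have haz : Commute a z := by
      have := harn m
      rw [← hz, hz'] at this
      show a * z = z * a
      calc a * z = (a * z * a⁻¹) * a := by group
        _ = z * a := by rw [this]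
    have hbz : Commute b z := by
      have hb2 : b = a⁻¹ * r := by rw [hr]; group
      rw [hb2]
      exact (haz.inv_left).mul_left ((Commute.refl r).pow_right m)
    -- a * z ∈ D
    have hazD : a * z ∈ D := by
      rcases Nat.even_or_odd m with ⟨k, hk⟩ | ⟨k, hk⟩
      · -- m = 2k : a r^{2k} = r^{-k} a r^{k}
        have := hconj ((r ^ k)⁻¹) a ha
        have e : (r ^ k)⁻¹ * a * (r ^ k)⁻¹⁻¹ = a * z := by
          rw [inv_inv, ← harn k, hz, hk, pow_add]
          rw [ha']
          calc a * r ^ k * a * a * r ^ k = a * r ^ k * (a * a) * r ^ k := by group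
            _ = a * (r ^ k * r ^ k) := by rw [haa]; group
        rw [e] at this; exact this
      · -- m = 2k+1 : a r^{2k+1} = r^{-k} (a r) r^{k} , a r = b
        have := hconj ((r ^ k)⁻¹) b hb
        have e : (r ^ k)⁻¹ * b * (r ^ k)⁻¹⁻¹ = a * z := by
          have hb2 : b = a * r := by rw [hr, ← mul_assoc, haa, one_mul]
          rw [inv_inv, ← harn k, hz, hk, hb2]
          rw [ha']
          calc a * r ^ k * a * (a * r) * r ^ k = a * r ^ k * (a * a) * r * r ^ k := by group
            _ = a * (r ^ k * r * r ^ k) := by rw [haa]; group
            _ = a * r ^ (2 * k + 1) := by congr 1; rw [← pow_succ, ← pow_add]; congr 1; ring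
        rw [e] at this; exact this
    have hne : a * z ≠ a := by
      intro h1
      exact hz1 (mul_left_cancel (a := a) (by rw [h1, mul_one]))
    have hca : Commute a (a * z) := (Commute.refl a).mul_right haz
    have key := h a ha (a * z) hazD hne hca
    have hb_mem : b ∈ {y : G | y ∈ D ∧ Commute (a * (a * z)) y} := by
      refine ⟨hb, ?_⟩
      rw [← mul_assoc, haa, one_mul]
      exact hbz.symm
    rw [key] at hb_mem
    have hab : Commute a b := hb_mem.1.2
    have h2 : r ^ 2 = 1 := Cfsg.Agent.Lib.ThreeTransp.sq_of_commute haa hbb hab
    have h3 := Nat.le_of_dvd (by norm_num) (orderOf_dvd_of_pow_eq_one h2)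
    omega

end Cfsg.Agent.S5363
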