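import Cfsg.Statements.S5364
import Cfsg.Agent.Lib.ThreeTransp

set_option autoImplicit false
open Cfsg

namespace Cfsg.Agent.S5364

/-- Let D be a conjugation-invariant set of involutions of a finite group G and t an involution in the centre of G such that d t does not lie in D for any d in D. If the images of the members of D in G modulo the subgroup generated by t satisfy the 3-transposition order conditions (each has order 2 and any two have product of order at most 3), then so do the members of D. -/
theorem result {G : Type*} [Group G] [Finite G] {D : Set G} (hinv : ∀ d ∈ D, orderOf d = 2) (hconj : ∀ g : G, ∀ d ∈ D, g * d * g⁻¹ ∈ D) (t : G) (ht : orderOf t = 2) (htZ : t ∈ Subgroup.center G) (hDt : ∀ d ∈ D, d * t ∉ D) [(Subgroup.zpowers t).Normal] (himg : Cfsg.IsThreeTranspositionSet ((QuotientGroup.mk : G → G ⧸ Subgroup.zpowers t) '' D)) : Cfsg.IsThreeTranspositionSet D := by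
  have htc : ∀ x : G, t * x = x * t := fun x => ((Subgroup.mem_center_iff.1 htZ x)).symm
  have htt : t * t = 1 := Cfsg.Agent.Lib.ThreeTransp.mul_self_of_orderOf ht
  have hz : ∀ x : G, x ∈ Subgroup.zpowers t → x = 1 ∨ x = t := by
    intro x hx
    rw [Subgroup.mem_zpowers_iff] at hx
    obtain ⟨k, rfl⟩ := hx
    rcases Int.even_or_odd k with ⟨m, hm⟩ | ⟨m, hm⟩
    · left
      rw [hm, zpow_add, ← (Commute.refl t).mul_zpow, htt, one_zpow]
    · right
      rw [hm, zpow_add, zpow_one, two_mul, zpow_add, ← (Commute.refl t).mul_zpow, htt, one_zpow, one_mul]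
  refine ⟨hinv, fun a ha b hb => ?_⟩
  have haa : a * a = 1 := Cfsg.Agent.Lib.ThreeTransp.mul_self_of_orderOf (hinv a ha)
  have hbb : b * b = 1 := Cfsg.Agent.Lib.ThreeTransp.mul_self_of_orderOf (hinv b hb)
  have ha' : a⁻¹ = a := inv_eq_of_mul_eq_one_right haa
  have hb' : b⁻¹ = b := inv_eq_of_mul_eq_one_right hbb
  have key := himg.2 _ ⟨a, ha, rfl⟩ _ ⟨b, hb, rfl⟩
  have hmk : ∀ n : ℕ, ((a : G ⧸ Subgroup.zpowers t) * (b : G ⧸ Subgroup.zpowers t)) ^ n = 1 →
      (a * b) ^ n = 1 ∨ (a * b) ^ n = t := by
    intro n hn
    apply hz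
    rw [← QuotientGroup.eq_one_iff]
    rw [← hn]
    push_cast
    rfl
  rcases key with h | h
  · rcases hmk 2 h with h2 | h2
    · exact Or.inl h2
    · exfalso
      -- b a b⁻¹ = a t
      have : b * a * b⁻¹ = a * t := by
        rw [hb']
        have h3 : a * b * (a * b) = t := by rw [← pow_two]; exact h2
        calc b * a * b = (a * a) * (b * a * b) := by rw [haa, one_mul]
          _ = a * (a * b * (a * b)) := by group
          _ = a * t := by rw [h3]
      exact hDt a ha (this ▸ hconj b a ha)
  · rcases hmk 3 h with h3 | h3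
    · exact Or.inr h3
    · exfalso
      have e : a * b * (a * b) * (a * b) = t := by rw [← h3, pow_succ, pow_two]
      have : (b * a) * b * (b * a)⁻¹ = a * t := by
        rw [mul_inv_rev, ha', hb']
        calc b * a * b * (a * b) = (a * a) * (b * a * b * (a * b)) := by rw [haa, one_mul]
          _ = a * (a * b * (a * b) * (a * b)) := by group
          _ = a * t := by rw [e]
      exact hDt a ha (this ▸ hconj (b * a) b hb)

end Cfsg.Agent.S5364
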