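import Cfsg.Statements.S5371
import Cfsg.Agent.S0283
import Cfsg.Agent.Lib.FiM23e42

set_option autoImplicit false
open Cfsg

namespace Cfsg.Agent.S5371

open Cfsg.Agent.Lib.ThreeTypes Cfsg.Agent.Lib.FiUniq

theorem psu62 : PSU62Simple := by
  intro F _ _ hF
  exact Cfsg.Agent.S0283.result (by rw [hF]; norm_num) 6 (by norm_num) (by norm_num)

/-- Uniqueness of the 3-transposition groups of type M(23). Let G₁ and G₂ be finite groups with trivial centres, each generated by a conjugation-invariant set of 3-transpositions Dᵢ on which it acts primitively, such that for some member d of Dᵢ the subgroup generated by the members of Dᵢ other than d commuting with d has central largest normal 2- and 3-subgroups, and suppose each Gᵢ with Dᵢ is of type M(23). Then there is an isomorphism from G₁ to G₂ carrying D₁ onto D₂. -/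
theorem result {G₁ G₂ : Type*} [Group G₁] [Finite G₁] [Group G₂] [Finite G₂] {D₁ : Set G₁} {D₂ : Set G₂} (hD₁ : Cfsg.IsThreeTranspositionGroup D₁) (hprim₁ : Cfsg.IsPrimitiveUnderConj D₁) (hZ₁ : Subgroup.center G₁ = ⊥) (d₁ : G₁) (hd₁ : d₁ ∈ D₁) (h3₁ : Cfsg.pCore 3 ↥(Subgroup.closure {y : G₁ | y ∈ D₁ ∧ y ≠ d₁ ∧ Commute d₁ y}) ≤ Subgroup.center ↥(Subgroup.closure {y : G₁ | y ∈ D₁ ∧ y ≠ d₁ ∧ Commute d₁ y})) (h2₁ : Cfsg.pCore 2 ↥(Subgroup.closure {y : G₁ | y ∈ D₁ ∧ y ≠ d₁ ∧ Commute d₁ y}) ≤ Subgroup.center ↥(Subgroup.closure {y : G₁ | y ∈ D₁ ∧ y ≠ d₁ ∧ Commute d₁ y})) (hD₂ : Cfsg.IsThreeTranspositionGroup D₂) (hprim₂ : Cfsg.IsPrimitiveUnderConj D₂) (hZ₂ : Subgroup.center G₂ = ⊥) (d₂ : G₂) (hd₂ : d₂ ∈ D₂) (h3₂ : Cfsg.pCore 3 ↥(Subgroup.closure {y : G₂ | y ∈ D₂ ∧ y ≠ d₂ ∧ Commute d₂ y}) ≤ Subgroup.center ↥(Subgroup.closure {y : G₂ | y ∈ D₂ ∧ y ≠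 d₂ ∧ Commute d₂ y})) (h2₂ : Cfsg.pCore 2 ↥(Subgroup.closure {y : G₂ | y ∈ D₂ ∧ y ≠ d₂ ∧ Commute d₂ y}) ≤ Subgroup.center ↥(Subgroup.closure {y : G₂ | y ∈ D₂ ∧ y ≠ d₂ ∧ Commute d₂ y})) (ht₁ : Cfsg.IsOfTypeM23 G₁ D₁) (ht₂ : Cfsg.IsOfTypeM23 G₂ D₂) : ∃ e : G₁ ≃* G₂, e '' D₁ = D₂ := by
  exact unique23 (t23 psu62 hD₁ hprim₁ ht₁) (t23 psu62 hD₂ hprim₂ ht₂)

end Cfsg.Agent.S5371
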