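import Cfsg.Statements.S5376
import Cfsg.Agent.S0283
import Cfsg.Agent.Lib.FiPerf
-- import your own Cfsg.Agent.* helpers here

set_option autoImplicit false
open Cfsg

namespace Cfsg.Agent.S5376

open Cfsg.Agent.Lib.ThreeTypes Cfsg.Agent.Lib.FiMu

theorem psu62 : PSU62Simple := by
  intro F _ _ hF
  exact Cfsg.Agent.S0283.result (by rw [hF]; norm_num) 6 (by norm_num) (by norm_num)


/-- Let G be a finite group with trivial centre generated by a conjugation-invariant set D of 3-transpositions on which it acts primitively, of type M(22), and suppose some finite primitive 3-transposition group of type M(23) exists. Then G is simple, and for every d in D the subgroup generated by the members of D other than d commuting with d contains d and is quasisimple with centre generated by d. -/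
theorem result {G : Type*} [Group G] [Finite G] {D : Set G} (hD : Cfsg.IsThreeTranspositionGroup D) (hprim : Cfsg.IsPrimitiveUnderConj D) (ht : Cfsg.IsOfTypeM22 G D) (hex : ∃ (X : Type) (_ : Group X) (_ : Finite X) (E : Set X), Cfsg.IsThreeTranspositionClass E ∧ Cfsg.IsPrimitiveUnderConj E ∧ Cfsg.IsOfTypeM23 X E) : IsSimpleGroup G ∧ ∀ d ∈ D, d ∈ Subgroup.closure {y : G | y ∈ D ∧ y ≠ d ∧ Commute d y} ∧ Cfsg.IsQuasisimple ↥(Subgroup.closure {y : G | y ∈ D ∧ y ≠ d ∧ Commute d y}) ∧ Subgroup.center ↥(Subgroup.closure {y : G | y ∈ D ∧ y ≠ d ∧ Commute d y}) = (Subgroup.zpowers d).subgroupOf (Subgroup.closure {y : G | y ∈ D ∧ y ≠ d ∧ Commute d y}) := by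
  obtain ⟨L, hpar, _, _, hcm, hcard⟩ := full22 psu62 hD hprim ht
  refine ⟨simple22 psu62 hD hprim ht, ?_⟩
  intro d hd
  have h := rp6_22 psu62 hD hprim ht d hd
  exact ⟨h.mem_HH, quasi22 psu62 hD hprim ht hd, center_eq L hd h.mem_HH⟩

end Cfsg.Agent.S5376
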