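import Cfsg.Agent.S0283
import Cfsg.Agent.Lib.H89FC3
import Cfsg.Statements.S5377

set_option autoImplicit false
open Cfsg

namespace Cfsg.Agent.S5377

theorem psu62 : Cfsg.Agent.Lib.ThreeTypes.PSU62Simple := by
  intro F _ _ hF
  exact Cfsg.Agent.S0283.result (by rw [hF]; norm_num) 6 (by norm_num) (by norm_num)


/-- Let G be a finite group with an involution d whose centralizer C is quasisimple with C modulo the subgroup generated by d isomorphic to the projective special unitary group of dimension 6 over the field with four elements, and suppose some conjugate of d other than d commutes with d. Then the conjugacy class of d is a class of 3-transpositions generating G, and G with this class is of type M(22). -/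
theorem result {G : Type*} [Group G] [Finite G] (d : G) (hd : orderOf d = 2) (hq : Cfsg.IsQuasisimple (Subgroup.centralizer ({d} : Set G))) [((Subgroup.zpowers d).subgroupOf (Subgroup.centralizer ({d} : Set G))).Normal] (K : Type) [Field K] [Fintype K] (hK : Fintype.card K = 4) (e : (Subgroup.centralizer ({d} : Set G)) ⧸ (Subgroup.zpowers d).subgroupOf (Subgroup.centralizer ({d} : Set G)) ≃* Cfsg.PSU 6 K 2) (hnwc : ∃ g : G, g * d * g⁻¹ ∈ Subgroup.centralizer ({d} : Set G) ∧ g * d * g⁻¹ ≠ d) : Cfsg.IsThreeTranspositionClass (conjugatesOf d) ∧ Cfsg.IsOfTypeM22 G (conjugatesOf d) := by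
  obtain ⟨hT, hcl, i, hi⟩ := Cfsg.Agent.Lib.H89FC.main psu62 hd hq K hK e hnwc
  exact ⟨⟨hT.1, ⟨d, mem_conjugatesOf_self, rfl⟩, hT.2.2⟩, Cfsg.Agent.Lib.FiPsu.type_of_iso hT.2.1 hcl i hi⟩

end Cfsg.Agent.S5377
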