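import Cfsg.Statements.S5382
import Cfsg.Agent.Lib.JTw9
-- import your own Cfsg.Agent.* helpers here

set_option autoImplicit false
open Cfsg

namespace Cfsg.Agent.S5382

/-- Let G be a finite group of Hall–Janko type: it has more than one class of involutions and an involution z whose centralizer C has generalized Fitting subgroup Q extraspecial of order 32 with C/Q isomorphic to the commutator subgroup of the isometry group of the elliptic quadratic form in dimension 4 over the field with two elements (the alternating group of degree 5), with z not weakly closed in Q. Then for every involution t not conjugate to z, the centralizer of t is isomorphic to the direct product of an elementary abelian group of order 4 and the alternating group of degree 5, and the normalizer of the largest normal 2-subgroup of that centralizer is isomorphic to the direct product of the alternating groups of degrees 4 and 5. -/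
theorem result {G : Type*} [Group G] [Finite G] (z : G) (hz : orderOf z = 2) (Q : Subgroup (Subgroup.centralizer ({z} : Set G))) [Q.Normal] (hF : Cfsg.generalizedFittingSubgroup (Subgroup.centralizer ({z} : Set G)) = Q) (hQ : Cfsg.IsExtraspecial 2 Q) (hcard : Nat.card Q = 2 ^ 5) (e : (Subgroup.centralizer ({z} : Set G)) ⧸ Q ≃* Cfsg.Omega (ZMod 2) (Cfsg.quadFormMinus 1 (ZMod 2) 1 1)) (hnwc : ∃ g : G, (∃ hq : g * z * g⁻¹ ∈ Subgroup.centralizer ({z} : Set G), (⟨g * z * g⁻¹, hq⟩ : Subgroup.centralizer ({z} : Set G)) ∈ Q) ∧ g * z * g⁻¹ ≠ z) (hcl : ∃ x y : G, orderOf x = 2 ∧ orderOf y = 2 ∧ ¬ IsConj x y) (t : G) (ht : orderOf t = 2) (htz : ¬ IsConj t z) : Nonempty (↥(Subgroup.centralizer ({t} : Set G)) ≃* (Multiplicative (ZMod 2) × Multiplicative (ZMod 2)) × alternatingGroup (Fin 5)) ∧ Nonempty (↥(Subgroup.normalizer (((Cfsg.pCore 2 ↥(Subgroup.centralizer ({t} : Set G))).map (Subgroup.subtype (Subgroup.centralizer ({t} : Set G))) : Subgroup G) : Set G)) ≃* alternatingGroup (Fin 4) × alternatingGroup (Fin 5)) := by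
  obtain ⟨S, hS⟩ := Lib.JTw.exists_setup z hz Q hF hQ hcard e hnwc
  obtain ⟨u, w, K, k⟩ := Lib.JTw.exists_KK_of S hcl ht (by rw [hS]; exact fun h => htz h.symm)
  refine ⟨k.equiv_Ct, ?_⟩
  rw [k.pCore_eq]
  exact k.equiv_N

end Cfsg.Agent.S5382
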