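import Cfsg.Statements.S5387
import Cfsg.Agent.Lib.L34gH87

set_option autoImplicit false
open Cfsg

namespace Cfsg.Agent.S5387

/-- Up to isomorphism there is at most one quasisimple group whose centre is elementary abelian of order 4 and whose central quotient is isomorphic to the projective special linear group of dimension 3 over the field with four elements: any two such groups are isomorphic. -/
theorem result {L₁ L₂ : Type*} [Group L₁] [Finite L₁] [Group L₂] [Finite L₂] (F : Type) [Field F] [Fintype F] (hF : Fintype.card F = 4) (h₁ : Cfsg.IsQuasisimple L₁) (h₂ : Cfsg.IsQuasisimple L₂) (hc₁ : Nat.card (Subgroup.center L₁) = 4) (hc₂ : Nat.card (Subgroup.center L₂) = 4) (he₁ : ∀ x ∈ Subgroup.center L₁, x * x = 1) (he₂ : ∀ x ∈ Subgroup.center L₂, x * x = 1) (e₁ : L₁ ⧸ Subgroup.center L₁ ≃* Matrix.ProjectiveSpecialLinearGroup (Fin 3) F) (e₂ : L₂ ⧸ Subgroup.center L₂ ≃* Matrix.ProjectiveSpecialLinearGroup (Fin 3) F) : Nonempty (L₁ ≃* L₂) := by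
  exact Lib.L34H87.unique hF h₁ h₂ hc₁ hc₂ he₁ he₂ e₁ e₂

end Cfsg.Agent.S5387
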