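import Cfsg.Statements.S5393

set_option autoImplicit false
open Cfsg

namespace Cfsg.Agent.S5393

section aux
open scoped Pointwise

/-- the translation of the 24 points. -/
def sh : Equiv.Perm GolayPt := (Equiv.addRight (1 : ZMod 23)).optionCongr

theorem sh_none : sh none = none := rfl
theorem sh_some (x : ZMod 23) : sh (some x) = some (x + 1) := rfl
theorem sh_symm_none : sh.symm none = none := rfl
theorem sh_symm_some (x : ZMod 23) : sh.symm (some x) = some (x + -1) := rfl

theorem qr_sh (t : ZMod 23) : (fun p => qrWord t (sh.symm p)) = qrWord (t + 1) := by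
  funext p
  rcases p with _ | x
  · rfl
  · rw [sh_symm_some]
    simp only [qrWord]
    have : (∃ r : ZMod 23, x + -1 = r ^ 2 + t) ↔ ∃ r : ZMod 23, x = r ^ 2 + (t + 1) := by
      constructor
      · rintro ⟨r, hr⟩
        exact ⟨r, by rw [← add_assoc, ← hr]; ring⟩
      · rintro ⟨r, hr⟩
        exact ⟨r, by rw [hr]; ring⟩
    simp only [this]

theorem qr_sh' (t : ZMod 23) : (fun p => qrWord t (sh p)) = qrWord (t - 1) := by
  funext p
  rcases p with _ | x
  · rfl
  · rw [sh_some]
    simp only [qrWord]
    have : (∃ r : ZMod 23, x + 1 = r ^ 2 + t) ↔ ∃ r : ZMod 23, x = r ^ 2 + (t - 1) := by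
      constructor
      · rintro ⟨r, hr⟩
        exact ⟨r, by rw [← add_sub_assoc, ← hr]; ring⟩
      · rintro ⟨r, hr⟩
        exact ⟨r, by rw [hr]; ring⟩
    simp only [this]

theorem one_mem : (fun _ : GolayPt => (1 : ZMod 2)) ∈ golayCode :=
  Submodule.subset_span (Or.inr rfl)

/-- the coordinate permutation as a linear map. -/
def perm (σ : Equiv.Perm GolayPt) : (GolayPt → ZMod 2) →ₗ[ZMod 2] (GolayPt → ZMod 2) :=
  LinearMap.funLeft (ZMod 2) (ZMod 2) σ.symm

theorem mem_sh {w : GolayPt → ZMod 2} (hw : w ∈ golayCode) : (fun p => w (sh.symm p)) ∈ golayCode := by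
  have : golayCode ≤ golayCode.comap (LinearMap.funLeft (ZMod 2) (ZMod 2) sh.symm) := by
    conv_lhs => rw [golayCode]
    rw [Submodule.span_le]
    rintro _ (⟨t, rfl⟩ | h)
    · show (fun p => qrWord t (sh.symm p)) ∈ (golayCode : Submodule (ZMod 2) (GolayPt → ZMod 2))
      rw [qr_sh]
      exact Submodule.subset_span (Or.inl ⟨_, rfl⟩)
    · rw [Set.mem_singleton_iff] at h
      subst h
      exact one_mem
  exact this hw

theorem mem_sh' {w : GolayPt → ZMod 2} (hw : w ∈ golayCode) : (fun p => w (sh p)) ∈ golayCode := by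
  have : golayCode ≤ golayCode.comap (LinearMap.funLeft (ZMod 2) (ZMod 2) sh) := by
    conv_lhs => rw [golayCode]
    rw [Submodule.span_le]
    rintro _ (⟨t, rfl⟩ | h)
    · show (fun p => qrWord t (sh p)) ∈ (golayCode : Submodule (ZMod 2) (GolayPt → ZMod 2))
      rw [qr_sh']
      exact Submodule.subset_span (Or.inl ⟨_, rfl⟩)
    · rw [Set.mem_singleton_iff] at h
      subst h
      exact one_mem
  exact this hw

theorem smul_supp (σ : Equiv.Perm GolayPt) (w : GolayPt → ZMod 2) :
    σ • support₂ w = support₂ (fun p => w (σ.symm p)) := by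
  ext p
  rw [← Finset.inv_smul_mem_iff]
  simp only [support₂, Finset.mem_filter, Finset.mem_univ, true_and]
  rfl

theorem sh_mem : sh ∈ M24 := by
  rw [MulAction.mem_stabilizer_iff]
  apply Set.Subset.antisymm
  · rintro _ ⟨_, ⟨w, hw, rfl⟩, rfl⟩
    refine ⟨_, mem_sh hw, ?_⟩
    exact (smul_supp sh w).symm
  · rintro _ ⟨w, hw, rfl⟩
    refine ⟨_, ⟨_, mem_sh' hw, rfl⟩, ?_⟩
    show sh • support₂ _ = _
    rw [smul_supp]
    congr 1
    funext p
    simp

/-- even weight functional and the functional of the base word. -/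
def f1 : (GolayPt → ZMod 2) →ₗ[ZMod 2] ZMod 2 :=
  ∑ p : GolayPt, LinearMap.proj p

def f2 : (GolayPt → ZMod 2) →ₗ[ZMod 2] ZMod 2 :=
  ∑ p : GolayPt, qrWord 0 p • LinearMap.proj p

theorem f1_apply (w : GolayPt → ZMod 2) : f1 w = ∑ p, w p := by
  simp [f1, LinearMap.sum_apply]

theorem f2_apply (w : GolayPt → ZMod 2) : f2 w = ∑ p, qrWord 0 p * w p := by
  simp [f2, LinearMap.sum_apply]

theorem f1_qr : ∀ t : ZMod 23, f1 (qrWord t) = 0 := by
  intro t
  rw [f1_apply]
  revert t
  decide +kernel

theorem f2_qr : ∀ t : ZMod 23, f2 (qrWord t) = 0 := by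
  intro t
  rw [f2_apply]
  revert t
  decide +kernel

theorem f1_code {w : GolayPt → ZMod 2} (hw : w ∈ golayCode) : f1 w = 0 := by
  have : golayCode ≤ LinearMap.ker f1 := by
    rw [golayCode, Submodule.span_le]
    rintro _ (⟨t, rfl⟩ | h)
    · exact f1_qr t
    · rw [Set.mem_singleton_iff] at h
      subst h
      show f1 _ = 0
      rw [f1_apply]
      decide +kernel
  exact this hw

theorem f2_code {w : GolayPt → ZMod 2} (hw : w ∈ golayCode) : f2 w = 0 := by
  have : golayCode ≤ LinearMap.ker f2 := by
    rw [golayCode, Submodule.span_le]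
    rintro _ (⟨t, rfl⟩ | h)
    · exact f2_qr t
    · rw [Set.mem_singleton_iff] at h
      subst h
      show f2 _ = 0
      rw [f2_apply]
      decide +kernel
  exact this hw

theorem finrank_code_le : Module.finrank (ZMod 2) golayCode ≤ 22 := by
  let f : (GolayPt → ZMod 2) →ₗ[ZMod 2] (ZMod 2 × ZMod 2) := f1.prod f2
  have hle : golayCode ≤ LinearMap.ker f := by
    intro w hw
    rw [LinearMap.mem_ker]
    exact Prod.ext (f1_code hw) (f2_code hw)
  have hsurj : Function.Surjective f := by
    have h1 : f (Pi.single none 1) = (1, 0) := by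
      apply Prod.ext
      · show f1 _ = 1
        rw [f1_apply]; decide +kernel
      · show f2 _ = 0
        rw [f2_apply]; decide +kernel
    have h2 : f (Pi.single (some 0) 1) = (1, 1) := by
      apply Prod.ext
      · show f1 _ = 1
        rw [f1_apply]; decide +kernel
      · show f2 _ = 1
        rw [f2_apply]; decide +kernel
    rintro ⟨a, b⟩
    refine ⟨(a - b) • Pi.single none 1 + b • Pi.single (some 0) 1, ?_⟩
    rw [map_add, map_smul, map_smul, h1, h2]
    ext <;> simp
  have h1 := LinearMap.finrank_range_add_finrank_ker f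
  rw [LinearMap.range_eq_top.2 hsurj, finrank_top] at h1
  have h2 : Module.finrank (ZMod 2) (ZMod 2 × ZMod 2) = 2 := by simp
  have h3 : Module.finrank (ZMod 2) (GolayPt → ZMod 2) = 24 := by
    rw [Module.finrank_fintype_fun_eq_card]
    decide +kernel
  have h4 := Submodule.finrank_mono hle
  omega

/-- fixed words of the translation lying in the code. -/
theorem fixed_code {w : GolayPt → ZMod 2} (hw : w ∈ golayCode) (hfix : (fun p => w (sh.symm p)) = w) :
    w = 0 ∨ w = fun _ => 1 := by
  have hstep : ∀ x : ZMod 23, w (some (x + 1)) = w (some x) := by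
    intro x
    have := congrFun hfix (some (x + 1))
    rw [sh_symm_some] at this
    rw [← this]
    congr 2; ring
  have hnat : ∀ n : ℕ, w (some (n : ZMod 23)) = w (some 0) := by
    intro n
    induction n with
    | zero => simp
    | succ n ih => rw [Nat.cast_succ, hstep, ih]
  have hconst : ∀ x : ZMod 23, w (some x) = w (some 0) := by
    intro x
    have := hnat x.val
    rwa [ZMod.natCast_zmod_val] at this
  have h1 := f1_code hw
  rw [f1_apply, Fintype.sum_option] at h1
  have h2 : ∑ x : ZMod 23, w (some x) = w (some 0) := by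
    rw [Finset.sum_congr rfl (fun x _ => hconst x)]
    simp only [Finset.sum_const, Finset.card_univ, ZMod.card, nsmul_eq_mul]
    have : ((23 : ℕ) : ZMod 2) = 1 := by decide
    rw [this, one_mul]
  rw [h2] at h1
  have h3 : w none = w (some 0) := by
    have h4 : ∀ a b : ZMod 2, a + b = 0 → a = b := by decide
    exact h4 _ _ h1
  have h5 : ∀ a : ZMod 2, a = 0 ∨ a = 1 := by decide
  rcases h5 (w (some 0)) with h | h
  · left
    funext p
    rcases p with _ | x
    · rw [h3, h]; rfl
    · rw [hconst, h]; rfl
  · right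
    funext p
    rcases p with _ | x
    · rw [h3, h]
    · rw [hconst, h]

theorem finrank_cases (W : Submodule (ZMod 2) (GolayPt → ZMod 2)) (h1 : (fun _ => (1 : ZMod 2)) ∈ W)
    (hW : W ≤ golayCode) (hinv : ∀ w ∈ W, (fun p => w (sh.symm p)) ∈ W) :
    Module.finrank (ZMod 2) W = 1 ∨ Module.finrank (ZMod 2) W = 12 := by
  classical
  let f : Function.End W := fun w => ⟨fun p => w.1 (sh.symm p), hinv w.1 w.2⟩
  have hf : ∀ n : ℕ, ∀ w : W, ((f ^ n) w : GolayPt → ZMod 2) = fun p => w.1 ((sh.symm ^ n) p) := by
    intro n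
    induction n with
    | zero => intro w; rfl
    | succ n ih =>
      intro w
      have : (f ^ (n + 1)) w = (f ^ n) (f w) := by rw [pow_succ]; rfl
      rw [this, ih (f w)]
      funext p
      show w.1 (sh.symm ((sh.symm ^ n) p)) = _
      rw [pow_succ']; rfl
  have h23 : f ^ 23 ^ 1 = 1 := by
    funext w
    apply Subtype.ext
    rw [hf]
    funext p
    have : (sh.symm ^ 23 ^ 1) p = p := by
      revert p; decide +kernel
    rw [this]
    rfl
  have : Fact (Nat.Prime 23) := ⟨by norm_num⟩
  have : Fintype W := Fintype.ofFinite W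
  have key := Equiv.Perm.card_fixedPoints_modEq (p := 23) (n := 1) h23
  have hfix : Fintype.card (Function.fixedPoints f) = 2 := by
    have hz : (⟨0, W.zero_mem⟩ : W) ∈ Function.fixedPoints f := rfl
    have ho : (⟨_, h1⟩ : W) ∈ Function.fixedPoints f := rfl
    rw [← Nat.card_eq_fintype_card, Nat.card_eq_two_iff]
    refine ⟨⟨_, hz⟩, ⟨_, ho⟩, ?_, ?_⟩
    · intro h
      have := congrArg (fun x => x.1.1 none) h
      exact absurd (show (0 : ZMod 2) = 1 from this) (by decide)
    · ext ⟨⟨w, hw⟩, hw'⟩
      simp only [Set.mem_insert_iff, Set.mem_singleton_iff, Set.mem_univ, iff_true]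
      have hw'' : (fun p => w (sh.symm p)) = w := congrArg Subtype.val hw'
      rcases fixed_code (hW hw) hw'' with h | h
      · left; subst h; rfl
      · right; subst h; rfl
  rw [hfix, ← Nat.card_eq_fintype_card, Module.natCard_eq_pow_finrank (K := ZMod 2), Nat.card_zmod] at key
  have hle := (Submodule.finrank_mono hW).trans finrank_code_le
  generalize Module.finrank (ZMod 2) W = d at key hle
  have : ∀ d : Fin 23, (2 ^ (d : ℕ) % 23 = 2 % 23) → (d : ℕ) = 1 ∨ (d : ℕ) = 12 := by decide +kernel
  exact this ⟨d, by omega⟩ key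


end aux

/-- The length-24 code built from the squares modulo 23 contains the all-ones word, and the code modulo the all-ones word is an irreducible module over the field with two elements for the code's automorphism group: a subspace of the code that contains the all-ones word and is invariant under every coordinate permutation preserving the code is either the span of the all-ones word or the whole code. -/
theorem result : (fun _ : Cfsg.GolayPt => (1 : ZMod 2)) ∈ Cfsg.golayCode ∧ ∀ W : Submodule (ZMod 2) (Cfsg.GolayPt → ZMod 2), (fun _ => (1 : ZMod 2)) ∈ W → W ≤ Cfsg.golayCode → (∀ σ ∈ Cfsg.M24, ∀ w ∈ W, (fun p => w (σ.symm p)) ∈ W) → W = Submodule.span (ZMod 2) {fun _ => (1 : ZMod 2)} ∨ W = Cfsg.golayCode := by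
  refine ⟨one_mem, fun W h1 hW hinv => ?_⟩
  rcases finrank_cases W h1 hW (fun w hw => hinv sh sh_mem w hw) with h | h
  · left
    symm
    apply Submodule.eq_of_le_of_finrank_eq
    · rw [Submodule.span_le, Set.singleton_subset_iff]
      exact h1
    · rw [h]
      apply finrank_span_singleton
      intro h0
      exact absurd (show (1 : ZMod 2) = 0 from congrFun h0 none) (by decide)
  · right
    apply Submodule.eq_of_le_of_finrank_eq hW
    have hc := finrank_cases golayCode one_mem le_rfl (fun w hw => mem_sh hw)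
    have := Submodule.finrank_mono hW
    omega

end Cfsg.Agent.S5393
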