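import Cfsg.Statements.S5394
import Cfsg.Agent.Lib.M24Inv

set_option autoImplicit false
open Cfsg

namespace Cfsg.Agent.S5394

open Cfsg.Agent.Lib.Golay Cfsg.Agent.Lib.M24Inv Cfsg.Agent.Lib.MathieuFix
open Cfsg.Agent.Lib.GolayFix (Fix mem_Fix)

lemma sq_of {g : Equiv.Perm GolayPt} (h : orderOf g = 2) : g * g = 1 := by
  rw [← sq, ← h, pow_orderOf_eq_one]

lemma ne_of {g : Equiv.Perm GolayPt} (h : orderOf g = 2) : g ≠ 1 := by
  rintro rfl
  rw [orderOf_one] at h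
  exact absurd h (by norm_num)

lemma ord_of {g : Equiv.Perm GolayPt} (h : g * g = 1) (h1 : g ≠ 1) : orderOf g = 2 :=
  orderOf_eq_prime (by rw [sq]; exact h) h1

/-- The automorphism group of the length-24 code built from the squares modulo 23 has exactly two conjugacy classes of involutions: an involution either fixes exactly the eight points of an octad or has no fixed points, both kinds occur, and any two involutions of the same kind are conjugate in the group. -/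
theorem result : (∀ g ∈ Cfsg.M24, orderOf g = 2 → (Finset.univ.filter fun p => g p = p) ∈ Cfsg.octads ∨ ∀ p, g p ≠ p) ∧ (∃ g ∈ Cfsg.M24, orderOf g = 2 ∧ (Finset.univ.filter fun p => g p = p) ∈ Cfsg.octads) ∧ (∃ g ∈ Cfsg.M24, orderOf g = 2 ∧ ∀ p, g p ≠ p) ∧ ∀ g ∈ Cfsg.M24, ∀ h ∈ Cfsg.M24, orderOf g = 2 → orderOf h = 2 → ((∀ p, g p ≠ p) ↔ (∀ p, h p ≠ p)) → ∃ k ∈ Cfsg.M24, k * g * k⁻¹ = h := by
  refine ⟨?_, ⟨toPerm d0, toPerm_mem_M24 inM_d0, ord_of d0_sq d0_ne_one, ?_⟩,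
    ⟨toPerm c0, toPerm_mem_M24 inM_c0, ord_of c0_sq ?_, c0_free⟩, ?_⟩
  · intro g hg h2
    by_cases h : ∀ p, g p ≠ p
    · exact Or.inr h
    · push Not at h
      obtain ⟨p, hp⟩ := h
      exact Or.inl (fix_involution hg (by rw [sq]; exact sq_of h2) (ne_of h2) hp)
  · have := Fix_d0
    rw [Cfsg.Agent.Lib.GolayFix.Fix] at this
    rw [this]
    exact oct0_mem
  · intro h
    exact c0_free none (by rw [h]; rfl)
  · intro g hg h hh hg2 hh2 hiff
    by_cases hf : ∀ p, g p ≠ p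
    · obtain ⟨k, hk, hkg⟩ := conj_c0 hg (sq_of hg2) hf
      obtain ⟨l, hl, hlh⟩ := conj_c0 hh (sq_of hh2) (hiff.1 hf)
      refine ⟨l * k⁻¹, M24.mul_mem hl (M24.inv_mem hk), ?_⟩
      rw [← hkg, ← hlh]
      group
    · have hf' : ¬ ∀ p, h p ≠ p := fun h' => hf (hiff.2 h')
      push Not at hf hf'
      obtain ⟨p, hp⟩ := hf
      obtain ⟨q, hq⟩ := hf'
      obtain ⟨k, hk, hkg⟩ := conj_d0 hg (sq_of hg2) (ne_of hg2) hp
      obtain ⟨l, hl, hlh⟩ := conj_d0 hh (sq_of hh2) (ne_of hh2) hq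
      refine ⟨l * k⁻¹, M24.mul_mem hl (M24.inv_mem hk), ?_⟩
      rw [← hkg, ← hlh]
      group

end Cfsg.Agent.S5394
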