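import Cfsg.Statements.S5396
import Cfsg.Agent.Lib.ExtraTwo

set_option autoImplicit false
open Cfsg

namespace Cfsg.Agent.S5396

open Cfsg.Agent.Lib.ExtraTwo in
theorem sup_eq {n : ℕ} (c : Fin n → ZMod 2) {r : ℕ}
    (h1 : ∃ A : Subgroup (Ex c), IsElementaryAbelian 2 A ∧ Nat.card A = 2 ^ r)
    (h2 : ∀ A : Subgroup (Ex c), IsElementaryAbelian 2 A → Nat.card A < 2 ^ (r + 1)) :
    sSup {k : ℕ | ∃ A : Subgroup (Ex c), Cfsg.IsElementaryAbelian 2 A ∧ Nat.card A = 2 ^ k} = r := by
  apply IsGreatest.csSup_eq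
  refine ⟨h1, ?_⟩
  rintro k ⟨A, hA, hk⟩
  have := h2 A hA
  rw [hk] at this
  have := (Nat.pow_lt_pow_iff_right (by norm_num : 1 < 2)).1 this
  omega

/-- For every n ≥ 1 there exist finite extraspecial 2-groups of order 2^(2n+1) whose 2-rank (the largest rank of an elementary abelian subgroup) is n, and ones whose 2-rank is n + 1 (so for each such order there are two non-isomorphic extraspecial 2-groups, told apart by their 2-rank). -/
theorem result (n : ℕ) (hn : 1 ≤ n) : ∀ r ∈ ({n, n + 1} : Set ℕ), ∃ (E : Type) (_ : Group E) (_ : Finite E), Cfsg.IsExtraspecial 2 E ∧ Nat.card E = 2 ^ (2 * n + 1) ∧ sSup {k : ℕ | ∃ A : Subgroup E, Cfsg.IsElementaryAbelian 2 A ∧ Nat.card A = 2 ^ k} = r := by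

  intro r hr
  have hr' : r = n ∨ r = n + 1 := hr
  rcases hr' with rfl | rfl
  · -- minus type
    obtain ⟨m, rfl⟩ : ∃ m, r = m + 1 := ⟨r - 1, by omega⟩
    let c : Fin (m + 1) → ZMod 2 := Fin.cons 1 (fun _ => 0)
    refine ⟨Cfsg.Agent.Lib.ExtraTwo.Ex c, inferInstance, inferInstance,
      Cfsg.Agent.Lib.ExtraTwo.isExtraspecial c hn, Cfsg.Agent.Lib.ExtraTwo.card_Ex c, ?_⟩
    apply sup_eq
    · let ι : (Fin m → ZMod 2) →+ Cfsg.Agent.Lib.ExtraTwo.Vec (m + 1) :=
        { toFun := fun x => Fin.cons (0, 0) (fun j => (x j, 0))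
          map_zero' := by
            funext i
            refine Fin.cases ?_ (fun j => ?_) i <;> simp
          map_add' := by
            intro x y
            funext i
            refine Fin.cases ?_ (fun j => ?_) i <;> simp }
      obtain ⟨A, hA, hcard⟩ := Cfsg.Agent.Lib.ExtraTwo.exists_elem c ι (by
        intro x y h
        funext j
        have := congrFun h (Fin.succ j)
        simpa [ι] using congrArg Prod.fst this) (by
        intro x y
        unfold Cfsg.Agent.Lib.ExtraTwo.beta
        apply Finset.sum_eq_zero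
        intro i _
        refine Fin.cases ?_ (fun j => ?_) i <;> simp [ι, c])
      exact ⟨A, hA, hcard⟩
    · intro A hA
      apply (Cfsg.Agent.Lib.ExtraTwo.card_elem c A hA).2
      rw [Fin.prod_univ_succ]
      have h1 : Cfsg.Agent.Lib.ExtraTwo.chi (c 0) = -1 := by simp [c, Cfsg.Agent.Lib.ExtraTwo.chi]
      have h2 : ∀ i : Fin m, Cfsg.Agent.Lib.ExtraTwo.chi (c i.succ) = 1 := by
        intro i; simp [c, Cfsg.Agent.Lib.ExtraTwo.chi]
      simp only [h1, h2, mul_one, Finset.prod_const, Finset.card_univ, Fintype.card_fin]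
      have : (0 : ℤ) < 2 ^ m := by positivity
      linarith
  · -- plus type
    let c : Fin n → ZMod 2 := fun _ => 0
    refine ⟨Cfsg.Agent.Lib.ExtraTwo.Ex c, inferInstance, inferInstance,
      Cfsg.Agent.Lib.ExtraTwo.isExtraspecial c hn, Cfsg.Agent.Lib.ExtraTwo.card_Ex c, ?_⟩
    apply sup_eq
    · let ι : (Fin n → ZMod 2) →+ Cfsg.Agent.Lib.ExtraTwo.Vec n :=
        { toFun := fun x j => (x j, 0)
          map_zero' := rfl
          map_add' := by
            intro x y
            funext i
            simp }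
      obtain ⟨A, hA, hcard⟩ := Cfsg.Agent.Lib.ExtraTwo.exists_elem c ι (by
        intro x y h
        funext j
        exact congrArg Prod.fst (congrFun h j)) (by
        intro x y
        unfold Cfsg.Agent.Lib.ExtraTwo.beta
        apply Finset.sum_eq_zero
        intro i _
        simp [ι, c])
      exact ⟨A, hA, hcard⟩
    · intro A hA
      refine lt_of_le_of_lt (Cfsg.Agent.Lib.ExtraTwo.card_elem c A hA).1 ?_
      exact Nat.pow_lt_pow_right (by norm_num) (by omega)

end Cfsg.Agent.S5396
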