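import Cfsg.Statements.S5398
import Cfsg.Agent.S0283
import Cfsg.Agent.Lib.FiInvol2
-- import your own Cfsg.Agent.* helpers here

set_option autoImplicit false
open Cfsg

namespace Cfsg.Agent.S5398

open Cfsg.Agent.Lib.ThreeTypes Cfsg.Agent.Lib.FiMu

theorem psu62 : PSU62Simple := by
  intro F _ _ hF
  exact Cfsg.Agent.S0283.result (by rw [hF]; norm_num) 6 (by norm_num) (by norm_num)


/-- Let G be a finite group with trivial centre generated by a conjugation-invariant set D of 3-transpositions on which it acts primitively, such that for some d in D the subgroup generated by the members of D other than d commuting with d has central largest normal 2- and 3-subgroups, and suppose G with D is of type M(22). Then G has exactly 3 conjugacy classes of involutions: every involution is a product of m distinct pairwise commuting members of D for some m between 1 and 3; for each such m these products form one non-empty conjugacy class; and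 the value of m is determined by the involution. -/
theorem result {G : Type*} [Group G] [Finite G] {D : Set G} (hD : Cfsg.IsThreeTranspositionGroup D) (hprim : Cfsg.IsPrimitiveUnderConj D) (d : G) (hd : d ∈ D) (h3 : Cfsg.pCore 3 ↥(Subgroup.closure {y : G | y ∈ D ∧ y ≠ d ∧ Commute d y}) ≤ Subgroup.center ↥(Subgroup.closure {y : G | y ∈ D ∧ y ≠ d ∧ Commute d y})) (h2 : Cfsg.pCore 2 ↥(Subgroup.closure {y : G | y ∈ D ∧ y ≠ d ∧ Commute d y}) ≤ Subgroup.center ↥(Subgroup.closure {y : G | y ∈ D ∧ y ≠ d ∧ Commute d y})) (ht : Cfsg.IsOfTypeM22 G D) : (∀ x : G, orderOf x = 2 → ∃ m : ℕ, 1 ≤ m ∧ m ≤ 3 ∧ (∃ l : List G, l.Nodup ∧ l.length = m ∧ (∀ a ∈ l, a ∈ D) ∧ (∀ a ∈ l, ∀ b ∈ l, Commute a b) ∧ l.prod = x)) ∧ (∀ m : ℕ, 1 ≤ m → m ≤ 3 → (∃ x : G, orderOf x = 2 ∧ (∃ l : List G, l.Nodup ∧ l.length = m ∧ (∀ a ∈ l, a ∈ D) ∧ (∀ a ∈ l, ∀ b ∈ l, Commute a b) ∧ l.prod = x)) ∧ ∀ x y : G, (∃ l : List G, l.Nodup ∧ l.length = m ∧ (∀ a ∈ l, a ∈ D) ∧ (∀ a ∈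 l, ∀ b ∈ l, Commute a b) ∧ l.prod = x) → (∃ l : List G, l.Nodup ∧ l.length = m ∧ (∀ a ∈ l, a ∈ D) ∧ (∀ a ∈ l, ∀ b ∈ l, Commute a b) ∧ l.prod = y) → IsConj x y) ∧ ∀ (m m' : ℕ) (x : G), 1 ≤ m → m ≤ 3 → 1 ≤ m' → m' ≤ 3 → (∃ l : List G, l.Nodup ∧ l.length = m ∧ (∀ a ∈ l, a ∈ D) ∧ (∀ a ∈ l, ∀ b ∈ l, Commute a b) ∧ l.prod = x) → (∃ l : List G, l.Nodup ∧ l.length = m' ∧ (∀ a ∈ l, a ∈ D) ∧ (∀ a ∈ l, ∀ b ∈ l, Commute a b) ∧ l.prod = x) → m = m' := by
  have L := (full22 psu62 hD hprim ht).1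
  obtain ⟨t1, t2, t3⟩ := tt22 psu62 hD hprim ht
  refine classes hD (nr22 psu62 hD hprim ht) (by norm_num) (by norm_num) ?_ ?_ (tup_le (tup22 psu62 hD hprim ht) (by norm_num))
    (invP22 psu62 hD hprim ht)
  · intro m h1 h2
    interval_cases m
    · exact cf_one
    · exact cf_two hD L.VT
  · intro m h1 h2
    interval_cases m
    · exact t1
    · exact t2
    · exact t3

end Cfsg.Agent.S5398
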