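import Cfsg.Statements.S5403
import Cfsg.Agent.Lib.H8Sec5
import Cfsg.Agent.S0824

set_option autoImplicit false
open Cfsg

namespace Cfsg.Agent.S5403

theorem omega_equiv : Nonempty (Omega (ZMod 2) (quadFormMinus 1 (ZMod 2) 1 1) ≃* alternatingGroup (Fin 5)) := by
  obtain ⟨e⟩ := S0824.result (F := ZMod 2) (by simp)
  have h1 : (commutator ↥(isometryGroup (ZMod 2) (quadFormMinus 1 (ZMod 2) 1 1))).map e.toMonoidHom = alternatingGroup (Fin 5) := by
    rw [← alternatingGroup.commutator_perm_eq (by simp), commutator_def, commutator_def, Subgroup.map_commutator,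
      ← MonoidHom.range_eq_map, MonoidHom.range_eq_top.2 e.surjective]
  exact ⟨(e.subgroupMap _).trans (MulEquiv.subgroupCongr h1)⟩

/-- A simple section of the automorphism group of the Leech lattice satisfying the Hall–Janko-type hypothesis (the group so obtained is the Hall–Janko group; that identification is not part of this statement): there is a subgroup A of order 5 of that automorphism group such that the centralizer of A modulo the subgroup generated by A and the centre of the automorphism group is a non-abelian simple group satisfying the large extraspecial hypothesis of minus type in dimension 4 — an involution whose centralizer has extraspecial generalized Fitting subgroup of order 32 with quotient the commutator subgroup of the isometry group of the elliptic quadratic form in dimension 4 over the field with two elements (the alternating group of degree 5), the involution not weakly closed in that extraspecial group. -/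
theorem result : ∃ A : Subgroup ↥Cfsg.Co0, Nat.card A = 5 ∧ ∃ (hn : ((A ⊔ Subgroup.center ↥Cfsg.Co0).subgroupOf (Subgroup.centralizer (A : Set ↥Cfsg.Co0))).Normal), ∃ (S : Type) (_ : Group S) (_ : Finite S), Nonempty (S ≃* ↥(Subgroup.centralizer (A : Set ↥Cfsg.Co0)) ⧸ (A ⊔ Subgroup.center ↥Cfsg.Co0).subgroupOf (Subgroup.centralizer (A : Set ↥Cfsg.Co0))) ∧ IsSimpleGroup S ∧ ¬ IsMulCommutative S ∧ ∃ z : S, orderOf z = 2 ∧ ∃ (Q : Subgroup (Subgroup.centralizer ({z} : Set S))) (_ : Q.Normal), Cfsg.generalizedFittingSubgroup (Subgroup.centralizer ({z} : Set S)) = Q ∧ Cfsg.IsExtraspecial 2 Q ∧ Nat.card Q = 2 ^ 5 ∧ Nonempty ((Subgroup.centralizer ({z} : Set S)) ⧸ Q ≃* Cfsg.Omega (ZMod 2) (Cfsg.quadFormMinus 1 (ZMod 2) 1 1)) ∧ ∃ g : S, (∃ hq : g * z * g⁻¹ ∈ Subgroup.centralizer ({z} : Set S), (⟨g * z * g⁻¹, hq⟩ : Subgroup.centralizer ({z} : Set S)) ∈ Q) ∧ g * z * g⁻¹ ≠ z := by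
  obtain ⟨h1, h2, z, hz, Q, hQn, hF, hE, hc, ⟨e⟩, g, hg⟩ := Cfsg.Agent.Lib.H8Sec5.main
  obtain ⟨f⟩ := omega_equiv
  refine ⟨Cfsg.Agent.Lib.H8Sec.AA Cfsg.Agent.Lib.H8Sec5.a, ?_, Cfsg.Agent.Lib.H8Sec.KA_normal,
    Cfsg.Agent.Lib.H8Sec.SS Cfsg.Agent.Lib.H8Sec5.a, inferInstance, inferInstance, ⟨MulEquiv.refl _⟩, h1, h2, z, hz, Q, hQn, hF, hE, hc,
    ⟨e.trans f.symm⟩, g, hg⟩
  rw [Nat.card_zpowers]
  exact Cfsg.Agent.Lib.H8Sec5.dat.ord

end Cfsg.Agent.S5403
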