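import Cfsg.Statements.S5405
import Cfsg.Agent.Lib.H2OrthH1

set_option autoImplicit false
open scoped MatrixGroups
open Cfsg

namespace Cfsg.Agent.S5405

open Cfsg.Agent.Lib.H2OrthH1 Matrix

/-- coordinates -/
def idxA : (Fin 1 ⊕ Fin 1) ⊕ Fin 2 → ℕ := Sum.elim (Sum.elim (fun k => k.val) (fun k => 1 + k.val)) (fun k => 2 + k.val)

/-- the basis -/
def eA : (Fin 1 ⊕ Fin 1) ⊕ Fin 2 → (Fin 1 ⊕ Fin 1) ⊕ Fin 2 → ZMod 2 :=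
  fun i j => if (([6, 12, 5, 8] : List ℕ).getD (idxA i) 0).testBit (idxA j) then 1 else 0

/-- a vector with given coordinates -/
def vecA (x0 x1 x2 x3 : ZMod 2) : (Fin 1 ⊕ Fin 1) ⊕ Fin 2 → ZMod 2 := Sum.elim (Sum.elim ![x0] ![x1]) ![x2, x3]

/-- the rank function -/
def rkA (a : (Fin 1 ⊕ Fin 1) ⊕ Fin 2 → ZMod 2) : ℕ :=
  (76562361896472576 / 16 ^ ((a (Sum.inl (Sum.inl 0))).val * 1 + (a (Sum.inl (Sum.inr 0))).val * 2 + (a (Sum.inr 0)).val * 4 + (a (Sum.inr 1)).val * 8)) % 16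

theorem vecA_eq (a : (Fin 1 ⊕ Fin 1) ⊕ Fin 2 → ZMod 2) : a = vecA (a (Sum.inl (Sum.inl 0))) (a (Sum.inl (Sum.inr 0))) (a (Sum.inr 0)) (a (Sum.inr 1)) := by
  funext j
  rcases j with (j | j) | j <;> fin_cases j <;> rfl

theorem heA : ∀ i, (Cfsg.quadFormMinus 1 (ZMod 2) 1 1) (eA i) = 1 := by decide +kernel

theorem hpA : ∀ i, ∃ j, pol (Cfsg.quadFormMinus 1 (ZMod 2) 1 1) (eA i) (eA j) = 1 := by decide +kernel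

theorem hrA : ∀ x0 x1 x2 x3 : ZMod 2,
    (∀ i, pol (Cfsg.quadFormMinus 1 (ZMod 2) 1 1) (vecA x0 x1 x2 x3) (eA i) = 0) → vecA x0 x1 x2 x3 = 0 := by
  decide +kernel

theorem hkA : ∀ x0 x1 x2 x3 : ZMod 2,
    (Cfsg.quadFormMinus 1 (ZMod 2) 1 1) (vecA x0 x1 x2 x3) = 1 → (∃ i, vecA x0 x1 x2 x3 = eA i) ∨
    ∃ i, pol (Cfsg.quadFormMinus 1 (ZMod 2) 1 1) (vecA x0 x1 x2 x3) (eA i) = 1 ∧ rkA (vecA x0 x1 x2 x3 + eA i) < rkA (vecA x0 x1 x2 x3) := by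
  decide +kernel

theorem partA (f : ↥(Cfsg.Omega (ZMod 2) (Cfsg.quadFormMinus 1 (ZMod 2) 1 1)) → ((Fin 1 ⊕ Fin 1) ⊕ Fin 2 → ZMod 2))
    (hf : ∀ g h, f (g * h) = f g + actO (Cfsg.quadFormMinus 1 (ZMod 2) 1 1) g *ᵥ f h) :
    ∃ v, ∀ g, f g = actO (Cfsg.quadFormMinus 1 (ZMod 2) 1 1) g *ᵥ v - v := by
  refine vanish (isQ_minus 1) f hf eA heA hpA ?_ rkA ?_
  · intro w hw
    rw [vecA_eq w] at hw ⊢
    exact hrA _ _ _ _ hw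
  · intro a ha
    rw [vecA_eq a] at ha ⊢
    exact hkA _ _ _ _ ha

/-- coordinates -/
def idxB : (Fin 2 ⊕ Fin 2) ⊕ Fin 2 → ℕ := Sum.elim (Sum.elim (fun k => k.val) (fun k => 2 + k.val)) (fun k => 4 + k.val)

/-- the basis -/
def eB : (Fin 2 ⊕ Fin 2) ⊕ Fin 2 → (Fin 2 ⊕ Fin 2) ⊕ Fin 2 → ZMod 2 :=
  fun i j => if (([33, 16, 44, 34, 24, 10] : List ℕ).getD (idxB i) 0).testBit (idxB j) then 1 else 0

/-- a vector with given coordinates -/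
def vecB (x0 x1 x2 x3 x4 x5 : ZMod 2) : (Fin 2 ⊕ Fin 2) ⊕ Fin 2 → ZMod 2 := Sum.elim (Sum.elim ![x0, x1] ![x2, x3]) ![x4, x5]

/-- the rank function -/
def rkB (a : (Fin 2 ⊕ Fin 2) ⊕ Fin 2 → ZMod 2) : ℕ :=
  (21712784064551694137165033514340365540948420041680550125284872350980683857920 / 16 ^ ((a (Sum.inl (Sum.inl 0))).val * 1 + (a (Sum.inl (Sum.inl 1))).val * 2 + (a (Sum.inl (Sum.inr 0))).val * 4 + (a (Sum.inl (Sum.inr 1))).val * 8 + (a (Sum.inr 0)).val * 16 + (a (Sum.inr 1)).val * 32)) % 16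

theorem vecB_eq (a : (Fin 2 ⊕ Fin 2) ⊕ Fin 2 → ZMod 2) : a = vecB (a (Sum.inl (Sum.inl 0))) (a (Sum.inl (Sum.inl 1))) (a (Sum.inl (Sum.inr 0))) (a (Sum.inl (Sum.inr 1))) (a (Sum.inr 0)) (a (Sum.inr 1)) := by
  funext j
  rcases j with (j | j) | j <;> fin_cases j <;> rfl

theorem heB : ∀ i, (Cfsg.quadFormMinus 2 (ZMod 2) 1 1) (eB i) = 1 := by decide +kernel

theorem hpB : ∀ i, ∃ j, pol (Cfsg.quadFormMinus 2 (ZMod 2) 1 1) (eB i) (eB j) = 1 := by decide +kernel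

theorem hrB : ∀ x0 x1 x2 x3 x4 x5 : ZMod 2,
    (∀ i, pol (Cfsg.quadFormMinus 2 (ZMod 2) 1 1) (vecB x0 x1 x2 x3 x4 x5) (eB i) = 0) → vecB x0 x1 x2 x3 x4 x5 = 0 := by
  decide +kernel

theorem hkB : ∀ x0 x1 x2 x3 x4 x5 : ZMod 2,
    (Cfsg.quadFormMinus 2 (ZMod 2) 1 1) (vecB x0 x1 x2 x3 x4 x5) = 1 → (∃ i, vecB x0 x1 x2 x3 x4 x5 = eB i) ∨
    ∃ i, pol (Cfsg.quadFormMinus 2 (ZMod 2) 1 1) (vecB x0 x1 x2 x3 x4 x5) (eB i) = 1 ∧ rkB (vecB x0 x1 x2 x3 x4 x5 + eB i) < rkB (vecB x0 x1 x2 x3 x4 x5) := by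
  decide +kernel

theorem partB (f : ↥(Cfsg.Omega (ZMod 2) (Cfsg.quadFormMinus 2 (ZMod 2) 1 1)) → ((Fin 2 ⊕ Fin 2) ⊕ Fin 2 → ZMod 2))
    (hf : ∀ g h, f (g * h) = f g + actO (Cfsg.quadFormMinus 2 (ZMod 2) 1 1) g *ᵥ f h) :
    ∃ v, ∀ g, f g = actO (Cfsg.quadFormMinus 2 (ZMod 2) 1 1) g *ᵥ v - v := by
  refine vanish (isQ_minus 2) f hf eB heB hpB ?_ rkB ?_
  · intro w hw
    rw [vecB_eq w] at hw ⊢
    exact hrB _ _ _ _ _ _ hw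
  · intro a ha
    rw [vecB_eq a] at ha ⊢
    exact hkB _ _ _ _ _ _ ha

/-- coordinates -/
def idxC : Fin 4 ⊕ Fin 4 → ℕ := Sum.elim (fun k => k.val) (fun k => 4 + k.val)

/-- the basis -/
def eC : Fin 4 ⊕ Fin 4 → Fin 4 ⊕ Fin 4 → ZMod 2 :=
  fun i j => if (([57, 78, 39, 69, 84, 138, 49, 226] : List ℕ).getD (idxC i) 0).testBit (idxC j) then 1 else 0

/-- a vector with given coordinates -/
def vecC (x0 x1 x2 x3 x4 x5 x6 x7 : ZMod 2) : Fin 4 ⊕ Fin 4 → ZMod 2 := Sum.elim ![x0, x1, x2, x3] ![x4, x5, x6, x7]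

/-- the rank function -/
def rkC (a : Fin 4 ⊕ Fin 4 → ZMod 2) : ℕ :=
  (1492911606397331653481729391467264865498689528980019767132446586054958553155622199617854961308511764717415744965028152626889959714403590105215901975926099247075273938235818166163129755754830578153834141178494603454696793808825513926909782192569227514747569786448623457863243214346929220419193614666379034624 / 16 ^ ((a (Sum.inl 0)).val * 1 + (a (Sum.inl 1)).val * 2 + (a (Sum.inl 2)).val * 4 + (a (Sum.inl 3)).val * 8 + (a (Sum.inr 0)).val * 16 + (a (Sum.inr 1)).val * 32 + (a (Sum.inr 2)).val * 64 + (a (Sum.inr 3)).val * 128)) % 16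

theorem vecC_eq (a : Fin 4 ⊕ Fin 4 → ZMod 2) : a = vecC (a (Sum.inl 0)) (a (Sum.inl 1)) (a (Sum.inl 2)) (a (Sum.inl 3)) (a (Sum.inr 0)) (a (Sum.inr 1)) (a (Sum.inr 2)) (a (Sum.inr 3)) := by
  funext j
  rcases j with j | j <;> fin_cases j <;> rfl

theorem heC : ∀ i, (Cfsg.quadFormPlus 4 (ZMod 2)) (eC i) = 1 := by decide +kernel

theorem hpC : ∀ i, ∃ j, pol (Cfsg.quadFormPlus 4 (ZMod 2)) (eC i) (eC j) = 1 := by decide +kernel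

theorem hrC : ∀ x0 x1 x2 x3 x4 x5 x6 x7 : ZMod 2,
    (∀ i, pol (Cfsg.quadFormPlus 4 (ZMod 2)) (vecC x0 x1 x2 x3 x4 x5 x6 x7) (eC i) = 0) → vecC x0 x1 x2 x3 x4 x5 x6 x7 = 0 := by
  decide +kernel

theorem hkC : ∀ x0 x1 x2 x3 x4 x5 x6 x7 : ZMod 2,
    (Cfsg.quadFormPlus 4 (ZMod 2)) (vecC x0 x1 x2 x3 x4 x5 x6 x7) = 1 → (∃ i, vecC x0 x1 x2 x3 x4 x5 x6 x7 = eC i) ∨
    ∃ i, pol (Cfsg.quadFormPlus 4 (ZMod 2)) (vecC x0 x1 x2 x3 x4 x5 x6 x7) (eC i) = 1 ∧ rkC (vecC x0 x1 x2 x3 x4 x5 x6 x7 + eC i) < rkC (vecC x0 x1 x2 x3 x4 x5 x6 x7) := by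
  decide +kernel

theorem partC (f : ↥(Cfsg.Omega (ZMod 2) (Cfsg.quadFormPlus 4 (ZMod 2))) → (Fin 4 ⊕ Fin 4 → ZMod 2))
    (hf : ∀ g h, f (g * h) = f g + actO (Cfsg.quadFormPlus 4 (ZMod 2)) g *ᵥ f h) :
    ∃ v, ∀ g, f g = actO (Cfsg.quadFormPlus 4 (ZMod 2)) g *ᵥ v - v := by
  refine vanish (isQ_plus 4) f hf eC heC hpC ?_ rkC ?_
  · intro w hw
    rw [vecC_eq w] at hw ⊢
    exact hrC _ _ _ _ _ _ _ _ hw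
  · intro a ha
    rw [vecC_eq a] at ha ⊢
    exact hkC _ _ _ _ _ _ _ _ ha

/-- Vanishing of first cohomology on the natural module for three small orthogonal groups over the field with two elements: for the commutator subgroup of the isometry group of the elliptic quadratic form in dimension 4, of the elliptic form in dimension 6, and of the hyperbolic form in dimension 8, every crossed homomorphism into the natural module (a map f with f(gh) = f(g) + g·f(h)) is principal (of the form g ↦ g·v − v). -/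
theorem result : (∀ f : ↥(Cfsg.Omega (ZMod 2) (Cfsg.quadFormMinus 1 (ZMod 2) 1 1)) → ((Fin 1 ⊕ Fin 1) ⊕ Fin 2 → ZMod 2), (∀ g h : ↥(Cfsg.Omega (ZMod 2) (Cfsg.quadFormMinus 1 (ZMod 2) 1 1)), f (g * h) = f g + Matrix.mulVec (((g : ↥(Cfsg.isometryGroup (ZMod 2) (Cfsg.quadFormMinus 1 (ZMod 2) 1 1))) : GL ((Fin 1 ⊕ Fin 1) ⊕ Fin 2) (ZMod 2)) : Matrix ((Fin 1 ⊕ Fin 1) ⊕ Fin 2) ((Fin 1 ⊕ Fin 1) ⊕ Fin 2) (ZMod 2)) (f h)) → ∃ v : (Fin 1 ⊕ Fin 1) ⊕ Fin 2 → ZMod 2, ∀ g : ↥(Cfsg.Omega (ZMod 2) (Cfsg.quadFormMinus 1 (ZMod 2) 1 1)), f g = Matrix.mulVec (((g : ↥(Cfsg.isometryGroup (ZMod 2) (Cfsg.quadFormMinus 1 (ZMod 2) 1 1))) : GL ((Fin 1 ⊕ Fin 1) ⊕ Fin 2) (ZMod 2)) : Matrix ((Fin 1 ⊕ Fin 1) ⊕ Fin 2) ((Fin 1 ⊕ Fin 1) ⊕ Fin 2) (ZMod 2)) v - v) ∧ (∀ f : ↥(Cfsg.Omega (ZMod 2) (Cfsg.quadFormMinus 2 (ZMod 2) 1 1)) → ((Fin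 2 ⊕ Fin 2) ⊕ Fin 2 → ZMod 2), (∀ g h : ↥(Cfsg.Omega (ZMod 2) (Cfsg.quadFormMinus 2 (ZMod 2) 1 1)), f (g * h) = f g + Matrix.mulVec (((g : ↥(Cfsg.isometryGroup (ZMod 2) (Cfsg.quadFormMinus 2 (ZMod 2) 1 1))) : GL ((Fin 2 ⊕ Fin 2) ⊕ Fin 2) (ZMod 2)) : Matrix ((Fin 2 ⊕ Fin 2) ⊕ Fin 2) ((Fin 2 ⊕ Fin 2) ⊕ Fin 2) (ZMod 2)) (f h)) → ∃ v : (Fin 2 ⊕ Fin 2) ⊕ Fin 2 → ZMod 2, ∀ g : ↥(Cfsg.Omega (ZMod 2) (Cfsg.quadFormMinus 2 (ZMod 2) 1 1)), f g = Matrix.mulVec (((g : ↥(Cfsg.isometryGroup (ZMod 2) (Cfsg.quadFormMinus 2 (ZMod 2) 1 1))) : GL ((Fin 2 ⊕ Fin 2) ⊕ Fin 2) (ZMod 2)) : Matrix ((Fin 2 ⊕ Fin 2) ⊕ Fin 2) ((Fin 2 ⊕ Fin 2) ⊕ Fin 2) (ZMod 2)) v - v) ∧ (∀ f : ↥(Cfsg.Omega (ZMod 2) (Cfsg.quadFormPlus 4 (ZMod 2))) → (Fin 4 ⊕ Fin 4 → ZMod 2), (∀ g h : ↥(Cfsg.Omega (ZMod 2) (Cfsg.quadFormPlus 4 (ZMod 2))), f (g * h)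 = f g + Matrix.mulVec (((g : ↥(Cfsg.isometryGroup (ZMod 2) (Cfsg.quadFormPlus 4 (ZMod 2)))) : GL (Fin 4 ⊕ Fin 4) (ZMod 2)) : Matrix (Fin 4 ⊕ Fin 4) (Fin 4 ⊕ Fin 4) (ZMod 2)) (f h)) → ∃ v : Fin 4 ⊕ Fin 4 → ZMod 2, ∀ g : ↥(Cfsg.Omega (ZMod 2) (Cfsg.quadFormPlus 4 (ZMod 2))), f g = Matrix.mulVec (((g : ↥(Cfsg.isometryGroup (ZMod 2) (Cfsg.quadFormPlus 4 (ZMod 2)))) : GL (Fin 4 ⊕ Fin 4) (ZMod 2)) : Matrix (Fin 4 ⊕ Fin 4) (Fin 4 ⊕ Fin 4) (ZMod 2)) v - v) := by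
  refine ⟨fun f hf => ?_, fun f hf => ?_, fun f hf => ?_⟩
  · obtain ⟨v, hv⟩ := partA f hf
    exact ⟨v, hv⟩
  · obtain ⟨v, hv⟩ := partB f hf
    exact ⟨v, hv⟩
  · obtain ⟨v, hv⟩ := partC f hf
    exact ⟨v, hv⟩

end Cfsg.Agent.S5405
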