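import Cfsg.Statements.S5553
import Cfsg.Agent.Lib.LeechMin

set_option autoImplicit false
open Cfsg

namespace Cfsg.Agent.S5553

open Cfsg.Agent.Lib.LeechMin Cfsg.Agent.Lib.Golay

/-- `Lv` for the half-sum coordinate map. -/
theorem Lv.even_sub {x : GolayPt → ℤ} {m : ℤ} {A : Finset GolayPt} (hx : Lv x m A) (i : GolayPt) :
    ∃ k, x i - x none = 2 * k ∧ ((k : ℤ) : ZMod 2) = ((chi A i - chi A none : ℤ) : ZMod 2) := by
  obtain ⟨a, ha⟩ := hx.2.1 i
  obtain ⟨b, hb⟩ := hx.2.1 none
  refine ⟨2 * a - 2 * b + (chi A i - chi A none), by linear_combination ha - hb, ?_⟩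
  rw [ZMod.intCast_eq_intCast_iff_dvd_sub]
  exact ⟨b - a, by push_cast; ring⟩

theorem half_add {a b : ℤ} (ha : 2 ∣ a) (_hb : 2 ∣ b) : (a + b) / 2 = a / 2 + b / 2 :=
  Int.add_ediv_of_dvd_left ha

theorem even_sub' {x : GolayPt → ℤ} (hx : x ∈ leechLattice) (i : GolayPt) : (2 : ℤ) ∣ x i - x none := by
  obtain ⟨m, A, h⟩ := (mem_lattice_iff' x).1 hx
  obtain ⟨k, hk, _⟩ := Lv.even_sub h i
  exact ⟨k, hk⟩

/-- the map to parities -/
def f : leechLattice →+ ZMod 2 × (GolayPt → ZMod 2) where
  toFun x := (((x : GolayPt → ℤ) none : ZMod 2), fun i => ((((x : GolayPt → ℤ) i - (x : GolayPt → ℤ) none) / 2 : ℤ) : ZMod 2))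
  map_zero' := by ext <;> simp
  map_add' x y := by
    refine Prod.ext ?_ ?_
    · simp
    · funext i
      have h1 := even_sub' x.2 i
      have h2 := even_sub' y.2 i
      have h3 : ((x + y : leechLattice) : GolayPt → ℤ) i - ((x + y : leechLattice) : GolayPt → ℤ) none =
        ((x : GolayPt → ℤ) i - (x : GolayPt → ℤ) none) + ((y : GolayPt → ℤ) i - (y : GolayPt → ℤ) none) := by
        rw [AddSubgroup.coe_add, Pi.add_apply, Pi.add_apply]; ring
      simp only [h3, half_add h1 h2, Int.cast_add, Prod.snd_add, Pi.add_apply]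

theorem wordOf_mem {A : Finset GolayPt} (hA : A ∈ Sup) :
    (fun i => ((chi A i : ℤ) : ZMod 2)) ∈ golayCode := by
  obtain ⟨w, hw, hwA⟩ := hA
  have : (fun i => ((chi A i : ℤ) : ZMod 2)) = w := by
    funext i
    have h : i ∈ A ↔ w i ≠ 0 := by rw [← hwA]; simp [support₂]
    have h2 : ∀ z : ZMod 2, z ≠ 0 → z = 1 := by decide
    rcases chi_cases A i with ⟨h5, h6⟩ | ⟨h5, h6⟩
    · rw [h6, h2 _ (h.1 h5)]; simp
    · rw [h6]
      have : w i = 0 := by
        by_contra h7; exact h5 (h.2 h7)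
      rw [this]; simp
  rw [this]; exact hw

theorem one_mem : (fun _ => (1 : ZMod 2)) ∈ golayCode := Submodule.subset_span (Set.mem_union_right _ rfl)

/-- the image of `f` -/
theorem mem_range_f (b : ZMod 2) (c : GolayPt → ZMod 2) :
    (b, c) ∈ f.range ↔ c ∈ golayCode ∧ c none = 0 := by
  constructor
  · rintro ⟨x, hx⟩
    obtain ⟨m, A, h⟩ := (mem_lattice_iff' _).1 x.2
    have hc : c = fun i => ((((x : GolayPt → ℤ) i - (x : GolayPt → ℤ) none) / 2 : ℤ) : ZMod 2) :=
      (congrArg Prod.snd hx).symm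
    have hc' : c = (fun i => ((chi A i : ℤ) : ZMod 2)) - ((chi A none : ℤ) : ZMod 2) • fun _ => (1 : ZMod 2) := by
      rw [hc]
      funext i
      obtain ⟨k, hk, hk2⟩ := Lv.even_sub h i
      rw [hk, Int.mul_ediv_cancel_left _ (by norm_num), hk2]
      simp
    refine ⟨?_, ?_⟩
    · rw [hc']
      exact golayCode.sub_mem (wordOf_mem h.1) (golayCode.smul_mem _ one_mem)
    · rw [hc']; simp
  · rintro ⟨hc, hc0⟩
    obtain ⟨A, hA⟩ : ∃ A, A = support₂ c := ⟨_, rfl⟩
    have hAS : A ∈ Sup := ⟨c, hc, hA.symm⟩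
    have hAc : ∀ i, ((chi A i : ℤ) : ZMod 2) = c i := by
      intro i
      have h : i ∈ A ↔ c i ≠ 0 := by rw [hA]; simp [support₂]
      have h2 : ∀ z : ZMod 2, z ≠ 0 → z = 1 := by decide
      rcases chi_cases A i with ⟨h5, h6⟩ | ⟨h5, h6⟩
      · rw [h6, h2 _ (h.1 h5)]; simp
      · rw [h6]
        have : c i = 0 := by
          by_contra h7; exact h5 (h.2 h7)
        rw [this]; simp
    have hA0 : chi A none = 0 := by
      have h : none ∉ A := by rw [hA]; simp [support₂, hc0]
      simp [chi, h]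
    have hb2 : ∀ z : ZMod 2, z = 0 ∨ z = 1 := by decide
    obtain ⟨t, ht⟩ := four_dvd_card hAS
    rcases hb2 b with rfl | rfl
    · -- the vector 2 chi
      have hx : (fun i => 2 * chi A i) ∈ leechLattice := by
        refine (mem_lattice_iff' _).2 ⟨0, A, hAS, fun i => ⟨0, by ring⟩, ?_⟩
        rw [← Finset.mul_sum, sum_chi, ht]
        exact ⟨t, by ring⟩
      refine ⟨⟨_, hx⟩, ?_⟩
      refine Prod.ext ?_ ?_
      · change (((2 * chi A none : ℤ)) : ZMod 2) = 0
        rw [hA0]; simp
      · funext i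
        change (((2 * chi A i - 2 * chi A none) / 2 : ℤ) : ZMod 2) = c i
        rw [← mul_sub, Int.mul_ediv_cancel_left _ (by norm_num), hA0, sub_zero, hAc]
    · -- odd vector
      have hx : (fun i => 1 + 2 * chi A i - 4 * (if i = none then 1 else 0)) ∈ leechLattice := by
        refine (mem_lattice_iff' _).2 ⟨1, A, hAS, fun i => ⟨-(if i = none then 1 else 0), by ring⟩, ?_⟩
        rw [Finset.sum_sub_distrib, Finset.sum_add_distrib, ← Finset.mul_sum, ← Finset.mul_sum, sum_chi, ht,
          sum_const]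
        simp only [Finset.sum_ite_eq', Finset.mem_univ, if_true]
        exact ⟨t + 2, by ring⟩
      refine ⟨⟨_, hx⟩, ?_⟩
      refine Prod.ext ?_ ?_
      · change (((1 + 2 * chi A none - 4 * (if (none : GolayPt) = none then 1 else 0) : ℤ)) : ZMod 2) = 1
        rw [hA0]; simp
        decide
      · funext i
        change (((1 + 2 * chi A i - 4 * (if i = none then 1 else 0) - (1 + 2 * chi A none - 4 * (if (none : GolayPt) = none then 1 else 0))) / 2 : ℤ) : ZMod 2) = c i
        have h3 : (1 + 2 * chi A i - 4 * (if i = none then 1 else 0) - (1 + 2 * chi A none - 4 * (if (none : GolayPt) = none then 1 else 0)) : ℤ)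
          = 2 * (chi A i + 2 * (1 - (if i = none then 1 else 0))) := by
          rw [hA0, if_pos rfl]; ring
        rw [h3, Int.mul_ediv_cancel_left _ (by norm_num), Int.cast_add, hAc, Int.cast_mul]
        have : ((2 : ℤ) : ZMod 2) = 0 := by decide
        rw [this]; ring

theorem card_half : Nat.card {c : GolayPt → ZMod 2 // c ∈ golayCode ∧ c none = 0} = 2048 := by
  have e : golayCode ≃ ZMod 2 × {c : GolayPt → ZMod 2 // c ∈ golayCode ∧ c none = 0} :=
    { toFun := fun w => (w.1 none, ⟨w.1 - w.1 none • fun _ => (1 : ZMod 2),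
        golayCode.sub_mem w.2 (golayCode.smul_mem _ one_mem), by simp⟩)
      invFun := fun q => ⟨q.2.1 + q.1 • fun _ => (1 : ZMod 2), golayCode.add_mem q.2.2.1 (golayCode.smul_mem _ one_mem)⟩
      left_inv := fun w => by
        apply Subtype.ext
        simp
      right_inv := fun q => by
        rcases q with ⟨b, c, hc, hc0⟩
        refine Prod.ext ?_ ?_
        · simp [hc0]
        · apply Subtype.ext
          simp [hc0] }
  have h1 := Nat.card_congr e
  rw [natCard_golayCode, Nat.card_prod, Nat.card_zmod] at h1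
  omega

theorem card_range : Nat.card f.range = 2 ^ 12 := by
  have e : f.range ≃ ZMod 2 × {c : GolayPt → ZMod 2 // c ∈ golayCode ∧ c none = 0} :=
    { toFun := fun q => (q.1.1, ⟨q.1.2, (mem_range_f _ _).1 q.2⟩)
      invFun := fun q => ⟨(q.1, q.2.1), (mem_range_f _ _).2 q.2.2⟩
      left_inv := fun q => rfl
      right_inv := fun q => rfl }
  rw [Nat.card_congr e, Nat.card_prod, Nat.card_zmod, card_half]
  norm_num

/-- The Leech lattice of the definitions has an additive subgroup A containing twice the lattice, of index 2^12 in the lattice, all of whose vectors have squared length divisible by 32: the invariant quadratic form 'squared length over 16 modulo 2' on the lattice modulo twice the lattice (a 24-dimensional space over the field with two elements) vanishes on a 12-dimensional subspace, so it is of plus type. -/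
theorem result : ∃ A : AddSubgroup (Cfsg.GolayPt → ℤ), A ≤ Cfsg.leechLattice ∧ (∀ v ∈ Cfsg.leechLattice, (2 : ℤ) • v ∈ A) ∧ (A.addSubgroupOf Cfsg.leechLattice).index = 2 ^ 12 ∧ ∀ v ∈ A, (32 : ℤ) ∣ Cfsg.sqNorm v := by
  refine ⟨f.ker.map leechLattice.subtype, ?_, ?_, ?_, ?_⟩
  · rintro _ ⟨x, _, rfl⟩
    exact x.2
  · intro v hv
    refine ⟨⟨(2 : ℤ) • v, leechLattice.zsmul_mem hv 2⟩, ?_, rfl⟩
    rw [SetLike.mem_coe, AddMonoidHom.mem_ker]
    refine Prod.ext ?_ ?_
    · change (((2 : ℤ) • v : GolayPt → ℤ) none : ZMod 2) = 0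
      rw [Pi.smul_apply, smul_eq_mul, Int.cast_mul]
      have : ((2 : ℤ) : ZMod 2) = 0 := by decide
      rw [this]; ring
    · funext i
      change (((((2 : ℤ) • v : GolayPt → ℤ) i - ((2 : ℤ) • v : GolayPt → ℤ) none) / 2 : ℤ) : ZMod 2) = 0
      rw [Pi.smul_apply, Pi.smul_apply, smul_eq_mul, smul_eq_mul, ← mul_sub, Int.mul_ediv_cancel_left _ (by norm_num)]
      obtain ⟨k, hk⟩ := even_sub' hv i
      rw [hk, Int.cast_mul]
      have : ((2 : ℤ) : ZMod 2) = 0 := by decide
      rw [this]; ring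
  · rw [show (f.ker.map leechLattice.subtype).addSubgroupOf leechLattice = f.ker from
      AddSubgroup.comap_map_eq_self_of_injective leechLattice.subtype_injective _, AddSubgroup.index_ker]
    exact card_range
  · rintro _ ⟨⟨x, hx⟩, hxf, rfl⟩
    rw [SetLike.mem_coe, AddMonoidHom.mem_ker] at hxf
    change (32 : ℤ) ∣ sqNorm x
    have h1 : ((x none : ℤ) : ZMod 2) = 0 := congrArg Prod.fst hxf
    have h2 : ∀ i, (((x i - x none) / 2 : ℤ) : ZMod 2) = 0 := fun i => congrFun (congrArg Prod.snd hxf) i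
    have h3 : ∀ i, (4 : ℤ) ∣ x i - x none := by
      intro i
      obtain ⟨k, hk⟩ := even_sub' hx i
      have h4 := h2 i
      rw [hk, Int.mul_ediv_cancel_left _ (by norm_num), ZMod.intCast_zmod_eq_zero_iff_dvd] at h4
      obtain ⟨l, hl⟩ := h4
      exact ⟨l, by rw [hk, hl]; push_cast; ring⟩
    rw [ZMod.intCast_zmod_eq_zero_iff_dvd] at h1
    obtain ⟨t, ht⟩ := h1
    choose l hl using h3
    obtain ⟨m, A, hA, h4, h5⟩ := (mem_lattice_iff' _).1 hx
    have hxi : ∀ i, x i = 2 * t + 4 * l i := fun i => by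
      have := hl i
      push_cast at ht
      linarith
    -- m is even
    have hm : (2 : ℤ) ∣ m := by
      obtain ⟨a, ha⟩ := h4 none
      rw [hxi] at ha
      exact ⟨t + 2 * l none - chi A none - 2 * a, by linear_combination -ha⟩
    obtain ⟨n, hn⟩ := hm
    have hsum : ∑ i, x i = 48 * t + 4 * ∑ i, l i := by
      rw [Finset.sum_congr rfl fun i _ => hxi i, Finset.sum_add_distrib, ← Finset.mul_sum Finset.univ l, sum_const]
      ring
    have hl2 : (2 : ℤ) ∣ ∑ i, l i := by
      rw [hsum, hn] at h5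
      omega
    have hsq : sqNorm x = 96 * t ^ 2 + 16 * (t * ∑ i, l i) + 16 * ∑ i, l i ^ 2 := by
      unfold sqNorm
      rw [Finset.sum_congr rfl fun i _ => by rw [hxi i]]
      have : ∀ i, (2 * t + 4 * l i) ^ 2 = 4 * t ^ 2 + 16 * (t * l i) + 16 * l i ^ 2 := fun i => by ring
      simp only [this, Finset.sum_add_distrib, ← Finset.mul_sum]
      rw [sum_const]; ring
    have hpar : (2 : ℤ) ∣ ∑ i, l i ^ 2 - ∑ i, l i := by
      rw [← Finset.sum_sub_distrib]
      apply Finset.dvd_sum
      intro i _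
      have : l i ^ 2 - l i = (l i - 1) * l i := by ring
      rw [this]
      have h6 := Int.even_mul_pred_self (l i)
      rw [mul_comm] at h6
      exact h6.two_dvd
    rw [hsq]
    obtain ⟨a, ha⟩ := hl2
    obtain ⟨b, hb⟩ := hpar
    refine ⟨3 * t ^ 2 + t * a + a + b, ?_⟩
    rw [ha] at hb ⊢
    linear_combination 16 * hb

end Cfsg.Agent.S5553
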