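import Cfsg.Statements.S5408
import Cfsg.Agent.Lib.H89Monster
import Cfsg.Agent.S5553

set_option autoImplicit false
open Cfsg

namespace Cfsg.Agent.S5408

open Cfsg.Agent.Lib.H89Monster

/-- Let G be a finite group of Monster type at the involution z with Q the extraspecial normal subgroup of order 2^25 of C = C_G(z) (so C/Q is identified with the first Conway group with Q modulo its centre the Leech lattice modulo 2, and z is not weakly closed in Q). Then Q is of plus type: it contains an elementary abelian subgroup of order 2^13. -/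
theorem result {G : Type*} [Group G] [Finite G] (z : G) (Q : Subgroup (Subgroup.centralizer ({z} : Set G))) [Q.Normal] (hM : Cfsg.IsOfMonsterType z Q) : ∃ E : Subgroup Q, Cfsg.IsElementaryAbelian 2 E ∧ Nat.card E = 2 ^ 13 := by

  obtain ⟨⟨hz, hF, hQ, hcard, -⟩, e, ψ, hψ⟩ := hM
  obtain ⟨A, hA1, hA2, hA3, hA4⟩ := Cfsg.Agent.S5553.result
  -- ψ as a homomorphism
  let ψ' : Multiplicative ↥leechLattice →* ↥Q ⧸ Subgroup.center ↥Q :=
    { toFun := fun v => ψ (Multiplicative.toAdd v)
      map_one' := psi_zero hψ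
      map_mul' := fun v w => hψ.1 _ _ }
  let B : Subgroup (Multiplicative ↥leechLattice) := AddSubgroup.toSubgroup (A.addSubgroupOf leechLattice)
  have hsurj : Function.Surjective ψ' := fun y => by
    obtain ⟨v, hv⟩ := hψ.2.1 y
    exact ⟨Multiplicative.ofAdd v, hv⟩
  have hker : ψ'.ker ≤ B := by
    intro v hv
    obtain ⟨w, hw⟩ := (hψ.2.2.1 (Multiplicative.toAdd v)).1 hv
    show (Multiplicative.toAdd v) ∈ A.addSubgroupOf leechLattice
    rw [hw, AddSubgroup.mem_addSubgroupOf]
    have := hA2 w w.2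
    rw [two_smul] at this
    exact this
  have hBidx : B.index = 2 ^ 12 := hA3
  let E : Subgroup ↥Q := (B.map ψ').comap (QuotientGroup.mk' (Subgroup.center ↥Q))
  have hEidx : E.index = 2 ^ 12 := by
    rw [Subgroup.index_comap_of_surjective _ (QuotientGroup.mk'_surjective _)]
    rw [Subgroup.index_map_eq B hsurj hker, hBidx]
  have hEsq : ∀ q ∈ E, q ^ 2 = 1 := by
    rintro q ⟨v, hv, hvq⟩
    rw [sq_iff hQ hψ (v := Multiplicative.toAdd v) hvq]
    exact hA4 _ hv
  refine ⟨E, ⟨⟨⟨fun a b => ?_⟩⟩, fun a ha => hEsq a ha⟩, ?_⟩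
  · apply Subtype.ext
    have h1 := hEsq (a * b : ↥Q) (E.mul_mem a.2 b.2)
    have h2 := hEsq a a.2
    have h3 := hEsq b b.2
    rw [pow_two] at h1 h2 h3
    show (a : ↥Q) * b = b * a
    calc (a : ↥Q) * b = a * (a * b * (a * b)) * b := by rw [h1]; group
      _ = (a * a) * (b * a) * (b * b) := by group
      _ = b * a := by rw [h2, h3]; group
  · have h1 := E.card_mul_index
    rw [hEidx, hcard] at h1
    have h2 : (2 : ℕ) ^ (2 * 12 + 1) = 2 ^ 13 * 2 ^ 12 := by norm_num
    rw [h2] at h1
    exact Nat.eq_of_mul_eq_mul_right (by positivity) h1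

end Cfsg.Agent.S5408
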