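import Cfsg.Statements.S5411
import Cfsg.Agent.Lib.H89Mon2

set_option autoImplicit false
open Cfsg

namespace Cfsg.Agent.S5411

/-- Let G be a finite group of Monster type at the involution z with Q the extraspecial normal subgroup of order 2^25 of C = C_G(z) (so C/Q is identified with the first Conway group with Q modulo its centre the Leech lattice modulo 2, and z is not weakly closed in Q). Then C acts transitively by conjugation on the involutions of Q that are not conjugate to z in G. -/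
theorem result {G : Type*} [Group G] [Finite G] (z : G) (Q : Subgroup (Subgroup.centralizer ({z} : Set G))) [Q.Normal] (hM : Cfsg.IsOfMonsterType z Q) (s t : G) (hsQ : ∃ hsc : s ∈ Subgroup.centralizer ({z} : Set G), (⟨s, hsc⟩ : Subgroup.centralizer ({z} : Set G)) ∈ Q) (htQ : ∃ htc : t ∈ Subgroup.centralizer ({z} : Set G), (⟨t, htc⟩ : Subgroup.centralizer ({z} : Set G)) ∈ Q) (hs2 : orderOf s = 2) (ht2 : orderOf t = 2) (hs : ¬ IsConj z s) (ht : ¬ IsConj z t) : ∃ h ∈ Subgroup.centralizer ({z} : Set G), h * s * h⁻¹ = t := by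
  obtain ⟨⟨hz, hF, hQ, hcard, hnwc⟩, e, ψ, hψ⟩ := hM
  have M : Cfsg.Agent.Lib.H89Mon1.Mon z Q e ψ := ⟨hz, hF, hQ, hcard, hψ⟩
  have key : ∀ s : G, (∃ hsc : s ∈ Subgroup.centralizer ({z} : Set G), (⟨s, hsc⟩ : Subgroup.centralizer ({z} : Set G)) ∈ Q) →
      orderOf s = 2 → ¬ IsConj z s → ∃ v : leechLattice, Cfsg.Agent.Lib.H89Mon1.Cl ψ s v ∧ sqNorm (v : GolayPt → ℤ) = 32 := by
    rintro s ⟨h1, h2⟩ h3 h4
    have hsQ : s ∈ Cfsg.Agent.Lib.H89Mon1.QG Q := ⟨_, h2, rfl⟩
    have h5 : s ≠ 1 := by rintro rfl; simp at h3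
    have h6 : s ≠ z := by rintro rfl; exact h4 (IsConj.refl _)
    obtain ⟨v, hv, hn, h0⟩ := M.exists_short hsQ h5 h6
    have hsq : s * s = 1 := by rw [← pow_two, ← h3, pow_orderOf_eq_one]
    rcases Cfsg.Agent.Lib.H89Mon1.norm_cases h0 hn ((M.cl_sq hv).1 hsq) with h | h
    · exact ⟨v, hv, h⟩
    · exact (h4 ((M.type_four hnwc hsQ).2 ⟨v, h, hv⟩).1).elim
  obtain ⟨v, hsv, hv⟩ := key s hsQ hs2 hs
  obtain ⟨w, htw, hw⟩ := key t htQ ht2 ht
  exact M.fuse hsv htw (by rintro rfl; simp [sqNorm] at hv) (by rw [hv]; norm_num) (hv.trans hw.symm)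

end Cfsg.Agent.S5411
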