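import Cfsg.Statements.S5412
import Cfsg.Agent.Lib.H89Mon7

set_option autoImplicit false
open Cfsg

namespace Cfsg.Agent.S5412

/-- Let G be a finite group of Monster type at the involution z with Q the extraspecial normal subgroup of order 2^25 of C = C_G(z) (so C/Q is identified with the first Conway group with Q modulo its centre the Leech lattice modulo 2, and z is not weakly closed in Q). Let t be an involution of Q not conjugate to z in G. Then the centralizer of t modulo the subgroup generated by t is a group of Baby Monster type (an involution whose centralizer D has generalized Fitting subgroup R extraspecial of order 2^23 with D/R identified with the second Conway group acting on R modulo its centre as on the vectors of the Leech lattice modulo 2 orthogonal to a short vector, modulo that vector; the involution not weakly closed in R). -/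
theorem result {G : Type*} [Group G] [Finite G] (z : G) (Q : Subgroup (Subgroup.centralizer ({z} : Set G))) [Q.Normal] (hM : Cfsg.IsOfMonsterType z Q) (t : G) (htQ : ∃ htc : t ∈ Subgroup.centralizer ({z} : Set G), (⟨t, htc⟩ : Subgroup.centralizer ({z} : Set G)) ∈ Q) (ht2 : orderOf t = 2) (ht : ¬ IsConj z t) [hn : ((Subgroup.zpowers t).subgroupOf (Subgroup.centralizer ({t} : Set G))).Normal] : Cfsg.IsOfBabyMonsterType (↥(Subgroup.centralizer ({t} : Set G)) ⧸ (Subgroup.zpowers t).subgroupOf (Subgroup.centralizer ({t} : Set G))) := by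
  obtain ⟨⟨hz, hF, hQ, hcard, hnwc⟩, e, ψ, hψ⟩ := hM
  have M : Cfsg.Agent.Lib.H89Mon1.Mon z Q e ψ := ⟨hz, hF, hQ, hcard, hψ⟩
  obtain ⟨h1, h2⟩ := htQ
  have htQ : t ∈ Cfsg.Agent.Lib.H89Mon1.QG Q := ⟨_, h2, rfl⟩
  have h5 : t ≠ 1 := by rintro rfl; simp at ht2
  have h6 : t ≠ z := by rintro rfl; exact ht (IsConj.refl _)
  obtain ⟨v, hv, hn', h0⟩ := M.exists_short htQ h5 h6
  have hsq : t * t = 1 := by rw [← pow_two, ← ht2, pow_orderOf_eq_one]
  have hv32 : sqNorm (v : GolayPt → ℤ) = 32 := by
    rcases Cfsg.Agent.Lib.H89Mon1.norm_cases h0 hn' ((M.cl_sq hv).1 hsq) with h | h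
    · exact h
    · exact (ht ((M.type_four hnwc htQ).2 ⟨v, h, hv⟩).1).elim
  obtain ⟨g0, hg0⟩ := Cfsg.Agent.Lib.LeechTrans.transitive (w := Spor.leechU) h0 hn'
    (hv32.trans Cfsg.Agent.Lib.H89Mon1.norm_leechU.symm)
  have M' : Cfsg.Agent.Lib.H89Mon1.Mon z Q (e.trans (MulAut.conj (QuotientGroup.mk g0 : Spor.Co1))) (fun v => ψ (g0⁻¹ • v)) :=
    ⟨hz, hF, hQ, hcard, Cfsg.Agent.Lib.H89Mon1.twist hψ g0⟩
  have hcl : Cfsg.Agent.Lib.H89Mon1.Cl (fun v => ψ (g0⁻¹ • v)) t Spor.leechU := by
    obtain ⟨q, hq, hqv⟩ := hv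
    exact ⟨q, hq, by show ψ (g0⁻¹ • Spor.leechU) = _; rw [← hg0, inv_smul_smul, hqv]⟩
  exact M'.baby hcl hnwc

end Cfsg.Agent.S5412
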