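import Cfsg.Statements.S5418
import Cfsg.Agent.Lib.H89HeldN3

set_option autoImplicit false
open Cfsg

namespace Cfsg.Agent.S5418

/-- Let G be a finite group of Monster type at the involution z with Q the extraspecial normal subgroup of order 2^25 of C = C_G(z) (so C/Q is identified with the first Conway group with Q modulo its centre the Leech lattice modulo 2, and z is not weakly closed in Q). Let s be a conjugate of z in Q other than z and let B be a Sylow 7-subgroup of the joint centralizer of z and s. Then the centralizer of B has index 6 in the normalizer of B; and some involution inverting B induces, by conjugation, a non-inner automorphism of the layer of the centralizer of B. -/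
theorem result {G : Type*} [Group G] [Finite G] (z : G) (Q : Subgroup (Subgroup.centralizer ({z} : Set G))) [Q.Normal] (hM : Cfsg.IsOfMonsterType z Q) (s : G) (hsQ : ∃ hsc : s ∈ Subgroup.centralizer ({z} : Set G), (⟨s, hsc⟩ : Subgroup.centralizer ({z} : Set G)) ∈ Q) (hs : IsConj z s) (hs1 : s ≠ z) (B : Subgroup G) (hB : B ≤ Subgroup.centralizer ({z, s} : Set G)) (hBp : Nat.card B = 7 ^ (Nat.card ↥(Subgroup.centralizer ({z, s} : Set G))).factorization 7) : (Subgroup.centralizer (B : Set G)).relIndex (Subgroup.normalizer (B : Set G)) = 6 ∧ ∃ t : G, orderOf t = 2 ∧ (∀ b ∈ B, t * b * t⁻¹ = b⁻¹) ∧ (∀ x ∈ (Cfsg.layer ↥(Subgroup.centralizer (B : Set G))).map (Subgroup.centralizer (B : Set G)).subtype, t * x * t⁻¹ ∈ (Cfsg.layer ↥(Subgroup.centralizer (B : Set G))).map (Subgroup.centralizer (B : Set G)).subtype) ∧ ¬ ∃ l ∈ (Cfsg.layer ↥(Subgroup.centralizer (B : Set G))).map (Subgroup.centralizer (B : Set G)).subtype, ∀ x ∈ (Cfsg.layer ↥(Subgroup.centralizer (B : Set G))).map (Subgroup.centralizer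 (B : Set G)).subtype, t * x * t⁻¹ = l * x * l⁻¹ := by
  obtain ⟨⟨hz, hF, hQ, hcard, hnwc⟩, e, ψ, hψ⟩ := hM
  have M : Cfsg.Agent.Lib.H89Mon1.Mon z Q e ψ := ⟨hz, hF, hQ, hcard, hψ⟩
  obtain ⟨h1, h2⟩ := hsQ
  have hsQ : s ∈ Cfsg.Agent.Lib.H89Mon1.QG Q := ⟨_, h2, rfl⟩
  obtain ⟨v, hv, hsv⟩ := (M.type_four hnwc hsQ).1 ⟨hs, hs1⟩
  exact M.seven hnwc hsv hv hB hBp

end Cfsg.Agent.S5418
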