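import Cfsg.Statements.S5420
import Cfsg.Agent.Lib.LargeExtra

set_option autoImplicit false
open Cfsg

namespace Cfsg.Agent.S5420

open Cfsg.Agent.Lib.LargeExtra

theorem isPGroup_pCore_two {G : Type*} [Group G] [Finite G] : IsPGroup 2 (Cfsg.pCore 2 G) := by
  haveI : Fact (Nat.Prime 2) := ⟨Nat.prime_two⟩
  -- the p-core lies in every Sylow subgroup
  obtain ⟨P⟩ : Nonempty (Sylow 2 G) := inferInstance
  have h : Cfsg.pCore 2 G ≤ (P : Subgroup G) := by
    apply sSup_le
    rintro N ⟨hN, hp⟩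
    haveI := hN
    obtain ⟨Q, hQ⟩ := hp.exists_le_sylow
    obtain ⟨g, hg⟩ := MulAction.exists_smul_eq G Q P
    rw [← hg, Sylow.coe_subgroup_smul]
    intro x hx
    rw [Subgroup.mem_pointwise_smul_iff_inv_smul_mem]
    apply hQ
    have : (MulAut.conj g)⁻¹ • x = g⁻¹ * x * g := by
      simp [MulAut.smul_def, ← map_inv]
    rw [this]
    simpa using hN.conj_mem x hx g⁻¹
  exact P.isPGroup'.to_le h

/-- Let Q be an extraspecial 2-subgroup of the finite group G whose centralizer in G is its centre Z and which is normal in the centralizer of Z. If Z lies in the largest normal 2-subgroup of G, then Q is a large extraspecial 2-subgroup of G: it normalizes no non-trivial subgroup of G of odd order. -/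
theorem result {G : Type*} [Group G] [Finite G] (Q : Subgroup G) (hL1 : Cfsg.IsExtraspecial 2 ↥Q) (hL2 : Subgroup.centralizer (Q : Set G) = ((Subgroup.center ↥Q).map Q.subtype)) (hL3 : Subgroup.centralizer (((Subgroup.center ↥Q).map Q.subtype) : Set G) ≤ Subgroup.normalizer (Q : Set G)) (hZ : ((Subgroup.center ↥Q).map Q.subtype) ≤ Cfsg.pCore 2 G) : Cfsg.IsLargeExtraspecial Q := by
  obtain ⟨z, h⟩ := exists_preLarge hL1 hL2 hL3
  refine ⟨hL1, hL2, hL3, ?_⟩
  intro K hK hQK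
  have hzO : z ∈ Cfsg.pCore 2 G := hZ (h.mem_map_iff.2 (Or.inr rfl))
  have hn : (Cfsg.pCore 2 G).Normal := Subgroup.sSup_normal _ (fun _ h => h.1)
  rw [Subgroup.eq_bot_iff_forall]
  intro k hk
  have hQK' : ∀ q ∈ Q, ∀ k ∈ K, q * k * q⁻¹ ∈ K := fun q hq k hk =>
    conj_mem_of_le_normalizer (hQK hq) hk
  refine h.odd_fixed hK hQK' hk ?_
  have h1 : z * k * z⁻¹ * k⁻¹ ∈ K := mul_mem (hQK' z h.mem k hk) (inv_mem hk)
  have h2 : z * k * z⁻¹ * k⁻¹ ∈ Cfsg.pCore 2 G := by
    have : z * k * z⁻¹ * k⁻¹ = z * (k * z⁻¹ * k⁻¹) := by simp only [mul_assoc]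
    rw [this]
    exact mul_mem hzO (hn.conj_mem _ (inv_mem hzO) k)
  have h3 := eq_one_of_mem_odd_of_isPGroup hK isPGroup_pCore_two h1 h2
  rw [mul_inv_eq_one, mul_inv_eq_iff_eq_mul] at h3
  exact h3.symm

end Cfsg.Agent.S5420
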