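import Cfsg.Statements.S5421
import Cfsg.Agent.Lib.LargeExtra

set_option autoImplicit false
open Cfsg

namespace Cfsg.Agent.S5421

open Cfsg.Agent.Lib.LargeExtra

/-- Let Q be an extraspecial 2-subgroup of the finite group G whose centralizer in G is its centre Z and which is normal in the centralizer of Z. If some involution b of Q outside Z has Z inside the largest normal 2-subgroup of the centralizer of b, then Q is a large extraspecial 2-subgroup of G. -/
theorem result {G : Type*} [Group G] [Finite G] (Q : Subgroup G) (hL1 : Cfsg.IsExtraspecial 2 ↥Q) (hL2 : Subgroup.centralizer (Q : Set G) = ((Subgroup.center ↥Q).map Q.subtype)) (hL3 : Subgroup.centralizer (((Subgroup.center ↥Q).map Q.subtype) : Set G) ≤ Subgroup.normalizer (Q : Set G)) (b : G) (hbQ : b ∈ Q) (hbZ : b ∉ ((Subgroup.center ↥Q).map Q.subtype)) (hb : orderOf b = 2) (hZ : ((Subgroup.center ↥Q).map Q.subtype) ≤ (Cfsg.pCore 2 ↥(Subgroup.centralizer ({b} : Set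 G))).map (Subgroup.centralizer ({b} : Set G)).subtype) : Cfsg.IsLargeExtraspecial Q := by
  obtain ⟨z, h⟩ := exists_preLarge hL1 hL2 hL3
  refine ⟨hL1, hL2, hL3, ?_⟩
  intro K hK hQK
  haveI : Fact (Nat.Prime 2) := ⟨Nat.prime_two⟩
  have hb2 : b * b = 1 := by rw [← pow_two, ← hb, pow_orderOf_eq_one]
  have hbz' : ¬ (b = 1 ∨ b = z) := fun h' => hbZ (h.mem_map_iff.2 h')
  push Not at hbz'
  have hzO : z ∈ (Cfsg.pCore 2 ↥(Subgroup.centralizer ({b} : Set G))).map (Subgroup.centralizer ({b} : Set G)).subtype :=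
    hZ (h.mem_map_iff.2 (Or.inr rfl))
  obtain ⟨z', hz', hzz'⟩ := hzO
  have hz'G : (z' : G) = z := hzz'
  have hn : (Cfsg.pCore 2 ↥(Subgroup.centralizer ({b} : Set G))).Normal := pCore_normal'
  have hQK' : ∀ q ∈ Q, ∀ k ∈ K, q * k * q⁻¹ ∈ K := fun q hq k hk =>
    conj_mem_of_le_normalizer (hQK hq) hk
  have hfz : ∀ k ∈ K, k * z = z * k → k = 1 := fun k hk hkz => h.odd_fixed hK hQK' hk hkz
  have hfb : ∀ k ∈ K, k * b = b * k → k = 1 := by
    intro k hk hkb
    apply hfz k hk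
    -- work inside C(b)
    have hkC : k ∈ Subgroup.centralizer ({b} : Set G) := by
      rw [Subgroup.mem_centralizer_singleton_iff]; exact hkb
    have h1 : z * k * z⁻¹ * k⁻¹ ∈ K := mul_mem (hQK' z h.mem k hk) (inv_mem hk)
    have h2 : z' * ⟨k, hkC⟩ * z'⁻¹ * ⟨k, hkC⟩⁻¹ ∈ Cfsg.pCore 2 ↥(Subgroup.centralizer ({b} : Set G)) := by
      have : z' * (⟨k, hkC⟩ : ↥(Subgroup.centralizer ({b} : Set G))) * z'⁻¹ * ⟨k, hkC⟩⁻¹ =
        z' * ((⟨k, hkC⟩ : ↥(Subgroup.centralizer ({b} : Set G))) * z'⁻¹ * ⟨k, hkC⟩⁻¹) := by simp only [mul_assoc]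
      rw [this]
      exact mul_mem hz' (hn.conj_mem _ (inv_mem hz') _)
    have h2' : z * k * z⁻¹ * k⁻¹ ∈ (Cfsg.pCore 2 ↥(Subgroup.centralizer ({b} : Set G))).map (Subgroup.centralizer ({b} : Set G)).subtype := by
      refine ⟨_, h2, ?_⟩
      simp [hz'G]
    have hP : IsPGroup 2 ((Cfsg.pCore 2 ↥(Subgroup.centralizer ({b} : Set G))).map (Subgroup.centralizer ({b} : Set G)).subtype) :=
      isPGroup_pCore.map _
    have h3 := eq_one_of_mem_odd_of_isPGroup hK hP h1 h2'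
    rw [mul_inv_eq_one, mul_inv_eq_iff_eq_mul] at h3
    exact h3.symm
  obtain ⟨q, hq, hqb⟩ := h.exists_conj hbQ hbz'.1 hbz'.2
  refine eq_bot_of_three hK h.sq hb2 (hQK' z h.mem) (hQK' b hbQ) hfz hfb ?_
  intro k hk hkzb
  -- conjugate by q⁻¹
  have h1 : q⁻¹ * k * q ∈ K := by simpa using hQK' q⁻¹ (inv_mem hq) k hk
  have h2 : q⁻¹ * k * q = 1 := by
    apply hfb _ h1
    rw [← hqb] at hkzb
    have := congrArg (fun t => q⁻¹ * t * q) hkzb
    simpa [mul_assoc] using this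
  have : k = q * (q⁻¹ * k * q) * q⁻¹ := by simp [mul_assoc]
  rw [this, h2]; simp

end Cfsg.Agent.S5421
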