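import Cfsg.Statements.S5425
import Cfsg.Agent.Lib.HeisM24

set_option autoImplicit false
open Cfsg

namespace Cfsg.Agent.S5425

/-- In the Mathieu group of degree 24 (the automorphism group of the length-24 binary Golay code, acting on the 24 coordinates), let z be an involution whose fixed points form an octad (the support of a code word of weight 8), and let Q be the largest normal 2-subgroup of the centralizer C of z. Then Q is extraspecial of order 2^7 with an elementary abelian subgroup of order 16 (plus type), Q is a large extraspecial 2-subgroup, and C is the split extension of Q by the special linear group of degree 3 over the field with two elements. -/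
theorem result (z : ↥Cfsg.M24) (hz : orderOf z = 2) (hfix : (Finset.univ.filter fun p : Cfsg.GolayPt => (z : Equiv.Perm Cfsg.GolayPt) p = p) ∈ Cfsg.octads) (Q : Subgroup ↥Cfsg.M24) (hQ : Q = (Cfsg.pCore 2 ↥(Subgroup.centralizer ({z} : Set ↥Cfsg.M24))).map (Subgroup.centralizer ({z} : Set ↥Cfsg.M24)).subtype) : Cfsg.IsExtraspecial 2 ↥Q ∧ Nat.card ↥Q = 2 ^ 7 ∧ (∃ E : Subgroup ↥Cfsg.M24, E ≤ Q ∧ Cfsg.IsElementaryAbelian 2 E ∧ Nat.card ↥E = 2 ^ 4) ∧ Cfsg.IsLargeExtraspecial Q ∧ ∃ K : Subgroup ↥Cfsg.M24, K ≤ Subgroup.centralizer ({z} : Set ↥Cfsg.M24) ∧ Q ⊓ K = ⊥ ∧ Q ⊔ K = Subgroup.centralizer ({z} : Set ↥Cfsg.M24) ∧ Nonempty (↥K ≃* Matrix.SpecialLinearGroup (Fin 3) (ZMod 2)) := by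
  obtain ⟨⟨S⟩, g, hg1, hg2⟩ := Cfsg.Agent.Lib.HeisGL.settingM24 z hz hfix
  have hQ' : Q = Cfsg.Agent.Lib.HeisGL.QG z := hQ
  subst hQ'
  obtain ⟨K, h1, h2, h3, ⟨e⟩⟩ := S.exists_K
  exact ⟨S.isExtraspecial, S.card_Q, S.exists_E, S.large (by norm_num) g hg1 hg2, K, h1, h2, h3,
    ⟨e.trans Cfsg.Agent.Lib.HeisGL.glEquivSL⟩⟩

end Cfsg.Agent.S5425
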