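import Cfsg.Statements.S5426
import Cfsg.Agent.Lib.LgEx3

set_option autoImplicit false
open Cfsg

namespace Cfsg.Agent.S5426

/-- Let Q be a large extraspecial 2-subgroup of the finite group G (extraspecial; centralizer equal to its centre; normal in the centralizer of its centre; normalizing no non-trivial subgroup of odd order) with centre generated by z, and let M be the normal closure of z in G. Then one of the following holds: Q is normal in G; or M is abelian and the generalized Fitting subgroup of G is its largest normal 2-subgroup; or M is the generalized Fitting subgroup of G and is a non-abelian simple group; or M is the generalized Fitting subgroup of G and is the direct product of a non-abelian simple subgroup L and its conjugate u L u⁻¹ by some u in Q (the two meet trivially and commute elementwise), with z = z₁ (u z₁ u⁻¹) for some z₁ in L whose centralizer in L is a Sylow 2-subgroup of L with Frattini subgroup inside the subgroup generated by z₁, and Q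 is not the largest normal 2-subgroup of the centralizer of z. -/
theorem result {G : Type*} [Group G] [Finite G] (Q : Subgroup G) (hQ : Cfsg.IsLargeExtraspecial Q) (z : G) (hz : ((Subgroup.center ↥Q).map Q.subtype) = Subgroup.zpowers z) (M : Subgroup G) (hM : M = Subgroup.normalClosure ({z} : Set G)) : Q.Normal ∨ (IsMulCommutative ↥M ∧ Cfsg.generalizedFittingSubgroup G = Cfsg.pCore 2 G) ∨ (M = Cfsg.generalizedFittingSubgroup G ∧ IsSimpleGroup ↥M ∧ ¬ IsMulCommutative ↥M) ∨ (M = Cfsg.generalizedFittingSubgroup G ∧ ∃ (L : Subgroup G) (u : G), u ∈ Q ∧ IsSimpleGroup ↥L ∧ ¬ IsMulCommutative ↥L ∧ L ⊓ (L).map (MulAut.conj u).toMonoidHom = ⊥ ∧ (∀ x ∈ L, ∀ y ∈ (L).map (MulAut.conj u).toMonoidHom, x * y = y * x) ∧ L ⊔ (L).map (MulAut.conj u).toMonoidHom = M ∧ ∃ z₁ ∈ L, z = z₁ * (u * z₁ * u⁻¹) ∧ (∃ R : Sylow 2 ↥L, (R : Subgroup ↥L) = (Subgroup.centralizer ({z₁} : Set G)).subgroupOf L ∧ (frattini ↥(R : Subgroup ↥L)).map ((L.subtype).comp (R : Subgroup ↥L).subtype) ≤ Subgroup.zpowers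 z₁) ∧ Q ≠ (Cfsg.pCore 2 ↥(Subgroup.centralizer ({z} : Set G))).map (Subgroup.centralizer ({z} : Set G)).subtype) := by
  obtain ⟨z', hz'⟩ := Cfsg.Agent.Lib.LargeExtra.exists_preLarge hQ.1 hQ.2.1 hQ.2.2.1
  have hzz : z' = z := by
    have h1 : z' ∈ Subgroup.zpowers z := by rw [← hz, hz'.map]; exact Subgroup.mem_zpowers z'
    have h2 : z ∈ Subgroup.zpowers z' := by rw [← hz'.map, hz]; exact Subgroup.mem_zpowers z
    rcases (Cfsg.Agent.Lib.LargeExtra.mem_zpowers_of_sq hz'.sq).1 h2 with h3 | h3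
    · exfalso
      rw [h3, Subgroup.mem_zpowers_iff] at h1
      obtain ⟨k, hk⟩ := h1
      rw [one_zpow] at hk
      exact hz'.ne hk.symm
    · exact h3.symm
  rw [hzz] at hz'
  have h : Cfsg.Agent.Lib.LgEx.LHyp Q z := ⟨hz', hQ.2.2.2⟩
  subst hM
  right
  by_cases hL : Cfsg.layer G = ⊥
  · left
    exact h.caseA hL
  right
  have h2 : Cfsg.Agent.Lib.LgEx.Lay Q z := ⟨h, hL⟩
  have hM : Subgroup.normalClosure ({z} : Set G) = Cfsg.generalizedFittingSubgroup G := by
    rw [h2.normalClosure_eq, h2.gen_eq]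
  obtain ⟨L, hLc⟩ := h2.exists_comp
  by_cases hone : ∀ K : Subgroup G, Cfsg.IsComponent K → K = L
  · left
    have h3 := h2.one_comp hLc hone
    refine ⟨hM, ?_⟩
    rw [h2.normalClosure_eq, h3]
    exact ⟨h2.comp_simple hLc, Cfsg.Agent.Lib.Components.not_isMulCommutative_of_quasisimple hLc.2⟩
  right
  push Not at hone
  obtain ⟨L', hL', hne⟩ := hone
  obtain ⟨-, hnorm⟩ := h2.not_norm hLc hL' hne.symm
  obtain ⟨u, huQ, hu⟩ : ∃ u ∈ Q, Cfsg.Agent.Lib.LgEx.cj L u ≠ L := by
    by_contra hcon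
    push Not at hcon
    apply hnorm
    intro q hq
    rw [Subgroup.mem_normalizer_iff]
    intro x
    have h4 := hcon q hq
    constructor
    · intro hx
      have := Cfsg.Agent.Lib.LgEx.mem_cj (u := q) hx
      rwa [h4] at this
    · intro hx
      have h5 := hcon q⁻¹ (Q.inv_mem hq)
      have h6 := Cfsg.Agent.Lib.LgEx.mem_cj (u := q⁻¹) hx
      rw [h5] at h6
      have h7 : q⁻¹ * (q * x * q⁻¹) * q⁻¹⁻¹ = x := by group
      rwa [h7] at h6
  have S : Cfsg.Agent.Lib.LgEx.Sev Q z L u := ⟨h2, hLc, huQ, hu⟩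
  obtain ⟨z₁, c, hz₁⟩ := S.exists_Z1
  have hc := S.z_eq hz₁
  obtain ⟨T, hT⟩ := S.sylow
  refine ⟨hM, L, u, huQ, h2.comp_simple hLc, Cfsg.Agent.Lib.Components.not_isMulCommutative_of_quasisimple hLc.2, ?_, ?_, ?_,
    z₁, hz₁.mem, ?_, ⟨T, ?_, ?_⟩, S.ne_core⟩
  · rw [eq_bot_iff]
    intro x hx
    exact Subgroup.mem_bot.2 (S.disj hx.1 hx.2)
  · intro x hx y hy
    exact S.cmt hx hy
  · rw [h2.normalClosure_eq]
    exact S.layer_eq
  · rw [← hc]; exact hz₁.eq
  · rw [hT]
    ext x
    rw [Subgroup.mem_subgroupOf, Subgroup.mem_subgroupOf, Subgroup.mem_centralizer_singleton_iff,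
      Subgroup.mem_centralizer_singleton_iff]
    exact S.cent_iff hz₁ x.2
  · rw [Subgroup.map_le_iff_le_comap]
    apply Cfsg.Agent.Lib.FrattiniQuot.frattini_le_of_squares
    rintro ⟨⟨x, hxL⟩, hx⟩
    rw [hT, Subgroup.mem_subgroupOf, Subgroup.mem_centralizer_singleton_iff] at hx
    have h3 : x * x ∈ Subgroup.zpowers z₁ := by
      rcases S.sq_mem hz₁ hxL hx with h4 | h4
      · rw [h4]; exact one_mem _
      · rw [h4]; exact Subgroup.mem_zpowers _
    rw [Subgroup.mem_comap, pow_two]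
    exact h3

end Cfsg.Agent.S5426
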