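import Cfsg.Statements.S5427
import Cfsg.Agent.Lib.LargeExtra7
import Cfsg.Agent.S5421

set_option autoImplicit false
open Cfsg

namespace Cfsg.Agent.S5427

open Cfsg.Agent.Lib.LargeExtra

/-- Let z be an involution of the finite group G whose centralizer C has generalized Fitting subgroup Q, an extraspecial 2-group of width at least 2 (order 2^(2w+1), w ≥ 2). Let K be a subgroup of G such that the subgroup U generated by the K-conjugates of z is abelian and C is generated by the C-conjugates of U. Suppose that either some K-conjugate of z other than z lies in Q, or some element u of U ∩ Q outside the subgroup generated by z has z in the largest normal 2-subgroup of its centralizer. Then G is simple and Q is a large extraspecial 2-subgroup of G. -/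
theorem result {G : Type*} [Group G] [Finite G] (z : G) (hz : orderOf z = 2) (Q : Subgroup G) (hQC : Q ≤ Subgroup.centralizer ({z} : Set G)) (hF : (Cfsg.generalizedFittingSubgroup ↥(Subgroup.centralizer ({z} : Set G))).map (Subgroup.centralizer ({z} : Set G)).subtype = Q) (hQ : Cfsg.IsExtraspecial 2 ↥Q) (w : ℕ) (hw : 2 ≤ w) (hcard : Nat.card ↥Q = 2 ^ (2 * w + 1)) (K U : Subgroup G) (hU : U = Subgroup.closure {x : G | ∃ k ∈ K, x = k * z * k⁻¹}) (hUab : IsMulCommutative ↥U) (hgen : Subgroup.closure {x : G | ∃ c ∈ Subgroup.centralizer ({z} : Set G), ∃ u ∈ U, x = c * u * c⁻¹} = Subgroup.centralizer ({z} : Set G)) (h3 : (∃ k ∈ K, k * z * k⁻¹ ∈ Q ∧ k * z * k⁻¹ ≠ z) ∨ ∃ u ∈ U ⊓ Q, u ∉ Subgroup.zpowers z ∧ (∃ hz' : z ∈ Subgroup.centralizer ({u} : Set G), (⟨z, hz'⟩ : ↥(Subgroup.centralizer ({u} : Set G))) ∈ Cfsg.pCore 2 ↥(Subgroup.centralizer ({u} : Set G)))) : IsSimpleGroup G ∧ Cfsg.IsLargeExtraspecial Q := by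
  obtain ⟨z', hz'⟩ := exists_exData hQ
  have h := preLarge_of_setting hz hF hz'
  have hlarge : Cfsg.IsLargeExtraspecial Q := by
    rcases h3 with ⟨k, _, hkQ, hkne⟩ | ⟨u, hu, huz, hzu, hzO⟩
    · have h1 := h.conj k
      have h8 : 8 < Nat.card ↥Q := by
        rw [hcard]
        calc 8 < 2 ^ 5 := by norm_num
          _ ≤ 2 ^ (2 * w + 1) := Nat.pow_le_pow_right (by norm_num) (by omega)
      have hnab := h.exists_nonab_centralizer h8 hkQ h1.ne hkne
      have hzQ1 := h.mem_conj hkQ hkne hnab
      exact h.isLarge hQ (fun K hK hQK => h.odd_eq_bot h1 hkQ hkne hzQ1 hK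
        (fun q hq k hk => conj_mem_of_le_normalizer (hQK hq) hk))
    · -- u is an involution
      have hu2 : ∀ x ∈ U, x * x = 1 := by
        intro x hx
        have hcomm : ∀ a ∈ U, ∀ b ∈ U, a * b = b * a := by
          intro a ha b hb
          have := hUab.is_comm.comm (⟨a, ha⟩ : U) ⟨b, hb⟩
          exact congrArg Subtype.val this
        have hx' := hx
        rw [hU] at hx'
        induction hx' using Subgroup.closure_induction with
        | mem y hy =>
          obtain ⟨k, _, rfl⟩ := hy
          calc k * z * k⁻¹ * (k * z * k⁻¹) = k * (z * z) * k⁻¹ := by group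
            _ = 1 := by rw [h.sq]; group
        | one => simp
        | mul a b ha hb iha ihb =>
          rw [← hU] at ha hb
          have h1 := iha ha
          have h2 := ihb hb
          calc a * b * (a * b) = a * (b * a) * b := by simp only [mul_assoc]
            _ = (a * a) * (b * b) := by rw [hcomm b hb a ha]; simp only [mul_assoc]
            _ = 1 := by rw [h1, h2, one_mul]
        | inv a ha iha =>
          rw [← hU] at ha
          rw [← mul_inv_rev, iha ha, inv_one]
      have hu1 : u ≠ 1 := by
        intro h1; apply huz; rw [h1]; exact one_mem _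
      refine Cfsg.Agent.S5421.result Q hQ h.centralizer_eq h.centralizer_le u hu.2 ?_ ?_ ?_
      · rw [h.map]; exact huz
      · apply orderOf_eq_prime
        · rw [pow_two]; exact hu2 u hu.1
        · exact hu1
      · intro x hx
        rcases h.mem_map_iff.1 hx with rfl | rfl
        · exact one_mem _
        · exact ⟨_, hzO, rfl⟩
  refine ⟨?_, hlarge⟩
  haveI : Nontrivial G := ⟨⟨z, 1, h.ne⟩⟩
  refine ⟨fun N hN => ?_⟩
  by_cases hzN : z ∈ N
  · right
    have hUN : U ≤ N := by
      rw [hU, Subgroup.closure_le]
      rintro x ⟨k, _, rfl⟩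
      exact hN.conj_mem z hzN k
    have hCN : Subgroup.centralizer ({z} : Set G) ≤ N := by
      rw [← hgen, Subgroup.closure_le]
      rintro x ⟨c, _, u, hu, rfl⟩
      exact hN.conj_mem u (hUN hu) c
    have h6 := h.normal_sup N (hQC.trans hCN)
    rw [← h6]
    exact (sup_eq_left.2 hCN).symm
  · left
    exact h.normal_eq_bot hlarge.2.2.2 hN hzN

end Cfsg.Agent.S5427
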