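import Cfsg.Statements.S5428
import Mathlib
import Cfsg.Agent.Lib.H10LargeQuot
import Cfsg.Agent.Lib.LargeExtra4
import Cfsg.Agent.Lib.LocBase

set_option autoImplicit false
open Cfsg Cfsg.Agent.Lib Cfsg.Agent.Lib.LargeExtra Cfsg.Agent.Lib.H10LargeQuot

namespace Cfsg.Agent.S5428

/-- Let z be an involution of the finite group G whose centralizer C has generalized Fitting subgroup Q extraspecial (as a 2-group), let A be a subgroup of C of odd order, and let R be the centralizer of A in Q; suppose R has order at least 32, the largest normal subgroup of odd order of the centralizer of the subgroup generated by A and R lies in A, the order of that centralizer is not divisible by 4, and g is an element of G with g z g⁻¹ in R but outside the centre Z of Q. Let M be the subgroup generated by A and the centralizer of A (A is normal in it). Then: the centralizer in M of the subgroup generated by R and A, joined with A, equals the subgroup generated by A and Z; the image of R in M/A is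 a large extraspecial 2-subgroup of M/A; and g z g⁻¹ is conjugate to z inside the subgroup generated by R and the centralizer of A in g Q g⁻¹. -/
theorem result {G : Type*} [Group G] [Finite G] (z : G) (hz : orderOf z = 2) (Q : Subgroup G) (hQC : Q ≤ Subgroup.centralizer ({z} : Set G)) (hF : (Cfsg.generalizedFittingSubgroup ↥(Subgroup.centralizer ({z} : Set G))).map (Subgroup.centralizer ({z} : Set G)).subtype = Q) (hQ : Cfsg.IsExtraspecial 2 ↥Q) (A : Subgroup G) (hA : A ≤ Subgroup.centralizer ({z} : Set G)) (hAodd : Odd (Nat.card ↥A)) (R : Subgroup G) (hR : R = Q ⊓ Subgroup.centralizer (A : Set G)) (hR32 : 32 ≤ Nat.card ↥R) (hO : (Cfsg.oddCore ↥(Subgroup.centralizer ((A ⊔ R : Subgroup G) : Set G))).map (Subgroup.centralizer ((A ⊔ R : Subgroup G) : Set G)).subtype ≤ A) (h4 : ¬ 4 ∣ Nat.card ↥(Subgroup.centralizer ((A ⊔ R : Subgroup G) : Set G))) (g : G) (hgR : g * z * g⁻¹ ∈ R) (hgZ : g * z * g⁻¹ ∉ ((Subgroup.center ↥Q).map Q.subtype)) (M : Subgroup G) (hM : M = Subgroup.centralizer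 (A : Set G) ⊔ A) [hn : (A.subgroupOf M).Normal] : (M ⊓ Subgroup.centralizer ((R ⊔ A : Subgroup G) : Set G)) ⊔ A = A ⊔ ((Subgroup.center ↥Q).map Q.subtype) ∧ Cfsg.IsLargeExtraspecial ((R.subgroupOf M).map (QuotientGroup.mk' (A.subgroupOf M))) ∧ ∃ x ∈ R ⊔ ((Q).map (MulAut.conj g).toMonoidHom ⊓ Subgroup.centralizer (A : Set G)), x * (g * z * g⁻¹) * x⁻¹ = z := by
  haveI : Fact (Nat.Prime 2) := ⟨Nat.prime_two⟩
  obtain ⟨z', hz'⟩ := exists_exData hQ
  have h : PreLarge Q z := preLarge_of_setting hz hF hz'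
  have hAQ : A ≤ Subgroup.normalizer (Q : Set G) := by
    refine le_trans ?_ h.centralizer_le
    rw [h.centralizer_map]; exact hA
  have h1 := h.conj g
  set Q1 := Q.map (MulAut.conj g).toMonoidHom with hQ1
  generalize hs : g * z * g⁻¹ = s at *
  have hR' : ExData R z := by
    rcases h.toExData.fixed hAQ hAodd with h2 | h2
    · exfalso
      rw [← hR] at h2
      have h3 : R ≤ Subgroup.zpowers z := fun x hx => (mem_zpowers_of_sq h.sq).2 (h2 x hx)
      have h4 := Subgroup.card_le_of_le h3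
      rw [Nat.card_zpowers, hz] at h4
      omega
    · rwa [← hR] at h2
  have hsz : s ≠ z := fun e => hgZ (h.mem_map_iff.2 (Or.inr e))
  have hs1 : s ≠ 1 := h1.ne
  have hRQ : R ≤ Q := by rw [hR]; exact inf_le_left
  have hsQ : s ∈ Q := hRQ hgR
  have h8 : 8 < Nat.card Q := by
    have := Subgroup.card_le_of_le hRQ
    omega
  have hnab := h.exists_nonab_centralizer h8 hsQ hs1 hsz
  have hzQ1 : z ∈ Q1 := by
    have := h.mem_conj (g := g) (by rw [hs]; exact hsQ) (by rw [hs]; exact hsz) (by rw [hs]; exact hnab)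
    exact this
  have hAR : ∀ a ∈ A, ∀ r ∈ R, a * r = r * a := by
    intro a ha r hr
    rw [hR] at hr
    exact Subgroup.mem_centralizer_iff.1 hr.2 a ha
  have hzR : z ∈ R := hR'.mem
  have hAs : A ≤ Subgroup.centralizer ({s} : Set G) := by
    intro a ha
    rw [Subgroup.mem_centralizer_singleton_iff]
    exact hAR a ha s hgR
  have hAQ1 : A ≤ Subgroup.normalizer (Q1 : Set G) := by
    refine le_trans ?_ h1.centralizer_le
    rw [h1.centralizer_map]; exact hAs
  set R₁ := Q1 ⊓ Subgroup.centralizer (A : Set G) with hR₁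
  have hzR₁ : z ∈ R₁ := ⟨hzQ1, Subgroup.mem_centralizer_iff.2 fun a ha => hAR a ha z hzR⟩
  have hR₁' : ExData R₁ s := by
    rcases h1.toExData.fixed hAQ1 hAodd with h2 | h2
    · exfalso
      rcases h2 z hzR₁ with h3 | h3
      · exact h.ne h3
      · exact hsz h3.symm
    · exact h2
  obtain ⟨a, haR, ha⟩ := hR'.exists_conj hgR hs1 hsz
  obtain ⟨b, hbR, hb⟩ := hR₁'.exists_conj hzR₁ h.ne (Ne.symm hsz)
  have hzs : z * s = s * z := (h.cen s hsQ).symm
  have hx3 : (b⁻¹ * a) * s * (b⁻¹ * a)⁻¹ = z := by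
    have e1 : (b⁻¹ * a) * s * (b⁻¹ * a)⁻¹ = b⁻¹ * (a * s * a⁻¹) * b := by group
    rw [e1, ha, hzs, ← hb]; group
  -- membership in `M`
  have hCM : Subgroup.centralizer (A : Set G) ≤ M := by rw [hM]; exact le_sup_left
  have hAM : A ≤ M := by rw [hM]; exact le_sup_right
  have hRC : R ≤ Subgroup.centralizer (A : Set G) := by rw [hR]; exact inf_le_right
  have hRM : R ≤ M := hRC.trans hCM
  have hA1 : ∀ x ∈ A, x ∈ R → x = 1 := fun x hx hxR => eq_one_of_mem_odd_of_isPGroup hAodd hR'.isP hx hxR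
  -- `C(AR)`
  set D := Subgroup.centralizer ((A ⊔ R : Subgroup G) : Set G) with hD
  have hzD : z ∈ D := by
    rw [hD, Subgroup.mem_centralizer_iff]
    intro y hy
    have h2 : A ⊔ R ≤ Subgroup.centralizer ({z} : Set G) := by
      apply sup_le hA
      intro r hr
      rw [Subgroup.mem_centralizer_singleton_iff]
      exact hR'.cen r hr
    exact Subgroup.mem_centralizer_singleton_iff.1 (h2 hy)
  have hDA : ∀ x ∈ D, x ∈ A ∨ x * z ∈ A := by
    intro x hx
    have h2 : orderOf (⟨z, hzD⟩ : D) = 2 := by rw [Subgroup.orderOf_mk]; exact hz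
    rcases mem_or_mul_mem h4 h2 ⟨x, hx⟩ with h3 | h3
    · left; exact hO ⟨_, h3, rfl⟩
    · right; exact hO ⟨_, h3, rfl⟩
  have hzz : z⁻¹ = z := h.toExData.inv
  -- decomposition of the elements of `M`
  have hAn : Subgroup.centralizer (A : Set G) ≤ Subgroup.normalizer (A : Set G) := Subgroup.centralizer_le_normalizer _
  have hdec : ∀ x ∈ M, ∃ c ∈ Subgroup.centralizer (A : Set G), ∃ y ∈ A, x = c * y := by
    intro x hx
    rw [hM, sup_comm] at hx
    obtain ⟨c, hc, y, hy, e⟩ := LocBase.exists_mul_of_mem_sup_of_le' hAn hx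
    exact ⟨c, hc, y, hy, e⟩
  -- `C(A) ∩ C(R)`
  have hCD : ∀ c ∈ Subgroup.centralizer (A : Set G), (∀ r ∈ R, c * r = r * c) → c ∈ D := by
    intro c hc hcr
    rw [hD, Subgroup.mem_centralizer_iff]
    intro y hy
    have h2 : A ⊔ R ≤ Subgroup.centralizer ({c} : Set G) := by
      apply sup_le
      · intro a ha
        rw [Subgroup.mem_centralizer_singleton_iff]
        exact Subgroup.mem_centralizer_iff.1 hc a ha
      · intro r hr
        rw [Subgroup.mem_centralizer_singleton_iff]
        exact (hcr r hr).symm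
    exact Subgroup.mem_centralizer_singleton_iff.1 (h2 hy)
  refine ⟨?_, ?_, b⁻¹ * a, ?_, hx3⟩
  · -- claim 1
    have e0 : Subgroup.centralizer ((R ⊔ A : Subgroup G) : Set G) = D := by rw [hD, sup_comm]
    rw [e0]
    apply le_antisymm
    · apply sup_le _ le_sup_left
      rintro x ⟨_, hx⟩
      rcases hDA x hx with h2 | h2
      · exact Subgroup.mem_sup_left h2
      · have h3 : x = (x * z) * z := by rw [mul_assoc, h.sq, mul_one]
        rw [h3]
        exact mul_mem (Subgroup.mem_sup_left h2) (Subgroup.mem_sup_right (h.mem_map_iff.2 (Or.inr rfl)))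
    · apply sup_le le_sup_right
      intro x hx
      apply Subgroup.mem_sup_left
      rcases h.mem_map_iff.1 hx with rfl | rfl
      · exact one_mem _
      · exact ⟨hRM hzR, hzD⟩
  · -- claim 2
    set A' := A.subgroupOf M with hA'
    set π := QuotientGroup.mk' A' with hπ
    have hker : ∀ x : M, π x = 1 ↔ (x : G) ∈ A := by
      intro x
      rw [hπ, QuotientGroup.mk'_apply, QuotientGroup.eq_one_iff, hA', Subgroup.mem_subgroupOf]
    have hex1 := exData_subgroupOf hR' hRM
    have hex : ExData ((R.subgroupOf M).map π) (π ⟨z, hRM hzR⟩) := by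
      apply exData_map π hex1
      intro x hx hx1
      exact Subtype.ext (hA1 x ((hker x).1 hx1) hx)
    have hsurj : ∀ x : M ⧸ A', ∃ c : M, (c : G) ∈ Subgroup.centralizer (A : Set G) ∧ π c = x := by
      intro x
      obtain ⟨y, rfl⟩ := QuotientGroup.mk'_surjective A' x
      obtain ⟨c, hc, a, ha, e⟩ := hdec y y.2
      refine ⟨⟨c, hCM hc⟩, hc, ?_⟩
      have e1 : y = ⟨c, hCM hc⟩ * ⟨a, hAM ha⟩ := Subtype.ext e
      rw [e1]
      rw [show QuotientGroup.mk' A' = π from rfl, map_mul]
      rw [(hker ⟨a, hAM ha⟩).2 ha, mul_one]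
    have hcommr : ∀ c : M, (c : G) ∈ Subgroup.centralizer (A : Set G) → ∀ r : M, (r : G) ∈ R → π c * π r = π r * π c →
        (c : G) * r = r * c := by
      intro c hc r hr hcr
      apply commute_of_odd hAodd (ExData_pow_four hR' hr)
      · have h2 : π (c * r * c⁻¹ * r⁻¹) = 1 := by
          rw [map_mul, map_mul, map_mul, hcr, map_inv, map_inv]; group
        exact (hker _).1 h2
      · intro a ha
        exact (hAR a ha r hr).symm
    have hpre : PreLarge ((R.subgroupOf M).map π) (π ⟨z, hRM hzR⟩) := by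
      refine ⟨hex, ?_, ?_⟩
      · intro x hx
        obtain ⟨c, hc, rfl⟩ := hsurj x
        have h2 : (c : G) ∈ D := by
          apply hCD _ hc
          intro r hr
          exact hcommr c hc ⟨r, hRM hr⟩ hr (hx (π ⟨r, hRM hr⟩) ⟨⟨r, hRM hr⟩, hr, rfl⟩).symm
        rcases hDA _ h2 with h3 | h3
        · left; exact (hker c).2 h3
        · right
          have h4 : π (c * ⟨z, hRM hzR⟩) = 1 := (hker _).2 h3
          rw [map_mul] at h4
          have h5 : (π ⟨z, hRM hzR⟩)⁻¹ = π ⟨z, hRM hzR⟩ := hex.inv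
          rw [mul_eq_one_iff_eq_inv, h5] at h4
          exact h4
      · intro x hx q hq
        obtain ⟨c, hc, rfl⟩ := hsurj x
        obtain ⟨r, hr, rfl⟩ := hq
        have h2 := hcommr c hc ⟨z, hRM hzR⟩ hzR hx
        refine ⟨c * r * c⁻¹, ?_, by rw [map_mul, map_mul, map_inv]⟩
        change (c : G) * r * (c : G)⁻¹ ∈ R
        rw [hR]
        have hr' : (r : G) ∈ R := hr
        refine ⟨h.norm c h2 r (hRQ hr'), ?_⟩
        exact (Subgroup.centralizer (A : Set G)).mul_mem (mul_mem hc (hRC hr')) ((Subgroup.centralizer (A : Set G)).inv_mem hc)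
    have hbM : b ∈ M := hCM hbR.2
    have haM : a ∈ M := hRM haR
    obtain ⟨x₀, hx₀s⟩ : ∃ x₀ : M, x₀ * ⟨s, hRM hgR⟩ * x₀⁻¹ = ⟨z, hRM hzR⟩ :=
      ⟨(⟨b, hbM⟩ : M)⁻¹ * ⟨a, haM⟩, Subtype.ext hx3⟩
    have hconj : (π x₀)⁻¹ * π ⟨z, hRM hzR⟩ * (π x₀)⁻¹⁻¹ = π ⟨s, hRM hgR⟩ := by
      rw [← hx₀s, map_mul, map_mul, map_inv]; group
    have h2 := hpre.conj (π x₀)⁻¹
    have hsne : π ⟨s, hRM hgR⟩ ≠ π ⟨z, hRM hzR⟩ := by
      intro e
      have h3 : π (⟨s, hRM hgR⟩ * (⟨z, hRM hzR⟩ : M)⁻¹) = 1 := by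
        rw [map_mul, map_inv, e, mul_inv_cancel]
      have h4 := (hker _).1 h3
      have h5 : s * z⁻¹ = 1 := hA1 _ h4 (mul_mem hgR (inv_mem hzR))
      exact hsz (mul_inv_eq_one.1 h5)
    have hsmem : π ⟨s, hRM hgR⟩ ∈ (R.subgroupOf M).map π := ⟨⟨s, hRM hgR⟩, hgR, rfl⟩
    have hs1' : π ⟨s, hRM hgR⟩ ≠ 1 := by
      intro e
      exact hs1 (hA1 _ ((hker _).1 e) hgR)
    have hcard8 : 8 < Nat.card ↥((R.subgroupOf M).map π) := by
      have e1 : Nat.card ↥((R.subgroupOf M).map π) = Nat.card R := by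
        have h3 : Nat.card ↥((R.subgroupOf M).map π) = Nat.card ↥(R.subgroupOf M) := by
          symm
          apply Nat.card_congr
          refine Equiv.ofBijective (π.subgroupMap (R.subgroupOf M)) ⟨?_, π.subgroupMap_surjective _⟩
          rw [injective_iff_map_eq_one]
          intro x hx
          have h4 : π (x : M) = 1 := congrArg Subtype.val hx
          have h5 : ((x : M) : G) = 1 := hA1 _ ((hker _).1 h4) x.2
          exact Subtype.ext (Subtype.ext h5)
        rw [h3]
        exact Nat.card_congr (Subgroup.subgroupOfEquivOfLe hRM).toEquiv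
      omega
    have hnab2 := hpre.exists_nonab_centralizer hcard8 hsmem hs1' hsne
    have hz2 := hpre.mem_conj (g := (π x₀)⁻¹) (by rw [hconj]; exact hsmem) (by rw [hconj]; exact hsne)
      (by rw [hconj]; exact hnab2)
    rw [hconj] at h2
    apply hpre.isLarge (isExtraspecial_of_exData hex)
    intro K hK hQK
    exact hpre.odd_eq_bot h2 hsmem hsne hz2 hK (fun q hq k hk => conj_mem_of_le_normalizer (hQK hq) hk)
  · exact mul_mem (inv_mem (Subgroup.mem_sup_right hbR)) (Subgroup.mem_sup_left haR)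

end Cfsg.Agent.S5428
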