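import Cfsg.Statements.S5429
import Mathlib
import Cfsg.Agent.Lib.H10LargeQuot
import Cfsg.Agent.Lib.LargeExtra4
import Cfsg.Agent.Lib.LocBase

set_option autoImplicit false
open Cfsg Cfsg.Agent.Lib Cfsg.Agent.Lib.LargeExtra Cfsg.Agent.Lib.H10LargeQuot

namespace Cfsg.Agent.S5429

/-- Let z be an involution of the finite group G with centralizer C whose generalized Fitting subgroup Q is extraspecial of width at least 3 (order 2^(2w+1), w ≥ 3); let g be an element of G with g z g⁻¹ in Q but outside the centre Z of Q, and t an involution lying in both Q and g Q g⁻¹ that is not conjugate to z; write P for the centralizer of t in Q and suppose that the elements of C acting trivially by conjugation on P modulo the subgroup generated by t and z are exactly the elements of Q. Then the image of P in the centralizer of t modulo the subgroup generated by t is a large extraspecial 2-subgroup there, and g z g⁻¹ is conjugate to z inside the subgroup generated by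 P and the centralizer of t in g Q g⁻¹. -/
theorem result {G : Type*} [Group G] [Finite G] (z : G) (hz : orderOf z = 2) (Q : Subgroup G) (hQC : Q ≤ Subgroup.centralizer ({z} : Set G)) (hF : (Cfsg.generalizedFittingSubgroup ↥(Subgroup.centralizer ({z} : Set G))).map (Subgroup.centralizer ({z} : Set G)).subtype = Q) (hQ : Cfsg.IsExtraspecial 2 ↥Q) (w : ℕ) (hw : 3 ≤ w) (hcard : Nat.card ↥Q = 2 ^ (2 * w + 1)) (g : G) (hgQ : g * z * g⁻¹ ∈ Q) (hgZ : g * z * g⁻¹ ∉ ((Subgroup.center ↥Q).map Q.subtype)) (t : G) (ht : orderOf t = 2) (htQ : t ∈ Q ⊓ (Q).map (MulAut.conj g).toMonoidHom) (htz : ¬ IsConj z t) (P : Subgroup G) (hP : P = Q ⊓ Subgroup.centralizer ({t} : Set G)) (hCP : ∀ c ∈ Subgroup.centralizer ({z} : Set G), (∀ x ∈ P, ∃ y ∈ Subgroup.closure ({t, z} : Set G), c * x * c⁻¹ = x * y) ↔ c ∈ Q) [hn : ((Subgroup.zpowers t).subgroupOf (Subgroup.centralizer ({t} : Set G))).Normal] : Cfsg.IsLargeExtraspecial ((P.subgroupOf (Subgroup.centralizer ({t} : Set G))).map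 (QuotientGroup.mk' ((Subgroup.zpowers t).subgroupOf (Subgroup.centralizer ({t} : Set G))))) ∧ ∃ x ∈ P ⊔ ((Q).map (MulAut.conj g).toMonoidHom ⊓ Subgroup.centralizer ({t} : Set G)), x * (g * z * g⁻¹) * x⁻¹ = z := by
  haveI : Fact (Nat.Prime 2) := ⟨Nat.prime_two⟩
  obtain ⟨z', hz'⟩ := exists_exData hQ
  have h : PreLarge Q z := preLarge_of_setting hz hF hz'
  have h1 := h.conj g
  have hszc : IsConj z (g * z * g⁻¹) := isConj_iff.2 ⟨g, rfl⟩
  set Q1 := Q.map (MulAut.conj g).toMonoidHom with hQ1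
  generalize hs : g * z * g⁻¹ = s at *
  have hsz : s ≠ z := fun e => hgZ (h.mem_map_iff.2 (Or.inr e))
  have hs1 : s ≠ 1 := h1.ne
  have hcQ : 128 ≤ Nat.card Q := by
    rw [hcard]
    calc 128 = 2 ^ 7 := by norm_num
      _ ≤ 2 ^ (2 * w + 1) := Nat.pow_le_pow_right (by norm_num) (by omega)
  have h8 : 8 < Nat.card Q := by omega
  have hnab := h.exists_nonab_centralizer h8 hgQ hs1 hsz
  have hzQ1 : z ∈ Q1 := by
    have := h.mem_conj (g := g) (by rw [hs]; exact hgQ) (by rw [hs]; exact hsz) (by rw [hs]; exact hnab)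
    exact this
  obtain ⟨htQ0, htQ1⟩ := htQ
  have ht2 : t * t = 1 := by rw [← pow_two, ← ht]; exact pow_orderOf_eq_one t
  have ht1 : t ≠ 1 := by
    rintro rfl
    rw [orderOf_one] at ht
    omega
  have htne : t ≠ z := by
    rintro rfl
    exact htz (IsConj.refl _)
  obtain ⟨q₀, hq₀, hq₀t⟩ := h.toExData.exists_conj htQ0 ht1 htne
  have hztc : ¬ IsConj z (z * t) := by
    intro hc
    apply htz
    exact hc.trans (IsConj.symm (isConj_iff.2 ⟨q₀, hq₀t⟩))
  have hst : s ≠ t := by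
    intro e; rw [e] at hszc; exact htz hszc
  have hszt : s ≠ z * t := by
    intro e; rw [e] at hszc; exact hztc hszc
  have hzt : z * t = t * z := (h.cen t htQ0).symm
  have hts : t * s = s * t := h1.cen t htQ1
  have hmemP : ∀ x, x ∈ P ↔ x ∈ Q ∧ x * t = t * x := by
    intro x
    rw [hP, Subgroup.mem_inf, Subgroup.mem_centralizer_singleton_iff]
  have hPQ : P ≤ Q := by rw [hP]; exact inf_le_left
  have hPN : P ≤ Subgroup.centralizer ({t} : Set G) := by rw [hP]; exact inf_le_right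
  have hPt : ∀ x ∈ P, x * t = t * x := fun x hx => ((hmemP x).1 hx).2
  have hzP : z ∈ P := (hmemP z).2 ⟨h.mem, hzt⟩
  have htP : t ∈ P := (hmemP t).2 ⟨htQ0, rfl⟩
  have hsP : s ∈ P := (hmemP s).2 ⟨hgQ, hts.symm⟩
  -- the elements `a`, `b`
  obtain ⟨a, haP, ha⟩ : ∃ a ∈ P, a * s * a⁻¹ = z * s := by
    by_contra hcon
    push Not at hcon
    have h2 : ∀ p ∈ Q, p * t = t * p → p * s = s * p := by
      intro p hp hpt
      rcases h.comm p hp s hgQ with h3 | h3
      · exact h3
      · exfalso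
        apply hcon p ((hmemP p).2 ⟨hp, hpt⟩)
        rw [h3]; group
    rcases h.toExData.double_centralizer htQ0 ht1 htne hgQ h2 with h3 | h3 | h3 | h3
    · exact hs1 h3
    · exact hsz h3
    · exact hst h3
    · exact hszt h3
  obtain ⟨b, hbQ1, hbt, hb⟩ : ∃ b ∈ Q1, b * t = t * b ∧ b * z * b⁻¹ = s * z := by
    by_contra hcon
    push Not at hcon
    have h2 : ∀ p ∈ Q1, p * t = t * p → p * z = z * p := by
      intro p hp hpt
      rcases h1.comm p hp z hzQ1 with h3 | h3
      · exact h3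
      · exfalso
        apply hcon p hp hpt
        rw [h3]; group
    rcases h1.toExData.double_centralizer htQ1 ht1 (Ne.symm hst) hzQ1 h2 with h3 | h3 | h3 | h3
    · exact h.ne h3
    · exact hsz h3.symm
    · exact htne h3.symm
    · apply hszt
      rw [h3, mul_assoc, ht2, mul_one]
  have hzs : z * s = s * z := (h.cen s hgQ).symm
  have hx3 : (b⁻¹ * a) * s * (b⁻¹ * a)⁻¹ = z := by
    have e1 : (b⁻¹ * a) * s * (b⁻¹ * a)⁻¹ = b⁻¹ * (a * s * a⁻¹) * b := by group
    rw [e1, ha, hzs, ← hb]; group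
  have hbN : b ∈ Subgroup.centralizer ({t} : Set G) := Subgroup.mem_centralizer_singleton_iff.2 hbt
  refine ⟨?_, b⁻¹ * a, mul_mem (inv_mem (Subgroup.mem_sup_right ⟨hbQ1, hbN⟩)) (Subgroup.mem_sup_left haP), hx3⟩
  set N := Subgroup.centralizer ({t} : Set G) with hN
  have hmemN : ∀ x, x ∈ N ↔ x * t = t * x := fun x => by
    rw [hN, Subgroup.mem_centralizer_singleton_iff]
  set T' := (Subgroup.zpowers t).subgroupOf N with hT'
  set π := QuotientGroup.mk' T' with hπ
  have hker : ∀ x : N, π x = 1 ↔ ((x : G) = 1 ∨ (x : G) = t) := by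
    intro x
    rw [hπ, QuotientGroup.mk'_apply, QuotientGroup.eq_one_iff, hT', Subgroup.mem_subgroupOf,
      mem_zpowers_of_sq ht2]
  have heq : ∀ x y : N, π x = π y ↔ ((x : G) = y ∨ (x : G) = t * y) := by
    intro x y
    have e1 : π x = π y ↔ π (x * y⁻¹) = 1 := by rw [map_mul, map_inv, mul_inv_eq_one]
    rw [e1, hker]
    constructor
    · rintro (h2 | h2)
      · left; exact mul_inv_eq_one.1 h2
      · right; exact mul_inv_eq_iff_eq_mul.1 h2
    · rintro (h2 | h2)
      · left; exact mul_inv_eq_one.2 h2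
      · right; exact mul_inv_eq_iff_eq_mul.2 h2
  have hzne1 : ¬ (z = 1 ∨ z = t) := by
    rintro (h2 | h2)
    · exact h.ne h2
    · exact htne h2.symm
  -- elements of `P` commuting modulo `⟨t⟩` commute
  have hcm : ∀ x ∈ P, ∀ y ∈ P, (x * y = y * x ∨ x * y = t * (y * x)) → x * y = y * x := by
    intro x hx y hy h2
    rcases h2 with h2 | h2
    · exact h2
    · rcases h.comm x (hPQ hx) y (hPQ hy) with h3 | h3
      · exact h3
      · exfalso
        rw [h2] at h3
        exact htne (mul_right_cancel h3)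
  have hcen4 : ∀ x ∈ P, (∀ y ∈ P, x * y = y * x) → x = 1 ∨ x = z ∨ x = t ∨ x = z * t := by
    intro x hx hc
    apply h.toExData.double_centralizer htQ0 ht1 htne (hPQ hx)
    intro p hp hpt
    exact (hc p ((hmemP p).2 ⟨hp, hpt⟩)).symm
  have hfour : ∀ x : N, ((x : G) = 1 ∨ (x : G) = z ∨ (x : G) = t ∨ (x : G) = z * t) →
      π x = 1 ∨ π x = π ⟨z, hPN hzP⟩ := by
    rintro x (h2 | h2 | h2 | h2)
    · left; exact (hker x).2 (Or.inl h2)
    · right; exact (heq _ _).2 (Or.inl h2)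
    · left; exact (hker x).2 (Or.inr h2)
    · right; exact (heq _ _).2 (Or.inr (by rw [h2, hzt]))
  obtain ⟨a₁, ha₁Q, b₁, hb₁Q, ha₁t, hb₁t, hab₁⟩ := h.exists_nonab_centralizer h8 htQ0 ht1 htne
  have ha₁P : a₁ ∈ P := (hmemP a₁).2 ⟨ha₁Q, ha₁t⟩
  have hb₁P : b₁ ∈ P := (hmemP b₁).2 ⟨hb₁Q, hb₁t⟩
  have hab₁z : a₁ * b₁ = z * (b₁ * a₁) := (h.comm a₁ ha₁Q b₁ hb₁Q).resolve_left hab₁
  have hex : ExData ((P.subgroupOf N).map π) (π ⟨z, hPN hzP⟩) := by
    apply ExData.of
    · rw [← map_mul]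
      exact (hker _).2 (Or.inl h.sq)
    · intro e; exact hzne1 ((hker _).1 e)
    · exact ⟨⟨z, hPN hzP⟩, hzP, rfl⟩
    · rintro _ ⟨q, hq, rfl⟩
      rw [← map_mul, ← map_mul]
      exact (heq _ _).2 (Or.inl (h.cen q (hPQ hq)))
    · rintro _ ⟨x, hx, rfl⟩ _ ⟨y, hy, rfl⟩
      rw [← map_mul, ← map_mul, ← map_mul]
      rcases h.comm x (hPQ hx) y (hPQ hy) with h2 | h2
      · left; exact (heq _ _).2 (Or.inl h2)
      · right; exact (heq _ _).2 (Or.inl h2)
    · rintro _ ⟨q, hq, rfl⟩ hc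
      apply hfour
      apply hcen4 q hq
      intro y hy
      apply hcm q hq y hy
      have h2 := hc (π ⟨y, hPN hy⟩) ⟨⟨y, hPN hy⟩, hy, rfl⟩
      rw [← map_mul, ← map_mul] at h2
      exact (heq _ _).1 h2
    · refine ⟨π ⟨a₁, hPN ha₁P⟩, ⟨_, ha₁P, rfl⟩, π ⟨b₁, hPN hb₁P⟩, ⟨_, hb₁P, rfl⟩, fun e => hab₁ ?_⟩
      rw [← map_mul, ← map_mul] at e
      exact hcm a₁ ha₁P b₁ hb₁P ((heq _ _).1 e)
  have hpre : PreLarge ((P.subgroupOf N).map π) (π ⟨z, hPN hzP⟩) := by
    refine ⟨hex, ?_, ?_⟩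
    · intro x hx
      obtain ⟨c, rfl⟩ := QuotientGroup.mk'_surjective T' x
      change π c = 1 ∨ π c = _
      have hct : (c : G) * t = t * c := (hmemN c).1 c.2
      have hcP : ∀ p ∈ P, (c : G) * p * (c : G)⁻¹ = p ∨ (c : G) * p * (c : G)⁻¹ = t * p := by
        intro p hp
        have h2 := hx (π ⟨p, hPN hp⟩) ⟨⟨p, hPN hp⟩, hp, rfl⟩
        change π ⟨p, hPN hp⟩ * π c = π c * π ⟨p, hPN hp⟩ at h2
        rw [← map_mul, ← map_mul] at h2
        rcases (heq _ _).1 h2.symm with h3 | h3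
        · left
          rw [mul_inv_eq_iff_eq_mul]; exact h3
        · right
          rw [mul_inv_eq_iff_eq_mul]
          have h4 : (c : G) * p = t * (p * c) := h3
          rw [h4, mul_assoc]
      -- `c` commutes with `z`
      have hcz : (c : G) * z = z * c := by
        have e1 : z = a₁ * b₁ * a₁⁻¹ * b₁⁻¹ := by rw [hab₁z]; group
        have e2 : (c : G) * z * (c : G)⁻¹ = ((c : G) * a₁ * (c : G)⁻¹) * ((c : G) * b₁ * (c : G)⁻¹) *
            ((c : G) * a₁ * (c : G)⁻¹)⁻¹ * ((c : G) * b₁ * (c : G)⁻¹)⁻¹ := by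
          rw [e1]; group
        have e3 : (c : G) * z * (c : G)⁻¹ = z := by
          obtain ⟨u, hu, hu'⟩ : ∃ u ∈ Subgroup.zpowers t, (c : G) * a₁ * (c : G)⁻¹ = u * a₁ := by
            rcases hcP a₁ ha₁P with h3 | h3
            · exact ⟨1, one_mem _, by rw [h3, one_mul]⟩
            · exact ⟨t, Subgroup.mem_zpowers t, h3⟩
          obtain ⟨v, hv, hv'⟩ : ∃ v ∈ Subgroup.zpowers t, (c : G) * b₁ * (c : G)⁻¹ = v * b₁ := by
            rcases hcP b₁ hb₁P with h3 | h3
            · exact ⟨1, one_mem _, by rw [h3, one_mul]⟩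
            · exact ⟨t, Subgroup.mem_zpowers t, h3⟩
          obtain ⟨i, rfl⟩ := Subgroup.mem_zpowers_iff.1 hu
          obtain ⟨j, rfl⟩ := Subgroup.mem_zpowers_iff.1 hv
          have ca : Commute t a₁ := ha₁t.symm
          have cb : Commute t b₁ := hb₁t.symm
          rw [e2, hu', hv']
          have k1 : t ^ i * a₁ * (t ^ j * b₁) = a₁ * b₁ * (t ^ i * t ^ j) := by
            have := (ca.zpow_left j).eq
            have h5 := (ca.zpow_left i).eq
            have h6 := (cb.zpow_left i).eq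
            have h7 := (cb.zpow_left j).eq
            calc t ^ i * a₁ * (t ^ j * b₁) = (t ^ i * a₁) * (b₁ * t ^ j) := by rw [h7]
              _ = (a₁ * t ^ i) * (b₁ * t ^ j) := by rw [h5]
              _ = a₁ * (t ^ i * b₁) * t ^ j := by group
              _ = a₁ * (b₁ * t ^ i) * t ^ j := by rw [h6]
              _ = _ := by group
          have k2 : (t ^ j * b₁) * (t ^ i * a₁) = b₁ * a₁ * (t ^ i * t ^ j) := by
            have h5 := (ca.zpow_left i).eq
            have h6 := (cb.zpow_left j).eq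
            have h7 := (ca.zpow_left j).eq
            calc t ^ j * b₁ * (t ^ i * a₁) = (t ^ j * b₁) * (a₁ * t ^ i) := by rw [h5]
              _ = (b₁ * t ^ j) * (a₁ * t ^ i) := by rw [h6]
              _ = b₁ * (t ^ j * a₁) * t ^ i := by group
              _ = b₁ * (a₁ * t ^ j) * t ^ i := by rw [h7]
              _ = _ := by group
          have k3 : t ^ i * a₁ * (t ^ j * b₁) * (t ^ i * a₁)⁻¹ * (t ^ j * b₁)⁻¹ =
              (t ^ i * a₁ * (t ^ j * b₁)) * ((t ^ j * b₁) * (t ^ i * a₁))⁻¹ := by group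
          rw [k3, k1, k2, e1]; group
        rwa [mul_inv_eq_iff_eq_mul] at e3
      have hcQ' : (c : G) ∈ Q := by
        apply (hCP c (Subgroup.mem_centralizer_singleton_iff.2 hcz)).1
        intro p hp
        rcases hcP p hp with h2 | h2
        · exact ⟨1, one_mem _, by rw [h2, mul_one]⟩
        · exact ⟨t, Subgroup.subset_closure (by simp), by rw [h2, hPt p hp]⟩
      have hcP' : (c : G) ∈ P := (hmemP c).2 ⟨hcQ', hct⟩
      apply hfour
      apply hcen4 c hcP'
      intro y hy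
      apply hcm c hcP' y hy
      have h2 := hx (π ⟨y, hPN hy⟩) ⟨⟨y, hPN hy⟩, hy, rfl⟩
      change π ⟨y, hPN hy⟩ * π c = π c * π ⟨y, hPN hy⟩ at h2
      rw [← map_mul, ← map_mul] at h2
      exact (heq _ _).1 h2.symm
    · intro x hx q hq
      obtain ⟨c, rfl⟩ := QuotientGroup.mk'_surjective T' x
      obtain ⟨r, hr, rfl⟩ := hq
      change π c * π ⟨z, hPN hzP⟩ = π ⟨z, hPN hzP⟩ * π c at hx
      rw [← map_mul, ← map_mul] at hx
      have hcz : (c : G) * z = z * c := by
        rcases (heq _ _).1 hx with h2 | h2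
        · exact h2
        · exfalso
          apply hztc
          rw [isConj_iff]
          refine ⟨c, ?_⟩
          have h3 : (c : G) * z = t * (z * c) := h2
          rw [h3, hzt]; group
      refine ⟨c * r * c⁻¹, ?_, by rw [map_mul, map_mul, map_inv]⟩
      have hr' : (r : G) ∈ P := hr
      change (c : G) * r * (c : G)⁻¹ ∈ P
      rw [hP]
      exact ⟨h.norm c hcz r (hPQ hr'), N.mul_mem (N.mul_mem c.2 (hPN hr')) (N.inv_mem c.2)⟩
  have haN : a ∈ N := hPN haP
  have hsN : s ∈ N := hPN hsP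
  have hzN : z ∈ N := hPN hzP
  obtain ⟨x₀, hx₀s⟩ : ∃ x₀ : N, x₀ * ⟨s, hsN⟩ * x₀⁻¹ = ⟨z, hzN⟩ :=
    ⟨(⟨b, hbN⟩ : N)⁻¹ * ⟨a, haN⟩, Subtype.ext hx3⟩
  have hconj : (π x₀)⁻¹ * π ⟨z, hzN⟩ * (π x₀)⁻¹⁻¹ = π ⟨s, hsN⟩ := by
    rw [← hx₀s, map_mul, map_mul, map_inv]; group
  have h2 := hpre.conj (π x₀)⁻¹
  have hsne : π ⟨s, hsN⟩ ≠ π ⟨z, hzN⟩ := by
    intro e
    rcases (heq _ _).1 e with h3 | h3
    · exact hsz h3
    · exact hszt (by rw [hzt]; exact h3)
  have hsmem : π ⟨s, hsN⟩ ∈ (P.subgroupOf N).map π := ⟨⟨s, hsN⟩, hsP, rfl⟩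
  have hs1' : π ⟨s, hsN⟩ ≠ 1 := by
    intro e
    rcases (hker _).1 e with h3 | h3
    · exact hs1 h3
    · exact hst h3
  have hq₀P : q₀ ∉ P := by
    intro hc
    have h3 := hPt q₀ hc
    rw [mul_inv_eq_iff_eq_mul, h3] at hq₀t
    have h4 : t = z * t := mul_right_cancel hq₀t
    exact h.ne (mul_eq_right.1 h4.symm)
  have hidx : (P.subgroupOf Q).index = 2 := by
    rw [Subgroup.index_eq_two_iff]
    refine ⟨⟨q₀, hq₀⟩, fun x => ?_⟩
    rw [Subgroup.mem_subgroupOf, Subgroup.mem_subgroupOf]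
    by_cases hx : (x : G) ∈ P
    · right
      refine ⟨hx, fun hc => hq₀P ?_⟩
      have := P.mul_mem (P.inv_mem hx) hc
      simpa using this
    · left
      refine ⟨?_, hx⟩
      rw [hmemP]
      refine ⟨(x * ⟨q₀, hq₀⟩ : Q).2, ?_⟩
      have h3 : (x : G) * t = z * (t * x) := (h.comm x x.2 t htQ0).resolve_left (fun hc => hx ((hmemP x).2 ⟨x.2, hc⟩))
      change (x : G) * q₀ * t = t * ((x : G) * q₀)
      rw [mul_inv_eq_iff_eq_mul] at hq₀t
      calc (x : G) * q₀ * t = x * (q₀ * t) := by group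
        _ = x * (z * t * q₀) := by rw [hq₀t]
        _ = (x * z) * t * q₀ := by group
        _ = (z * x) * t * q₀ := by rw [h.cen x x.2]
        _ = z * (x * t) * q₀ := by group
        _ = z * (z * (t * x)) * q₀ := by rw [h3]
        _ = (z * z) * t * x * q₀ := by group
        _ = t * (x * q₀) := by rw [h.sq]; group
  have hcP : 2 * Nat.card P = Nat.card Q := by
    have h3 := (P.subgroupOf Q).card_mul_index
    rw [hidx, Nat.card_congr (Subgroup.subgroupOfEquivOfLe hPQ).toEquiv] at h3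
    omega
  have hcard8 : 8 < Nat.card ↥((P.subgroupOf N).map π) := by
    set f := π.subgroupMap (P.subgroupOf N) with hf
    have h3 := f.ker.card_mul_index
    rw [Subgroup.index_ker, MonoidHom.range_eq_top.2 (π.subgroupMap_surjective _),
      Subgroup.card_top, Nat.card_congr (Subgroup.subgroupOfEquivOfLe hPN).toEquiv] at h3
    have h4 : Nat.card f.ker ≤ 2 := by
      have h5 : Nat.card (Subgroup.zpowers t) = 2 := by rw [Nat.card_zpowers, ht]
      rw [← h5]
      refine Nat.card_le_card_of_injective (fun x : f.ker => (⟨((x : ↥(P.subgroupOf N)) : N), ?_⟩ : Subgroup.zpowers t)) ?_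
      · rw [mem_zpowers_of_sq ht2]
        apply (hker _).1
        exact congrArg Subtype.val x.2
      · intro x y hxy
        have := congrArg Subtype.val hxy
        exact Subtype.ext (Subtype.ext (Subtype.ext this))
    by_contra hle
    rw [not_lt] at hle
    have h5 : Nat.card P ≤ 2 * 8 := by
      rw [← h3]
      exact Nat.mul_le_mul h4 hle
    omega
  have hnab2 := hpre.exists_nonab_centralizer hcard8 hsmem hs1' hsne
  have hz2 := hpre.mem_conj (g := (π x₀)⁻¹) (by rw [hconj]; exact hsmem) (by rw [hconj]; exact hsne)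
    (by rw [hconj]; exact hnab2)
  rw [hconj] at h2
  apply hpre.isLarge (isExtraspecial_of_exData hex)
  intro K hK hQK
  exact hpre.odd_eq_bot h2 hsmem hsne hz2 hK (fun q hq k hk => conj_mem_of_le_normalizer (hQK hq) hk)

end Cfsg.Agent.S5429
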