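import Cfsg.Statements.S5433
import Cfsg.Agent.Lib.LargeExtra

set_option autoImplicit false
open Cfsg

namespace Cfsg.Agent.S5433

open Cfsg.Agent.Lib.LargeExtra

/-- Let Q be a large extraspecial 2-subgroup of the finite group G (extraspecial; centralizer equal to its centre; normal in the centralizer of its centre; normalizing no non-trivial subgroup of odd order), and L a normal subgroup of G containing Q. Then G is the product of L and the normalizer of Q. -/
theorem result {G : Type*} [Group G] [Finite G] (Q : Subgroup G) (hQ : Cfsg.IsLargeExtraspecial Q) (L : Subgroup G) [L.Normal] (hQL : Q ≤ L) : L ⊔ Subgroup.normalizer (Q : Set G) = ⊤ := by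
  obtain ⟨z, h⟩ := exists_preLarge hQ.1 hQ.2.1 hQ.2.2.1
  haveI : Fact (Nat.Prime 2) := ⟨Nat.prime_two⟩
  -- a Sylow 2-subgroup of `L` containing `Q`
  have hQP : IsPGroup 2 (Q.subgroupOf L) := h.isP.of_equiv (Subgroup.subgroupOfEquivOfLe hQL).symm
  obtain ⟨P, hP⟩ := hQP.exists_le_sylow
  have hfr := Sylow.normalizer_sup_eq_top P
  have key : Subgroup.normalizer (((P : Subgroup L).map L.subtype : Subgroup G) : Set G) ≤
      Subgroup.normalizer (Q : Set G) := by
    -- the centre of `P` is generated by `z`
    have hzP : ∀ x ∈ (P : Subgroup L), (x : G) * z = z * (x : G) := by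
      -- nontrivial centre of `P`
      haveI : Nontrivial (P : Subgroup L) := by
        rw [Subgroup.nontrivial_iff_exists_ne_one]
        refine ⟨⟨z, hQL h.mem⟩, hP ?_, ?_⟩
        · rw [Subgroup.mem_subgroupOf]; exact h.mem
        · intro h1; exact h.ne (congrArg Subtype.val h1)
      have hc : Nontrivial (Subgroup.center (P : Subgroup L)) := P.isPGroup'.center_nontrivial
      obtain ⟨c, hc1⟩ := exists_ne (1 : Subgroup.center (P : Subgroup L))
      have hcP := Subgroup.mem_center_iff.1 c.2
      have hcz : (((c : (P : Subgroup L)) : L) : G) = z := by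
        have := h.cent (((c : (P : Subgroup L)) : L) : G) (by
          intro q hq
          have hq' : (⟨q, hQL hq⟩ : L) ∈ (P : Subgroup L) := hP (by
            rw [Subgroup.mem_subgroupOf]; exact hq)
          have := hcP ⟨⟨q, hQL hq⟩, hq'⟩
          exact congrArg (fun y : (P : Subgroup L) => ((y : L) : G)) this)
        rcases this with h1 | h1
        · exfalso
          apply hc1
          apply Subtype.ext; apply Subtype.ext; apply Subtype.ext
          exact h1
        · exact h1
      intro x hx
      have := hcP ⟨x, hx⟩
      have := congrArg (fun y : (P : Subgroup L) => ((y : L) : G)) this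
      rw [← hcz]
      exact this
    intro g hg
    apply h.centralizer_le
    rw [h.centralizer_map, Subgroup.mem_centralizer_singleton_iff]
    -- g z g⁻¹ centralizes P, hence Q
    have hgz : g * z * g⁻¹ = 1 ∨ g * z * g⁻¹ = z := by
      apply h.cent
      intro q hq
      have hq' : q ∈ (((P : Subgroup L).map L.subtype : Subgroup G)) :=
        ⟨⟨q, hQL hq⟩, hP (by rw [Subgroup.mem_subgroupOf]; exact hq), rfl⟩
      have hq'' : g⁻¹ * q * g ∈ (((P : Subgroup L).map L.subtype : Subgroup G)) := by
        have := (Subgroup.mem_normalizer_iff.1 hg (g⁻¹ * q * g)).2 (by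
          simpa [mul_assoc] using hq')
        exact this
      obtain ⟨y, hy, hy'⟩ := hq''
      have h1 := hzP y hy
      have hy'' : (y : G) = g⁻¹ * q * g := hy'
      rw [hy''] at h1
      have h2 := congrArg (fun t => g * t * g⁻¹) h1
      simpa [mul_assoc] using h2
    rcases hgz with h1 | h1
    · exfalso
      apply h.ne
      rw [mul_inv_eq_one] at h1
      have : g * z = g * 1 := by rw [h1, mul_one]
      exact mul_left_cancel this
    · rw [mul_inv_eq_iff_eq_mul] at h1
      exact h1
  rw [eq_top_iff, ← hfr]
  rw [sup_comm]
  exact sup_le_sup_left key L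

end Cfsg.Agent.S5433
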