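import Cfsg.Statements.S5434
import Cfsg.Agent.Lib.LargeExtra8

set_option autoImplicit false
open Cfsg

namespace Cfsg.Agent.S5434

open Cfsg.Agent.Lib.LargeExtra

/-- Let Q be a large extraspecial 2-subgroup of the finite group G (extraspecial; centralizer equal to its centre; normal in the centralizer of its centre; normalizing no non-trivial subgroup of odd order), and A a non-trivial subgroup of odd order of the normalizer of Q. Then Q is the central product of the centralizer of A in Q and the commutator subgroup [Q, A] (they generate Q and commute elementwise), [Q, A] is extraspecial, and the centralizer of A in Q is either the centre of Q or extraspecial. -/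
theorem result {G : Type*} [Group G] [Finite G] (Q : Subgroup G) (hQ : Cfsg.IsLargeExtraspecial Q) (A : Subgroup G) (hA : A ≤ Subgroup.normalizer (Q : Set G)) (hAodd : Odd (Nat.card ↥A)) (hA1 : A ≠ ⊥) : (Q ⊓ Subgroup.centralizer (A : Set G)) ⊔ ⁅Q, A⁆ = Q ∧ (∀ x ∈ Q ⊓ Subgroup.centralizer (A : Set G), ∀ y ∈ ⁅Q, A⁆, x * y = y * x) ∧ Cfsg.IsExtraspecial 2 ↥⁅Q, A⁆ ∧ (Q ⊓ Subgroup.centralizer (A : Set G) = ((Subgroup.center ↥Q).map Q.subtype) ∨ Cfsg.IsExtraspecial 2 ↥(Q ⊓ Subgroup.centralizer (A : Set G))) := by
  obtain ⟨z, h⟩ := exists_preLarge hQ.1 hQ.2.1 hQ.2.2.1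
  have hx := h.toExData
  refine ⟨hx.sup_eq hA hAodd, hx.comm_fixed hA, ?_, ?_⟩
  · apply isExtraspecial_of_exData (z := z)
    apply hx.commutator hA hAodd
    intro hle
    apply hA1
    rw [Subgroup.eq_bot_iff_forall]
    intro a ha
    have h1 : a = 1 ∨ a = z := by
      apply h.cent
      intro q hq
      exact ((Subgroup.mem_centralizer_iff.1 (hle hq)) a ha).symm
    rcases h1 with h1 | h1
    · exact h1
    · exact eq_one_of_mem_odd hAodd ha (by rw [h1]; exact h.sq)
  · rcases hx.fixed hA hAodd with h1 | h1
    · left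
      apply le_antisymm
      · intro x hx'
        exact h.mem_map_iff.2 (h1 x hx')
      · intro x hx'
        rcases h.mem_map_iff.1 hx' with rfl | rfl
        · exact one_mem _
        · exact hx.z_mem_fixed hA
    · right
      exact isExtraspecial_of_exData h1

end Cfsg.Agent.S5434
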