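import Cfsg.Statements.S5435
import Mathlib.GroupTheory.Focal
import Cfsg.Agent.Lib.H70Frattini
import Cfsg.Agent.Lib.FrattiniQuot

set_option autoImplicit false
open Cfsg
open scoped commutatorElement

namespace Cfsg.Agent.S5435

/-- a group generated by two involutions whose product has order 4 -/
theorem dihedral_four {R : Type*} [Group R] (a b : R) (ha : a * a = 1) (hb : b * b = 1)
    (h4 : (a * b) ^ 4 = 1) (h2 : (a * b) ^ 2 ≠ 1) (hgen : Subgroup.closure {a, b} = (⊤ : Subgroup R)) :
    Nonempty (R ≃* DihedralGroup 4) := by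
  have hai : a⁻¹ = a := by rw [inv_eq_iff_mul_eq_one]; exact ha
  have hbi : b⁻¹ = b := by rw [inv_eq_iff_mul_eq_one]; exact hb
  set c := a * b with hc
  have hac : a * c * a = c⁻¹ := by
    rw [hc, mul_inv_rev, hai, hbi, ← mul_assoc, ha, one_mul]
  have hci : c⁻¹ = c ^ 3 := by
    rw [inv_eq_iff_mul_eq_one, ← pow_succ', h4]
  have hord : orderOf c = 4 := by
    have h := orderOf_eq_prime_pow (p := 2) (n := 1) (x := c) (by simpa using h2) (by simpa using h4)
    simpa using h
  have hpow : ∀ k : ℕ, c ^ k * a = a * (c⁻¹) ^ k := by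
    intro k
    have h1 : a * c⁻¹ * a⁻¹ = c := by
      rw [← hac, hai]; calc a * (a * c * a) * a = (a * a) * c * (a * a) := by group
        _ = c := by rw [ha, one_mul, mul_one]
    have h2 : a * (c⁻¹) ^ k * a⁻¹ = c ^ k := by rw [← conj_pow, h1]
    rw [← h2]; group
  have hval : ∀ i j : ZMod 4, c ^ (i + j).val = c ^ i.val * c ^ j.val := by
    intro i j
    have h6 := pow_mod_orderOf c (i.val + j.val)
    rw [hord] at h6
    rw [← pow_add, ZMod.val_add, h6]
  have hneg : ∀ i : ZMod 4, c ^ (-i).val = (c⁻¹) ^ i.val := by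
    intro i
    have h1 := hval (-i) i
    rw [neg_add_cancel, ZMod.val_zero, pow_zero] at h1
    rw [inv_pow, eq_inv_iff_mul_eq_one, ← h1]
  let f : DihedralGroup 4 →* R :=
    { toFun := fun x => match x with
        | DihedralGroup.r i => c ^ i.val
        | DihedralGroup.sr i => a * c ^ i.val
      map_one' := by
        show c ^ (0 : ZMod 4).val = 1
        simp
      map_mul' := by
        intro x y
        match x, y with
        | DihedralGroup.r i, DihedralGroup.r j =>
          show c ^ (i + j).val = c ^ i.val * c ^ j.val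
          exact hval i j
        | DihedralGroup.r i, DihedralGroup.sr j =>
          show a * c ^ (j - i).val = c ^ i.val * (a * c ^ j.val)
          rw [← mul_assoc, hpow, sub_eq_add_neg, add_comm, hval, hneg]
          group
        | DihedralGroup.sr i, DihedralGroup.r j =>
          show a * c ^ (i + j).val = a * c ^ i.val * c ^ j.val
          rw [hval]; group
        | DihedralGroup.sr i, DihedralGroup.sr j =>
          show c ^ (j - i).val = a * c ^ i.val * (a * c ^ j.val)
          have : a * c ^ i.val * (a * c ^ j.val) = a * (c ^ i.val * a) * c ^ j.val := by group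
          rw [this, hpow, sub_eq_add_neg, add_comm, hval, hneg, ← mul_assoc, ha, one_mul] }
  have hfr : ∀ i, f (DihedralGroup.r i) = c ^ i.val := fun i => rfl
  have hfs : ∀ i, f (DihedralGroup.sr i) = a * c ^ i.val := fun i => rfl
  have hinj : Function.Injective f := by
    rw [injective_iff_map_eq_one]
    intro x hx
    match x with
    | DihedralGroup.r i =>
      rw [hfr] at hx
      have h3 : 4 ∣ i.val := by
        have h8 := orderOf_dvd_of_pow_eq_one hx
        rwa [hord] at h8
      have h5 : i.val = 0 := Nat.eq_zero_of_dvd_of_lt h3 (ZMod.val_lt i)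
      have h6 : i = 0 := (ZMod.val_eq_zero i).1 h5
      rw [h6]; rfl
    | DihedralGroup.sr i =>
      exfalso
      rw [hfs] at hx
      have h3 : a = (c ^ i.val)⁻¹ := eq_inv_of_mul_eq_one_left hx
      have h5 : a * c = c * a := by
        rw [h3, ← inv_pow]
        exact ((Commute.refl c).inv_left.pow_left _).eq
      apply h2
      rw [h5, mul_assoc, ha, mul_one] at hac
      rw [pow_two, mul_eq_one_iff_eq_inv]; exact hac
  have hsurj : Function.Surjective f := by
    rw [← MonoidHom.range_eq_top, eq_top_iff, ← hgen, Subgroup.closure_le]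
    rintro x (rfl | rfl)
    · exact ⟨DihedralGroup.sr 0, by rw [hfs]; simp⟩
    · refine ⟨DihedralGroup.sr 1, ?_⟩
      rw [hfs, show (1 : ZMod 4).val = 1 from rfl, pow_one, hc, ← mul_assoc, ha, one_mul]
  exact ⟨(MulEquiv.ofBijective f ⟨hinj, hsurj⟩).symm⟩

section
variable {L : Type*} [Group L]

/-- the facts about the conjugates of `z` -/
structure Fact (z : L) : Prop where
  sq : ∀ a, IsConj z a → a * a = 1
  ne : ∀ a, IsConj z a → a ≠ 1
  s : ∀ a, IsConj z a → ∀ x, x * a = a * x → x * x = 1 ∨ x * x = a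
  c : ∀ a, IsConj z a → ∀ x y, x * a = a * x → y * a = a * y → x * y = y * x ∨ x * y = a * (y * x)
  t : ∀ a, IsConj z a → ∃ t, t * t = a

theorem Fact.of {z : L} (h0 : z * z = 1) (h1 : z ≠ 1) (h2 : ∀ x, x * z = z * x → x * x = 1 ∨ x * x = z)
    (h3 : ∀ x y, x * z = z * x → y * z = z * y → x * y = y * x ∨ x * y = z * (y * x))
    (h4 : ∃ t, t * t = z) : Fact z := by
  constructor
  · rintro a ha
    obtain ⟨g, rfl⟩ := isConj_iff.1 ha
    calc g * z * g⁻¹ * (g * z * g⁻¹) = g * (z * z) * g⁻¹ := by group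
      _ = 1 := by rw [h0]; group
  · rintro a ha rfl
    obtain ⟨g, hg⟩ := isConj_iff.1 ha
    apply h1
    calc z = g⁻¹ * (g * z * g⁻¹) * g := by group
      _ = 1 := by rw [hg]; group
  · rintro a ha x hx
    obtain ⟨g, rfl⟩ := isConj_iff.1 ha
    have h5 : (g⁻¹ * x * g) * z = z * (g⁻¹ * x * g) := by
      calc (g⁻¹ * x * g) * z = g⁻¹ * (x * (g * z * g⁻¹)) * g := by group
        _ = z * (g⁻¹ * x * g) := by rw [hx]; group
    rcases h2 _ h5 with h6 | h6
    · left
      calc x * x = g * ((g⁻¹ * x * g) * (g⁻¹ * x * g)) * g⁻¹ := by group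
        _ = 1 := by rw [h6]; group
    · right
      calc x * x = g * ((g⁻¹ * x * g) * (g⁻¹ * x * g)) * g⁻¹ := by group
        _ = g * z * g⁻¹ := by rw [h6]
  · rintro a ha x y hx hy
    obtain ⟨g, rfl⟩ := isConj_iff.1 ha
    have h5 : (g⁻¹ * x * g) * z = z * (g⁻¹ * x * g) := by
      calc (g⁻¹ * x * g) * z = g⁻¹ * (x * (g * z * g⁻¹)) * g := by group
        _ = z * (g⁻¹ * x * g) := by rw [hx]; group
    have h6 : (g⁻¹ * y * g) * z = z * (g⁻¹ * y * g) := by
      calc (g⁻¹ * y * g) * z = g⁻¹ * (y * (g * z * g⁻¹)) * g := by group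
        _ = z * (g⁻¹ * y * g) := by rw [hy]; group
    rcases h3 _ _ h5 h6 with h7 | h7
    · left
      calc x * y = g * ((g⁻¹ * x * g) * (g⁻¹ * y * g)) * g⁻¹ := by group
        _ = y * x := by rw [h7]; group
    · right
      calc x * y = g * ((g⁻¹ * x * g) * (g⁻¹ * y * g)) * g⁻¹ := by group
        _ = g * z * g⁻¹ * (y * x) := by rw [h7]; group
  · rintro a ha
    obtain ⟨g, rfl⟩ := isConj_iff.1 ha
    obtain ⟨t, ht⟩ := h4
    refine ⟨g * t * g⁻¹, ?_⟩
    calc g * t * g⁻¹ * (g * t * g⁻¹) = g * (t * t) * g⁻¹ := by group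
      _ = g * z * g⁻¹ := by rw [ht]

theorem Fact.sq_of {z : L} (h : Fact z) {a b x : L} (ha : IsConj z a) (hb : IsConj z b) (hab : a ≠ b)
    (hxa : x * a = a * x) (hxb : x * b = b * x) : x * x = 1 := by
  rcases h.s a ha x hxa with h1 | h1
  · exact h1
  rcases h.s b hb x hxb with h2 | h2
  · exact h2
  exact absurd (h1.symm.trans h2) hab

theorem Fact.nc {z : L} (h : Fact z) {a b t : L} (ha : IsConj z a) (hb : IsConj z b) (hab : a ≠ b)
    (ht : t * t = a) : t * b ≠ b * t := by
  intro h1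
  have hta : t * a = a * t := by rw [← ht]; group
  have := h.sq_of ha hb hab hta h1
  exact h.ne a ha (ht.symm.trans this)

theorem Fact.conj {z : L} (h : Fact z) {a b t : L} (ha : IsConj z a) (hb : IsConj z b) (hab : a ≠ b)
    (hc : b * a = a * b) (ht : t * t = a) : t * b * t⁻¹ = a * b := by
  have hta : t * a = a * t := by rw [← ht]; group
  rcases h.c a ha t b hta hc with h1 | h1
  · exact absurd h1 (h.nc ha hb hab ht)
  · rw [h1]; group

theorem Fact.isConj_mul {z : L} (h : Fact z) {a b : L} (ha : IsConj z a) (hb : IsConj z b) (hab : a ≠ b)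
    (hc : b * a = a * b) : IsConj z (a * b) := by
  obtain ⟨t, ht⟩ := h.t a ha
  rw [← h.conj ha hb hab hc ht]
  exact hb.trans (isConj_iff.2 ⟨t, rfl⟩)

theorem Fact.third {z : L} (h : Fact z) {a b c : L} (ha : IsConj z a) (hb : IsConj z b) (hc : IsConj z c)
    (hab : a ≠ b) (hac : a ≠ c) (hbc : b ≠ c) (h1 : b * a = a * b) (h2 : c * a = a * c)
    (h3 : c * b = b * c) : c = a * b := by
  by_contra hne
  obtain ⟨t, ht⟩ := h.t c hc
  have h4 := h.nc hc (h.isConj_mul ha hb hab h1) hne ht
  apply h4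
  have h5 := h.conj hc ha hac.symm h2.symm ht
  have h6 := h.conj hc hb hbc.symm h3.symm ht
  have h7 : t * (a * b) * t⁻¹ = a * b := by
    calc t * (a * b) * t⁻¹ = (t * a * t⁻¹) * (t * b * t⁻¹) := by group
      _ = (c * a) * (c * b) := by rw [h5, h6]
      _ = (a * c) * (c * b) := by rw [h2]
      _ = a * (c * c) * b := by group
      _ = a * b := by rw [h.sq c hc, mul_one]
  calc t * (a * b) = t * (a * b) * t⁻¹ * t := by group
    _ = a * b * t := by rw [h7]

/-- the subgroup generated by the conjugates commuting with `z` -/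
def F (z : L) : Subgroup L := Subgroup.closure {a | IsConj z a ∧ a * z = z * a}

theorem mem_F {z a : L} (h : IsConj z a) (h' : a * z = z * a) : a ∈ F z :=
  Subgroup.subset_closure ⟨h, h'⟩

theorem z_mem_F {z : L} : z ∈ F z := mem_F (IsConj.refl z) rfl

theorem conj_mem_F {z f r : L} (hf : f ∈ F z) (hr : r * z = z * r) : r * f * r⁻¹ ∈ F z := by
  have : F z ≤ (F z).comap (MulAut.conj r).toMonoidHom := by
    unfold F
    rw [Subgroup.closure_le]
    rintro a ⟨ha, haz⟩
    apply Subgroup.subset_closure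
    refine ⟨ha.trans (isConj_iff.2 ⟨r, rfl⟩), ?_⟩
    show r * a * r⁻¹ * z = z * (r * a * r⁻¹)
    have hr' : r⁻¹ * z = z * r⁻¹ := by
      calc r⁻¹ * z = r⁻¹ * (z * r) * r⁻¹ := by group
        _ = z * r⁻¹ := by rw [← hr]; group
    calc r * a * r⁻¹ * z = r * a * (r⁻¹ * z) := by group
      _ = r * (a * z) * r⁻¹ := by rw [hr']; group
      _ = (r * z) * a * r⁻¹ := by rw [haz]; group
      _ = z * (r * a * r⁻¹) := by rw [hr]; group
  exact this hf

theorem Fact.transport {z : L} (h : Fact z) {a x : L} (ha : IsConj z a) (haz : a * z = z * a)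
    (hxz : x * z = z * x) (hxa : x * a = a * x) :
    ∃ n, n * a * n⁻¹ = z ∧ ∃ f ∈ F z, n * x * n⁻¹ = f * x := by
  by_cases hne : z = a
  · exact ⟨1, by rw [hne]; group, 1, (F z).one_mem, by group⟩
  obtain ⟨t, ht⟩ := h.t z (IsConj.refl z)
  obtain ⟨u, hu⟩ := h.t a ha
  have htz : t * z = z * t := by rw [← ht]; group
  have hua : u * a = a * u := by rw [← hu]; group
  have h1 : t * a * t⁻¹ = z * a := h.conj (IsConj.refl z) ha hne haz ht
  have h2 : u * z * u⁻¹ = a * z := h.conj ha (IsConj.refl z) (Ne.symm hne) haz.symm hu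
  have hua' : u * a * u⁻¹ = a := by rw [hua]; group
  have hzF : z ∈ F z := z_mem_F
  have haF : a ∈ F z := mem_F ha haz
  refine ⟨u * t, ?_, ?_⟩
  · calc u * t * a * (u * t)⁻¹ = u * (t * a * t⁻¹) * u⁻¹ := by group
      _ = (u * z * u⁻¹) * (u * a * u⁻¹) := by rw [h1]; group
      _ = (a * z) * a := by rw [h2, hua']
      _ = z * (a * a) := by rw [haz]; group
      _ = z := by rw [h.sq a ha, mul_one]
  · have h3 : t * x * t⁻¹ = x ∨ t * x * t⁻¹ = z * x := by
      rcases h.c z (IsConj.refl z) t x htz hxz with h4 | h4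
      · left; rw [h4]; group
      · right; rw [h4]; group
    have h5 : u * x * u⁻¹ = x ∨ u * x * u⁻¹ = a * x := by
      rcases h.c a ha u x hua hxa with h4 | h4
      · left; rw [h4]; group
      · right; rw [h4]; group
    have h6 : u * t * x * (u * t)⁻¹ = u * (t * x * t⁻¹) * u⁻¹ := by group
    rw [h6]
    rcases h3 with h3 | h3
    · rw [h3]
      rcases h5 with h5 | h5
      · exact ⟨1, (F z).one_mem, by rw [h5]; group⟩
      · exact ⟨a, haF, h5⟩
    · rw [h3]
      have h7 : u * (z * x) * u⁻¹ = (u * z * u⁻¹) * (u * x * u⁻¹) := by group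
      rw [h7, h2]
      rcases h5 with h5 | h5
      · exact ⟨a * z, (F z).mul_mem haF hzF, by rw [h5]⟩
      · exact ⟨a * z * a, (F z).mul_mem ((F z).mul_mem haF hzF) haF, by rw [h5]; group⟩

end

/-- Let L be a finite non-abelian simple group with an involution z whose centralizer R is a Sylow 2-subgroup of L whose Frattini subgroup is the subgroup generated by z. Then R is dihedral of order 8. -/
theorem result {L : Type*} [Group L] [Finite L] [IsSimpleGroup L] (hL : ¬ IsMulCommutative L) (z : L) (hz : orderOf z = 2) (R : Sylow 2 L) (hR : (R : Subgroup L) = Subgroup.centralizer ({z} : Set L)) (hΦ : (frattini ↥(R : Subgroup L)).map (R : Subgroup L).subtype = Subgroup.zpowers z) : Nonempty (↥(R : Subgroup L) ≃* DihedralGroup 4) := by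
  haveI : _root_.Fact (Nat.Prime 2) := ⟨Nat.prime_two⟩
  have hz0 : z * z = 1 := by rw [← pow_two, ← hz, pow_orderOf_eq_one]
  have hz1 : z ≠ 1 := by rintro rfl; simp at hz
  have hmem : ∀ x, x ∈ (R : Subgroup L) ↔ x * z = z * x := by
    intro x; rw [hR, Subgroup.mem_centralizer_singleton_iff]
  have hzp : ∀ x, x ∈ Subgroup.zpowers z → x = 1 ∨ x = z := by
    intro x hx
    obtain ⟨k, rfl⟩ := Subgroup.mem_zpowers_iff.1 hx
    rcases Int.even_or_odd k with ⟨m, hm⟩ | ⟨m, hm⟩
    · left; rw [hm, ← two_mul, zpow_mul]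
      rw [show z ^ (2:ℤ) = 1 by rw [zpow_two, hz0], one_zpow]
    · right; rw [hm, zpow_add, zpow_mul]
      rw [show z ^ (2:ℤ) = 1 by rw [zpow_two, hz0], one_zpow, one_mul, zpow_one]
  have hRp : IsPGroup 2 (R : Subgroup L) := R.2
  have hsq : ∀ x, x * z = z * x → x * x = 1 ∨ x * x = z := by
    intro x hx
    have hxR := (hmem x).2 hx
    have h1 := Lib.H70Frattini.pow_mem_frattini hRp (⟨x, hxR⟩ : (R : Subgroup L))
    have h2 : x * x ∈ (frattini ↥(R : Subgroup L)).map (R : Subgroup L).subtype :=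
      ⟨_, h1, by simp [pow_two]⟩
    rw [hΦ] at h2
    exact hzp _ h2
  have hcm : ∀ x y, x * z = z * x → y * z = z * y → x * y = y * x ∨ x * y = z * (y * x) := by
    intro x y hx hy
    have hxR := (hmem x).2 hx
    have hyR := (hmem y).2 hy
    have h1 := Lib.H70Frattini.commutator_le_frattini hRp
      (Subgroup.commutator_mem_commutator (Subgroup.mem_top (⟨x, hxR⟩ : (R : Subgroup L)))
        (Subgroup.mem_top (⟨y, hyR⟩ : (R : Subgroup L))))
    have h2 : x * y * x⁻¹ * y⁻¹ ∈ (frattini ↥(R : Subgroup L)).map (R : Subgroup L).subtype :=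
      ⟨_, h1, by simp [commutatorElement_def]⟩
    rw [hΦ] at h2
    rcases hzp _ h2 with h3 | h3
    · left
      calc x * y = (x * y * x⁻¹ * y⁻¹) * (y * x) := by group
        _ = y * x := by rw [h3, one_mul]
    · right
      calc x * y = (x * y * x⁻¹ * y⁻¹) * (y * x) := by group
        _ = z * (y * x) := by rw [h3]
  have ht : ∃ t, t * t = z := by
    by_contra hcon
    push Not at hcon
    have h1 : ∀ a : (R : Subgroup L), a ^ 2 ∈ (⊥ : Subgroup (R : Subgroup L)) := by
      intro a
      rw [Subgroup.mem_bot]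
      rcases hsq a ((hmem a).1 a.2) with h2 | h2
      · apply Subtype.ext; simpa [pow_two] using h2
      · exact absurd h2 (hcon _)
    have h2 := Lib.FrattiniQuot.frattini_le_of_squares _ h1
    have h3 : frattini (R : Subgroup L) = ⊥ := le_bot_iff.1 h2
    rw [h3, Subgroup.map_bot] at hΦ
    have h4 : z ∈ (⊥ : Subgroup L) := by rw [hΦ]; exact Subgroup.mem_zpowers z
    exact hz1 (Subgroup.mem_bot.1 h4)
  have h : Fact z := Fact.of hz0 hz1 hsq hcm ht
  -- focal subgroup
  have hperf : _root_.commutator L = ⊤ := by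
    rcases Subgroup.Normal.eq_bot_or_eq_top (inferInstance : (_root_.commutator L).Normal) with h1 | h1
    · exfalso
      apply hL
      refine ⟨⟨fun a b => ?_⟩⟩
      have h2 : ⁅a, b⁆ ∈ _root_.commutator L :=
        Subgroup.commutator_mem_commutator (Subgroup.mem_top a) (Subgroup.mem_top b)
      rw [h1, Subgroup.mem_bot, commutatorElement_eq_one_iff_mul_comm] at h2
      exact h2
    · exact h1
  have hfoc : (R : Subgroup L) ≤ (R : Subgroup L).focalSubgroup := by
    have := Subgroup.commutator_inf_eq_focalSubgroup R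
    rw [hperf, top_inf_eq] at this
    exact this.le
  have hF : (R : Subgroup L) ≤ F z := by
    refine hfoc.trans ?_
    rw [Subgroup.focalSubgroup_def, Subgroup.closure_le]
    rintro _ ⟨hg, x, hx, u, rfl⟩
    have hxz := (hmem x).1 hx
    -- `u x u⁻¹ ∈ R`
    have hy : u * x * u⁻¹ ∈ (R : Subgroup L) := by
      have : u * x * u⁻¹ = ⁅x, u⁆⁻¹ * x := by rw [commutatorElement_def]; group
      rw [this]
      exact (R : Subgroup L).mul_mem ((R : Subgroup L).inv_mem hg) hx
    have hyz := (hmem _).1 hy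
    set C := Subgroup.centralizer ({x} : Set L) with hC
    have memC : ∀ w, w ∈ C ↔ w * x = x * w := by
      intro w; rw [hC, Subgroup.mem_centralizer_singleton_iff]
    have hzC : z ∈ C := (memC z).2 hxz.symm
    have hxC : x ∈ C := (memC x).2 rfl
    set z0 := u⁻¹ * z * u with hz0'
    have hz0C : z0 ∈ C := by
      rw [memC, hz0']
      calc u⁻¹ * z * u * x = u⁻¹ * (z * (u * x * u⁻¹)) * u := by group
        _ = x * (u⁻¹ * z * u) := by rw [← hyz]; group
    have hp1 : IsPGroup 2 ((R : Subgroup L).subgroupOf C) :=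
      hRp.comap_of_injective C.subtype C.subtype_injective
    obtain ⟨P, hP⟩ := hp1.exists_le_sylow
    have hz00 : z0 ^ 2 = 1 := by
      rw [hz0', pow_two]
      calc u⁻¹ * z * u * (u⁻¹ * z * u) = u⁻¹ * (z * z) * u := by group
        _ = 1 := by rw [hz0]; group
    have hp2 : IsPGroup 2 (Subgroup.zpowers (⟨z0, hz0C⟩ : C)) := by
      have h9 : (⟨z0, hz0C⟩ : C) ^ 2 ^ 1 = 1 := by apply Subtype.ext; simpa using hz00
      exact IsPGroup.of_card_dvd_pow (n := 1) (by rw [Nat.card_zpowers]; exact orderOf_dvd_of_pow_eq_one h9)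
    obtain ⟨P0, hP0⟩ := hp2.exists_le_sylow
    obtain ⟨c, hc⟩ := MulAction.exists_smul_eq C P0 P
    have hcz0 : c * ⟨z0, hz0C⟩ * c⁻¹ ∈ P := by
      rw [← hc]
      have : (⟨z0, hz0C⟩ : C) ∈ P0 := hP0 (Subgroup.mem_zpowers _)
      show c * ⟨z0, hz0C⟩ * c⁻¹ ∈ ((c • P0 : Sylow 2 C) : Subgroup C)
      rw [Sylow.coe_subgroup_smul, ← MulAut.conj_apply, ← MulAut.smul_def]
      exact Subgroup.smul_mem_pointwise_smul _ _ _ this
    have hPp : IsPGroup 2 ((P : Subgroup C).map C.subtype) := P.2.map _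
    obtain ⟨S, hS⟩ := hPp.exists_le_sylow
    obtain ⟨g, hgS⟩ := MulAction.exists_smul_eq L R S
    set d := g * z * g⁻¹ with hd
    have hdz : IsConj z d := isConj_iff.2 ⟨g, rfl⟩
    have hdc : ∀ w ∈ S, w * d = d * w := by
      intro w hw
      rw [← hgS] at hw
      have h1 : g⁻¹ * w * g ∈ (R : Subgroup L) := by
        have hw' : w ∈ ((g • R : Sylow 2 L) : Subgroup L) := hw
        rw [Sylow.coe_subgroup_smul, Subgroup.mem_pointwise_smul_iff_inv_smul_mem] at hw'
        simpa [MulAut.smul_def, ← map_inv] using hw'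
      have h2 := (hmem _).1 h1
      rw [hd]
      calc w * (g * z * g⁻¹) = g * ((g⁻¹ * w * g) * z) * g⁻¹ := by group
        _ = g * z * g⁻¹ * w := by rw [h2]; group
    have hxP : x ∈ S := hS ⟨⟨x, hxC⟩, hP (by show x ∈ (R : Subgroup L); exact hx), rfl⟩
    have hzP : z ∈ S := hS ⟨⟨z, hzC⟩, hP (by show z ∈ (R : Subgroup L); exact (hmem z).2 rfl), rfl⟩
    have hcP : (c : L) * z0 * (c : L)⁻¹ ∈ S := hS ⟨_, hcz0, rfl⟩
    have hcx : (c : L) * x = x * c := (memC _).1 c.2
    have hxd := hdc x hxP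
    have hzd := hdc z hzP
    have h1d := hdc _ hcP
    -- first step
    obtain ⟨n, hn1, f, hf, hn2⟩ := h.transport hdz hzd.symm hxz hxd
    set x1 := n * x * n⁻¹ with hx1
    set e := n * (c * z0 * (c : L)⁻¹) * n⁻¹ with he
    have hez : e * z = z * e := by
      rw [← hn1, he]
      calc n * (c * z0 * (c : L)⁻¹) * n⁻¹ * (n * d * n⁻¹) = n * ((c * z0 * (c : L)⁻¹) * d) * n⁻¹ := by group
        _ = (n * d * n⁻¹) * (n * (c * z0 * (c : L)⁻¹) * n⁻¹) := by rw [h1d]; group
    have hx1z : x1 * z = z * x1 := by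
      rw [← hn1, hx1]
      calc n * x * n⁻¹ * (n * d * n⁻¹) = n * (x * d) * n⁻¹ := by group
        _ = (n * d * n⁻¹) * (n * x * n⁻¹) := by rw [hxd]; group
    have hz0x : z0 * x = x * z0 := (memC _).1 hz0C
    have hcx' : (c : L)⁻¹ * x = x * (c : L)⁻¹ := by
      calc (c : L)⁻¹ * x = (c : L)⁻¹ * (x * c) * (c : L)⁻¹ := by group
        _ = x * (c : L)⁻¹ := by rw [← hcx]; group
    have hx1e : x1 * e = e * x1 := by
      rw [hx1, he]
      calc n * x * n⁻¹ * (n * (c * z0 * (c : L)⁻¹) * n⁻¹) = n * ((x * c) * z0 * (c : L)⁻¹) * n⁻¹ := by group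
        _ = n * (c * (x * z0) * (c : L)⁻¹) * n⁻¹ := by rw [← hcx]; group
        _ = n * (c * z0 * (x * (c : L)⁻¹)) * n⁻¹ := by rw [← hz0x]; group
        _ = n * (c * z0 * (c : L)⁻¹) * n⁻¹ * (n * x * n⁻¹) := by rw [← hcx']; group
    have heconj : IsConj z e := by
      refine isConj_iff.2 ⟨n * c * u⁻¹, ?_⟩
      rw [he, hz0']; group
    obtain ⟨m, hm1, f', hf', hm2⟩ := h.transport heconj hez hx1z hx1e
    set w := u * (c : L)⁻¹ * n⁻¹ * m⁻¹ with hw
    have hwz : w * z = z * w := by
      have : w * z * w⁻¹ = z := by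
        rw [hw]
        calc u * (c : L)⁻¹ * n⁻¹ * m⁻¹ * z * (u * (c : L)⁻¹ * n⁻¹ * m⁻¹)⁻¹
            = u * (c : L)⁻¹ * n⁻¹ * (m⁻¹ * z * m) * n * c * u⁻¹ := by group
          _ = u * (c : L)⁻¹ * n⁻¹ * e * n * c * u⁻¹ := by rw [← hm1]; group
          _ = z := by rw [he, hz0']; group
      calc w * z = w * z * w⁻¹ * w := by group
        _ = z * w := by rw [this]
    have hux : u * x * u⁻¹ = w * (f' * f * x) * w⁻¹ := by
      have h5 : f' * f * x = m * x1 * m⁻¹ := by rw [hm2, hn2, mul_assoc]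
      rw [h5, hw, hx1]
      calc u * x * u⁻¹ = u * (c : L)⁻¹ * (c * x) * u⁻¹ := by group
        _ = u * (c : L)⁻¹ * (x * c) * u⁻¹ := by rw [hcx]
        _ = _ := by group
    have hffx : (f' * f * x) * z = z * (f' * f * x) := by
      rw [← hm1]
      have h5 : f' * f * x = m * x1 * m⁻¹ := by rw [hm2, hn2, mul_assoc]
      rw [h5]
      calc m * x1 * m⁻¹ * (m * e * m⁻¹) = m * (x1 * e) * m⁻¹ := by group
        _ = m * e * m⁻¹ * (m * x1 * m⁻¹) := by rw [hx1e]; group
    have hfin : ∃ f'' ∈ F z, u * x * u⁻¹ = f'' * x := by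
      rw [hux]
      rcases h.c z (IsConj.refl z) w (f' * f * x) hwz hffx with h6 | h6
      · refine ⟨f' * f, (F z).mul_mem hf' hf, ?_⟩
        rw [h6]; group
      · refine ⟨z * (f' * f), (F z).mul_mem z_mem_F ((F z).mul_mem hf' hf), ?_⟩
        rw [h6]; group
    obtain ⟨f'', hf'', hfx⟩ := hfin
    have h7 : ⁅x, u⁆ = f''⁻¹ := by
      rw [commutatorElement_def]
      calc x * u * x⁻¹ * u⁻¹ = x * (u * x * u⁻¹)⁻¹ := by group
        _ = x * (f'' * x)⁻¹ := by rw [hfx]
        _ = f''⁻¹ := by group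
    show ⁅x, u⁆ ∈ F z
    rw [h7]
    exact (F z).inv_mem hf''
  -- existence of `a`
  obtain ⟨t, ht⟩ := ht
  have htz : t * z = z * t := by rw [← ht]; group
  obtain ⟨a, ha, haz, hane⟩ : ∃ a, IsConj z a ∧ a * z = z * a ∧ z ≠ a := by
    by_contra hcon
    push Not at hcon
    have h1 : F z ≤ Subgroup.zpowers z := by
      unfold F
      rw [Subgroup.closure_le]
      rintro a ⟨ha, haz⟩
      rw [← hcon a ha haz]
      exact Subgroup.mem_zpowers z
    have h2 := h1 (hF ((hmem t).2 htz))
    rcases hzp _ h2 with h3 | h3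
    · rw [h3, one_mul] at ht; exact hz1 ht.symm
    · rw [h3, hz0] at ht; exact hz1 ht.symm
  obtain ⟨b, hb, hbz, hbne⟩ : ∃ b, IsConj z b ∧ b * z = z * b ∧ b * a ≠ a * b := by
    by_contra hcon
    push Not at hcon
    have h1 : F z ≤ Subgroup.centralizer {a} := by
      unfold F
      rw [Subgroup.closure_le]
      rintro b ⟨hb, hbz⟩
      exact Subgroup.mem_centralizer_singleton_iff.2 (hcon b hb hbz)
    have h2 := Subgroup.mem_centralizer_singleton_iff.1 (h1 (hF ((hmem t).2 htz)))
    exact h.nc (IsConj.refl z) ha hane ht h2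
  have hbz' : z ≠ b := by rintro rfl; exact hbne haz.symm
  have hz2 : a * b = z * (b * a) := by
    rcases hcm a b haz hbz with h1 | h1
    · exact absurd h1.symm hbne
    · exact h1
  have hab2 : (a * b) * (a * b) = z := by
    calc (a * b) * (a * b) = z * (b * a) * (a * b) := by rw [hz2]
      _ = z * (b * (a * a) * b) := by group
      _ = z := by rw [h.sq a ha, mul_one, h.sq b hb, mul_one]
  have hFle : F z ≤ Subgroup.closure {a, b} := by
    have haG : a ∈ Subgroup.closure ({a, b} : Set L) := Subgroup.subset_closure (by simp)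
    have hbG : b ∈ Subgroup.closure ({a, b} : Set L) := Subgroup.subset_closure (by simp)
    have hzG : z ∈ Subgroup.closure ({a, b} : Set L) := by
      rw [← hab2]
      exact Subgroup.mul_mem _ (Subgroup.mul_mem _ haG hbG) (Subgroup.mul_mem _ haG hbG)
    unfold F
    rw [Subgroup.closure_le]
    rintro c ⟨hc, hcz⟩
    show c ∈ Subgroup.closure ({a, b} : Set L)
    by_cases h1 : c = z
    · rw [h1]; exact hzG
    by_cases hca : c * a = a * c
    · by_cases h2 : c = a
      · rw [h2]; exact haG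
      · rw [h.third (IsConj.refl z) ha hc hane (Ne.symm h1) (Ne.symm h2) haz hcz hca]
        exact Subgroup.mul_mem _ hzG haG
    by_cases hcb : c * b = b * c
    · by_cases h2 : c = b
      · rw [h2]; exact hbG
      · rw [h.third (IsConj.refl z) hb hc hbz' (Ne.symm h1) (Ne.symm h2) hbz hcz hcb]
        exact Subgroup.mul_mem _ hzG hbG
    exfalso
    have h3 : a * c = z * (c * a) := by
      rcases hcm a c haz hcz with h4 | h4
      · exact absurd h4.symm hca
      · exact h4
    have h5 : b * c = z * (c * b) := by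
      rcases hcm b c hbz hcz with h4 | h4
      · exact absurd h4.symm hcb
      · exact h4
    have h6 : (a * b) * c = c * (a * b) := by
      calc (a * b) * c = a * (b * c) := by group
        _ = (a * z) * (c * b) := by rw [h5]; group
        _ = z * (a * c) * b := by rw [haz]; group
        _ = (z * z) * (c * (a * b)) := by rw [h3]; group
        _ = c * (a * b) := by rw [hz0, one_mul]
    have h7 : (a * b) * z = z * (a * b) := by
      rw [mul_assoc, hbz, ← mul_assoc, haz, mul_assoc]
    have h8 := h.sq_of (IsConj.refl z) hc (Ne.symm h1) h7 h6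
    exact hz1 (hab2.symm.trans h8)
  have haR := (hmem a).2 haz
  have hbR := (hmem b).2 hbz
  refine dihedral_four (⟨a, haR⟩ : (R : Subgroup L)) ⟨b, hbR⟩ ?_ ?_ ?_ ?_ ?_
  · exact Subtype.ext (h.sq a ha)
  · exact Subtype.ext (h.sq b hb)
  · apply Subtype.ext
    show (a * b) ^ 4 = 1
    calc (a * b) ^ 4 = ((a * b) * (a * b)) * ((a * b) * (a * b)) := by simp only [pow_succ, pow_zero, one_mul, mul_assoc]
      _ = 1 := by rw [hab2, hz0]
  · intro h1
    have h2 : (a * b) ^ 2 = 1 := congrArg Subtype.val h1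
    rw [pow_two, hab2] at h2
    exact hz1 h2
  · rw [eq_top_iff]
    intro x _
    have h1 : (x : L) ∈ Subgroup.closure ({a, b} : Set L) := hFle (hF x.2)
    have h2 : (Subgroup.closure ({⟨a, haR⟩, ⟨b, hbR⟩} : Set (R : Subgroup L))).map (R : Subgroup L).subtype
        = Subgroup.closure ({a, b} : Set L) := by
      rw [MonoidHom.map_closure]
      congr 1
      ext y; simp [Set.image_insert_eq]
    rw [← h2] at h1
    obtain ⟨y, hy, hyx⟩ := h1
    have : y = x := Subtype.ext hyx
    rwa [← this]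

end Cfsg.Agent.S5435
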