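import Cfsg.Statements.S5436
import Cfsg.Agent.Lib.LargeExtra7

set_option autoImplicit false
open Cfsg

namespace Cfsg.Agent.S5436

open Cfsg.Agent.Lib.LargeExtra

/-- Let z be an involution of the finite group G with centralizer H whose generalized Fitting subgroup Q is extraspecial of width at least 2 (order 2^(2w+1), w ≥ 2); suppose some conjugate of z other than z lies in Q, H/Q is a non-abelian simple group, H acts irreducibly by conjugation on Q modulo the subgroup generated by z (the only H-invariant subgroups of Q containing z are that subgroup and Q), and Q is not the subgroup generated by the conjugates of z lying in H. Then G is simple. -/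
theorem result {G : Type*} [Group G] [Finite G] (z : G) (hz : orderOf z = 2) (Q : Subgroup (Subgroup.centralizer ({z} : Set G))) [Q.Normal] (hF : Cfsg.generalizedFittingSubgroup ↥(Subgroup.centralizer ({z} : Set G)) = Q) (hQ : Cfsg.IsExtraspecial 2 ↥Q) (w : ℕ) (hw : 2 ≤ w) (hcard : Nat.card ↥Q = 2 ^ (2 * w + 1)) (hnwc : ∃ g : G, (∃ hq : g * z * g⁻¹ ∈ Subgroup.centralizer ({z} : Set G), (⟨g * z * g⁻¹, hq⟩ : Subgroup.centralizer ({z} : Set G)) ∈ Q) ∧ g * z * g⁻¹ ≠ z) (hsimp : IsSimpleGroup (↥(Subgroup.centralizer ({z} : Set G)) ⧸ Q)) (hna : ¬ IsMulCommutative (↥(Subgroup.centralizer ({z} : Set G)) ⧸ Q)) (hirr : ∀ W : Subgroup (Subgroup.centralizer ({z} : Set G)), W.Normal → W ≤ Q → (W = Q ∨ ∀ x ∈ W, (x : G) ∈ Subgroup.zpowers z)) (hwcl : Subgroup.closure {x : Subgroup.centralizer ({z} : Set G) | IsConj z (x : G)} ≠ Q) : IsSimpleGroup G := by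
  have h := preLarge_of_setting' hz hF hQ
  obtain ⟨g, ⟨hqC, hgQ⟩, hgne⟩ := hnwc
  have hsQ' : g * z * g⁻¹ ∈ Q.map (Subgroup.centralizer ({z} : Set G)).subtype := ⟨⟨g * z * g⁻¹, hqC⟩, hgQ, rfl⟩
  have h1 := h.conj g
  have hcardG : Nat.card ↥(Q.map (Subgroup.centralizer ({z} : Set G)).subtype) = 2 ^ (2 * w + 1) := by
    rw [← hcard]
    exact (Nat.card_congr (Q.equivMapOfInjective (Subgroup.centralizer ({z} : Set G)).subtype (Subgroup.centralizer ({z} : Set G)).subtype_injective).toEquiv).symm
  have h8 : 8 < Nat.card ↥(Q.map (Subgroup.centralizer ({z} : Set G)).subtype) := by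
    rw [hcardG]
    calc 8 < 2 ^ 5 := by norm_num
      _ ≤ 2 ^ (2 * w + 1) := Nat.pow_le_pow_right (by norm_num) (by omega)
  have hnab := h.exists_nonab_centralizer h8 hsQ' h1.ne hgne
  have hzQ1 := h.mem_conj hsQ' hgne hnab
  have hodd : ∀ K : Subgroup G, Odd (Nat.card K) → Q.map (Subgroup.centralizer ({z} : Set G)).subtype ≤ Subgroup.normalizer (K : Set G) → K = ⊥ :=
    fun K hK hQK => h.odd_eq_bot h1 hsQ' hgne hzQ1 hK (fun q hq k hk => conj_mem_of_le_normalizer (hQK hq) hk)
  have hzC : z ∈ (Subgroup.centralizer ({z} : Set G)) := by rw [Subgroup.mem_centralizer_singleton_iff]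
  have hzQ : (⟨z, hzC⟩ : (Subgroup.centralizer ({z} : Set G))) ∈ Q := by
    obtain ⟨y, hy, hyz⟩ := h.mem
    have : y = ⟨z, hzC⟩ := Subtype.ext hyz
    rw [← this]; exact hy
  haveI : Nontrivial G := ⟨⟨z, 1, h.ne⟩⟩
  refine ⟨fun N hN => ?_⟩
  by_cases hzN : z ∈ N
  · right
    -- Q ∩ N is normal in (Subgroup.centralizer ({z} : Set G)), contains z^g
    let W : Subgroup (Subgroup.centralizer ({z} : Set G)) := Q ⊓ N.subgroupOf (Subgroup.centralizer ({z} : Set G))
    have hWn : W.Normal := by
      have : (N.subgroupOf (Subgroup.centralizer ({z} : Set G))).Normal := inferInstance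
      infer_instance
    have hQN : Q ≤ N.subgroupOf (Subgroup.centralizer ({z} : Set G)) := by
      rcases hirr W hWn inf_le_left with h2 | h2
      · exact inf_eq_left.1 h2
      · exfalso
        have h3 : (⟨g * z * g⁻¹, hqC⟩ : (Subgroup.centralizer ({z} : Set G))) ∈ W := ⟨hgQ, hN.conj_mem z hzN g⟩
        have h4 := h2 _ h3
        rcases (mem_zpowers_of_sq h.sq).1 h4 with h5 | h5
        · exact h1.ne h5
        · exact hgne h5
    -- N ∩ (Subgroup.centralizer ({z} : Set G)) is Q or (Subgroup.centralizer ({z} : Set G))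
    have hNC : (Subgroup.centralizer ({z} : Set G)) ≤ N := by
      have h2 := hsimp.eq_bot_or_eq_top_of_normal ((N.subgroupOf (Subgroup.centralizer ({z} : Set G))).map (QuotientGroup.mk' Q)) (Subgroup.Normal.map inferInstance _ (QuotientGroup.mk'_surjective Q))
      rcases h2 with h2 | h2
      · exfalso
        -- N ∩ (Subgroup.centralizer ({z} : Set G)) = Q; all conjugates of z in (Subgroup.centralizer ({z} : Set G)) lie in Q
        have h3 : N.subgroupOf (Subgroup.centralizer ({z} : Set G)) ≤ Q := by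
          rw [Subgroup.map_eq_bot_iff, QuotientGroup.ker_mk'] at h2
          exact h2
        have hclQ : Subgroup.closure {x : (Subgroup.centralizer ({z} : Set G)) | IsConj z (x : G)} ≤ Q := by
          rw [Subgroup.closure_le]
          intro x hx
          apply h3
          obtain ⟨c, hc⟩ := isConj_iff.1 hx
          rw [Subgroup.mem_subgroupOf, ← hc]
          exact hN.conj_mem z hzN c
        have hcln : (Subgroup.closure {x : (Subgroup.centralizer ({z} : Set G)) | IsConj z (x : G)}).Normal := by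
          apply closure_normal_of_conj
          intro x hx c
          exact IsConj.trans hx (isConj_iff.2 ⟨c, rfl⟩)
        rcases hirr _ hcln hclQ with h4 | h4
        · exact hwcl h4
        · have h5 : (⟨g * z * g⁻¹, hqC⟩ : (Subgroup.centralizer ({z} : Set G))) ∈ Subgroup.closure {x : (Subgroup.centralizer ({z} : Set G)) | IsConj z (x : G)} :=
            Subgroup.subset_closure (isConj_iff.2 ⟨g, rfl⟩)
          rcases (mem_zpowers_of_sq h.sq).1 (h4 _ h5) with h6 | h6
          · exact h1.ne h6
          · exact hgne h6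
      · -- N ∩ (Subgroup.centralizer ({z} : Set G)) Q = (Subgroup.centralizer ({z} : Set G))
        intro x hx
        have h3 : (QuotientGroup.mk' Q ⟨x, hx⟩) ∈ (N.subgroupOf (Subgroup.centralizer ({z} : Set G))).map (QuotientGroup.mk' Q) := by
          rw [h2]; exact Subgroup.mem_top _
        obtain ⟨y, hy, hyx⟩ := h3
        have h4 : y⁻¹ * ⟨x, hx⟩ ∈ Q := QuotientGroup.eq.1 hyx
        have h5 : y * (y⁻¹ * ⟨x, hx⟩) ∈ N.subgroupOf (Subgroup.centralizer ({z} : Set G)) := mul_mem hy (hQN h4)
        rw [mul_inv_cancel_left] at h5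
        exact h5
    have h6 := h.normal_sup N (by
      rintro _ ⟨q, hq, rfl⟩
      exact hQN hq)
    rw [← h6]
    exact (sup_eq_left.2 hNC).symm
  · left
    exact h.normal_eq_bot hodd hN hzN

end Cfsg.Agent.S5436
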