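import Cfsg.Statements.S5437

set_option autoImplicit false
open Cfsg

namespace Cfsg.Agent.S5437

/-- Let I be a set of involutions of the finite group G closed under conjugation, and H a subgroup of G. The following are equivalent: (1) for every member x of I lying in H, the conjugates of x lying in H form a single H-class and the centralizer of x lies in H; (2) for every g outside H, no member of I lies in both H and g H g⁻¹; (3) every member of I lying in H fixes exactly one coset in the action of G on the cosets of H. -/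
theorem result {G : Type*} [Group G] [Finite G] (I : Set G) (hI : ∀ x ∈ I, orderOf x = 2) (hIc : ∀ g : G, ∀ x ∈ I, g * x * g⁻¹ ∈ I) (H : Subgroup G) : ((∀ x ∈ I, x ∈ H → (∀ g : G, g * x * g⁻¹ ∈ H → ∃ h ∈ H, h * x * h⁻¹ = g * x * g⁻¹) ∧ Subgroup.centralizer ({x} : Set G) ≤ H) ↔ (∀ g : G, g ∉ H → ∀ x ∈ I, ¬ (x ∈ H ∧ x ∈ (H : Subgroup G).map (MulAut.conj g).toMonoidHom))) ∧ ((∀ g : G, g ∉ H → ∀ x ∈ I, ¬ (x ∈ H ∧ x ∈ (H : Subgroup G).map (MulAut.conj g).toMonoidHom)) ↔ ∀ x ∈ I, x ∈ H → ∃! c : G ⧸ H, x • c = c) := by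
  have hmap : ∀ g x : G, x ∈ (H : Subgroup G).map (MulAut.conj g).toMonoidHom ↔ g⁻¹ * x * g ∈ H := by
    intro g x
    constructor
    · rintro ⟨y, hy, rfl⟩
      simpa [mul_assoc] using hy
    · intro h
      exact ⟨g⁻¹ * x * g, h, by simp [mul_assoc]⟩
  have hcos : ∀ g x : G, x • (QuotientGroup.mk g : G ⧸ H) = QuotientGroup.mk g ↔ g⁻¹ * x * g ∈ H := by
    intro g x
    rw [MulAction.Quotient.smul_mk, eq_comm, QuotientGroup.eq, smul_eq_mul, mul_assoc]
  simp only [hmap]
  refine ⟨⟨?_, ?_⟩, ⟨?_, ?_⟩⟩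
  · intro h g hg x hx ⟨hxH, hxg⟩
    obtain ⟨k, hk, hkx⟩ := (h x hx hxH).1 g⁻¹ (by simpa using hxg)
    have hc : g * k ∈ Subgroup.centralizer ({x} : Set G) := by
      rw [Subgroup.mem_centralizer_singleton_iff]
      have h1 : k * x = g⁻¹ * x * g * k := by
        rw [mul_inv_eq_iff_eq_mul] at hkx; simpa using hkx
      rw [mul_assoc, h1]
      simp [mul_assoc]
    have := (h x hx hxH).2 hc
    apply hg
    have h2 := mul_mem this (inv_mem hk)
    simpa using h2
  · intro h x hx hxH
    constructor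
    · intro g hg
      by_cases hgH : g⁻¹ ∈ H
      · exact ⟨g, by simpa using inv_mem hgH, rfl⟩
      · exfalso
        exact h g⁻¹ hgH x hx ⟨hxH, by simpa using hg⟩
    · intro g hg
      by_contra hgH
      rw [Subgroup.mem_centralizer_singleton_iff] at hg
      refine h g hgH x hx ⟨hxH, ?_⟩
      rw [mul_assoc, ← hg]; simpa using hxH
  · intro h x hx hxH
    refine ⟨QuotientGroup.mk 1, (hcos 1 x).2 (by simpa using hxH), ?_⟩
    intro c
    induction c using QuotientGroup.induction_on with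
    | H g =>
      intro hg
      rw [hcos] at hg
      by_cases hgH : g ∈ H
      · rw [eq_comm, QuotientGroup.eq]; simpa using hgH
      · exact absurd ⟨hxH, hg⟩ (h g hgH x hx)
  · intro h g hg x hx ⟨hxH, hxg⟩
    obtain ⟨c, _, hc⟩ := h x hx hxH
    have h1 := hc _ ((hcos 1 x).2 (by simpa using hxH))
    have h2 := hc _ ((hcos g x).2 hxg)
    have h3 : (QuotientGroup.mk 1 : G ⧸ H) = QuotientGroup.mk g := h1.trans h2.symm
    rw [QuotientGroup.eq] at h3
    apply hg; simpa using h3

end Cfsg.Agent.S5437
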