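import Cfsg.Statements.S5438

set_option autoImplicit false
open Cfsg

namespace Cfsg.Agent.S5438

/-- a finite 2-group acting on the cosets of an odd-index subgroup fixes a coset. -/
theorem exists_fixed {G : Type*} [Group G] [Finite G] (H : Subgroup G) (hodd : Odd H.index)
    (T : Subgroup G) (hT : IsPGroup 2 T) : ∃ g : G, ∀ t ∈ T, g⁻¹ * t * g ∈ H := by
  haveI : Fact (Nat.Prime 2) := ⟨Nat.prime_two⟩
  haveI : Finite (G ⧸ H) := inferInstance
  have hcard : ¬ 2 ∣ Nat.card (G ⧸ H) := by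
    rw [← Subgroup.index_eq_card]
    rw [← Nat.not_even_iff_odd, even_iff_two_dvd] at hodd
    exact hodd
  obtain ⟨c, hc⟩ := hT.nonempty_fixed_point_of_prime_not_dvd_card (G ⧸ H) hcard
  induction c using QuotientGroup.induction_on with
  | H g =>
    refine ⟨g, fun t ht => ?_⟩
    have h1 := (MulAction.mem_fixedPoints.1 hc) ⟨t, ht⟩
    have h2 : (QuotientGroup.mk (t * g) : G ⧸ H) = QuotientGroup.mk g := h1
    rw [eq_comm, QuotientGroup.eq] at h2
    simpa [mul_assoc] using h2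

/-- Let z be a 2-central involution of the finite group G (an involution central in some Sylow 2-subgroup) and H a subgroup containing z such that the coset H is the only coset of H fixed by z (in the action of G on the cosets of H). Then H has odd index in G, and for every 2-element x of H the conjugates of x lying in H form a single H-class. -/
theorem result {G : Type*} [Group G] [Finite G] (z : G) (hz : Cfsg.IsTwoCentralInvolution z) (H : Subgroup G) (hzH : z ∈ H) (hfix : ∀ g : G, g⁻¹ * z * g ∈ H → g ∈ H) : Odd H.index ∧ ∀ x ∈ H, (∃ k : ℕ, orderOf x = 2 ^ k) → ∀ g : G, g * x * g⁻¹ ∈ H → ∃ h ∈ H, h * x * h⁻¹ = g * x * g⁻¹ := by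
  haveI : Fact (Nat.Prime 2) := ⟨Nat.prime_two⟩
  obtain ⟨hz2, P, hzP, hPz⟩ := hz
  -- P ≤ H
  have hPH : (P : Subgroup G) ≤ H := by
    intro x hx
    apply hfix
    have : x⁻¹ * z * x = z := by
      rw [mul_assoc, ← hPz x hx, inv_mul_cancel_left]
    rw [this]; exact hzH
  have hodd : Odd H.index := by
    rw [← Nat.not_even_iff_odd, even_iff_two_dvd]
    intro h2
    exact P.not_dvd_index' (by exact Subgroup.index_ne_zero_of_finite) (h2.trans (Subgroup.index_dvd_of_le hPH))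
  refine ⟨hodd, ?_⟩
  intro x hxH hx g hgx
  -- a conjugate in H of x lies in P; wlog
  -- first: for y ∈ H a 2-element there is an H-conjugate of z centralizing y
  have key : ∀ y : G, y ∈ H → (∃ k : ℕ, orderOf y = 2 ^ k) → ∃ h ∈ H, (h * z * h⁻¹) * y = y * (h * z * h⁻¹) := by
    intro y hy ⟨k, hk⟩
    -- zpowers y is a 2-group in H, contained in a H-conjugate of P
    have hyP : IsPGroup 2 (Subgroup.zpowers (⟨y, hy⟩ : H)) := by
      apply IsPGroup.of_card (n := k)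
      rw [Nat.card_zpowers, ← hk]
      exact (Subgroup.orderOf_coe (⟨y, hy⟩ : H)).symm
    obtain ⟨S, hS⟩ := hyP.exists_le_sylow
    let PH : Sylow 2 H := P.subtype hPH
    obtain ⟨h, hh⟩ := MulAction.exists_smul_eq H PH S
    have hyS : (⟨y, hy⟩ : H) ∈ (S : Subgroup H) := hS (Subgroup.mem_zpowers _)
    rw [← hh, Sylow.coe_subgroup_smul, Subgroup.mem_pointwise_smul_iff_inv_smul_mem] at hyS
    have h1 : (MulAut.conj h)⁻¹ • (⟨y, hy⟩ : H) = h⁻¹ * ⟨y, hy⟩ * h := by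
      simp [MulAut.smul_def, ← map_inv]
    rw [h1] at hyS
    have h2 : (h : G)⁻¹ * y * h ∈ (P : Subgroup G) := by
      have : ((h⁻¹ * ⟨y, hy⟩ * h : H) : G) ∈ (P : Subgroup G) := by
        have h3 : (h⁻¹ * ⟨y, hy⟩ * h : H) ∈ ((P : Subgroup G).subgroupOf H) := hyS
        exact h3
      simpa using this
    have h3 := hPz _ h2
    refine ⟨h, h.2, ?_⟩
    have h4 := congrArg (fun t => (h : G) * t * (h : G)⁻¹) h3
    simp only [mul_assoc, mul_inv_cancel, mul_inv_cancel_left, mul_one] at h4 ⊢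
    exact h4.symm
  obtain ⟨h₁, hh₁, hc₁⟩ := key x hxH hx
  obtain ⟨h₂, hh₂, hc₂⟩ := key (g * x * g⁻¹) hgx (by
    obtain ⟨k, hk⟩ := hx
    refine ⟨k, ?_⟩
    rw [← hk]
    have := orderOf_injective (MulAut.conj g).toMonoidHom (MulAut.conj g).injective x
    simpa using this)
  -- z₁ = h₁ z h₁⁻¹ centralises x, so g z₁ g⁻¹ centralises y; z₂ centralises y
  set y := g * x * g⁻¹ with hy
  set z₁ := h₁ * z * h₁⁻¹ with hz₁
  set z₂ := h₂ * z * h₂⁻¹ with hz₂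
  have hz₁y : (g * z₁ * g⁻¹) * y = y * (g * z₁ * g⁻¹) := by
    rw [hy]
    calc g * z₁ * g⁻¹ * (g * x * g⁻¹) = g * (z₁ * x) * g⁻¹ := by group
      _ = g * (x * z₁) * g⁻¹ := by rw [hc₁]
      _ = g * x * g⁻¹ * (g * z₁ * g⁻¹) := by group
  -- unique fixed cosets
  have hfix₂ : ∀ c : G, c⁻¹ * z₂ * c ∈ H → c ∈ H := by
    intro c hc
    have h1 : h₂⁻¹ * c ∈ H := by
      apply hfix
      have : (h₂⁻¹ * c)⁻¹ * z * (h₂⁻¹ * c) = c⁻¹ * z₂ * c := by rw [hz₂]; group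
      rw [this]; exact hc
    simpa using mul_mem hh₂ h1
  have hfix₁ : ∀ c : G, c⁻¹ * (g * z₁ * g⁻¹) * c ∈ H → g⁻¹ * c ∈ H := by
    intro c hc
    have h1 : h₁⁻¹ * (g⁻¹ * c) ∈ H := by
      apply hfix
      have : (h₁⁻¹ * (g⁻¹ * c))⁻¹ * z * (h₁⁻¹ * (g⁻¹ * c)) = c⁻¹ * (g * z₁ * g⁻¹) * c := by
        rw [hz₁]; group
      rw [this]; exact hc
    simpa using mul_mem hh₁ h1
  -- Sylow subgroups of C(y)
  let C := Subgroup.centralizer ({y} : Set G)
  have hz₂C : z₂ ∈ C := by rw [Subgroup.mem_centralizer_singleton_iff]; exact hc₂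
  have hz₁C : g * z₁ * g⁻¹ ∈ C := by rw [Subgroup.mem_centralizer_singleton_iff]; exact hz₁y
  have hsq : z * z = 1 := by rw [← pow_two, ← hz2, pow_orderOf_eq_one]
  have isP : ∀ t : C, t * t = 1 → IsPGroup 2 (Subgroup.zpowers t) := by
    intro t ht
    rintro ⟨s, n, rfl⟩
    refine ⟨1, ?_⟩
    apply Subtype.ext
    show (t ^ n) ^ (2 ^ 1) = 1
    rw [pow_one, ← zpow_natCast, ← zpow_mul, mul_comm, zpow_mul, zpow_natCast, pow_two, ht, one_zpow]
  obtain ⟨S₂, hS₂⟩ := (isP ⟨z₂, hz₂C⟩ (by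
    apply Subtype.ext
    show z₂ * z₂ = 1
    rw [hz₂]
    calc h₂ * z * h₂⁻¹ * (h₂ * z * h₂⁻¹) = h₂ * (z * z) * h₂⁻¹ := by group
      _ = 1 := by rw [hsq]; group)).exists_le_sylow
  obtain ⟨S₁, hS₁⟩ := (isP ⟨g * z₁ * g⁻¹, hz₁C⟩ (by
    apply Subtype.ext
    show g * z₁ * g⁻¹ * (g * z₁ * g⁻¹) = 1
    rw [hz₁]
    calc g * (h₁ * z * h₁⁻¹) * g⁻¹ * (g * (h₁ * z * h₁⁻¹) * g⁻¹) = g * h₁ * (z * z) * h₁⁻¹ * g⁻¹ := by group
      _ = 1 := by rw [hsq]; group)).exists_le_sylow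
  obtain ⟨c, hc⟩ := MulAction.exists_smul_eq C S₂ S₁
  -- S₂ fixes the coset H
  have hS₂H : ∀ t ∈ (S₂ : Subgroup C), (t : G) ∈ H := by
    obtain ⟨f, hf⟩ := exists_fixed H hodd ((S₂ : Subgroup C).map C.subtype) (S₂.isPGroup'.map _)
    have hfH : f ∈ H := hfix₂ f (hf z₂ ⟨⟨z₂, hz₂C⟩, hS₂ (Subgroup.mem_zpowers _), rfl⟩)
    intro t ht
    have := hf t ⟨t, ht, rfl⟩
    have := mul_mem (mul_mem hfH this) (inv_mem hfH)
    simpa [mul_assoc] using this
  -- g z₁ g⁻¹ = c s c⁻¹ with s ∈ S₂ so fixes the coset c H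
  have hcH : g⁻¹ * (c : G) ∈ H := by
    apply hfix₁
    have h1 : (⟨g * z₁ * g⁻¹, hz₁C⟩ : C) ∈ (S₁ : Subgroup C) := hS₁ (Subgroup.mem_zpowers _)
    rw [← hc, Sylow.coe_subgroup_smul, Subgroup.mem_pointwise_smul_iff_inv_smul_mem] at h1
    have h2 : (MulAut.conj c)⁻¹ • (⟨g * z₁ * g⁻¹, hz₁C⟩ : C) = c⁻¹ * ⟨g * z₁ * g⁻¹, hz₁C⟩ * c := by
      simp [MulAut.smul_def, ← map_inv]
    rw [h2] at h1
    have := hS₂H _ h1
    simpa using this
  refine ⟨(c : G)⁻¹ * g, by simpa using inv_mem hcH, ?_⟩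
  have h3 : (c : G) * y = y * (c : G) := Subgroup.mem_centralizer_singleton_iff.1 c.2
  have h4 : (c : G)⁻¹ * y * (c : G) = y := by rw [mul_assoc, ← h3, inv_mul_cancel_left]
  calc (c : G)⁻¹ * g * x * ((c : G)⁻¹ * g)⁻¹ = (c : G)⁻¹ * (g * x * g⁻¹) * (c : G) := by group
    _ = y := by rw [← hy]; exact h4

end Cfsg.Agent.S5438
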