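import Cfsg.Statements.S5439

set_option autoImplicit false
open Cfsg

namespace Cfsg.Agent.S5439

/-- Let I and J be two different conjugacy classes of involutions of the finite group G and H a subgroup such that every member of I ∪ J fixes exactly one coset in the action on the cosets of H, and such that for every a in I ∩ H and every b in (I ∪ J) ∩ H different from a and commuting with it, the centralizer of a b lies in H. Then H = G. -/
theorem result {G : Type*} [Group G] [Finite G] (I J : Set G) (a₀ b₀ : G) (ha₀ : orderOf a₀ = 2) (hb₀ : orderOf b₀ = 2) (hI : I = {x | IsConj a₀ x}) (hJ : J = {x | IsConj b₀ x}) (hIJ : I ≠ J) (H : Subgroup G) (hfix : ∀ x ∈ I ∪ J, ∃! c : G ⧸ H, x • c = c) (hcent : ∀ a ∈ I, a ∈ H → ∀ b ∈ I ∪ J, b ∈ H → a ≠ b → a * b = b * a → Subgroup.centralizer ({a * b} : Set G) ≤ H) : H = ⊤ := by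
  have hcos : ∀ g x : G, x • (QuotientGroup.mk g : G ⧸ H) = QuotientGroup.mk g ↔ g⁻¹ * x * g ∈ H := by
    intro g x
    rw [MulAction.Quotient.smul_mk, eq_comm, QuotientGroup.eq, smul_eq_mul, mul_assoc]
  have hconjI : ∀ x ∈ I, ∀ g : G, g * x * g⁻¹ ∈ I := by
    intro x hx g
    rw [hI] at hx ⊢
    exact IsConj.trans hx (isConj_iff.2 ⟨g, rfl⟩)
  have hconjJ : ∀ x ∈ J, ∀ g : G, g * x * g⁻¹ ∈ J := by
    intro x hx g
    rw [hJ] at hx ⊢
    exact IsConj.trans hx (isConj_iff.2 ⟨g, rfl⟩)
  have hdisj : ∀ x, x ∈ I → x ∈ J → False := by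
    intro x hxI hxJ
    apply hIJ
    rw [hI] at hxI; rw [hJ] at hxJ
    have h1 : IsConj a₀ b₀ := IsConj.trans hxI (IsConj.symm hxJ)
    rw [hI, hJ]
    ext y
    exact ⟨fun h => IsConj.trans (IsConj.symm h1) h, fun h => IsConj.trans h1 h⟩
  have hsq : ∀ x ∈ I ∪ J, x * x = 1 := by
    rintro x (hx | hx)
    · rw [hI] at hx
      obtain ⟨c, hc⟩ := isConj_iff.1 hx
      have : a₀ * a₀ = 1 := by rw [← pow_two, ← ha₀, pow_orderOf_eq_one]
      rw [← hc]
      calc c * a₀ * c⁻¹ * (c * a₀ * c⁻¹) = c * (a₀ * a₀) * c⁻¹ := by group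
        _ = 1 := by rw [this]; group
    · rw [hJ] at hx
      obtain ⟨c, hc⟩ := isConj_iff.1 hx
      have : b₀ * b₀ = 1 := by rw [← pow_two, ← hb₀, pow_orderOf_eq_one]
      rw [← hc]
      calc c * b₀ * c⁻¹ * (c * b₀ * c⁻¹) = c * (b₀ * b₀) * c⁻¹ := by group
        _ = 1 := by rw [this]; group
  have hne : ∀ x ∈ I ∪ J, x ≠ 1 := by
    rintro x (hx | hx) h1
    · rw [hI, h1] at hx
      have := isConj_one_left.1 hx
      rw [this, orderOf_one] at ha₀; exact absurd ha₀ (by norm_num)
    · rw [hJ, h1] at hx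
      have := isConj_one_left.1 hx
      rw [this, orderOf_one] at hb₀; exact absurd hb₀ (by norm_num)
  -- there is a member of I in H
  obtain ⟨a, haI, haH⟩ : ∃ a ∈ I, a ∈ H := by
    have ha : a₀ ∈ I := by rw [hI]; exact IsConj.refl a₀
    obtain ⟨c, hc, _⟩ := hfix a₀ (Or.inl ha)
    induction c using QuotientGroup.induction_on with
    | H g =>
      have hc' := (hcos g a₀).1 hc
      refine ⟨g⁻¹ * a₀ * g, ?_, hc'⟩
      simpa using hconjI a₀ ha g⁻¹
  have ha1 := hsq a (Or.inl haI)
  have hainv : a⁻¹ = a := by rw [inv_eq_iff_mul_eq_one]; exact ha1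
  -- claim : J ⊆ H
  have hJH : ∀ b ∈ J, b ∈ H := by
    intro b hb
    have hb1 := hsq b (Or.inr hb)
    have hbinv : b⁻¹ = b := by rw [inv_eq_iff_mul_eq_one]; exact hb1
    -- the order of a * b is even
    have hinv : (a * b)⁻¹ = b * a := by rw [mul_inv_rev, hainv, hbinv]
    have hconj : ∀ n : ℕ, a * (a * b) ^ n * a⁻¹ = ((a * b) ^ n)⁻¹ := by
      intro n
      rw [← conj_pow, ← inv_pow]
      congr 1
      rw [hinv, hainv]
      simp only [mul_assoc]
      rw [← mul_assoc a a, ha1, one_mul]
    have hconjb : ∀ n : ℕ, b * (a * b) ^ n * b⁻¹ = ((a * b) ^ n)⁻¹ := by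
      intro n
      rw [← conj_pow, ← inv_pow]
      congr 1
      rw [hinv, hbinv]
      simp only [mul_assoc]
      rw [hb1, mul_one]
    have heven : Even (orderOf (a * b)) := by
      by_contra hodd
      rw [Nat.not_even_iff_odd] at hodd
      obtain ⟨m, hm⟩ := hodd
      -- a and b conjugate: b = (ab)^{?} a (ab)^{-?}
      -- put t = (a*b)^m, then t⁻¹ * a * t = a * t * t = a * (ab)^{2m} = a * (ab)⁻¹ = a * b * a..., so conj
      apply hdisj b _ hb
      have h1 : (a * b) ^ (m + m) = (a * b)⁻¹ := by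
        rw [eq_inv_iff_mul_eq_one, ← pow_succ]
        have : m + m + 1 = orderOf (a * b) := by omega
        rw [this, pow_orderOf_eq_one]
      have h2 : ((a * b) ^ m)⁻¹ * a * (a * b) ^ m = a * (a * b) ^ (m + m) := by
        have := hconj m
        rw [mul_inv_eq_iff_eq_mul] at this
        rw [← this, pow_add]; simp only [mul_assoc]
      have h3 : ((a * b) ^ m)⁻¹ * a * (a * b) ^ m = a * (b * a) := by
        rw [h2, h1, hinv]
      have h4 : a * (a * (b * a)) * a⁻¹ = b := by
        rw [hainv]
        calc a * (a * (b * a)) * a = (a * a) * b * (a * a) := by simp only [mul_assoc]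
          _ = b := by rw [ha1, one_mul, mul_one]
      rw [← h4]
      apply hconjI
      rw [← h3]
      have := hconjI a haI ((a * b) ^ m)⁻¹
      simpa using this
    obtain ⟨k, hk⟩ := heven
    have hkpos : 0 < k := by
      have : 0 < orderOf (a * b) := orderOf_pos _
      omega
    set u := (a * b) ^ k with hu
    have hu2 : u * u = 1 := by rw [hu, ← pow_add, ← hk, pow_orderOf_eq_one]
    have huinv : u⁻¹ = u := by rw [inv_eq_iff_mul_eq_one]; exact hu2
    have hu1 : u ≠ 1 := by
      intro h1
      have := orderOf_dvd_of_pow_eq_one h1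
      have := Nat.le_of_dvd hkpos this
      omega
    have hau : a * u = u * a := by
      have := hconj k
      rw [← hu, huinv, mul_inv_eq_iff_eq_mul] at this
      exact this
    have hbu : b * u = u * b := by
      have := hconjb k
      rw [← hu, huinv, mul_inv_eq_iff_eq_mul] at this
      exact this
    -- x = u * a ∈ I ∪ J
    have hx : a * u ∈ I ∪ J := by
      rcases Nat.even_or_odd' k with ⟨m, hm | hm⟩
      · left
        have h2 : ((a * b) ^ m)⁻¹ * a * (a * b) ^ m = a * u := by
          have := hconj m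
          rw [mul_inv_eq_iff_eq_mul] at this
          rw [← this, hu, hm, two_mul, pow_add]; simp only [mul_assoc]
        rw [← h2]
        have := hconjI a haI ((a * b) ^ m)⁻¹
        simpa using this
      · right
        have h3 : a * u = ((a * b) ^ m)⁻¹ * b * (a * b) ^ m := by
          have h4 : a * (a * b) ^ (m + m) = ((a * b) ^ (m + m))⁻¹ * a := by
            have := hconj (m + m); rw [mul_inv_eq_iff_eq_mul] at this; exact this
          have h5 : b * (a * b) ^ m = ((a * b) ^ m)⁻¹ * b := by
            have := hconjb m; rw [mul_inv_eq_iff_eq_mul] at this; exact this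
          calc a * u = a * (a * b) ^ (m + m) * (a * b) := by
                rw [hu, hm, two_mul, pow_succ]; simp only [mul_assoc]
            _ = ((a * b) ^ (m + m))⁻¹ * (a * a) * b := by rw [h4]; simp only [mul_assoc]
            _ = ((a * b) ^ m)⁻¹ * (((a * b) ^ m)⁻¹ * b) := by
                rw [ha1, mul_one, pow_add, mul_inv_rev]; simp only [mul_assoc]
            _ = ((a * b) ^ m)⁻¹ * b * (a * b) ^ m := by rw [mul_assoc (((a * b) ^ m)⁻¹) b, h5]
        rw [h3]
        have := hconjJ b hb ((a * b) ^ m)⁻¹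
        simpa using this
    -- a * u fixes the unique coset H fixed by a
    have hxH : a * u ∈ H := by
      obtain ⟨c, _, hcu⟩ := hfix a (Or.inl haI)
      have h1 := hcu _ ((hcos 1 a).2 (by simpa using haH))
      have h2 : a • ((a * u) • (QuotientGroup.mk 1 : G ⧸ H)) = (a * u) • (QuotientGroup.mk 1 : G ⧸ H) := by
        rw [← mul_smul]
        have : a * (a * u) = (a * u) * a := by
          rw [mul_assoc a u a, ← hau]
        rw [this, mul_smul, (hcos 1 a).2 (by simpa using haH)]
      have h3 := hcu _ h2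
      have h4 : (a * u) • (QuotientGroup.mk 1 : G ⧸ H) = QuotientGroup.mk 1 := h3.trans h1.symm
      simpa using (hcos 1 (a * u)).1 h4
    have hne' : a ≠ a * u := by
      intro h; apply hu1
      have : a * 1 = a * u := by rw [mul_one]; exact h
      exact (mul_left_cancel this).symm
    have hcomm : a * (a * u) = (a * u) * a := by
      rw [mul_assoc a u a, ← hau]
    have hcen := hcent a haI haH (a * u) hx hxH hne' hcomm
    have : a * (a * u) = u := by rw [← mul_assoc, ha1, one_mul]
    rw [this] at hcen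
    apply hcen
    rw [Subgroup.mem_centralizer_singleton_iff]
    exact hbu
  rw [eq_top_iff]
  intro g _
  have hb : b₀ ∈ J := by rw [hJ]; exact IsConj.refl b₀
  obtain ⟨c, _, hcu⟩ := hfix b₀ (Or.inr hb)
  have h1 := hcu _ ((hcos 1 b₀).2 (by simpa using hJH _ hb))
  have h2 := hcu _ ((hcos g b₀).2 (by
    have := hconjJ b₀ hb g⁻¹
    exact hJH _ (by simpa using this)))
  have h3 : (QuotientGroup.mk 1 : G ⧸ H) = QuotientGroup.mk g := h1.trans h2.symm
  rw [QuotientGroup.eq] at h3
  simpa using h3

end Cfsg.Agent.S5439
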