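import Cfsg.Statements.S5440
import Cfsg.Agent.Lib.H97FaH
-- import your own Cfsg.Agent.* helpers here

set_option autoImplicit false
open Cfsg

namespace Cfsg.Agent.S5440

/-- Let G be a finite group of large Fischer type at the involution z: the generalized Fitting subgroup Q of H = C_G(z) is extraspecial of order 2^13, H has normal subgroups Q ≤ H₁ ≤ H₂ with H₁/Q of order 3, H₂/H₁ the projective special unitary group of dimension 4 over the field with nine elements and H₂ of index 2 in H, and some conjugate of z other than z lies in Q. Then H has exactly two orbits, under conjugation, on the involutions of Q other than z. -/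
theorem result {G : Type*} [Group G] [Finite G] (z : G) (Q : Subgroup (Subgroup.centralizer ({z} : Set G))) [Q.Normal] (hF : Cfsg.IsOfLargeFischerTypeAt z Q) : ∃ s t : Subgroup.centralizer ({z} : Set G), s ∈ Q ∧ t ∈ Q ∧ orderOf s = 2 ∧ orderOf t = 2 ∧ (s : G) ≠ z ∧ (t : G) ≠ z ∧ (¬ ∃ h : Subgroup.centralizer ({z} : Set G), h * s * h⁻¹ = t) ∧ ∀ x : Subgroup.centralizer ({z} : Set G), x ∈ Q → orderOf x = 2 → (x : G) ≠ z → (∃ h : Subgroup.centralizer ({z} : Set G), h * s * h⁻¹ = x) ∨ ∃ h : Subgroup.centralizer ({z} : Set G), h * t * h⁻¹ = x := by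
  obtain ⟨hset, N, M, hN, hM, hQN, hNM, hcN, ⟨K, iK, iK', hK, ⟨e⟩⟩, hidx⟩ := hF
  obtain ⟨hz, hFit, hQ, hcard, -⟩ := hset
  obtain ⟨hE, hcent⟩ := Cfsg.Agent.Lib.H97FaH.pack hz hFit hQ
  obtain ⟨V, iV, iF, q, b, ρ, π, Φ, R, D⟩ := Cfsg.Agent.Lib.H97FaH.exists_dat _ Q hE hcent (by rw [hcard]) N M hQN hNM hcN K hK e hidx
  obtain ⟨s, t, hs, ht, hs2, ht2, hsz, htz, hn, hc⟩ := D.main
  refine ⟨s, t, hs, ht, hs2, ht2, fun h => hsz (Subtype.ext h), fun h => htz (Subtype.ext h), hn, ?_⟩
  intro x hx hx2 hxz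
  exact hc x hx hx2 (fun h => hxz (congrArg Subtype.val h))

end Cfsg.Agent.S5440
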