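import Cfsg.Statements.S5443
import Cfsg.Agent.S5442
import Cfsg.Agent.Lib.H97FbW
import Cfsg.Agent.Lib.H97FbS
import Cfsg.Agent.Lib.H97FaH
import Cfsg.Agent.Lib.H87U3A
import Cfsg.Agent.Lib.H87U3B
import Cfsg.Agent.Lib.H87U3C
import Cfsg.Agent.Lib.H87U3D
import Cfsg.Agent.Lib.H87U3E
import Cfsg.Agent.Lib.H87U3F
import Cfsg.Agent.Lib.H87U3P
import Cfsg.Agent.Lib.H87U3Z
import Cfsg.Agent.Lib.H87U3N
import Cfsg.Agent.Lib.H87U3X

set_option autoImplicit false
set_option linter.all false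
open Cfsg

namespace Cfsg.Agent.S5443
open Matrix Cfsg Cfsg.Agent.Lib.K4 Cfsg.Agent.Lib.HermMat Cfsg.Agent.Lib.ClThreeTransU Cfsg.Agent.Lib.SU6K4
open Cfsg.Agent.Lib.U43 Cfsg.Agent.Lib.H97Fa Cfsg.Agent.Lib.H97FaF Cfsg.Agent.Lib.H97FaG Cfsg.Agent.Lib.H97FaI Cfsg.Agent.Lib.LargeExtra
open Cfsg.Agent.Lib.H87U30 Cfsg.Agent.Lib.H97FbW Cfsg.Agent.Lib.H87U3A Cfsg.Agent.Lib.H87U3B Cfsg.Agent.Lib.H87U3C Cfsg.Agent.Lib.H87U3D Cfsg.Agent.Lib.H87U3E Cfsg.Agent.Lib.H87U3F
open Cfsg.Agent.Lib.H87U3P Cfsg.Agent.Lib.H87U3Z Cfsg.Agent.Lib.H87U3N Cfsg.Agent.Lib.H87U3X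

universe u

theorem stepX {G' : Type u} [Group G'] [Finite G'] (z : G') (Q : Subgroup (Subgroup.centralizer ({z} : Set G'))) [Q.Normal] (hF : Cfsg.IsOfLargeFischerTypeAt z Q)
    {ζ : Subgroup.centralizer ({z} : Set G')} (hζ : (ζ : G') = z) {V : Type u} [AddCommGroup V] {q : V → ZMod 2} {b : V → V → ZMod 2}
    {ρ : Subgroup.centralizer ({z} : Set G') →* AddMonoid.End V} {π : Q → V} {M : Subgroup (Subgroup.centralizer ({z} : Set G'))}
    {Φ : V6 ≃+ V} {R : M →* G} (D : Dat ζ Q q b ρ π M Φ R)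
    (r : Q) (g : G') (hg : g * z * g⁻¹ = ((r : Subgroup.centralizer ({z} : Set G')) : G')) (hr : ((r : Subgroup.centralizer ({z} : Set G')) : G') ≠ z) :
    ∃ X E : Subgroup ((Subgroup.centralizer ({z} : Set G')) ⧸ Q), (∀ k, (QuotientGroup.mk' Q k) ∈ X ↔ ρ k (π r) = π r) ∧ E ≤ X ∧
      (∀ x ∈ X, ∀ y ∈ E, x * y * x⁻¹ ∈ E) ∧ (∀ y ∈ E, y * y = 1) ∧ Nat.card X = 11520 ∧
      ∃ _ : (E.subgroupOf X).Normal, Nonempty (↥X ⧸ E.subgroupOf X ≃* alternatingGroup (Fin 6)) := by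
  obtain ⟨X, hX⟩ : ∃ X : Subgroup ((Subgroup.centralizer ({z} : Set G')) ⧸ Q), X = ((Subgroup.centralizer ({z} : Set G') ⊓ Subgroup.centralizer ({((r : Subgroup.centralizer ({z} : Set G')) : G')} : Set G')).subgroupOf (Subgroup.centralizer ({z} : Set G'))).map (QuotientGroup.mk' Q) := ⟨_, rfl⟩
  obtain ⟨E, hE⟩ : ∃ E : Subgroup ((Subgroup.centralizer ({z} : Set G')) ⧸ Q), E = ((((Q.map (Subgroup.centralizer ({z} : Set G')).subtype)).map (MulAut.conj g).toMonoidHom ⊓ Subgroup.centralizer ({z} : Set G')).subgroupOf (Subgroup.centralizer ({z} : Set G'))).map (QuotientGroup.mk' Q) := ⟨_, rfl⟩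
  obtain ⟨-, -, h1, h2, h3, h4, h5, h6⟩ := Cfsg.Agent.S5442.result z Q hF ((r : Subgroup.centralizer ({z} : Set G')) : G') ⟨r.1.2, r.2⟩
    (isConj_iff.2 ⟨g, hg⟩) hr g hg X E hX hE
  refine ⟨X, E, ?_, h1, h2, ?_, ?_, h5, h6⟩
  · intro k
    rw [hX]
    apply mem_X D r
    · intro h
      have : g * z * g⁻¹ = 1 := by rw [hg, h]; rfl
      have h7 : z = 1 := by
        have h8 : z = g⁻¹ * (g * z * g⁻¹) * g := by group
        rw [h8, this]; group
      have := hF.1.1
      rw [h7, orderOf_one] at this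
      omega
    · intro h; exact hr (by rw [h, hζ])
    · intro h
      rw [Subgroup.mem_subgroupOf, Subgroup.mem_inf, Subgroup.mem_centralizer_singleton_iff, Subgroup.mem_centralizer_singleton_iff]
      constructor
      · rintro ⟨-, h8⟩; exact Subtype.ext h8
      · intro h8; exact ⟨Subgroup.mem_centralizer_singleton_iff.1 h.2, congrArg Subtype.val h8⟩
  · intro y hy
    rw [← pow_two]; exact h3.2 y hy
  · obtain ⟨e⟩ := h6
    have h7 := Subgroup.card_eq_card_quotient_mul_card_subgroup (E.subgroupOf X)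
    have h8 : Nat.card (alternatingGroup (Fin 6)) = 360 := by
      rw [Nat.card_eq_fintype_card]
      have h9 := two_mul_card_alternatingGroup (α := Fin 6)
      rw [Fintype.card_perm, Fintype.card_fin] at h9
      have : Nat.factorial 6 = 720 := rfl
      omega
    rw [Nat.card_congr e.toEquiv, Nat.card_congr (Subgroup.subgroupOfEquivOfLe h1).toEquiv, h4, h8] at h7
    exact h7

/-- the case of the stabilizer of `u2` -/
theorem part2 {H : Type u} [Group H] [Finite H] {ζ : H} {Q : Subgroup H} [Q.Normal] {V : Type u} [AddCommGroup V] {q : V → ZMod 2} {b : V → V → ZMod 2}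
    {ρ : H →* AddMonoid.End V} {π : Q → V} {M : Subgroup H} {Φ : V6 ≃+ V} {R : M →* G} (D : Dat ζ Q q b ρ π M Φ R)
    (hR : R.range = K0) (S : Subgroup H) (hS : ∀ h, h ∈ S ↔ ρ h (Φ u2) = Φ u2) (X E : Subgroup (H ⧸ Q))
    (hX : ∀ k : H, (QuotientGroup.mk' Q k) ∈ X ↔ ρ k (Φ w4) = Φ w4) (hEX : E ≤ X) (hn : ∀ x ∈ X, ∀ y ∈ E, x * y * x⁻¹ ∈ E)
    (hE : ∀ y ∈ E, y * y = 1) (hA : ∃ _ : (E.subgroupOf X).Normal, Nonempty (↥X ⧸ E.subgroupOf X ≃* alternatingGroup (Fin 6))) :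
    Nonempty (↥(S.map (QuotientGroup.mk' Q)) ≃* Cfsg.isometryGroup (ZMod 2) (Cfsg.quadFormMinus 2 (ZMod 2) 1 1)) := by
  obtain ⟨N, hNn, ⟨eN⟩, hNM⟩ := N_iso D hR S hS (S.map (QuotientGroup.mk' Q)) rfl
  obtain ⟨eS⟩ := St_iso Cfsg.Agent.Lib.H97FbS.no_two (card_St ncard_Ob.1)
  have hc := card_stab D hR u2 iso_u2 ncard_Ob S hS
  rw [ncard_Ob.1] at hc
  refine fin N ⟨eN.trans eS⟩ (by omega) ?_
  rintro ⟨x, hx⟩ hxN hxx hcomm
  obtain ⟨h, hhS, rfl⟩ := hx
  have hhM : h ∉ M := fun hm => hxN ((hNM h _).2 hm)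
  have hinj : ∀ a b : H, a⁻¹ * b ∈ Q → ∀ v, ρ a v = ρ b v := by
    intro a b hab v
    have h1 := (D.ker _).2 hab
    have h2 : b = a * (a⁻¹ * b) := by group
    rw [h2, map_mul, h1, mul_one]
  have hρ : ∀ (a b : H) (v : V), ρ (a * b) v = ρ a (ρ b v) := by
    intro a b v; rw [map_mul]; rfl
  have hinv : ∀ (a : H) (v : V), ρ a⁻¹ (ρ a v) = v := by
    intro a v; rw [← hρ, inv_mul_cancel, map_one]; rfl
  have hinv' : ∀ (a : H) (v : V), ρ a (ρ a⁻¹ v) = v := by
    intro a v; rw [← hρ, mul_inv_cancel, map_one]; rfl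
  let c : V6 ≃+ V6 :=
    { toFun := fun v => Φ.symm (ρ h (Φ v))
      invFun := fun v => Φ.symm (ρ h⁻¹ (Φ v))
      left_inv := fun v => by simp only [AddEquiv.apply_symm_apply, hinv, AddEquiv.symm_apply_apply]
      right_inv := fun v => by simp only [AddEquiv.apply_symm_apply, hinv', AddEquiv.symm_apply_apply]
      map_add' := fun v w => by rw [map_add, map_add, map_add] }
  have hcv : ∀ v, c v = Φ.symm (ρ h (Φ v)) := fun v => rfl
  have hsq : h * h ∈ Q := by
    have h1 := congrArg Subtype.val hxx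
    have h2 : QuotientGroup.mk' Q (h * h) = 1 := by rw [map_mul]; exact h1
    exact (QuotientGroup.eq_one_iff _).1 h2
  have hform := cent_form c ?_ ?_ ?_ ?_ ?_
  · rcases hform with h1 | h1
    · apply hhM
      apply D.QM
      rw [← D.ker]
      ext v
      have h2 := h1 (Φ.symm v)
      rw [hcv, AddEquiv.apply_symm_apply, EmbeddingLike.apply_eq_iff_eq] at h2
      exact h2
    · refine no_swap D hR h ?_ X E hX hEX hn hE hA
      intro v
      rw [← h1, hcv, AddEquiv.apply_symm_apply]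
  · intro v
    rw [hcv, hcv, AddEquiv.apply_symm_apply, ← hρ, (D.ker _).2 hsq]
    exact Φ.symm_apply_apply v
  · intro v hv
    rw [← D.qΦ, hcv, AddEquiv.apply_symm_apply, D.qinv, D.qΦ]
    exact hv
  · intro g hg hgu v
    rw [← hR] at hg
    obtain ⟨m, rfl⟩ := hg
    have hmS : (m : H) ∈ S := by rw [hS, ← D.rep, hgu]
    have hmx : QuotientGroup.mk' Q (m : H) ∈ S.map (QuotientGroup.mk' Q) := ⟨_, hmS, rfl⟩
    have h1 := hcomm ⟨_, hmx⟩ ((hNM _ hmx).2 m.2)
    have h2 : QuotientGroup.mk' Q (h * m) = QuotientGroup.mk' Q (m * h) := by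
      rw [map_mul, map_mul]; exact congrArg Subtype.val h1
    have h3 : (h * m)⁻¹ * (m * h) ∈ Q := QuotientGroup.eq.1 h2
    apply Φ.injective
    rw [D.rep, hcv, hcv, AddEquiv.apply_symm_apply, AddEquiv.apply_symm_apply, D.rep, ← hρ, ← hρ]
    exact hinj _ _ h3 _
  · rw [hcv, (hS h).1 hhS, AddEquiv.symm_apply_apply]
  · rcases omega D hR h with h1 | h1
    · left; intro v
      rw [hcv, h1, AddEquiv.symm_apply_apply]; rfl
    · right; intro v
      rw [hcv, h1, AddEquiv.symm_apply_apply]; rfl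

theorem ob_eq {K : Subgroup G} {v w : V6} (h : Rl K v w) : Ob K v = Ob K w := by
  ext x
  exact ⟨fun hx => Rl.trans hx h, fun hx => Rl.trans hx h.symm⟩

/-- Let G be a finite group of large Fischer type at the involution z: the generalized Fitting subgroup Q of H = C_G(z) is extraspecial of order 2^13, H has normal subgroups Q ≤ H₁ ≤ H₂ with H₁/Q of order 3, H₂/H₁ the projective special unitary group of dimension 4 over the field with nine elements and H₂ of index 2 in H, and some conjugate of z other than z lies in Q. Let t be an involution of Q not conjugate to z in G, and S the set of elements of H conjugating t to t or to t z (the stabilizer of the image of t in Q modulo its centre). Then the image of S in H/Q is isomorphic to the full isometry group of the elliptic quadratic form in dimension 6 over the field with two elements. -/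
theorem result {G : Type*} [Group G] [Finite G] (z : G) (Q : Subgroup (Subgroup.centralizer ({z} : Set G))) [Q.Normal] (hF : Cfsg.IsOfLargeFischerTypeAt z Q) (t : Subgroup.centralizer ({z} : Set G)) (htQ : t ∈ Q) (ht2 : orderOf t = 2) (ht : ¬ IsConj z (t : G)) (S : Subgroup (Subgroup.centralizer ({z} : Set G))) (hS : ∀ h : Subgroup.centralizer ({z} : Set G), h ∈ S ↔ (h * t * h⁻¹ = t ∨ ((h * t * h⁻¹ : Subgroup.centralizer ({z} : Set G)) : G) = t * z)) : Nonempty (↥(S.map (QuotientGroup.mk' Q)) ≃* Cfsg.isometryGroup (ZMod 2) (Cfsg.quadFormMinus 2 (ZMod 2) 1 1)) := by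
  have hF' := hF
  obtain ⟨hset, N, M, hN, hM, hQN, hNM, hcN, ⟨K, iK, iK', hK, ⟨e⟩⟩, hidx⟩ := hF'
  obtain ⟨hz, hFit, hQ, hcard, g0, ⟨hg0, hg0Q⟩, hg0z⟩ := hset
  obtain ⟨hE, hcent⟩ := Cfsg.Agent.Lib.H97FaH.pack hz hFit hQ
  obtain ⟨V, iV, iF, q, b, ρ, π, Φ0, R0, D0⟩ := Cfsg.Agent.Lib.H97FaH.exists_dat _ Q hE hcent (by rw [hcard]) N M hQN hNM hcN K hK e hidx
  obtain ⟨Φ, R, D, hR⟩ := norm_K0 D0
  obtain ⟨ζ, hζ⟩ : ∃ ζ : Subgroup.centralizer ({z} : Set G), ζ = ⟨z, Subgroup.mem_centralizer_singleton_iff.2 rfl⟩ := ⟨_, rfl⟩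
  rw [← hζ] at D
  have hζz : (ζ : G) = z := by rw [hζ]
  -- general facts
  have hρ : ∀ (a b : Subgroup.centralizer ({z} : Set G)) (v : V), ρ (a * b) v = ρ a (ρ b v) := by
    intro a b v; rw [map_mul]; rfl
  have hinv : ∀ (a : Subgroup.centralizer ({z} : Set G)) (v : V), ρ a⁻¹ (ρ a v) = v := by
    intro a v; rw [← hρ, inv_mul_cancel, map_one]; rfl
  have hconjiso : ∀ r : Q, (∃ g : G, g * z * g⁻¹ = ((r : Subgroup.centralizer ({z} : Set G)) : G)) → ((r : Subgroup.centralizer ({z} : Set G)) : G) ≠ z →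
      (r : Subgroup.centralizer ({z} : Set G)) ≠ 1 ∧ (r : Subgroup.centralizer ({z} : Set G)) ≠ ζ ∧ Iso (co π Φ r) := by
    rintro r ⟨g, hg⟩ hr
    have h1 : orderOf (r : Subgroup.centralizer ({z} : Set G)) = 2 := by
      rw [← Subgroup.orderOf_coe, ← hg, ← hz]
      exact (MulAut.conj g).orderOf_eq z
    have h2 : (r : Subgroup.centralizer ({z} : Set G)) ≠ ζ := fun h => hr (by rw [h, hζz])
    refine ⟨fun h => ?_, h2, (D.iso r).2 ⟨h1, h2⟩⟩
    rw [h, orderOf_one] at h1; omega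
  have hco : ∀ r : Q, Φ (co π Φ r) = π r := fun r => Φ.apply_symm_apply _
  -- the vector of a conjugate of z is in the orbit of w4
  obtain ⟨r0, hr0⟩ : ∃ r0 : Q, r0 = ⟨⟨g0 * z * g0⁻¹, hg0⟩, hg0Q⟩ := ⟨_, rfl⟩
  have hr0g : g0 * z * g0⁻¹ = ((r0 : Subgroup.centralizer ({z} : Set G)) : G) := by rw [hr0]
  have hr0z : ((r0 : Subgroup.centralizer ({z} : Set G)) : G) ≠ z := by rw [← hr0g]; exact hg0z
  obtain ⟨hr01, hr0ζ, hiso0⟩ := hconjiso r0 ⟨g0, hr0g⟩ hr0z
  have hw : Rl K0 (co π Φ r0) w4 := by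
    rcases cover hiso0 with h | h
    · exfalso
      obtain ⟨X, E, hX, -, -, -, hcX, -⟩ := stepX z Q hF hζz D r0 g0 hr0g hr0z
      have h1 := card_stab D hR (co π Φ r0) hiso0 ncard_Ob (X.comap (QuotientGroup.mk' Q)) (fun h => by
        rw [Subgroup.mem_comap, hX, hco])
      rw [Subgroup.map_comap_eq_self_of_surjective (QuotientGroup.mk'_surjective Q), hcX, ob_eq h, ncard_Ob.1] at h1
      omega
    · exact h
  -- the vector of t
  obtain ⟨r1, hr1⟩ : ∃ r1 : Q, r1 = ⟨t, htQ⟩ := ⟨_, rfl⟩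
  have hr1t : (r1 : Subgroup.centralizer ({z} : Set G)) = t := by rw [hr1]
  have ht1 : t ≠ 1 := fun h => by rw [h, orderOf_one] at ht2; omega
  have htζ : t ≠ ζ := fun h => ht (by rw [h, hζz])
  have hiso1 : Iso (co π Φ r1) := (D.iso r1).2 ⟨by rw [hr1t]; exact ht2, by rw [hr1t]; exact htζ⟩
  have hu : Rl K0 (co π Φ r1) u2 := by
    rcases cover hiso1 with h | h
    · exact h
    · exfalso
      have h2 : Rl R.range (co π Φ r1) (co π Φ r0) := by rw [hR]; exact h.trans hw.symm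
      obtain ⟨m, hm⟩ := D.rl.1 h2
      rw [hco, hco] at hm
      obtain ⟨k, hk, hk2⟩ := D.conj_iff m r0 r1 hr01 hr0ζ hm
      apply ht
      rw [isConj_iff]
      refine ⟨((m * k : Subgroup.centralizer ({z} : Set G)) : G) * g0, ?_⟩
      have h3 := congrArg Subtype.val hk2
      rw [hr1t] at h3
      have h4 : ((m * k : Subgroup.centralizer ({z} : Set G)) : G) * (g0 * z * g0⁻¹) * ((m * k : Subgroup.centralizer ({z} : Set G)) : G)⁻¹ = t := by
        rw [hr0g]; exact h3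
      rw [← h4]; group
  -- a conjugate of z over w4
  obtain ⟨r2, hr2⟩ := D.surj (Φ w4)
  have hrl2 : Rl R.range w4 (co π Φ r0) := by rw [hR]; exact hw.symm
  obtain ⟨m2, hm2⟩ := D.rl.1 hrl2
  rw [hco, ← hr2] at hm2
  obtain ⟨k2, hk2, hk22⟩ := D.conj_iff m2 r0 r2 hr01 hr0ζ hm2
  have hr2g : (((m2 * k2 : Subgroup.centralizer ({z} : Set G)) : G) * g0) * z * (((m2 * k2 : Subgroup.centralizer ({z} : Set G)) : G) * g0)⁻¹ = ((r2 : Subgroup.centralizer ({z} : Set G)) : G) := by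
    have h3 := congrArg Subtype.val hk22
    have h4 : ((m2 * k2 : Subgroup.centralizer ({z} : Set G)) : G) * (g0 * z * g0⁻¹) * ((m2 * k2 : Subgroup.centralizer ({z} : Set G)) : G)⁻¹ = r2 := by
      rw [hr0g]; exact h3
    rw [← h4]; group
  have hr2z : ((r2 : Subgroup.centralizer ({z} : Set G)) : G) ≠ z := by
    intro h
    have h1 : (r2 : Subgroup.centralizer ({z} : Set G)) = ζ := Subtype.ext (by rw [h, hζz])
    have h2 : π r2 = π 1 := (D.eqv _ _).2 (Or.inr (by rw [Subgroup.coe_one, mul_one]; exact h1))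
    rw [hr2, D.π_one, EmbeddingLike.map_eq_zero_iff] at h2
    exact iso_w4.1 h2
  obtain ⟨X, E, hX, hEX, hn, hEE, -, hA⟩ := stepX z Q hF hζz D r2 _ hr2g hr2z
  rw [hr2] at hX
  -- conjugate the stabilizer
  have hrl1 : Rl R.range (co π Φ r1) u2 := by rw [hR]; exact hu
  obtain ⟨m1, hm1⟩ := D.rl.1 hrl1
  rw [hco] at hm1
  have hmain := part2 D hR (S.comap (MulAut.conj (m1 : Subgroup.centralizer ({z} : Set G))).toMonoidHom) ?_ X E hX hEX hn hEE hA
  · obtain ⟨e1⟩ := hmain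
    have e2 := ((S.comap (MulAut.conj (m1 : Subgroup.centralizer ({z} : Set G))).toMonoidHom).map (QuotientGroup.mk' Q)).equivMapOfInjective
      (MulAut.conj (QuotientGroup.mk' Q (m1 : Subgroup.centralizer ({z} : Set G)))).toMonoidHom (MulAut.conj (QuotientGroup.mk' Q (m1 : Subgroup.centralizer ({z} : Set G)))).injective
    have h3 : (((S.comap (MulAut.conj (m1 : Subgroup.centralizer ({z} : Set G))).toMonoidHom).map (QuotientGroup.mk' Q))).map
      (MulAut.conj (QuotientGroup.mk' Q (m1 : Subgroup.centralizer ({z} : Set G)))).toMonoidHom = S.map (QuotientGroup.mk' Q) := by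
      rw [Subgroup.map_map]
      ext x
      constructor
      · rintro ⟨h, hh, rfl⟩
        refine ⟨_, hh, ?_⟩
        rfl
      · rintro ⟨h, hh, rfl⟩
        refine ⟨(m1 : Subgroup.centralizer ({z} : Set G))⁻¹ * h * m1, ?_, ?_⟩
        · change (m1 : Subgroup.centralizer ({z} : Set G)) * ((m1 : Subgroup.centralizer ({z} : Set G))⁻¹ * h * m1) * (m1 : Subgroup.centralizer ({z} : Set G))⁻¹ ∈ S
          have h4 : (m1 : Subgroup.centralizer ({z} : Set G)) * ((m1 : Subgroup.centralizer ({z} : Set G))⁻¹ * h * m1) * (m1 : Subgroup.centralizer ({z} : Set G))⁻¹ = h := by group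
          rw [h4]; exact hh
        · change QuotientGroup.mk' Q m1 * QuotientGroup.mk' Q ((m1 : Subgroup.centralizer ({z} : Set G))⁻¹ * h * m1) * (QuotientGroup.mk' Q m1)⁻¹ = QuotientGroup.mk' Q h
          rw [map_mul, map_mul]
          change QuotientGroup.mk' Q m1 * ((QuotientGroup.mk' Q m1)⁻¹ * QuotientGroup.mk' Q h * QuotientGroup.mk' Q m1) * (QuotientGroup.mk' Q m1)⁻¹ = QuotientGroup.mk' Q h
          group
    rw [h3] at e2
    exact ⟨e2.symm.trans e1⟩
  · intro h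
    change (m1 : Subgroup.centralizer ({z} : Set G)) * h * (m1 : Subgroup.centralizer ({z} : Set G))⁻¹ ∈ S ↔ _
    have hSρ : ∀ k, k ∈ S ↔ ρ k (π r1) = π r1 := by
      intro k
      have hnQ : Q.Normal := inferInstance
      have h5 := D.act k r1 ⟨k * r1 * k⁻¹, hnQ.conj_mem _ r1.2 k⟩ rfl
      rw [h5, D.eqv, hS]
      change _ ↔ (k * (r1 : Subgroup.centralizer ({z} : Set G)) * k⁻¹ = r1 ∨ k * (r1 : Subgroup.centralizer ({z} : Set G)) * k⁻¹ = ζ * r1)
      rw [hr1t]
      constructor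
      · rintro (h6 | h6)
        · exact Or.inl h6
        · right
          apply Subtype.ext
          rw [h6, Subgroup.coe_mul, hζz]
          exact (Subgroup.mem_centralizer_singleton_iff.1 t.2)
      · rintro (h6 | h6)
        · exact Or.inl h6
        · right
          have h7 : ((k * t * k⁻¹ : Subgroup.centralizer ({z} : Set G)) : G) = (ζ : G) * t := by rw [h6]; rfl
          rw [hζz] at h7
          rw [h7]
          exact (Subgroup.mem_centralizer_singleton_iff.1 t.2).symm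
    rw [hSρ, ← hm1, ← hρ, inv_mul_cancel_right, hρ]
    constructor
    · intro h6
      have h7 := congrArg (ρ (m1 : Subgroup.centralizer ({z} : Set G))⁻¹) h6
      rwa [hinv, hinv] at h7
    · intro h6; rw [h6]

end Cfsg.Agent.S5443
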