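import Cfsg.Statements.S5452
import Cfsg.Agent.S0283
import Cfsg.Agent.Lib.FiLift91c
-- import your own Cfsg.Agent.* helpers here

set_option autoImplicit false
open Cfsg

namespace Cfsg.Agent.S5452

open Cfsg.Agent.Lib.ThreeTypes Cfsg.Agent.Lib.FiMu Cfsg.Agent.Lib.FiLift91

theorem psu62 : PSU62Simple := by
  intro F _ _ hF
  exact Cfsg.Agent.S0283.result (by rw [hF]; norm_num) 6 (by norm_num) (by norm_num)


/-- Let G be a finite group with an involution d whose centralizer C is quasisimple with C modulo the subgroup generated by d isomorphic to the projective special unitary group of dimension 6 over the field with four elements, and suppose some conjugate of d other than d commutes with d. Then every involution of C modulo the subgroup generated by d is the image of an involution of C, and d is not a square in G. -/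
theorem result {G : Type*} [Group G] [Finite G] (d : G) (hd : orderOf d = 2) (hq : Cfsg.IsQuasisimple ↥(Subgroup.centralizer ({d} : Set G))) [hzn : ((Subgroup.zpowers d).subgroupOf (Subgroup.centralizer ({d} : Set G))).Normal] (K : Type) [Field K] [Fintype K] (hK : Fintype.card K = 4) (e : ↥(Subgroup.centralizer ({d} : Set G)) ⧸ (Subgroup.zpowers d).subgroupOf (Subgroup.centralizer ({d} : Set G)) ≃* Cfsg.PSU 6 K 2) (hnwc : ∃ g : G, g * d * g⁻¹ ∈ Subgroup.centralizer ({d} : Set G) ∧ g * d * g⁻¹ ≠ d) : (∀ x : ↥(Subgroup.centralizer ({d} : Set G)) ⧸ (Subgroup.zpowers d).subgroupOf (Subgroup.centralizer ({d} : Set G)), orderOf x = 2 → ∃ y : ↥(Subgroup.centralizer ({d} : Set G)), orderOf y = 2 ∧ (QuotientGroup.mk y : ↥(Subgroup.centralizer ({d} : Set G)) ⧸ (Subgroup.zpowers d).subgroupOf (Subgroup.centralizer ({d} : Set G))) = x) ∧ ¬ ∃ g : G, g ^ 2 = d := by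
  obtain ⟨E, hE⟩ := lh_psu hK (psu62 K hK) e
  exact concl d hd hE

end Cfsg.Agent.S5452
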