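import Cfsg.Statements.S5453
import Cfsg.Agent.S0283
import Cfsg.Agent.Lib.FiLift91b
-- import your own Cfsg.Agent.* helpers here

set_option autoImplicit false
open Cfsg

namespace Cfsg.Agent.S5453

open Cfsg.Agent.Lib.ThreeTypes Cfsg.Agent.Lib.FiMu Cfsg.Agent.Lib.FiLift91

theorem psu62 : PSU62Simple := by
  intro F _ _ hF
  exact Cfsg.Agent.S0283.result (by rw [hF]; norm_num) 6 (by norm_num) (by norm_num)


/-- Let G be a finite group with an involution d whose centralizer C is quasisimple, such that C modulo the subgroup generated by d is of type M(22) with respect to some conjugacy class of 3-transpositions generating it and also has an involution whose own centralizer is quasisimple with quotient by it isomorphic to the projective special unitary group of dimension 6 over the field with four elements and which is not weakly closed in that centralizer; and suppose some conjugate of d other than d commutes with d. Then every involution of C modulo the subgroup generated by d is the image of an involution of C, and d is not a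 square in G. -/
theorem result {G : Type*} [Group G] [Finite G] (d : G) (hd : orderOf d = 2) (hq : Cfsg.IsQuasisimple ↥(Subgroup.centralizer ({d} : Set G))) [hzn : ((Subgroup.zpowers d).subgroupOf (Subgroup.centralizer ({d} : Set G))).Normal] (htype : ∃ E : Set (↥(Subgroup.centralizer ({d} : Set G)) ⧸ (Subgroup.zpowers d).subgroupOf (Subgroup.centralizer ({d} : Set G))), Cfsg.IsThreeTranspositionClass E ∧ Cfsg.IsOfTypeM22 _ E) (hinvol : ∃ d' : ↥(Subgroup.centralizer ({d} : Set G)) ⧸ (Subgroup.zpowers d).subgroupOf (Subgroup.centralizer ({d} : Set G)), orderOf d' = 2 ∧ Cfsg.IsQuasisimple ↥(Subgroup.centralizer ({d'} : Set _)) ∧ (∃ (K : Type) (_ : Field K) (_ : Fintype K), Fintype.card K = 4 ∧ ∃ _ : ((Subgroup.zpowers d').subgroupOf (Subgroup.centralizer ({d'} : Set _))).Normal, Nonempty (↥(Subgroup.centralizer ({d'} : Set _)) ⧸ (Subgroup.zpowers d').subgroupOf (Subgroup.centralizer ({d'} : Set _)) ≃* Cfsg.PSU 6 K 2)) ∧ ∃ g, g * d' * g⁻¹ ∈ Subgroup.centralizer ({d'} : Set _) ∧ g * d' * g⁻¹ ≠ d') (hnwc : ∃ g : G, g * d * g⁻¹ ∈ Subgroup.centralizer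 ({d} : Set G) ∧ g * d * g⁻¹ ≠ d) : (∀ x : ↥(Subgroup.centralizer ({d} : Set G)) ⧸ (Subgroup.zpowers d).subgroupOf (Subgroup.centralizer ({d} : Set G)), orderOf x = 2 → ∃ y : ↥(Subgroup.centralizer ({d} : Set G)), orderOf y = 2 ∧ (QuotientGroup.mk y : ↥(Subgroup.centralizer ({d} : Set G)) ⧸ (Subgroup.zpowers d).subgroupOf (Subgroup.centralizer ({d} : Set G))) = x) ∧ ¬ ∃ g : G, g ^ 2 = d := by
  obtain ⟨E, hE, h22⟩ := htype
  have hle : (Subgroup.zpowers d).subgroupOf (Subgroup.centralizer ({d} : Set G)) ≤
      Subgroup.center ↥(Subgroup.centralizer ({d} : Set G)) := by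
    intro x hx
    rw [Subgroup.mem_subgroupOf] at hx
    obtain ⟨k, hk⟩ := hx
    rw [Subgroup.mem_center_iff]
    intro y
    apply Subtype.ext
    have h1 : Commute (y : G) d := (Subgroup.mem_centralizer_singleton_iff.mp y.2)
    have h2 : Commute (y : G) (d ^ k) := h1.zpow_right k
    have hk' : d ^ k = (x : G) := hk
    rw [hk'] at h2
    exact h2
  have hprim := prim_of_quasisimple hq hle hE h22.1
  have hE' : Cfsg.IsThreeTranspositionGroup E := by
    obtain ⟨h1, ⟨d0, h2, h3⟩, h4⟩ := hE
    exact ⟨h1, Cfsg.Agent.Lib.FischerRank3.class_conj h3, h4⟩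
  exact concl d hd (lh22 psu62 hE' hprim h22)

end Cfsg.Agent.S5453
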