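import Cfsg.Statements.S5454
import Cfsg.Agent.S0283
import Cfsg.Agent.Lib.H89EF2

set_option autoImplicit false
open Cfsg

namespace Cfsg.Agent.S5454

open Cfsg.Agent.Lib.H89EF Cfsg.Agent.Lib.H89EE Cfsg.Agent.Lib.H89EC Cfsg.Agent.Lib.H89EA Cfsg.Agent.Lib.FiMu Cfsg.Agent.Lib.ThreeTypes

theorem psu62 : PSU62Simple := by
  intro F _ _ hF
  exact Cfsg.Agent.S0283.result (by rw [hF]; norm_num) 6 (by norm_num) (by norm_num)

/-- Let G be a finite group with an involution d whose centralizer C is quasisimple with C modulo the subgroup generated by d isomorphic to the projective special unitary group of dimension 6 over the field with four elements, and suppose some conjugate of d other than d commutes with d. Let S be a Sylow 2-subgroup of C and A the Thompson subgroup of S (generated by the elementary abelian subgroups of S of largest order), regarded as a subgroup of G. Then A is elementary abelian of order 2^10, exactly 22 conjugates of d lie in A, and the normalizer of A permutes them transitively. -/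
theorem result {G : Type*} [Group G] [Finite G] (d : G) (hd : orderOf d = 2) (hq : Cfsg.IsQuasisimple ↥(Subgroup.centralizer ({d} : Set G))) [hzn : ((Subgroup.zpowers d).subgroupOf (Subgroup.centralizer ({d} : Set G))).Normal] (K : Type) [Field K] [Fintype K] (hK : Fintype.card K = 4) (e : ↥(Subgroup.centralizer ({d} : Set G)) ⧸ (Subgroup.zpowers d).subgroupOf (Subgroup.centralizer ({d} : Set G)) ≃* Cfsg.PSU 6 K 2) (hnwc : ∃ g : G, g * d * g⁻¹ ∈ Subgroup.centralizer ({d} : Set G) ∧ g * d * g⁻¹ ≠ d) (S : Sylow 2 ↥(Subgroup.centralizer ({d} : Set G))) (A : Subgroup G) (hA : A = (Cfsg.thompsonSubgroupOf 2 (S : Subgroup ↥(Subgroup.centralizer ({d} : Set G)))).map (Subgroup.centralizer ({d} : Set G)).subtype) : Cfsg.IsElementaryAbelian 2 A ∧ Nat.card A = 2 ^ 10 ∧ Set.ncard {x : G | x ∈ A ∧ IsConj d x} = 22 ∧ ∀ x ∈ A, ∀ y ∈ A, IsConj d x → IsConj d y → ∃ n ∈ Subgroup.normalizer (A : Set G), n * x * n⁻¹ = y := by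

  classical
  have hF2 : Fintype.card K = 2 ^ 2 := by rw [hK]; norm_num
  have hch : (2 : K) = 0 := by
    have h1 : ((Fintype.card K : ℕ) : K) = 0 := Nat.cast_card_eq_zero K
    rw [hK] at h1
    have h2 : (2 : K) * 2 = 0 := by
      have : ((4 : ℕ) : K) = 2 * 2 := by norm_num
      rw [← this]; exact h1
    exact mul_self_eq_zero.mp h2
  haveI : CharP K 2 := CharTwo.of_one_ne_zero_of_two_eq_zero one_ne_zero hch
  have hperf : commutator ↥(Subgroup.centralizer ({d} : Set G)) = ⊤ := hq.1.commutator_eq_top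
  obtain ⟨δ, hd0, D, E, π, KK, S', hLO, hno, hall, ⟨W₀, hW₀⟩, hcard⟩ := exists_data hd hperf hF2 (psu62 K hK) e
  obtain ⟨W, hW, hJ⟩ := thompson KK S' hall hW₀ S
  have hAW : A = AG KK S' W := by rw [hA, hJ]; rfl
  subst hAW
  refine ⟨?_, ?_, ?_, ?_⟩
  · rw [Cfsg.Agent.Lib.ThompsonJ.elemAb_iff]
    refine ⟨?_, ?_⟩
    · intro a ha
      rw [Subgroup.mem_centralizer_iff]
      intro b hb
      exact comm_of_sq (AG_sq KK S' hW) hb ha
    · intro a ha
      rw [pow_two]
      exact AG_sq KK S' hW a ha
  · rw [card_AG KK S' hW (hall W hW)]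
    norm_num
  · exact conj_ncard KK S' hLO hno hd0 hall hcard hnwc hW
  · intro x hx y hy hcx hcy
    exact conj_trans KK S' hd0 hall hW hx hy hcx hcy

end Cfsg.Agent.S5454
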