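import Cfsg.Statements.S5455
import Cfsg.Agent.S0283
import Cfsg.Agent.Lib.DC22J73
-- import your own Cfsg.Agent.* helpers here

set_option autoImplicit false
open Cfsg

namespace Cfsg.Agent.S5455

open Cfsg.Agent.Lib.ThreeTypes Cfsg.Agent.Lib.FiMu Cfsg.Agent.Lib.DC22

theorem psu62 : PSU62Simple := by
  intro F _ _ hF
  exact Cfsg.Agent.S0283.result (by rw [hF]; norm_num) 6 (by norm_num) (by norm_num)

/-- Let G be a finite group with an involution d whose centralizer C is quasisimple, such that C modulo the subgroup generated by d is of type M(22) with respect to some conjugacy class of 3-transpositions generating it and also has an involution whose own centralizer is quasisimple with quotient by it isomorphic to the projective special unitary group of dimension 6 over the field with four elements and which is not weakly closed in that centralizer; and suppose some conjugate of d other than d commutes with d. Let S be a Sylow 2-subgroup of C and A the Thompson subgroup of S, regarded as a subgroup of G.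 Then A is elementary abelian of order 2^11, exactly 23 conjugates of d lie in A, and the normalizer of A permutes them transitively. -/
theorem result {G : Type*} [Group G] [Finite G] (d : G) (hd : orderOf d = 2) (hq : Cfsg.IsQuasisimple ↥(Subgroup.centralizer ({d} : Set G))) [hzn : ((Subgroup.zpowers d).subgroupOf (Subgroup.centralizer ({d} : Set G))).Normal] (htype : ∃ E : Set (↥(Subgroup.centralizer ({d} : Set G)) ⧸ (Subgroup.zpowers d).subgroupOf (Subgroup.centralizer ({d} : Set G))), Cfsg.IsThreeTranspositionClass E ∧ Cfsg.IsOfTypeM22 _ E) (hinvol : ∃ d' : ↥(Subgroup.centralizer ({d} : Set G)) ⧸ (Subgroup.zpowers d).subgroupOf (Subgroup.centralizer ({d} : Set G)), orderOf d' = 2 ∧ Cfsg.IsQuasisimple ↥(Subgroup.centralizer ({d'} : Set _)) ∧ (∃ (K : Type) (_ : Field K) (_ : Fintype K), Fintype.card K = 4 ∧ ∃ _ : ((Subgroup.zpowers d').subgroupOf (Subgroup.centralizer ({d'} : Set _))).Normal, Nonempty (↥(Subgroup.centralizer ({d'} : Set _)) ⧸ (Subgroup.zpowers d').subgroupOf (Subgroup.centralizer ({d'}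 : Set _)) ≃* Cfsg.PSU 6 K 2)) ∧ ∃ g, g * d' * g⁻¹ ∈ Subgroup.centralizer ({d'} : Set _) ∧ g * d' * g⁻¹ ≠ d') (hnwc : ∃ g : G, g * d * g⁻¹ ∈ Subgroup.centralizer ({d} : Set G) ∧ g * d * g⁻¹ ≠ d) (S : Sylow 2 ↥(Subgroup.centralizer ({d} : Set G))) (A : Subgroup G) (hA : A = (Cfsg.thompsonSubgroupOf 2 (S : Subgroup ↥(Subgroup.centralizer ({d} : Set G)))).map (Subgroup.centralizer ({d} : Set G)).subtype) : Cfsg.IsElementaryAbelian 2 A ∧ Nat.card A = 2 ^ 11 ∧ Set.ncard {x : G | x ∈ A ∧ IsConj d x} = 23 ∧ ∀ x ∈ A, ∀ y ∈ A, IsConj d x → IsConj d y → ∃ n ∈ Subgroup.normalizer (A : Set G), n * x * n⁻¹ = y := by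
  subst hA
  obtain ⟨δ, D, E, hδ, K, W, hall, hval, hperf⟩ := data23 psu62 hd hq htype hnwc
  obtain ⟨B, hB, hTB⟩ := thompson psu62 K W S
  rw [hTB]
  refine ⟨?_, card_AGm hB, ncard23 psu62 K W hδ hall hB, ?_⟩
  · show Cfsg.IsElementaryAbelian 2 (AGm B)
    rw [Cfsg.Agent.Lib.ThompsonJ.elemAb_iff]
    refine ⟨?_, fun b hb => by rw [pow_two]; exact AGm_sq hB b hb⟩
    intro b hb
    rw [Subgroup.mem_centralizer_iff]
    intro c hc
    exact Cfsg.Agent.Lib.H89EA.comm_of_sq (AGm_sq hB) hc hb
  · intro x hx y hy hcx hcy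
    exact conj_trans psu62 K W hB hx hy hcx hcy

end Cfsg.Agent.S5455
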