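import Cfsg.Statements.S5459

set_option autoImplicit false
open Cfsg

namespace Cfsg.Agent.S5459

/-- in a group of odd order every element is a square of a power of itself -/
theorem exists_sq_root {G : Type*} [Group G] [Finite G] (Z : Subgroup G) (hodd : Odd (Nat.card ↥Z)) (z : G)
    (hz : z ∈ Z) : ∃ w ∈ Z, w * w = z := by
  obtain ⟨k, hk⟩ := hodd
  have h1 : z ^ (Nat.card ↥Z) = 1 := by
    have h := pow_card_eq_one' (x := (⟨z, hz⟩ : Z))
    have h2 := congrArg Subtype.val h
    rwa [Subgroup.coe_pow, Subgroup.coe_one] at h2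
  refine ⟨z ^ (k + 1), Z.pow_mem hz _, ?_⟩
  rw [← pow_add]
  have : k + 1 + (k + 1) = Nat.card ↥Z + 1 := by omega
  rw [this, pow_succ, h1, one_mul]

theorem mem_conj {G : Type*} [Group G] {d x : G} : x ∈ conjugatesOf d ↔ ∃ g, g * d * g⁻¹ = x := isConj_iff

theorem commute_conj' {G : Type*} [Group G] {a b : G} (h : Commute a b) (g : G) :
    Commute (g * a * g⁻¹) (g * b * g⁻¹) := by
  show g * a * g⁻¹ * (g * b * g⁻¹) = g * b * g⁻¹ * (g * a * g⁻¹)
  have e := h.eq
  calc g * a * g⁻¹ * (g * b * g⁻¹) = g * (a * b) * g⁻¹ := by group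
    _ = g * b * g⁻¹ * (g * a * g⁻¹) := by rw [e]; group

/-- in a perfect group a supplement of the centre is everything -/
theorem eq_top_of_sup_center {L : Type*} [Group L] (hp : commutator L = ⊤) (K : Subgroup L)
    (h : K ⊔ Subgroup.center L = ⊤) : K = ⊤ := by
  rw [eq_top_iff, ← hp, commutator_eq_closure, Subgroup.closure_le]
  rintro x ⟨a, b, rfl⟩
  have ha : a ∈ K ⊔ Subgroup.center L := h ▸ Subgroup.mem_top a
  have hb : b ∈ K ⊔ Subgroup.center L := h ▸ Subgroup.mem_top b
  rw [Subgroup.mem_sup_of_normal_right] at ha hb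
  obtain ⟨k, hk, z, hz, rfl⟩ := ha
  obtain ⟨k', hk', z', hz', rfl⟩ := hb
  rw [Subgroup.mem_center_iff] at hz hz'
  have : (k * z) * (k' * z') * (k * z)⁻¹ * (k' * z')⁻¹ = k * k' * k⁻¹ * k'⁻¹ := by
    rw [mul_inv_rev, mul_inv_rev]
    calc k * z * (k' * z') * (z⁻¹ * k⁻¹) * (z'⁻¹ * k'⁻¹)
        = k * (z * (k' * z')) * (z⁻¹ * k⁻¹) * (z'⁻¹ * k'⁻¹) := by group
      _ = k * ((k' * z') * z) * (z⁻¹ * k⁻¹) * (z'⁻¹ * k'⁻¹) := by rw [hz (k' * z')]
      _ = k * k' * (z' * k⁻¹) * (z'⁻¹ * k'⁻¹) := by group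
      _ = k * k' * (k⁻¹ * z') * (z'⁻¹ * k'⁻¹) := by rw [hz' k⁻¹]
      _ = k * k' * k⁻¹ * k'⁻¹ := by group
  rw [SetLike.mem_coe, commutatorElement_def, this]
  exact K.mul_mem (K.mul_mem (K.mul_mem hk hk') (K.inv_mem hk)) (K.inv_mem hk')

theorem conj_mem_of_conjugatesOf {G : Type*} [Group G] {d x : G} (hx : x ∈ conjugatesOf d) (g : G) :
    g * x * g⁻¹ ∈ conjugatesOf d := by
  rw [mem_conj] at *
  obtain ⟨c, rfl⟩ := hx
  exact ⟨g * c, by group⟩

/-- Let G be a finite group with a quasisimple normal subgroup L and an involution d such that G is generated by L and d, the centre of L has odd order, and d inverts every element of the centre of L. If the commuting graph on the conjugacy class of the image of d in G modulo the centre of L is connected, then the commuting graph on the conjugacy class of d is connected. -/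
theorem result {G : Type*} [Group G] [Finite G] (L : Subgroup G) [L.Normal] (hL : Cfsg.IsQuasisimple ↥L) (d : G) (hd : orderOf d = 2) (hgen : L ⊔ Subgroup.zpowers d = ⊤) (hodd : Odd (Nat.card ↥(Subgroup.center ↥L))) (hinv : ∀ c ∈ (Subgroup.center ↥L).map L.subtype, d * c * d⁻¹ = c⁻¹) [hn : ((Subgroup.center ↥L).map L.subtype).Normal] (hconn : (Cfsg.commutingGraph (conjugatesOf (QuotientGroup.mk d : G ⧸ (Subgroup.center ↥L).map L.subtype))).Connected) : (Cfsg.commutingGraph (conjugatesOf d)).Connected := by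
  classical
  obtain ⟨Z, hZdef⟩ : ∃ Z : Subgroup G, Z = (Subgroup.center ↥L).map L.subtype := ⟨_, rfl⟩
  have hZodd : Odd (Nat.card ↥Z) := by
    have : Nat.card ↥Z = Nat.card ↥(Subgroup.center ↥L) := by
      rw [hZdef]
      exact Subgroup.card_map_of_injective L.subtype_injective
    rw [this]; exact hodd
  have hZL : Z ≤ L := by
    rw [hZdef]; exact Subgroup.map_subtype_le _
  have hZc : ∀ z ∈ Z, ∀ l ∈ L, l * z = z * l := by
    intro z hz l hl
    rw [hZdef, Subgroup.mem_map] at hz
    obtain ⟨⟨z', hz'⟩, hzc, rfl⟩ := hz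
    rw [Subgroup.mem_center_iff] at hzc
    exact congrArg Subtype.val (hzc ⟨l, hl⟩)
  revert hconn hn hinv
  rw [← hZdef]
  intro hinv hn hconn
  -- every conjugate of `d` inverts `Z`
  have hsq : ∀ x ∈ conjugatesOf d, x * x = 1 := by
    intro x hx
    rw [mem_conj] at hx
    obtain ⟨c, rfl⟩ := hx
    have : d * d = 1 := by rw [← pow_two, ← hd, pow_orderOf_eq_one]
    calc c * d * c⁻¹ * (c * d * c⁻¹) = c * (d * d) * c⁻¹ := by group
      _ = 1 := by rw [this]; group
  have hinvx : ∀ x ∈ conjugatesOf d, ∀ c ∈ Z, x * c * x⁻¹ = c⁻¹ := by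
    intro x hx c hc
    rw [mem_conj] at hx
    obtain ⟨g, rfl⟩ := hx
    have h1 : g⁻¹ * c * g ∈ Z := by
      have := hn.conj_mem c hc g⁻¹
      rwa [inv_inv] at this
    have h2 := hinv _ h1
    calc g * d * g⁻¹ * c * (g * d * g⁻¹)⁻¹ = g * (d * (g⁻¹ * c * g) * d⁻¹) * g⁻¹ := by group
      _ = c⁻¹ := by rw [h2]; group
  -- the conjugate of x by w ∈ Z
  have hconjw : ∀ x ∈ conjugatesOf d, ∀ w ∈ Z, w⁻¹ * x * w = x * (w * w) := by
    intro x hx w hw
    have h := hinvx x hx w hw
    have : x * w = w⁻¹ * x := by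
      have : x * w * x⁻¹ * x = w⁻¹ * x := by rw [h]
      rwa [inv_mul_cancel_right] at this
    calc w⁻¹ * x * w = x * w * w := by rw [← this]
      _ = x * (w * w) := by group
  have hmulmem : ∀ x ∈ conjugatesOf d, ∀ w ∈ Z, x * w ∈ conjugatesOf d := by
    intro x hx w hw
    obtain ⟨v, hv, rfl⟩ := exists_sq_root Z hZodd w hw
    rw [← hconjw x hx v hv]
    have := conj_mem_of_conjugatesOf hx v⁻¹
    rwa [inv_inv] at this
  have hdmem : d ∈ conjugatesOf d := mem_conjugatesOf_self
  -- lifting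
  let π : G → G ⧸ Z := fun x => QuotientGroup.mk x
  have hπmem : ∀ x ∈ conjugatesOf d, π x ∈ conjugatesOf (π d) := by
    intro x hx
    rw [mem_conj] at *
    obtain ⟨c, rfl⟩ := hx
    exact ⟨π c, rfl⟩
  have hlift : ∀ y : conjugatesOf (π d),
      (Cfsg.commutingGraph (conjugatesOf (π d))).Reachable ⟨π d, hπmem d hdmem⟩ y →
      ∃ z : conjugatesOf d, π z = y ∧
        (Cfsg.commutingGraph (conjugatesOf d)).Reachable ⟨d, hdmem⟩ z := by
    intro y hy
    rw [SimpleGraph.reachable_iff_reflTransGen] at hy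
    induction hy with
    | refl => exact ⟨⟨d, hdmem⟩, rfl, SimpleGraph.Reachable.refl _⟩
    | tail _ hadj ih =>
      rename_i b c _
      obtain ⟨z, hz, hr⟩ := ih
      obtain ⟨c, hc⟩ := c
      have hc' := hc
      rw [mem_conj] at hc'
      obtain ⟨g, hg⟩ := hc'
      obtain ⟨g, rfl⟩ := QuotientGroup.mk_surjective g
      set u : G := g * d * g⁻¹ with hu
      have humem : u ∈ conjugatesOf d := conj_mem_of_conjugatesOf hdmem g
      have hπu : π u = c := hg
      rw [Cfsg.commutingGraph, SimpleGraph.fromRel_adj] at hadj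
      obtain ⟨hne, hcomm⟩ := hadj
      have hcomm' : Commute (π (z : G)) (π u) := by
        rw [hz, hπu]
        rcases hcomm with h | h
        · exact h
        · exact h.symm
      -- z u z = u z₀
      have hz0 : ∃ z0 ∈ Z, (z : G) * u * (z : G)⁻¹ = u * z0 := by
        refine ⟨u⁻¹ * ((z : G) * u * (z : G)⁻¹), ?_, by group⟩
        rw [← QuotientGroup.eq]
        have h3 : π (z : G) * π u = π u * π (z : G) := hcomm'
        show π u = π ((z : G) * u * (z : G)⁻¹)
        have h4 : π ((z : G) * u * (z : G)⁻¹) = π (z : G) * π u * (π (z : G))⁻¹ := rfl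
        rw [h4, h3, mul_inv_cancel_right]
      obtain ⟨z0, hz0, hz0'⟩ := hz0
      obtain ⟨w, hw, hww⟩ := exists_sq_root Z hZodd z0 hz0
      have huw : u * w ∈ conjugatesOf d := hmulmem u humem w hw
      have hcz : Commute (z : G) (u * w) := by
        have h5 : (z : G) * w * (z : G)⁻¹ = w⁻¹ := hinvx z z.2 w hw
        have h6 : (z : G) * (u * w) * (z : G)⁻¹ = u * w := by
          calc (z : G) * (u * w) * (z : G)⁻¹ = ((z : G) * u * (z : G)⁻¹) * ((z : G) * w * (z : G)⁻¹) := by group
            _ = u * z0 * w⁻¹ := by rw [hz0', h5]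
            _ = u * w := by rw [← hww]; group
        exact mul_inv_eq_iff_eq_mul.mp h6
      have hπuw : π (u * w) = π u := by
        show (QuotientGroup.mk (u * w) : G ⧸ Z) = QuotientGroup.mk u
        exact QuotientGroup.mk_mul_of_mem u hw
      refine ⟨⟨u * w, huw⟩, hπuw.trans hπu, ?_⟩
      refine hr.trans (SimpleGraph.Adj.reachable ?_)
      rw [Cfsg.commutingGraph, SimpleGraph.fromRel_adj]
      refine ⟨?_, Or.inl hcz⟩
      intro heq
      apply hne
      rw [← Subtype.coe_inj, ← hz, heq]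
      exact hπuw.trans hπu
  -- the component of `d`
  let Δ : Set G := {x | ∃ hx : x ∈ conjugatesOf d, (Cfsg.commutingGraph (conjugatesOf d)).Reachable ⟨d, hdmem⟩ ⟨x, hx⟩}
  -- conjugation preserves reachability
  have hconjR : ∀ (g : G) (x y : conjugatesOf d), (Cfsg.commutingGraph (conjugatesOf d)).Reachable x y →
      (Cfsg.commutingGraph (conjugatesOf d)).Reachable ⟨g * x * g⁻¹, conj_mem_of_conjugatesOf x.2 g⟩
        ⟨g * y * g⁻¹, conj_mem_of_conjugatesOf y.2 g⟩ := by
    intro g x y hxy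
    rw [SimpleGraph.reachable_iff_reflTransGen] at hxy
    induction hxy with
    | refl => exact SimpleGraph.Reachable.refl _
    | tail _ hadj ih =>
      refine ih.trans (SimpleGraph.Adj.reachable ?_)
      rw [Cfsg.commutingGraph, SimpleGraph.fromRel_adj] at *
      obtain ⟨hne, hcomm⟩ := hadj
      refine ⟨?_, ?_⟩
      · intro h
        apply hne
        rw [Subtype.mk.injEq] at h
        exact Subtype.ext (mul_left_cancel (mul_right_cancel h))
      · rcases hcomm with h | h
        · left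
          exact commute_conj' h g
        · right
          exact commute_conj' h g
  -- the stabiliser
  let S : Subgroup G :=
    { carrier := {g | (Cfsg.commutingGraph (conjugatesOf d)).Reachable ⟨d, hdmem⟩ ⟨g * d * g⁻¹, conj_mem_of_conjugatesOf hdmem g⟩}
      one_mem' := by
        show (Cfsg.commutingGraph (conjugatesOf d)).Reachable _ _
        have : (⟨1 * d * 1⁻¹, conj_mem_of_conjugatesOf hdmem 1⟩ : conjugatesOf d) = ⟨d, hdmem⟩ := by
          apply Subtype.ext; simp
        rw [this]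
      mul_mem' := by
        intro a b ha hb
        have h1 := hconjR a _ _ hb
        have h2 := ha.trans h1
        have : (⟨a * b * d * (a * b)⁻¹, conj_mem_of_conjugatesOf hdmem (a * b)⟩ : conjugatesOf d) =
            ⟨a * (b * d * b⁻¹) * a⁻¹, conj_mem_of_conjugatesOf (conj_mem_of_conjugatesOf hdmem b) a⟩ := by
          apply Subtype.ext
          show _ = _
          simp [mul_assoc]
        show (Cfsg.commutingGraph (conjugatesOf d)).Reachable _ _
        rw [this]
        exact h2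
      inv_mem' := by
        intro a ha
        have h1 := (hconjR a⁻¹ _ _ ha).symm
        have : (⟨a⁻¹ * (a * d * a⁻¹) * a⁻¹⁻¹, conj_mem_of_conjugatesOf (conj_mem_of_conjugatesOf hdmem a) a⁻¹⟩ : conjugatesOf d) = ⟨d, hdmem⟩ := by
          apply Subtype.ext
          show _ = _
          simp [mul_assoc]
        simp only [this] at h1
        exact h1 }
  have hSd : ∀ g, g ∈ S ↔ (Cfsg.commutingGraph (conjugatesOf d)).Reachable ⟨d, hdmem⟩ ⟨g * d * g⁻¹, conj_mem_of_conjugatesOf hdmem g⟩ := fun g => Iff.rfl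
  have hΔS : ∀ x ∈ Δ, x ∈ S := by
    rintro x ⟨hx, hr⟩
    rw [hSd]
    have h1 := hconjR x _ _ hr
    have : (⟨x * x * x⁻¹, conj_mem_of_conjugatesOf hx x⟩ : conjugatesOf d) = ⟨x, hx⟩ := by
      apply Subtype.ext; simp
    simp only [this] at h1
    exact hr.trans h1.symm
  -- every conjugate is in `S Z`
  have hDSZ : ∀ x ∈ conjugatesOf d, ∃ s ∈ S, ∃ z ∈ Z, x = s * z := by
    intro x hx
    obtain ⟨y, hy, hr⟩ := hlift ⟨π x, hπmem x hx⟩ (hconn.preconnected _ _)
    have h1 : (QuotientGroup.mk (y : G) : G ⧸ Z) = QuotientGroup.mk x := hy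
    rw [QuotientGroup.eq] at h1
    exact ⟨y, hΔS y ⟨y.2, hr⟩, _, h1, by group⟩
  have hSZ : ∀ g : G, g ∈ Subgroup.normalClosure ({d} : Set G) → g ∈ S ⊔ Z := by
    intro g hg
    have : Subgroup.normalClosure ({d} : Set G) ≤ S ⊔ Z := by
      unfold Subgroup.normalClosure
      rw [Subgroup.closure_le]
      intro x hx
      rw [Group.mem_conjugatesOfSet_iff] at hx
      obtain ⟨a, ha, hax⟩ := hx
      rw [Set.mem_singleton_iff] at ha
      subst ha
      obtain ⟨s, hs, z, hz, rfl⟩ := hDSZ x hax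
      exact Subgroup.mul_mem_sup hs hz
    exact this hg
  -- goal from `S = ⊤`
  have hfin : (∀ g : G, g ∈ S) → (Cfsg.commutingGraph (conjugatesOf d)).Connected := by
    intro hS
    have : Nonempty (conjugatesOf d) := ⟨⟨d, hdmem⟩⟩
    refine SimpleGraph.Connected.mk ?_
    have key : ∀ y : conjugatesOf d, (Cfsg.commutingGraph (conjugatesOf d)).Reachable ⟨d, hdmem⟩ y := by
      rintro ⟨y, hy⟩
      have hy' := hy
      rw [mem_conj] at hy'
      obtain ⟨g, rfl⟩ := hy'
      exact (hSd g).mp (hS g)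
    intro x y
    exact (key x).symm.trans (key y)
  by_cases hZb : Z = ⊥
  · apply hfin
    intro g
    rw [hSd]
    obtain ⟨y, hy, hr⟩ := hlift ⟨π (g * d * g⁻¹), hπmem _ (conj_mem_of_conjugatesOf hdmem g)⟩ (hconn.preconnected _ _)
    have h1 : (QuotientGroup.mk (y : G) : G ⧸ Z) = QuotientGroup.mk (g * d * g⁻¹) := hy
    rw [QuotientGroup.eq, hZb, Subgroup.mem_bot, inv_mul_eq_one] at h1
    have : y = ⟨g * d * g⁻¹, conj_mem_of_conjugatesOf hdmem g⟩ := Subtype.ext h1
    rwa [this] at hr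
  have hperf : commutator ↥L = ⊤ := hL.1.commutator_eq_top
  have hLN : L ≤ Subgroup.normalClosure ({d} : Set G) := by
    by_contra hnot
    set N := Subgroup.normalClosure ({d} : Set G) with hN
    have : N.Normal := Subgroup.normalClosure_normal
    have hs := hL.2
    have hnorm : ((N.subgroupOf L).map (QuotientGroup.mk' (Subgroup.center ↥L))).Normal :=
      Subgroup.Normal.map inferInstance _ (QuotientGroup.mk'_surjective _)
    rcases hs.eq_bot_or_eq_top_of_normal _ hnorm with h | h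
    · -- `N ∩ L ≤ Z(L)`
      have hNZ : ∀ x : ↥L, (x : G) ∈ N → x ∈ Subgroup.center ↥L := by
        intro x hx
        have : (QuotientGroup.mk' (Subgroup.center ↥L)) x ∈ (N.subgroupOf L).map (QuotientGroup.mk' (Subgroup.center ↥L)) :=
          Subgroup.mem_map_of_mem _ hx
        rw [h, Subgroup.mem_bot] at this
        exact (QuotientGroup.eq_one_iff x).mp this
      have hdN : d ∈ N := Subgroup.subset_normalClosure rfl
      -- commutator map
      have hcz : ∀ l : ↥L, ⟨d * l * d⁻¹ * (l : G)⁻¹, L.mul_mem (‹L.Normal›.conj_mem l l.2 d) (L.inv_mem l.2)⟩ ∈ Subgroup.center ↥L := by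
        intro l
        apply hNZ
        show d * l * d⁻¹ * (l : G)⁻¹ ∈ N
        have h1 : (l : G) * d⁻¹ * (l : G)⁻¹ ∈ N := ‹N.Normal›.conj_mem _ (N.inv_mem hdN) _
        have h2 := N.mul_mem hdN h1
        have h3 : d * ((l : G) * d⁻¹ * (l : G)⁻¹) = d * l * d⁻¹ * (l : G)⁻¹ := by group
        rwa [h3] at h2
      -- `d` centralises commutators
      have hcent : ∀ x : ↥L, d * (x : G) * d⁻¹ = x := by
        let T : Subgroup ↥L :=
          { carrier := {x | d * (x : G) * d⁻¹ = x}
            one_mem' := by simp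
            mul_mem' := by
              intro a b ha hb
              show d * ((a : G) * b) * d⁻¹ = (a : G) * b
              have ha' : d * (a : G) * d⁻¹ = a := ha
              have hb' : d * (b : G) * d⁻¹ = b := hb
              calc d * ((a : G) * b) * d⁻¹ = (d * (a : G) * d⁻¹) * (d * (b : G) * d⁻¹) := by group
                _ = _ := by rw [ha', hb']
            inv_mem' := by
              intro a ha
              show d * ((a : G)⁻¹) * d⁻¹ = (a : G)⁻¹
              have ha' : d * (a : G) * d⁻¹ = a := ha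
              calc d * ((a : G)⁻¹) * d⁻¹ = (d * (a : G) * d⁻¹)⁻¹ := by group
                _ = _ := by rw [ha'] }
        have hT : T = ⊤ := by
          rw [eq_top_iff, ← hperf, commutator_eq_closure, Subgroup.closure_le]
          rintro x ⟨a, b, rfl⟩
          rw [commutatorElement_def]
          show d * ((a * b * a⁻¹ * b⁻¹ : ↥L) : G) * d⁻¹ = ((a * b * a⁻¹ * b⁻¹ : ↥L) : G)
          obtain ⟨za, hza⟩ : ∃ z : ↥L, z = ⟨d * a * d⁻¹ * (a : G)⁻¹, L.mul_mem (‹L.Normal›.conj_mem a a.2 d) (L.inv_mem a.2)⟩ := ⟨_, rfl⟩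
          obtain ⟨zb, hzb⟩ : ∃ z : ↥L, z = ⟨d * b * d⁻¹ * (b : G)⁻¹, L.mul_mem (‹L.Normal›.conj_mem b b.2 d) (L.inv_mem b.2)⟩ := ⟨_, rfl⟩
          have hca := hcz a
          have hcb := hcz b
          rw [← hza] at hca
          rw [← hzb] at hcb
          have e1 : d * (a : G) * d⁻¹ = ((za * a : ↥L) : G) := by
            rw [hza]; show _ = d * a * d⁻¹ * (a : G)⁻¹ * a; group
          have e2 : d * (b : G) * d⁻¹ = ((zb * b : ↥L) : G) := by
            rw [hzb]; show _ = d * b * d⁻¹ * (b : G)⁻¹ * b; group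
          have e3 : (za * a) * (zb * b) * (za * a)⁻¹ * (zb * b)⁻¹ = a * b * a⁻¹ * b⁻¹ := by
            rw [Subgroup.mem_center_iff] at hca hcb
            rw [mul_inv_rev, mul_inv_rev]
            rw [← hca a, ← hcb b]
            calc a * za * (b * zb) * (a⁻¹ * za⁻¹) * (b⁻¹ * zb⁻¹)
                = a * (za * (b * zb)) * (a⁻¹ * za⁻¹) * (b⁻¹ * zb⁻¹) := by group
              _ = a * ((b * zb) * za) * (a⁻¹ * za⁻¹) * (b⁻¹ * zb⁻¹) := by rw [hca (b * zb)]
              _ = a * b * zb * (za * a⁻¹) * za⁻¹ * (b⁻¹ * zb⁻¹) := by group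
              _ = a * b * zb * (a⁻¹ * za) * za⁻¹ * (b⁻¹ * zb⁻¹) := by rw [hca a⁻¹]
              _ = a * b * (zb * (a⁻¹ * b⁻¹)) * zb⁻¹ := by group
              _ = a * b * ((a⁻¹ * b⁻¹) * zb) * zb⁻¹ := by rw [hcb (a⁻¹ * b⁻¹)]
              _ = a * b * a⁻¹ * b⁻¹ := by group
          have e4 : d * ((a * b * a⁻¹ * b⁻¹ : ↥L) : G) * d⁻¹ = (d * (a : G) * d⁻¹) * (d * (b : G) * d⁻¹) *
              (d * (a : G) * d⁻¹)⁻¹ * (d * (b : G) * d⁻¹)⁻¹ := by
            show d * ((a : G) * b * (a : G)⁻¹ * (b : G)⁻¹) * d⁻¹ = _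
            group
          rw [e4, e1, e2]
          rw [← e3]
          rfl
        intro x
        have : x ∈ T := hT ▸ Subgroup.mem_top x
        exact this
      apply hZb
      rw [eq_bot_iff]
      intro z hz
      have h1 := hinv z hz
      have h2 := hcent ⟨z, hZL hz⟩
      have h3 : z = z⁻¹ := by rw [← h1]; exact h2.symm
      have h4 : z * z = 1 := by
        calc z * z = z * z⁻¹ := by rw [← h3]
          _ = 1 := mul_inv_cancel z
      rw [Subgroup.mem_bot]
      have h5 : orderOf z ∣ 2 := orderOf_dvd_of_pow_eq_one (by rw [pow_two, h4])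
      have h6 : orderOf z ∣ Nat.card ↥Z := by
        have := orderOf_dvd_natCard (⟨z, hz⟩ : Z)
        rwa [Subgroup.orderOf_mk] at this
      have h7 : orderOf z ∣ 1 := by
        have hc : Nat.Coprime 2 (Nat.card ↥Z) := (Nat.coprime_two_left).mpr hZodd
        have := Nat.dvd_gcd h5 h6
        rwa [hc] at this
      exact orderOf_eq_one_iff.mp (Nat.dvd_one.mp h7)
    · -- `N ∩ L` supplements the centre
      apply hnot
      have h1 : N.subgroupOf L ⊔ Subgroup.center ↥L = ⊤ := by
        have h2 := congrArg (Subgroup.comap (QuotientGroup.mk' (Subgroup.center ↥L))) h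
        rw [Subgroup.comap_map_eq, Subgroup.comap_top, QuotientGroup.ker_mk'] at h2
        exact h2
      have h3 := eq_top_of_sup_center hperf _ h1
      exact Subgroup.subgroupOf_eq_top.mp h3
  -- now `L ≤ S`
  have hLS : L ≤ S := by
    have h1 : S.subgroupOf L ⊔ Subgroup.center ↥L = ⊤ := by
      rw [eq_top_iff]
      intro x _
      have h2 := hSZ x (hLN x.2)
      rw [Subgroup.mem_sup_of_normal_right] at h2
      obtain ⟨s, hs, z, hz, hsz⟩ := h2
      have hsL : s ∈ L := by
        have : s = x * z⁻¹ := by rw [← hsz]; group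
        rw [this]
        exact L.mul_mem x.2 (L.inv_mem (hZL hz))
      have h3 : x = (⟨s, hsL⟩ : ↥L) * ⟨z, hZL hz⟩ := Subtype.ext hsz.symm
      rw [h3]
      refine Subgroup.mul_mem_sup ?_ ?_
      · exact hs
      · rw [Subgroup.mem_center_iff]
        intro l
        exact Subtype.ext (hZc z hz l l.2)
    exact Subgroup.subgroupOf_eq_top.mp (eq_top_of_sup_center hperf _ h1)
  have hdS : d ∈ S := hΔS d ⟨hdmem, SimpleGraph.Reachable.refl _⟩
  apply hfin
  intro g
  have hg : g ∈ L ⊔ Subgroup.zpowers d := hgen ▸ Subgroup.mem_top g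
  have hle : L ⊔ Subgroup.zpowers d ≤ S := sup_le hLS (by rw [Subgroup.zpowers_le]; exact hdS)
  exact hle hg

end Cfsg.Agent.S5459
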