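import Cfsg.Statements.S5462
import Cfsg.Agent.S0283
import Cfsg.Agent.Lib.FiOnly
import Cfsg.Agent.Lib.FiFpf4
-- import your own Cfsg.Agent.* helpers here

set_option autoImplicit false
open Cfsg

namespace Cfsg.Agent.S5462

open Cfsg.Agent.Lib.ThreeTypes Cfsg.Agent.Lib.FiMu Cfsg.Agent.Lib.FiHex

theorem psu62 : PSU62Simple := by
  intro F _ _ hF
  exact Cfsg.Agent.S0283.result (by rw [hF]; norm_num) 6 (by norm_num) (by norm_num)

/-- the image of a class of 3-transpositions under an automorphism -/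
theorem image_class {G : Type*} [Group G] {D : Set G} (hD : Cfsg.IsThreeTranspositionGroup D)
    (hprim : Cfsg.IsPrimitiveUnderConj D) (φ : MulAut G) : IsThreeTranspositionClass (φ '' D) := by
  refine ⟨⟨?_, ?_⟩, ?_, ?_⟩
  · rintro _ ⟨d, hd, rfl⟩
    rw [MulEquiv.orderOf_eq]; exact hD.1.1 d hd
  · rintro _ ⟨d, hd, rfl⟩ _ ⟨e, he, rfl⟩
    rcases hD.1.2 d hd e he with h | h
    · left; rw [← map_mul, ← map_pow, h, map_one]
    · right; rw [← map_mul, ← map_pow, h, map_one]
  · obtain ⟨d, hd, _⟩ := hprim.2.1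
    refine ⟨φ d, ⟨d, hd, rfl⟩, ?_⟩
    ext y
    constructor
    · rintro ⟨e, he, rfl⟩
      obtain ⟨g, hg⟩ := hprim.1 d hd e he
      show IsConj (φ d) (φ e)
      rw [isConj_iff]
      exact ⟨φ g, by rw [← hg, map_mul, map_mul, map_inv]⟩
    · intro hy
      have hy' : IsConj (φ d) y := hy
      rw [isConj_iff] at hy'
      obtain ⟨g, hg⟩ := hy'
      refine ⟨φ.symm g * d * (φ.symm g)⁻¹, hD.2.1 _ d hd, ?_⟩
      rw [map_mul, map_mul, map_inv, MulEquiv.apply_symm_apply]; exact hg
  · have h1 := MonoidHom.map_closure (φ : G →* G) D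
    have h2 : ((φ : G →* G) : G → G) '' D = φ '' D := rfl
    rw [h2] at h1
    rw [← h1, hD.2.2]
    exact Subgroup.map_top_of_surjective _ φ.surjective

/-- Let G be a finite group with trivial centre generated by a conjugation-invariant set D of 3-transpositions on which it acts primitively, such that for some d in D the subgroup generated by the members of D other than d commuting with d has central largest normal 2- and 3-subgroups, and suppose G with D is of type M(22). Then every automorphism of G of order 2 fixes some member of D. -/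
theorem result {G : Type*} [Group G] [Finite G] {D : Set G} (hD : Cfsg.IsThreeTranspositionGroup D) (hprim : Cfsg.IsPrimitiveUnderConj D) (d₀ : G) (hd₀ : d₀ ∈ D) (h3 : Cfsg.pCore 3 ↥(Subgroup.closure {y : G | y ∈ D ∧ y ≠ d₀ ∧ Commute d₀ y}) ≤ Subgroup.center ↥(Subgroup.closure {y : G | y ∈ D ∧ y ≠ d₀ ∧ Commute d₀ y})) (h2 : Cfsg.pCore 2 ↥(Subgroup.closure {y : G | y ∈ D ∧ y ≠ d₀ ∧ Commute d₀ y}) ≤ Subgroup.center ↥(Subgroup.closure {y : G | y ∈ D ∧ y ≠ d₀ ∧ Commute d₀ y})) (h22 : Cfsg.IsOfTypeM22 G D) (φ : MulAut G) (hφ : orderOf φ = 2) : ∃ d ∈ D, φ d = d := by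
  by_contra hcon
  push Not at hcon
  have h1 : φ '' D = D := only_class psu62 hD hprim h22 (image_class hD hprim φ)
  have h2 : φ * φ = 1 := by
    have := pow_orderOf_eq_one φ
    rw [hφ, pow_two] at this
    exact this
  refine no_fpf (φ := φ) (hd22 psu62 hD hprim h22) ⟨fun x => ?_, fun x hx => ?_, fun x hx => hcon x hx⟩
  · have := congrArg (fun g : MulAut G => g x) h2
    exact this
  · rw [← h1]; exact ⟨x, hx, rfl⟩

end Cfsg.Agent.S5462
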