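import Cfsg.Statements.S5466
import Cfsg.Agent.S0283
import Cfsg.Agent.Lib.H89MW4
import Cfsg.Agent.Lib.FiSign73

set_option autoImplicit false
open Cfsg

namespace Cfsg.Agent.S5466

open Cfsg.Agent.Lib.ThreeTypes Cfsg.Agent.Lib.FiMu

theorem psu62 : PSU62Simple := by
  intro F _ _ hF
  exact Cfsg.Agent.S0283.result (by rw [hF]; norm_num) 6 (by norm_num) (by norm_num)

/-- Let G be a finite group with trivial centre generated by a conjugation-invariant set D of 3-transpositions on which it acts primitively, such that for some d in D the subgroup generated by the members of D other than d commuting with d has central largest normal 2- and 3-subgroups, and suppose G with D is of type M(24), and let L be the commutator subgroup of G. Let d₁, d₂, d₃ be distinct pairwise commuting members of D, j their product, E the subgroup generated by d₁ d₂ and d₁ d₃ (a four-group lying in L), CL the centralizer of j in L and K its generalized Fitting subgroup. Then K is quasisimple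 with centre E, K is the centralizer of E in L, K modulo E is isomorphic to the projective special unitary group of dimension 6 over the field with four elements, CL/K is isomorphic to the symmetric group of degree 3, and CL modulo E is isomorphic to the full automorphism group of that unitary group. -/
theorem result {G : Type*} [Group G] [Finite G] {D : Set G} (hD : Cfsg.IsThreeTranspositionGroup D) (hprim : Cfsg.IsPrimitiveUnderConj D) (d₀ : G) (hd₀ : d₀ ∈ D) (h3 : Cfsg.pCore 3 ↥(Subgroup.closure {y : G | y ∈ D ∧ y ≠ d₀ ∧ Commute d₀ y}) ≤ Subgroup.center ↥(Subgroup.closure {y : G | y ∈ D ∧ y ≠ d₀ ∧ Commute d₀ y})) (h2 : Cfsg.pCore 2 ↥(Subgroup.closure {y : G | y ∈ D ∧ y ≠ d₀ ∧ Commute d₀ y}) ≤ Subgroup.center ↥(Subgroup.closure {y : G | y ∈ D ∧ y ≠ d₀ ∧ Commute d₀ y})) (h24 : Cfsg.IsOfTypeM24 G D) (L : Subgroup G) (hL : L = commutator G) (d₁ d₂ d₃ : G) (h₁ : d₁ ∈ D) (h₂ : d₂ ∈ D) (h₃ : d₃ ∈ D) (h12 : d₁ ≠ d₂) (h13 : d₁ ≠ d₃) (h23 : d₂ ≠ d₃) (c12 : Commute d₁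 d₂) (c13 : Commute d₁ d₃) (c23 : Commute d₂ d₃) (E CL K : Subgroup G) (hE : E = Subgroup.closure ({d₁ * d₂, d₁ * d₃} : Set G)) (hCL : CL = L ⊓ Subgroup.centralizer ({d₁ * d₂ * d₃} : Set G)) (hK : K = (Cfsg.generalizedFittingSubgroup ↥CL).map CL.subtype) : Cfsg.IsQuasisimple ↥K ∧ (Subgroup.center ↥K).map K.subtype = E ∧ K = L ⊓ Subgroup.centralizer (E : Set G) ∧ (∃ (_ : (E.subgroupOf K).Normal) (F : Type) (_ : Field F) (_ : Fintype F), Fintype.card F = 4 ∧ Nonempty (↥K ⧸ E.subgroupOf K ≃* Cfsg.PSU 6 F 2)) ∧ ∃ _ : (K.subgroupOf CL).Normal, Nonempty (↥CL ⧸ K.subgroupOf CL ≃* Equiv.Perm (Fin 3)) ∧ E ≤ CL ∧ ∃ (_ : (E.subgroupOf CL).Normal) (F : Type) (_ : Field F) (_ : Fintype F), Fintype.card F = 4 ∧ Nonempty (↥CL ⧸ E.subgroupOf CL ≃* MulAut (Cfsg.PSU 6 F 2)) := by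

  exact Cfsg.Agent.Lib.H89MW.main66 psu62 hD hprim h24 (Cfsg.Agent.Lib.FiGlue.notMem_comm24 psu62 hD hprim h24) L hL d₁ d₂ d₃ h₁ h₂ h₃
    h12 h13 h23 c12 c13 c23 E CL K hE hCL hK

end Cfsg.Agent.S5466
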