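import Cfsg.Statements.S5471
import Cfsg.Agent.S0283
import Cfsg.Agent.Lib.ThreeTrans3

set_option autoImplicit false
open Cfsg

namespace Cfsg.Agent.S5471

open Cfsg.Agent.Lib.ThreeTypes Cfsg.Agent.Lib.ThreeDescent Cfsg.Agent.Lib.ThreeRank3

theorem psu62 : PSU62Simple := by
  intro F _ _ hF
  exact Cfsg.Agent.S0283.result (by rw [hF]; norm_num) 6 (by norm_num) (by norm_num)

/-- Let G be a finite group with trivial centre generated by a conjugation-invariant set D of 3-transpositions on which it acts primitively, such that for some d in D the subgroup generated by the members of D other than d commuting with d has central largest normal 2- and 3-subgroups, and suppose G with D is of type M(23). Let d₁, d₂, d₃ be distinct pairwise commuting members of D and j their product. Then the joint centralizer of d₁, d₂, d₃ is normal in the centralizer of j with quotient isomorphic to the symmetric group of degree 3. -/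
theorem result {G : Type*} [Group G] [Finite G] {D : Set G} (hD : Cfsg.IsThreeTranspositionGroup D) (hprim : Cfsg.IsPrimitiveUnderConj D) (d₀ : G) (hd₀ : d₀ ∈ D) (h3 : Cfsg.pCore 3 ↥(Subgroup.closure {y : G | y ∈ D ∧ y ≠ d₀ ∧ Commute d₀ y}) ≤ Subgroup.center ↥(Subgroup.closure {y : G | y ∈ D ∧ y ≠ d₀ ∧ Commute d₀ y})) (h2 : Cfsg.pCore 2 ↥(Subgroup.closure {y : G | y ∈ D ∧ y ≠ d₀ ∧ Commute d₀ y}) ≤ Subgroup.center ↥(Subgroup.closure {y : G | y ∈ D ∧ y ≠ d₀ ∧ Commute d₀ y})) (h23 : Cfsg.IsOfTypeM23 G D) (d₁ d₂ d₃ : G) (h₁ : d₁ ∈ D) (h₂ : d₂ ∈ D) (h₃ : d₃ ∈ D) (h12 : d₁ ≠ d₂) (h13 : d₁ ≠ d₃) (h23 : d₂ ≠ d₃) (c12 : Commute d₁ d₂) (c13 : Commute d₁ d₃) (c23 : Commute d₂ d₃) (K C : Subgroup G) (hK : K = Subgroup.centralizer ({d₁, d₂, d₃} : Set G)) (hC : C = Subgroup.centralizer ({d₁ * d₂ * d₃} : Set G)) : K ≤ C ∧ ∃ _ : (K.subgroupOf C).Normal, Nonempty (↥C ⧸ K.subgroupOf C ≃* Equiv.Perm (Fin 3)) := by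
  rename_i hM23
  have hV := VTriv_of_prim hD hprim
  have hR : ¬ Lib.ThreeSimple.RelN 6 D := m23_not_RelN psu62 hD (oneClass_of_prim hprim) hV hM23
  have hfac : IsFac D 3 (d₁ * d₂ * d₃) [d₁, d₂, d₃] := by
    refine ⟨by simp [h12, h13, h23], rfl, ?_, ?_, by simp [mul_assoc]⟩
    · intro x hx
      simp only [List.mem_cons, List.not_mem_nil, or_false] at hx
      rcases hx with rfl | rfl | rfl <;> assumption
    · intro x hx y hy
      simp only [List.mem_cons, List.not_mem_nil, or_false] at hx hy
      rcases hx with rfl | rfl | rfl <;> rcases hy with rfl | rfl | rfl <;>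
        first
          | exact Commute.refl _
          | assumption
          | (apply Commute.symm; assumption)
  have hinj : Function.Injective ![d₁, d₂, d₃] := by
    intro i j hij
    fin_cases i <;> fin_cases j <;> simp at hij ⊢ <;>
      first
        | exact h12 hij
        | exact h13 hij
        | exact h23 hij
        | exact h12 hij.symm
        | exact h13 hij.symm
        | exact h23 hij.symm
  have hC' : ∀ g, g ∈ C ↔ g * (d₁ * d₂ * d₃) * g⁻¹ = d₁ * d₂ * d₃ := by
    intro g
    rw [hC, Subgroup.mem_centralizer_singleton_iff]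
    constructor
    · intro h; rw [h]; group
    · intro h
      calc g * (d₁ * d₂ * d₃) = (g * (d₁ * d₂ * d₃) * g⁻¹) * g := by group
        _ = (d₁ * d₂ * d₃) * g := by rw [h]
  apply perm_quotient ![d₁, d₂, d₃] hinj K C
  · intro g hg i
    rw [hC'] at hg
    have hfac' : IsFac D 3 (d₁ * d₂ * d₃) [g * d₁ * g⁻¹, g * d₂ * g⁻¹, g * d₃ * g⁻¹] := by
      refine ⟨?_, rfl, ?_, ?_, ?_⟩
      · simp only [List.nodup_cons, List.mem_cons, List.not_mem_nil, or_false, not_or, List.nodup_nil, not_false_eq_true,
          and_true, mul_left_inj, mul_right_inj]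
        exact ⟨⟨h12, h13⟩, h23⟩
      · intro x hx
        simp only [List.mem_cons, List.not_mem_nil, or_false] at hx
        rcases hx with rfl | rfl | rfl
        · exact hD.2.1 g _ h₁
        · exact hD.2.1 g _ h₂
        · exact hD.2.1 g _ h₃
      · intro x hx y hy
        simp only [List.mem_cons, List.not_mem_nil, or_false] at hx hy
        rcases hx with rfl | rfl | rfl <;> rcases hy with rfl | rfl | rfl <;>
          first
            | exact Commute.refl _
            | exact commute_conj_iff.mpr c12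
            | exact commute_conj_iff.mpr c13
            | exact commute_conj_iff.mpr c23
            | exact commute_conj_iff.mpr c12.symm
            | exact commute_conj_iff.mpr c13.symm
            | exact commute_conj_iff.mpr c23.symm
      · simp only [List.prod_cons, List.prod_nil, mul_one]
        rw [← hg]; group
    have hmem := fac_three hD.1 hD.2.1 hV hR hfac' hfac
    have hi : g * (![d₁, d₂, d₃] i) * g⁻¹ ∈ [d₁, d₂, d₃] := by
      rw [← hmem]
      fin_cases i <;> simp
    simp only [List.mem_cons, List.not_mem_nil, or_false] at hi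
    rcases hi with h | h | h
    · exact ⟨0, h⟩
    · exact ⟨1, h⟩
    · exact ⟨2, h⟩
  · intro g
    rw [hK, Subgroup.mem_centralizer_iff]
    constructor
    · intro h
      have e1 := h d₁ (by simp)
      have e2 := h d₂ (by simp)
      have e3 := h d₃ (by simp)
      have f1 : g * d₁ * g⁻¹ = d₁ := by rw [← e1]; group
      have f2 : g * d₂ * g⁻¹ = d₂ := by rw [← e2]; group
      have f3 : g * d₃ * g⁻¹ = d₃ := by rw [← e3]; group
      refine ⟨?_, ?_⟩
      · rw [hC']
        calc g * (d₁ * d₂ * d₃) * g⁻¹ = (g * d₁ * g⁻¹) * (g * d₂ * g⁻¹) * (g * d₃ * g⁻¹) := by group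
          _ = d₁ * d₂ * d₃ := by rw [f1, f2, f3]
      · intro i
        fin_cases i
        · exact f1
        · exact f2
        · exact f3
    · rintro ⟨_, h⟩ x hx
      have key : ∀ i : Fin 3, (![d₁, d₂, d₃] i) * g = g * (![d₁, d₂, d₃] i) := by
        intro i
        have := h i
        calc (![d₁, d₂, d₃] i) * g = (g * ![d₁, d₂, d₃] i * g⁻¹) * g := by rw [this]
          _ = g * (![d₁, d₂, d₃] i) := by group
      simp only [Set.mem_insert_iff, Set.mem_singleton_iff] at hx
      rcases hx with rfl | rfl | rfl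
      · exact key 0
      · exact key 1
      · exact key 2
  · intro σ
    have ht : IsTrip D d₁ d₂ d₃ := ⟨⟨h₁, h₂, h₃⟩, ⟨h12, h13, h23⟩, ⟨c12, c13, c23⟩⟩
    have hcommd : ∀ i j : Fin 3, Commute (![d₁, d₂, d₃] i) (![d₁, d₂, d₃] j) := by
      intro i j
      fin_cases i <;> fin_cases j <;> simp <;>
        first
          | exact Commute.refl _
          | assumption
          | (apply Commute.symm; assumption)
    have hmemd : ∀ i : Fin 3, ![d₁, d₂, d₃] i ∈ D := by
      intro i
      fin_cases i
      · exact h₁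
      · exact h₂
      · exact h₃
    have ht' : IsTrip D (![d₁, d₂, d₃] (σ 0)) (![d₁, d₂, d₃] (σ 1)) (![d₁, d₂, d₃] (σ 2)) := by
      refine ⟨⟨hmemd _, hmemd _, hmemd _⟩, ⟨?_, ?_, ?_⟩, ⟨hcommd _ _, hcommd _ _, hcommd _ _⟩⟩
      · intro h; have := σ.injective (hinj h); exact absurd this (by decide)
      · intro h; have := σ.injective (hinj h); exact absurd this (by decide)
      · intro h; have := σ.injective (hinj h); exact absurd this (by decide)
    obtain ⟨g, g1, g2, g3⟩ := triple_transitive psu62 hD hprim hM23 ht ht'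
    have hgi : ∀ i : Fin 3, g * (![d₁, d₂, d₃] i) * g⁻¹ = ![d₁, d₂, d₃] (σ i) := by
      intro i
      fin_cases i
      · exact g1
      · exact g2
      · exact g3
    refine ⟨g, ?_, hgi⟩
    rw [hC']
    -- the product of the permuted family
    let s : Fin 3 → G := ![d₁, d₂, d₃]
    have hprod : ∀ τ : Equiv.Perm (Fin 3), s (τ 0) * s (τ 1) * s (τ 2) = s 0 * s 1 * s 2 := by
      intro τ
      have hc : ∀ i j : Fin 3, s i * s j = s j * s i := fun i j => (hcommd i j).eq
      have h01 := hc 0 1
      have h02 := hc 0 2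
      have h12' := hc 1 2
      have hcases : ∀ i j k : Fin 3, i ≠ j → i ≠ k → j ≠ k → s i * s j * s k = s 0 * s 1 * s 2 := by
        intro i j k hij hik hjk
        fin_cases i <;> fin_cases j <;> fin_cases k <;> simp at hij hik hjk ⊢
        · rw [mul_assoc, ← h12', ← mul_assoc]
        · rw [← h01]
        · rw [mul_assoc, ← h02, ← mul_assoc, ← h01]
        · rw [← h02, mul_assoc, ← h12', ← mul_assoc]
        · rw [← h12', mul_assoc, ← h02, ← mul_assoc, ← h01]
      apply hcases
      · exact fun h => absurd (τ.injective h) (by decide)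
      · exact fun h => absurd (τ.injective h) (by decide)
      · exact fun h => absurd (τ.injective h) (by decide)
    have hp := hprod σ
    have e1 : g * (d₁ * d₂ * d₃) * g⁻¹ = (g * d₁ * g⁻¹) * (g * d₂ * g⁻¹) * (g * d₃ * g⁻¹) := by group
    rw [e1, g1, g2, g3]
    exact hp

end Cfsg.Agent.S5471
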