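import Cfsg.Statements.S5473
import Cfsg.Agent.S0283
import Cfsg.Agent.Lib.FiLE5
-- import your own Cfsg.Agent.* helpers here

set_option autoImplicit false
open Cfsg

namespace Cfsg.Agent.S5473

open Cfsg.Agent.Lib.ThreeTypes Cfsg.Agent.Lib.FiMu Cfsg.Agent.Lib.H89MV Cfsg.Agent.Lib.FiLE Cfsg.Agent.Lib.ThreeRank3

theorem psu62 : PSU62Simple := by
  intro F _ _ hF
  exact Cfsg.Agent.S0283.result (by rw [hF]; norm_num) 6 (by norm_num) (by norm_num)

/-- Let G be a finite group with trivial centre generated by a conjugation-invariant set D of 3-transpositions on which it acts primitively, such that for some d in D the subgroup generated by the members of D other than d commuting with d has central largest normal 2- and 3-subgroups, and suppose G with D is of type M(22), and let A be the automorphism group of G. Let d₁, d₂ be distinct commuting members of D and j the inner automorphism of their product. Then the generalized Fitting subgroup Q of the centralizer of j in A is a large extraspecial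 2-subgroup of A of order 2^11 (extraspecial; centralizer equal to its centre; normal in the centralizer of its centre; normalizing no non-trivial odd-order subgroup), and the centralizer of j modulo Q is isomorphic to the full automorphism group of the projective special unitary group of dimension 4 over the field with four elements. -/
theorem result {G : Type*} [Group G] [Finite G] {D : Set G} (hD : Cfsg.IsThreeTranspositionGroup D) (hprim : Cfsg.IsPrimitiveUnderConj D) (d₀ : G) (hd₀ : d₀ ∈ D) (h3 : Cfsg.pCore 3 ↥(Subgroup.closure {y : G | y ∈ D ∧ y ≠ d₀ ∧ Commute d₀ y}) ≤ Subgroup.center ↥(Subgroup.closure {y : G | y ∈ D ∧ y ≠ d₀ ∧ Commute d₀ y})) (h2 : Cfsg.pCore 2 ↥(Subgroup.closure {y : G | y ∈ D ∧ y ≠ d₀ ∧ Commute d₀ y}) ≤ Subgroup.center ↥(Subgroup.closure {y : G | y ∈ D ∧ y ≠ d₀ ∧ Commute d₀ y})) (h22 : Cfsg.IsOfTypeM22 G D) (d₁ d₂ : G) (h₁ : d₁ ∈ D) (h₂ : d₂ ∈ D) (hne : d₁ ≠ d₂) (hc : Commute d₁ d₂) (j : MulAut G) (hj : j = MulAut.conj (d₁ * d₂)) (Q : Subgroup (MulAut G))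 (hQ : Q = (Cfsg.generalizedFittingSubgroup ↥(Subgroup.centralizer ({j} : Set (MulAut G)))).map (Subgroup.centralizer ({j} : Set (MulAut G))).subtype) : Cfsg.IsLargeExtraspecial Q ∧ Nat.card Q = 2 ^ 11 ∧ Q ≤ Subgroup.centralizer ({j} : Set (MulAut G)) ∧ ∃ (_ : (Q.subgroupOf (Subgroup.centralizer ({j} : Set (MulAut G)))).Normal) (F : Type) (_ : Field F) (_ : Fintype F), Fintype.card F = 4 ∧ Nonempty (↥(Subgroup.centralizer ({j} : Set (MulAut G))) ⧸ Q.subgroupOf (Subgroup.centralizer ({j} : Set (MulAut G))) ≃* MulAut (Cfsg.PSU 4 F 2)) := by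
  have h₂' : d₂ ∈ Dd D d₁ := ⟨h₂, hne.symm, hc⟩
  subst hj
  obtain ⟨F, iF, iFt, iCh, hF, π, C⟩ := exists_ctx psu62 hD hprim h22 h₁ h₂'
  have hK := card_KK psu62 hD hprim h22 h₁ h₂'
  have hA := autD psu62 hD hprim h22
  obtain ⟨Θ, hΘ⟩ := exists_Theta h22.1 hA C hK
  have hg := gen_CA psu62 hD hprim h22 C hK hΘ
  have hQ' := exists_Q psu62 hD hprim h22 C hK hΘ
  have hsurj : Function.Surjective Θ := by
    intro s
    obtain ⟨c, hc⟩ := Theta_surj h22.1 hA C hK hΘ s
    exact ⟨_, hc⟩
  have hQ2 : Q = Θ.ker.map (CA d₁ d₂).subtype := by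
    rw [hQ]
    exact congrArg (fun K => Subgroup.map (CA d₁ d₂).subtype K) hg
  subst hQ2
  refine ⟨large psu62 hD hprim h22 C hK hQ', card_Q psu62 hD hprim h22 C hK hQ', Subgroup.map_subtype_le _, ?_⟩
  have e : (Θ.ker.map (CA d₁ d₂).subtype).subgroupOf (CA d₁ d₂) = Θ.ker :=
    Subgroup.comap_map_eq_self_of_injective (CA d₁ d₂).subtype_injective _
  have hn : ((Θ.ker.map (CA d₁ d₂).subtype).subgroupOf (CA d₁ d₂)).Normal := by
    rw [e]; exact MonoidHom.normal_ker Θ
  refine ⟨hn, F, iF, iFt, by rw [hF]; norm_num, ?_⟩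
  exact ⟨(QuotientGroup.quotientMulEquivOfEq e).trans (QuotientGroup.quotientKerEquivOfSurjective Θ hsurj)⟩

end Cfsg.Agent.S5473
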