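import Cfsg.Statements.S5514
import Cfsg.Agent.Lib.OThree12

set_option autoImplicit false
open Cfsg

namespace Cfsg.Agent.S5514

/-- The commutator subgroup of the isometry group of a non-degenerate 7-dimensional quadratic form over the field with three elements, modulo its (trivial) centre — the simple group Ω(7, 3) — has exactly seven conjugacy classes of subgroups of order 3. -/
theorem result : ∃ Y : Fin 7 → Subgroup (Cfsg.POmega (ZMod 3) (Cfsg.quadFormOdd 3 (ZMod 3))), (∀ i, Nat.card (Y i) = 3) ∧ (∀ i j, (∃ g : Cfsg.POmega (ZMod 3) (Cfsg.quadFormOdd 3 (ZMod 3)), (Y i).map (MulAut.conj g).toMonoidHom = Y j) → i = j) ∧ (∀ X : Subgroup (Cfsg.POmega (ZMod 3) (Cfsg.quadFormOdd 3 (ZMod 3))), Nat.card X = 3 → ∃ i, ∃ g : Cfsg.POmega (ZMod 3) (Cfsg.quadFormOdd 3 (ZMod 3)), X.map (MulAut.conj g).toMonoidHom = Y i) := by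
  exact Cfsg.Agent.Lib.OThree.reps_POmega7.classes

end Cfsg.Agent.S5514
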