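import Cfsg.Statements.S5515
import Cfsg.Agent.Lib.OutUniq
-- import your own Cfsg.Agent.* helpers here

set_option autoImplicit false
open Cfsg

namespace Cfsg.Agent.S5515

/-- Let G and G′ be finite groups whose generalized Fitting subgroups are isomorphic to PΩ⁺(8, 3) (the commutator subgroup of the isometry group of the hyperbolic quadratic form in dimension 8 over the field with three elements, modulo its centre) with quotients isomorphic to the symmetric group of degree 3. Then G and G′ are isomorphic. -/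
theorem result {G G' : Type*} [Group G] [Finite G] [Group G'] [Finite G'] (hF : Nonempty (↥(Cfsg.generalizedFittingSubgroup G) ≃* Cfsg.POmega (ZMod 3) (Cfsg.quadFormPlus 4 (ZMod 3)))) (hF' : Nonempty (↥(Cfsg.generalizedFittingSubgroup G') ≃* Cfsg.POmega (ZMod 3) (Cfsg.quadFormPlus 4 (ZMod 3)))) [hn : (Cfsg.generalizedFittingSubgroup G).Normal] [hn' : (Cfsg.generalizedFittingSubgroup G').Normal] (hq : Nonempty (G ⧸ Cfsg.generalizedFittingSubgroup G ≃* Equiv.Perm (Fin 3))) (hq' : Nonempty (G' ⧸ Cfsg.generalizedFittingSubgroup G' ≃* Equiv.Perm (Fin 3))) : Nonempty (G ≃* G') := by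
  obtain ⟨e⟩ := hF
  obtain ⟨e'⟩ := hF'
  haveI : Fact (Nat.Prime 3) := ⟨by norm_num⟩
  have hc : Fintype.card (ZMod 3) = 3 ^ 1 := by rw [ZMod.card]; rfl
  obtain ⟨e4⟩ := Lib.D4Out.out_po_odd hc (by norm_num)
  haveI : Unique (Multiplicative (ZMod 1)) := by
    unfold Multiplicative
    infer_instance
  have e5 : Out (POmega (ZMod 3) (quadFormPlus 4 (ZMod 3))) ≃* Equiv.Perm (Fin 4) :=
    e4.trans MulEquiv.prodUnique
  have hL : Subgroup.center (POmega (ZMod 3) (quadFormPlus 4 (ZMod 3))) = ⊥ := by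
    obtain ⟨e0⟩ := Lib.ChevOrth.d4 (ZMod 3)
    have h0 := Lib.StPres.center_group (K := ZMod 3) (Lib.D4Out.G : Lib.ChevGood.Good Cfsg.Lie.chevD4)
    rw [eq_bot_iff]
    intro x hx
    obtain ⟨y, rfl⟩ := e0.surjective x
    have : y ∈ Subgroup.center _ := by
      rw [Subgroup.mem_center_iff] at hx ⊢
      intro z
      have := hx (e0 z)
      rw [← map_mul, ← map_mul] at this
      exact e0.injective this
    rw [h0, Subgroup.mem_bot] at this
    rw [this, map_one]
    exact Subgroup.mem_bot.2 rfl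
  have h6 : ∀ {X : Type _} [Group X] (N : Subgroup X) [N.Normal], Nonempty (X ⧸ N ≃* Equiv.Perm (Fin 3)) →
      N.index = 6 := by
    rintro X _ N _ ⟨f⟩
    rw [Subgroup.index, Nat.card_congr f.toEquiv, Nat.card_eq_fintype_card, Fintype.card_perm, Fintype.card_fin]
    rfl
  have h6' : ∀ {X : Type _} [Group X] (N : Subgroup X) [N.Normal], Nonempty (X ⧸ N ≃* Equiv.Perm (Fin 3)) →
      N.index = 6 := by
    rintro X _ N _ ⟨f⟩
    rw [Subgroup.index, Nat.card_congr f.toEquiv, Nat.card_eq_fintype_card, Fintype.card_perm, Fintype.card_fin]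
    rfl
  exact Lib.OutUniq.uniq hL e5 e e' (h6 _ hq) (h6' _ hq')

end Cfsg.Agent.S5515
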