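import Cfsg.Statements.S5517
import Cfsg.Agent.Lib.FiIso22

set_option autoImplicit false
open Cfsg

namespace Cfsg.Agent.S5517

/-- Let G be a finite group with trivial centre generated by a conjugation-invariant set D of 3-transpositions on which it acts primitively, such that for some d in D the subgroup generated by the members of D other than d commuting with d has central largest normal 2- and 3-subgroups, and suppose G with D is of type M(22). Then G has a subgroup L generated by the members of D it contains and isomorphic to Ω(7, 3) (the commutator subgroup of the isometry group of a non-degenerate 7-dimensional quadratic form over the field with three elements, modulo its centre), and every Sylow 3-subgroup of L is a Sylow 3-subgroup of G. -/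
theorem result {G : Type*} [Group G] [Finite G] {D : Set G} (hD : Cfsg.IsThreeTranspositionGroup D) (hprim : Cfsg.IsPrimitiveUnderConj D) (d₀ : G) (hd₀ : d₀ ∈ D) (h3 : Cfsg.pCore 3 ↥(Subgroup.closure {y : G | y ∈ D ∧ y ≠ d₀ ∧ Commute d₀ y}) ≤ Subgroup.center ↥(Subgroup.closure {y : G | y ∈ D ∧ y ≠ d₀ ∧ Commute d₀ y})) (h2 : Cfsg.pCore 2 ↥(Subgroup.closure {y : G | y ∈ D ∧ y ≠ d₀ ∧ Commute d₀ y}) ≤ Subgroup.center ↥(Subgroup.closure {y : G | y ∈ D ∧ y ≠ d₀ ∧ Commute d₀ y})) (h22 : Cfsg.IsOfTypeM22 G D) : ∃ L : Subgroup G, Cfsg.IsDSubgroup D L ∧ Nonempty (↥L ≃* Cfsg.POmega (ZMod 3) (Cfsg.quadFormOdd 3 (ZMod 3))) ∧ ∀ P : Sylow 3 ↥L, ∃ P' : Sylow 3 G, (P : Subgroup ↥L).map L.subtype = (P' : Subgroup G) := by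
  obtain ⟨L, hL, hidx, hiso⟩ := Cfsg.Agent.Lib.FiIso22.exists_o7 hD hprim h22
  have : Fact (Nat.Prime 3) := ⟨by norm_num⟩
  exact ⟨L, hL, hiso, fun P => Cfsg.Agent.Lib.FiIso22.sylow_map (by rw [hidx]; norm_num) P⟩

end Cfsg.Agent.S5517
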