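import Cfsg.Statements.S5518
import Cfsg.Agent.S0283
import Cfsg.Agent.Lib.FiTh6

set_option autoImplicit false
open Cfsg

namespace Cfsg.Agent.S5518


open Cfsg.Agent.Lib.ThreeTypes Cfsg.Agent.Lib.FiMu Cfsg.Agent.Lib.FiPair Cfsg.Agent.Lib.ThreeRank3

theorem psu62 : PSU62Simple := by
  intro F _ _ hF
  exact Cfsg.Agent.S0283.result (by rw [hF]; norm_num) 6 (by norm_num) (by norm_num)

theorem gen13 {G : Type*} [Group G] [Finite G] (B : Subgroup G) (hB : Nat.card ↥B = 13) : ∃ g : G, orderOf g = 13 ∧ B = Subgroup.zpowers g := by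
  haveI : Fact (Nat.Prime 13) := ⟨by norm_num⟩
  obtain ⟨g, hg⟩ := exists_prime_orderOf_dvd_card' 13 (show 13 ∣ Nat.card ↥B by rw [hB])
  refine ⟨g, by rw [Subgroup.orderOf_coe, hg], ?_⟩
  symm
  apply Subgroup.eq_of_le_of_card_ge
  · rw [Subgroup.zpowers_le]; exact g.2
  · rw [hB, Nat.card_zpowers, Subgroup.orderOf_coe, hg]


/-- Let G be a finite group with trivial centre generated by a conjugation-invariant set D of 3-transpositions on which it acts primitively, such that for some d in D the subgroup generated by the members of D other than d commuting with d has central largest normal 2- and 3-subgroups, and suppose G with D is of type M(24). Then any two subgroups of order 13 are conjugate; and there are members a, b, c, d of D generating the direct product T of two symmetric groups of degree 3 (a, d non-commuting; b, c non-commuting; b and c commuting with a and d) whose centralizer K is isomorphic to the Chevalley group G₂(3), such that for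 every subgroup B of K of order 13: the normalizer of B lies in the normalizer of K, the normalizer F of B in K is a Frobenius group of order 78 with kernel B (order 78, centralizer of B in it equal to B), and the subgroup generated by F and T has index 2 in the normalizer of B. -/
theorem result {G : Type*} [Group G] [Finite G] {D : Set G} (hD : Cfsg.IsThreeTranspositionGroup D) (hprim : Cfsg.IsPrimitiveUnderConj D) (d₀ : G) (hd₀ : d₀ ∈ D) (h3 : Cfsg.pCore 3 ↥(Subgroup.closure {y : G | y ∈ D ∧ y ≠ d₀ ∧ Commute d₀ y}) ≤ Subgroup.center ↥(Subgroup.closure {y : G | y ∈ D ∧ y ≠ d₀ ∧ Commute d₀ y})) (h2 : Cfsg.pCore 2 ↥(Subgroup.closure {y : G | y ∈ D ∧ y ≠ d₀ ∧ Commute d₀ y}) ≤ Subgroup.center ↥(Subgroup.closure {y : G | y ∈ D ∧ y ≠ d₀ ∧ Commute d₀ y})) (h24 : Cfsg.IsOfTypeM24 G D) : (∀ X Y : Subgroup G, Nat.card X = 13 → Nat.card Y = 13 → ∃ g : G, X.map (MulAut.conj g).toMonoidHom = Y) ∧ ∃ (a b c d : G) (T K : Subgroup G), (∀ x ∈ [a, b, c, d], x ∈ D)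 ∧ ¬ Commute a d ∧ ¬ Commute b c ∧ Commute a b ∧ Commute a c ∧ Commute d b ∧ Commute d c ∧ T = Subgroup.closure ({a, b, c, d} : Set G) ∧ K = Subgroup.centralizer (T : Set G) ∧ Nonempty (↥K ≃* ↥(Cfsg.Lie.chevG2.group (ZMod 3))) ∧ ∀ B : Subgroup G, B ≤ K → Nat.card B = 13 → Subgroup.normalizer ((B : Subgroup G) : Set G) ≤ Subgroup.normalizer ((K : Subgroup G) : Set G) ∧ Nat.card ↥(K ⊓ Subgroup.normalizer ((B : Subgroup G) : Set G)) = 78 ∧ K ⊓ Subgroup.centralizer ((B : Subgroup G) : Set G) = B ∧ (((K ⊓ Subgroup.normalizer ((B : Subgroup G) : Set G)) ⊔ T).subgroupOf (Subgroup.normalizer ((B : Subgroup G) : Set G))).index = 2 := by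

  refine ⟨fun X Y hX hY => conj13 psu62 hD hprim h24 X Y hX hY, ?_⟩
  obtain ⟨a, ha, d, hd, hnc⟩ : ∃ a ∈ D, ∃ d ∈ D, ¬ Commute a d := by
    obtain ⟨_, d, hd, c, hc, hdc, _⟩ := h24
    exact ⟨d, hd, c, hc, hdc⟩
  obtain ⟨L', _⟩ := full24 psu62 hD hprim h24
  have P := pr24 psu62 hD hprim h24
  have hKc : KK D a d = Subgroup.centralizer ({a, d} : Set G) := KK_cent L' P ha hd hnc
  obtain ⟨H, hN, hnor, φ, hφ, hker⟩ := pack24 psu62 hD hprim h24 ha hd hnc
  obtain ⟨p₂, hp₂, q₂, hq₂, hφ₂, ⟨e₂⟩⟩ := Lib.FiG2.exists_g2 H hN φ hφ hker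
  have hin : ∀ x : ↥(KK D a d), (x : G) ∈ Dd D a ∩ Dd D d → (x : G) ∈ D ∧ Commute a (x : G) ∧ Commute d (x : G) :=
    fun x hx => ⟨hx.1.1, hx.1.2.2, hx.2.2.2⟩
  have hnc₂ : ¬ Commute p₂ q₂ := fun h => hφ₂ (H.comm_phi φ hφ hp₂ hq₂ h)
  have hnc₂' : ¬ Commute (p₂ : G) (q₂ : G) := fun h => hnc₂ (Subtype.ext h.eq)
  obtain ⟨b1, b2, b3⟩ := hin _ hp₂
  obtain ⟨c1, c2, c3⟩ := hin _ hq₂
  have hiso : Nonempty (↥(Subgroup.centralizer (Subgroup.closure ({a, (p₂ : G), (q₂ : G), d} : Set G) : Set G)) ≃*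
      ↥(Cfsg.Lie.chevG2.group (ZMod 3))) := by
    rw [cent_set]
    have hc4 := cent4 hKc p₂ q₂
    exact ⟨((MulEquiv.subgroupCongr hc4.symm).trans (Subgroup.equivMapOfInjective _ _ (KK D a d).subtype_injective).symm).trans e₂⟩
  refine ⟨a, p₂, q₂, d, Subgroup.closure ({a, (p₂ : G), (q₂ : G), d} : Set G), _, ?_, hnc, hnc₂', b2, c2, b3, c3, rfl, rfl, hiso, ?_⟩
  · intro x hx
    simp only [List.mem_cons, List.not_mem_nil, or_false] at hx
    rcases hx with rfl | rfl | rfl | rfl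
    · exact ha
    · exact b1
    · exact c1
    · exact hd
  · intro B hBK hB
    obtain ⟨g, hg, hBg⟩ := gen13 B hB
    subst hBg
    have hgK := hBK (Subgroup.mem_zpowers g)
    obtain ⟨g1, g2, g3, g4⟩ := mem_Kc.mp hgK
    have C : Cx D g a d p₂ q₂ := ⟨ha, hd, b1, c1, hnc, hnc₂', b2, c2, b3, c3, g1, g4, g2, g3, hg⟩
    have hcent : Subgroup.centralizer (Subgroup.closure ({a, (p₂ : G), (q₂ : G), d} : Set G) : Set G) ⊓
        Subgroup.centralizer ((Subgroup.zpowers g : Subgroup G) : Set G) = Subgroup.zpowers g := by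
      apply le_antisymm
      · intro x hx
        obtain ⟨x1, x2, x3, x4⟩ := mem_Kc.mp hx.1
        have hxg : Commute x g := (Subgroup.mem_centralizer_iff.mp hx.2 g (Subgroup.mem_zpowers g)).symm
        have hxK : x ∈ KK D a d := P.full a ha d hd hnc x x1 x4
        have hgK' : g ∈ KK D a d := P.full a ha d hd hnc g g1 g4
        have hφx : φ ⟨x, hxK⟩ = 1 := by
          have k1 : φ p₂ * φ ⟨x, hxK⟩ = φ ⟨x, hxK⟩ * φ p₂ := by
            rw [← map_mul, ← map_mul]; congr 1; exact Subtype.ext x2.eq.symm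
          have k2 : φ q₂ * φ ⟨x, hxK⟩ = φ ⟨x, hxK⟩ * φ q₂ := by
            rw [← map_mul, ← map_mul]; congr 1; exact Subtype.ext x3.eq.symm
          rcases d3g _ _ (H.phi_tr φ hφ hp₂) k1 with h1 | h1
          · exact h1
          · rcases d3g _ _ (H.phi_tr φ hφ hq₂) k2 with h2 | h2
            · exact h2
            · exact absurd (h1.symm.trans h2) hφ₂
        obtain ⟨j, hj⟩ := Lib.FiTh.cent_zp H hN φ hφ hker (g := ⟨g, hgK'⟩) (x := ⟨x, hxK⟩) (by rw [Subgroup.orderOf_mk, hg]) hφx (Subtype.ext hxg.eq)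
        exact ⟨j, congrArg Subtype.val hj⟩
      · intro x hx
        refine ⟨hBK hx, Subgroup.mem_centralizer_iff.mpr ?_⟩
        intro y hy
        obtain ⟨i, rfl⟩ := hx
        obtain ⟨j, rfl⟩ := hy
        exact (Commute.refl g).zpow_zpow j i
    have hKcard : Nat.card ↥(Subgroup.centralizer (Subgroup.closure ({a, (p₂ : G), (q₂ : G), d} : Set G) : Set G)) = 4245696 := by
      obtain ⟨e⟩ := hiso
      rw [Nat.card_congr e.toEquiv, Lib.FiG2.card_g2]
    exact ⟨C.normK psu62 hD hprim h24, card78 hBK hKcard hB hcent, hcent, C.index_two psu62 hD hprim h24⟩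

end Cfsg.Agent.S5518
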