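import Cfsg.Statements.S5520
import Cfsg.Agent.Lib.U43J

set_option autoImplicit false
open Cfsg

namespace Cfsg.Agent.S5520

open Cfsg.Agent.Lib.U43 Cfsg.Agent.Lib in
/-- the statement for a group -/
def Stm (F9 : Type) [Field F9] (H : Type) [Group H] : Prop :=
  ∃ K : ZMod 3 → Subgroup H, (∀ l, Good F9 (K l)) ∧
    (∀ l m, (∃ g : H, (K l).map (MulAut.conj g).toMonoidHom = K m) → l = m) ∧
    ∀ L : Subgroup H, Good F9 L → ∃ g : H, ∃ l, L.map (MulAut.conj g).toMonoidHom = K l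

open Cfsg.Agent.Lib.U43 Cfsg.Agent.Lib in
theorem stm_K4 (F9 : Type) [Field F9] [Fintype F9] (hF9 : Fintype.card F9 = 9) : Stm F9 (SU 6 K4.K4 2) :=
  ⟨KK, good_KK F9 hF9, fun _ _ ⟨_, h⟩ => not_conj h, fun _ h => classify hF9 h⟩

theorem map_conj {H H' : Type} [Group H] [Group H'] (φ : H ≃* H') (K : Subgroup H) (g : H) :
    (K.map (MulAut.conj g).toMonoidHom).map φ.toMonoidHom = (K.map φ.toMonoidHom).map (MulAut.conj (φ g)).toMonoidHom := by
  rw [Subgroup.map_map, Subgroup.map_map]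
  congr 1
  ext x : 1
  change φ (g * x * g⁻¹) = φ g * φ x * (φ g)⁻¹
  rw [map_mul, map_mul, map_inv]

open Cfsg.Agent.Lib.U43 Cfsg.Agent.Lib in
theorem Stm.transport {F9 : Type} [Field F9] {H H' : Type} [Group H] [Group H'] (φ : H ≃* H') (h : Stm F9 H) : Stm F9 H' := by
  obtain ⟨K, h1, h2, h3⟩ := h
  have hb : ∀ K : Subgroup H, (K.map φ.toMonoidHom).map φ.symm.toMonoidHom = K := by
    intro K
    rw [Subgroup.map_map]
    have : φ.symm.toMonoidHom.comp φ.toMonoidHom = MonoidHom.id H := by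
      ext x
      exact φ.symm_apply_apply x
    rw [this, Subgroup.map_id]
  have hb' : ∀ K : Subgroup H', (K.map φ.symm.toMonoidHom).map φ.toMonoidHom = K := by
    intro K
    rw [Subgroup.map_map]
    have : φ.toMonoidHom.comp φ.symm.toMonoidHom = MonoidHom.id H' := by
      ext x
      exact φ.apply_symm_apply x
    rw [this, Subgroup.map_id]
  refine ⟨fun l => (K l).map φ.toMonoidHom, fun l => (h1 l).congr ((K l).equivMapOfInjective _ φ.injective), ?_, ?_⟩
  · rintro l m ⟨g, hg⟩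
    apply h2
    refine ⟨φ.symm g, ?_⟩
    have h4 := congrArg (fun L => Subgroup.map φ.symm.toMonoidHom L) hg
    beta_reduce at h4
    rw [map_conj φ.symm, hb, hb] at h4
    exact h4
  · intro L hL
    obtain ⟨g, l, hg⟩ := h3 (L.map φ.symm.toMonoidHom) (hL.congr (L.equivMapOfInjective _ φ.symm.injective))
    refine ⟨φ g, l, ?_⟩
    have h4 := congrArg (fun L => Subgroup.map φ.toMonoidHom L) hg
    beta_reduce at h4
    rw [map_conj φ, hb'] at h4
    exact h4

/-- In the special unitary group of dimension 6 over the field with four elements (determinant-one matrices preserving the standard Hermitian form), the subgroups K whose centre has order 3 with K modulo its centre isomorphic to the projective special unitary group of dimension 4 over the field with nine elements fall into exactly three conjugacy classes. -/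
theorem result (F : Type) [Field F] [Fintype F] (hF : Fintype.card F = 4) (F9 : Type) [Field F9] [Fintype F9] (hF9 : Fintype.card F9 = 9) : ∃ K₁ K₂ K₃ : Subgroup ↥(Cfsg.SU 6 F 2), (∀ K ∈ [K₁, K₂, K₃], Nat.card ↥(Subgroup.center ↥K) = 3 ∧ Nonempty (↥K ⧸ Subgroup.center ↥K ≃* Cfsg.PSU 4 F9 3)) ∧ (¬ ∃ g : ↥(Cfsg.SU 6 F 2), K₁.map (MulAut.conj g).toMonoidHom = K₂) ∧ (¬ ∃ g : ↥(Cfsg.SU 6 F 2), K₁.map (MulAut.conj g).toMonoidHom = K₃) ∧ (¬ ∃ g : ↥(Cfsg.SU 6 F 2), K₂.map (MulAut.conj g).toMonoidHom = K₃) ∧ ∀ K : Subgroup ↥(Cfsg.SU 6 F 2), Nat.card ↥(Subgroup.center ↥K) = 3 → Nonempty (↥K ⧸ Subgroup.center ↥K ≃* Cfsg.PSU 4 F9 3) → ∃ g : ↥(Cfsg.SU 6 F 2), K.map (MulAut.conj g).toMonoidHom = K₁ ∨ K.map (MulAut.conj g).toMonoidHom = K₂ ∨ K.map (MulAut.conj g).toMonoidHom = K₃ := by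
  obtain ⟨ε⟩ := Cfsg.Agent.Lib.K4.exists_equiv F hF
  obtain ⟨K, h1, h2, h3⟩ := (stm_K4 F9 hF9).transport (Cfsg.Agent.Lib.SUTransport.suEquiv ε 6 2).symm
  refine ⟨K 0, K 1, K 2, ?_, fun h => absurd (h2 _ _ h) (by decide), fun h => absurd (h2 _ _ h) (by decide),
    fun h => absurd (h2 _ _ h) (by decide), ?_⟩
  · intro L hL
    simp only [List.mem_cons, List.not_mem_nil, or_false] at hL
    rcases hL with rfl | rfl | rfl
    · exact h1 0
    · exact h1 1
    · exact h1 2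
  · intro L hL1 hL2
    obtain ⟨g, l, hl⟩ := h3 L ⟨hL1, hL2⟩
    refine ⟨g, ?_⟩
    have hl3 : ∀ l : ZMod 3, l = 0 ∨ l = 1 ∨ l = 2 := by decide
    rcases hl3 l with rfl | rfl | rfl
    · exact Or.inl hl
    · exact Or.inr (Or.inl hl)
    · exact Or.inr (Or.inr hl)

end Cfsg.Agent.S5520
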