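import Cfsg.Statements.S5541

set_option autoImplicit false
open Cfsg

namespace Cfsg.Agent.S5541

variable {H : Type*} [Group H] {U : Type*} [AddCommGroup U] [Module ℝ U] [FiniteDimensional ℝ U]

theorem nondeg (ρ : Representation ℝ H U) (hirr : ∀ W : Submodule ℝ U, (∀ g : H, W.map (ρ g) ≤ W) → W = ⊥ ∨ W = ⊤)
    (B : LinearMap.BilinForm ℝ U) (hB0 : B ≠ 0)
    (hBi : ∀ (g : H) (u v : U), B (ρ g u) (ρ g v) = B u v) : LinearMap.ker B = ⊥ := by
  have key : ∀ g : H, (LinearMap.ker B).map (ρ g) ≤ LinearMap.ker B := by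
    intro g
    rintro _ ⟨u, hu, rfl⟩
    rw [SetLike.mem_coe, LinearMap.mem_ker] at hu
    rw [LinearMap.mem_ker]
    ext v
    have h1 := hBi g u (ρ g⁻¹ v)
    rw [hu] at h1
    have h2 : ρ g (ρ g⁻¹ v) = v := by
      rw [← Module.End.mul_apply, ← map_mul, mul_inv_cancel, map_one, Module.End.one_apply]
    rw [h2] at h1
    rw [h1]
    rfl
  rcases hirr (LinearMap.ker B) key with h | h
  · exact h
  · exact absurd (LinearMap.ker_eq_top.1 h) hB0

theorem result {H : Type*} [Group H] {U : Type*} [AddCommGroup U] [Module ℝ U] [FiniteDimensional ℝ U] (ρ : Representation ℝ H U) (hirr : ∀ W : Submodule ℝ U, (∀ g : H, W.map (ρ g) ≤ W) → W = ⊥ ∨ W = ⊤) (B : LinearMap.BilinForm ℝ U) (hB0 : B ≠ 0) (hBs : ∀ u v, B u v = B v u) (hBi : ∀ (g : H) (u v : U), B (ρ g u) (ρ g v) = B u v) : (∃ m : U →ₗ[ℝ] U →ₗ[ℝ] U, m ≠ 0 ∧ (∀ u v, m u v = m v u) ∧ (∀ (g : H) (u v : U), m (ρ g u) (ρ g v) = ρ g (m u v)) ∧ ∀ m' : U →ₗ[ℝ] U →ₗ[ℝ] U,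 (∀ (g : H) (u v : U), m' (ρ g u) (ρ g v) = ρ g (m' u v)) → ∃ c : ℝ, m' = c • m) ↔ (∃ t : U →ₗ[ℝ] U →ₗ[ℝ] U →ₗ[ℝ] ℝ, t ≠ 0 ∧ (∀ u v w, t u v w = t v u w ∧ t u v w = t u w v) ∧ (∀ (g : H) (u v w : U), t (ρ g u) (ρ g v) (ρ g w) = t u v w) ∧ ∀ t' : U →ₗ[ℝ] U →ₗ[ℝ] U →ₗ[ℝ] ℝ, (∀ (g : H) (u v w : U), t' (ρ g u) (ρ g v) (ρ g w) = t' u v w) → ∃ c : ℝ, t' = c • t) := by
  have hker := nondeg ρ hirr B hB0 hBi
  have hinj : Function.Injective B := LinearMap.ker_eq_bot.1 hker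
  have hinj' : ∀ x y : U, (∀ w, B x w = B y w) → x = y := fun x y h => hinj (LinearMap.ext h)
  -- the isomorphism
  let e : U ≃ₗ[ℝ] (U →ₗ[ℝ] ℝ) := LinearEquiv.ofInjectiveOfFinrankEq B hinj (by
    exact (Subspace.dual_finrank_eq (K := ℝ) (V := U)).symm)
  have he : ∀ x w, e x w = B x w := fun x w => rfl
  have hgg : ∀ (g : H) (v : U), ρ g (ρ g⁻¹ v) = v := by
    intro g v
    rw [← Module.End.mul_apply, ← map_mul, mul_inv_cancel, map_one, Module.End.one_apply]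
  -- from trilinear to product
  have hprod : ∀ t : U →ₗ[ℝ] U →ₗ[ℝ] U →ₗ[ℝ] ℝ, ∃ m : U →ₗ[ℝ] U →ₗ[ℝ] U, ∀ u v w, B (m u v) w = t u v w := by
    intro t
    refine ⟨t.compr₂ (e.symm : (U →ₗ[ℝ] ℝ) →ₗ[ℝ] U), fun u v w => ?_⟩
    rw [← he]
    simp
  have hequi : ∀ (m : U →ₗ[ℝ] U →ₗ[ℝ] U) (t : U →ₗ[ℝ] U →ₗ[ℝ] U →ₗ[ℝ] ℝ), (∀ u v w, B (m u v) w = t u v w) →
      (∀ (g : H) (u v w : U), t (ρ g u) (ρ g v) (ρ g w) = t u v w) →
      (∀ (g : H) (u v : U), m (ρ g u) (ρ g v) = ρ g (m u v)) := by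
    intro m t hmt ht g u v
    apply hinj'
    intro w
    rw [hmt]
    have h1 := ht g u v (ρ g⁻¹ w)
    rw [hgg] at h1
    rw [h1, ← hmt, ← hBi g, hgg]
  constructor
  · rintro ⟨m, hm0, hmc, hme, hmu⟩
    let t : U →ₗ[ℝ] U →ₗ[ℝ] U →ₗ[ℝ] ℝ := m.compr₂ B
    have ht : ∀ u v w, t u v w = B (m u v) w := fun u v w => rfl
    have ht0 : t ≠ 0 := by
      intro h
      apply hm0
      ext u v
      apply hinj'
      intro w
      rw [← ht, h]
      simp
    have hti : ∀ (g : H) (u v w : U), t (ρ g u) (ρ g v) (ρ g w) = t u v w := by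
      intro g u v w
      rw [ht, hme, hBi]
      rfl
    have htu : ∀ t' : U →ₗ[ℝ] U →ₗ[ℝ] U →ₗ[ℝ] ℝ, (∀ (g : H) (u v w : U), t' (ρ g u) (ρ g v) (ρ g w) = t' u v w) → ∃ c : ℝ, t' = c • t := by
      intro t' ht'
      obtain ⟨m', hm'⟩ := hprod t'
      obtain ⟨c, hc⟩ := hmu m' (hequi m' t' hm' ht')
      refine ⟨c, ?_⟩
      ext u v w
      rw [← hm', hc]
      simp [ht]
    have hs1 : ∀ u v w, t u v w = t v u w := by
      intro u v w
      rw [ht, ht, hmc]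
    refine ⟨t, ht0, ?_, hti, htu⟩
    let t' : U →ₗ[ℝ] U →ₗ[ℝ] U →ₗ[ℝ] ℝ := LinearMap.lflip.comp t
    have ht' : ∀ u v w, t' u v w = t u w v := fun u v w => rfl
    obtain ⟨c, hc⟩ := htu t' (by
      intro g u v w
      rw [ht', ht', hti])
    have hc' : ∀ u v w, t u w v = c * t u v w := by
      intro u v w
      rw [← ht', hc]
      simp
    have hcc : c * c = 1 := by
      by_contra hne
      apply ht0
      ext u v w
      have h1 := hc' u v w
      have h2 := hc' u w v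
      rw [h1] at h2
      have h3 : (c * c - 1) * t u v w = 0 := by linarith
      rcases mul_eq_zero.1 h3 with h | h
      · exact absurd (by linarith) hne
      · simpa using h
    have hc1 : c = 1 := by
      have h4 : (c - 1) * (c + 1) = 0 := by linarith
      rcases mul_eq_zero.1 h4 with h | h
      · linarith
      · exfalso
        have hcm : c = -1 := by linarith
        apply ht0
        ext u v w
        have h1 := hc' u v w  -- t u w v = - t u v w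
        have h2 := hc' v u w  -- t v w u = - t v u w
        have h3 := hc' w u v  -- t w v u = - t w u v
        have a1 := hs1 u v w
        have a2 := hs1 v w u
        have a3 := hs1 w u v
        rw [hcm] at h1 h2 h3
        show t u v w = 0
        linarith
    intro u v w
    refine ⟨hs1 u v w, ?_⟩
    rw [hc' u v w, hc1, one_mul]
  · rintro ⟨t, ht0, hts, hti, htu⟩
    obtain ⟨m, hm⟩ := hprod t
    refine ⟨m, ?_, ?_, hequi m t hm hti, ?_⟩
    · intro h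
      apply ht0
      ext u v w
      rw [← hm, h]
      simp
    · intro u v
      apply hinj'
      intro w
      rw [hm, hm, (hts u v w).1]
    · intro m' hm'
      obtain ⟨c, hc⟩ := htu (m'.compr₂ B) (by
        intro g u v w
        show B (m' (ρ g u) (ρ g v)) (ρ g w) = B (m' u v) w
        rw [hm', hBi])
      refine ⟨c, ?_⟩
      ext u v
      apply hinj'
      intro w
      have h1 : B (m' u v) w = (m'.compr₂ B) u v w := rfl
      rw [h1, hc]
      simp [hm]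

end Cfsg.Agent.S5541
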