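import Cfsg.Statements.S5543
import Cfsg.Agent.Lib.Majorana

set_option autoImplicit false
open Cfsg

namespace Cfsg.Agent.S5543

open Cfsg.Agent.Lib.Majorana Cfsg.Axial

theorem result {V : Type*} [AddCommGroup V] [Module ℝ V] [FiniteDimensional ℝ V] (mul : V →ₗ[ℝ] V →ₗ[ℝ] V) (B : LinearMap.BilinForm ℝ V) (hV : Cfsg.Axial.IsMajoranaAmbient mul B) (X : Subgroup (V ≃ₗ[ℝ] V)) (hX : ∀ x ∈ X, x * x = 1) (ax : (V ≃ₗ[ℝ] V) → V) (hax : ∀ x ∈ X, x ≠ 1 → Cfsg.Axial.IsMajoranaPair mul B x (ax x)) (h1 : ∀ x ∈ X, x ≠ 1 → B (ax x) (ax x) = 1) (h2A : ∀ x ∈ X, ∀ y ∈ X, x ≠ 1 → y ≠ 1 → x ≠ y → mul (ax x) (ax y) = (1 / 8 : ℝ) • (ax x + ax y - ax (x * y))) : Nat.card ↥X ≤ 4 := by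
  obtain ⟨hcomm, hsymm, hpos, hassoc, -⟩ := id hV
  have hAx : ∀ x ∈ X, x ≠ 1 → Ax mul B x (ax x) := fun x hx h => ax_of_majorana hV (hax x hx h) (h1 x hx h)
  have hinv : ∀ x ∈ X, x⁻¹ = x := fun x hx => inv_eq_of_mul_eq_one_left (hX x hx)
  have hxy1 : ∀ x ∈ X, ∀ y ∈ X, x ≠ y → x * y ≠ 1 := by
    intro x hx y hy hne h
    apply hne
    rw [← hinv y hy]
    exact eq_inv_of_mul_eq_one_left h
  have hcm : ∀ x ∈ X, ∀ y ∈ X, x * y = y * x := by
    intro x hx y hy
    have := hinv (x * y) (X.mul_mem hx hy)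
    rw [mul_inv_rev, hinv x hx, hinv y hy] at this
    exact this.symm
  have hassx : ∀ x ∈ X, ∀ y, x * (x * y) = y := by
    intro x hx y
    rw [← mul_assoc, hX x hx, one_mul]
  -- inner products
  have hf : ∀ x ∈ X, ∀ y ∈ X, x ≠ 1 → y ≠ 1 → x ≠ y →
      B (ax x) (ax y) = 1 / 8 * (1 + B (ax x) (ax y) - B (ax x) (ax (x * y))) := by
    intro x hx y hy hx1 hy1 hne
    have e1 : B (ax x) (mul (ax x) (ax y)) = B (ax x) (ax y) := by
      rw [hassoc, (hAx x hx hx1).aa]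
    have e2 := e1
    rw [h2A x hx y hy hx1 hy1 hne] at e2
    simp only [map_smul, map_add, map_sub, smul_eq_mul, h1 x hx hx1] at e2
    linarith
  have hf8 : ∀ x ∈ X, ∀ y ∈ X, x ≠ 1 → y ≠ 1 → x ≠ y → B (ax x) (ax y) = 1 / 8 := by
    intro x hx y hy hx1 hy1 hne
    have e1 := hf x hx y hy hx1 hy1 hne
    have hxyne : x ≠ x * y := fun h => hy1 (by
      have := congrArg (fun t => x⁻¹ * t) h
      simpa using this.symm)
    have e2 := hf x hx (x * y) (X.mul_mem hx hy) hx1 (hxy1 x hx y hy hne) hxyne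
    rw [hassx x hx] at e2
    linarith
  by_contra hcard
  push Not at hcard
  -- find x, y, z independent
  have hfin : (X : Set (V ≃ₗ[ℝ] V)).Finite := by
    by_contra hinf
    have : Infinite X := Set.infinite_coe_iff.2 hinf
    rw [Nat.card_eq_zero_of_infinite] at hcard
    omega
  have hex : ∀ F : Finset (V ≃ₗ[ℝ] V), F.card ≤ 4 → ∃ z ∈ X, z ∉ F := by
    intro F hF
    by_contra hcon
    push Not at hcon
    have h2 : (X : Set (V ≃ₗ[ℝ] V)) ⊆ F := hcon
    have h3 := Set.ncard_le_ncard h2 (Finset.finite_toSet F)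
    rw [Set.ncard_coe_finset] at h3
    have h4 : Nat.card X = (X : Set (V ≃ₗ[ℝ] V)).ncard := rfl
    omega
  classical
  obtain ⟨x, hx, hxF⟩ := hex {1} (by simp)
  obtain ⟨y, hy, hyF⟩ := hex {1, x} (by
    have := Finset.card_insert_le (1 : V ≃ₗ[ℝ] V) {x}
    simp only [Finset.card_singleton] at this
    omega)
  obtain ⟨z, hz, hzF⟩ := hex {1, x, y, x * y} Finset.card_le_four
  simp only [Finset.mem_insert, Finset.mem_singleton, not_or] at hxF hyF hzF
  obtain ⟨hy1, hyx⟩ := hyF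
  obtain ⟨hz1, hzx, hzy, hzxy⟩ := hzF
  have hA := hAx x hx hxF
  have mxy := X.mul_mem hx hy
  have mxz := X.mul_mem hx hz
  have myz := X.mul_mem hy hz
  have nxy : x * y ≠ 1 := hxy1 x hx y hy (Ne.symm hyx)
  have nxz : x * z ≠ 1 := hxy1 x hx z hz (Ne.symm hzx)
  have nyz : y * z ≠ 1 := hxy1 y hy z hz (Ne.symm hzy)
  -- beta vectors
  have hbeta : ∀ w ∈ X, w ≠ 1 → w ≠ x → mul (ax x) (ax w - ax (x * w)) = (1 / 4 : ℝ) • (ax w - ax (x * w)) := by
    intro w hw hw1 hwx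
    have hxw : x ≠ x * w := fun h => hw1 (by
      have := congrArg (fun t => x⁻¹ * t) h
      simpa using this.symm)
    rw [map_sub, h2A x hx w hw hxF hw1 (Ne.symm hwx),
      h2A x hx (x * w) (X.mul_mem hx hw) hxF (hxy1 x hx w hw (Ne.symm hwx)) hxw, hassx x hx]
    module
  have c1 : y ≠ z := Ne.symm hzy
  have c2 : y ≠ x * z := fun h => hzxy (by rw [h, hassx x hx])
  have c3 : x * y ≠ z := fun h => hzxy h.symm
  have c4 : x * y ≠ x * z := fun h => hzy (mul_left_cancel h).symm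
  have hprod : mul (ax y - ax (x * y)) (ax z - ax (x * z)) = -(1 / 4 : ℝ) • (ax (y * z) - ax (x * (y * z))) := by
    simp only [map_sub, LinearMap.sub_apply]
    rw [h2A y hy z hz hy1 hz1 c1, h2A y hy (x * z) mxz hy1 nxz c2, h2A (x * y) mxy z hz nxy hz1 c3,
      h2A (x * y) mxy (x * z) mxz nxy nxz c4]
    have r1 : y * (x * z) = x * (y * z) := by
      rw [← mul_assoc, hcm y hy x hx, mul_assoc]
    have r2 : x * y * z = x * (y * z) := mul_assoc _ _ _
    have r3 : x * y * (x * z) = y * z := by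
      rw [hcm x hx y hy, mul_assoc, hassx x hx]
    rw [r1, r2, r3]
    module
  have hyzx : y * z ≠ x := fun h => hzxy (by
    rw [← h, hcm y hy z hz, mul_assoc, hX y hy, mul_one])
  have hb1 := hA.fqq _ _ (hbeta y hy hy1 hyx) (hbeta z hz hz1 hzx)
  have hb2 := hbeta (y * z) myz nyz hyzx
  rw [hprod, map_smul, hb2] at hb1
  -- so beta is multiple of a_x; it is also orthogonal to a_x
  have hxyz : x ≠ x * (y * z) := fun h => nyz (by
      have := congrArg (fun t => x⁻¹ * t) h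
      simpa using this.symm)
  have hbo : B (ax x) (ax (y * z) - ax (x * (y * z))) = 0 := by
    rw [map_sub, hf8 x hx _ myz hxF nyz (Ne.symm hyzx),
      hf8 x hx _ (X.mul_mem hx myz) hxF (hxy1 x hx _ myz (Ne.symm hyzx)) hxyz, sub_self]
  set b := ax (y * z) - ax (x * (y * z)) with hb
  set c := (1 / 4 : ℝ) * B (ax y - ax (x * y)) (ax z - ax (x * z)) with hc
  have hb3 : b = (-(16 : ℝ) * c) • ax x := by
    have := congrArg (fun t => (-16 : ℝ) • t) hb1
    simp only [smul_smul] at this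
    norm_num at this
    rw [this]
    module
  have hb4 : (-(16 : ℝ) * c) = 0 := by
    rw [hb3, map_smul, h1 x hx hxF] at hbo
    simpa using hbo
  have hb5 : b = 0 := by rw [hb3, hb4, zero_smul]
  have hb6 : ax (y * z) = ax (x * (y * z)) := by rwa [hb, sub_eq_zero] at hb5
  have h7 := hf8 (y * z) myz (x * (y * z)) (X.mul_mem hx myz) nyz (hxy1 x hx _ myz (Ne.symm hyzx)) (fun h => hxF (by
    have h8 := congrArg (fun t => t * (y * z)⁻¹) h
    simp only [mul_inv_cancel, mul_assoc] at h8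
    rw [mul_one] at h8
    exact h8.symm))
  rw [← hb6, h1 _ myz nyz] at h7
  norm_num at h7

end Cfsg.Agent.S5543
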