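import Cfsg.Statements.S5545
import Cfsg.Agent.Lib.Majorana

set_option autoImplicit false
open Cfsg

namespace Cfsg.Agent.S5545

open Cfsg.Agent.Lib.Majorana Cfsg.Axial

variable {V : Type*} [AddCommGroup V] [Module ℝ V]

/-- transport of a Majorana pair along an automorphism -/
theorem transport {mul : V →ₗ[ℝ] V →ₗ[ℝ] V} {B : LinearMap.BilinForm ℝ V} {μ : V ≃ₗ[ℝ] V} {a : V}
    (h : IsMajoranaPair mul B μ a) (g : V ≃ₗ[ℝ] V) (hg : ∀ u v, g (mul u v) = mul (g u) (g v))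
    (hB : ∀ u v, B (g u) (g v) = B u v) : IsMajoranaPair mul B (g * μ * g⁻¹) (g a) := by
  have hinv : ∀ u v, g⁻¹ (mul u v) = mul (g⁻¹ u) (g⁻¹ v) := by
    intro u v
    apply g.injective
    rw [hg]
    simp
  have hinvB : ∀ u v, B (g⁻¹ u) (g⁻¹ v) = B u v := by
    intro u v
    rw [← hB (g⁻¹ u) (g⁻¹ v)]
    simp
  have gg : ∀ v, g (g⁻¹ v) = v := by intro v; simp
  have gg' : ∀ v, g⁻¹ (g v) = v := by intro v; simp
  -- eigenspaces
  have heig : ∀ c : ℝ, eigen mul (g a) c = (eigen mul a c).map (g : V →ₗ[ℝ] V) := by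
    intro c
    ext v
    rw [mem_eigen, Submodule.mem_map]
    constructor
    · intro hv
      refine ⟨g⁻¹ v, mem_eigen.2 ?_, gg v⟩
      apply g.injective
      rw [hg, gg, hv, map_smul, gg]
    · rintro ⟨w, hw, rfl⟩
      have := mem_eigen.1 hw
      show mul (g a) (g w) = c • g w
      rw [← hg, this, map_smul]
  have hsum : ∀ S : Set ℝ, eigenSum mul (g a) S = (eigenSum mul a S).map (g : V →ₗ[ℝ] V) := by
    intro S
    simp only [eigenSum, heig, Submodule.map_iSup]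
  obtain ⟨h1, h2, h3, h4⟩ := h
  refine ⟨?_, ?_, ?_, ?_⟩
  · intro u v
    simp only [LinearEquiv.mul_apply, hinv, h1, hg]
  · intro u v
    simp only [LinearEquiv.mul_apply, hB, h2, hinvB]
  · refine ⟨⟨?_, ?_, ?_, ?_⟩, ?_⟩
    · intro h0
      exact h3.1.1 (g.map_eq_zero_iff.1 h0)
    · rw [← hg, h3.1.2.1]
    · rw [hsum, h3.1.2.2.1, Submodule.map_top, LinearMap.range_eq_top]
      exact g.surjective
    · intro c hc d hd u hu v hv
      rw [heig, Submodule.mem_map] at hu hv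
      obtain ⟨u, hu, rfl⟩ := hu
      obtain ⟨v, hv, rfl⟩ := hv
      rw [hsum, Submodule.mem_map]
      exact ⟨mul u v, h3.1.2.2.2 c hc d hd u hu v hv, hg u v⟩
    · rw [heig, h3.2, Submodule.map_span]
      simp
  · constructor
    · intro v hv
      rw [hsum, Submodule.mem_map] at hv
      obtain ⟨w, hw, rfl⟩ := hv
      have : μ w = w := h4.1 w hw
      show g (μ (g⁻¹ (g w))) = g w
      rw [gg', this]
    · intro v hv
      rw [heig, Submodule.mem_map] at hv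
      obtain ⟨w, hw, rfl⟩ := hv
      have : μ w = -w := h4.2 w hw
      show g (μ (g⁻¹ (g w))) = - g w
      rw [gg', this, map_neg]

theorem result {V : Type*} [AddCommGroup V] [Module ℝ V] [FiniteDimensional ℝ V] (mul : V →ₗ[ℝ] V →ₗ[ℝ] V) (B : LinearMap.BilinForm ℝ V) (hV : Cfsg.Axial.IsMajoranaAmbient mul B) (μ₀ μ₁ : V ≃ₗ[ℝ] V) (a₀ a₁ : V) (h₀ : Cfsg.Axial.IsMajoranaPair mul B μ₀ a₀) (h₁ : Cfsg.Axial.IsMajoranaPair mul B μ₁ a₁) (hu₀ : ∀ a : V, Cfsg.Axial.IsMajoranaPair mul B μ₀ a → a = a₀) (hu₁ : ∀ a : V, Cfsg.Axial.IsMajoranaPair mul B μ₁ a → a = a₁) (hn₀ : B a₀ a₀ = 1) (hn₁ : B a₁ a₁ = 1) (hc : μ₀ * μ₁ = μ₁ * μ₀) (hne : a₀ ≠ a₁) : (B a₀ a₁ = 0 ∧ mul a₀ a₁ = 0) ∨ (B a₀ a₁ = 1 / 8 ∧ mul (a₀ + a₁ - (8 : ℝ) • mul a₀ a₁) (a₀ + a₁ - (8 : ℝ) • mul a₀ a₁) = a₀ + a₁ - (8 : ℝ) • mul a₀ a₁ ∧ mul a₀ (a₀ + a₁ - (8 : ℝ) • mul a₀ a₁) = (1 / 8 : ℝ) • (a₀ + (a₀ + a₁ - (8 : ℝ) • mul a₀ a₁) - a₁) ∧ mul a₁ (a₀ + a₁ - (8 : ℝ)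 • mul a₀ a₁) = (1 / 8 : ℝ) • (a₁ + (a₀ + a₁ - (8 : ℝ) • mul a₀ a₁) - a₀)) := by
  obtain ⟨hcomm, hsymm, hpos, hassoc, -⟩ := id hV
  have A0 := ax_of_majorana hV h₀ hn₀
  have A1 := ax_of_majorana hV h₁ hn₁
  have e10 : μ₁ a₀ = a₀ := by
    apply hu₀
    have := transport h₀ μ₁ h₁.1 h₁.2.1
    rwa [← hc, mul_inv_cancel_right] at this
  have e01 : μ₀ a₁ = a₁ := by
    apply hu₁
    have := transport h₁ μ₀ h₀.1 h₀.2.1
    rwa [hc, mul_inv_cancel_right] at this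
  set l := B a₀ a₁ with hl
  set P := mul a₀ a₁ with hP
  have hP' : mul a₁ a₀ = P := hcomm a₁ a₀
  have q0 : mul a₀ P = (3 / 4 * l) • a₀ + (1 / 4 : ℝ) • P := A0.inv a₁ e01
  have q1 : mul a₁ P = (3 / 4 * l) • a₁ + (1 / 4 : ℝ) • P := by
    have := A1.inv a₀ e10
    rw [hP', hsymm a₁ a₀] at this
    exact this
  have q0' : mul P a₀ = (3 / 4 * l) • a₀ + (1 / 4 : ℝ) • P := by rw [hcomm]; exact q0
  have q1' : mul P a₁ = (3 / 4 * l) • a₁ + (1 / 4 : ℝ) • P := by rw [hcomm]; exact q1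
  -- eigenvectors of a₀
  have hgen : ∀ (x y : V), mul x x = x → mul x y = P → mul y x = P → mul x P = (3 / 4 * l) • x + (1 / 4 : ℝ) • P →
      mul P x = (3 / 4 * l) • x + (1 / 4 : ℝ) • P → mul P y = (3 / 4 * l) • y + (1 / 4 : ℝ) • P →
      mul y P = (3 / 4 * l) • y + (1 / 4 : ℝ) • P → mul y y = y →
      (∃ τ, Ax mul B τ x) → ∃ c : ℝ, (1 / 2 - 4 * l) • P = c • x := by
    intro x y hxx hxy hyx hxP hPx hPy hyP hyy hA
    obtain ⟨τ, hA⟩ := hA
    set be := (4 : ℝ) • P - (4 * l) • x with hbe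
    set al := y + (3 * l) • x - (4 : ℝ) • P with hal
    have hbe' : mul x be = (1 / 4 : ℝ) • be := by
      simp only [hbe, map_sub, map_smul, hxP, hxx]
      module
    have hal' : mul x al = 0 := by
      simp only [hal, map_sub, map_add, map_smul, hxP, hxx, hxy]
      module
    have r1 := hA.f00 al al hal' hal'
    have r2 := hA.fqq be be hbe' hbe'
    have e : mul al al - mul be be = (1 - 6 * l) • y + (8 * l - 2) • P - (l ^ 2) • x := by
      simp only [hal, hbe, map_sub, map_add, map_smul, LinearMap.sub_apply, LinearMap.add_apply, LinearMap.smul_apply,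
        hxx, hxy, hyx, hxP, hPx, hPy, hyP, hyy]
      module
    have e2 : mul x (mul al al - mul be be) = -(1 / 4 * B be be) • x := by
      rw [map_sub, r1, r2]; module
    rw [e] at e2
    simp only [map_sub, map_add, map_smul, hxx, hxy, hxP] at e2
    refine ⟨-(1 / 4 * B be be) - (5 * l ^ 2 - 3 / 2 * l), ?_⟩
    have e3 : (1 / 2 - 4 * l) • P = ((1 - 6 * l) • P + (8 * l - 2) • ((3 / 4 * l) • x + (1 / 4 : ℝ) • P) - (l ^ 2) • x) -
      (5 * l ^ 2 - 3 / 2 * l) • x := by module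
    rw [e3, e2]
    module
  obtain ⟨c0, hc0⟩ := hgen a₀ a₁ A0.aa rfl hP' q0 q0' q1' q1 A1.aa ⟨_, A0⟩
  obtain ⟨c1, hc1⟩ := hgen a₁ a₀ A1.aa hP' rfl q1 q1' q0' q0 A0.aa ⟨_, A1⟩
  by_cases hl8 : l = 1 / 8
  · right
    -- P * P
    set be := (4 : ℝ) • P - (4 * l) • a₀ with hbe
    set al := a₁ + (3 * l) • a₀ - (4 : ℝ) • P with hal
    have hbe' : mul a₀ be = (1 / 4 : ℝ) • be := by
      simp only [hbe, map_sub, map_smul, q0, A0.aa]
      module
    have hal' : mul a₀ al = 0 := by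
      simp only [hal, map_sub, map_add, map_smul, q0, A0.aa, ← hP]
      module
    have r1 := A0.f00 al al hal' hal'
    have r2 := A0.f0q al be hal' hbe'
    have e1 : mul al al + mul al be = mul al (a₁ - l • a₀) := by
      rw [← map_add]
      congr 1
      simp only [hal, hbe]
      module
    have e2 : mul al (a₁ - l • a₀) = (5 / 8 : ℝ) • a₁ - (5 / 8 : ℝ) • P := by
      simp only [hal, hl8, map_sub, map_add, map_smul, LinearMap.sub_apply, LinearMap.add_apply, LinearMap.smul_apply,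
        A0.aa, A1.aa, q0, q1, q0', q1', ← hP, hP']
      module
    have e3 : mul a₀ (mul al al + mul al be) = (1 / 4 : ℝ) • mul al be := by
      rw [map_add, r1, r2, zero_add]
    rw [e1, e2] at e3
    simp only [map_sub, map_smul, ← hP, q0, hl8] at e3
    have e4 : mul al be = (15 / 8 : ℝ) • P - (15 / 64 : ℝ) • a₀ := by
      have := congrArg (fun t => (4 : ℝ) • t) e3
      simp only [smul_smul] at this
      norm_num at this
      rw [← this]
      module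
    have e5 : mul al be = -(16 : ℝ) • mul P P + (11 / 8 : ℝ) • P + (3 / 8 : ℝ) • a₁ + (9 / 64 : ℝ) • a₀ := by
      simp only [hal, hbe, hl8, map_sub, map_add, map_smul, LinearMap.sub_apply, LinearMap.add_apply, LinearMap.smul_apply,
        A0.aa, A1.aa, q0, q1, q0', q1', ← hP, hP']
      module
    have e6 : mul P P = (1 / 16 : ℝ) • ((11 / 8 : ℝ) • P + (3 / 8 : ℝ) • a₁ + (9 / 64 : ℝ) • a₀ - ((15 / 8 : ℝ) • P - (15 / 64 : ℝ) • a₀)) := by
      rw [← e4, e5]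
      module
    refine ⟨hl8, ?_, ?_, ?_⟩
    · simp only [map_sub, map_add, map_smul, LinearMap.sub_apply, LinearMap.add_apply, LinearMap.smul_apply,
        A0.aa, A1.aa, q0, q1, q0', q1', ← hP, hP', e6, hl8]
      module
    · simp only [map_sub, map_add, map_smul, A0.aa, q0, ← hP, hl8]
      module
    · simp only [map_sub, map_add, map_smul, A1.aa, q1, hP', hl8]
      module
  · left
    have hk : (1 / 2 - 4 * l) ≠ 0 := fun h => hl8 (by linarith)
    -- P = d0 a0 = d1 a1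
    have hP0 : P = ((1 / 2 - 4 * l)⁻¹ * c0) • a₀ := by
      rw [← smul_smul, ← hc0, smul_smul, inv_mul_cancel₀ hk, one_smul]
    have hP1 : P = ((1 / 2 - 4 * l)⁻¹ * c1) • a₁ := by
      rw [← smul_smul, ← hc1, smul_smul, inv_mul_cancel₀ hk, one_smul]
    generalize (1 / 2 - 4 * l)⁻¹ * c0 = d0 at hP0
    generalize (1 / 2 - 4 * l)⁻¹ * c1 = d1 at hP1
    have hl0 : l = d0 := by
      have : B a₀ P = l := by rw [hP, hassoc, A0.aa]
      rw [← this, hP0, map_smul, hn₀]; simp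
    have hl1 : l = d1 := by
      have : B P a₁ = l := by rw [hP, ← hassoc, A1.aa]
      rw [← this, hP1, map_smul, LinearMap.smul_apply, hn₁]; simp
    by_cases hl00 : l = 0
    · refine ⟨hl00, ?_⟩
      rw [hP0, ← hl0, hl00, zero_smul]
    · exfalso
      apply hne
      have h2 : l • a₀ = l • a₁ := by
        conv_lhs => rw [hl0, ← hP0, hP1, ← hl1]
      exact smul_right_injective V hl00 h2

end Cfsg.Agent.S5545
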