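import Cfsg.Statements.S5544
import Cfsg.Agent.Lib.MajoranaDih
import Cfsg.Agent.S5545

set_option autoImplicit false
open Cfsg

namespace Cfsg.Agent.S5544

open Cfsg.Agent.Lib.Majorana Cfsg.Agent.Lib.MajoranaDih Cfsg.Axial

variable {V : Type*} [AddCommGroup V] [Module ℝ V]
variable {mul : V →ₗ[ℝ] V →ₗ[ℝ] V} {B : LinearMap.BilinForm ℝ V}

theorem mu_sq {μ : V ≃ₗ[ℝ] V} {a : V} (h : IsMajoranaPair mul B μ a) : μ * μ = 1 := by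
  ext v
  obtain ⟨c, x, y, z, rfl, hx, hy, hz⟩ := decomp h v
  show μ (μ (c • a + x + y + z)) = c • a + x + y + z
  rw [mu_decomp h hx hy hz, sub_eq_add_neg, mu_decomp h hx hy (by rw [map_neg, hz, smul_neg]), sub_neg_eq_add]

theorem mu_unique {μ μ' : V ≃ₗ[ℝ] V} {a : V} (h : IsMajoranaPair mul B μ a) (h' : IsMajoranaPair mul B μ' a) : μ = μ' := by
  ext v
  obtain ⟨c, x, y, z, rfl, hx, hy, hz⟩ := decomp h v
  rw [mu_decomp h hx hy hz, mu_decomp h' hx hy hz]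

/-- automorphisms of the algebra preserving the form -/
def Aut (mul : V →ₗ[ℝ] V →ₗ[ℝ] V) (B : LinearMap.BilinForm ℝ V) : Subgroup (V ≃ₗ[ℝ] V) where
  carrier := {g | (∀ u v, g (mul u v) = mul (g u) (g v)) ∧ ∀ u v, B (g u) (g v) = B u v}
  one_mem' := ⟨fun _ _ => rfl, fun _ _ => rfl⟩
  mul_mem' := by
    rintro g h ⟨g1, g2⟩ ⟨h1, h2⟩
    refine ⟨fun u v => ?_, fun u v => ?_⟩
    · show g (h (mul u v)) = mul (g (h u)) (g (h v))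
      rw [h1, g1]
    · show B (g (h u)) (g (h v)) = B u v
      rw [g2, h2]
  inv_mem' := by
    rintro g ⟨g1, g2⟩
    have gg : ∀ v, g (g⁻¹ v) = v := by intro v; simp
    refine ⟨fun u v => ?_, fun u v => ?_⟩
    · apply g.injective
      rw [g1, gg, gg, gg]
    · rw [← g2 (g⁻¹ u) (g⁻¹ v), gg, gg]

/-- the sequence of axes -/
def seq (R : V ≃ₗ[ℝ] V) (a₀ a₁ : V) (n : ℤ) : V := (R ^ (n / 2)) (if n % 2 = 0 then a₀ else a₁)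

theorem seq_even (R : V ≃ₗ[ℝ] V) (a₀ a₁ : V) (k : ℤ) : seq R a₀ a₁ (2 * k) = (R ^ k) a₀ := by
  unfold seq
  rw [if_pos (by omega), show 2 * k / 2 = k by omega]

theorem seq_odd (R : V ≃ₗ[ℝ] V) (a₀ a₁ : V) (k : ℤ) : seq R a₀ a₁ (2 * k + 1) = (R ^ k) a₁ := by
  unfold seq
  rw [if_neg (by omega), show (2 * k + 1) / 2 = k by omega]

theorem result {V : Type*} [AddCommGroup V] [Module ℝ V] [FiniteDimensional ℝ V] (mul : V →ₗ[ℝ] V →ₗ[ℝ] V) (B : LinearMap.BilinForm ℝ V) (hV : Cfsg.Axial.IsMajoranaAmbient mul B) (μ₀ μ₁ : V ≃ₗ[ℝ] V) (a₀ a₁ : V) (h₀ : Cfsg.Axial.IsMajoranaPair mul B μ₀ a₀) (h₁ : Cfsg.Axial.IsMajoranaPair mul B μ₁ a₁) (hu₀ : ∀ a : V, Cfsg.Axial.IsMajoranaPair mul B μ₀ a → a = a₀) (hu₁ : ∀ a : V, Cfsg.Axial.IsMajoranaPair mul B μ₁ a → a = a₁) (hn₀ : B a₀ a₀ = 1) (hn₁ : B a₁ a₁ = 1) : ∃ n : ℕ, 1 ≤ n ∧ n ≤ 6 ∧ (μ₀ * μ₁) ^ n = 1 := by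
  obtain ⟨hcomm, hsymm, hpos, hassoc, hnorton⟩ := id hV
  have s0 := mu_sq h₀
  have s1 := mu_sq h₁
  have i0 : μ₀⁻¹ = μ₀ := inv_eq_of_mul_eq_one_left s0
  have i1 : μ₁⁻¹ = μ₁ := inv_eq_of_mul_eq_one_left s1
  obtain ⟨R, hR⟩ : ∃ R, R = μ₁ * μ₀ := ⟨_, rfl⟩
  have hRinv : R⁻¹ = μ₀ * μ₁ := by rw [hR, mul_inv_rev, i0, i1]
  have hμR : ∀ k : ℤ, μ₀ * R ^ k = R ^ (-k) * μ₀ := by
    intro k
    have h1 : μ₀ * R * μ₀⁻¹ = R⁻¹ := by rw [hRinv, hR, i0, mul_assoc, mul_assoc, s0, mul_one]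
    have h2 : μ₀ * R ^ k * μ₀⁻¹ = R ^ (-k) := by rw [← conj_zpow, h1, inv_zpow, zpow_neg]
    rw [← h2, mul_assoc, inv_mul_cancel, mul_one]
  have ha0 : μ₀ a₀ = a₀ := (ax_of_majorana hV h₀ hn₀).ta
  have ha1 : μ₁ a₁ = a₁ := (ax_of_majorana hV h₁ hn₁).ta
  have m0 : μ₀ ∈ Aut mul B := ⟨h₀.1, h₀.2.1⟩
  have m1 : μ₁ ∈ Aut mul B := ⟨h₁.1, h₁.2.1⟩
  have mR : ∀ k : ℤ, R ^ k ∈ Aut mul B := fun k => (Aut mul B).zpow_mem (by rw [hR]; exact (Aut mul B).mul_mem m1 m0) k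
  let τ : ℤ → V ≃ₗ[ℝ] V := fun n => R ^ n * μ₀
  let a : ℤ → V := seq R a₀ a₁
  have hcases : ∀ i : ℤ, (∃ k, i = 2 * k) ∨ ∃ k, i = 2 * k + 1 := fun i => Int.even_or_odd' i |>.elim (fun k hk => hk.elim (fun h => Or.inl ⟨k, h⟩) (fun h => Or.inr ⟨k, h⟩))
  have hpair : ∀ i, IsMajoranaPair mul B (τ i) (a i) := by
    intro i
    rcases hcases i with ⟨k, rfl⟩ | ⟨k, rfl⟩
    · have h := S5545.transport h₀ (R ^ k) (mR k).1 (mR k).2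
      have e : R ^ k * μ₀ * (R ^ k)⁻¹ = τ (2 * k) := by
        show R ^ k * μ₀ * (R ^ k)⁻¹ = R ^ (2 * k) * μ₀
        rw [← zpow_neg, mul_assoc, hμR, ← mul_assoc, ← zpow_add]
        congr 2; ring
      rw [e] at h
      show IsMajoranaPair mul B (τ (2 * k)) (seq R a₀ a₁ (2 * k))
      rw [seq_even]; exact h
    · have h := S5545.transport h₁ (R ^ k) (mR k).1 (mR k).2
      have e : R ^ k * μ₁ * (R ^ k)⁻¹ = τ (2 * k + 1) := by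
        show R ^ k * μ₁ * (R ^ k)⁻¹ = R ^ (2 * k + 1) * μ₀
        have e1 : μ₁ = R * μ₀ := by rw [hR, mul_assoc, s0, mul_one]
        rw [e1, ← zpow_neg, mul_assoc, mul_assoc, hμR, neg_neg, ← mul_assoc, ← mul_assoc, ← zpow_add_one, ← zpow_add]
        congr 2; ring
      rw [e] at h
      show IsMajoranaPair mul B (τ (2 * k + 1)) (seq R a₀ a₁ (2 * k + 1))
      rw [seq_odd]; exact h
  have hnorm : ∀ i, B (a i) (a i) = 1 := by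
    intro i
    show B (seq R a₀ a₁ i) (seq R a₀ a₁ i) = 1
    unfold seq
    rw [(mR _).2]
    split_ifs
    · exact hn₀
    · exact hn₁
  have hrefl : ∀ i j, τ i (a j) = a (2 * i - j) := by
    intro i j
    rcases hcases j with ⟨k, rfl⟩ | ⟨k, rfl⟩
    · show (R ^ i * μ₀) (seq R a₀ a₁ (2 * k)) = seq R a₀ a₁ (2 * i - 2 * k)
      rw [seq_even, show 2 * i - 2 * k = 2 * (i - k) by ring, seq_even]
      have : (R ^ i * μ₀) ((R ^ k) a₀) = (R ^ i * (μ₀ * R ^ k)) a₀ := rfl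
      rw [this, hμR, ← mul_assoc, ← zpow_add]
      show (R ^ (i + -k)) (μ₀ a₀) = _
      rw [ha0, sub_eq_add_neg]
    · show (R ^ i * μ₀) (seq R a₀ a₁ (2 * k + 1)) = seq R a₀ a₁ (2 * i - (2 * k + 1))
      rw [seq_odd, show 2 * i - (2 * k + 1) = 2 * (i - k - 1) + 1 by ring, seq_odd]
      have : (R ^ i * μ₀) ((R ^ k) a₁) = (R ^ i * (μ₀ * R ^ k)) a₁ := rfl
      have e2 : μ₀ a₁ = (R⁻¹) a₁ := by rw [hRinv]; show _ = μ₀ (μ₁ a₁); rw [ha1]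
      rw [this, hμR, ← mul_assoc, ← zpow_add]
      show (R ^ (i + -k)) (μ₀ a₁) = _
      rw [e2]
      show (R ^ (i + -k) * R⁻¹) a₁ = _
      rw [← zpow_sub_one, sub_eq_add_neg i k]
  have hD : Dih mul B τ a := ⟨hcomm, hsymm, hassoc, hpos, hnorton, fun i => ax_of_majorana hV (hpair i) (hnorm i), hrefl⟩
  obtain ⟨N, hN1, hN6, i, hi⟩ := hD.key
  refine ⟨N, hN1, hN6, ?_⟩
  have h1 := hpair (i + N)
  rw [hi] at h1
  have h2 := mu_unique h1 (hpair i)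
  have h3 : R ^ (i + (N : ℤ)) = R ^ i := mul_right_cancel h2
  rw [zpow_add, zpow_natCast] at h3
  have h4 : R ^ N = 1 := by
    have : R ^ i * R ^ N = R ^ i * 1 := by rw [h3, mul_one]
    exact mul_left_cancel this
  rw [← hRinv, inv_pow, h4, inv_one]

end Cfsg.Agent.S5544
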