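import Cfsg.Statements.S5546
import Cfsg.Agent.Lib.LeechMod

set_option autoImplicit false
open Cfsg

namespace Cfsg.Agent.S5546

open Cfsg.Agent.Lib.LeechMod

instance fact13 : Fact (Nat.Prime 13) := ⟨by norm_num⟩

abbrev K := ZMod 13
abbrev V := GolayPt → ZMod 13

def ubar : V := fun i => ((Spor.vecU i : ℤ) : ZMod 13)

/-- Co₂ → Co₀ -/
def incl : Spor.Co2 →* Co0 := Subgroup.inclusion inf_le_left

noncomputable def rho0 : Spor.Co2 →* (V →ₗ[K] V) :=
  ((Matrix.toLinAlgEquiv' (R := K) (n := GolayPt)).toMonoidHom : _ →* _).comp ((redHom 13 (by norm_num)).comp incl)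

theorem rho0_apply (g : Spor.Co2) (v : leechLattice) :
    rho0 g (fun i => (((v : GolayPt → ℤ) i : ℤ) : ZMod 13)) =
      fun i => ((((g : Equiv.Perm leechLattice) v : leechLattice) : GolayPt → ℤ) i : ZMod 13) :=
  redMat_mulVec (p := 13) (by norm_num) (incl g) v

theorem fixU (g : Spor.Co2) : (g : Equiv.Perm leechLattice) Spor.leechU = Spor.leechU := g.2.2

theorem rho0_ubar (g : Spor.Co2) : rho0 g ubar = ubar := by
  have := rho0_apply g Spor.leechU
  rw [fixU] at this
  exact this

abbrev U : Submodule K V := Submodule.span K {ubar}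

theorem le_comap (g : Spor.Co2) : U ≤ U.comap (rho0 g) := by
  rw [Submodule.span_le]
  rintro x rfl
  rw [SetLike.mem_coe, Submodule.mem_comap, rho0_ubar]
  exact Submodule.mem_span_singleton_self _

noncomputable def rho1 : Spor.Co2 →* (V ⧸ U →ₗ[K] V ⧸ U) where
  toFun g := U.mapQ U (rho0 g) (le_comap g)
  map_one' := by
    ext x
    simp
  map_mul' g h := by
    refine LinearMap.ext fun x => ?_
    obtain ⟨x, rfl⟩ := Submodule.Quotient.mk_surjective _ x
    simp [Submodule.mapQ_apply]

theorem ubar_ne : ubar ≠ 0 := by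
  intro h
  have := congrFun h none
  revert this
  decide

theorem finrank_quot : Module.finrank K (V ⧸ U) = 23 := by
  have h1 := Submodule.finrank_quotient_add_finrank U
  have h2 : Module.finrank K U = 1 := finrank_span_singleton ubar_ne
  have h3 : Module.finrank K V = 24 := by
    rw [Module.finrank_fintype_fun_eq_card]; rfl
  omega

noncomputable def bas : Module.Basis (Fin 23) K (V ⧸ U) :=
  Module.finBasisOfFinrankEq K _ finrank_quot

noncomputable def f : Spor.Co2 →* GL (Fin 23) (ZMod 13) :=
  (((LinearMap.toMatrixAlgEquiv bas).toMonoidHom : _ →* _).comp rho1).toHomUnits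

theorem f_one {g : Spor.Co2} (h : f g = 1) (w : leechLattice) :
    (fun i => ((((g : Equiv.Perm leechLattice) w : leechLattice) : GolayPt → ℤ) i : ZMod 13)) -
      (fun i => (((w : GolayPt → ℤ) i : ℤ) : ZMod 13)) ∈ U := by
  have h1 : rho1 g = 1 := by
    have h2 : LinearMap.toMatrixAlgEquiv bas (rho1 g) = 1 := congrArg Units.val h
    have h3 : LinearMap.toMatrixAlgEquiv bas (rho1 g) = LinearMap.toMatrixAlgEquiv bas 1 := by
      rw [h2, map_one]
    exact (LinearMap.toMatrixAlgEquiv bas).injective h3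
  rw [← rho0_apply g w, ← Submodule.Quotient.eq]
  have h4 := congrArg (fun F => F (Submodule.Quotient.mk (fun i => (((w : GolayPt → ℤ) i : ℤ) : ZMod 13)))) h1
  exact h4

theorem dot_vecU : dotInt Spor.vecU Spor.vecU = 32 := by
  decide

theorem fix_of_norm {g : Spor.Co2} (h : f g = 1) (w : leechLattice) (hw : sqNorm (w : GolayPt → ℤ) = 32) :
    (g : Equiv.Perm leechLattice) w = w := by
  refine fix_of_congr (p := 13) (incl g).2 w (by rw [hw]; norm_num) ?_
  have h1 := f_one h w
  rw [Submodule.mem_span_singleton] at h1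
  obtain ⟨c, hc⟩ := h1
  have h2 : dotInt (((g : Equiv.Perm leechLattice) w : leechLattice) : GolayPt → ℤ) Spor.vecU =
      dotInt (w : GolayPt → ℤ) Spor.vecU := by
    have h3 := dot_map (incl g).2 w Spor.leechU
    have h4 : ((incl g : Equiv.Perm leechLattice)) Spor.leechU = Spor.leechU := fixU g
    rw [h4] at h3
    exact h3
  have h5 : ∀ i, (((((g : Equiv.Perm leechLattice) w : leechLattice) : GolayPt → ℤ) i : ZMod 13)) -
      (((w : GolayPt → ℤ) i : ℤ) : ZMod 13) = c * ((Spor.vecU i : ℤ) : ZMod 13) := by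
    intro i
    have := congrFun hc i
    simp only [Pi.smul_apply, Pi.sub_apply, smul_eq_mul] at this
    exact this.symm
  have h6 : c * 32 = 0 := by
    have h7 : (((dotInt (((g : Equiv.Perm leechLattice) w : leechLattice) : GolayPt → ℤ) Spor.vecU -
      dotInt (w : GolayPt → ℤ) Spor.vecU : ℤ)) : ZMod 13) = c * ((dotInt Spor.vecU Spor.vecU : ℤ) : ZMod 13) := by
      simp only [dotInt]
      push_cast
      rw [← Finset.sum_sub_distrib, Finset.mul_sum]
      refine Finset.sum_congr rfl fun i _ => ?_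
      rw [← sub_mul, h5]
      ring
    rw [h2, dot_vecU, sub_self] at h7
    simpa using h7.symm
  have h8 : c = 0 := by
    rcases mul_eq_zero.1 h6 with h | h
    · exact h
    · exact absurd h (by decide)
  intro i
  have h9 := h5 i
  rw [h8, zero_mul] at h9
  have h10 : (((((g : Equiv.Perm leechLattice) w : leechLattice) : GolayPt → ℤ) i -
      (w : GolayPt → ℤ) i : ℤ) : ZMod 13) = 0 := by
    push_cast
    exact h9
  exact (ZMod.intCast_zmod_eq_zero_iff_dvd _ 13).1 h10

theorem sub_eq {i j : GolayPt} : (Pi.single i 4 - Pi.single j 4 : GolayPt → ℤ) = Pi.single i 4 + Pi.single j (-4) := by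
  rw [sub_eq_add_neg, Pi.single_neg]

theorem result : ∃ f : ↥Cfsg.Spor.Co2 →* GL (Fin 23) (ZMod 13), Function.Injective f := by
  refine ⟨f, (injective_iff_map_eq_one f).2 fun g hg => ?_⟩
  have : (g : Equiv.Perm leechLattice) = 1 := by
    refine eq_one_of_fix (incl g).2 ?_ ?_
    · intro i j hij
      exact fix_of_norm hg _ (by
        show sqNorm (Pi.single i 4 + Pi.single j 4 : GolayPt → ℤ) = 32
        rw [sqNorm_single_add hij]; norm_num)
    · intro i j hij
      exact fix_of_norm hg _ (by
        show sqNorm (Pi.single i 4 - Pi.single j 4 : GolayPt → ℤ) = 32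
        rw [sub_eq, sqNorm_single_add hij]; norm_num)
  exact Subtype.ext this

end Cfsg.Agent.S5546
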