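import Cfsg.Statements.S5549
import Cfsg.Agent.Lib.GolayAut

set_option autoImplicit false
open Cfsg

namespace Cfsg.Agent.S5549

open scoped Pointwise

/-- Let X be a group of linear automorphisms of the length-24 binary Golay code of the definitions that fix the all-ones word, containing the coordinate-permutation action of every element of the code's automorphism group (the Mathieu group of degree 24), and such that every element of X sends each codeword into its orbit under that Mathieu group up to adding the all-ones word (X has the same orbits as the Mathieu group on the code modulo the all-ones word). Then every element of X agrees, modulo the all-ones word, with the action of a single element of the Mathieu group: X induces exactly the Mathieu group on the code modulo the all-ones word. -/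
theorem result (X : Subgroup (↥Cfsg.golayCode ≃ₗ[ZMod 2] ↥Cfsg.golayCode)) (h1 : ∀ x ∈ X, ∀ e : ↥Cfsg.golayCode, (e : (Cfsg.GolayPt → ZMod 2)) = (fun _ => (1 : ZMod 2)) → x e = e) (hM : ∀ σ ∈ Cfsg.M24, ∃ x ∈ X, ∀ c : ↥Cfsg.golayCode, ((x c : ↥Cfsg.golayCode) : (Cfsg.GolayPt → ZMod 2)) = fun p => (c : (Cfsg.GolayPt → ZMod 2)) (σ.symm p)) (horb : ∀ x ∈ X, ∀ c : ↥Cfsg.golayCode, ∃ σ ∈ Cfsg.M24, ((x c : ↥Cfsg.golayCode) : (Cfsg.GolayPt → ZMod 2)) = (fun p => (c : (Cfsg.GolayPt → ZMod 2)) (σ.symm p)) ∨ ((x c : ↥Cfsg.golayCode) : (Cfsg.GolayPt → ZMod 2)) = (fun p => (c : (Cfsg.GolayPt → ZMod 2)) (σ.symm p)) + fun _ => (1 : ZMod 2)) (x : ↥Cfsg.golayCode ≃ₗ[ZMod 2] ↥Cfsg.golayCode) (hx : x ∈ X) : ∃ σ ∈ Cfsg.M24, ∀ c : ↥Cfsg.golayCode, ((x c : ↥Cfsg.golayCode) : (Cfsg.GolayPt → ZMod 2)) = (fun p => (c : (Cfsg.GolayPt → ZMod 2)) (σ.symm p)) ∨ ((x c : ↥Cfsg.golayCode) : (Cfsg.GolayPt → ZMod 2)) = (fun p => (c : (Cfsg.GolayPt → ZMod 2)) (σ.symm p)) + fun _ => (1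 : ZMod 2) := by
  have hx1 : x Cfsg.Agent.Lib.GolayAut.oneC = Cfsg.Agent.Lib.GolayAut.oneC := h1 x hx _ rfl
  have hoct : Cfsg.Agent.Lib.GolayAut.OctHyp x := by
    intro o ho c hc
    obtain ⟨σ, hσ, h2⟩ := horb x hx c
    refine ⟨σ • o, (Cfsg.Agent.Lib.Golay.smul_mem_octads hσ).2 ho, ?_⟩
    rw [← Cfsg.Agent.Lib.GolayModule.act_wordOf, ← hc]
    exact h2
  exact Cfsg.Agent.Lib.GolayAut.exists_M24 hx1 hoct

end Cfsg.Agent.S5549
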