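import Cfsg.Statements.S5550
import Cfsg.Agent.Lib.GolayModule
import Cfsg.Agent.Lib.GolayM12
import Cfsg.Agent.Lib.GolayOctad

set_option autoImplicit false
open Cfsg

namespace Cfsg.Agent.S5550

open Cfsg.Agent.Lib.Golay Cfsg.Agent.Lib.GolayCoset Cfsg.Agent.Lib.GolayModule
open scoped Pointwise

/-- the stabiliser of `B` is transitive enough -/
structure Good (B : Finset GolayPt) : Prop where
  card : 8 ≤ B.card
  compl : ∀ x, x ∉ B → 4 ≤ Bᶜ.card
  one : ∀ x y, x ∈ B → y ∈ B → ∃ g ∈ M24, g • B = B ∧ g x = y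
  two : ∀ p q r, p ∈ B → q ∈ B → r ∈ B → p ≠ q → p ≠ r → ∃ g ∈ M24, g • B = B ∧ g p = p ∧ g q = r
  out : ∀ x y, x ∉ B → y ∉ B → ∃ g ∈ M24, g • B = B ∧ g x = y

theorem good_dodecad {B : Finset GolayPt} (hB : B ∈ dodecads) : Good B where
  card := by rw [hB.2]; norm_num
  compl := fun _ _ => by rw [Finset.card_compl, card_pt, hB.2]; norm_num
  one := fun x y hx hy => by
    obtain ⟨g, hg, h1, h2⟩ := exists_le_five_dodecad hB (n := 1) (by norm_num)
      ⟨fun _ => x, fun i j _ => Subsingleton.elim i j⟩ ⟨fun _ => y, fun i j _ => Subsingleton.elim i j⟩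
      (fun _ => hx) (fun _ => hy)
    exact ⟨g, hg, h1, h2 0⟩
  two := fun p q r hp hq hr hpq hpr => by
    obtain ⟨g, hg, h1, h2⟩ := exists_le_five_dodecad hB (n := 2) (by norm_num)
      ⟨![p, q], by
        intro i j h
        fin_cases i <;> fin_cases j <;> simp_all⟩
      ⟨![p, r], by
        intro i j h
        fin_cases i <;> fin_cases j <;> simp_all⟩
      (fun i => by
        fin_cases i
        · exact hp
        · exact hq)
      (fun i => by
        fin_cases i
        · exact hp
        · exact hr)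
    exact ⟨g, hg, h1, h2 0, h2 1⟩
  out := fun x y hx hy => by
    have hBc : Bᶜ ∈ dodecads := ⟨compl_mem_supports hB.1, by rw [Finset.card_compl, card_pt, hB.2]⟩
    obtain ⟨g, hg, h1, h2⟩ := exists_le_five_dodecad hBc (n := 1) (by norm_num)
      ⟨fun _ => x, fun i j _ => Subsingleton.elim i j⟩ ⟨fun _ => y, fun i j _ => Subsingleton.elim i j⟩
      (fun _ => Finset.mem_compl.2 hx) (fun _ => Finset.mem_compl.2 hy)
    refine ⟨g, hg, ?_, h2 0⟩
    ext q
    obtain ⟨p, rfl⟩ := g.surjective q
    rw [smul_mem_smul]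
    have h3 : g p ∈ g • Bᶜ ↔ p ∈ Bᶜ := smul_mem_smul g Bᶜ p
    rw [h1, Finset.mem_compl, Finset.mem_compl] at h3
    exact (not_iff_not.1 h3).symm

theorem octad_stab {B : Finset GolayPt} (hB : B ∈ octads) {n : ℕ} (hn : n ≤ 5)
    (x y : Fin n ↪ GolayPt) (hx : ∀ i, x i ∈ B) (hy : ∀ i, y i ∈ B) :
    ∃ g ∈ M24, g • B = B ∧ ∀ i, g (x i) = y i := by
  classical
  have h5 : 5 ≤ B.card := by rw [hB.2]; norm_num
  obtain ⟨x', hx', hxx⟩ := exists_extend h5 hn x hx
  obtain ⟨y', hy', hyy⟩ := exists_extend h5 hn y hy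
  obtain ⟨g, hg, h1⟩ := exists_emb x' y'
  refine ⟨g, hg, ?_, fun i => ?_⟩
  · apply octad_eq_of_five ((smul_mem_octads hg).mpr hB) hB
    have h2 : (Finset.univ.map y').card = 5 := by rw [Finset.card_map, Finset.card_univ, Fintype.card_fin]
    rw [← h2]
    apply Finset.card_le_card
    intro z hz
    rw [Finset.mem_map] at hz
    obtain ⟨i, _, rfl⟩ := hz
    rw [Finset.mem_inter]
    refine ⟨?_, hy' i⟩
    rw [← h1 i, smul_mem_smul]
    exact hx' i
  · rw [← hxx, h1, hyy]

theorem good_octad {B : Finset GolayPt} (hB : B ∈ octads) : Good B where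
  card := by rw [hB.2]
  compl := fun _ _ => by rw [Finset.card_compl, card_pt, hB.2]; norm_num
  one := fun x y hx hy => by
    obtain ⟨g, hg, h1, h2⟩ := octad_stab hB (n := 1) (by norm_num)
      ⟨fun _ => x, fun i j _ => Subsingleton.elim i j⟩ ⟨fun _ => y, fun i j _ => Subsingleton.elim i j⟩
      (fun _ => hx) (fun _ => hy)
    exact ⟨g, hg, h1, h2 0⟩
  two := fun p q r hp hq hr hpq hpr => by
    obtain ⟨g, hg, h1, h2⟩ := octad_stab hB (n := 2) (by norm_num)
      ⟨![p, q], by
        intro i j h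
        fin_cases i <;> fin_cases j <;> simp_all⟩
      ⟨![p, r], by
        intro i j h
        fin_cases i <;> fin_cases j <;> simp_all⟩
      (fun i => by
        fin_cases i
        · exact hp
        · exact hq)
      (fun i => by
        fin_cases i
        · exact hp
        · exact hr)
    exact ⟨g, hg, h1, h2 0, h2 1⟩
  out := fun x y hx hy => by
    obtain ⟨g, hg, h1⟩ := OctPt_transitive hB hx hy
    rw [mem_OctPt] at hg
    refine ⟨g, hg.1, ?_, h1⟩
    apply Finset.eq_of_subset_of_card_le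
    · intro z hz
      rw [mem_smul_iff] at hz
      obtain ⟨p, hp, rfl⟩ := hz
      rw [hg.2 p hp]; exact hp
    · rw [card_smul']

theorem good_univ : Good Finset.univ where
  card := by rw [Finset.card_univ, card_pt]; norm_num
  compl := fun x hx => absurd (Finset.mem_univ x) hx
  one := fun x y _ _ => by
    obtain ⟨z, hz⟩ : ∃ z, z ≠ x := exists_ne x
    obtain ⟨w, hw⟩ : ∃ z, z ≠ y := exists_ne y
    obtain ⟨g, hg, h1, _⟩ := exists_two hz.symm hw.symm
    exact ⟨g, hg, Finset.smul_finset_univ, h1⟩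
  two := fun p q r _ _ _ hpq hpr => by
    obtain ⟨g, hg, h1, h2⟩ := exists_two hpq hpr
    exact ⟨g, hg, Finset.smul_finset_univ, h1, h2⟩
  out := fun x _ hx => absurd (Finset.mem_univ x) hx

theorem Good.main {B : Finset GolayPt} (hB : Good B) {t : Finset GolayPt} (ht4 : t.card ≤ 4)
    (ht0 : t.Nonempty) : ∃ g ∈ M24, g • B = B ∧ symmDiff (g • t) t ∉ CS := by
  classical
  by_contra hcon
  push Not at hcon
  by_cases h4 : t.card = 4
  · -- a sextet
    obtain ⟨p, hp, q, hq, T, hT, hpT, hqT, hpq⟩ : ∃ p ∈ B, ∃ q ∈ B, ∃ T ∈ sextetOf t, p ∈ T ∧ q ∈ T ∧ p ≠ q := by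
      have h1 : ∀ p, ∃ T ∈ sextetOf t, p ∈ T := exists_tetrad_through h4
      choose f hf hpf using h1
      obtain ⟨p, hp, q, hq, hne, h2⟩ := Finset.exists_ne_map_eq_of_card_lt_of_maps_to (s := B) (t := sextetOf t)
        (by rw [card_sextetOf h4]; have := hB.card; omega) (f := f) (fun p _ => hf p)
      exact ⟨p, hp, q, hq, f p, hf p, hpf p, h2 ▸ hpf q, hne⟩
    obtain ⟨hTc, hTt⟩ := mem_sextetOf.1 hT
    obtain ⟨r, hr, hrT⟩ : ∃ r ∈ B, r ∉ T := by
      by_contra h
      push Not at h
      have := Finset.card_le_card (show B ⊆ T from h)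
      have := hB.card
      omega
    obtain ⟨g, hg, hgB, hgp, hgq⟩ := hB.two p q r hp hq hr hpq (fun e => hrT (e ▸ hpT))
    have h1 := hcon g hg hgB
    have h2 : symmDiff (g • t) (g • T) ∈ CS := by
      rw [← smul_symmDiff']
      exact (smul_mem_supports_iff hg _).2 hTt
    rw [symmDiff_comm] at h2
    have h3 : symmDiff (g • T) T ∈ CS := trans_mem (trans_mem h2 h1) hTt
    have h4' : g • T = T := by
      by_contra hne
      have h5 := disjoint_of_tetrads h3 (by rw [card_smul', hTc]) hTc hne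
      rw [Finset.disjoint_left] at h5
      refine h5 (a := p) ?_ hpT
      rw [mem_smul_iff]
      exact ⟨p, hpT, hgp⟩
    apply hrT
    rw [← h4', mem_smul_iff]
    exact ⟨q, hqT, hgq⟩
  · have h1 : ∀ g ∈ M24, g • B = B → g • t = t := by
      intro g hg hgB
      apply eq_of_small (hcon g hg hgB)
      rw [card_smul']; omega
    obtain ⟨x, hx⟩ := ht0
    by_cases hxB : x ∈ B
    · obtain ⟨y, hy, hyt⟩ : ∃ y ∈ B, y ∉ t := by
        by_contra h
        push Not at h
        have := Finset.card_le_card (show B ⊆ t from h)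
        have := hB.card
        omega
      obtain ⟨g, hg, hgB, hgx⟩ := hB.one x y hxB hy
      apply hyt
      rw [← h1 g hg hgB, mem_smul_iff]
      exact ⟨x, hx, hgx⟩
    · obtain ⟨y, hy, hyt⟩ : ∃ y ∈ Bᶜ, y ∉ t := by
        by_contra h
        push Not at h
        have := Finset.card_le_card (show Bᶜ ⊆ t from h)
        have := hB.compl x hxB
        omega
      obtain ⟨g, hg, hgB, hgx⟩ := hB.out x y hxB (Finset.mem_compl.1 hy)
      apply hyt
      rw [← h1 g hg hgB, mem_smul_iff]
      exact ⟨x, hx, hgx⟩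

theorem smul_compl {g : Equiv.Perm GolayPt} {s : Finset GolayPt} : g • sᶜ = (g • s)ᶜ := by
  ext q
  obtain ⟨p, rfl⟩ := g.surjective q
  rw [smul_mem_smul, Finset.mem_compl, Finset.mem_compl, smul_mem_smul]

theorem exists_good {S : Finset GolayPt} (hS : S ∈ CS) : ∃ B, Good B ∧ ∀ g : Equiv.Perm GolayPt, g • B = B → g • S = S := by
  rcases card_cases hS with h | h | h | h | h
  · refine ⟨Finset.univ, good_univ, fun g _ => ?_⟩
    rw [Finset.card_eq_zero] at h
    rw [h, smul_empty']
  · exact ⟨S, good_octad ⟨hS, h⟩, fun g h => h⟩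
  · exact ⟨S, good_dodecad ⟨hS, h⟩, fun g h => h⟩
  · refine ⟨Sᶜ, good_octad ⟨compl_mem_supports hS, by rw [Finset.card_compl, card_pt, h]⟩, fun g h1 => ?_⟩
    rw [smul_compl] at h1
    exact compl_injective h1
  · refine ⟨Finset.univ, good_univ, fun g _ => ?_⟩
    have : S = Finset.univ := by
      apply Finset.eq_univ_of_card; rw [h, card_pt]
    rw [this, Finset.smul_finset_univ]

/-- Let u be a word of the length-24 binary Golay code of the definitions (possibly zero or all-ones) and w any binary word of length 24 outside the code. Then some automorphism of the code (a coordinate permutation preserving it) fixes u but moves w to a word not congruent to w modulo the code: the stabilizer of a codeword fixes no non-zero element of the quotient of the space of all words by the code. -/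
theorem result (u : (Cfsg.GolayPt → ZMod 2)) (hu : u ∈ Cfsg.golayCode) (w : (Cfsg.GolayPt → ZMod 2)) (hw : w ∉ Cfsg.golayCode) : ∃ σ ∈ Cfsg.M24, (fun p => u (σ.symm p)) = u ∧ (fun p => w (σ.symm p)) - w ∉ Cfsg.golayCode := by
  obtain ⟨B, hB, hBS⟩ := exists_good (S := support₂ u) ⟨u, hu, rfl⟩
  obtain ⟨t, ht4, ht⟩ := exists_leader (support₂ w)
  have ht0 : t.Nonempty := by
    rw [Finset.nonempty_iff_ne_empty]
    rintro rfl
    apply hw
    rw [← wordOf_support w, wordOf_mem_iff]
    have h0 : symmDiff (support₂ w) ∅ = support₂ w := symmDiff_bot _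
    rw [h0] at ht
    exact ht
  obtain ⟨g, hg, hgB, hgt⟩ := hB.main ht4 ht0
  refine ⟨g, hg, ?_, ?_⟩
  · change act g u = u
    apply support₂_injective
    rw [support_act, hBS g hgB]
  · intro h
    apply hgt
    rw [sub_mem_iff, support_act] at h
    have h1 : symmDiff (g • support₂ w) (g • t) ∈ CS := by
      rw [← smul_symmDiff']
      exact (smul_mem_supports_iff hg _).2 ht
    rw [symmDiff_comm] at h1
    exact trans_mem (trans_mem h1 h) ht

end Cfsg.Agent.S5550
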