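import Cfsg.Statements.S5588
import Cfsg.Agent.Lib.Y555C

set_option autoImplicit false
open Cfsg

namespace Cfsg.Agent.S5588

open Cfsg.Agent.Lib.Y555 Cfsg.Spor Cfsg.Spor.Bimonster

/-- The relators. -/
abbrev rels : Set (FreeGroup Gen) := coxRelators edges ∪ {r' | r' ∈ [(a * b1 * c1 * a * b2 * c2 * a * b3 * c3) ^ 10]}

/-- The generators. -/
def X (x : Gen) : PresentedGroup rels := PresentedGroup.mk rels (FreeGroup.of x)

lemma relG (x y : Gen) (hx : x ∈ coxNodes edges) (hy : y ∈ coxNodes edges) : (X x * X y) ^ coxLabel edges x y = 1 := by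
  have h : PresentedGroup.mk rels ((FreeGroup.of x * FreeGroup.of y) ^ coxLabel edges x y) = 1 :=
    PresentedGroup.one_of_mem (Or.inl ⟨x, hx, y, hy, rfl⟩)
  rw [map_pow, map_mul] at h
  exact h

lemma spider : (X .a * X .b1 * X .c1 * X .a * X .b2 * X .c2 * X .a * X .b3 * X .c3) ^ 10 = 1 := by
  have h : PresentedGroup.mk rels ((a * b1 * c1 * a * b2 * c2 * a * b3 * c3) ^ 10) = 1 :=
    PresentedGroup.one_of_mem (Or.inr (by simp))
  simp only [map_pow, map_mul] at h
  exact h

lemma all_nodes (x : Gen) : x ∈ coxNodes edges := by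
  cases x <;> decide

lemma cox (σ : Fin 11 → Gen) (h : ∀ i j, coxLabel edges (σ i) (σ j) = if i = j then 1 else if adjM i j = true then 3 else 2) :
    CoxRel RD (fun i => X (σ i)) := by
  have h1 : ∀ i, X (σ i) * X (σ i) = 1 := by
    intro i
    have := relG (σ i) (σ i) (all_nodes _) (all_nodes _)
    rw [h, if_pos rfl, pow_one] at this
    exact this
  have hi : ∀ i, (X (σ i))⁻¹ = X (σ i) := fun i => inv_eq_of_mul_eq_one_left (h1 i)
  refine ⟨h1, ?_, ?_⟩
  · intro i j hij ha
    have := relG (σ i) (σ j) (all_nodes _) (all_nodes _)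
    rw [h, if_neg hij, if_neg (show ¬ adjM i j = true from ha), pow_two] at this
    have h2 := eq_inv_of_mul_eq_one_left this
    rw [mul_inv_rev, hi, hi] at h2
    exact h2
  · intro i j ha
    have ha' : adjM i j = true := ha
    have hij : i ≠ j := by
      rintro rfl
      have hd : ∀ i, adjM i i = false := by decide
      rw [hd] at ha'
      exact absurd ha' (by decide)
    have := relG (σ i) (σ j) (all_nodes _) (all_nodes _)
    rw [h, if_neg hij, if_pos ha', pow_succ, pow_two] at this
    have h3 : (X (σ i) * X (σ j) * X (σ i)) * (X (σ j) * X (σ i) * X (σ j)) = 1 := by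
      rw [← this]; simp only [mul_assoc]
    have h2 := eq_inv_of_mul_eq_one_left h3
    rw [mul_inv_rev, mul_inv_rev, hi, hi] at h2
    rw [h2, mul_assoc]

/-- The first arm. -/
def s1 : Fin 11 → Gen := ![.a, .b1, .c1, .d1, .e1, .f1, .b2, .c2, .d2, .b3, .c3]
/-- The second arm. -/
def s2 : Fin 11 → Gen := ![.a, .b2, .c2, .d2, .e2, .f2, .b3, .c3, .d3, .b1, .c1]
/-- The third arm. -/
def s3 : Fin 11 → Gen := ![.a, .b3, .c3, .d3, .e3, .f3, .b1, .c1, .d1, .b2, .c2]

lemma rot {G : Type*} [Group G] {x y z : G} (h : (x * y * z) ^ 10 = 1) : (y * z * x) ^ 10 = 1 := by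
  have e : y * z * x = x⁻¹ * (x * y * z) * x := by group
  have key : ∀ n : ℕ, (y * z * x) ^ n = x⁻¹ * (x * y * z) ^ n * x := by
    intro n
    induction n with
    | zero => simp
    | succ n ih => rw [pow_succ, pow_succ, ih, e]; group
  rw [key, h, mul_one, inv_mul_cancel]

lemma main1 : X .f1 = (X .a * X .b1 * X .b2 * X .b3 * X .c1 * X .c2 * X .d1) ^ 9 ∧
    X .f1 = (X .a * X .b1 * X .b3 * X .b2 * X .c1 * X .c3 * X .d1) ^ 9 := by
  have h := main (cox s1 (by decide +kernel)) (by
    have := spider
    simp only [evn, ev, wS, List.map_cons, List.map_nil, List.prod_cons, List.prod_nil, mul_one, ← mul_assoc]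
    exact this)
  simp only [evn, ev, w12, w13, List.map_cons, List.map_nil, List.prod_cons, List.prod_nil, mul_one, ← mul_assoc] at h
  exact h

lemma main2 : X .f2 = (X .a * X .b2 * X .b3 * X .b1 * X .c2 * X .c3 * X .d2) ^ 9 ∧
    X .f2 = (X .a * X .b2 * X .b1 * X .b3 * X .c2 * X .c1 * X .d2) ^ 9 := by
  have h := main (cox s2 (by decide +kernel)) (by
    have := rot (x := X .a * X .b1 * X .c1) (y := X .a * X .b2 * X .c2) (z := X .a * X .b3 * X .c3) (by
      have := spider
      simp only [← mul_assoc]
      exact this)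
    simp only [evn, ev, wS, List.map_cons, List.map_nil, List.prod_cons, List.prod_nil, mul_one, ← mul_assoc]
    simp only [← mul_assoc] at this
    exact this)
  simp only [evn, ev, w12, w13, List.map_cons, List.map_nil, List.prod_cons, List.prod_nil, mul_one, ← mul_assoc] at h
  exact h

lemma main3 : X .f3 = (X .a * X .b3 * X .b1 * X .b2 * X .c3 * X .c1 * X .d3) ^ 9 ∧
    X .f3 = (X .a * X .b3 * X .b2 * X .b1 * X .c3 * X .c2 * X .d3) ^ 9 := by
  have h := main (cox s3 (by decide +kernel)) (by
    have := rot (x := X .a * X .b2 * X .c2) (y := X .a * X .b3 * X .c3) (z := X .a * X .b1 * X .c1) (rot (x := X .a * X .b1 * X .c1) (y := X .a * X .b2 * X .c2) (z := X .a * X .b3 * X .c3) (by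
      have := spider
      simp only [← mul_assoc]
      exact this))
    simp only [evn, ev, wS, List.map_cons, List.map_nil, List.prod_cons, List.prod_nil, mul_one, ← mul_assoc]
    simp only [← mul_assoc] at this
    exact this)
  simp only [evn, ev, w12, w13, List.map_cons, List.map_nil, List.prod_cons, List.prod_nil, mul_one, ← mul_assoc] at h
  exact h

/-- In the group presented by the sixteen involutions of the Y₅₅₅ Coxeter diagram subject only to the Coxeter relations and the single spider relation (a b₁ c₁ a b₂ c₂ a b₃ c₃)^10 = 1, each of the further relators used in the definitions' presentation of the Bimonster (each end node equals the ninth power of the Coxeter element of a sub-diagram of type E₇) already holds. Equivalently, the Y₅₅₅ diagram with the spider relation alone presents the Bimonster. -/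
theorem result :
    ∀ r ∈ Cfsg.Spor.Bimonster.extra,
      (PresentedGroup.mk (Cfsg.Spor.coxRelators Cfsg.Spor.Bimonster.edges ∪ {r' | r' ∈ [(Cfsg.Spor.Bimonster.a * Cfsg.Spor.Bimonster.b1 * Cfsg.Spor.Bimonster.c1 * Cfsg.Spor.Bimonster.a * Cfsg.Spor.Bimonster.b2 * Cfsg.Spor.Bimonster.c2 * Cfsg.Spor.Bimonster.a * Cfsg.Spor.Bimonster.b3 * Cfsg.Spor.Bimonster.c3) ^ 10]}) r) = 1 := by
  intro r hr
  have hsp : PresentedGroup.mk rels ((a * b1 * c1 * a * b2 * c2 * a * b3 * c3) ^ 10) = 1 :=
    PresentedGroup.one_of_mem (Or.inr (by simp))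
  have aux : ∀ (x : Gen) (w : FreeGroup Gen), X x = (PresentedGroup.mk rels w) ^ 9 → PresentedGroup.mk rels (FreeGroup.of x * (w ^ 9)⁻¹) = 1 := by
    intro x w h
    rw [map_mul, map_inv, map_pow, ← h]
    exact mul_inv_cancel _
  simp only [Cfsg.Spor.Bimonster.extra, List.mem_cons, List.not_mem_nil, or_false] at hr
  rcases hr with rfl | rfl | rfl | rfl | rfl | rfl | rfl
  · exact hsp
  · refine aux _ _ ?_
    simp only [map_mul]
    exact main1.1
  · refine aux _ _ ?_
    simp only [map_mul]
    exact main1.2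
  · refine aux _ _ ?_
    simp only [map_mul]
    exact main2.2
  · refine aux _ _ ?_
    simp only [map_mul]
    exact main2.1
  · refine aux _ _ ?_
    simp only [map_mul]
    exact main3.1
  · refine aux _ _ ?_
    simp only [map_mul]
    exact main3.2

end Cfsg.Agent.S5588
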