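import Cfsg.Statements.S5599
import Cfsg.Agent.Lib.GolayElts2
import Cfsg.Agent.Lib.GolayTrans

set_option autoImplicit false
open scoped Pointwise
open Cfsg

namespace Cfsg.Agent.S5599

/-- In the automorphism group of the length-24 code, the two-point Mathieu group (permutations of the code's group fixing the extra point and the residue 0) has index 2 in the setwise stabiliser of that pair of points, and an element of the code's group interchanging the two points normalises the two-point group and induces on it, by conjugation, an automorphism that is not inner. -/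
theorem result (g : Equiv.Perm Cfsg.GolayPt) (hg : g ∈ Cfsg.M24) (h₁ : g none = some 0) (h₂ : g (some 0) = none) : Cfsg.Spor.M22.relIndex (Cfsg.M24 ⊓ MulAction.stabilizer (Equiv.Perm Cfsg.GolayPt) ({none, some 0} : Finset Cfsg.GolayPt)) = 2 ∧ (∀ x ∈ Cfsg.Spor.M22, g * x * g⁻¹ ∈ Cfsg.Spor.M22) ∧ ¬ ∃ h ∈ Cfsg.Spor.M22, ∀ x ∈ Cfsg.Spor.M22, g * x * g⁻¹ = h * x * h⁻¹ := by
  have hM22 : ∀ x, x ∈ Cfsg.Spor.M22 ↔ x ∈ Cfsg.M24 ∧ x none = none ∧ x (some 0) = some 0 := fun x =>
    ⟨fun h => ⟨h.1.1, h.1.2, h.2⟩, fun h => ⟨⟨h.1, h.2.1⟩, h.2.2⟩⟩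
  have hB : ∀ x, x ∈ (Cfsg.M24 ⊓ MulAction.stabilizer (Equiv.Perm Cfsg.GolayPt) ({none, some 0} : Finset Cfsg.GolayPt)) ↔
      x ∈ Cfsg.M24 ∧ ((x none = none ∧ x (some 0) = some 0) ∨ (x none = some 0 ∧ x (some 0) = none)) := by
    intro x
    rw [Subgroup.mem_inf]
    refine and_congr_right fun _ => ?_
    show x • ({none, some 0} : Finset Cfsg.GolayPt) = {none, some 0} ↔ _
    have h1 : x • ({none, some 0} : Finset Cfsg.GolayPt) = {x none, x (some 0)} := by
      rw [Finset.smul_finset_insert, Finset.smul_finset_singleton]; rfl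
    rw [h1]
    constructor
    · intro h
      have a1 : x none ∈ ({none, some 0} : Finset Cfsg.GolayPt) := by rw [← h]; simp
      have a2 : x (some 0) ∈ ({none, some 0} : Finset Cfsg.GolayPt) := by rw [← h]; simp
      have a3 : x none ≠ x (some 0) := fun e => by
        have := x.injective e
        simp at this
      rw [Finset.mem_insert, Finset.mem_singleton] at a1 a2
      rcases a1 with a1 | a1 <;> rcases a2 with a2 | a2
      · exact absurd (a1.trans a2.symm) a3
      · exact Or.inl ⟨a1, a2⟩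
      · exact Or.inr ⟨a1, a2⟩
      · exact absurd (a1.trans a2.symm) a3
    · rintro (⟨a1, a2⟩ | ⟨a1, a2⟩)
      · rw [a1, a2]
      · rw [a1, a2, Finset.pair_comm]
  have hn0 : (none : Cfsg.GolayPt) ≠ some 0 := by simp
  have hnorm : ∀ x ∈ Cfsg.Spor.M22, g * x * g⁻¹ ∈ Cfsg.Spor.M22 := by
    intro x hx
    obtain ⟨a1, a2, a3⟩ := (hM22 x).mp hx
    have b1 : g⁻¹ none = some 0 := by rw [Equiv.Perm.inv_eq_iff_eq]; exact h₂.symm
    have b2 : g⁻¹ (some 0) = none := by rw [Equiv.Perm.inv_eq_iff_eq]; exact h₁.symm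
    refine (hM22 _).mpr ⟨Cfsg.M24.mul_mem (Cfsg.M24.mul_mem hg a1) (Cfsg.M24.inv_mem hg), ?_, ?_⟩
    · rw [Equiv.Perm.mul_apply, Equiv.Perm.mul_apply, b1, a3, h₂]
    · rw [Equiv.Perm.mul_apply, Equiv.Perm.mul_apply, b2, a2, h₁]
  refine ⟨?_, hnorm, ?_⟩
  · rw [Subgroup.relIndex_eq_two_iff]
    refine ⟨g, (hB g).mpr ⟨hg, Or.inr ⟨h₁, h₂⟩⟩, fun b hb => ?_⟩
    obtain ⟨hb1, hb2⟩ := (hB b).mp hb
    rcases hb2 with ⟨a1, a2⟩ | ⟨a1, a2⟩
    · right
      refine ⟨(hM22 b).mpr ⟨hb1, a1, a2⟩, fun h => ?_⟩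
      have := ((hM22 _).mp h).2.1
      rw [Equiv.Perm.mul_apply, h₁, a2] at this
      simp at this
    · left
      refine ⟨(hM22 _).mpr ⟨Cfsg.M24.mul_mem hb1 hg, ?_, ?_⟩, fun h => ?_⟩
      · rw [Equiv.Perm.mul_apply, h₁, a2]
      · rw [Equiv.Perm.mul_apply, h₂, a1]
      · have := ((hM22 _).mp h).2.1
        rw [a1] at this
        simp at this
  · rintro ⟨h, hh, hc⟩
    obtain ⟨k1, k2, k3⟩ := (hM22 h).mp hh
    set c : Equiv.Perm Cfsg.GolayPt := h⁻¹ * g with hcd
    have hcM : c ∈ Cfsg.M24 := Cfsg.M24.mul_mem (Cfsg.M24.inv_mem k1) hg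
    have hinv0 : h⁻¹ (some 0) = some 0 := by rw [Equiv.Perm.inv_eq_iff_eq]; exact k3.symm
    have hinvn : h⁻¹ none = none := by rw [Equiv.Perm.inv_eq_iff_eq]; exact k2.symm
    have hcn : c none = some 0 := by rw [hcd, Equiv.Perm.mul_apply, h₁, hinv0]
    have hc0 : c (some 0) = none := by rw [hcd, Equiv.Perm.mul_apply, h₂, hinvn]
    have hcomm : ∀ x ∈ Cfsg.Spor.M22, c * x = x * c := by
      intro x hx
      have := hc x hx
      calc c * x = h⁻¹ * (g * x * g⁻¹) * g := by rw [hcd]; group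
        _ = h⁻¹ * (h * x * h⁻¹) * g := by rw [this]
        _ = x * c := by rw [hcd]; group
    have hfix : ∀ p : Cfsg.GolayPt, p ≠ none → p ≠ some 0 → c p = p := by
      intro p hp1 hp2
      by_contra hne
      have q1 : c p ≠ none := by rw [← hc0]; exact fun e => hp2 (c.injective e)
      have q2 : c p ≠ some 0 := by rw [← hcn]; exact fun e => hp1 (c.injective e)
      obtain ⟨r, hr⟩ : ∃ r, r ∉ ({none, some 0, p, c p} : Finset Cfsg.GolayPt) := by
        by_contra hcon
        push Not at hcon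
        have e1 : ({none, some 0, p, c p} : Finset Cfsg.GolayPt) = Finset.univ := Finset.eq_univ_iff_forall.mpr hcon
        have e2 := Finset.card_le_four (a := (none : Cfsg.GolayPt)) (b := some 0) (c := p) (d := c p)
        rw [e1, Finset.card_univ, Lib.Golay.card_pt] at e2
        omega
      simp only [Finset.mem_insert, Finset.mem_singleton, not_or] at hr
      obtain ⟨r1, r2, r3, r4⟩ := hr
      obtain ⟨x, hx, x1, x2, x3, x4⟩ := Lib.Golay.exists_four (a := none) (b := some 0) (c := p) (d := c p)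
        (a' := none) (b' := some 0) (c' := p) (d' := r) hn0 (Ne.symm hp1) (Ne.symm hp2) (Ne.symm q1) (Ne.symm q2)
        (Ne.symm hne) hn0 (Ne.symm hp1) (Ne.symm hp2) (Ne.symm r1) (Ne.symm r2) (Ne.symm r3)
      have e := DFunLike.congr_fun (hcomm x ((hM22 x).mpr ⟨hx, x1, x2⟩)) p
      have e2 : c (x p) = x (c p) := e
      rw [x3, x4] at e2
      exact r4 e2.symm
    have hc2 : c ^ 2 = 1 := by
      ext1 p
      rw [pow_two, Equiv.Perm.mul_apply, Equiv.Perm.one_apply]
      by_cases h1 : p = none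
      · rw [h1, hcn, hc0]
      · by_cases h2 : p = some 0
        · rw [h2, hc0, hcn]
        · rw [hfix p h1 h2, hfix p h1 h2]
    have hc1 : c ≠ 1 := by
      intro e
      rw [e, Equiv.Perm.one_apply] at hcn
      exact hn0 hcn
    have : Fact (Nat.Prime 2) := ⟨Nat.prime_two⟩
    have ho : orderOf c = 2 := orderOf_eq_prime hc2 hc1
    have hle : (Finset.univ.filter fun p => c p = p).card ≤ 8 := by
      rcases Lib.Golay.fix_two hcM ho with h | h
      · exact h.2.le
      · rw [h.2]; norm_num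
    have hge : (Finset.univ \ {none, some 0} : Finset Cfsg.GolayPt) ⊆ (Finset.univ.filter fun p => c p = p) := by
      intro p hp
      simp only [Finset.mem_sdiff, Finset.mem_univ, true_and, Finset.mem_insert, Finset.mem_singleton, not_or] at hp
      exact Finset.mem_filter.mpr ⟨Finset.mem_univ _, hfix p hp.1 hp.2⟩
    have h1 := Finset.card_le_card hge
    have h2 : (Finset.univ \ {none, some 0} : Finset Cfsg.GolayPt).card = 22 := by decide
    omega

end Cfsg.Agent.S5599
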