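import Cfsg.Statements.S5601
import Cfsg.Agent.Lib.GolayElts2

set_option autoImplicit false
open scoped Pointwise
open Cfsg

namespace Cfsg.Agent.S5601

/-- The group of the length-24 code has exactly two conjugacy classes of subgroups of order 3: a subgroup of order 3 fixes either exactly 6 of the 24 points or none of them, both cases occur, and two subgroups of order 3 with the same number of fixed points are conjugate. -/
theorem result : (∀ X : Subgroup ↥Cfsg.M24, Nat.card X = 3 → {p : Cfsg.GolayPt | ∀ x ∈ X, ((x : ↥Cfsg.M24) : Equiv.Perm Cfsg.GolayPt) p = p}.ncard = 6 ∨ {p : Cfsg.GolayPt | ∀ x ∈ X, ((x : ↥Cfsg.M24) : Equiv.Perm Cfsg.GolayPt) p = p}.ncard = 0) ∧ (∃ X : Subgroup ↥Cfsg.M24, Nat.card X = 3 ∧ {p : Cfsg.GolayPt | ∀ x ∈ X, ((x : ↥Cfsg.M24) : Equiv.Perm Cfsg.GolayPt) p = p}.ncard = 6) ∧ (∃ X : Subgroup ↥Cfsg.M24, Nat.card X = 3 ∧ {p : Cfsg.GolayPt | ∀ x ∈ X, ((x : ↥Cfsg.M24)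 : Equiv.Perm Cfsg.GolayPt) p = p}.ncard = 0) ∧ ∀ X Y : Subgroup ↥Cfsg.M24, Nat.card X = 3 → Nat.card Y = 3 → {p : Cfsg.GolayPt | ∀ x ∈ X, ((x : ↥Cfsg.M24) : Equiv.Perm Cfsg.GolayPt) p = p}.ncard = {p : Cfsg.GolayPt | ∀ x ∈ Y, ((x : ↥Cfsg.M24) : Equiv.Perm Cfsg.GolayPt) p = p}.ncard → ∃ k : ↥Cfsg.M24, MulAut.conj k • X = Y := by
  classical
  have : Fact (Nat.Prime 3) := ⟨Nat.prime_three⟩
  -- fixed points of a cyclic subgroup
  have hfix : ∀ g : ↥Cfsg.M24, {p : Cfsg.GolayPt | ∀ x ∈ Subgroup.zpowers g, ((x : ↥Cfsg.M24) : Equiv.Perm Cfsg.GolayPt) p = p}.ncard =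
      (Finset.univ.filter fun p => (g : Equiv.Perm Cfsg.GolayPt) p = p).card := by
    intro g
    rw [← Set.ncard_coe_finset]
    congr 1
    ext p
    rw [Finset.mem_coe, Finset.mem_filter, Set.mem_ofPred_eq]
    constructor
    · intro h
      exact ⟨Finset.mem_univ _, h g (Subgroup.mem_zpowers g)⟩
    · rintro ⟨-, h⟩ x hx
      have h1 : Subgroup.zpowers g ≤ (MulAction.stabilizer (Equiv.Perm Cfsg.GolayPt) p).comap Cfsg.M24.subtype := by
        rw [Subgroup.zpowers_le]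
        exact h
      exact h1 hx
  have hgen : ∀ X : Subgroup ↥Cfsg.M24, Nat.card X = 3 → ∃ g : ↥Cfsg.M24, orderOf (g : Equiv.Perm Cfsg.GolayPt) = 3 ∧ X = Subgroup.zpowers g := by
    intro X hX
    have hc : IsCyclic X := isCyclic_of_prime_card hX
    obtain ⟨g, hg⟩ := hc.exists_generator
    have h1 : orderOf g = 3 := by rw [← hX]; exact orderOf_eq_card_of_forall_mem_zpowers hg
    refine ⟨(g : ↥Cfsg.M24), ?_, ?_⟩
    · rw [← Subgroup.orderOf_coe, ← Subgroup.orderOf_coe] at h1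
      exact h1
    · have h3 : Nat.card (Subgroup.zpowers (g : ↥Cfsg.M24)) = 3 := by
        rw [Nat.card_zpowers, Subgroup.orderOf_coe, h1]
      have h2 : Subgroup.zpowers (g : ↥Cfsg.M24) ≤ X := by
        rw [Subgroup.zpowers_le]; exact g.2
      exact (Subgroup.eq_of_le_of_card_ge h2 (by rw [hX, h3])).symm
  have hex : ∀ c, Lib.Golay.inM c = true → orderOf (Lib.Golay.toPerm c) = 3 → ∃ X : Subgroup ↥Cfsg.M24, Nat.card X = 3 ∧
      {p : Cfsg.GolayPt | ∀ x ∈ X, ((x : ↥Cfsg.M24) : Equiv.Perm Cfsg.GolayPt) p = p}.ncard =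
      (Finset.univ.filter fun p => (Lib.Golay.toPerm c) p = p).card := by
    intro c hc h3
    refine ⟨Subgroup.zpowers ⟨_, Lib.Golay.toPerm_mem_M24 hc⟩, ?_, hfix _⟩
    rw [Nat.card_zpowers, ← Subgroup.orderOf_coe]
    exact h3
  refine ⟨?_, ?_, ?_, ?_⟩
  · intro X hX
    obtain ⟨g, hg, rfl⟩ := hgen X hX
    rw [hfix]
    rcases Lib.Golay.fix_three g.2 hg with h | h
    · exact Or.inl h.2
    · exact Or.inr h.2
  · obtain ⟨X, h1, h2⟩ := hex _ Lib.Golay.inM_cZ Lib.Golay.orderOf_cZ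
    refine ⟨X, h1, ?_⟩
    rw [h2, Lib.Golay.card_fix_code (Lib.Golay.valid_of_inM Lib.Golay.inM_cZ), Lib.Golay.cZ_fix]
  · obtain ⟨X, h1, h2⟩ := hex _ Lib.Golay.inM_cX Lib.Golay.orderOf_cX
    refine ⟨X, h1, ?_⟩
    rw [h2, Lib.Golay.card_fix_code (Lib.Golay.valid_of_inM Lib.Golay.inM_cX), Lib.Golay.cX_fix]
  · intro X Y hX hY hXY
    obtain ⟨g, hg, rfl⟩ := hgen X hX
    obtain ⟨h, hh, rfl⟩ := hgen Y hY
    rw [hfix, hfix] at hXY
    have key : ∀ r : Equiv.Perm Cfsg.GolayPt, (∃ u ∈ Cfsg.M24, u * (g : Equiv.Perm Cfsg.GolayPt) * u⁻¹ = r) →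
        (∃ u ∈ Cfsg.M24, u * (h : Equiv.Perm Cfsg.GolayPt) * u⁻¹ = r) →
        ∃ k : ↥Cfsg.M24, MulAut.conj k • Subgroup.zpowers g = Subgroup.zpowers h := by
      rintro r ⟨u, hu, e1⟩ ⟨v, hv, e2⟩
      refine ⟨⟨v⁻¹ * u, Cfsg.M24.mul_mem (Cfsg.M24.inv_mem hv) hu⟩, ?_⟩
      have e3 : (MulAut.conj (⟨v⁻¹ * u, Cfsg.M24.mul_mem (Cfsg.M24.inv_mem hv) hu⟩ : ↥Cfsg.M24)) g = h := by
        rw [MulAut.conj_apply]
        apply Subtype.ext
        show v⁻¹ * u * (g : Equiv.Perm Cfsg.GolayPt) * (v⁻¹ * u)⁻¹ = (h : Equiv.Perm Cfsg.GolayPt)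
        have e4 : (h : Equiv.Perm Cfsg.GolayPt) = v⁻¹ * (v * h * v⁻¹) * v := by group
        rw [e4, e2, ← e1]; group
      rw [Subgroup.zpowers_eq_closure, Subgroup.zpowers_eq_closure, Subgroup.smul_closure, Set.smul_set_singleton,
        MulAut.smul_def, e3]
    rcases Lib.Golay.fix_three g.2 hg with h1 | h1 <;> rcases Lib.Golay.fix_three h.2 hh with h2 | h2
    · exact key _ h1.1 h2.1
    · rw [h1.2, h2.2] at hXY; exact absurd hXY (by norm_num)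
    · rw [h1.2, h2.2] at hXY; exact absurd hXY (by norm_num)
    · exact key _ h1.1 h2.1

end Cfsg.Agent.S5601
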