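import Cfsg.Statements.S5602
import Cfsg.Agent.Lib.GolayFixN

set_option autoImplicit false
open scoped Pointwise
open Cfsg

namespace Cfsg.Agent.S5602

/-- An element of order 3 of the group of the length-24 code having exactly 6 fixed points maps to themselves exactly 21 octads, exactly 15 trios, exactly 16 sextets and exactly 20 dodecads. -/
theorem result (g : Equiv.Perm Cfsg.GolayPt) (hg : g ∈ Cfsg.M24) (h₃ : orderOf g = 3) (h₆ : (Finset.univ.filter fun p => g p = p).card = 6) : {o : Finset Cfsg.GolayPt | o ∈ Cfsg.octads ∧ g • o = o}.ncard = 21 ∧ {T : Finset (Finset Cfsg.GolayPt) | T ∈ Cfsg.trios ∧ g • T = T}.ncard = 15 ∧ {S : Finset (Finset Cfsg.GolayPt) | S ∈ Cfsg.sextets ∧ g • S = S}.ncard = 16 ∧ {d : Finset Cfsg.GolayPt | d ∈ Cfsg.dodecads ∧ g • d = d}.ncard = 20 := by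
  obtain ⟨p, hp⟩ : ∃ p, g p = p := by
    obtain ⟨p, hp⟩ := Finset.card_pos.mp (by rw [h₆]; norm_num : 0 < (Finset.univ.filter fun p => g p = p).card)
    exact ⟨p, (Finset.mem_filter.mp hp).2⟩
  have h1 : g ≠ 1 := by
    rintro rfl
    rw [orderOf_one] at h₃
    exact absurd h₃ (by norm_num)
  obtain ⟨u, hu, e⟩ := Lib.Golay.class3A hg (by rw [← h₃]; exact pow_orderOf_eq_one g) h1 ⟨p, hp⟩
  have hc := Lib.Golay.inM_cZ
  rw [Lib.Golay.fixed_octads hu hc e, Lib.Golay.fixed_trios hu hc e, Lib.Golay.fixed_sextets hu hc e,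
    Lib.Golay.fixed_dodecads hu hc e]
  exact ⟨Lib.Golay.cZ_octads, Lib.Golay.cZ_trios, Lib.Golay.cZ_sextets, Lib.Golay.cZ_dodecads⟩

end Cfsg.Agent.S5602
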