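import Cfsg.Statements.S5604
import Cfsg.Agent.Lib.GolaySeven93
import Cfsg.Agent.Lib.NormSeven

set_option autoImplicit false
open scoped Pointwise
open Cfsg

namespace Cfsg.Agent.S5604

/-- For a subgroup S of order 7 of the group of the length-24 code (a Sylow 7-subgroup): the normaliser of S has order 126, the centraliser of S has order 42 and is non-abelian, and the whole normaliser leaves some trio invariant. (These are the orders of a Frobenius group of order 21 times a symmetric group of degree 3; the isomorphism type itself is not asserted here.) -/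
theorem result (S : Subgroup ↥Cfsg.M24) (hS : Nat.card S = 7) : Nat.card ↥(Subgroup.normalizer (S : Set ↥Cfsg.M24)) = 126 ∧ Nat.card ↥(Subgroup.centralizer (S : Set ↥Cfsg.M24)) = 42 ∧ (∃ x ∈ Subgroup.centralizer (S : Set ↥Cfsg.M24), ∃ y ∈ Subgroup.centralizer (S : Set ↥Cfsg.M24), x * y ≠ y * x) ∧ ∃ T ∈ Cfsg.trios, ∀ n ∈ Subgroup.normalizer (S : Set ↥Cfsg.M24), ((n : ↥Cfsg.M24) : Equiv.Perm Cfsg.GolayPt) • T = T := by
  have : Fact (Nat.Prime 7) := ⟨by norm_num⟩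
  have hfac : (Nat.card ↥Cfsg.M24).factorization 7 = 1 := by
    rw [Lib.Golay.natCard_M24, show (244823040 : ℕ) = 7 * 34974720 by norm_num,
      Nat.factorization_mul (by norm_num) (by norm_num), Finsupp.add_apply,
      Nat.Prime.factorization_self (by norm_num), Nat.factorization_eq_zero_of_not_dvd (by norm_num)]
  let s : ↥Cfsg.M24 := ⟨Lib.Golay.toPerm Lib.Golay.c7, Lib.Golay.toPerm_mem_M24 Lib.Golay.inM_c7⟩
  have hs1 : (Lib.Golay.toPerm Lib.Golay.c7) ^ 7 = 1 := by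
    have hv := Lib.Golay.valid_of_inM Lib.Golay.inM_c7
    have h2 := Lib.Golay.valid_mulC hv hv
    have h3 := Lib.Golay.valid_mulC hv h2
    have h4 := Lib.Golay.valid_mulC hv h3
    have h5 := Lib.Golay.valid_mulC hv h4
    have h6 := Lib.Golay.valid_mulC hv h5
    rw [← Lib.Golay.toPerm_cId, ← Lib.Golay.c7_seven, Lib.Golay.toPerm_mulC hv h6, Lib.Golay.toPerm_mulC hv h5,
      Lib.Golay.toPerm_mulC hv h4, Lib.Golay.toPerm_mulC hv h3, Lib.Golay.toPerm_mulC hv h2, Lib.Golay.toPerm_mulC hv hv]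
    simp only [pow_succ, pow_zero, one_mul, mul_assoc]
  have hs0 : s ≠ 1 := by
    intro h
    have h1 : Lib.Golay.toPerm Lib.Golay.c7 = 1 := congrArg Subtype.val h
    have h2 := Lib.Golay.c7_pt (i := 23) (j := 0) (by norm_num) (by decide +kernel)
    rw [h1] at h2
    exact Lib.Golay.pt_ne (i := 23) (j := 0) (by norm_num) (by norm_num) (by norm_num) h2
  have hs7 : orderOf s = 7 := orderOf_eq_prime (Subtype.ext hs1) hs0
  let P : Sylow 7 ↥Cfsg.M24 := Sylow.ofCard (Subgroup.zpowers s) (by rw [hfac, Nat.card_zpowers, hs7, pow_one])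
  let Q : Sylow 7 ↥Cfsg.M24 := Sylow.ofCard S (by rw [hfac, hS, pow_one])
  obtain ⟨u, hu⟩ := MulAction.exists_smul_eq ↥Cfsg.M24 P Q
  have hSu : S = MulAut.conj u • Subgroup.zpowers s := (congrArg (fun R : Sylow 7 ↥Cfsg.M24 => (R : Subgroup ↥Cfsg.M24)) hu).symm
  have hSx : S = Subgroup.zpowers (u * s * u⁻¹) := by
    rw [hSu, Subgroup.zpowers_eq_closure, Subgroup.smul_closure, Set.smul_set_singleton, MulAut.smul_def,
      MulAut.conj_apply, Subgroup.zpowers_eq_closure]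
  let n : ↥Cfsg.M24 := ⟨Lib.Golay.toPerm Lib.Golay.c7n, Lib.Golay.toPerm_mem_M24 Lib.Golay.inM_c7n⟩
  let r : ↥Cfsg.M24 := ⟨Lib.Golay.toPerm Lib.Golay.c7r, Lib.Golay.toPerm_mem_M24 Lib.Golay.inM_c7r⟩
  let t : ↥Cfsg.M24 := ⟨Lib.Golay.toPerm Lib.Golay.c7t, Lib.Golay.toPerm_mem_M24 Lib.Golay.inM_c7t⟩
  have hv := Lib.Golay.valid_of_inM Lib.Golay.inM_c7
  have hvn := Lib.Golay.valid_of_inM Lib.Golay.inM_c7n
  have hns : n * s * n⁻¹ = s ^ 2 := by
    have h1 : n * s = s * s * n := by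
      apply Subtype.ext
      show Lib.Golay.toPerm Lib.Golay.c7n * Lib.Golay.toPerm Lib.Golay.c7 =
        Lib.Golay.toPerm Lib.Golay.c7 * Lib.Golay.toPerm Lib.Golay.c7 * Lib.Golay.toPerm Lib.Golay.c7n
      rw [← Lib.Golay.toPerm_mulC hvn hv, Lib.Golay.c7_n, Lib.Golay.toPerm_mulC (Lib.Golay.valid_mulC hv hv) hvn,
        Lib.Golay.toPerm_mulC hv hv]
    rw [h1, pow_two]; group
  have hninv : ∀ g : ↥Cfsg.M24, g * s * g⁻¹ ≠ s⁻¹ := by
    intro g h
    exact Lib.Golay.no_inv g.1 g.2 (congrArg Subtype.val h)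
  have hx7 : orderOf (u * s * u⁻¹) = 7 := by
    have : orderOf (MulAut.conj u s) = orderOf s := MulEquiv.orderOf_eq _ _
    rw [MulAut.conj_apply] at this
    rw [this, hs7]
  have hnx : (u * n * u⁻¹) * (u * s * u⁻¹) * (u * n * u⁻¹)⁻¹ = (u * s * u⁻¹) ^ 2 := by
    rw [conj_pow, ← hns]; group
  have hinvx : ∀ g : ↥Cfsg.M24, g * (u * s * u⁻¹) * g⁻¹ ≠ (u * s * u⁻¹)⁻¹ := by
    intro g h
    apply hninv (u⁻¹ * g * u)
    calc u⁻¹ * g * u * s * (u⁻¹ * g * u)⁻¹ = u⁻¹ * (g * (u * s * u⁻¹) * g⁻¹) * u := by group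
      _ = u⁻¹ * (u * s * u⁻¹)⁻¹ * u := by rw [h]
      _ = s⁻¹ := by group
  have hcen : ∀ g : ↥Cfsg.M24, g ∈ Subgroup.centralizer (S : Set ↥Cfsg.M24) ↔ (u⁻¹ * g * u) * s = s * (u⁻¹ * g * u) := by
    intro g
    rw [hSx, Lib.NormSeven.mem_centralizer_zpowers]
    constructor
    · intro h
      calc (u⁻¹ * g * u) * s = u⁻¹ * (g * (u * s * u⁻¹)) * u := by group
        _ = u⁻¹ * ((u * s * u⁻¹) * g) * u := by rw [h]
        _ = s * (u⁻¹ * g * u) := by group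
    · intro h
      calc g * (u * s * u⁻¹) = u * ((u⁻¹ * g * u) * s) * u⁻¹ := by group
        _ = u * (s * (u⁻¹ * g * u)) * u⁻¹ := by rw [h]
        _ = (u * s * u⁻¹) * g := by group
  have hcard : Nat.card ↥(Subgroup.centralizer (S : Set ↥Cfsg.M24)) = 42 := by
    rw [← Lib.Golay.card_C7]
    refine Nat.card_congr
      { toFun := fun g => ⟨((u⁻¹ * g.1 * u : ↥Cfsg.M24) : Equiv.Perm Cfsg.GolayPt), Lib.Golay.mem_C7.mpr
          ⟨(u⁻¹ * g.1 * u : ↥Cfsg.M24).2, congrArg Subtype.val ((hcen g.1).mp g.2)⟩⟩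
        invFun := fun c => ⟨u * ⟨c.1, (Lib.Golay.mem_C7.mp c.2).1⟩ * u⁻¹, (hcen _).mpr (by
          have h1 : u⁻¹ * (u * (⟨c.1, (Lib.Golay.mem_C7.mp c.2).1⟩ : ↥Cfsg.M24) * u⁻¹) * u =
            ⟨c.1, (Lib.Golay.mem_C7.mp c.2).1⟩ := by group
          rw [h1]
          exact Subtype.ext (Lib.Golay.mem_C7.mp c.2).2)⟩
        left_inv := ?_
        right_inv := ?_ }
    · intro g
      apply Subtype.ext
      show u * (u⁻¹ * g.1 * u) * u⁻¹ = g.1
      group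
    · intro c
      apply Subtype.ext
      show ((u⁻¹ * (u * (⟨c.1, (Lib.Golay.mem_C7.mp c.2).1⟩ : ↥Cfsg.M24) * u⁻¹) * u : ↥Cfsg.M24) :
        Equiv.Perm Cfsg.GolayPt) = c.1
      have h1 : u⁻¹ * (u * (⟨c.1, (Lib.Golay.mem_C7.mp c.2).1⟩ : ↥Cfsg.M24) * u⁻¹) * u =
            ⟨c.1, (Lib.Golay.mem_C7.mp c.2).1⟩ := by group
      rw [h1]
  refine ⟨?_, hcard, ?_, ?_⟩
  · have h1 := Lib.NormSeven.card_normalizer hx7 hnx hinvx
    rw [← hSx, hcard] at h1
    exact h1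
  · have hm : ∀ c : ↥Cfsg.M24, (c : Equiv.Perm Cfsg.GolayPt) ∈ Lib.Golay.C7 → u * c * u⁻¹ ∈
        Subgroup.centralizer (S : Set ↥Cfsg.M24) := by
      intro c hc
      rw [hcen]
      have h1 : u⁻¹ * (u * c * u⁻¹) * u = c := by group
      rw [h1]
      exact Subtype.ext (Lib.Golay.mem_C7.mp hc).2
    refine ⟨u * r * u⁻¹, hm r Lib.Golay.c7r_mem, u * t * u⁻¹, hm t Lib.Golay.c7t_mem, fun h => ?_⟩
    apply Lib.Golay.C7_nonabelian
    have h1 : r * t = t * r := by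
      calc r * t = u⁻¹ * ((u * r * u⁻¹) * (u * t * u⁻¹)) * u := by group
        _ = u⁻¹ * ((u * t * u⁻¹) * (u * r * u⁻¹)) * u := by rw [h]
        _ = t * r := by group
    exact congrArg Subtype.val h1
  · have hT : ∀ o : Finset Cfsg.GolayPt, o ∈ (u : Equiv.Perm Cfsg.GolayPt) • Lib.Golay.trio7 ↔
        o ∈ Cfsg.octads ∧ ((u * s * u⁻¹ : ↥Cfsg.M24) : Equiv.Perm Cfsg.GolayPt) • o = o := by
      intro o
      rw [← Finset.inv_smul_mem_iff, Lib.Golay.mem_trio7]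
      have e1 : ((u : Equiv.Perm Cfsg.GolayPt)⁻¹ • o ∈ Cfsg.octads) ↔ o ∈ Cfsg.octads :=
        Lib.Golay.smul_mem_octads (Cfsg.M24.inv_mem u.2)
      rw [e1]
      refine and_congr_right fun _ => ?_
      show Lib.Golay.toPerm Lib.Golay.c7 • (u : Equiv.Perm Cfsg.GolayPt)⁻¹ • o = (u : Equiv.Perm Cfsg.GolayPt)⁻¹ • o ↔
        ((u : Equiv.Perm Cfsg.GolayPt) * Lib.Golay.toPerm Lib.Golay.c7 * (u : Equiv.Perm Cfsg.GolayPt)⁻¹) • o = o
      rw [mul_smul, mul_smul, smul_eq_iff_eq_inv_smul (u : Equiv.Perm Cfsg.GolayPt)]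
    refine ⟨(u : Equiv.Perm Cfsg.GolayPt) • Lib.Golay.trio7, Lib.Golay.smul_mem_trios u.2 Lib.Golay.trio7_mem, ?_⟩
    intro m hm
    apply Finset.eq_of_subset_of_card_le
    · intro o ho
      obtain ⟨o', ho', rfl⟩ := Finset.mem_smul_finset.mp ho
      rw [hT] at ho' ⊢
      refine ⟨(Lib.Golay.smul_mem_octads m.2).mpr ho'.1, ?_⟩
      -- x fixes m o' as m⁻¹ x m ∈ S
      have hfix : ∀ y ∈ S, (y : Equiv.Perm Cfsg.GolayPt) • o' = o' := by
        intro y hy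
        rw [hSx] at hy
        have hle : Subgroup.zpowers (u * s * u⁻¹) ≤ (MulAction.stabilizer (Equiv.Perm Cfsg.GolayPt) o').comap
            Cfsg.M24.subtype := by
          rw [Subgroup.zpowers_le]
          exact ho'.2
        exact hle hy
      have hxS : u * s * u⁻¹ ∈ S := by rw [hSx]; exact Subgroup.mem_zpowers _
      have hmx : m⁻¹ * (u * s * u⁻¹) * m ∈ S := by
        rw [Subgroup.mem_normalizer_iff] at hm
        apply (hm _).mpr
        have : m * (m⁻¹ * (u * s * u⁻¹) * m) * m⁻¹ = u * s * u⁻¹ := by group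
        rw [this]; exact hxS
      have h2 := hfix _ hmx
      have e2 : ((m⁻¹ * (u * s * u⁻¹) * m : ↥Cfsg.M24) : Equiv.Perm Cfsg.GolayPt) =
        (m : Equiv.Perm Cfsg.GolayPt)⁻¹ * ((u * s * u⁻¹ : ↥Cfsg.M24) : Equiv.Perm Cfsg.GolayPt) * (m : Equiv.Perm Cfsg.GolayPt) := rfl
      rw [e2, mul_smul, mul_smul, inv_smul_eq_iff] at h2
      exact h2
    · exact (Finset.card_smul_finset _ _).ge

end Cfsg.Agent.S5604
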