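import Cfsg.Statements.S5607
import Cfsg.Agent.Lib.GolayInv2B

set_option autoImplicit false
open scoped Pointwise
open Cfsg

namespace Cfsg.Agent.S5607

/-- For a fixed-point-free involution t of the group of the length-24 code: its centraliser in that group has order 7680, is transitive on the 24 points, and is contained, together with t, in the stabiliser of some sextet. -/
theorem result (t : Equiv.Perm Cfsg.GolayPt) (ht : t ∈ Cfsg.M24) (h₂ : orderOf t = 2) (h₀ : ∀ p, t p ≠ p) : Nat.card {c : Equiv.Perm Cfsg.GolayPt // c ∈ Cfsg.M24 ∧ c * t = t * c} = 7680 ∧ (∀ p q : Cfsg.GolayPt, ∃ c ∈ Cfsg.M24, c * t = t * c ∧ c p = q) ∧ ∃ S ∈ Cfsg.sextets, t • S = S ∧ ∀ c ∈ Cfsg.M24, c * t = t * c → c • S = S := by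
  obtain ⟨u, hu, rfl⟩ := Lib.Golay.class2B' ht (by rw [← h₂]; exact pow_orderOf_eq_one t) h₀
  generalize hT : Lib.Golay.toPerm Lib.Golay.c2bII = T at *
  have key : ∀ c : Equiv.Perm Cfsg.GolayPt, (c ∈ Cfsg.M24 ∧ c * (u * T * u⁻¹) = u * T * u⁻¹ * c) ↔
      u⁻¹ * c * u ∈ Lib.Golay.C2 := by
    intro c
    rw [Lib.Golay.mem_C2, hT]
    constructor
    · rintro ⟨h1, h2⟩
      refine ⟨Cfsg.M24.mul_mem (Cfsg.M24.mul_mem (Cfsg.M24.inv_mem hu) h1) hu, ?_⟩
      calc u⁻¹ * c * u * T = u⁻¹ * (c * (u * T * u⁻¹)) * u := by group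
        _ = u⁻¹ * (u * T * u⁻¹ * c) * u := by rw [h2]
        _ = _ := by group
    · rintro ⟨h1, h2⟩
      constructor
      · have := Cfsg.M24.mul_mem (Cfsg.M24.mul_mem hu h1) (Cfsg.M24.inv_mem hu)
        have e : u * (u⁻¹ * c * u) * u⁻¹ = c := by group
        rwa [e] at this
      · calc c * (u * T * u⁻¹) = u * (u⁻¹ * c * u * T) * u⁻¹ := by group
          _ = u * (T * (u⁻¹ * c * u)) * u⁻¹ := by rw [h2]
          _ = _ := by group
  refine ⟨?_, ?_, ?_⟩
  · rw [← Lib.Golay.card_C2]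
    refine Nat.card_congr
      { toFun := fun c => ⟨u⁻¹ * c.1 * u, (key c.1).mp c.2⟩
        invFun := fun c => ⟨u * c.1 * u⁻¹, (key _).mpr (by
          have e : u⁻¹ * (u * c.1 * u⁻¹) * u = c.1 := by group
          rw [e]; exact c.2)⟩
        left_inv := fun c => Subtype.ext (by
          show u * (u⁻¹ * c.1 * u) * u⁻¹ = c.1
          group)
        right_inv := fun c => Subtype.ext (by
          show u⁻¹ * (u * c.1 * u⁻¹) * u = c.1
          group) }
  · intro p q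
    obtain ⟨a, -, ha, ha2⟩ := Lib.Golay.exists_u0 (u⁻¹ p)
    obtain ⟨b, -, hb, hb2⟩ := Lib.Golay.exists_u0 (u⁻¹ q)
    generalize Lib.Golay.toPerm a = A at ha ha2
    generalize Lib.Golay.toPerm b = B at hb hb2
    have hm : B * A⁻¹ ∈ Lib.Golay.C2 := Lib.Golay.C2.mul_mem hb (Lib.Golay.C2.inv_mem ha)
    have h1 := (key (u * (B * A⁻¹) * u⁻¹)).mpr (by
      have e : u⁻¹ * (u * (B * A⁻¹) * u⁻¹) * u = B * A⁻¹ := by group
      rw [e]; exact hm)
    refine ⟨_, h1.1, h1.2, ?_⟩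
    rw [Equiv.Perm.mul_apply, Equiv.Perm.mul_apply, Equiv.Perm.mul_apply, ← ha2, Lib.Golay.perm_inv_apply, hb2,
      Lib.Golay.perm_apply_inv]
  · have hS := (Lib.Golay.sextOK_spec Lib.Golay.s2_ok).1
    have hmain : ∀ c ∈ Cfsg.M24, c * (u * T * u⁻¹) = u * T * u⁻¹ * c →
        c • u • Lib.Golay.famL Lib.Golay.s2L = u • Lib.Golay.famL Lib.Golay.s2L := by
      intro c hc1 hc2
      have h1 := Lib.Golay.C2_sextet ((key c).mp ⟨hc1, hc2⟩)
      rw [mul_smul, mul_smul, inv_smul_eq_iff] at h1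
      exact h1
    exact ⟨u • Lib.Golay.famL Lib.Golay.s2L, Lib.Golay.smul_mem_sextets93 hu hS, hmain _ ht rfl, hmain⟩

end Cfsg.Agent.S5607
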