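import Cfsg.Statements.S5608
import Cfsg.Agent.Lib.GolayElts2

set_option autoImplicit false
open scoped Pointwise
open Cfsg

namespace Cfsg.Agent.S5608

/-- If an element of order 3 and an involution of the group of the length-24 code commute, then either the element of order 3 has exactly 6 fixed points and the involution exactly 8, or both are fixed-point-free. -/
theorem result (x s : Equiv.Perm Cfsg.GolayPt) (hx : x ∈ Cfsg.M24) (hs : s ∈ Cfsg.M24) (h₃ : orderOf x = 3) (h₂ : orderOf s = 2) (hc : Commute x s) : ((Finset.univ.filter fun p => x p = p).card = 6 ∧ (Finset.univ.filter fun p => s p = p).card = 8) ∨ ((Finset.univ.filter fun p => x p = p).card = 0 ∧ (Finset.univ.filter fun p => s p = p).card = 0) := by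
  rcases Lib.Golay.fix_three hx h₃ with h | h
  · exact Or.inl ⟨h.2, Lib.Golay.comm_three_two hx hs h₃ h₂ hc h.2⟩
  · right
    refine ⟨h.2, ?_⟩
    rcases Lib.Golay.fix_two hs h₂ with h1 | h1
    · exfalso
      have : Fact (Nat.Prime 3) := ⟨Nat.prime_three⟩
      have hx3 : x ^ 3 = 1 := by rw [← h₃]; exact pow_orderOf_eq_one x
      have h2 := Lib.GolayFix.card_modEq hx3 (Lib.GolayFix.Fix s) (fun p hp => by
        rw [Lib.GolayFix.mem_Fix] at hp ⊢
        have := DFunLike.congr_fun hc.eq p
        rw [Equiv.Perm.mul_apply, Equiv.Perm.mul_apply, hp] at this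
        exact this.symm)
      have h3 : (Lib.GolayFix.Fix s).card = 8 := h1.2
      have h4 : Lib.GolayFix.Fix x = ∅ := Finset.card_eq_zero.mp h.2
      rw [h3, h4, Finset.inter_empty, Finset.card_empty] at h2
      exact absurd h2 (by decide)
    · exact h1.2

end Cfsg.Agent.S5608
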