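import Cfsg.Statements.S5611
import Cfsg.Agent.Lib.GolayOrbits

set_option autoImplicit false
open scoped Pointwise
open Cfsg

namespace Cfsg.Agent.S5611

/-- The stabiliser of a sextet in the group of the length-24 code has exactly three orbits on the 759 octads, of sizes 15, 360 and 384, and exactly four orbits on the 3795 trios, of sizes 15, 180, 720 and 2880. -/
theorem result (S : Finset (Finset Cfsg.GolayPt)) (hS : S ∈ Cfsg.sextets) : (∃ X₁ ∈ Cfsg.octads, ∃ X₂ ∈ Cfsg.octads, ∃ X₃ ∈ Cfsg.octads, (MulAction.orbit ↥(MulAction.stabilizer Cfsg.M24 S) X₁).ncard = 15 ∧ (MulAction.orbit ↥(MulAction.stabilizer Cfsg.M24 S) X₂).ncard = 360 ∧ (MulAction.orbit ↥(MulAction.stabilizer Cfsg.M24 S) X₃).ncard = 384 ∧ Cfsg.octads = MulAction.orbit ↥(MulAction.stabilizer Cfsg.M24 S) X₁ ∪ MulAction.orbit ↥(MulAction.stabilizer Cfsg.M24 S) X₂ ∪ MulAction.orbit ↥(MulAction.stabilizer Cfsg.M24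 S) X₃) ∧ (∃ Y₁ ∈ Cfsg.trios, ∃ Y₂ ∈ Cfsg.trios, ∃ Y₃ ∈ Cfsg.trios, ∃ Y₄ ∈ Cfsg.trios, (MulAction.orbit ↥(MulAction.stabilizer Cfsg.M24 S) Y₁).ncard = 15 ∧ (MulAction.orbit ↥(MulAction.stabilizer Cfsg.M24 S) Y₂).ncard = 180 ∧ (MulAction.orbit ↥(MulAction.stabilizer Cfsg.M24 S) Y₃).ncard = 720 ∧ (MulAction.orbit ↥(MulAction.stabilizer Cfsg.M24 S) Y₄).ncard = 2880 ∧ Cfsg.trios = MulAction.orbit ↥(MulAction.stabilizer Cfsg.M24 S) Y₁ ∪ MulAction.orbit ↥(MulAction.stabilizer Cfsg.M24 S) Y₂ ∪ MulAction.orbit ↥(MulAction.stabilizer Cfsg.M24 S) Y₃ ∪ MulAction.orbit ↥(MulAction.stabilizer Cfsg.M24 S) Y₄) :=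
  ⟨(Lib.Golay.dec_sextet_octads hS).three' Lib.Golay.single_octads,
    (Lib.Golay.dec_sextet_trios hS).four' Lib.Golay.single_trios⟩

end Cfsg.Agent.S5611
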