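import Cfsg.Statements.S5612
import Cfsg.Agent.Lib.GolayOrbits

set_option autoImplicit false
open scoped Pointwise
open Cfsg

namespace Cfsg.Agent.S5612

/-- The stabiliser of a trio in the group of the length-24 code has exactly three orbits on the 759 octads, of sizes 3, 84 and 672, and exactly four orbits on the 1771 sextets, of sizes 7, 84, 336 and 1344. -/
theorem result (T : Finset (Finset Cfsg.GolayPt)) (hT : T ∈ Cfsg.trios) : (∃ X₁ ∈ Cfsg.octads, ∃ X₂ ∈ Cfsg.octads, ∃ X₃ ∈ Cfsg.octads, (MulAction.orbit ↥(MulAction.stabilizer Cfsg.M24 T) X₁).ncard = 3 ∧ (MulAction.orbit ↥(MulAction.stabilizer Cfsg.M24 T) X₂).ncard = 84 ∧ (MulAction.orbit ↥(MulAction.stabilizer Cfsg.M24 T) X₃).ncard = 672 ∧ Cfsg.octads = MulAction.orbit ↥(MulAction.stabilizer Cfsg.M24 T) X₁ ∪ MulAction.orbit ↥(MulAction.stabilizer Cfsg.M24 T) X₂ ∪ MulAction.orbit ↥(MulAction.stabilizer Cfsg.M24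 T) X₃) ∧ (∃ Y₁ ∈ Cfsg.sextets, ∃ Y₂ ∈ Cfsg.sextets, ∃ Y₃ ∈ Cfsg.sextets, ∃ Y₄ ∈ Cfsg.sextets, (MulAction.orbit ↥(MulAction.stabilizer Cfsg.M24 T) Y₁).ncard = 7 ∧ (MulAction.orbit ↥(MulAction.stabilizer Cfsg.M24 T) Y₂).ncard = 84 ∧ (MulAction.orbit ↥(MulAction.stabilizer Cfsg.M24 T) Y₃).ncard = 336 ∧ (MulAction.orbit ↥(MulAction.stabilizer Cfsg.M24 T) Y₄).ncard = 1344 ∧ Cfsg.sextets = MulAction.orbit ↥(MulAction.stabilizer Cfsg.M24 T) Y₁ ∪ MulAction.orbit ↥(MulAction.stabilizer Cfsg.M24 T) Y₂ ∪ MulAction.orbit ↥(MulAction.stabilizer Cfsg.M24 T) Y₃ ∪ MulAction.orbit ↥(MulAction.stabilizer Cfsg.M24 T) Y₄) :=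
  ⟨(Lib.Golay.dec_trio_octads hT).three'' Lib.Golay.single_octads,
    (Lib.Golay.dec_trio_sextets hT).four' Lib.Golay.single_sextets⟩

end Cfsg.Agent.S5612
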