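import Cfsg.Statements.S5615
import Cfsg.Agent.Lib.GolayMore

set_option autoImplicit false
open scoped Pointwise
open Cfsg

namespace Cfsg.Agent.S5615

/-- An octad of the length-24 code lies in exactly 15 trios; the stabiliser of the octad in the code's group acts doubly transitively on these 15 trios, and the kernel of this action is the pointwise stabiliser of the octad. -/
theorem result (o : Finset Cfsg.GolayPt) (ho : o ∈ Cfsg.octads) : {T : Finset (Finset Cfsg.GolayPt) | T ∈ Cfsg.trios ∧ o ∈ T}.ncard = 15 ∧ (∀ T₁ T₂ T₁' T₂' : Finset (Finset Cfsg.GolayPt), T₁ ∈ Cfsg.trios → T₂ ∈ Cfsg.trios → T₁' ∈ Cfsg.trios → T₂' ∈ Cfsg.trios → o ∈ T₁ → o ∈ T₂ → o ∈ T₁' → o ∈ T₂' → T₁ ≠ T₂ → T₁' ≠ T₂' → ∃ g ∈ Cfsg.M24, g • o = o ∧ g • T₁ = T₁' ∧ g • T₂ = T₂') ∧ ∀ g ∈ Cfsg.M24, g • o = o → ((∀ T ∈ Cfsg.trios, o ∈ T → g • T = T) ↔ ∀ p ∈ o, g p = p) :=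
  ⟨Lib.Golay.ncard_trios_through ho,
    fun T₁ T₂ T₁' T₂' h1 h2 h1' h2' m1 m2 m1' m2' hne hne' => Lib.Golay.trio_double ho h1 h2 h1' h2' m1 m2 m1' m2' hne hne',
    fun g hg hgo => Lib.Golay.trio_kernel ho hg hgo⟩

end Cfsg.Agent.S5615
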