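import Cfsg.Statements.S5617
import Cfsg.Agent.Lib.GolayOrbits

set_option autoImplicit false
open scoped Pointwise
open Cfsg

namespace Cfsg.Agent.S5617

/-- The setwise stabiliser, in the group of the length-24 code, of a complementary pair of dodecads has exactly three orbits on the 1771 sextets, of sizes 396, 495 and 880. -/
theorem result (d : Finset Cfsg.GolayPt) (hd : d ∈ Cfsg.dodecads) : ∃ X₁ ∈ Cfsg.sextets, ∃ X₂ ∈ Cfsg.sextets, ∃ X₃ ∈ Cfsg.sextets, (MulAction.orbit ↥(MulAction.stabilizer Cfsg.M24 ({d, Finset.univ \ d} : Finset (Finset Cfsg.GolayPt))) X₁).ncard = 396 ∧ (MulAction.orbit ↥(MulAction.stabilizer Cfsg.M24 ({d, Finset.univ \ d} : Finset (Finset Cfsg.GolayPt))) X₂).ncard = 495 ∧ (MulAction.orbit ↥(MulAction.stabilizer Cfsg.M24 ({d, Finset.univ \ d} : Finset (Finset Cfsg.GolayPt))) X₃).ncard = 880 ∧ Cfsg.sextets = MulAction.orbit ↥(MulAction.stabilizer Cfsg.M24 ({d, Finset.univ \ d} : Finset (Finset Cfsg.GolayPt)))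 X₁ ∪ MulAction.orbit ↥(MulAction.stabilizer Cfsg.M24 ({d, Finset.univ \ d} : Finset (Finset Cfsg.GolayPt))) X₂ ∪ MulAction.orbit ↥(MulAction.stabilizer Cfsg.M24 ({d, Finset.univ \ d} : Finset (Finset Cfsg.GolayPt))) X₃ := by
  obtain ⟨x, hx, y, hy, z, hz, h1, h2, h3, h4⟩ := (Lib.Golay.dec_dodecad_sextets hd).three
  exact ⟨x, hx, z, hz, y, hy, h1, h3, h2, (h4 Lib.Golay.single_sextets.1).trans (Set.union_right_comm _ _ _)⟩

end Cfsg.Agent.S5617
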