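import Cfsg.Statements.S5619
import Cfsg.Agent.Lib.GolayThree

set_option autoImplicit false
open scoped Pointwise
open Cfsg

namespace Cfsg.Agent.S5619

/-- In the group of the length-24 code, the subgroup fixing a dodecad setwise and three of its points individually (a group of order 72) has a normal Sylow 3-subgroup that is elementary abelian of order 9, and its Sylow 2-subgroups are quaternion of order 8. -/
theorem result (d : Finset Cfsg.GolayPt) (hd : d ∈ Cfsg.dodecads) (p q r : Cfsg.GolayPt) (hp : p ∈ d) (hq : q ∈ d) (hr : r ∈ d) (hpq : p ≠ q) (hpr : p ≠ r) (hqr : q ≠ r) : (∀ Q : Sylow 3 ↥(MulAction.stabilizer Cfsg.M24 d ⊓ MulAction.stabilizer Cfsg.M24 p ⊓ MulAction.stabilizer Cfsg.M24 q ⊓ MulAction.stabilizer Cfsg.M24 r), (Q : Subgroup ↥(MulAction.stabilizer Cfsg.M24 d ⊓ MulAction.stabilizer Cfsg.M24 p ⊓ MulAction.stabilizer Cfsg.M24 q ⊓ MulAction.stabilizer Cfsg.M24 r)).Normal ∧ Nat.card ↥Q = 9 ∧ ∀ x ∈ (Q : Subgroup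 ↥(MulAction.stabilizer Cfsg.M24 d ⊓ MulAction.stabilizer Cfsg.M24 p ⊓ MulAction.stabilizer Cfsg.M24 q ⊓ MulAction.stabilizer Cfsg.M24 r)), x ^ 3 = 1) ∧ ∀ P : Sylow 2 ↥(MulAction.stabilizer Cfsg.M24 d ⊓ MulAction.stabilizer Cfsg.M24 p ⊓ MulAction.stabilizer Cfsg.M24 q ⊓ MulAction.stabilizer Cfsg.M24 r), Nonempty (↥P ≃* QuaternionGroup 2) := by
  obtain ⟨a, b, i, j, h⟩ := Lib.Golay.three_points_main hd hp hq hr hpq hpr hqr
  exact h.main (Lib.Golay.card_three_points hd hp hq hr hpq hpr hqr)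

end Cfsg.Agent.S5619
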