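import Cfsg.Statements.S5620
import Cfsg.Agent.Lib.GolayM12

set_option autoImplicit false
open scoped Pointwise
open Cfsg

namespace Cfsg.Agent.S5620

/-- Inside the stabiliser of the dodecad of squares (a Mathieu group of degree 12), the stabiliser of the residue 0 (a point of the dodecad) and the stabiliser of the extra point (a point outside the dodecad) are isomorphic but not conjugate; conjugation by a suitable element of the code's group that maps the dodecad of squares onto its complement carries the first onto the second. -/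
theorem result : Nonempty (↥(Cfsg.Spor.M12 ⊓ MulAction.stabilizer (Equiv.Perm Cfsg.GolayPt) (none : Cfsg.GolayPt)) ≃* ↥Cfsg.Spor.M11) ∧ (¬ ∃ k ∈ Cfsg.Spor.M12, MulAut.conj k • Cfsg.Spor.M11 = Cfsg.Spor.M12 ⊓ MulAction.stabilizer (Equiv.Perm Cfsg.GolayPt) (none : Cfsg.GolayPt)) ∧ ∃ g ∈ Cfsg.M24, g • Cfsg.Spor.squareDodecad = Finset.univ \ Cfsg.Spor.squareDodecad ∧ MulAut.conj g • Cfsg.Spor.M11 = Cfsg.Spor.M12 ⊓ MulAction.stabilizer (Equiv.Perm Cfsg.GolayPt) (none : Cfsg.GolayPt) := by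
  have hsq : Cfsg.Spor.squareDodecad = Lib.Golay.mset 340831 := by
    have : Lib.Golay.qm (0 : ZMod 23).val = 340831 := by decide +kernel
    rw [Cfsg.Spor.squareDodecad, Lib.Golay.qrWord_eq, Lib.Golay.support₂_wd, this]
  have hD : Cfsg.Spor.squareDodecad ∈ Cfsg.dodecads := by
    rw [hsq]; exact Lib.Golay.dod0_mem
  have h0 : (some 0 : Cfsg.GolayPt) ∈ Cfsg.Spor.squareDodecad := by
    rw [hsq, Lib.Golay.mem_mset]; decide +kernel
  have hn : (none : Cfsg.GolayPt) ∉ Cfsg.Spor.squareDodecad := by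
    rw [hsq, Lib.Golay.mem_mset]; decide +kernel
  have hE : Finset.univ \ Cfsg.Spor.squareDodecad ∈ Cfsg.dodecads := by
    refine ⟨Lib.Golay.compl_mem_supports hD.1, ?_⟩
    rw [Finset.card_sdiff_of_subset (Finset.subset_univ _), hD.2, Finset.card_univ, Lib.Golay.card_pt]
  have hsm : ∀ y : Equiv.Perm Cfsg.GolayPt, y • (Finset.univ \ Cfsg.Spor.squareDodecad) =
      Finset.univ \ (y • Cfsg.Spor.squareDodecad) := by
    intro y
    rw [Finset.smul_finset_sdiff, Finset.smul_finset_univ]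
  have hdd : Finset.univ \ (Finset.univ \ Cfsg.Spor.squareDodecad) = Cfsg.Spor.squareDodecad := by
    simp
  have hM11 : ∀ x, x ∈ Cfsg.Spor.M11 ↔ x ∈ Cfsg.M24 ∧ x • Cfsg.Spor.squareDodecad = Cfsg.Spor.squareDodecad ∧
      x (some 0) = some 0 := fun x => ⟨fun h => ⟨h.1.1, h.1.2, h.2⟩, fun h => ⟨⟨h.1, h.2.1⟩, h.2.2⟩⟩
  have hMn : ∀ x, x ∈ Cfsg.Spor.M12 ⊓ MulAction.stabilizer (Equiv.Perm Cfsg.GolayPt) (none : Cfsg.GolayPt) ↔
      x ∈ Cfsg.M24 ∧ x • Cfsg.Spor.squareDodecad = Cfsg.Spor.squareDodecad ∧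
      x none = none := fun x => ⟨fun h => ⟨h.1.1, h.1.2, h.2⟩, fun h => ⟨⟨h.1, h.2.1⟩, h.2.2⟩⟩
  have hconj : ∀ g x : Equiv.Perm Cfsg.GolayPt, ∀ H : Subgroup (Equiv.Perm Cfsg.GolayPt),
      x ∈ MulAut.conj g • H ↔ g⁻¹ * x * g ∈ H := by
    intro g x H
    rw [Subgroup.mem_pointwise_smul_iff_inv_smul_mem, ← map_inv, MulAut.smul_def, MulAut.conj_apply, inv_inv]
  have main : ∃ g ∈ Cfsg.M24, g • Cfsg.Spor.squareDodecad = Finset.univ \ Cfsg.Spor.squareDodecad ∧
      MulAut.conj g • Cfsg.Spor.M11 = Cfsg.Spor.M12 ⊓ MulAction.stabilizer (Equiv.Perm Cfsg.GolayPt) (none : Cfsg.GolayPt) := by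
    obtain ⟨g0, hg0, e0⟩ := Lib.Golay.dodecad_transitive hD hE
    have hg00 : g0 (some 0) ∈ Finset.univ \ Cfsg.Spor.squareDodecad := by
      rw [← e0, Lib.Golay.smul_mem_smul]; exact h0
    obtain ⟨h, hh, hhE, hh0⟩ := Lib.Golay.exists_le_five_dodecad hE (n := 1) (by norm_num)
      ⟨fun _ => g0 (some 0), fun i j _ => Subsingleton.elim _ _⟩ ⟨fun _ => none, fun i j _ => Subsingleton.elim _ _⟩
      (fun _ => hg00) (fun _ => Finset.mem_sdiff.mpr ⟨Finset.mem_univ _, hn⟩)
    have hh0' : h (g0 (some 0)) = none := hh0 0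
    have e1 : (h * g0) • Cfsg.Spor.squareDodecad = Finset.univ \ Cfsg.Spor.squareDodecad := by
      rw [mul_smul, e0, hhE]
    have hg : h * g0 ∈ Cfsg.M24 := Cfsg.M24.mul_mem hh hg0
    refine ⟨h * g0, hg, e1, ?_⟩
    generalize hgg : h * g0 = g at e1 hg
    have e2 : g (some 0) = none := by rw [← hgg, Equiv.Perm.mul_apply, hh0']
    ext y
    rw [hconj, hM11, hMn]
    have c1 : g⁻¹ * y * g ∈ Cfsg.M24 ↔ y ∈ Cfsg.M24 := by
      constructor
      · intro h
        have := Cfsg.M24.mul_mem (Cfsg.M24.mul_mem hg h) (Cfsg.M24.inv_mem hg)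
        have e : g * (g⁻¹ * y * g) * g⁻¹ = y := by group
        rwa [e] at this
      · intro h
        exact Cfsg.M24.mul_mem (Cfsg.M24.mul_mem (Cfsg.M24.inv_mem hg) h) hg
    have c2 : (g⁻¹ * y * g) • Cfsg.Spor.squareDodecad = Cfsg.Spor.squareDodecad ↔
        y • Cfsg.Spor.squareDodecad = Cfsg.Spor.squareDodecad := by
      rw [mul_smul, mul_smul, e1, inv_smul_eq_iff, e1, hsm]
      constructor
      · intro h
        have := congrArg (fun s => Finset.univ \ s) h
        simpa using this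
      · intro h; rw [h]
    have c3 : (g⁻¹ * y * g) (some 0) = some 0 ↔ y none = none := by
      rw [Equiv.Perm.mul_apply, Equiv.Perm.mul_apply, e2, Equiv.Perm.inv_eq_iff_eq, e2]
    rw [c1, c2, c3]
  refine ⟨?_, ?_, main⟩
  · obtain ⟨g, -, -, e⟩ := main
    exact ⟨((Subgroup.equivSMul (MulAut.conj g) Cfsg.Spor.M11).trans (MulEquiv.subgroupCongr e)).symm⟩
  · rintro ⟨k, hk, e⟩
    have hkD : k • Cfsg.Spor.squareDodecad = Cfsg.Spor.squareDodecad := hk.2
    have hk0 : k (some 0) ∈ Cfsg.Spor.squareDodecad := by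
      rw [← hkD, Lib.Golay.smul_mem_smul]; exact h0
    -- a point of the dodecad different from `k 0`
    obtain ⟨q, hq, hq'⟩ : ∃ q ∈ Cfsg.Spor.squareDodecad, q ≠ k (some 0) := by
      have : 1 < Cfsg.Spor.squareDodecad.card := by rw [hD.2]; norm_num
      obtain ⟨a, ha, b, hb, hab⟩ := Finset.one_lt_card.mp this
      by_cases h : a = k (some 0)
      · exact ⟨b, hb, fun h2 => hab (h.trans h2.symm)⟩
      · exact ⟨a, ha, h⟩
    obtain ⟨r, hr, hr1, hr2⟩ : ∃ r ∈ Cfsg.Spor.squareDodecad, r ≠ k (some 0) ∧ r ≠ q := by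
      have hlt : ({k (some 0), q} : Finset Cfsg.GolayPt).card < Cfsg.Spor.squareDodecad.card := by
        rw [hD.2]
        exact lt_of_le_of_lt Finset.card_le_two (by norm_num)
      obtain ⟨r, hr, hr'⟩ := Finset.exists_mem_notMem_of_card_lt_card hlt
      simp only [Finset.mem_insert, Finset.mem_singleton, not_or] at hr'
      exact ⟨r, hr, hr'.1, hr'.2⟩
    have hmk : ∀ a b c : Cfsg.GolayPt, a ≠ b → a ≠ c → b ≠ c → Function.Injective ![a, b, c] := by
      intro a b c hab hac hbc i j hij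
      fin_cases i <;> fin_cases j <;> simp_all
    obtain ⟨g, hg, hgE, hgn, hgx⟩ := Lib.Golay.M11_three_transitive_compl hE
      (Finset.mem_sdiff.mpr ⟨Finset.mem_univ _, hn⟩)
      ⟨![k (some 0), q, r], hmk _ _ _ (Ne.symm hq') (Ne.symm hr1) (Ne.symm hr2)⟩
      ⟨![q, k (some 0), r], hmk _ _ _ hq' (Ne.symm hr2) (Ne.symm hr1)⟩
      (by
        intro i
        rw [Finset.mem_sdiff]
        rintro ⟨-, h⟩
        apply h
        fin_cases i
        exacts [hk0, hq, hr])
      (by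
        intro i
        rw [Finset.mem_sdiff]
        rintro ⟨-, h⟩
        apply h
        fin_cases i
        exacts [hq, hk0, hr])
    have hgk : g (k (some 0)) = q := hgx 0
    have hgD : g • Cfsg.Spor.squareDodecad = Cfsg.Spor.squareDodecad := by
      rw [hsm] at hgE
      have := congrArg (fun s => Finset.univ \ s) hgE
      simpa using this
    have hgm : g ∈ MulAut.conj k • Cfsg.Spor.M11 := by
      rw [e]; exact (hMn g).mpr ⟨hg, hgD, hgn⟩
    rw [hconj, hM11] at hgm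
    have h3 := hgm.2.2
    rw [Equiv.Perm.mul_apply, Equiv.Perm.mul_apply, hgk, Equiv.Perm.inv_eq_iff_eq] at h3
    exact hq' h3


end Cfsg.Agent.S5620
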