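import Cfsg.Statements.S5625
import Cfsg.Agent.Lib.SteinerH93

set_option autoImplicit false
open Cfsg

namespace Cfsg.Agent.S5625

/-- In any Steiner system S(5, 8, 24) and for any set Y of three points, the blocks meeting Y in exactly 3, 2, 1 and 0 points number 21, 168, 360 and 210 respectively (so there are 759 blocks in all). -/
theorem result (α : Type*) [Fintype α] [DecidableEq α] (hα : Fintype.card α = 24) (B : Set (Finset α)) (hB : Cfsg.IsSteinerSystem 5 8 B) (Y : Finset α) (hY : Y.card = 3) : {b : Finset α | b ∈ B ∧ (b ∩ Y).card = 3}.ncard = 21 ∧ {b : Finset α | b ∈ B ∧ (b ∩ Y).card = 2}.ncard = 168 ∧ {b : Finset α | b ∈ B ∧ (b ∩ Y).card = 1}.ncard = 360 ∧ {b : Finset α | b ∈ B ∧ (b ∩ Y).card = 0}.ncard = 210 := by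
  obtain ⟨h3, h2, h1, h0⟩ := Cfsg.Agent.Lib.SteinerH93.three_set_counts hα B hB Y hY
  refine ⟨?_, ?_, ?_, ?_⟩
  · rw [Cfsg.Agent.Lib.SteinerH93.inum_eq_ncard, h3]
  · rw [Cfsg.Agent.Lib.SteinerH93.inum_eq_ncard, h2]
  · rw [Cfsg.Agent.Lib.SteinerH93.inum_eq_ncard, h1]
  · rw [Cfsg.Agent.Lib.SteinerH93.inum_eq_ncard, h0]

end Cfsg.Agent.S5625
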