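import Cfsg.Statements.S5630
import Cfsg.Agent.Lib.AschLinear

set_option autoImplicit false
open Cfsg

namespace Cfsg.Agent.S5630

/-- Subgroup structure of the finite linear groups in dimension at least 3. Let F be a finite field, n ≥ 3, and let H be a subgroup of SL_n(F) (the kernel of the determinant inside GL_n(F)) whose product with the scalar matrices of determinant one is not all of SL_n(F), i.e. H does not cover PSL_n(F). Then either H is contained in a member of one of the eight geometric classes of subgroups of GL_n(F) (reducible, imprimitive, extension field, tensor product, subfield, symplectic-type normaliser, tensor wreath, similarity group of a form, with the conditions built into InLinearClass), or H is in the residual class: modulo scalars it is almost simple, and the perfect preimage of its socle acts absolutely irreducibly, is realisable over no proper subfield, and fixes no non-degenerate quadratic, symplectic or unitary form. (Dimension 2, where the linear and symplectic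 groups coincide, is left to the classical list of subgroups of PSL_2.) -/
theorem result {F : Type*} [Field F] [Fintype F] (n : ℕ) (hn : 3 ≤ n) (H : Subgroup (Matrix.GeneralLinearGroup (Fin n) F)) (hH : H ≤ Cfsg.Geo.specialLinear (Fin n) F) (hproper : H ⊔ (Cfsg.Geo.scalars (Fin n) F ⊓ Cfsg.Geo.specialLinear (Fin n) F) ≠ Cfsg.Geo.specialLinear (Fin n) F) : (∃ M : Subgroup (Matrix.GeneralLinearGroup (Fin n) F), Cfsg.Geo.InLinearClass n F M ∧ H ≤ M) ∨ Cfsg.Geo.InLinearResidualClass H := by
  classical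
  have hcase : Cfsg.Agent.Lib.AschLinear.LinCase H := Cfsg.Agent.Lib.AschLinear.linCase (by simpa using hn) H
  unfold Cfsg.Geo.InLinearClass
  cases hcase with
  | reducible W hb ht h => exact Or.inl ⟨_, Or.inl ⟨W, hb, ht, rfl⟩, h⟩
  | imprimitive t m D hD h => exact Or.inl ⟨_, Or.inr (Or.inr (Or.inr (Or.inl ⟨t, m, D, hD, rfl⟩))), h⟩
  | field r K hr hrn hK h => exact Or.inl ⟨_, Or.inr (Or.inr (Or.inr (Or.inr (Or.inl ⟨r, K, hr, hK, rfl⟩)))), h⟩
  | tensor n₁ n₂ e P h1 h2 h =>
    exact Or.inl ⟨_, Or.inr (Or.inr (Or.inr (Or.inr (Or.inr (Or.inl ⟨n₁, n₂, e, P, h1, h2, rfl⟩))))), h⟩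
  | subfield F₀ r P hr hc h =>
    exact Or.inl ⟨_, Or.inr (Or.inr (Or.inr (Or.inr (Or.inr (Or.inr (Or.inl ⟨F₀, r, P, hr, hc, rfl⟩)))))), h⟩
  | symplecticType r m R hm hR h =>
    exact Or.inl ⟨_, Or.inr (Or.inr (Or.inr (Or.inr (Or.inr (Or.inr (Or.inr (Or.inl ⟨r, R, hR, rfl⟩))))))), h⟩
  | tensorWreath m t e P hm ht h =>
    exact Or.inl ⟨_, Or.inr (Or.inr (Or.inr (Or.inr (Or.inr (Or.inr (Or.inr (Or.inr (Or.inl
      ⟨m, t, e, P, hm, ht, rfl⟩)))))))), h⟩
  | symplectic f hf h =>
    have he : Even n := by simpa using Cfsg.Agent.Lib.AschForm2.even_of_symplectic hf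
    exact Or.inl ⟨_, Or.inr (Or.inr (Or.inr (Or.inr (Or.inr (Or.inr (Or.inr (Or.inr (Or.inr (Or.inl
      ⟨f, hf, he, by obtain ⟨k, hk⟩ := he; omega, rfl⟩))))))))), h⟩
  | unitary σ f hf h =>
    exact Or.inl ⟨_, Or.inr (Or.inr (Or.inr (Or.inr (Or.inr (Or.inr (Or.inr (Or.inr (Or.inr (Or.inr (Or.inl
      ⟨σ, f, hf, hn, rfl⟩)))))))))), h⟩
  | quadratic Q hQ hodd h =>
    exact Or.inl ⟨_, Or.inr (Or.inr (Or.inr (Or.inr (Or.inr (Or.inr (Or.inr (Or.inr (Or.inr (Or.inr (Or.inr
      ⟨Q, hQ, hodd, hn, rfl⟩)))))))))), h⟩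
  | residual h => exact Or.inr h

end Cfsg.Agent.S5630
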