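import Cfsg.Statements.S5637
import Cfsg.Agent.Lib.GeoBridge
import Cfsg.Agent.Lib.SLMax
import Cfsg.Agent.Lib.TenBrH94
-- import your own Cfsg.Agent.* helpers here

set_option autoImplicit false
open Cfsg

namespace Cfsg.Agent.S5637


open Module Cfsg.Agent.Lib.GeoBridge Cfsg.Agent.Lib.SLMax Cfsg.Agent.Lib.TenSLH94 Cfsg.Agent.Lib.TenBrH94
open scoped MatrixGroups

/-- For a finite field F with q elements and n = n₁ n₂ ≥ 13 with 2 ≤ n₁ < n₂, excluding n₁ = q = 2, the stabiliser in SL_n(F) of a tensor decomposition F^n ≅ F^(n₁) ⊗ F^(n₂) (the conjugate by any P of the Kronecker-product subgroup transported along any bijection Fin n ≃ Fin n₁ × Fin n₂, intersected with SL_n(F)) is a maximal subgroup of SL_n(F). -/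
theorem result {F : Type*} [Field F] [Fintype F] (n : ℕ) (hn : 13 ≤ n) (n₁ n₂ : ℕ) (h1 : 2 ≤ n₁) (h12 : n₁ < n₂) (hex : ¬ (n₁ = 2 ∧ Fintype.card F = 2)) (e : Fin n ≃ Fin n₁ × Fin n₂) (P : Matrix.GeneralLinearGroup (Fin n) F) : Cfsg.Geo.IsMaximalIn (Cfsg.Geo.specialLinear (Fin n) F) (Cfsg.Geo.tensorProductSubgroup n₁ n₂ e P ⊓ Cfsg.Geo.specialLinear (Fin n) F) := by
  classical
  have hfE : finrank F (Fin n₁ → F) = n₁ := by rw [finrank_fintype_fun_eq_card, Fintype.card_fin]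
  have hfW : finrank F (Fin n₂ → F) = n₂ := by rw [finrank_fintype_fun_eq_card, Fintype.card_fin]
  have hexc : (∃ y : F, y ≠ 0 ∧ y ≠ 1) ∨ 3 ≤ finrank F (Fin n₁ → F) := by
    rw [hfE]
    by_contra hcon
    push Not at hcon
    obtain ⟨h2, h3⟩ := hcon
    apply hex
    refine ⟨by omega, ?_⟩
    have h4 : (Finset.univ : Finset F) = {0, 1} := by
      ext x
      simp only [Finset.mem_univ, Finset.mem_insert, Finset.mem_singleton, true_iff]
      by_cases hx : x = 0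
      · exact Or.inl hx
      · exact Or.inr (h2 x hx)
    rw [← Finset.card_univ, h4, Finset.card_pair zero_ne_one]
  -- a transvection outside
  obtain ⟨t, htS, htN⟩ : ∃ t : GL (Fin n) F, t ∈ Cfsg.Geo.specialLinear (Fin n) F ∧
      t ∉ Cfsg.Geo.tensorProductSubgroup n₁ n₂ e P := by
    obtain ⟨u, φ, hu, hφ, h⟩ : ∃ (u : (Fin n₂ → F) →ₗ[F] (Fin n₁ → F)) (φ : Dual F ((Fin n₂ → F) →ₗ[F] (Fin n₁ → F))),
        u ≠ 0 ∧ φ ≠ 0 ∧ φ u = 0 := by
      have hV : finrank F ((Fin n₂ → F) →ₗ[F] (Fin n₁ → F)) = n₂ * n₁ := by rw [finrank_linearMap, hfE, hfW]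
      have hV2 : 2 ≤ finrank F ((Fin n₂ → F) →ₗ[F] (Fin n₁ → F)) := by
        rw [hV]
        exact (show 2 ≤ 2 * 1 by norm_num).trans (Nat.mul_le_mul (by omega) (by omega))
      obtain ⟨φ, hφ⟩ : ∃ φ : Dual F ((Fin n₂ → F) →ₗ[F] (Fin n₁ → F)), φ ≠ 0 := by
        have : Nontrivial (Dual F ((Fin n₂ → F) →ₗ[F] (Fin n₁ → F))) := by
          rw [← Module.finrank_pos_iff (R := F), Subspace.dual_finrank_eq]
          omega
        exact exists_ne 0
      obtain ⟨u, hu, hφu⟩ := Cfsg.Agent.Lib.TenSLH94.exists_ker hV2 φ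
      exact ⟨u, φ, hu, hφ, hφu⟩
    refine ⟨le.symm (phi e P (tr u φ h)), ?_, ?_⟩
    · rw [mem_specialLinear_iff, MulEquiv.apply_symm_apply, phi_det]
      exact tr_det u φ h
    · rw [mem_iff]
      rintro ⟨p, q, hpq⟩
      exact tr_not_pair (by rw [hfE]; exact h1) (by rw [hfE, hfW]; exact h12) hu hφ h ⟨p, q, phi_inj e P hpq⟩
  apply isMaximalIn_of
  · refine lt_of_le_of_ne inf_le_right fun heq => htN ?_
    rw [← heq] at htS
    exact htS.1
  · intro M hHM hMK hg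
    have hdet : ∀ g ∈ M, LinearMap.det ((g : (Fin n → F) ≃ₗ[F] (Fin n → F)) : (Fin n → F) →ₗ[F] (Fin n → F)) = 1 := by
      intro g hgM
      have := hMK (le.symm g) (by rwa [MulEquiv.apply_symm_apply])
      rwa [mem_specialLinear_iff, MulEquiv.apply_symm_apply] at this
    have T := tm_of e P h1 h12 hdet (fun g hg hg' => hHM g ⟨hg, hg'⟩)
    refine sl_le M fun u φ h => ?_
    obtain ⟨x, hx, hxH⟩ := hg
    obtain ⟨y, hy⟩ := phi_surj e P (le x)
    have h4 := T.main hexc ⟨y, by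
      show phi e P y ∈ M
      rw [hy]; exact hx, fun ⟨p, q, hpq⟩ => hxH ⟨by
        have := (mem_iff e P (le x)).2 ⟨p, q, by rw [← hy, hpq]⟩
        rwa [MulEquiv.symm_apply_apply] at this, hMK x hx⟩⟩ ((Th e P).symm u) (φ ∘ₗ ((Th e P) : _ →ₗ[F] _)) (by
      rw [LinearMap.comp_apply]
      show φ (Th e P ((Th e P).symm u)) = 0
      rw [LinearEquiv.apply_symm_apply, h])
    have h5 : phi e P (tr ((Th e P).symm u) (φ ∘ₗ ((Th e P) : _ →ₗ[F] _)) (by
      rw [LinearMap.comp_apply]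
      show φ (Th e P ((Th e P).symm u)) = 0
      rw [LinearEquiv.apply_symm_apply, h])) = tr u φ h := by
      apply LinearEquiv.ext
      intro x
      rw [phi_apply, tr_apply, tr_apply, map_add, map_smul, LinearEquiv.apply_symm_apply, LinearEquiv.apply_symm_apply]
      congr 2
      show φ (Th e P ((Th e P).symm x)) = φ x
      rw [LinearEquiv.apply_symm_apply]
    have h6 : phi e P (tr ((Th e P).symm u) (φ ∘ₗ ((Th e P) : _ →ₗ[F] _)) (by
      rw [LinearMap.comp_apply]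
      show φ (Th e P ((Th e P).symm u)) = 0
      rw [LinearEquiv.apply_symm_apply, h])) ∈ M := h4
    rwa [h5] at h6


end Cfsg.Agent.S5637
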