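import Cfsg.Statements.S5639
import Cfsg.Agent.Lib.SubfMax2

set_option autoImplicit false
open Cfsg

namespace Cfsg.Agent.S5639

open Matrix Cfsg.Geo Cfsg.Agent.Lib Cfsg.Agent.Lib.SLGeom Cfsg.Agent.Lib.SubfMax Cfsg.Agent.Lib.SubfieldGeo Cfsg.Agent.Lib.GeoBridge
open scoped MatrixGroups

variable {ι : Type} [Fintype ι] [DecidableEq ι] {F : Type*} [Field F]

theorem rat_one {F₀ : Subfield F} {v : ι → F} : v ∈ rat F₀ (1 : GL ι F) ↔ Rt F₀ v := by
  rw [mem_rat]
  constructor
  · rintro ⟨u, hu, rfl⟩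
    rw [Units.val_one, Matrix.one_mulVec]; exact hu
  · intro h
    exact ⟨v, h, by rw [Units.val_one, Matrix.one_mulVec]⟩

/-- conjugation invariance of maximality -/
theorem isMaximalIn_map {G : Type*} [Group G] (e : G ≃* G) {K H : Subgroup G} (h : IsMaximalIn K H) :
    IsMaximalIn (K.map e.toMonoidHom) (H.map e.toMonoidHom) := by
  have hs : ∀ M : Subgroup G, (M.comap e.toMonoidHom).map e.toMonoidHom = M := fun M =>
    Subgroup.map_comap_eq_self_of_surjective e.surjective M
  refine ⟨lt_of_le_of_ne (Subgroup.map_mono h.1.le) (fun he => h.1.ne (Subgroup.map_injective e.injective he)), ?_⟩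
  intro M hM1 hM2
  rcases h.2 (M.comap e.toMonoidHom) (Subgroup.map_le_iff_le_comap.mp hM1) (by
    intro x hx
    obtain ⟨y, hy, hxy⟩ := hM2 hx
    have : y = x := e.injective hxy
    rwa [← this]) with h1 | h1
  · left; rw [← h1, hs]
  · right; rw [← h1, hs]

theorem main [Fintype F] (hn : 13 ≤ Fintype.card ι) (F₀ : Subfield F) (r : ℕ) (hr : r.Prime)
    (hcard : Fintype.card F = Nat.card F₀ ^ r) :
    IsMaximalIn (specialLinear ι F) (subfieldSubgroup F₀ (1 : GL ι F) ⊓ specialLinear ι F) := by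
  have hnt : Nontrivial ι := Fintype.one_lt_card_iff_nontrivial.mp (by omega)
  -- rational transvections
  have hrat : ∀ v w : ι → F, Rt F₀ v → Rt F₀ w → ∀ h : w ⬝ᵥ v = 0, tv v w h ∈ subfieldSubgroup F₀ (1 : GL ι F) := by
    intro v w hv hw h
    rw [mem_subfieldSubgroup_iff]
    refine ⟨1, one_ne_zero, fun x hx => ⟨x + (w ⬝ᵥ x) • v, ?_, ?_⟩⟩
    · rw [rat_one] at hx ⊢
      exact hx.add (hv.smul (hx.dot hw))
    · rw [one_smul, le_apply, tv_mulVec]
  constructor
  · -- strictness
    refine lt_of_le_of_ne inf_le_right ?_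
    intro heq
    obtain ⟨l, hl⟩ : ∃ l : F, l ∉ F₀ := by
      by_contra hcon
      push Not at hcon
      have h1 : Nat.card F₀ = Nat.card F :=
        Nat.card_congr (Equiv.subtypeUnivEquiv hcon)
      rw [Nat.card_eq_fintype_card (α := F), hcard] at h1
      have h2 : 1 < Nat.card F₀ := Finite.one_lt_card
      have h3 : Nat.card F₀ ^ 1 < Nat.card F₀ ^ r := Nat.pow_lt_pow_right h2 hr.one_lt
      rw [pow_one] at h3
      omega
    obtain ⟨i, j, hij⟩ := exists_pair_ne ι
    have e : (l • (Pi.single j 1 : ι → F)) ⬝ᵥ (Pi.single i 1 : ι → F) = 0 := by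
      rw [smul_dotProduct, dotProduct_single, Pi.single_eq_of_ne hij, zero_mul, smul_zero]
    have h1 : tv _ _ e ∈ specialLinear ι F := tv_mem _ _ _
    rw [← heq] at h1
    obtain ⟨c, hc, h2⟩ := (mem_subfieldSubgroup_iff _).mp h1.1
    obtain ⟨x, hx, hx2⟩ := h2 (Pi.single i 1) (rat_one.mpr (Rt_single i F₀.one_mem))
    obtain ⟨y, hy, hy2⟩ := h2 (Pi.single j 1) (rat_one.mpr (Rt_single j F₀.one_mem))
    rw [rat_one] at hx hy
    rw [le_apply, tv_mulVec, e, zero_smul, add_zero] at hx2
    rw [le_apply, tv_mulVec, smul_dotProduct, dotProduct_single, Pi.single_eq_same, one_mul] at hy2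
    have h3 := congrFun hx2 i
    have h4 := congrFun hy2 i
    rw [Pi.single_eq_same, Pi.smul_apply, smul_eq_mul] at h3
    rw [Pi.add_apply, Pi.smul_apply, Pi.smul_apply, Pi.single_eq_of_ne hij, Pi.single_eq_same] at h4
    simp only [smul_eq_mul, mul_one, zero_add] at h4
    apply hl
    have h5 : c = (x i)⁻¹ := eq_inv_of_mul_eq_one_left h3.symm
    rw [h4, h5]
    exact F₀.mul_mem (F₀.inv_mem (hx i)) (hy i)
  · intro M hM1 hM2
    by_cases hfull : specialLinear ι F ≤ M
    · right; exact le_antisymm hM2 hfull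
    · left
      refine le_antisymm ?_ hM1
      have H : Hyp F₀ M :=
        { h3 := by omega
          hX := fun v w hv hw h => ⟨h, hM1 ⟨hrat v w hv hw h, tv_mem _ _ _⟩⟩
          hF := by
            intro v w hv hv0 hw hw0 l hT
            by_contra hl
            exact hfull (full (by omega) (fun v w hv hw h => ⟨h, hM1 ⟨hrat v w hv hw h, tv_mem _ _ _⟩⟩) r hr hcard
              hv hv0 hw hw0 hT hl) }
      intro g hg
      refine ⟨?_, hM2 hg⟩
      apply mem_subfieldSubgroup_of
      intro v hv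
      rw [rat_one] at hv
      by_cases hv0 : v = 0
      · exact ⟨1, 0, (rat F₀ 1).zero_mem, by rw [hv0]; simp⟩
      obtain ⟨w, hw, hw0, h1, _⟩ := exists_perp2 H.h3 hv hv
      have h2 := T_conj hg (H.hX v w hv hw h1)
      have h3 := rational H hn r hr hcard h2
      have h4 : w ᵥ* ((g⁻¹ : GL ι F) : Matrix ι ι F) ≠ 0 := by
        intro h0
        apply hw0
        have : w = (w ᵥ* ((g⁻¹ : GL ι F) : Matrix ι ι F)) ᵥ* (g : Matrix ι ι F) := by
          rw [Matrix.vecMul_vecMul, ← Units.val_mul, inv_mul_cancel, Units.val_one, Matrix.vecMul_one]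
        rw [this, h0, Matrix.zero_vecMul]
      obtain ⟨j, hj⟩ := exists_dot_ne h4
      set a := (w ᵥ* ((g⁻¹ : GL ι F) : Matrix ι ι F)) j with ha
      refine ⟨a⁻¹, a • ((g : Matrix ι ι F) *ᵥ v), ?_, ?_⟩
      · rw [rat_one]
        intro i
        rw [Pi.smul_apply, smul_eq_mul, mul_comm]
        exact h3 i j
      · rw [le_apply, smul_smul, inv_mul_cancel₀ hj, one_smul]

/-- For a finite field F, a subfield F₀ with |F| = |F₀| ^ r for a prime r, and n ≥ 13, the subfield group (the conjugate by any P of the product of GL_n(F₀) with the non-zero scalars of F, intersected with SL_n(F)) is a maximal subgroup of SL_n(F). -/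
theorem result {F : Type*} [Field F] [Fintype F] (n : ℕ) (hn : 13 ≤ n) (F₀ : Subfield F) (r : ℕ) (hr : r.Prime) (hcard : Fintype.card F = Nat.card F₀ ^ r) (P : Matrix.GeneralLinearGroup (Fin n) F) : Cfsg.Geo.IsMaximalIn (Cfsg.Geo.specialLinear (Fin n) F) (Cfsg.Geo.subfieldSubgroup F₀ P ⊓ Cfsg.Geo.specialLinear (Fin n) F) := by
  have h := isMaximalIn_map (MulAut.conj P) (main (ι := Fin n) (F := F) (by rw [Fintype.card_fin]; exact hn) F₀ r hr hcard)
  have hsl : (specialLinear (Fin n) F).map (MulAut.conj P).toMonoidHom = specialLinear (Fin n) F := by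
    haveI : (specialLinear (Fin n) F).Normal := MonoidHom.normal_ker _
    exact Subgroup.Normal.map_conj_eq _ _
  have h1 : (subfieldSubgroup F₀ (1 : GL (Fin n) F)).map (MulAut.conj P).toMonoidHom = subfieldSubgroup F₀ P := by
    rw [subfieldSubgroup, subfieldSubgroup, Subgroup.map_map]
    congr 1
    ext x
    simp
  rw [Subgroup.map_inf_eq _ _ _ (MulAut.conj P).injective, hsl, h1] at h
  exact h

end Cfsg.Agent.S5639
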