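import Cfsg.Statements.S5642
import Cfsg.Agent.Lib.SLMax
-- import your own Cfsg.Agent.* helpers here

set_option autoImplicit false
open Cfsg

namespace Cfsg.Agent.S5642

open Cfsg.Agent.Lib.SpTrans Cfsg.Agent.Lib.SpMax Cfsg.Agent.Lib.GeoBridge Cfsg.Agent.Lib.SLMax

/-- the bilinear map of a symplectic form given as a function -/
def bil {ι : Type} [Fintype ι] [DecidableEq ι] {F : Type*} [Field F] {f : (ι → F) → (ι → F) → F}
    (hf : Cfsg.Geo.IsBilinearForm f) : (ι → F) →ₗ[F] (ι → F) →ₗ[F] F :=
  LinearMap.mk₂ F f hf.add_left hf.smul_left (fun v x y => hf.add_right v x y) (fun c v x => hf.smul_right c v x)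


/-- For a finite field F and n ≥ 13, let f be a non-degenerate symplectic form on F^n (so n is even). Then the elements of SL_n(F) that are similarities of f (f(gu, gv) = c f(u, v) for a non-zero scalar c depending on g) form a maximal subgroup of SL_n(F). -/
theorem result {F : Type*} [Field F] [Fintype F] (n : ℕ) (hn : 13 ≤ n) (f : (Fin n → F) → (Fin n → F) → F) (hf : Cfsg.Geo.IsSymplecticForm f) : Cfsg.Geo.IsMaximalIn (Cfsg.Geo.specialLinear (Fin n) F) (Cfsg.Geo.similarityGroup f ⊓ Cfsg.Geo.specialLinear (Fin n) F) := by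
  let B := bil hf.bilinear
  have hBf : ∀ x y, B x y = f x y := fun x y => rfl
  have hB : B.IsAlt := fun v => hf.alternating v
  have hnd : NdOn B ⊤ := fun x _ hx => by
    obtain ⟨y, hy⟩ := (hf.nondegenerate x hx).2
    exact ⟨y, trivial, hy⟩
  have hfin : Module.finrank F (Fin n → F) = n := by simp
  have hT : ∀ g ∈ tgrp hB (⊤ : Submodule F (Fin n → F)), le.symm g ∈ Cfsg.Geo.similarityGroup f ⊓ Cfsg.Geo.specialLinear (Fin n) F := by
    intro g hg
    refine Subgroup.mem_inf.2 ⟨?_, ?_⟩
    · rw [mem_similarityGroup_iff, MulEquiv.apply_symm_apply]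
      refine ⟨1, fun u v => ?_⟩
      rw [Units.val_one, one_mul]
      exact tgrp_le_isom hB _ hg u v
    · have : tgrp hB (⊤ : Submodule F (Fin n → F)) ≤ (Cfsg.Geo.specialLinear (Fin n) F).map (le : _ ≃* _).toMonoidHom := by
        rw [tgrp, Subgroup.closure_le]
        rintro _ ⟨w, -, a, rfl⟩
        have h1 : (a • B.flip w) w = 0 := by
          show a * B w w = 0
          rw [hB w, mul_zero]
        refine ⟨le.symm (tr w (a • B.flip w) h1), tr_mem_sl _ _ _, ?_⟩
        show le (le.symm _) = _
        rw [MulEquiv.apply_symm_apply]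
        ext x
        rw [tr_apply, tv_apply]; rfl
      obtain ⟨y, hy, hyg⟩ := this hg
      have : le y = g := hyg
      rw [← this, MulEquiv.symm_apply_apply]; exact hy
  apply isMaximalIn_of
  · refine lt_of_le_of_ne inf_le_right fun heq => ?_
    obtain ⟨v, hv0⟩ : ∃ v : Fin n → F, v ≠ 0 := by
      have : Nontrivial (Fin n → F) := Module.nontrivial_of_finrank_pos (R := F) (by omega)
      exact exists_ne 0
    obtain ⟨w, hw, hwv⟩ : ∃ w, B v w = 0 ∧ w ∉ Submodule.span F {v} := by
      have h6 := LinearMap.finrank_range_add_finrank_ker (B v)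
      have h7 : Module.finrank F (LinearMap.range (B v)) ≤ 1 := by
        have := Submodule.finrank_le (LinearMap.range (B v))
        simpa using this
      have hnot : ¬ LinearMap.ker (B v) ≤ Submodule.span F {v} := by
        intro hle
        have := Submodule.finrank_mono hle
        have h8 := finrank_span_singleton (K := F) hv0
        omega
      obtain ⟨y, hy, hyx⟩ := Set.not_subset.1 hnot
      exact ⟨y, hy, hyx⟩
    have h1 : B.flip w v = 0 := hw
    have h2 : le.symm (tr v (B.flip w) h1) ∈ Cfsg.Geo.specialLinear (Fin n) F := tr_mem_sl _ _ _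
    rw [← heq] at h2
    obtain ⟨c, hc⟩ := (mem_similarityGroup_iff _ _).1 h2.1
    simp only [MulEquiv.apply_symm_apply, tr_apply] at hc
    have hc' : ∀ x y, B (x + B x w • v) (y + B y w • v) = c * B x y := hc
    have hexp : ∀ x y, B (x + B x w • v) (y + B y w • v) = B x y + B y w * B x v - B x w * B y v := by
      intro x y
      have h3 : B v v = 0 := hB v
      simp only [map_add, map_smul, LinearMap.add_apply, LinearMap.smul_apply, smul_eq_mul, h3]
      rw [alt_neg hB v y]; ring
    have hc1 : (c : F) = 1 := by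
      obtain ⟨y, -, hy⟩ := hnd v trivial hv0
      have h4 := hc' v y
      rw [hexp, hw, hB v] at h4
      have h5 : (1 - (c : F)) * B v y = 0 := by linear_combination h4
      rcases mul_eq_zero.1 h5 with h | h
      · exact (sub_eq_zero.1 h).symm
      · exact absurd h hy
    have hrel : ∀ x y, B y w * B x v = B x w * B y v := by
      intro x y
      have := hc' x y
      rw [hexp, hc1] at this
      linear_combination this
    -- B x w = 0 whenever B x v = 0, so w in span v
    apply hwv
    refine mem_of_perp_perp hnd fun x hx => ?_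
    have hxv : B x v = 0 := hx v (Submodule.mem_span_singleton_self v)
    obtain ⟨y, -, hy⟩ := hnd v trivial hv0
    have h4 := hrel x y
    rw [hxv, mul_zero] at h4
    rcases mul_eq_zero.1 h4.symm with h | h
    · exact h
    · exact absurd (by rw [alt_neg hB, h, neg_zero]) hy
  · intro M hHM hMK hex g hg
    have hTM : tgrp hB (⊤ : Submodule F (Fin n → F)) ≤ M := by
      intro t ht
      have := hHM _ (hT t ht)
      rwa [MulEquiv.apply_symm_apply] at this
    obtain ⟨x, hx, hxH⟩ := hex
    refine sl_le M (all_tr_mem_of_not_similarity hB hnd hTM hx ?_) g hg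
    rintro ⟨c, hc⟩
    apply hxH
    refine ⟨?_, hMK x hx⟩
    have hc0 : c ≠ 0 := by
      rintro rfl
      obtain ⟨v, hv0⟩ : ∃ v : Fin n → F, v ≠ 0 := by
        have : Nontrivial (Fin n → F) := Module.nontrivial_of_finrank_pos (R := F) (by omega)
        exact exists_ne 0
      obtain ⟨y, -, hy⟩ := hnd v trivial hv0
      obtain ⟨v', rfl⟩ := (le x).surjective v
      obtain ⟨y', rfl⟩ := (le x).surjective y
      apply hy
      rw [hc]; ring
    exact ⟨Units.mk0 c hc0, fun u v => hc u v⟩

end Cfsg.Agent.S5642
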