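import Cfsg.Statements.S5643
import Cfsg.Agent.Lib.SLUn
import Cfsg.Agent.Lib.GeoBridge
-- import your own Cfsg.Agent.* helpers here

set_option autoImplicit false
open Cfsg

namespace Cfsg.Agent.S5643

open Cfsg.Agent.Lib.UnTrans Cfsg.Agent.Lib.UnMax Cfsg.Agent.Lib.GeoBridge Cfsg.Agent.Lib.SLUn
open Cfsg.Agent.Lib.SLMax (tr tr_apply tr_det sl_le tr_mem_sl)


/-- For a finite field F and n ≥ 13, let σ be a field automorphism of F of order two and f a non-degenerate unitary form on F^n with respect to σ. Then the elements of SL_n(F) that are similarities of f form a maximal subgroup of SL_n(F). -/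
theorem result {F : Type*} [Field F] [Fintype F] (n : ℕ) (hn : 13 ≤ n) (σ : F ≃+* F) (f : (Fin n → F) → (Fin n → F) → F) (hf : Cfsg.Geo.IsUnitaryForm σ f) : Cfsg.Geo.IsMaximalIn (Cfsg.Geo.specialLinear (Fin n) F) (Cfsg.Geo.similarityGroup f ⊓ Cfsg.Geo.specialLinear (Fin n) F) := by
  have H : HS (σ : F →+* F) f := by
    apply HS.of_finite hf.involutive
    · by_contra hcon
      push Not at hcon
      exact hf.ne_refl (RingEquiv.ext hcon)
    · exact fun x y z => hf.add_left x y z
    · exact hf.smul_left
    · exact hf.herm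
  have hnd : Nd f (⊤ : Submodule F (Fin n → F)) := fun x _ hx => by
    obtain ⟨y, hy⟩ := (hf.nondegenerate x hx).2
    exact ⟨y, trivial, hy⟩
  have hfin : Module.finrank F (Fin n → F) = n := by simp
  have htop4 : 4 ≤ Module.finrank F (⊤ : Submodule F (Fin n → F)) := by rw [finrank_top, hfin]; omega
  apply isMaximalIn_of
  · refine lt_of_le_of_ne inf_le_right fun heq => ?_
    obtain ⟨z, -, -, hzz, y, -, -, hzy⟩ := H.exists_hyp hnd htop4 (w := 0) trivial
    -- an isotropic y' and a nonisotropic combination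
    obtain ⟨a, ha⟩ := H.exists_add_norm hzz hzy (map_zero _)
    obtain ⟨b, hb⟩ := H.exists_add_norm hzz (u := y + a • z) (by
      rw [H.add_right, H.smul_right, hzz, mul_zero, add_zero]; exact hzy) (map_one _)
    set y' := y + a • z with hy'
    have hz0 : z ≠ 0 := by rintro rfl; exact hzy (H.zero_left _)
    have hdep : y' ∉ Submodule.span F {z} := by
      intro h
      obtain ⟨c, hc⟩ := Submodule.mem_span_singleton.1 h
      apply hzy
      have h1 : f z y' = 0 := by rw [← hc, H.smul_right, hzz, mul_zero]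
      rw [hy', H.add_right, H.smul_right, hzz, mul_zero, add_zero] at h1
      exact h1
    obtain ⟨φ, h1, h2⟩ := Submodule.exists_dual_map_eq_bot_of_notMem hdep inferInstance
    have h3 : φ z = 0 := by
      have : φ z ∈ (Submodule.span F {z}).map φ := ⟨z, Submodule.mem_span_singleton_self z, rfl⟩
      rw [h2] at this
      simpa using this
    have h4 : ((b / φ y') • φ) z = 0 := by rw [LinearMap.smul_apply, h3, smul_zero]
    have h5 : le.symm (tr z ((b / φ y') • φ) h4) ∈ Cfsg.Geo.specialLinear (Fin n) F := tr_mem_sl _ _ _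
    rw [← heq] at h5
    obtain ⟨c, hc⟩ := (mem_similarityGroup_iff _ _).1 (Subgroup.mem_inf.1 h5).1
    simp only [MulEquiv.apply_symm_apply, tr_apply] at hc
    have h6 := hc y' y'
    rw [LinearMap.smul_apply, smul_eq_mul, div_mul_cancel₀ _ h1, hb, ha, mul_zero] at h6
    exact one_ne_zero h6
  · intro M hHM hMK hex g hg
    have hTM : tgrp H (⊤ : Submodule F (Fin n → F)) ≤ M := by
      intro t ht
      have := hHM (le.symm t) (Subgroup.mem_inf.2 ⟨?_, ?_⟩)
      · rwa [MulEquiv.apply_symm_apply] at this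
      · rw [mem_similarityGroup_iff, MulEquiv.apply_symm_apply]
        refine ⟨1, fun u v => ?_⟩
        rw [Units.val_one, one_mul]
        exact tgrp_le_isom H _ ht u v
      · rw [mem_specialLinear_iff, MulEquiv.apply_symm_apply]
        exact tgrp_det H ht
    obtain ⟨x, hx, hxH⟩ := hex
    refine sl_le M (all_tr_mem_of_not_similarity hnd (by omega) hTM hx ?_) g hg
    rintro ⟨c, hc0, hc⟩
    apply hxH
    exact Subgroup.mem_inf.2 ⟨⟨Units.mk0 c hc0, fun u v => hc u v⟩, hMK x hx⟩

end Cfsg.Agent.S5643
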