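import Cfsg.Statements.S5646
import Cfsg.Agent.Lib.SpMax
import Cfsg.Agent.Lib.GeoBridge
-- import your own Cfsg.Agent.* helpers here

set_option autoImplicit false
open Cfsg

namespace Cfsg.Agent.S5646

open Cfsg.Agent.Lib.SpTrans Cfsg.Agent.Lib.SpMax Cfsg.Agent.Lib.GeoBridge

/-- For a finite field F and m ≥ 7, in the symplectic group Sp_2m(F) of the standard alternating form on F^(2m), the stabiliser of any non-zero subspace W on which the form is non-degenerate and with dim W < m is a maximal subgroup. -/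
theorem result {F : Type*} [Field F] [Fintype F] (m : ℕ) (hm : 7 ≤ m) (W : Submodule F (Fin m ⊕ Fin m → F)) (hW0 : W ≠ ⊥) (hW : Cfsg.Geo.IsNondegenerateOn (Cfsg.sympForm m F) W) (hdim : Module.finrank F W < m) : Cfsg.Geo.IsMaximalIn (Cfsg.spGL m F) (Cfsg.Geo.subspaceStabilizer W ⊓ Cfsg.spGL m F) := by
  have hB := sympB_isAlt (F := F) m
  have hnd := sympB_nd (F := F) m
  have hWn : NdOn (sympB m F) W := fun x hx hx0 => (hW x hx hx0).2
  have hfin : Module.finrank F (Fin m ⊕ Fin m → F) = m + m := by simp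
  apply isMaximalIn_of
  · refine lt_of_le_of_ne inf_le_right fun heq => ?_
    obtain ⟨w, hw, hw0⟩ := W.ne_bot_iff.1 hW0
    have hWtop : ¬ ∀ x, x ∈ W := fun h => by
      have : W = ⊤ := by rw [eq_top_iff]; exact fun x _ => h x
      rw [this, finrank_top, hfin] at hdim
      omega
    push Not at hWtop
    obtain ⟨v, hv⟩ := hWtop
    have hv0 : v ≠ 0 := by rintro rfl; exact hv W.zero_mem
    obtain ⟨t, ht, htw⟩ := exists_move hB hnd (trivial : w ∈ (⊤ : Submodule F _)) (trivial : v ∈ (⊤ : Submodule F _)) hw0 hv0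
    have ht2 : le.symm t ∈ spGL m F := by
      rw [mem_spGL_iff, MulEquiv.apply_symm_apply]; exact tgrp_le_isom hB _ ht
    rw [← heq] at ht2
    have := ((mem_subspaceStabilizer_iff' W _).1 ht2.1) w hw
    rw [MulEquiv.apply_symm_apply, htw] at this
    exact hv this
  · intro M hHM hMK hex g hg
    have hM : M ≤ isom (fun x y => sympB m F x y) := by
      intro x hx
      have := hMK (le.symm x) (by rwa [MulEquiv.apply_symm_apply])
      rwa [mem_spGL_iff, MulEquiv.apply_symm_apply] at this
    refine nd_stab_max hB hnd (W := W) hWn (by rw [hfin]; omega) hM ?_ ?_ hg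
    · intro x hx hxW
      have := hHM (le.symm x) (Subgroup.mem_inf.2 ⟨?_, ?_⟩)
      · rwa [MulEquiv.apply_symm_apply] at this
      · rw [mem_subspaceStabilizer_iff', MulEquiv.apply_symm_apply]; exact hxW
      · rw [mem_spGL_iff, MulEquiv.apply_symm_apply]; exact hx
    · obtain ⟨x, hx, hxH⟩ := hex
      refine ⟨le x, hx, ?_⟩
      by_contra hcon
      push Not at hcon
      exact hxH ⟨(mem_subspaceStabilizer_iff' W x).2 hcon, hMK x hx⟩

end Cfsg.Agent.S5646
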