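import Cfsg.Statements.S5647
import Cfsg.Agent.Lib.SpDecomp
import Cfsg.Agent.Lib.GeoBridge
-- import your own Cfsg.Agent.* helpers here

set_option autoImplicit false
open Cfsg

namespace Cfsg.Agent.S5647

open Cfsg.Agent.Lib.SpTrans Cfsg.Agent.Lib.SpMax Cfsg.Agent.Lib.GeoBridge Cfsg.Agent.Lib.SpDecomp

theorem od_of {F : Type*} [Field F] {m k t : ℕ} {D : Fin t → Submodule F (Fin m ⊕ Fin m → F)}
    (hD : Cfsg.Geo.IsNondegenerateMDecomposition (Cfsg.sympForm m F) k D) : OD (sympB m F) k D where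
  indep := hD.decomp.indep
  sup := hD.decomp.iSup_eq_top
  nd := fun i x hx hx0 => (hD.nondegenerate i x hx hx0).2
  orth := fun i j hij u hu v hv => hD.orthogonal i j hij u hu v hv
  rank := hD.decomp.finrank_eq
  pos := hD.decomp.pos


/-- For a finite field F with q elements and m ≥ 7, let D be a decomposition of F^(2m) into t ≥ 2 pairwise orthogonal subspaces of equal dimension k on each of which the standard alternating form is non-degenerate, spanning F^(2m). Unless k = 2 and q = 2, the elements of Sp_2m(F) permuting the members of D form a maximal subgroup of Sp_2m(F). -/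
theorem result {F : Type*} [Field F] [Fintype F] (m : ℕ) (hm : 7 ≤ m) {t : ℕ} (k : ℕ) (D : Fin t → Submodule F (Fin m ⊕ Fin m → F)) (hD : Cfsg.Geo.IsNondegenerateMDecomposition (Cfsg.sympForm m F) k D) (hex : ¬ (k = 2 ∧ Fintype.card F = 2)) : Cfsg.Geo.IsMaximalIn (Cfsg.spGL m F) (Cfsg.Geo.decompositionStabilizer D ⊓ Cfsg.spGL m F) := by
  have hB := sympB_isAlt (F := F) m
  have hnd := sympB_nd (F := F) m
  have hOD := od_of hD
  obtain ⟨π, hπ1, hπ2, hπ3, hπ4⟩ := exists_comps hOD.indep hOD.sup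
  apply isMaximalIn_of
  · refine lt_of_le_of_ne inf_le_right fun heq => ?_
    have ht := hD.decomp.two_le
    have hne : ∀ i, D i ≠ ⊥ := by
      intro i h
      have := hOD.rank i
      rw [h, finrank_bot] at this
      exact absurd this.symm hOD.pos.ne'
    obtain ⟨x, hx, hx0⟩ := (D ⟨0, by omega⟩).ne_bot_iff.1 (hne _)
    obtain ⟨y, hy, hy0⟩ := (D ⟨1, by omega⟩).ne_bot_iff.1 (hne _)
    have hij : (⟨0, by omega⟩ : Fin t) ≠ ⟨1, by omega⟩ := by simp
    have e1 : π ⟨0, by omega⟩ (x + y) = x := by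
      rw [map_add, hπ2 _ x hx, hπ3 _ _ hij.symm y hy, add_zero]
    have e2 : π ⟨1, by omega⟩ (x + y) = y := by
      rw [map_add, hπ2 _ y hy, hπ3 _ _ hij x hx, zero_add]
    have hxy0 : x + y ≠ 0 := by
      intro h; rw [h, map_zero] at e1; exact hx0 e1.symm
    obtain ⟨s, hs, hsx⟩ := exists_move hB hnd (trivial : x ∈ (⊤ : Submodule F _)) (trivial : x + y ∈ (⊤ : Submodule F _)) hx0 hxy0
    have ht2 : le.symm s ∈ spGL m F := by
      rw [mem_spGL_iff, MulEquiv.apply_symm_apply]; exact tgrp_le_isom hB _ hs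
    rw [← heq] at ht2
    obtain ⟨σ, hσ⟩ := (mem_decompositionStabilizer_iff D _).1 ht2.1
    rw [MulEquiv.apply_symm_apply] at hσ
    have h1 : s x ∈ D (σ ⟨0, by omega⟩) := by
      rw [← hσ]; exact ⟨x, hx, rfl⟩
    rw [hsx] at h1
    by_cases h2 : σ ⟨0, by omega⟩ = ⟨0, by omega⟩
    · have := hπ3 _ _ (by rw [h2]; exact hij) _ h1
      rw [e2] at this; exact hy0 this
    · have := hπ3 _ _ h2 _ h1
      rw [e1] at this; exact hx0 this
  · intro M hHM hMK hex g hg
    have hM : M ≤ isom (fun x y => sympB m F x y) := by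
      intro x hx
      have := hMK (le.symm x) (by rwa [MulEquiv.apply_symm_apply])
      rwa [mem_spGL_iff, MulEquiv.apply_symm_apply] at this
    refine decomp_stab_max hB hnd hOD (by assumption) hM ?_ ?_ hg
    · intro x hx hxW
      have := hHM (le.symm x) (Subgroup.mem_inf.2 ⟨?_, ?_⟩)
      · rwa [MulEquiv.apply_symm_apply] at this
      · rw [mem_decompositionStabilizer_iff, MulEquiv.apply_symm_apply]; exact hxW
      · rw [mem_spGL_iff, MulEquiv.apply_symm_apply]; exact hx
    · obtain ⟨x, hx, hxH⟩ := hex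
      refine ⟨le x, hx, ?_⟩
      intro hcon
      exact hxH ⟨(mem_decompositionStabilizer_iff D x).2 hcon, hMK x hx⟩

end Cfsg.Agent.S5647
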