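import Cfsg.Statements.S5648
import Cfsg.Agent.Lib.SpDecomp
import Cfsg.Agent.Lib.GeoBridge
import Cfsg.Agent.S5647
-- import your own Cfsg.Agent.* helpers here

set_option autoImplicit false
open Cfsg

namespace Cfsg.Agent.S5648

open Cfsg.Agent.Lib.SpTrans Cfsg.Agent.Lib.SpMax Cfsg.Agent.Lib.GeoBridge Cfsg.Agent.Lib.SpDecomp

section
variable {F V : Type*} [Field F] [Fintype F] [AddCommGroup V] [Module F V]

theorem eq_one_of_ne_zero (hq : Fintype.card F = 2) {a : F} (ha : a ≠ 0) : a = 1 := by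
  classical
  by_contra h1
  have : ({0, 1, a} : Finset F).card ≤ Fintype.card F := Finset.card_le_univ _
  rw [hq, Finset.card_insert_of_notMem, Finset.card_insert_of_notMem, Finset.card_singleton] at this
  · omega
  · simp [Ne.symm h1]
  · simp [Ne.symm ha]

theorem one_add_one (hq : Fintype.card F = 2) : (1 : F) + 1 = 0 := by
  by_contra h
  have h1 := eq_one_of_ne_zero hq h
  have : (1 : F) = 0 := by
    calc (1 : F) = 1 + 1 - 1 := by ring
      _ = 0 := by rw [h1]; ring
  exact one_ne_zero this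

open Classical in
/-- number of nonzero components, in `F` -/
noncomputable def qq {t : ℕ} (π : Fin t → V →ₗ[F] V) (x : V) : F := ∑ i, if π i x = 0 then 0 else 1

theorem card_two_comp {B : V →ₗ[F] V →ₗ[F] F} (hB : B.IsAlt) (hq : Fintype.card F = 2)
    {W : Submodule F V} (hW : NdOn B W) (hr : Module.finrank F W = 2) {x y : V} (hx : x ∈ W) (hy : y ∈ W)
    (hx0 : x ≠ 0) (hy0 : y ≠ 0) (hxy : x ≠ y) : B x y = 1 := by
  apply eq_one_of_ne_zero hq
  intro h
  -- x, y span W
  have hli : LinearIndependent F ![(⟨x, hx⟩ : W), ⟨y, hy⟩] := by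
    rw [LinearIndependent.pair_iff' (by simpa using hx0)]
    intro a ha
    have ha' : a • x = y := by simpa using congrArg Subtype.val ha
    have ha0 : a ≠ 0 := by
      rintro rfl; rw [zero_smul] at ha'; exact hy0 ha'.symm
    rw [eq_one_of_ne_zero hq ha0, one_smul] at ha'
    exact hxy ha'
  have : FiniteDimensional F W := FiniteDimensional.of_finrank_pos (by omega)
  have hspan := hli.span_eq_top_of_card_eq_finrank (by simp [hr])
  obtain ⟨z, hz, hxz⟩ := hW x hx hx0
  have hz' : (⟨z, hz⟩ : W) ∈ Submodule.span F (Set.range ![(⟨x, hx⟩ : W), ⟨y, hy⟩]) := by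
    rw [hspan]; trivial
  rw [Matrix.range_cons, Matrix.range_cons, Matrix.range_empty, Set.union_empty,
    Set.singleton_union, Submodule.mem_span_pair] at hz'
  obtain ⟨a, b, hab⟩ := hz'
  have hab' : a • x + b • y = z := by simpa using congrArg Subtype.val hab
  apply hxz
  rw [← hab', map_add, map_smul, map_smul, hB x, h]
  simp

theorem qq_add {B : V →ₗ[F] V →ₗ[F] F} (hB : B.IsAlt) (hq : Fintype.card F = 2)
    {t : ℕ} {D : Fin t → Submodule F V} (hD : OD B 2 D) {π : Fin t → V →ₗ[F] V}
    (hπ1 : ∀ i x, π i x ∈ D i) (hπ4 : ∀ x, ∑ i, π i x = x) (x y : V) :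
    qq π (x + y) = qq π x + qq π y + B x y := by
  classical
  have h11 := one_add_one hq
  have hBs : B x y = ∑ i, B (π i x) (π i y) := by
    conv_lhs => rw [← hπ4 x, ← hπ4 y]
    rw [map_sum B, LinearMap.sum_apply]
    refine Finset.sum_congr rfl fun i _ => ?_
    rw [map_sum, Finset.sum_eq_single i]
    · intro j _ hj
      exact hD.orth i j (Ne.symm hj) _ (hπ1 _ _) _ (hπ1 _ _)
    · simp
  rw [hBs, qq, qq, qq, ← Finset.sum_add_distrib, ← Finset.sum_add_distrib]
  refine Finset.sum_congr rfl fun i _ => ?_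
  rw [map_add]
  by_cases hx : π i x = 0
  · simp [hx]
  by_cases hy : π i y = 0
  · simp [hy, hx]
  by_cases hxy : π i x = π i y
  · have : π i x + π i y = 0 := by
      rw [← hxy, ← two_smul F, ← one_add_one_eq_two, h11, zero_smul]
    rw [if_pos this, if_neg hx, if_neg hy, ← hxy, hB (π i x)]
    rw [h11]; ring
  · have : π i x + π i y ≠ 0 := by
      intro h
      apply hxy
      have h2 : π i y + π i y = 0 := by rw [← two_smul F, ← one_add_one_eq_two, h11, zero_smul]
      rw [add_eq_zero_iff_eq_neg] at h h2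
      rw [h, ← h2]
    rw [if_neg this, if_neg hx, if_neg hy,
      card_two_comp hB hq (hD.nd i) (hD.rank i) (hπ1 _ _) (hπ1 _ _) hx hy hxy, h11]
    ring

end

/-- Over the field with 2 elements and for m ≥ 7, let D be a decomposition of F^(2m) into t pairwise orthogonal non-degenerate 2-dimensional subspaces for the standard alternating form (t = m ≥ 2). Then the elements of Sp_2m(2) permuting the members of D form a subgroup that is not maximal: some subgroup lies strictly between it and Sp_2m(2). -/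
theorem result {F : Type*} [Field F] [Fintype F] (m : ℕ) (hm : 7 ≤ m) (hq : Fintype.card F = 2) {t : ℕ} (D : Fin t → Submodule F (Fin m ⊕ Fin m → F)) (hD : Cfsg.Geo.IsNondegenerateMDecomposition (Cfsg.sympForm m F) 2 D) : ∃ K : Subgroup (Matrix.GeneralLinearGroup (Fin m ⊕ Fin m) F), Cfsg.Geo.decompositionStabilizer D ⊓ Cfsg.spGL m F < K ∧ K < Cfsg.spGL m F := by
  classical
  have hB := sympB_isAlt (F := F) m
  have hnd := sympB_nd (F := F) m
  have hOD := Cfsg.Agent.S5647.od_of hD
  obtain ⟨π, hπ1, hπ2, hπ3, hπ4⟩ := exists_comps hOD.indep hOD.sup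
  have hadd := qq_add hB hq hOD hπ1 hπ4
  have h11 := one_add_one hq
  have ht3 : 3 ≤ t := by
    have hI : DirectSum.IsInternal D :=
      DirectSum.isInternal_submodule_of_iSupIndep_of_iSup_eq_top hOD.indep hOD.sup
    have h1 : Module.finrank F (DirectSum (Fin t) fun i => D i) = Module.finrank F (Fin m ⊕ Fin m → F) :=
      LinearEquiv.finrank_eq (LinearEquiv.ofBijective (DirectSum.coeLinearMap D) hI)
    rw [Module.finrank_directSum] at h1
    simp only [hOD.rank, Finset.sum_const, Finset.card_univ, Fintype.card_fin, smul_eq_mul,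
      Module.finrank_fintype_fun_eq_card, Fintype.card_sum] at h1
    omega
  have hne : ∀ i, D i ≠ ⊥ := by
    intro i h
    have := hOD.rank i
    rw [h, finrank_bot] at this
    omega
  obtain ⟨e0, he0, he00⟩ := (D ⟨0, by omega⟩).ne_bot_iff.1 (hne _)
  obtain ⟨e1, he1, he10⟩ := (D ⟨1, by omega⟩).ne_bot_iff.1 (hne _)
  obtain ⟨e2, he2, he20⟩ := (D ⟨2, by omega⟩).ne_bot_iff.1 (hne _)
  have hqD : ∀ i, ∀ x ∈ D i, x ≠ 0 → qq π x = 1 := by
    intro i x hx hx0
    rw [qq, Finset.sum_eq_single i]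
    · rw [hπ2 i x hx, if_neg hx0]
    · intro j _ hj; rw [hπ3 i j (Ne.symm hj) x hx, if_pos rfl]
    · simp
  have h01 : sympB m F e0 e1 = 0 := hOD.orth _ _ (by simp) _ he0 _ he1
  have h02 : sympB m F e0 e2 = 0 := hOD.orth _ _ (by simp) _ he0 _ he2
  have h12 : sympB m F e1 e2 = 0 := hOD.orth _ _ (by simp) _ he1 _ he2
  have hq01 : qq π (e0 + e1) = 0 := by
    rw [hadd, hqD _ _ he0 he00, hqD _ _ he1 he10, h01, h11, add_zero]
  have hq012 : qq π (e0 + e1 + e2) = 1 := by
    rw [hadd, hq01, hqD _ _ he2 he20, map_add, LinearMap.add_apply, h02, h12]; ring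
  have hq0 : qq π (0 : Fin m ⊕ Fin m → F) = 0 := by simp [qq]
  refine ⟨Cfsg.isometryGroup F (qq π) ⊓ Cfsg.spGL m F, ?_, ?_⟩
  · refine lt_of_le_of_ne ?_ ?_
    · refine le_inf ?_ inf_le_right
      intro g hg
      obtain ⟨σ, hσ⟩ := (mem_decompositionStabilizer_iff D g).1 hg.1
      intro x _
      show qq π (le g x) = qq π x
      have hcomm : ∀ i, π (σ i) (le g x) = le g (π i x) := by
        intro i
        have h1 : le g x = ∑ j, le g (π j x) := by rw [← map_sum, hπ4]
        rw [h1, map_sum, Finset.sum_eq_single i]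
        · apply hπ2
          rw [← hσ]; exact ⟨_, hπ1 _ _, rfl⟩
        · intro j _ hj
          apply hπ3 (σ j) (σ i) (fun h => hj (σ.injective h))
          rw [← hσ]; exact ⟨_, hπ1 _ _, rfl⟩
        · simp
      rw [qq, qq, ← Equiv.sum_comp σ]
      refine Finset.sum_congr rfl fun i _ => ?_
      rw [hcomm]
      by_cases h : π i x = 0
      · rw [if_pos h, if_pos (by rw [h, map_zero])]
      · rw [if_neg h, if_neg (by rwa [EmbeddingLike.map_eq_zero_iff])]
    · intro heq
      have hs : le.symm (tv (sympB m F) hB (e0 + e1 + e2) 1) ∈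
          Cfsg.isometryGroup F (qq π) ⊓ Cfsg.spGL m F := by
        refine Subgroup.mem_inf.2 ⟨?_, ?_⟩
        · intro x _
          show qq π (le (le.symm _) x) = qq π x
          rw [MulEquiv.apply_symm_apply, tv_apply, one_mul, hadd]
          by_cases hx : sympB m F x (e0 + e1 + e2) = 0
          · rw [hx, zero_smul, hq0, map_zero]; ring
          · rw [eq_one_of_ne_zero hq hx, one_smul, hq012, eq_one_of_ne_zero hq hx, add_assoc, h11, add_zero]
        · rw [mem_spGL_iff, MulEquiv.apply_symm_apply]; exact tv_mem_isom hB _ _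
      rw [← heq] at hs
      obtain ⟨σ, hσ⟩ := (mem_decompositionStabilizer_iff D _).1 hs.1
      rw [MulEquiv.apply_symm_apply] at hσ
      obtain ⟨x, hx, hx'⟩ := hOD.nd _ e0 he0 he00
      have hx1 : sympB m F x (e0 + e1 + e2) = 1 := by
        apply eq_one_of_ne_zero hq
        rw [map_add, map_add, hOD.orth _ _ (by simp) _ hx _ he1, hOD.orth _ _ (by simp) _ hx _ he2,
          add_zero, add_zero, alt_neg hB]
        simpa using hx'
      have h2 : tv (sympB m F) hB (e0 + e1 + e2) 1 x ∈ D (σ ⟨0, by omega⟩) := by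
        rw [← hσ]; exact ⟨x, hx, rfl⟩
      rw [tv_apply, hx1, mul_one, one_smul] at h2
      have p1 : π ⟨1, by omega⟩ (x + (e0 + e1 + e2)) = e1 := by
        simp only [map_add]
        rw [hπ3 _ _ (by simp) _ hx, hπ3 _ _ (by simp) _ he0, hπ2 _ _ he1, hπ3 _ _ (by simp) _ he2]; simp
      have p2 : π ⟨2, by omega⟩ (x + (e0 + e1 + e2)) = e2 := by
        simp only [map_add]
        rw [hπ3 _ _ (by simp) _ hx, hπ3 _ _ (by simp) _ he0, hπ2 _ _ he2, hπ3 _ _ (by simp) _ he1]; simp
      by_cases h3 : σ ⟨0, by omega⟩ = ⟨1, by omega⟩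
      · have := hπ3 _ ⟨2, by omega⟩ (by rw [h3]; simp) _ h2
        rw [p2] at this; exact he20 this
      · have := hπ3 _ _ h3 _ h2
        rw [p1] at this; exact he10 this
  · refine lt_of_le_of_ne inf_le_right ?_
    intro heq
    have hs : le.symm (tv (sympB m F) hB (e0 + e1) 1) ∈ Cfsg.spGL m F := by
      rw [mem_spGL_iff, MulEquiv.apply_symm_apply]; exact tv_mem_isom hB _ _
    rw [← heq] at hs
    obtain ⟨x, hx, hx'⟩ := hOD.nd _ e0 he0 he00
    have hx1 : sympB m F x (e0 + e1) = 1 := by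
      apply eq_one_of_ne_zero hq
      rw [map_add, hOD.orth _ _ (by simp) _ hx _ he1, add_zero, alt_neg hB]
      simpa using hx'
    have h1 := hs.1 x 0
    have h2 : qq π (le (le.symm (tv (sympB m F) hB (e0 + e1) 1)) x) = qq π x := h1
    rw [MulEquiv.apply_symm_apply, tv_apply, hx1, mul_one, one_smul, hadd, hq01, hx1, add_zero] at h2
    have : (1 : F) = 0 := by
      have := add_left_cancel (h2.trans (add_zero _).symm)
      exact this
    exact one_ne_zero this

end Cfsg.Agent.S5648
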