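import Cfsg.Statements.S5649
import Cfsg.Agent.Lib.SpTrans
import Cfsg.Agent.Lib.GeoBridge
import Cfsg.Agent.Lib.TSPairH94
-- import your own Cfsg.Agent.* helpers here

set_option autoImplicit false
open Cfsg

namespace Cfsg.Agent.S5649

open Cfsg.Agent.Lib.SpTrans Cfsg.Agent.Lib.GeoBridge Cfsg.Agent.Lib.TSPairH94


/-- For a finite field F of odd order and m ≥ 7, let D be a decomposition of F^(2m) into two complementary subspaces of dimension m on each of which the standard alternating form vanishes identically. Then the elements of Sp_2m(F) preserving or interchanging the two subspaces form a maximal subgroup of Sp_2m(F). -/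
theorem result {F : Type*} [Field F] [Fintype F] (m : ℕ) (hm : 7 ≤ m) (hodd : Odd (Fintype.card F)) (D : Fin 2 → Submodule F (Fin m ⊕ Fin m → F)) (hD : Cfsg.Geo.IsMDecomposition m D) (hts : ∀ i, Cfsg.Geo.IsTotallySingularFor (Cfsg.sympForm m F) (D i)) : Cfsg.Geo.IsMaximalIn (Cfsg.spGL m F) (Cfsg.Geo.decompositionStabilizer D ⊓ Cfsg.spGL m F) := by
  have hB := sympB_isAlt (F := F) m
  have hnd := sympB_nd (F := F) m
  have h2 : (2 : F) ≠ 0 := by
    intro h
    have hchar : ringChar F = 2 := by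
      have h1 : ringChar F ∣ 2 := (ringChar.spec F 2).1 (by exact_mod_cast h)
      rcases (Nat.dvd_prime Nat.prime_two).1 h1 with h3 | h3
      · exfalso
        haveI : CharP F 1 := h3 ▸ (inferInstance : CharP F (ringChar F))
        exact one_ne_zero (CharP.cast_eq_zero F 1 ▸ (Nat.cast_one (R := F)).symm ▸ rfl : (1 : F) = 0)
      · exact h3
    have h4 := FiniteField.even_card_of_char_two hchar
    have h5 := Nat.odd_iff.1 hodd
    omega
  obtain ⟨hdec, hint⟩ := dec_of hD.indep hD.iSup_eq_top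
  have P0 : ∀ M : Subgroup ((Fin m ⊕ Fin m → F) ≃ₗ[F] (Fin m ⊕ Fin m → F)),
      M ≤ isom (fun x y => sympB m F x y) →
      (∀ g ∈ isom (fun x y => sympB m F x y), (∀ a ∈ D 0, g a ∈ D 0) → (∀ b ∈ D 1, g b ∈ D 1) → g ∈ M) →
      (∀ g ∈ isom (fun x y => sympB m F x y), (∀ a ∈ D 0, g a ∈ D 1) → (∀ b ∈ D 1, g b ∈ D 0) → g ∈ M) →
      Pair (RingHom.id F) (fun x y => sympB m F x y) (isom (fun x y => sympB m F x y)) M (D 0) (D 1) := by
    intro M hM h1 h3
    refine ⟨⟨fun a => rfl, fun x y z => by rw [map_add]; rfl, fun c x y => by rw [map_smul]; rfl,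
      fun x y => alt_neg hB _ _, ?_, 1, ?_⟩, fun g hg => hg, hM, ?_, hts 0, hts 1, hdec, hint, ?_, ?_, h1, h3⟩
    · intro x hx
      by_contra hx0
      obtain ⟨y, -, hy⟩ := hnd x trivial hx0
      exact hy (hx y)
    · show (1 : F) + 1 ≠ 0
      rw [one_add_one_eq_two]; exact h2
    · intro v _ c _
      exact ⟨tv _ hB v c, tv_mem_isom hB v c, fun x => tv_apply hB v c x⟩
    · rw [hD.finrank_eq]; omega
    · rw [hD.finrank_eq, hD.finrank_eq]
  have hdd : Module.finrank F (D 0) = Module.finrank F (D 1) := by rw [hD.finrank_eq, hD.finrank_eq]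
  apply isMaximalIn_of
  · refine lt_of_le_of_ne inf_le_right fun heq => ?_
    obtain ⟨g, hg, hg1, hg2⟩ := (P0 _ le_rfl (fun g hg _ _ => hg) (fun g hg _ _ => hg)).exists_not
    have ht2 : le.symm g ∈ spGL m F := by
      rw [mem_spGL_iff, MulEquiv.apply_symm_apply]; exact hg
    rw [← heq] at ht2
    have h3 := (mem_decompositionStabilizer_iff D _).1 ht2.1
    rw [MulEquiv.apply_symm_apply] at h3
    rcases (perm_iff hdd g).1 h3 with h4 | h4
    · exact hg1 h4
    · exact hg2 h4
  · intro M hHM hMK hex g hg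
    have hM : M ≤ isom (fun x y => sympB m F x y) := by
      intro x hx
      have := hMK (le.symm x) (by rwa [MulEquiv.apply_symm_apply])
      rwa [mem_spGL_iff, MulEquiv.apply_symm_apply] at this
    have hHM' : ∀ x ∈ isom (fun x y => sympB m F x y),
        (∃ σ : Equiv.Perm (Fin 2), ∀ i, (D i).map x.toLinearMap = D (σ i)) → x ∈ M := by
      intro x hx hxW
      have := hHM (le.symm x) (Subgroup.mem_inf.2 ⟨?_, ?_⟩)
      · rwa [MulEquiv.apply_symm_apply] at this
      · rw [mem_decompositionStabilizer_iff, MulEquiv.apply_symm_apply]; exact hxW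
      · rw [mem_spGL_iff, MulEquiv.apply_symm_apply]; exact hx
    have P := P0 M hM (fun x hx h1 h3 => hHM' x hx ((perm_iff hdd x).2 (Or.inl ⟨h1, h3⟩)))
      (fun x hx h1 h3 => hHM' x hx ((perm_iff hdd x).2 (Or.inr ⟨h1, h3⟩)))
    have hall := P.main (by
      obtain ⟨x, hx, hxH⟩ := hex
      refine ⟨le x, hx, ?_⟩
      rw [← not_or, ← perm_iff hdd]
      intro hcon
      exact hxH ⟨(mem_decompositionStabilizer_iff D x).2 hcon, hMK x hx⟩)
    refine isom_le_of_tv_mem hB hnd ?_ hg
    intro v a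
    obtain ⟨t, ht, htx⟩ := hall v (hB v) a rfl
    have : tv _ hB v a = t := by
      apply LinearEquiv.ext
      intro x
      rw [tv_apply, htx]
    rw [this]; exact ht

end Cfsg.Agent.S5649
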