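import Cfsg.Statements.S5652
import Cfsg.Agent.Lib.SpQuad
import Cfsg.Agent.Lib.GeoBridge
-- import your own Cfsg.Agent.* helpers here

set_option autoImplicit false
open Cfsg

namespace Cfsg.Agent.S5652

open Cfsg.Agent.Lib.SpTrans Cfsg.Agent.Lib.SpMax Cfsg.Agent.Lib.GeoBridge Cfsg.Agent.Lib.SpQuad

/-- For a finite field F of characteristic two and m ≥ 7, let Q be a non-degenerate quadratic form on F^(2m) whose polar form is the standard alternating form. Then the elements of Sp_2m(F) that are similarities of Q (they are exactly the isometries of Q) form a maximal subgroup of Sp_2m(F). -/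
theorem result {F : Type*} [Field F] [Fintype F] (m : ℕ) (hm : 7 ≤ m) (heven : ¬ Odd (Fintype.card F)) (Q : (Fin m ⊕ Fin m → F) → F) (hQ : Cfsg.Geo.IsNondegenerateQuadraticForm Q) (hpol : ∀ u v, QuadraticMap.polar Q u v = Cfsg.sympForm m F u v) : Cfsg.Geo.IsMaximalIn (Cfsg.spGL m F) (Cfsg.Geo.quadSimilarityGroup Q ⊓ Cfsg.spGL m F) := by
  have hB := sympB_isAlt (F := F) m
  have hnd := sympB_nd (F := F) m
  have hchar : ringChar F = 2 := by
    rw [← FiniteField.even_card_iff_char_two.symm]
    rw [Nat.not_odd_iff_even, Nat.even_iff] at heven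
    exact heven
  have hQF : QF (sympB m F) Q := by
    refine ⟨?_, ?_, hQ.smul, ?_⟩
    · have := ringChar.Nat.cast_ringChar (R := F)
      rw [hchar] at this
      exact_mod_cast this
    · intro a
      obtain ⟨b, hb⟩ := FiniteField.isSquare_of_char_two hchar a
      exact ⟨b, by rw [hb]; ring⟩
    · intro x y
      rw [sympB_apply, ← hpol x y, QuadraticMap.polar]
      ring
  have hfin : 3 ≤ Module.finrank F (Fin m ⊕ Fin m → F) := by
    rw [Module.finrank_fintype_fun_eq_card]; simp; omega
  have hmem : ∀ g : Matrix.GeneralLinearGroup (Fin m ⊕ Fin m) F, g ∈ Cfsg.Geo.quadSimilarityGroup Q ⊓ Cfsg.spGL m F ↔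
      le g ∈ og (sympB m F) Q := by
    intro g
    constructor
    · rintro ⟨⟨c, hc⟩, hg⟩
      refine ⟨hg, fun x => ?_⟩
      have hc1 : (c : F) = 1 := by
        obtain ⟨u, hu⟩ : ∃ u : Fin m ⊕ Fin m → F, u ≠ 0 := by
          have : Nontrivial (Fin m ⊕ Fin m → F) := Module.nontrivial_of_finrank_pos (R := F) (by omega)
          exact exists_ne 0
        obtain ⟨v, -, huv⟩ := hnd u trivial hu
        have h1 : sympB m F (le g u) (le g v) = sympB m F u v := hg u v
        have h2 : Q (le g (u + v)) = c * Q (u + v) := hc (u + v)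
        have h3 : Q (le g u) = c * Q u := hc u
        have h4 : Q (le g v) = c * Q v := hc v
        rw [map_add, hQF.add, hQF.add, h3, h4, h1] at h2
        have h5 : (1 - (c : F)) * sympB m F u v = 0 := by linear_combination h2
        rcases mul_eq_zero.1 h5 with h | h
        · exact (sub_eq_zero.1 h).symm
        · exact absurd h huv
      have := hc x
      rw [hc1, one_mul] at this
      exact this
    · rintro ⟨h1, h2⟩
      exact ⟨⟨1, fun v => by rw [Units.val_one, one_mul]; exact h2 v⟩, h1⟩
  apply isMaximalIn_of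
  · refine lt_of_le_of_ne inf_le_right fun heq => ?_
    obtain ⟨e, he0, he⟩ := exists_sing hQF hfin
    obtain ⟨y, -, hy⟩ := hnd e trivial he0
    have ht2 : le.symm (tv (sympB m F) hB e 1) ∈ Cfsg.spGL m F := by
      rw [mem_spGL_iff, MulEquiv.apply_symm_apply]; exact tv_mem_isom hB _ _
    rw [← heq, hmem, MulEquiv.apply_symm_apply] at ht2
    have := ht2.2 y
    rw [tv_apply, hQF.add, hQF.smul, he, one_mul, mul_zero, add_zero, map_smul, smul_eq_mul,
      add_eq_left] at this
    rcases mul_eq_zero.1 this with h | h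
    · exact hy (by rw [symm_B hB hQF]; exact h)
    · exact hy (by rw [symm_B hB hQF]; exact h)
  · intro M hHM hMK hex g hg
    have hM : M ≤ isom (fun x y => sympB m F x y) := by
      intro x hx
      have := hMK (le.symm x) (by rwa [MulEquiv.apply_symm_apply])
      rwa [mem_spGL_iff, MulEquiv.apply_symm_apply] at this
    refine quad_max hB hQF hfin hnd hM ?_ ?_ hg
    · intro x hx
      have := hHM (le.symm x) ((hmem _).2 (by rwa [MulEquiv.apply_symm_apply]))
      rwa [MulEquiv.apply_symm_apply] at this
    · obtain ⟨x, hx, hxH⟩ := hex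
      exact ⟨le x, hx, fun hcon => hxH ((hmem x).2 hcon)⟩

end Cfsg.Agent.S5652
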