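import Cfsg.Statements.S5653
import Cfsg.Agent.Lib.UnMax
import Cfsg.Agent.Lib.UnBridge
-- import your own Cfsg.Agent.* helpers here

set_option autoImplicit false
open Cfsg

namespace Cfsg.Agent.S5653

open Cfsg.Agent.Lib.UnTrans Cfsg.Agent.Lib.UnMax Cfsg.Agent.Lib.GeoBridge Cfsg.Agent.Lib.UnBridge


/-- Let F be the field with q² elements and n ≥ 13, and let SU_n(q) be the group of matrices of determinant one preserving the standard unitary form Σ u_i v_i^q on F^n (the intersection of the unitary group GU_n with the kernel of the determinant). The elements of SU_n(q) stabilising a non-zero subspace on which the form vanishes identically form a maximal subgroup of SU_n(q). -/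
theorem result {F : Type*} [Field F] [Fintype F] (n q : ℕ) (hF : Fintype.card F = q ^ 2) (hn : 13 ≤ n) (W : Submodule F (Fin n → F)) (hW0 : W ≠ ⊥) (hW : Cfsg.Geo.IsTotallySingularFor (Cfsg.hermForm n F q) W) : Cfsg.Geo.IsMaximalIn (Cfsg.GU n F q ⊓ Cfsg.Geo.specialLinear (Fin n) F) (Cfsg.Geo.subspaceStabilizer W ⊓ (Cfsg.GU n F q ⊓ Cfsg.Geo.specialLinear (Fin n) F)) := by
  have H := herm_HS n hF
  have hnd := herm_nd n hF
  have hWs : ∀ u ∈ W, ∀ v ∈ W, hermForm n F q u v = 0 := hW
  have hdim : 4 ≤ Module.finrank F (Fin n → F) := by rw [Module.finrank_fin_fun]; omega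
  apply SU_max_of n (P := fun g => ∀ w ∈ W, g w ∈ W) (fun g => mem_subspaceStabilizer_iff' W g)
  · obtain ⟨w, hw, hw0⟩ := W.ne_bot_iff.1 hW0
    obtain ⟨v, -, hwv⟩ := hnd w trivial hw0
    obtain ⟨a, ha⟩ := H.exists_add_norm (hWs w hw w hw) hwv (map_zero _)
    obtain ⟨τ, hτ0, hτ⟩ := H.exists_tr0
    refine ⟨tv H _ ha τ hτ, tv_mem H _ _ _ _, tv_det H _ _ _ _, fun h => ?_⟩
    have h1 := h w hw
    have h2 : hermForm n F q w (v + a • w) ≠ 0 := by
      rw [H.add_right, H.smul_right, hWs w hw w hw, mul_zero, add_zero]; exact hwv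
    rw [tv_apply] at h1
    have h3 := W.sub_mem h1 hw
    rw [add_sub_cancel_left] at h3
    have h4 := hWs w hw _ h3
    rw [H.smul_right] at h4
    rcases mul_eq_zero.1 h4 with h5 | h5
    · exact H.sigma_ne (mul_ne_zero hτ0 h2) h5
    · exact h2 h5
  · intro M hM hH _ hex
    refine ts_stab_max H hnd hdim hWs hM hH ?_
    obtain ⟨g, hg, h⟩ := hex
    push Not at h
    exact ⟨g, hg, h⟩

end Cfsg.Agent.S5653
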