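import Cfsg.Statements.S5654
import Cfsg.Agent.Lib.UnMax
import Cfsg.Agent.Lib.UnBridge
-- import your own Cfsg.Agent.* helpers here

set_option autoImplicit false
open Cfsg

namespace Cfsg.Agent.S5654

open Cfsg.Agent.Lib.UnTrans Cfsg.Agent.Lib.UnMax Cfsg.Agent.Lib.GeoBridge Cfsg.Agent.Lib.UnBridge


/-- Let F be the field with q² elements and n ≥ 13. In SU_n(q) (determinant-one isometries of the standard unitary form on F^n) the stabiliser of a non-zero subspace W on which the form is non-degenerate and with 2 dim W < n is a maximal subgroup. -/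
theorem result {F : Type*} [Field F] [Fintype F] (n q : ℕ) (hF : Fintype.card F = q ^ 2) (hn : 13 ≤ n) (W : Submodule F (Fin n → F)) (hW0 : W ≠ ⊥) (hW : Cfsg.Geo.IsNondegenerateOn (Cfsg.hermForm n F q) W) (hdim : 2 * Module.finrank F W < n) : Cfsg.Geo.IsMaximalIn (Cfsg.GU n F q ⊓ Cfsg.Geo.specialLinear (Fin n) F) (Cfsg.Geo.subspaceStabilizer W ⊓ (Cfsg.GU n F q ⊓ Cfsg.Geo.specialLinear (Fin n) F)) := by
  have H := herm_HS n hF
  have hnd := herm_nd n hF
  have hWn : Nd (hermForm n F q) W := fun x hx hx0 => (hW x hx hx0).2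
  have hfr : Module.finrank F (Fin n → F) = n := Module.finrank_fin_fun F
  have hdim : 4 ≤ Module.finrank F (Fin n → F) := by omega
  have hp := finrank_perp H hWn
  have h4 : 4 ≤ Module.finrank F (perp H W) := by omega
  apply SU_max_of n (P := fun g => ∀ w ∈ W, g w ∈ W) (fun g => mem_subspaceStabilizer_iff' W g)
  · obtain ⟨z1, hz1, hz11⟩ : ∃ z ∈ W, hermForm n F q z z ≠ 0 := by
      by_contra hcon
      push Not at hcon
      obtain ⟨w, hw, hw0⟩ := W.ne_bot_iff.1 hW0
      obtain ⟨y, hy, hwy⟩ := hWn w hw hw0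
      exact hwy (H.eq_zero_of_iso hcon hw hy)
    obtain ⟨c, hc, -, hcc, d, hd, -, hcd⟩ := H.exists_hyp (nd_perp H hnd hWn) h4 (Submodule.zero_mem _)
    obtain ⟨z2, hz2, ha⟩ : ∃ z2 ∈ perp H W, hermForm n F q z2 z2 = -(hermForm n F q z1 z1) := by
      obtain ⟨a, ha⟩ := H.exists_add_norm (u := d) hcc hcd (c := -(hermForm n F q z1 z1))
        (by rw [map_neg, H.self_fixed])
      exact ⟨_, Submodule.add_mem _ hd (Submodule.smul_mem _ _ hc), ha⟩
    obtain ⟨τ, hτ0, hτ⟩ := H.exists_tr0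
    have hz12 : hermForm n F q z1 z2 = 0 := perp_symm H hz2 hz1
    have hz : hermForm n F q (z1 + z2) (z1 + z2) = 0 := by
      rw [H.add_left, H.add_right, H.add_right, ha, hz12, hz2 z1 hz1]; ring
    refine ⟨tv H _ hz τ hτ, tv_mem H _ _ _ _, tv_det H _ _ _ _, fun h => ?_⟩
    have h1 := h z1 hz1
    rw [tv_apply] at h1
    have h3 := W.sub_mem h1 hz1
    rw [add_sub_cancel_left, H.add_right, hz12, add_zero] at h3
    have h4 := W.smul_mem (τ * hermForm n F q z1 z1)⁻¹ h3
    rw [smul_smul, inv_mul_cancel₀ (mul_ne_zero hτ0 hz11), one_smul] at h4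
    have h5 : z2 ∈ W := by
      have := W.sub_mem h4 hz1
      simpa using this
    have h6 := inf_perp H hWn h5 hz2
    rw [h6, H.zero_left] at ha
    exact hz11 (neg_eq_zero.1 ha.symm)
  · intro M hM hH _ hex
    refine nd_stab_max H hnd hdim hWn (by omega) h4 hM hH ?_
    obtain ⟨g, hg, h⟩ := hex
    push Not at h
    exact ⟨g, hg, h⟩

end Cfsg.Agent.S5654
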