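import Cfsg.Statements.S5655
import Cfsg.Agent.Lib.UnBridge
import Cfsg.Agent.Lib.GeoBridge
import Cfsg.Agent.Lib.UfN
-- import your own Cfsg.Agent.* helpers here

set_option autoImplicit false
open Cfsg

namespace Cfsg.Agent.S5655

open Cfsg.Agent.Lib.UnTrans Cfsg.Agent.Lib.UnBridge Cfsg.Agent.Lib.GeoBridge Cfsg.Agent.Lib.Uf98
open Cfsg.Agent.Lib.SpTrans (isom mem_isom)

/-- Let F be the field with q² elements and n ≥ 13. Let D be a decomposition of F^n into t ≥ 2 pairwise orthogonal subspaces of equal dimension k, each non-degenerate for the standard unitary form, spanning F^n. Unless k = 2 and q = 2, the elements of SU_n(q) permuting the members of D form a maximal subgroup of SU_n(q). -/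
theorem result {F : Type*} [Field F] [Fintype F] (n q : ℕ) (hF : Fintype.card F = q ^ 2) (hn : 13 ≤ n) {t : ℕ} (k : ℕ) (D : Fin t → Submodule F (Fin n → F)) (hD : Cfsg.Geo.IsNondegenerateMDecomposition (Cfsg.hermForm n F q) k D) (hex : ¬ (k = 2 ∧ q = 2)) : Cfsg.Geo.IsMaximalIn (Cfsg.GU n F q ⊓ Cfsg.Geo.specialLinear (Fin n) F) (Cfsg.Geo.decompositionStabilizer D ⊓ (Cfsg.GU n F q ⊓ Cfsg.Geo.specialLinear (Fin n) F)) := by
  classical
  have H := herm_HS n hF
  have hnd := herm_nd n hF
  have hfr : Module.finrank F (Fin n → F) = n := Module.finrank_fin_fun F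
  have A : Ar (sig hF) q := ⟨hF, sig_apply hF⟩
  have Z : Dc (Cfsg.hermForm n F q) D k := by
    refine ⟨fun i x hx hx0 => ?_, hD.decomp.finrank_eq, fun i j hij => hD.orthogonal i j hij, fun v => ?_⟩
    · obtain ⟨y, hy, hxy⟩ := (hD.nondegenerate i x hx hx0).2
      exact ⟨y, hy, hxy⟩
    · have hv : v ∈ iSup D := by rw [hD.decomp.iSup_eq_top]; trivial
      obtain ⟨c, hc, hsum⟩ := (Submodule.mem_iSup_iff_exists_finsupp D v).1 hv
      refine ⟨c, hc, ?_⟩
      rw [← hsum, Finsupp.sum_fintype]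
      intro i; rfl
  refine SU_max_of n (P := fun g => ∃ σ : Equiv.Perm (Fin t), ∀ i, (D i).map g.toLinearMap = D (σ i))
    (mem_decompositionStabilizer_iff D) ?_ ?_
  · exact exists_nonpres H hnd (by omega) Z hD.decomp.pos (by rw [Fintype.card_fin]; exact hD.decomp.two_le)
  · intro M hM hH hdet hx g hg hgd
    exact dec_max H hnd (by omega) A Z hD.decomp.pos hex hM hdet hH hx g hg hgd

end Cfsg.Agent.S5655
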