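import Cfsg.Statements.S5656
import Cfsg.Agent.Lib.UnBridge
import Cfsg.Agent.Lib.UnMax
import Cfsg.Agent.Lib.GeoBridge
-- import your own Cfsg.Agent.* helpers here

set_option autoImplicit false
open Cfsg

namespace Cfsg.Agent.S5656

open Cfsg.Agent.Lib.UnTrans Cfsg.Agent.Lib.UnMax Cfsg.Agent.Lib.GeoBridge Cfsg.Agent.Lib.UnBridge
open Cfsg.Agent.Lib.SpTrans (isom mem_isom)

theorem rank2 {F V : Type*} [Field F] [AddCommGroup V] [Module F V] [FiniteDimensional F V]
    {σ : F →+* F} {f : V → V → F} (H : HS σ f) {W : Submodule F V} (hW : Nd f W)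
    (h2 : Module.finrank F W = 2) {x u : V} (hx : x ∈ W) (hu : u ∈ W) (hxx : f x x ≠ 0)
    (hux : f u x = 0) (huu : f u u = 0) : u = 0 := by
  by_contra hu0
  have hx0 : x ≠ 0 := by rintro rfl; exact hxx (H.zero_left 0)
  have hli : LinearIndependent F ![x, u] := by
    rw [LinearIndependent.pair_iff]
    intro s t hst
    have h1 : f (s • x + t • u) x = 0 := by rw [hst, H.zero_left]
    rw [H.add_left, H.smul_left, H.smul_left, hux, mul_zero, add_zero] at h1
    have hs : s = 0 := (mul_eq_zero.1 h1).resolve_right hxx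
    rw [hs, zero_smul, zero_add] at hst
    exact ⟨hs, (smul_eq_zero.1 hst).resolve_right hu0⟩
  have hspan : Submodule.span F (Set.range ![x, u]) = W := by
    apply Submodule.eq_of_le_of_finrank_eq
    · rw [Submodule.span_le]
      rintro _ ⟨i, rfl⟩
      fin_cases i
      · exact hx
      · exact hu
    · rw [finrank_span_eq_card hli, h2]; simp
  obtain ⟨y, hy, hyu⟩ := hW u hu hu0
  rw [← hspan] at hy
  have : y ∈ LinearMap.ker (H.fl u) := by
    refine (Submodule.span_le.2 ?_) hy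
    rintro _ ⟨i, rfl⟩
    fin_cases i
    · exact H.symm_zero hux
    · exact huu
  exact hyu (H.symm_zero this)


/-- Let F be the field with 4 elements (q = 2) and n ≥ 13. Let D be a decomposition of F^n into t pairwise orthogonal 2-dimensional subspaces, each non-degenerate for the standard unitary form Σ u_i v_i². Then the elements of SU_n(2) permuting the members of D form a subgroup that is not maximal: some subgroup lies strictly between it and SU_n(2). -/
theorem result {F : Type*} [Field F] [Fintype F] (n : ℕ) (hF : Fintype.card F = 4) (hn : 13 ≤ n) {t : ℕ} (D : Fin t → Submodule F (Fin n → F)) (hD : Cfsg.Geo.IsNondegenerateMDecomposition (Cfsg.hermForm n F 2) 2 D) : ∃ K : Subgroup (Matrix.GeneralLinearGroup (Fin n) F), Cfsg.Geo.decompositionStabilizer D ⊓ (Cfsg.GU n F 2 ⊓ Cfsg.Geo.specialLinear (Fin n) F) < K ∧ K < (Cfsg.GU n F 2 ⊓ Cfsg.Geo.specialLinear (Fin n) F) := by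
  have hF' : Fintype.card F = 2 ^ 2 := by rw [hF]; norm_num
  have H := herm_HS n hF'
  have hnd := herm_nd n hF'
  set f := hermForm n F 2 with hf
  have hfr : Module.finrank F (Fin n → F) = n := Module.finrank_fin_fun F
  have hσ : ∀ x, sig hF' x = x ^ 2 := sig_apply hF'
  have hchar : (2 : F) = 0 := by
    have h1 : ((Fintype.card F : ℕ) : F) = 0 := Nat.cast_card_eq_zero F
    rw [hF] at h1
    have h2 : (2 : F) * 2 = 0 := by
      have : ((4 : ℕ) : F) = 2 * 2 := by push_cast; norm_num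
      rw [← this]; exact h1
    exact mul_self_eq_zero.1 h2
  have hval : ∀ x, f x x = 0 ∨ f x x = 1 := by
    intro x
    have h1 := H.self_fixed x
    rw [hσ] at h1
    have h2 : f x x * (f x x - 1) = 0 := by linear_combination h1
    rcases mul_eq_zero.1 h2 with h | h
    · exact Or.inl h
    · exact Or.inr (sub_eq_zero.1 h)
  have hnorm : ∀ a : F, a ≠ 0 → a * sig hF' a = 1 := by
    intro a ha
    have h1 := FiniteField.pow_card_sub_one_eq_one a ha
    rw [hF] at h1
    rw [hσ]; linear_combination h1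
  have hDn : ∀ i, Nd f (D i) := fun i x hx hx0 => (hD.nondegenerate i x hx hx0).2
  have hort : ∀ i j, i ≠ j → ∀ x ∈ D i, ∀ y ∈ D j, f x y = 0 := fun i j hij => hD.orthogonal i j hij
  have hdisj : ∀ i j, ∀ x, x ≠ 0 → x ∈ D i → x ∈ D j → i = j := by
    intro i j x hx0 hi hj
    by_contra hij
    obtain ⟨y, hy, hxy⟩ := hDn i x hi hx0
    exact hxy (hort j i (Ne.symm hij) x hj y hy)
  have hex : ∀ i, ∃ x ∈ D i, f x x = 1 := by
    intro i
    by_contra hcon
    push Not at hcon
    have h0 : ∀ x ∈ D i, f x x = 0 := fun x hx => (hval x).resolve_right (hcon x hx)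
    have hpos : 0 < Module.finrank F (D i) := by rw [hD.decomp.finrank_eq]; norm_num
    have : Nontrivial (D i) := Module.nontrivial_of_finrank_pos hpos
    obtain ⟨x, hx⟩ := exists_ne (0 : D i)
    obtain ⟨y, hy, hxy⟩ := hDn i x x.2 (by simpa using hx)
    exact hxy (H.eq_zero_of_iso h0 x.2 hy)
  -- number of pieces
  have ht : 3 ≤ t := by
    classical
    have hI := DirectSum.isInternal_submodule_of_iSupIndep_of_iSup_eq_top hD.decomp.indep hD.decomp.iSup_eq_top
    have h1 : Module.finrank F (DirectSum (Fin t) fun i => D i) = Module.finrank F (Fin n → F) :=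
      LinearEquiv.finrank_eq (LinearEquiv.ofBijective (DirectSum.coeLinearMap D) hI)
    rw [Module.finrank_directSum] at h1
    simp only [hD.decomp.finrank_eq, Finset.sum_const, Finset.card_univ, Fintype.card_fin, smul_eq_mul] at h1
    omega
  let i0 : Fin t := ⟨0, by omega⟩
  let i1 : Fin t := ⟨1, by omega⟩
  let i2 : Fin t := ⟨2, by omega⟩
  have h01 : i0 ≠ i1 := by simp [i0, i1]
  have h02 : i0 ≠ i2 := by simp [i0, i2]
  have h12 : i1 ≠ i2 := by simp [i1, i2]
  obtain ⟨x0, hx0, hx00⟩ := hex i0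
  obtain ⟨x1, hx1, hx11⟩ := hex i1
  obtain ⟨x2, hx2, hx22⟩ := hex i2
  -- the frame vectors
  set N : Set (Fin n → F) := {v | f v v = 1 ∧ ∃ i, v ∈ D i} with hN
  let K0 : Subgroup (Matrix.GeneralLinearGroup (Fin n) F) := Cfsg.stabilizing (Cfsg.glToMat (Fin n) F) N
  have hK0 : ∀ g, g ∈ K0 ↔ ∀ v, v ∈ N ↔ le g v ∈ N := fun g => Iff.rfl
  have hle : Cfsg.Geo.decompositionStabilizer D ⊓ (Cfsg.GU n F 2 ⊓ Cfsg.Geo.specialLinear (Fin n) F) ≤ K0 := by
    intro g hg
    obtain ⟨hg1, hg2⟩ := Subgroup.mem_inf.1 hg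
    obtain ⟨π, hπ⟩ := (mem_decompositionStabilizer_iff D g).1 hg1
    have hgi : ∀ x y, f (le g x) (le g y) = f x y := ((mem_SU_iff n g).1 hg2).1
    rw [hK0]
    intro v
    constructor
    · rintro ⟨h1, i, hi⟩
      refine ⟨by rw [hgi v v]; exact h1, π i, ?_⟩
      rw [← hπ i]; exact ⟨v, hi, rfl⟩
    · rintro ⟨h1, j, hj⟩
      refine ⟨by rw [← hgi v v]; exact h1, π.symm j, ?_⟩
      have h2 := hπ (π.symm j)
      rw [Equiv.apply_symm_apply] at h2
      rw [← h2] at hj
      obtain ⟨w, hw, hwv⟩ := hj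
      have : w = v := (le g).injective hwv
      rwa [← this]
  -- the swap
  have hsub : f (x0 - x1) (x0 - x1) = 0 := by
    rw [H.sub_left, H.sub_right, H.sub_right, hx00, hx11, hort i0 i1 h01 x0 hx0 x1 hx1,
      hort i1 i0 h01.symm x1 hx1 x0 hx0]
    linear_combination hchar
  have hone : (1 : F) + sig hF' 1 = 0 := by rw [map_one]; linear_combination hchar
  set s := tv H (x0 - x1) hsub 1 hone with hs
  have hsx : ∀ x, s x = x + f x (x0 - x1) • (x0 - x1) := by
    intro x; rw [hs, tv_apply, one_mul]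
  have hs0 : s x0 = x1 := by
    rw [hsx, H.sub_right, hx00, hort i0 i1 h01 x0 hx0 x1 hx1, sub_zero, one_smul]
    have h2 : x0 + x0 = 0 := by rw [← two_smul F x0, hchar, zero_smul]
    have h3 : -x1 = x1 := by
      rw [neg_eq_iff_add_eq_zero, ← two_smul F x1, hchar, zero_smul]
    calc x0 + (x0 - x1) = (x0 + x0) + -x1 := by abel
      _ = x1 := by rw [h2, h3, zero_add]
  have hs1 : s x1 = x0 := by
    rw [hsx, H.sub_right, hx11, hort i1 i0 h01.symm x1 hx1 x0 hx0, zero_sub, neg_smul, one_smul]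
    have h2 : x1 + x1 = 0 := by rw [← two_smul F x1, hchar, zero_smul]
    have h3 : -x0 = x0 := by
      rw [neg_eq_iff_add_eq_zero, ← two_smul F x0, hchar, zero_smul]
    calc x1 + -(x0 - x1) = (x1 + x1) + -x0 := by abel
      _ = x0 := by rw [h2, h3, zero_add]
  have hfixs : ∀ v, f v x0 = 0 → f v x1 = 0 → s v = v := by
    intro v h1 h2
    rw [hsx, H.sub_right, h1, h2, sub_zero, zero_smul, add_zero]
  have hss : ∀ v, s (s v) = v := by
    intro v
    rw [hsx (s v), hsx v, H.add_left, H.smul_left, hsub, mul_zero, add_zero]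
    have : f v (x0 - x1) • (x0 - x1) + f v (x0 - x1) • (x0 - x1) = 0 := by
      rw [← two_smul F, hchar, zero_smul]
    rw [add_assoc, this, add_zero]
  have hcase : ∀ i x v, x ∈ D i → f x x = 1 → v ∈ D i → f v v = 1 → f v x = 0 ∨ v = f v x • x := by
    intro i x v hx hxx hv hvv
    by_cases h : f v x = 0
    · exact Or.inl h
    · right
      have h1 : f (v - f v x • x) x = 0 := by rw [H.sub_left, H.smul_left, hxx]; ring
      have h2 : f (v - f v x • x) (v - f v x • x) = 0 := by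
        rw [H.sub_right, H.smul_right, h1, H.sub_left, H.smul_left, hvv, H.herm x v]
        have := hnorm _ h
        linear_combination -this
      have h3 := rank2 H (hDn i) (hD.decomp.finrank_eq i) hx ((D i).sub_mem hv ((D i).smul_mem _ hx))
        (by rw [hxx]; exact one_ne_zero) h1 h2
      exact sub_eq_zero.1 h3
  have hsN : ∀ v ∈ N, s v ∈ N := by
    rintro v ⟨hv1, i, hvi⟩
    refine ⟨by rw [hs, tv_mem H _ _ _ _ v v]; exact hv1, ?_⟩
    by_cases hi0 : i = i0
    · rw [hi0] at hvi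
      rcases hcase i0 x0 v hx0 hx00 hvi hv1 with h | h
      · rw [hfixs v h (hort i0 i1 h01 v hvi x1 hx1)]
        exact ⟨i0, hvi⟩
      · rw [h, LinearEquiv.map_smul, hs0]
        exact ⟨i1, (D i1).smul_mem _ hx1⟩
    · by_cases hi1 : i = i1
      · rw [hi1] at hvi
        rcases hcase i1 x1 v hx1 hx11 hvi hv1 with h | h
        · rw [hfixs v (hort i1 i0 h01.symm v hvi x0 hx0) h]
          exact ⟨i1, hvi⟩
        · rw [h, LinearEquiv.map_smul, hs1]
          exact ⟨i0, (D i0).smul_mem _ hx0⟩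
      · rw [hfixs v (hort i i0 hi0 v hvi x0 hx0) (hort i i1 hi1 v hvi x1 hx1)]
        exact ⟨i, hvi⟩
  have hsSU : le.symm s ∈ Cfsg.GU n F 2 ⊓ Cfsg.Geo.specialLinear (Fin n) F := by
    rw [mem_SU_iff, MulEquiv.apply_symm_apply]
    exact ⟨tv_mem H _ _ _ _, tv_det H _ _ _ _⟩
  have hsK : le.symm s ∈ K0 := by
    rw [hK0]
    intro v
    rw [MulEquiv.apply_symm_apply]
    exact ⟨hsN v, fun h => by have := hsN _ h; rwa [hss] at this⟩
  have hsH : le.symm s ∉ Cfsg.Geo.decompositionStabilizer D ⊓ (Cfsg.GU n F 2 ⊓ Cfsg.Geo.specialLinear (Fin n) F) := by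
    intro h
    obtain ⟨π, hπ⟩ := (mem_decompositionStabilizer_iff D _).1 (Subgroup.mem_inf.1 h).1
    rw [MulEquiv.apply_symm_apply] at hπ
    -- y0 in D i0 orthogonal to x0
    obtain ⟨y0, hy0, hy00, hy0x⟩ : ∃ y ∈ D i0, y ≠ 0 ∧ f y x0 = 0 := by
      have h1 := HS.finrank_inf_ker (D i0) (H.fl x0)
      rw [hD.decomp.finrank_eq] at h1
      have hpos : 0 < Module.finrank F (D i0 ⊓ LinearMap.ker (H.fl x0) : Submodule F (Fin n → F)) := by omega
      have : Nontrivial (D i0 ⊓ LinearMap.ker (H.fl x0) : Submodule F (Fin n → F)) :=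
        Module.nontrivial_of_finrank_pos hpos
      obtain ⟨y, hy⟩ := exists_ne (0 : (D i0 ⊓ LinearMap.ker (H.fl x0) : Submodule F (Fin n → F)))
      exact ⟨y, y.2.1, by simpa using hy, y.2.2⟩
    have h2 : x1 ∈ D (π i0) := by rw [← hπ i0]; exact ⟨x0, hx0, hs0⟩
    have h3 : y0 ∈ D (π i0) := by
      rw [← hπ i0]
      exact ⟨y0, hy0, hfixs y0 hy0x (hort i0 i1 h01 y0 hy0 x1 hx1)⟩
    have hx1ne : x1 ≠ 0 := by rintro rfl; rw [H.zero_left] at hx11; exact zero_ne_one hx11
    have h4 := hdisj i1 (π i0) x1 hx1ne hx1 h2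
    have h5 := hdisj i0 (π i0) y0 hy00 hy0 h3
    exact h01 (h5.trans h4.symm)
  -- an element of SU not in K0
  have hsum : f (x0 + x1 + x2) (x0 + x1 + x2) = 1 := by
    simp only [H.add_left, H.add_right, hx00, hx11, hx22, hort i0 i1 h01 x0 hx0 x1 hx1,
      hort i1 i0 h01.symm x1 hx1 x0 hx0, hort i0 i2 h02 x0 hx0 x2 hx2,
      hort i2 i0 h02.symm x2 hx2 x0 hx0, hort i1 i2 h12 x1 hx1 x2 hx2,
      hort i2 i1 h12.symm x2 hx2 x1 hx1]
    linear_combination hchar
  obtain ⟨g, hg, hgx⟩ := exists_move H hnd (by rw [finrank_top]; omega) (x := x0) (y := x0 + x1 + x2)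
    trivial trivial (by rintro rfl; rw [H.zero_left] at hx00; exact zero_ne_one hx00)
    (by intro h; rw [h, H.zero_left] at hsum; exact zero_ne_one hsum) (by rw [hx00, hsum])
  have hgSU : le.symm g ∈ Cfsg.GU n F 2 ⊓ Cfsg.Geo.specialLinear (Fin n) F := by
    rw [mem_SU_iff, MulEquiv.apply_symm_apply]
    exact ⟨tgrp_le_isom H _ hg, tgrp_det H hg⟩
  have hgK : le.symm g ∉ K0 := by
    intro h
    rw [hK0] at h
    have h1 := (h x0).1 ⟨hx00, i0, hx0⟩
    rw [MulEquiv.apply_symm_apply, hgx] at h1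
    obtain ⟨-, l, hl⟩ := h1
    by_cases hl0 : l = i0
    · rw [hl0] at hl
      have := hort i0 i1 h01 _ hl x1 hx1
      rw [H.add_left, H.add_left, hx11, hort i0 i1 h01 x0 hx0 x1 hx1, hort i2 i1 h12.symm x2 hx2 x1 hx1] at this
      simp at this
    · have := hort l i0 hl0 _ hl x0 hx0
      rw [H.add_left, H.add_left, hx00, hort i1 i0 h01.symm x1 hx1 x0 hx0, hort i2 i0 h02.symm x2 hx2 x0 hx0] at this
      simp at this
  refine ⟨K0 ⊓ (Cfsg.GU n F 2 ⊓ Cfsg.Geo.specialLinear (Fin n) F), ?_, ?_⟩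
  · refine lt_of_le_of_ne (le_inf hle inf_le_right) fun heq => hsH ?_
    rw [heq]; exact Subgroup.mem_inf.2 ⟨hsK, hsSU⟩
  · refine lt_of_le_of_ne inf_le_right fun heq => hgK ?_
    rw [← heq] at hgSU
    exact (Subgroup.mem_inf.1 hgSU).1

end Cfsg.Agent.S5656
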