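import Cfsg.Statements.S5657
import Cfsg.Agent.Lib.UnBridge
import Cfsg.Agent.Lib.GeoBridge
import Cfsg.Agent.Lib.TSPairH94
-- import your own Cfsg.Agent.* helpers here

set_option autoImplicit false
open Cfsg

namespace Cfsg.Agent.S5657

open Cfsg.Agent.Lib.UnTrans Cfsg.Agent.Lib.UnBridge Cfsg.Agent.Lib.GeoBridge Cfsg.Agent.Lib.TSPairH94
open Cfsg.Agent.Lib.SpTrans (isom mem_isom)


/-- Let F be the field with q² elements and n = 2k ≥ 13. Let D be a decomposition of F^n into two complementary subspaces of dimension k on each of which the standard unitary form vanishes identically. Then the elements of SU_n(q) preserving or interchanging the two subspaces form a maximal subgroup of SU_n(q). -/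
theorem result {F : Type*} [Field F] [Fintype F] (n q : ℕ) (hF : Fintype.card F = q ^ 2) (hn : 13 ≤ n) (k : ℕ) (hk : 2 * k = n) (D : Fin 2 → Submodule F (Fin n → F)) (hD : Cfsg.Geo.IsMDecomposition k D) (hts : ∀ i, Cfsg.Geo.IsTotallySingularFor (Cfsg.hermForm n F q) (D i)) : Cfsg.Geo.IsMaximalIn (Cfsg.GU n F q ⊓ Cfsg.Geo.specialLinear (Fin n) F) (Cfsg.Geo.decompositionStabilizer D ⊓ (Cfsg.GU n F q ⊓ Cfsg.Geo.specialLinear (Fin n) F)) := by
  have H := herm_HS n hF
  have hnd := herm_nd n hF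
  have hfr : Module.finrank F (Fin n → F) = n := Module.finrank_fin_fun F
  obtain ⟨δ, hδ0, hδ⟩ := H.exists_tr0
  have hδ' : sig hF δ = -δ := by linear_combination hδ
  obtain ⟨hdec, hint⟩ := dec_of hD.indep hD.iSup_eq_top
  let G : Subgroup ((Fin n → F) ≃ₗ[F] (Fin n → F)) :=
    isom (Cfsg.hermForm n F q) ⊓ (LinearEquiv.det (R := F) (M := Fin n → F)).ker
  have hGmem : ∀ g, g ∈ G ↔ g ∈ isom (Cfsg.hermForm n F q) ∧
      LinearMap.det ((g : (Fin n → F) ≃ₗ[F] (Fin n → F)) : (Fin n → F) →ₗ[F] (Fin n → F)) = 1 := by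
    intro g
    rw [Subgroup.mem_inf, MonoidHom.mem_ker, ← Units.val_inj, LinearEquiv.coe_det]; rfl
  have P0 : ∀ M : Subgroup ((Fin n → F) ≃ₗ[F] (Fin n → F)), M ≤ G →
      (∀ g ∈ G, (∀ a ∈ D 0, g a ∈ D 0) → (∀ b ∈ D 1, g b ∈ D 1) → g ∈ M) →
      (∀ g ∈ G, (∀ a ∈ D 0, g a ∈ D 1) → (∀ b ∈ D 1, g b ∈ D 0) → g ∈ M) →
      Pair (sig hF) (fun x y => δ * Cfsg.hermForm n F q x y) G M (D 0) (D 1) := by
    intro M hM h1 h3
    refine ⟨⟨H.inv, fun x y z => by rw [H.add_left]; ring, fun c x y => by rw [H.smul_left]; ring,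
      fun x y => by rw [map_mul, hδ', ← H.herm]; ring, ?_, ?_⟩,
      fun g hg x y => by rw [(hGmem g).1 hg |>.1 x y], hM, ?_,
      fun x hx y hy => by rw [hts 0 x hx y hy, mul_zero], fun x hx y hy => by rw [hts 1 x hx y hy, mul_zero],
      hdec, hint, ?_, ?_, h1, h3⟩
    · intro x hx
      by_contra hx0
      obtain ⟨y, -, hy⟩ := hnd x trivial hx0
      exact hy ((mul_eq_zero.1 (hx y)).resolve_left hδ0)
    · obtain ⟨τ, hτ⟩ := H.exists_trace 1 (map_one _)
      exact ⟨τ, by rw [hτ]; exact one_ne_zero⟩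
    · intro v hv c hc
      have hv' : Cfsg.hermForm n F q v v = 0 := (mul_eq_zero.1 hv).resolve_left hδ0
      have hc' : c * δ + sig hF (c * δ) = 0 := by rw [map_mul, hc, hδ']; ring
      refine ⟨tv H v hv' (c * δ) hc', (hGmem _).2 ⟨tv_mem H _ _ _ _, tv_det H _ _ _ _⟩, fun x => ?_⟩
      rw [tv_apply, mul_assoc]
    · rw [hD.finrank_eq]; omega
    · rw [hD.finrank_eq, hD.finrank_eq]
  have hdd : Module.finrank F (D 0) = Module.finrank F (D 1) := by rw [hD.finrank_eq, hD.finrank_eq]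
  refine SU_max_of n (P := fun g => ∃ σ : Equiv.Perm (Fin 2), ∀ i, (D i).map g.toLinearMap = D (σ i))
    (mem_decompositionStabilizer_iff D) ?_ ?_
  · obtain ⟨g, hg, hg1, hg2⟩ := (P0 _ le_rfl (fun g hg _ _ => hg) (fun g hg _ _ => hg)).exists_not
    refine ⟨g, ((hGmem g).1 hg).1, ((hGmem g).1 hg).2, fun hcon => ?_⟩
    rcases (perm_iff hdd g).1 hcon with h4 | h4
    · exact hg1 h4
    · exact hg2 h4
  · intro M hM hH hdet ⟨x, hx, hxP⟩ g hg hgd
    have P := P0 M (fun y hy => (hGmem y).2 ⟨hM hy, hdet y hy⟩)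
      (fun y hy h1 h3 => hH y ((hGmem y).1 hy).1 ((hGmem y).1 hy).2 ((perm_iff hdd y).2 (Or.inl ⟨h1, h3⟩)))
      (fun y hy h1 h3 => hH y ((hGmem y).1 hy).1 ((hGmem y).1 hy).2 ((perm_iff hdd y).2 (Or.inr ⟨h1, h3⟩)))
    have hall := P.main (by
      refine ⟨x, hx, ?_⟩
      rw [← not_or, ← perm_iff hdd]
      exact hxP)
    have h5 : tgrp H (⊤ : Submodule F (Fin n → F)) ≤ M := by
      rw [tgrp, Subgroup.closure_le]
      rintro t ⟨w, -, hw, a, ha, rfl⟩
      obtain ⟨t, ht, htx⟩ := hall w (by rw [hw, mul_zero]) (a / δ) (by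
        rw [map_div₀, hδ', show sig hF a = -a by linear_combination ha, neg_div_neg_eq])
      have : tv H w hw a ha = t := by
        apply LinearEquiv.ext
        intro x
        rw [tv_apply, htx, ← mul_assoc, div_mul_cancel₀ _ hδ0]
      rw [this]; exact ht
    exact h5 (su_le H hnd (by omega) hg hgd)

end Cfsg.Agent.S5657
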