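import Cfsg.Statements.S5659
import Cfsg.Agent.Lib.UnBridge
import Cfsg.Agent.Lib.SURealH94
import Cfsg.Agent.Lib.RatMapH94
-- import your own Cfsg.Agent.* helpers here

set_option autoImplicit false
open Cfsg

namespace Cfsg.Agent.S5659

open Cfsg.Agent.Lib.UnTrans Cfsg.Agent.Lib.UnMax Cfsg.Agent.Lib.GeoBridge Cfsg.Agent.Lib.UnBridge
  Cfsg.Agent.Lib.SURealH94 Cfsg.Agent.Lib.RatMapH94
open Cfsg.Agent.Lib.SpTrans (isom)
open QuadraticMap


/-- Let F be the field with q² elements, q odd, n ≥ 13, and F₀ the subfield with q elements. Let P be an invertible matrix such that the standard unitary form takes values in F₀ on the F₀-span of the columns of P (so it restricts to a non-degenerate symmetric bilinear form there). Then the elements of SU_n(q) lying in the subfield group of P form a maximal subgroup of SU_n(q). -/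
theorem result {F : Type*} [Field F] [Fintype F] (n q : ℕ) (hF : Fintype.card F = q ^ 2) (hn : 13 ≤ n) (hodd : Odd q) (F₀ : Subfield F) (hcard : Fintype.card F = Nat.card F₀ ^ 2) (P : Matrix.GeneralLinearGroup (Fin n) F) (hP : Cfsg.Geo.IsFormRationalStructure (Cfsg.hermForm n F q) F₀ 1 P) : Cfsg.Geo.IsMaximalIn (Cfsg.GU n F q ⊓ Cfsg.Geo.specialLinear (Fin n) F) (Cfsg.Geo.subfieldSubgroup F₀ P ⊓ (Cfsg.GU n F q ⊓ Cfsg.Geo.specialLinear (Fin n) F)) := by
  classical
  have H := herm_HS n hF
  have hnd := herm_nd n hF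
  have hdim : 4 ≤ Module.finrank F (Fin n → F) := by rw [Module.finrank_fin_fun]; omega
  have hq := one_lt_q hF
  have hcard0 : Nat.card F₀ = q := by
    have h1 : Nat.card F₀ ^ 2 = q ^ 2 := by rw [← hcard, hF]
    exact Nat.pow_left_injective (by norm_num : (2:ℕ) ≠ 0) h1
  -- the fixed field
  have hfix1 : ∀ c ∈ F₀, sig hF c = c := by
    intro c hc
    have : Fintype F₀ := Fintype.ofFinite F₀
    have h1 := FiniteField.pow_card (⟨c, hc⟩ : F₀)
    rw [Fintype.card_eq_nat_card, hcard0] at h1
    rw [sig_apply]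
    exact congrArg Subtype.val h1
  have hfix : ∀ c, sig hF c = c → c ∈ F₀ := by
    intro c hc
    by_contra hcF
    have h1 : (Polynomial.X ^ q - Polynomial.X : Polynomial F) ≠ 0 :=
      FiniteField.X_pow_card_sub_X_ne_zero F hq
    have h2 : insert c ((F₀ : Set F).toFinset) ⊆
        (Polynomial.X ^ q - Polynomial.X : Polynomial F).roots.toFinset := by
      intro x hx
      rw [Finset.mem_insert, Set.mem_toFinset] at hx
      rw [Multiset.mem_toFinset, Polynomial.mem_roots h1]
      have : sig hF x = x := by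
        rcases hx with rfl | hx
        · exact hc
        · exact hfix1 x hx
      simp [Polynomial.IsRoot, ← sig_apply hF, this]
    have h3 := Finset.card_le_card h2
    have h4 : (Polynomial.X ^ q - Polynomial.X : Polynomial F).roots.toFinset.card ≤ q :=
      (Multiset.toFinset_card_le _).trans ((Polynomial.card_roots' _).trans
        (FiniteField.X_pow_card_sub_X_natDegree_eq F hq).le)
    rw [Finset.card_insert_of_notMem (by rw [Set.mem_toFinset]; exact hcF)] at h3
    have h5 : ((F₀ : Set F).toFinset).card = q := by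
      rw [Set.toFinset_card, ← Nat.card_eq_fintype_card]; exact hcard0
    omega
  -- two is invertible
  have h2F : (2 : F) ≠ 0 := by
    intro h
    have hchar : ringChar F = 2 := by
      have h1 : ringChar F ∣ 2 := (ringChar.spec F 2).1 (by exact_mod_cast h)
      rcases (Nat.dvd_prime Nat.prime_two).1 h1 with h3 | h3
      · exfalso
        have : CharP F 1 := h3 ▸ (inferInstance : CharP F (ringChar F))
        exact one_ne_zero (CharP.cast_eq_zero F 1 ▸ (Nat.cast_one (R := F)).symm ▸ rfl : (1 : F) = 0)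
      · exact h3
    have h4 := FiniteField.even_card_of_char_two hchar
    have h5 := Nat.odd_iff.1 (hodd.pow (n := 2))
    rw [hF] at h4
    omega
  have h20 : (2 : F₀) ≠ 0 := by
    intro h
    have := congrArg (F₀.subtype) h
    rw [map_ofNat, map_zero] at this
    exact h2F this
  obtain ⟨δ, hδ0, hδ⟩ := H.exists_tr0
  have hsδ : sig hF δ = -δ := by linear_combination hδ
  have hdec : ∀ a : F, ∃ b c : F₀, a = F₀.subtype b + F₀.subtype c * δ := by
    intro a
    have e2 : sig hF 2 = 2 := map_ofNat _ 2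
    refine ⟨⟨(a + sig hF a) / 2, hfix _ (by rw [map_div₀, map_add, H.inv, e2]; ring)⟩,
      ⟨(a - sig hF a) / (2 * δ), hfix _ (by
        rw [map_div₀, map_sub, H.inv, map_mul, e2, hsδ, mul_neg, div_neg, ← neg_div, neg_sub])⟩, ?_⟩
    show a = (a + sig hF a) / 2 + (a - sig hF a) / (2 * δ) * δ
    field_simp
    ring
  -- the rational form
  have hjmem : ∀ x y : Fin n → F₀, hermForm n F q (jP F₀ P x) (jP F₀ P y) ∈ F₀ := by
    intro x y
    have := hP (fun i => (x i : F)) (fun i => (y i : F)) (fun i => (x i).2) (fun i => (y i).2)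
    rwa [one_mul] at this
  have hjsymm : ∀ x y : Fin n → F₀, hermForm n F q (jP F₀ P x) (jP F₀ P y) =
      hermForm n F q (jP F₀ P y) (jP F₀ P x) := by
    intro x y
    rw [H.herm, hfix1 _ (hjmem y x)]
  obtain ⟨B, hB⟩ : ∃ B : LinearMap.BilinForm F₀ (Fin n → F₀), ∀ x y,
      F₀.subtype (B x y) = hermForm n F q (jP F₀ P x) (jP F₀ P y) := by
    refine ⟨LinearMap.mk₂ F₀ (fun x y => ⟨_, hjmem x y⟩) ?_ ?_ ?_ ?_, fun x y => rfl⟩
    · intro x x' y
      apply Subtype.ext
      show hermForm n F q (jP F₀ P (x + x')) (jP F₀ P y) = _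
      rw [jP_add, H.add_left]; rfl
    · intro c x y
      apply Subtype.ext
      show hermForm n F q (jP F₀ P (c • x)) (jP F₀ P y) = _
      rw [jP_smul, H.smul_left]; rfl
    · intro x y y'
      apply Subtype.ext
      show hermForm n F q (jP F₀ P x) (jP F₀ P (y + y')) = _
      rw [jP_add, H.add_right]; rfl
    · intro c x y
      apply Subtype.ext
      show hermForm n F q (jP F₀ P x) (jP F₀ P (c • y)) = _
      rw [jP_smul, H.smul_right, hfix1 (F₀.subtype c) c.2]; rfl
  have hBs : ∀ x y, B x y = B y x := by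
    intro x y
    apply F₀.subtype.injective
    rw [hB, hB, hjsymm]
  obtain ⟨Q, hQ⟩ : ∃ Q : QuadraticForm F₀ (Fin n → F₀), ∀ x y, polar Q x y = B x y := by
    refine ⟨(2⁻¹ : F₀) • LinearMap.BilinMap.toQuadraticMap B, fun x y => ?_⟩
    have e : ∀ z, ((2⁻¹ : F₀) • LinearMap.BilinMap.toQuadraticMap B) z = 2⁻¹ * B z z := fun z => rfl
    rw [polar, e, e, e]
    simp only [map_add, LinearMap.add_apply, hBs y x]
    field_simp
    ring
  have hspan := jP_span (P := P) hdec
  have R : RS (sig hF) (hermForm n F q) F₀.subtype Q (jP F₀ P) δ := by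
    refine ⟨H, hnd, ?_, hδ0, hsδ, fun b => hfix1 _ b.2, h20, hdec, jP_add, jP_smul, fun x y => ?_, hspan⟩
    · apply Cfsg.Agent.Lib.Quad.nd_of
      intro x hx
      by_contra hx0
      have h1 : jP F₀ P x ≠ 0 := by
        intro h0
        apply hx0
        apply jP_inj (P := P)
        rw [h0, jP]
        have : (fun i => (((0 : Fin n → F₀) i : F₀) : F)) = 0 := by funext i; rfl
        rw [this, Matrix.mulVec_zero]
      obtain ⟨y, -, hy⟩ := hnd _ trivial h1
      obtain ⟨a, b, rfl⟩ := hspan y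
      apply hy
      rw [H.add_right, H.smul_right, ← hB, ← hB, ← hQ, ← hQ, hx, hx]
      simp
    · rw [hQ, hB]
  have hfr : Module.finrank F₀ (Fin n → F₀) = n := Module.finrank_fin_fun F₀
  apply SU_max_of n (P := fun g => ∃ κ : F, κ ≠ 0 ∧ ∀ x, ∃ y, g (jP F₀ P x) = κ • jP F₀ P y)
    (fun g => mem_subfieldSubgroup_iff' g)
  · exact R.exists_not (by omega)
  · intro M hM hH _ hex
    refine R.main hM ?_ (by omega) hdim hex
    intro a b ha hab
    have h0 : ∀ x y, hermForm n F q (jP F₀ P x) (jP F₀ P y) = F₀.subtype (polar Q x y) := R.form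
    obtain ⟨t, ht, htx⟩ := rhoIn_all H (M := tgrp H ⊤) (W := ⊤) le_rfl hnd (by rwa [finrank_top])
      (e := jP F₀ P a) (u := jP F₀ P b) trivial (R.iso ha) trivial
      (by rw [h0, polar_comm, hab, map_zero]) (-F₀.subtype (Q b))
      (by rw [map_neg, R.sι, h0, Cfsg.Agent.Lib.Quad.polar_self', map_mul, map_ofNat]; ring)
    have h1 : ∀ x, t (jP F₀ P x) = jP F₀ P (Cfsg.Agent.Lib.Quad.siegMap Q a b x) := by
      intro x
      rw [htx, Cfsg.Agent.Lib.Quad.siegMap_apply, rho, R.jsub, R.jsub, R.jadd, R.jsmul, R.jsmul, R.jsmul,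
        h0, h0, polar_comm Q x a, polar_comm Q x b, map_mul]
      module
    exact ⟨t, hH t (tgrp_le_isom H _ ht) (tgrp_det H ht) ⟨1, one_ne_zero, fun x => ⟨_, by
      rw [h1, one_smul]⟩⟩, h1⟩

end Cfsg.Agent.S5659
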