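import Cfsg.Statements.S5660
import Cfsg.Agent.Lib.UnSub
import Cfsg.Agent.Lib.UnBridge
import Cfsg.Agent.Lib.SubfieldGeo
-- import your own Cfsg.Agent.* helpers here

set_option autoImplicit false
open Cfsg

namespace Cfsg.Agent.S5660

open Cfsg.Agent.Lib.UnTrans Cfsg.Agent.Lib.UnMax Cfsg.Agent.Lib.GeoBridge Cfsg.Agent.Lib.UnBridge
  Cfsg.Agent.Lib.UnSub Cfsg.Agent.Lib.SubfieldGeo


/-- Let F be the field with q² elements, n ≥ 13 even, and F₀ the subfield with q elements. Let ζ be a non-zero element with ζ + ζ^q = 0 and P an invertible matrix such that ζ times the standard unitary form takes values in F₀ on the F₀-span of the columns of P and the form vanishes on every pair (u, u) of that span (so ζ times the form restricts to a non-degenerate alternating form there). Then the elements of SU_n(q) lying in the subfield group of P form a maximal subgroup of SU_n(q). -/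
theorem result {F : Type*} [Field F] [Fintype F] (n q : ℕ) (hF : Fintype.card F = q ^ 2) (hn : 13 ≤ n) (heven : Even n) (F₀ : Subfield F) (hcard : Fintype.card F = Nat.card F₀ ^ 2) (ζ : F) (hζ0 : ζ ≠ 0) (hζ : ζ + ζ ^ q = 0) (P : Matrix.GeneralLinearGroup (Fin n) F) (hP : Cfsg.Geo.IsFormRationalStructure (Cfsg.hermForm n F q) F₀ ζ P) (halt : ∀ u : Fin n → F, (∀ i, u i ∈ F₀) → Cfsg.hermForm n F q (Matrix.mulVec (P : Matrix (Fin n) (Fin n) F) u) (Matrix.mulVec (P : Matrix (Fin n) (Fin n) F) u) = 0) : Cfsg.Geo.IsMaximalIn (Cfsg.GU n F q ⊓ Cfsg.Geo.specialLinear (Fin n) F) (Cfsg.Geo.subfieldSubgroup F₀ P ⊓ (Cfsg.GU n F q ⊓ Cfsg.Geo.specialLinear (Fin n) F)) := by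
  classical
  have H := herm_HS n hF
  have hnd := herm_nd n hF
  have hdim : 4 ≤ Module.finrank F (Fin n → F) := by rw [Module.finrank_fin_fun]; omega
  have hq := one_lt_q hF
  have hcard0 : Nat.card F₀ = q := by
    have h1 : Nat.card F₀ ^ 2 = q ^ 2 := by rw [← hcard, hF]
    exact Nat.pow_left_injective (by norm_num : (2:ℕ) ≠ 0) h1
  -- the fixed field
  have hfix1 : ∀ c ∈ F₀, sig hF c = c := by
    intro c hc
    have : Fintype F₀ := Fintype.ofFinite F₀
    have h1 := FiniteField.pow_card (⟨c, hc⟩ : F₀)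
    rw [Fintype.card_eq_nat_card, hcard0] at h1
    rw [sig_apply]
    exact congrArg Subtype.val h1
  have hfix : ∀ c, sig hF c = c → c ∈ F₀ := by
    intro c hc
    by_contra hcF
    have h1 : (Polynomial.X ^ q - Polynomial.X : Polynomial F) ≠ 0 :=
      FiniteField.X_pow_card_sub_X_ne_zero F hq
    have h2 : insert c ((F₀ : Set F).toFinset) ⊆
        (Polynomial.X ^ q - Polynomial.X : Polynomial F).roots.toFinset := by
      intro x hx
      rw [Finset.mem_insert, Set.mem_toFinset] at hx
      rw [Multiset.mem_toFinset, Polynomial.mem_roots h1]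
      have : sig hF x = x := by
        rcases hx with rfl | hx
        · exact hc
        · exact hfix1 x hx
      simp [Polynomial.IsRoot, ← sig_apply hF, this]
    have h3 := Finset.card_le_card h2
    have h4 : (Polynomial.X ^ q - Polynomial.X : Polynomial F).roots.toFinset.card ≤ q :=
      (Multiset.toFinset_card_le _).trans ((Polynomial.card_roots' _).trans
        (FiniteField.X_pow_card_sub_X_natDegree_eq F hq).le)
    rw [Finset.card_insert_of_notMem (by rw [Set.mem_toFinset]; exact hcF)] at h3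
    have h5 : ((F₀ : Set F).toFinset).card = q := by
      rw [Set.toFinset_card, ← Nat.card_eq_fintype_card]; exact hcard0
    omega
  have S : SpIn (hermForm n F q) (sig hF) (rat F₀ P) ζ := by
    refine ⟨fun x hx c hc => rat_smul hx (hfix c hc), span_rat, hζ0, by rw [sig_apply]; exact hζ, ?_, ?_⟩
    · rintro _ ⟨u, hu, rfl⟩ _ ⟨v, hv, rfl⟩
      exact hfix1 _ (hP u v hu hv)
    · rintro _ ⟨u, hu, rfl⟩
      exact halt u hu
  apply SU_max_of n (P := fun g => ∃ c : F, c ≠ 0 ∧ ∀ v ∈ rat F₀ P, ∃ v' ∈ rat F₀ P, g v = c • v')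
    (fun g => mem_subfieldSubgroup_iff g)
  · -- strictness
    obtain ⟨τ, hτ⟩ := H.ne
    have : Nontrivial (Fin n → F) := Module.nontrivial_of_finrank_pos (R := F) (by omega)
    obtain ⟨v00, hv00⟩ := exists_ne (0 : Fin n → F)
    have hxe : ∃ x ∈ rat F₀ P, x ≠ 0 := by
      by_contra hcon
      push Not at hcon
      obtain ⟨x, hx, y, hy, hxy⟩ := S.exists_split H hτ v00
      rw [hcon x hx, hcon y hy] at hxy
      exact hv00 (by rw [hxy]; simp)
    obtain ⟨x, hx, hx0⟩ := hxe
    -- an element y of V0 orthogonal to x and independent of x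
    obtain ⟨y, hy, hxy, hyx⟩ : ∃ y ∈ rat F₀ P, hermForm n F q x y = 0 ∧ ∀ c ∈ F₀, y ≠ c • x := by
      by_contra hcon
      push Not at hcon
      obtain ⟨w, hw, hxw⟩ := S.nd H hnd hx0
      have hle : (⊤ : Submodule F (Fin n → F)) ≤ Submodule.span F {x, w} := by
        rw [← S.span, Submodule.span_le]
        intro v hv
        have hfx : sig hF (hermForm n F q x v / hermForm n F q x w) =
            hermForm n F q x v / hermForm n F q x w := by
          have := S.fix_of_anti H (S.anti H hx hv) (S.inv_tr H (S.anti H hx hw))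
          rwa [← div_eq_mul_inv] at this
        obtain ⟨c, -, hc⟩ := hcon (v - (hermForm n F q x v / hermForm n F q x w) • w)
          ((rat F₀ P).sub_mem hv (S.smul w hw _ hfx)) (by
            rw [H.sub_right, H.smul_right, hfx, div_mul_cancel₀ _ hxw, sub_self])
        rw [SetLike.mem_coe, Submodule.mem_span_pair]
        exact ⟨c, hermForm n F q x v / hermForm n F q x w, by rw [← hc]; abel⟩
      have h1 := Submodule.finrank_mono hle
      have h2 := finrank_span_le_card (R := F) ({x, w} : Set (Fin n → F))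
      have h3 : ({x, w} : Set (Fin n → F)).toFinset.card ≤ 2 := by
        simpa using Finset.card_le_two (a := x) (b := w)
      rw [finrank_top] at h1
      omega
    have hτF : τ ∉ F₀ := fun h => hτ (hfix1 τ h)
    have hzz : hermForm n F q (x + τ • y) (x + τ • y) = 0 := by
      rw [H.expand, S.alt x hx, S.alt y hy, H.symm_zero hxy]; simp
    have hz0 : x + τ • y ≠ 0 := by
      intro h0
      exact add_smul_ne hx hy hx0 hyx hτF 0 (rat F₀ P).zero_mem (by rw [h0]; simp)
    obtain ⟨t, ht, htx⟩ := exists_move H hnd (by rwa [finrank_top]) (x := x) (y := x + τ • y)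
      trivial trivial hx0 hz0 (by rw [S.alt x hx, hzz])
    refine ⟨t, tgrp_le_isom H _ ht, tgrp_det H ht, ?_⟩
    rintro ⟨c, -, hc⟩
    obtain ⟨v', hv', h1⟩ := hc x hx
    rw [htx] at h1
    exact add_smul_ne hx hy hx0 hyx hτF c hv' h1
  · intro M hM hH _ hex
    refine S.sp_in_su H hnd hdim hM ?_ ?_
    · rw [SpIn.T, Subgroup.closure_le]
      rintro t ⟨z, hz, hzz, a, ha, rfl⟩
      exact hH _ (tv_mem H _ _ _ _) (tv_det H _ _ _ _) ⟨1, one_ne_zero, fun v hv =>
        ⟨_, S.tv_mem_V0 H hz hzz ha hv, by rw [one_smul]⟩⟩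
    · obtain ⟨g, hg, h⟩ := hex
      refine ⟨g, hg, ?_⟩
      by_contra hcon
      push Not at hcon
      exact h (exists_uniform g hcon)

end Cfsg.Agent.S5660
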