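import Cfsg.Statements.S5663
import Cfsg.Agent.Lib.AschAdj14

set_option autoImplicit false
open Cfsg

namespace Cfsg.Agent.S5663

/-- Subgroup structure of the finite unitary groups. Let F be the field with q² elements and n ≥ 3 with (n, q) ≠ (3, 2), and let SU_n(q) be the group of matrices of determinant one preserving the standard unitary form Σ u_i v_i^q on F^n. Let H be a subgroup of SU_n(q) whose product with the scalar matrices in SU_n(q) is not all of SU_n(q) (H does not cover PSU_n(q)). Then either H is contained in a member of one of the geometric classes of subgroups of the unitary group GU_n(q) (with the conditions built into InUnitaryClass), or H is in the residual class: modulo scalars it is almost simple, and the perfect preimage of its socle acts absolutely irreducibly, is realisable over no proper subfield of F, and fixes no non-degenerate quadratic form and no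 non-degenerate symplectic form on F^n. -/
theorem result {F : Type*} [Field F] [Fintype F] (n q : ℕ) (hF : Fintype.card F = q ^ 2) (hn : 3 ≤ n) (hex : ¬ (n = 3 ∧ q = 2)) (H : Subgroup (Matrix.GeneralLinearGroup (Fin n) F)) (hH : H ≤ (Cfsg.GU n F q ⊓ Cfsg.Geo.specialLinear (Fin n) F)) (hproper : H ⊔ (Cfsg.Geo.scalars (Fin n) F ⊓ (Cfsg.GU n F q ⊓ Cfsg.Geo.specialLinear (Fin n) F)) ≠ (Cfsg.GU n F q ⊓ Cfsg.Geo.specialLinear (Fin n) F)) : (∃ M : Subgroup (Matrix.GeneralLinearGroup (Fin n) F), Cfsg.Geo.InUnitaryClass n F q M ∧ H ≤ M) ∨ Cfsg.Geo.InUnitaryResidualClass H := by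
  open Cfsg.Geo Cfsg.Agent.Lib.AschAdj in
  have hI : H ≤ GU n F q := hH.trans inf_le_left
  have hsim : ∀ R : Subgroup (Matrix.GeneralLinearGroup (Fin n) F), R ≤ GU n F q → R ≤ similarityGroup (hermForm n F q) := by
    intro R hR g hg
    exact ⟨1, fun u v => by rw [Units.val_one, one_mul]; exact hR hg u v⟩
  rcases ucase hF (by omega) hI with ⟨W, h0, hs, hle⟩ | ⟨W, h0, hs, hd, hle⟩ | ⟨t, k, D, htk, hD, hle⟩ | ⟨k, D, hk, hD, hs, hle⟩ |
    ⟨r, K, hr, hodd, hrn, hK, hadj, hle⟩ | ⟨n₁, n₂, e, P, f₁, f₂, h2, hlt, hnn, h₁, h₂, hst, hle⟩ | ⟨F₀, r, P, hr, hodd, hc, hst, hle⟩ |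
    ⟨F₀, P, hq, hc, hst, hle⟩ | ⟨F₀, P, ζ, hev, hc, hζ, hζq, hst, halt, hle⟩ |
    ⟨r, R, p, e, k, hsy, hirr, hRG, hrp, hnk, hk, hmin, hcases, hle⟩ | ⟨k, t, e, P, f₁, hk, ht, hkt, hexc, h₁, hst, hle⟩ |
    ⟨hq, ρ, P, hst, hle⟩ | hres
  · exact Or.inl ⟨_, Or.inl (Or.inl ⟨W, h0, hs, rfl⟩), le_inf hle hI⟩
  · exact Or.inl ⟨_, Or.inl (Or.inr (Or.inl ⟨W, h0, hs, hd, rfl⟩)), le_inf hle hI⟩
  · exact Or.inl ⟨_, Or.inl (Or.inr (Or.inr (Or.inl ⟨t, k, D, hD, rfl⟩))), le_inf hle hI⟩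
  · exact Or.inl ⟨_, Or.inl (Or.inr (Or.inr (Or.inr (Or.inl ⟨k, D, hk, hD, hs, rfl⟩)))), le_inf hle hI⟩
  · exact Or.inl ⟨_, Or.inr (Or.inl ⟨r, K, hr, hodd, hK, hadj, rfl⟩), le_inf hle hI⟩
  · exact Or.inl ⟨_, Or.inr (Or.inr (Or.inl ⟨n₁, n₂, e, P, f₁, f₂, h2, hlt, h₁, h₂, hst, rfl⟩)), le_inf hle hI⟩
  · exact Or.inl ⟨_, Or.inl (Or.inr (Or.inr (Or.inr (Or.inr (Or.inl ⟨F₀, r, P, hr, hodd, hc, hst, rfl⟩))))), le_inf hle hI⟩
  · exact Or.inl ⟨_, Or.inl (Or.inr (Or.inr (Or.inr (Or.inr (Or.inr (Or.inl ⟨F₀, P, hq, hc, hst, rfl⟩)))))), le_inf hle hI⟩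
  · exact Or.inl ⟨_, Or.inl (Or.inr (Or.inr (Or.inr (Or.inr (Or.inr (Or.inr (Or.inl ⟨F₀, P, ζ, hev, hc, hζ, hζq, hst, halt, rfl⟩))))))), le_inf hle hI⟩
  · refine Or.inl ⟨_, Or.inl (Or.inr (Or.inr (Or.inr (Or.inr (Or.inr (Or.inr (Or.inr ⟨r, R, p, e, k, hsy, hirr, hsim R hRG, hrp, hmin, ?_, rfl⟩))))))),
      le_inf hle hI⟩
    rcases hcases with ⟨a, b, c⟩ | h
    · exact Or.inl ⟨a, b, hk, c⟩
    · exact Or.inr h
  · exact Or.inl ⟨_, Or.inr (Or.inr (Or.inr ⟨k, t, e, P, f₁, hk, ht, hexc, h₁, hst, rfl⟩)), le_inf hle hI⟩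
  · subst hq
    obtain ⟨R, k, hsy, hirr, hRG, hnk, hk, hmin, hc, hR, hle'⟩ := exc_c6 hF ρ P hst hI hle
    exact Or.inl ⟨_, Or.inl (Or.inr (Or.inr (Or.inr (Or.inr (Or.inr (Or.inr (Or.inr ⟨3, R, 2, 2, k, hsy, hirr, hsim R hRG, by norm_num, hmin,
      Or.inl ⟨by decide, hc, hk, hR⟩, rfl⟩))))))), le_inf hle' hI⟩
  · exact Or.inr hres

end Cfsg.Agent.S5663
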