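import Cfsg.Statements.S5664
import Cfsg.Agent.Lib.GeoBridge
import Cfsg.Agent.Lib.SLMax
import Cfsg.Agent.Lib.SpTrans
import Cfsg.Agent.Lib.FldSpBrH94
-- import your own Cfsg.Agent.* helpers here

set_option autoImplicit false
open Cfsg

namespace Cfsg.Agent.S5664


open Module Cfsg.Agent.Lib.SpTrans Cfsg.Agent.Lib.GeoBridge Cfsg.Agent.Lib.SLMax Cfsg.Agent.Lib.ExtBrH94
open scoped MatrixGroups

/-- For a finite field F and m ≥ 7, let K be a subfield of the algebra of 2m × 2m matrices over F containing the scalars, of prime degree r over F, whose elements k are self-adjoint for the standard alternating form f on F^(2m) (f(k u, v) = f(u, k v)) and satisfy f(k v, v) = 0 for all v. Then the elements of Sp_2m(F) normalising K form a maximal subgroup of Sp_2m(F). -/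
theorem result {F : Type*} [Field F] [Fintype F] (m : ℕ) (hm : 7 ≤ m) (r : ℕ) (hr : r.Prime) (K : Subalgebra F (Matrix (Fin m ⊕ Fin m) (Fin m ⊕ Fin m) F)) (hK : Cfsg.Geo.IsFieldSubalgebra r K) (hsa : Cfsg.Geo.IsSelfAdjointFor (Cfsg.sympForm m F) K) (halt : ∀ k ∈ K, ∀ v : (Fin m ⊕ Fin m → F), Cfsg.sympForm m F (Matrix.mulVec k v) v = 0) : Cfsg.Geo.IsMaximalIn (Cfsg.spGL m F) (Cfsg.Geo.subalgebraNormalizer K ⊓ Cfsg.spGL m F) := by
  classical
  have hB := sympB_isAlt (F := F) m
  have hnd := sympB_nd (F := F) m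
  have : Nonempty (Fin m ⊕ Fin m) := ⟨Sum.inl ⟨0, by omega⟩⟩
  let _ : Field K := (isField_of hK).toField
  have hfV : finrank F (Fin m ⊕ Fin m → F) = m + m := by
    rw [finrank_fintype_fun_eq_card, Fintype.card_sum, Fintype.card_fin]
  have hfK : finrank F K = r := hK.finrank_eq
  have hr2 := hr.two_le
  have : FiniteDimensional F K := FiniteDimensional.of_finrank_pos (by rw [hfK]; omega)
  have hnd' : ∀ x, (∀ y, sympB m F x y = 0) → x = 0 := by
    intro x hx
    by_contra hx0
    obtain ⟨y, -, hy⟩ := hnd x trivial hx0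
    exact hy (hx y)
  have hsa' : ∀ (a : K) x y, sympB m F (rho K a x) y = sympB m F x (rho K a y) := fun a x y => hsa a a.2 x y
  have halt' : ∀ (a : K) x, sympB m F (rho K a x) x = 0 := fun a x => halt a a.2 x
  -- strictness
  obtain ⟨t, htS, htN⟩ : ∃ t : GL (Fin m ⊕ Fin m) F, t ∈ Cfsg.spGL m F ∧
      t ∉ Cfsg.Geo.subalgebraNormalizer K := by
    obtain ⟨v, hv⟩ : ∃ v : Fin m ⊕ Fin m → F, v ≠ 0 := by
      have : Nontrivial (Fin m ⊕ Fin m → F) := by
        rw [← Module.finrank_pos_iff (R := F), hfV]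
        omega
      exact exists_ne 0
    have hβ : (sympB m F).flip v ≠ 0 := by
      intro h
      apply hv
      apply hnd'
      intro y
      rw [alt_neg hB, ← LinearMap.flip_apply (sympB m F) y v, h]
      simp
    have hβv : (sympB m F).flip v v = 0 := hB v
    have heq : tr v ((sympB m F).flip v) hβv = tv _ hB v 1 := by
      apply LinearEquiv.ext
      intro x
      rw [tv_apply, tr_apply, one_mul, LinearMap.flip_apply]
    refine ⟨le.symm (tv _ hB v 1), ?_, ?_⟩
    · rw [mem_spGL_iff, MulEquiv.apply_symm_apply]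
      exact tv_mem_isom hB v 1
    · rw [mem_normalizer_iff, MulEquiv.apply_symm_apply, ← heq]
      exact tr_not F K (Fin m ⊕ Fin m → F) (rho K) (by rw [hfK]; exact hr2) (by rw [hfV]; omega) hv hβ hβv
  apply isMaximalIn_of
  · refine lt_of_le_of_ne inf_le_right fun heq => htN ?_
    rw [← heq] at htS
    exact htS.1
  · intro M hHM hMK hex g hg
    have hM : ∀ x ∈ M, ∀ y z, sympB m F (x y) (x z) = sympB m F y z := by
      intro x hx
      have := hMK (le.symm x) (by rwa [MulEquiv.apply_symm_apply])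
      rwa [mem_spGL_iff, MulEquiv.apply_symm_apply] at this
    refine isom_le_of_tv_mem hB hnd ?_ hg
    intro v a
    obtain ⟨t, ht, htx⟩ := Cfsg.Agent.Lib.FldSpH94.main_alg F K (Fin m ⊕ Fin m → F) (rho K) (sympB m F) hsa' halt' hnd'
      (by rw [hfK]; exact hr) (by rw [hfV]; omega) (M := M) hM (fun g hg hc => by
        have := hHM (le.symm g) (Subgroup.mem_inf.2 ⟨?_, ?_⟩)
        · rwa [MulEquiv.apply_symm_apply] at this
        · rw [mem_normalizer_iff, MulEquiv.apply_symm_apply]
          intro a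
          exact ⟨a, hc a⟩
        · rw [mem_spGL_iff, MulEquiv.apply_symm_apply]; exact hg) (by
        obtain ⟨x, hx, hxH⟩ := hex
        refine ⟨le x, hx, fun hcon => hxH ⟨?_, hMK x hx⟩⟩
        exact (mem_normalizer_iff K x).2 hcon) v a
    have : tv _ hB v a = t := by
      apply LinearEquiv.ext
      intro x
      rw [tv_apply, htx]
    rw [this]; exact ht


end Cfsg.Agent.S5664
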