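import Cfsg.Statements.S5665
import Cfsg.Agent.Lib.SpTrans
import Cfsg.Agent.Lib.GeoBridge
import Cfsg.Agent.Lib.SpExtH94
import Cfsg.Agent.Lib.QuadFieldH94
-- import your own Cfsg.Agent.* helpers here

set_option autoImplicit false
open Cfsg

namespace Cfsg.Agent.S5665

open Cfsg.Agent.Lib.SpTrans Cfsg.Agent.Lib.GeoBridge Cfsg.Agent.Lib.SpExtH94 Cfsg.Agent.Lib.QuadFieldH94
  Cfsg.Agent.Lib.OrthExtH94
open scoped Matrix


/-- For a finite field F of odd order and m ≥ 7, let K be a subfield of the algebra of 2m × 2m matrices over F containing the scalars, of degree 2 over F, that is closed under adjoints for the standard alternating form on F^(2m) but whose elements are not all self-adjoint (so the adjoint map induces the automorphism of order two of K). Then the elements of Sp_2m(F) normalising K form a maximal subgroup of Sp_2m(F). -/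
theorem result {F : Type*} [Field F] [Fintype F] (m : ℕ) (hm : 7 ≤ m) (hodd : Odd (Fintype.card F)) (K : Subalgebra F (Matrix (Fin m ⊕ Fin m) (Fin m ⊕ Fin m) F)) (hK : Cfsg.Geo.IsFieldSubalgebra 2 K) (hac : Cfsg.Geo.IsAdjointClosedFor (Cfsg.sympForm m F) K) (hnsa : ¬ Cfsg.Geo.IsSelfAdjointFor (Cfsg.sympForm m F) K) : Cfsg.Geo.IsMaximalIn (Cfsg.spGL m F) (Cfsg.Geo.subalgebraNormalizer K ⊓ Cfsg.spGL m F) := by
  have hB := sympB_isAlt (F := F) m
  have hnd := sympB_nd (F := F) m
  have h2 : (2 : F) ≠ 0 := by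
    intro h
    have hchar : ringChar F = 2 := by
      have h1 : ringChar F ∣ 2 := (ringChar.spec F 2).1 (by exact_mod_cast h)
      rcases (Nat.dvd_prime Nat.prime_two).1 h1 with h3 | h3
      · exfalso
        have : CharP F 1 := h3 ▸ (inferInstance : CharP F (ringChar F))
        exact one_ne_zero (CharP.cast_eq_zero F 1 ▸ (Nat.cast_one (R := F)).symm ▸ rfl : (1 : F) = 0)
      · exact h3
    have h4 := FiniteField.even_card_of_char_two hchar
    have h5 := Nat.odd_iff.1 hodd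
    omega
  have : Nonempty (Fin m ⊕ Fin m) := ⟨Sum.inl ⟨0, by omega⟩⟩
  have hfr : Module.finrank F (Fin m ⊕ Fin m → F) = 2 * m := by
    rw [Module.finrank_fintype_fun_eq_card, Fintype.card_sum, Fintype.card_fin]; ring
  have hnd' : ∀ x, (∀ y, sympB m F x y = 0) → x = 0 := by
    intro x hx
    by_contra hx0
    obtain ⟨y, -, hy⟩ := hnd x trivial hx0
    exact hy (hx y)
  obtain ⟨κ₀, hκ₀, T, N, hsq₀, hall₀, hirr, hκc₀⟩ := exists_gen hK
  have hadj₀ : ∀ u v, sympB m F (κ₀ *ᵥ u) v = T * sympB m F u v - sympB m F u (κ₀ *ᵥ v) :=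
    adjoint_eq hK (sympB m F) (by
      intro x hx
      apply hnd'
      intro y
      rw [alt_neg hB, hx, neg_zero]) hac hnsa hκ₀ hsq₀ hall₀
  obtain ⟨s, rfl⟩ : ∃ s, T = s + s := ⟨T / 2, by field_simp; ring⟩
  obtain ⟨κ, hκd⟩ : ∃ κ, κ = κ₀ - s • (1 : Matrix (Fin m ⊕ Fin m) (Fin m ⊕ Fin m) F) := ⟨_, rfl⟩
  have hκ₀d : κ₀ = κ + s • (1 : Matrix (Fin m ⊕ Fin m) (Fin m ⊕ Fin m) F) := by rw [hκd]; abel
  have hκ : κ ∈ K := by rw [hκd]; exact K.sub_mem hκ₀ (K.smul_mem K.one_mem _)
  have hall : ∀ k ∈ K, ∃ a b : F, k = a • (1 : Matrix (Fin m ⊕ Fin m) (Fin m ⊕ Fin m) F) + b • κ := by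
    intro k hk
    obtain ⟨a, b, rfl⟩ := hall₀ k hk
    refine ⟨a + b * s, b, ?_⟩
    rw [hκ₀d]; module
  have hκc : ∀ c : F, κ ≠ c • (1 : Matrix (Fin m ⊕ Fin m) (Fin m ⊕ Fin m) F) := by
    intro c hc
    apply hκc₀ (c + s)
    rw [hκ₀d, hc]; module
  have hκκ : κ * κ = (s * s - N) • (1 : Matrix (Fin m ⊕ Fin m) (Fin m ⊕ Fin m) F) := by
    rw [hκd]
    simp only [sub_mul, mul_sub, mul_smul_comm, smul_mul_assoc, mul_one, one_mul, hsq₀]
    module
  have hk : SKS (sympB m F) (Matrix.toLin' κ) (s * s - N) := by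
    refine ⟨hB, hnd', h2, fun x => ?_, fun x y => ?_, fun c hc => ?_⟩
    · simp only [Matrix.toLin'_apply]
      rw [Matrix.mulVec_mulVec, hκκ, Matrix.smul_mulVec, Matrix.one_mulVec]
    · simp only [Matrix.toLin'_apply]
      rw [hκd]
      simp only [Matrix.sub_mulVec, Matrix.smul_mulVec, Matrix.one_mulVec, map_sub, map_smul,
        LinearMap.sub_apply, LinearMap.smul_apply, smul_eq_mul, hadj₀]
      ring
    · have := hirr 1 (c - s) (by linear_combination hc)
      exact one_ne_zero this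
  have hmem := mem_normalizer_iff hκ hall hκc
  apply isMaximalIn_of
  · refine lt_of_le_of_ne inf_le_right fun heq => ?_
    obtain ⟨g, hg, hgN⟩ := hk.exists_not (by omega)
    have ht2 : le.symm g ∈ spGL m F := by
      rw [mem_spGL_iff, MulEquiv.apply_symm_apply]; exact hg
    rw [← heq] at ht2
    have h3 := (hmem _).1 ht2.1
    rw [MulEquiv.apply_symm_apply] at h3
    exact hgN h3
  · intro M hHM hMK hex g hg
    have hM : M ≤ isom (fun x y => sympB m F x y) := by
      intro x hx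
      have := hMK (le.symm x) (by rwa [MulEquiv.apply_symm_apply])
      rwa [mem_spGL_iff, MulEquiv.apply_symm_apply] at this
    have hHM' : ∀ x ∈ isom (fun x y => sympB m F x y), Nrm (Matrix.toLin' κ) x → x ∈ M := by
      intro x hx hxW
      have := hHM (le.symm x) (Subgroup.mem_inf.2 ⟨?_, ?_⟩)
      · rwa [MulEquiv.apply_symm_apply] at this
      · rw [hmem, MulEquiv.apply_symm_apply]; exact hxW
      · rw [mem_spGL_iff, MulEquiv.apply_symm_apply]; exact hx
    refine hk.main hM ?_ (by omega) ?_ hg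
    · intro v hv c
      refine hHM' _ (mul_mem (tv_mem_isom hB _ _) (tv_mem_isom hB _ _)) ⟨0, 1, fun x => ?_⟩
      simp only [LinearEquiv.mul_apply, tv_apply, map_add, map_smul, hk.sq, hk.adj, hv, smul_eq_mul,
        zero_smul, one_smul, zero_add, neg_zero, mul_zero, add_zero]
      module
    · obtain ⟨x, hx, hxH⟩ := hex
      exact ⟨le x, hx, fun hcon => hxH ⟨(hmem x).2 hcon, hMK x hx⟩⟩

end Cfsg.Agent.S5665
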