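import Cfsg.Statements.S5666
import Cfsg.Agent.Lib.TenSpG9
import Cfsg.Agent.Lib.TenSpO6
import Cfsg.Agent.Lib.TenSpT7

set_option autoImplicit false
open Cfsg

namespace Cfsg.Agent.S5666

/-- For a finite field F of odd order q and m ≥ 7, suppose the standard alternating form on F^(2m) is similar, through a change of basis P and a bijection of index sets e, to the tensor product of a non-degenerate symplectic form f₁ on F^(n₁) and a non-degenerate symmetric bilinear form f₂ on F^(n₂) with n₂ ≥ 3. Unless q = 3 and n₂ = 3, the elements of Sp_2m(F) in the stabiliser of this tensor decomposition (the conjugate by P of the Kronecker-product subgroup transported along e) form a maximal subgroup of Sp_2m(F). -/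
theorem result {F : Type*} [Field F] [Fintype F] (m : ℕ) (hm : 7 ≤ m) (hodd : Odd (Fintype.card F)) (n₁ n₂ : ℕ) (hn₂ : 3 ≤ n₂) (hex : ¬ (Fintype.card F = 3 ∧ n₂ = 3)) (e : (Fin m ⊕ Fin m) ≃ Fin n₁ × Fin n₂) (P : Matrix.GeneralLinearGroup (Fin m ⊕ Fin m) F) (f₁ : (Fin n₁ → F) → (Fin n₁ → F) → F) (f₂ : (Fin n₂ → F) → (Fin n₂ → F) → F) (hf₁ : Cfsg.Geo.IsSymplecticForm f₁) (hf₂ : Cfsg.Geo.IsSymmetricForm f₂) (hT : Cfsg.Geo.IsTensorFormStructure id (Cfsg.sympForm m F) f₁ f₂ e P) : Cfsg.Geo.IsMaximalIn (Cfsg.spGL m F) (Cfsg.Geo.tensorProductSubgroup n₁ n₂ e P ⊓ Cfsg.spGL m F) := by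
  have hcard : n₁ * n₂ = 2 * m := by
    have h := Fintype.card_congr e
    simp only [Fintype.card_sum, Fintype.card_fin, Fintype.card_prod] at h
    omega
  have hn₁0 : n₁ ≠ 0 := by
    rintro rfl
    omega
  have hn₁1 : n₁ ≠ 1 := by
    rintro rfl
    obtain ⟨-, y, hy⟩ := hf₁.nondegenerate (fun _ => 1) (fun h0 => by
      have := congrFun h0 0
      simp at this)
    apply hy
    have e1 : y = y 0 • (fun _ => (1 : F)) := by
      funext i
      rw [Subsingleton.elim i 0]
      simp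
    rw [e1, hf₁.bilinear.smul_right, hf₁.alternating, mul_zero]
  by_cases h3 : n₂ = 3
  · subst h3
    have hq : 3 < Fintype.card F := by
      have h1 : Fintype.card F ≠ 3 := fun h => hex ⟨h, rfl⟩
      have h2 := Fintype.one_lt_card (α := F)
      obtain ⟨k, hk⟩ := hodd
      omega
    exact Cfsg.Agent.Lib.TenSpT.tensor3_max hodd hq (by omega) e P f₁ f₂ hf₁ hf₂ hT
  · by_cases h2 : n₁ = 2
    · subst h2
      exact Cfsg.Agent.Lib.TenSpO.tensor2_max (by omega) hodd e P f₁ f₂ hf₁ hf₂ hT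
    · exact Cfsg.Agent.Lib.TenSpT.tensor4_max hodd (by omega) (by omega) e P f₁ f₂ hf₁ hf₂ hT

end Cfsg.Agent.S5666
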