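import Cfsg.Statements.S5667
import Cfsg.Agent.Lib.SpMax
import Cfsg.Agent.Lib.GeoBridge
import Cfsg.Agent.Lib.TensorGeo
import Cfsg.Agent.Lib.O33
-- import your own Cfsg.Agent.* helpers here

set_option autoImplicit false
open Cfsg

namespace Cfsg.Agent.S5667

open Cfsg.Agent.Lib.SpTrans Cfsg.Agent.Lib.SpMax Cfsg.Agent.Lib.GeoBridge
  Cfsg.Agent.Lib.TensorGeo
open Cfsg.Agent.Lib.O33 (SB exists_frame frame_exp eq_of_norm factor_one sq_one)
open scoped Matrix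


/-- Over the field with 3 elements and for m ≥ 7, suppose the standard alternating form on F^(2m) is similar, through P and e, to the tensor product of a non-degenerate symplectic form f₁ on F^(n₁) and a non-degenerate symmetric bilinear form f₂ on F^3. Then the elements of Sp_2m(3) in the stabiliser of this tensor decomposition form a subgroup that is not maximal: some subgroup lies strictly between it and Sp_2m(3). -/
theorem result {F : Type*} [Field F] [Fintype F] (m : ℕ) (hm : 7 ≤ m) (hq : Fintype.card F = 3) (n₁ : ℕ) (e : (Fin m ⊕ Fin m) ≃ Fin n₁ × Fin 3) (P : Matrix.GeneralLinearGroup (Fin m ⊕ Fin m) F) (f₁ : (Fin n₁ → F) → (Fin n₁ → F) → F) (f₂ : (Fin 3 → F) → (Fin 3 → F) → F) (hf₁ : Cfsg.Geo.IsSymplecticForm f₁) (hf₂ : Cfsg.Geo.IsSymmetricForm f₂) (hT : Cfsg.Geo.IsTensorFormStructure id (Cfsg.sympForm m F) f₁ f₂ e P) : ∃ K : Subgroup (Matrix.GeneralLinearGroup (Fin m ⊕ Fin m) F),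 Cfsg.Geo.tensorProductSubgroup n₁ 3 e P ⊓ Cfsg.spGL m F < K ∧ K < Cfsg.spGL m F := by
  have hB := sympB_isAlt (F := F) m
  have hnd := sympB_nd (F := F) m
  obtain ⟨c, hc0, hc⟩ := hT
  have h2m : 2 * m = n₁ * 3 := by
    have := Fintype.card_congr e
    simp at this
    omega
  have hform : ∀ x₁ y₁ x₂ y₂, Cfsg.sympForm m F (tp e P x₁ x₂) (tp e P y₁ y₂) = c * (f₁ x₁ y₁ * f₂ x₂ y₂) := by
    refine form_tp (σ := id) (fun a b => rfl) ?_ ?_ hc
    · exact eq_formOfGram hf₁.bilinear.add_left hf₁.bilinear.smul_left hf₁.bilinear.add_right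
        hf₁.bilinear.smul_right
    · exact eq_formOfGram hf₂.bilinear.add_left hf₂.bilinear.smul_left hf₂.bilinear.add_right
        hf₂.bilinear.smul_right
  have hform' : ∀ x₁ y₁ x₂ y₂, sympB m F (tp e P x₁ x₂) (tp e P y₁ y₂) = c * (f₁ x₁ y₁ * f₂ x₂ y₂) := hform
  have H2 : SB f₂ := ⟨hf₂.bilinear.add_left, hf₂.bilinear.smul_left, hf₂.symm⟩
  have hfr3 : Module.finrank F (⊤ : Submodule F (Fin 3 → F)) = 3 := by
    rw [finrank_top, Module.finrank_fin_fun]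
  obtain ⟨ε, hε, E, -, hE⟩ := exists_frame hq H2 hfr3 (fun x _ hx => by
    obtain ⟨y, hy⟩ := (hf₂.nondegenerate x hx).2
    exact ⟨y, trivial, hy⟩)
  have hexp : ∀ x, x = ∑ i, (ε * f₂ x (E i)) • E i := fun x =>
    frame_exp hq H2 hfr3 hε (fun _ => trivial) hE x trivial
  have hnorm : ∀ x, f₂ x x = ε → ∃ i, ∃ a : F, a ≠ 0 ∧ x = a • E i := fun x hx =>
    eq_of_norm hq H2 hfr3 hε (fun _ => trivial) hE trivial hx
  obtain ⟨w0, hw0⟩ : ∃ w0 : Fin n₁ → F, w0 ≠ 0 := by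
    have : Nontrivial (Fin n₁ → F) := Module.nontrivial_of_finrank_pos (R := F) (by
      rw [Module.finrank_fin_fun]; omega)
    exact exists_ne _
  obtain ⟨y0, hy0⟩ : ∃ y0, f₁ y0 w0 ≠ 0 := (hf₁.nondegenerate w0 hw0).1
  set N : Set (Fin m ⊕ Fin m → F) := {v | ∃ x y, f₂ y y = ε ∧ v = tp e P x y} with hN
  let K0 : Subgroup (Matrix.GeneralLinearGroup (Fin m ⊕ Fin m) F) :=
    Cfsg.stabilizing (Cfsg.glToMat (Fin m ⊕ Fin m) F) N
  have hK0 : ∀ g, g ∈ K0 ↔ ∀ v, v ∈ N ↔ le g v ∈ N := fun g => Iff.rfl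
  have hle1 : ∀ g ∈ Cfsg.Geo.tensorProductSubgroup n₁ 3 e P ⊓ Cfsg.spGL m F, ∀ v ∈ N, le g v ∈ N := by
    intro g hg
    obtain ⟨hg1, hg2⟩ := Subgroup.mem_inf.1 hg
    obtain ⟨A, B, hAB⟩ := (mem_tensor_iff g).1 hg1
    have hgi : ∀ x y, Cfsg.sympForm m F (le g x) (le g y) = Cfsg.sympForm m F x y := (mem_spGL_iff m g).1 hg2
    have h1 : ∀ x₁ y₁ x₂ y₂, f₁ (A.1 *ᵥ x₁) (A.1 *ᵥ y₁) * f₂ (B.1 *ᵥ x₂) (B.1 *ᵥ y₂) = f₁ x₁ y₁ * f₂ x₂ y₂ := by
      intro x₁ y₁ x₂ y₂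
      have h2 := hgi (tp e P x₁ x₂) (tp e P y₁ y₂)
      rw [hAB, hAB, hform, hform] at h2
      exact mul_left_cancel₀ hc0 h2
    have hne : f₁ (A.1 *ᵥ y0) (A.1 *ᵥ w0) ≠ 0 := by
      intro h0
      have := h1 y0 w0 (E 0) (E 0)
      rw [h0, zero_mul, hE, if_pos rfl] at this
      exact mul_ne_zero hy0 hε this.symm
    have h2 : ∀ x y, f₂ (B.1 *ᵥ x) (B.1 *ᵥ y) = (f₁ y0 w0 / f₁ (A.1 *ᵥ y0) (A.1 *ᵥ w0)) * f₂ x y := by
      intro x y
      have := h1 y0 w0 x y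
      field_simp
      linear_combination this
    have hμ := factor_one hq H2 hfr3 hε (fun _ => trivial) hE (div_ne_zero hy0 hne)
      (u := fun i => B.1 *ᵥ (E i)) (fun _ => trivial) (fun i j => by rw [h2, hE])
    rintro _ ⟨x, y, hx, rfl⟩
    rw [hAB]
    exact ⟨_, _, by rw [h2, hμ, one_mul, hx], rfl⟩
  have hle : Cfsg.Geo.tensorProductSubgroup n₁ 3 e P ⊓ Cfsg.spGL m F ≤ K0 := by
    intro g hg
    rw [hK0]
    intro v
    refine ⟨hle1 g hg v, fun h => ?_⟩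
    have := hle1 g⁻¹ (inv_mem hg) _ h
    rwa [map_inv, ← LinearEquiv.mul_apply, inv_mul_cancel] at this
  have hcomp : ∀ v ∈ N, ∃ i, ∀ j, j ≠ i → ∀ z, Cfsg.sympForm m F v (tp e P z (E j)) = 0 := by
    rintro _ ⟨x, y, hy, rfl⟩
    obtain ⟨i, a, ha, rfl⟩ := hnorm y hy
    refine ⟨i, fun j hj z => ?_⟩
    rw [hform, H2.smul_left, hE, if_neg (Ne.symm hj)]; ring
  -- the element of K0
  have hs0 : ∀ (a : F) u, tv (sympB m F) hB (tp e P w0 (E 0)) a (tp e P u (E 0)) =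
      tp e P (u + (a * (c * (f₁ u w0 * ε))) • w0) (E 0) := by
    intro a u
    rw [tv_apply, hform', hE, if_pos rfl, tp_add_left, tp_smul_left]
  have hsj : ∀ (a : F) u j, j ≠ 0 → tv (sympB m F) hB (tp e P w0 (E 0)) a (tp e P u (E j)) = tp e P u (E j) := by
    intro a u j hj
    rw [tv_apply, hform', hE, if_neg hj]; simp
  have hsN : ∀ (a : F), ∀ v ∈ N, tv (sympB m F) hB (tp e P w0 (E 0)) a v ∈ N := by
    intro b
    rintro _ ⟨x, y, hy, rfl⟩
    obtain ⟨i, a, ha, rfl⟩ := hnorm y hy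
    by_cases hi : i = 0
    · subst hi
      rw [tp_smul_right, LinearEquiv.map_smul, hs0, ← tp_smul_right]
      exact ⟨_, _, hy, rfl⟩
    · rw [tp_smul_right, LinearEquiv.map_smul, hsj _ _ _ hi, ← tp_smul_right]
      exact ⟨_, _, hy, rfl⟩
  have hsSp : le.symm (tv (sympB m F) hB (tp e P w0 (E 0)) 1) ∈ Cfsg.spGL m F := by
    rw [mem_spGL_iff, MulEquiv.apply_symm_apply]
    exact tv_mem_isom hB _ _
  have hsK : le.symm (tv (sympB m F) hB (tp e P w0 (E 0)) 1) ∈ K0 := by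
    rw [hK0]
    intro v
    rw [MulEquiv.apply_symm_apply]
    refine ⟨hsN 1 v, fun h => ?_⟩
    have h1 := hsN (-1) _ h
    rwa [← LinearEquiv.mul_apply, tv_mul, neg_add_cancel, tv_zero] at h1
  have hsH : le.symm (tv (sympB m F) hB (tp e P w0 (E 0)) 1) ∉
      Cfsg.Geo.tensorProductSubgroup n₁ 3 e P ⊓ Cfsg.spGL m F := by
    intro h
    obtain ⟨A, B, hAB⟩ := (mem_tensor_iff _).1 (Subgroup.mem_inf.1 h).1
    rw [MulEquiv.apply_symm_apply] at hAB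
    have hf1nd : ∀ x, (∀ z, f₁ x z = 0) → x = 0 := by
      intro x hx
      by_contra hne
      obtain ⟨z, hz⟩ := (hf₁.nondegenerate x hne).2
      exact hz (hx z)
    have hsub : ∀ x y z, f₁ (x - y) z = f₁ x z - f₁ y z := by
      intro x y z
      have h1 := hf₁.bilinear.add_left (x - y) y z
      rw [sub_add_cancel] at h1
      rw [h1]; ring
    -- components along E 1
    have h1 : ∀ u, (ε * f₂ (B.1 *ᵥ (E 1)) (E 1)) • (A.1 *ᵥ u) = u := by
      intro u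
      have h2 := hAB u (E 1)
      rw [hsj _ _ _ (by decide)] at h2
      have h3 : u - (ε * f₂ (B.1 *ᵥ (E 1)) (E 1)) • (A.1 *ᵥ u) = 0 := by
        apply hf1nd
        intro z
        have h4 : Cfsg.sympForm m F (tp e P u (E 1)) (tp e P z (E 1)) =
            Cfsg.sympForm m F (tp e P (A.1 *ᵥ u) (B.1 *ᵥ (E 1))) (tp e P z (E 1)) := by rw [← h2]
        rw [hform, hform, hE, if_pos rfl] at h4
        have h5 := mul_left_cancel₀ hc0 h4
        have hεε := sq_one hq hε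
        rw [hsub, hf₁.bilinear.smul_left]
        linear_combination ε * h5 - f₁ u z * hεε
      exact (sub_eq_zero.1 h3).symm
    -- components along E 0
    have h2 : y0 + (1 * (c * (f₁ y0 w0 * ε))) • w0 - (ε * f₂ (B.1 *ᵥ (E 0)) (E 0)) • (A.1 *ᵥ y0) = 0 := by
      apply hf1nd
      intro z
      have h3 := hAB y0 (E 0)
      rw [hs0] at h3
      have h4 : Cfsg.sympForm m F (tp e P (y0 + (1 * (c * (f₁ y0 w0 * ε))) • w0) (E 0)) (tp e P z (E 0)) =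
          Cfsg.sympForm m F (tp e P (A.1 *ᵥ y0) (B.1 *ᵥ (E 0))) (tp e P z (E 0)) := by rw [← h3]
      rw [hform, hform, hE, if_pos rfl] at h4
      have h5 := mul_left_cancel₀ hc0 h4
      have hεε := sq_one hq hε
      rw [hsub, hf₁.bilinear.smul_left (ε * f₂ (B.1 *ᵥ (E 0)) (E 0))]
      linear_combination ε * h5 - f₁ (y0 + (1 * (c * (f₁ y0 w0 * ε))) • w0) z * hεε
    -- so A y0 is a multiple of y0, contradiction
    have h3 := h1 y0
    have h4 : f₁ ((ε * f₂ (B.1 *ᵥ (E 1)) (E 1)) • (y0 + (1 * (c * (f₁ y0 w0 * ε))) • w0 -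
        (ε * f₂ (B.1 *ᵥ (E 0)) (E 0)) • (A.1 *ᵥ y0))) y0 = 0 := by
      rw [h2, smul_zero]
      have := hf₁.bilinear.smul_left 0 0 y0
      simpa using this
    have h5 : (ε * f₂ (B.1 *ᵥ (E 1)) (E 1)) • (y0 + (1 * (c * (f₁ y0 w0 * ε))) • w0 -
        (ε * f₂ (B.1 *ᵥ (E 0)) (E 0)) • (A.1 *ᵥ y0)) =
        (ε * f₂ (B.1 *ᵥ (E 1)) (E 1) - ε * f₂ (B.1 *ᵥ (E 0)) (E 0)) • y0 +
          (ε * f₂ (B.1 *ᵥ (E 1)) (E 1) * (1 * (c * (f₁ y0 w0 * ε)))) • w0 := by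
      have h6 : (ε * f₂ (B.1 *ᵥ (E 1)) (E 1)) • (y0 + (1 * (c * (f₁ y0 w0 * ε))) • w0 -
        (ε * f₂ (B.1 *ᵥ (E 0)) (E 0)) • (A.1 *ᵥ y0)) =
        (ε * f₂ (B.1 *ᵥ (E 1)) (E 1)) • y0 + (ε * f₂ (B.1 *ᵥ (E 1)) (E 1) * (1 * (c * (f₁ y0 w0 * ε)))) • w0 -
        (ε * f₂ (B.1 *ᵥ (E 0)) (E 0)) • ((ε * f₂ (B.1 *ᵥ (E 1)) (E 1)) • (A.1 *ᵥ y0)) := by module
      rw [h6, h3]; module
    have hw0y0 : f₁ w0 y0 ≠ 0 := by
      rw [hf₁.skew]; exact neg_ne_zero.2 hy0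
    have hB1 : ε * f₂ (B.1 *ᵥ (E 1)) (E 1) ≠ 0 := by
      intro h0
      have := h1 w0
      rw [h0, zero_smul] at this
      exact hw0 this.symm
    rw [h5, hf₁.bilinear.add_left, hf₁.bilinear.smul_left, hf₁.bilinear.smul_left, hf₁.alternating,
      mul_zero, zero_add] at h4
    exact mul_ne_zero (mul_ne_zero hB1 (mul_ne_zero one_ne_zero (mul_ne_zero hc0 (mul_ne_zero hy0 hε)))) hw0y0 h4
  -- element of Sp not in K0
  have hgSp : le.symm (tv (sympB m F) hB (tp e P w0 (E 0 + E 1)) 1) ∈ Cfsg.spGL m F := by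
    rw [mem_spGL_iff, MulEquiv.apply_symm_apply]
    exact tv_mem_isom hB _ _
  have hgK : le.symm (tv (sympB m F) hB (tp e P w0 (E 0 + E 1)) 1) ∉ K0 := by
    intro h
    rw [hK0] at h
    have h1 := (h (tp e P y0 (E 0))).1 ⟨_, _, by rw [hE, if_pos rfl], rfl⟩
    rw [MulEquiv.apply_symm_apply] at h1
    have hE01 : f₂ (E 0) (E 0 + E 1) = ε := by
      rw [H2.add_right, hE, hE, if_pos rfl, if_neg (by decide), add_zero]
    have h2 : tv (sympB m F) hB (tp e P w0 (E 0 + E 1)) 1 (tp e P y0 (E 0)) =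
        tp e P (y0 + (c * (f₁ y0 w0 * ε)) • w0) (E 0) + tp e P ((c * (f₁ y0 w0 * ε)) • w0) (E 1) := by
      rw [tv_apply, hform', hE01, tp_add_right, tp_add_left, tp_smul_left, tp_smul_left]
      module
    rw [h2] at h1
    obtain ⟨i, hi⟩ := hcomp _ h1
    have hSadd : ∀ x y z, Cfsg.sympForm m F (x + y) z = Cfsg.sympForm m F x z + Cfsg.sympForm m F y z := by
      intro x y z
      show sympB m F (x + y) z = sympB m F x z + sympB m F y z
      rw [map_add]; rfl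
    by_cases h0i : i = 0
    · have h3 := hi 1 (by rw [h0i]; decide) y0
      rw [hSadd, hform, hform, hE, if_neg (by decide), hE, if_pos rfl, hf₁.bilinear.smul_left] at h3
      have hw0y0 : f₁ w0 y0 ≠ 0 := by rw [hf₁.skew]; exact neg_ne_zero.2 hy0
      have : c * (c * (f₁ y0 w0 * ε) * f₁ w0 y0 * ε) = 0 := by linear_combination h3
      exact mul_ne_zero hc0 (mul_ne_zero (mul_ne_zero (mul_ne_zero hc0 (mul_ne_zero hy0 hε)) hw0y0) hε) this
    · have h3 := hi 0 (Ne.symm h0i) w0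
      rw [hSadd, hform, hform, hE, if_pos rfl, hE, if_neg (by decide), hf₁.bilinear.add_left,
        hf₁.bilinear.smul_left, hf₁.alternating, mul_zero, add_zero, mul_zero, mul_zero, add_zero] at h3
      exact mul_ne_zero hc0 (mul_ne_zero hy0 hε) h3
  refine ⟨K0 ⊓ Cfsg.spGL m F, ?_, ?_⟩
  · refine lt_of_le_of_ne (le_inf hle inf_le_right) fun heq => hsH ?_
    rw [heq]; exact Subgroup.mem_inf.2 ⟨hsK, hsSp⟩
  · refine lt_of_le_of_ne inf_le_right fun heq => hgK ?_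
    rw [← heq] at hgSp
    exact (Subgroup.mem_inf.1 hgSp).1

end Cfsg.Agent.S5667
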