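import Cfsg.Statements.S5671
import Cfsg.Agent.Lib.UnBridge
import Cfsg.Agent.Lib.UnMax
import Cfsg.Agent.Lib.GeoBridge
import Cfsg.Agent.Lib.TensorGeo
-- import your own Cfsg.Agent.* helpers here

set_option autoImplicit false
open Cfsg

namespace Cfsg.Agent.S5671

open Cfsg.Agent.Lib.UnTrans Cfsg.Agent.Lib.UnMax Cfsg.Agent.Lib.GeoBridge Cfsg.Agent.Lib.UnBridge
  Cfsg.Agent.Lib.TensorGeo
open Cfsg.Agent.Lib.SpTrans (isom mem_isom)
open scoped Matrix

/-- an orthonormal basis of the hermitian plane over the field with 4 elements -/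
theorem exists_frame {F : Type*} [Field F] {σ : F →+* F}
    {f : (Fin 2 → F) → (Fin 2 → F) → F} (H : HS σ f) (hnd : Nd f (⊤ : Submodule F (Fin 2 → F)))
    (hσ : ∀ x : F, σ x = x → x = 0 ∨ x = 1) :
    ∃ e1 e2, f e1 e1 = 1 ∧ f e2 e2 = 1 ∧ f e1 e2 = 0 ∧ ∀ x, x = f x e1 • e1 + f x e2 • e2 := by
  have hfr : Module.finrank F (Fin 2 → F) = 2 := Module.finrank_fin_fun F
  obtain ⟨e1, h1⟩ : ∃ x, f x x ≠ 0 := by
    by_contra hcon
    push Not at hcon
    have : Nontrivial (Fin 2 → F) := Module.nontrivial_of_finrank_pos (R := F) (by omega)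
    obtain ⟨x, hx⟩ := exists_ne (0 : Fin 2 → F)
    obtain ⟨y, -, hxy⟩ := hnd x trivial hx
    exact hxy (H.eq_zero_of_iso (U := ⊤) (fun x _ => hcon x) trivial trivial)
  have h11 : f e1 e1 = 1 := (hσ _ (H.self_fixed _)).resolve_left h1
  obtain ⟨e2, he2, he20⟩ : ∃ y, f y e1 = 0 ∧ y ≠ 0 := by
    have h3 := HS.finrank_inf_ker (⊤ : Submodule F (Fin 2 → F)) (H.fl e1)
    rw [finrank_top, hfr] at h3
    have hpos : 0 < Module.finrank F (⊤ ⊓ LinearMap.ker (H.fl e1) : Submodule F (Fin 2 → F)) := by omega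
    have : Nontrivial (⊤ ⊓ LinearMap.ker (H.fl e1) : Submodule F (Fin 2 → F)) :=
      Module.nontrivial_of_finrank_pos hpos
    obtain ⟨y, hy⟩ := exists_ne (0 : (⊤ ⊓ LinearMap.ker (H.fl e1) : Submodule F (Fin 2 → F)))
    exact ⟨y, y.2.2, by simpa using hy⟩
  have hli : LinearIndependent F ![e1, e2] := by
    rw [LinearIndependent.pair_iff]
    intro s t hst
    have h4 : f (s • e1 + t • e2) e1 = 0 := by rw [hst, H.zero_left]
    rw [H.add_left, H.smul_left, H.smul_left, he2, mul_zero, add_zero, h11, mul_one] at h4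
    rw [h4, zero_smul, zero_add] at hst
    exact ⟨h4, (smul_eq_zero.1 hst).resolve_right he20⟩
  have hspan : Submodule.span F (Set.range ![e1, e2]) = ⊤ := by
    apply Submodule.eq_top_of_finrank_eq
    rw [finrank_span_eq_card hli, hfr]; simp
  have hperp : ∀ x, f x e1 = 0 → f x e2 = 0 → x = 0 := by
    intro x h4 h5
    by_contra hx
    obtain ⟨y, -, hxy⟩ := hnd x trivial hx
    have hy : y ∈ Submodule.span F (Set.range ![e1, e2]) := by rw [hspan]; trivial
    have : y ∈ LinearMap.ker (H.fl x) := by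
      refine (Submodule.span_le.2 ?_) hy
      rintro _ ⟨i, rfl⟩
      fin_cases i
      · exact H.symm_zero h4
      · exact H.symm_zero h5
    exact hxy (H.symm_zero this)
  have h22 : f e2 e2 = 1 := by
    refine (hσ _ (H.self_fixed _)).resolve_left fun h => ?_
    exact he20 (hperp e2 he2 h)
  refine ⟨e1, e2, h11, h22, H.symm_zero he2, fun x => ?_⟩
  have h6 : x - (f x e1 • e1 + f x e2 • e2) = 0 := by
    apply hperp
    · rw [H.sub_left, H.add_left, H.smul_left, H.smul_left, h11, he2]; ring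
    · rw [H.sub_left, H.add_left, H.smul_left, H.smul_left, h22, H.symm_zero he2]; ring
  exact sub_eq_zero.1 h6


/-- Let F be the field with 4 elements (q = 2) and n = 2 n₂ ≥ 13. Suppose the standard unitary form Σ u_i v_i² on F^n is similar, through P and e, to the tensor product of non-degenerate unitary forms f₁ on F^2 and f₂ on F^(n₂). Then the elements of SU_n(2) in the stabiliser of this tensor decomposition form a subgroup that is not maximal: some subgroup lies strictly between it and SU_n(2). -/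
theorem result {F : Type*} [Field F] [Fintype F] (n : ℕ) (hF : Fintype.card F = 4) (hn : 13 ≤ n) (n₂ : ℕ) (e : Fin n ≃ Fin 2 × Fin n₂) (P : Matrix.GeneralLinearGroup (Fin n) F) (f₁ : (Fin 2 → F) → (Fin 2 → F) → F) (f₂ : (Fin n₂ → F) → (Fin n₂ → F) → F) (hf₁ : Cfsg.Geo.IsUnitaryFormPow 2 f₁) (hf₂ : Cfsg.Geo.IsUnitaryFormPow 2 f₂) (hT : Cfsg.Geo.IsTensorFormStructure (fun x : F => x ^ 2) (Cfsg.hermForm n F 2) f₁ f₂ e P) : ∃ K : Subgroup (Matrix.GeneralLinearGroup (Fin n) F), Cfsg.Geo.tensorProductSubgroup 2 n₂ e P ⊓ (Cfsg.GU n F 2 ⊓ Cfsg.Geo.specialLinear (Fin n) F) < K ∧ K < (Cfsg.GU n F 2 ⊓ Cfsg.Geo.specialLinear (Fin n) F) := by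
  have hF' : Fintype.card F = 2 ^ 2 := by rw [hF]; norm_num
  have H := herm_HS n hF'
  have hnd := herm_nd n hF'
  obtain ⟨c, hc0, hc⟩ := hT
  have hσ : ∀ x, sig hF' x = x ^ 2 := sig_apply hF'
  have hchar : (2 : F) = 0 := by
    have h1 : ((Fintype.card F : ℕ) : F) = 0 := Nat.cast_card_eq_zero F
    rw [hF] at h1
    have h2 : (2 : F) * 2 = 0 := by
      have : ((4 : ℕ) : F) = 2 * 2 := by push_cast; norm_num
      rw [← this]; exact h1
    exact mul_self_eq_zero.1 h2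
  have hfix : ∀ x : F, sig hF' x = x → x = 0 ∨ x = 1 := by
    intro x h1
    rw [hσ] at h1
    have h2 : x * (x - 1) = 0 := by linear_combination h1
    rcases mul_eq_zero.1 h2 with h | h
    · exact Or.inl h
    · exact Or.inr (sub_eq_zero.1 h)
  have hnorm : ∀ a : F, a ≠ 0 → a * sig hF' a = 1 := by
    intro a ha
    have h1 := FiniteField.pow_card_sub_one_eq_one a ha
    rw [hF] at h1
    rw [hσ]; linear_combination h1
  have hHS : ∀ {m : ℕ} {g : (Fin m → F) → (Fin m → F) → F}, Cfsg.Geo.IsUnitaryFormPow 2 g →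
      HS (sig hF') g := by
    intro m g hg
    refine HS.of_finite (sig_inv hF') (sig_ne hF') hg.add_left hg.smul_left ?_
    intro x y; rw [hσ]; exact hg.herm x y
  have hND : ∀ {m : ℕ} {g : (Fin m → F) → (Fin m → F) → F}, Cfsg.Geo.IsUnitaryFormPow 2 g →
      Nd g (⊤ : Submodule F (Fin m → F)) := by
    intro m g hg x _ hx
    obtain ⟨y, hy⟩ := (hg.nondegenerate x hx).2
    exact ⟨y, trivial, hy⟩
  have H1 := hHS hf₁
  have H2 := hHS hf₂
  have hnd1 := hND hf₁
  have hnd2 := hND hf₂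
  have hfr : Module.finrank F (Fin n → F) = n := Module.finrank_fin_fun F
  have hfr2 : Module.finrank F (Fin n₂ → F) = n₂ := Module.finrank_fin_fun F
  have hn2 : n = 2 * n₂ := by
    have := Fintype.card_congr e
    simpa using this
  have hsig : (fun x : F => x ^ 2) = fun x => sig hF' x := by ext x; rw [hσ]
  rw [hsig] at hc
  have hform : ∀ x₁ y₁ x₂ y₂, hermForm n F 2 (tp e P x₁ x₂) (tp e P y₁ y₂) = c * (f₁ x₁ y₁ * f₂ x₂ y₂) := by
    refine form_tp (σ := fun x => sig hF' x) (fun a b => map_mul _ _ _) ?_ ?_ hc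
    · exact eq_formOfGram H1.add_left H1.smul_left H1.add_right H1.smul_right
    · exact eq_formOfGram H2.add_left H2.smul_left H2.add_right H2.smul_right
  obtain ⟨e1, e2, he11, he22, he12, hexp⟩ := exists_frame H1 hnd1 hfix
  have he21 : f₁ e2 e1 = 0 := H1.symm_zero he12
  have hfr1 : ∀ x, f₁ x x = 1 → f₁ x e1 = 0 ∨ f₁ x e2 = 0 := by
    intro x hx
    by_contra hcon
    push Not at hcon
    have h1 : f₁ x x = f₁ x e1 * sig hF' (f₁ x e1) + f₁ x e2 * sig hF' (f₁ x e2) := by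
      have h0 : f₁ x x = f₁ (f₁ x e1 • e1 + f₁ x e2 • e2) x := by rw [← hexp x]
      rw [h0, H1.add_left, H1.smul_left, H1.smul_left, ← H1.herm, ← H1.herm]
    rw [hnorm _ hcon.1, hnorm _ hcon.2, hx] at h1
    have : (1 : F) = 0 := by linear_combination h1 + hchar
    exact one_ne_zero this
  have hfr1' : ∀ x, f₁ x x = 1 → (∃ a : F, x = a • e1) ∨ ∃ a : F, x = a • e2 := by
    intro x hx
    rcases hfr1 x hx with h | h
    · right; exact ⟨f₁ x e2, by conv_lhs => rw [hexp x, h, zero_smul, zero_add]⟩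
    · left; exact ⟨f₁ x e1, by conv_lhs => rw [hexp x, h, zero_smul, add_zero]⟩
  set N : Set (Fin n → F) := {v | ∃ x y, f₁ x x = 1 ∧ v = tp e P x y} with hN
  let K0 : Subgroup (Matrix.GeneralLinearGroup (Fin n) F) := Cfsg.stabilizing (Cfsg.glToMat (Fin n) F) N
  have hK0 : ∀ g, g ∈ K0 ↔ ∀ v, v ∈ N ↔ le g v ∈ N := fun g => Iff.rfl
  have hle1 : ∀ g ∈ Cfsg.Geo.tensorProductSubgroup 2 n₂ e P ⊓ (Cfsg.GU n F 2 ⊓ Cfsg.Geo.specialLinear (Fin n) F),
      ∀ v ∈ N, le g v ∈ N := by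
    intro g hg
    obtain ⟨hg1, hg2⟩ := Subgroup.mem_inf.1 hg
    obtain ⟨A, B, hAB⟩ := (mem_tensor_iff g).1 hg1
    have hgi : ∀ x y, hermForm n F 2 (le g x) (le g y) = hermForm n F 2 x y := ((mem_SU_iff n g).1 hg2).1
    rintro _ ⟨x, y, hx, rfl⟩
    rw [hAB]
    refine ⟨_, _, ?_, rfl⟩
    -- f₁ (A x) (A x) = 1
    have : Nontrivial (Fin n₂ → F) := Module.nontrivial_of_finrank_pos (R := F) (by omega)
    obtain ⟨u, hu⟩ := exists_ne (0 : Fin n₂ → F)
    obtain ⟨w, -, huw⟩ := hnd2 u trivial hu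
    have h1 : ∀ x₁ y₁, f₁ (A.1 *ᵥ x₁) (A.1 *ᵥ y₁) * f₂ (B.1 *ᵥ u) (B.1 *ᵥ w) = f₁ x₁ y₁ * f₂ u w := by
      intro x₁ y₁
      have h2 := hgi (tp e P x₁ u) (tp e P y₁ w)
      rw [hAB, hAB, hform, hform] at h2
      exact mul_left_cancel₀ hc0 h2
    have h2 := h1 x x
    rw [hx, one_mul] at h2
    refine (hfix _ (H1.self_fixed _)).resolve_left fun h0 => ?_
    rw [h0, zero_mul] at h2
    exact huw h2.symm
  have hle : Cfsg.Geo.tensorProductSubgroup 2 n₂ e P ⊓ (Cfsg.GU n F 2 ⊓ Cfsg.Geo.specialLinear (Fin n) F) ≤ K0 := by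
    intro g hg
    rw [hK0]
    intro v
    refine ⟨hle1 g hg v, fun h => ?_⟩
    have := hle1 g⁻¹ (inv_mem hg) _ h
    rwa [map_inv, ← LinearEquiv.mul_apply, inv_mul_cancel] at this
  -- isotropic vector in the second factor
  obtain ⟨w, -, -, hww, y, -, -, hwy⟩ := H2.exists_hyp hnd2 (by rw [finrank_top]; omega) (w := 0) trivial
  have hw0 : w ≠ 0 := by rintro rfl; exact hwy (H2.zero_left _)
  have hyw : f₂ y w ≠ 0 := H2.symm_ne hwy
  have hone : (1 : F) + sig hF' 1 = 0 := by rw [map_one]; linear_combination hchar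
  have hinvol : ∀ (z : Fin n → F) (hz : hermForm n F 2 z z = 0) v, tv H z hz 1 hone (tv H z hz 1 hone v) = v := by
    intro z hz v
    rw [tv_apply, tv_apply, H.add_left, H.smul_left, hz]
    have h2 : ∀ a : F, a + a = 0 := fun a => by linear_combination a * hchar
    have : v + (1 * hermForm n F 2 v z) • z + (1 * (hermForm n F 2 v z + 1 * hermForm n F 2 v z * 0)) • z =
      v + (hermForm n F 2 v z + hermForm n F 2 v z) • z := by module
    rw [this, h2, zero_smul, add_zero]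
  have hz1 : hermForm n F 2 (tp e P e1 w) (tp e P e1 w) = 0 := by rw [hform, hww]; ring
  set s := tv H (tp e P e1 w) hz1 1 hone with hs
  have hs1 : ∀ u, s (tp e P e1 u) = tp e P e1 (u + (c * f₂ u w) • w) := by
    intro u
    rw [hs, tv_apply, hform, he11, tp_add_right, tp_smul_right]
    congr 2; ring
  have hs2 : ∀ u, s (tp e P e2 u) = tp e P e2 u := by
    intro u
    rw [hs, tv_apply, hform, he21]; simp
  have hsN : ∀ v ∈ N, s v ∈ N := by
    rintro _ ⟨x, u, hx, rfl⟩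
    rcases hfr1' x hx with ⟨a, rfl⟩ | ⟨a, rfl⟩
    · rw [tp_smul_left, LinearEquiv.map_smul, hs1, ← tp_smul_left]
      exact ⟨_, _, hx, rfl⟩
    · rw [tp_smul_left, LinearEquiv.map_smul, hs2, ← tp_smul_left]
      exact ⟨_, _, hx, rfl⟩
  have hsSU : le.symm s ∈ Cfsg.GU n F 2 ⊓ Cfsg.Geo.specialLinear (Fin n) F := by
    rw [mem_SU_iff, MulEquiv.apply_symm_apply]
    exact ⟨tv_mem H _ _ _ _, tv_det H _ _ _ _⟩
  have hsK : le.symm s ∈ K0 := by
    rw [hK0]
    intro v
    rw [MulEquiv.apply_symm_apply]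
    exact ⟨hsN v, fun h => by have := hsN _ h; rwa [hs, hinvol] at this⟩
  have htp0 : ∀ x u, x ≠ 0 → tp e P x u = 0 → u = 0 := by
    intro x u hx h
    by_contra hu
    obtain ⟨x', -, hx'⟩ := hnd1 x trivial hx
    obtain ⟨u', -, hu'⟩ := hnd2 u trivial hu
    have h1 := hform x x' u u'
    rw [h, H.zero_left] at h1
    exact mul_ne_zero hc0 (mul_ne_zero hx' hu') h1.symm
  have he10 : e1 ≠ 0 := by rintro rfl; rw [H1.zero_left] at he11; exact zero_ne_one he11
  have he20 : e2 ≠ 0 := by rintro rfl; rw [H1.zero_left] at he22; exact zero_ne_one he22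
  have hsH : le.symm s ∉ Cfsg.Geo.tensorProductSubgroup 2 n₂ e P ⊓ (Cfsg.GU n F 2 ⊓ Cfsg.Geo.specialLinear (Fin n) F) := by
    intro h
    obtain ⟨A, B, hAB⟩ := (mem_tensor_iff _).1 (Subgroup.mem_inf.1 h).1
    rw [MulEquiv.apply_symm_apply] at hAB
    -- components along e2
    have h1 : ∀ u, f₁ (A.1 *ᵥ e2) e2 • (B.1 *ᵥ u) = u := by
      intro u
      have h2 := hAB e2 u
      rw [hs2] at h2
      have h3 : ∀ u', f₂ (u - f₁ (A.1 *ᵥ e2) e2 • (B.1 *ᵥ u)) u' = 0 := by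
        intro u'
        have h4 : hermForm n F 2 (tp e P e2 u) (tp e P e2 u') =
            hermForm n F 2 (tp e P (A.1 *ᵥ e2) (B.1 *ᵥ u)) (tp e P e2 u') := by rw [← h2]
        rw [hform, hform, he22, one_mul] at h4
        have h5 := mul_left_cancel₀ hc0 h4
        rw [H2.sub_left, H2.smul_left, h5]; ring
      by_contra hne
      obtain ⟨u', -, hu'⟩ := hnd2 _ trivial (sub_ne_zero.2 (Ne.symm hne))
      exact hu' (h3 u')
    -- components along e1
    have h2 : ∀ u', f₂ (y + (c * f₂ y w) • w - f₁ (A.1 *ᵥ e1) e1 • (B.1 *ᵥ y)) u' = 0 := by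
      intro u'
      have h3 := hAB e1 y
      rw [hs1] at h3
      have h4 : hermForm n F 2 (tp e P e1 (y + (c * f₂ y w) • w)) (tp e P e1 u') =
          hermForm n F 2 (tp e P (A.1 *ᵥ e1) (B.1 *ᵥ y)) (tp e P e1 u') := by rw [← h3]
      rw [hform, hform, he11, one_mul] at h4
      have h5 := mul_left_cancel₀ hc0 h4
      rw [H2.sub_left, H2.smul_left (f₁ (A.1 *ᵥ e1) e1), h5]; ring
    have h3 : y + (c * f₂ y w) • w - f₁ (A.1 *ᵥ e1) e1 • (B.1 *ᵥ y) = 0 := by
      by_contra hne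
      obtain ⟨u', -, hu'⟩ := hnd2 _ trivial hne
      exact hu' (h2 u')
    have h4 : f₂ (f₁ (A.1 *ᵥ e2) e2 • (y + (c * f₂ y w) • w - f₁ (A.1 *ᵥ e1) e1 • (B.1 *ᵥ y))) w = 0 := by
      rw [h3, smul_zero, H2.zero_left]
    have h5 : f₁ (A.1 *ᵥ e2) e2 • (y + (c * f₂ y w) • w - f₁ (A.1 *ᵥ e1) e1 • (B.1 *ᵥ y)) =
        (f₁ (A.1 *ᵥ e2) e2 - f₁ (A.1 *ᵥ e1) e1) • y + (f₁ (A.1 *ᵥ e2) e2 * (c * f₂ y w)) • w := by
      have h6 := h1 y
      have h7 : f₁ (A.1 *ᵥ e2) e2 • (y + (c * f₂ y w) • w - f₁ (A.1 *ᵥ e1) e1 • (B.1 *ᵥ y)) =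
        f₁ (A.1 *ᵥ e2) e2 • y + (f₁ (A.1 *ᵥ e2) e2 * (c * f₂ y w)) • w -
          f₁ (A.1 *ᵥ e1) e1 • (f₁ (A.1 *ᵥ e2) e2 • (B.1 *ᵥ y)) := by module
      rw [h7, h6]; module
    rw [h5, H2.add_left, H2.smul_left, H2.smul_left, hww, mul_zero, add_zero] at h4
    have h6 : f₁ (A.1 *ᵥ e2) e2 - f₁ (A.1 *ᵥ e1) e1 = 0 := (mul_eq_zero.1 h4).resolve_right hyw
    rw [h3, smul_zero, h6, zero_smul, zero_add] at h5
    have h7 : f₁ (A.1 *ᵥ e2) e2 ≠ 0 := by
      intro h0
      have := h1 w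
      rw [h0, zero_smul] at this
      exact hw0 this.symm
    rcases smul_eq_zero.1 h5.symm with h8 | h8
    · exact mul_ne_zero h7 (mul_ne_zero hc0 hyw) h8
    · exact hw0 h8
  -- element of SU not in K0
  have hee : f₁ (e1 + e2) (e1 + e2) = 0 := by
    rw [H1.add_left, H1.add_right, H1.add_right, he11, he22, he12, he21]; linear_combination hchar
  have hz2 : hermForm n F 2 (tp e P (e1 + e2) w) (tp e P (e1 + e2) w) = 0 := by rw [hform, hee]; ring
  set g := tv H (tp e P (e1 + e2) w) hz2 1 hone with hg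
  have hgSU : le.symm g ∈ Cfsg.GU n F 2 ⊓ Cfsg.Geo.specialLinear (Fin n) F := by
    rw [mem_SU_iff, MulEquiv.apply_symm_apply]
    exact ⟨tv_mem H _ _ _ _, tv_det H _ _ _ _⟩
  have hgK : le.symm g ∉ K0 := by
    intro h
    rw [hK0] at h
    have h1 := (h (tp e P e1 y)).1 ⟨e1, y, he11, rfl⟩
    rw [MulEquiv.apply_symm_apply] at h1
    have h2 : g (tp e P e1 y) = tp e P e1 (y + (c * f₂ y w) • w) + tp e P e2 ((c * f₂ y w) • w) := by
      rw [hg, tv_apply, hform, H1.add_right, he11, he12, tp_add_left, tp_add_right, tp_smul_right, tp_smul_right]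
      module
    obtain ⟨x, u, hx, hxu⟩ := h1
    rw [h2] at hxu
    have k1 : ∀ z, c * f₂ (y + (c * f₂ y w) • w) z = c * (f₁ x e1 * f₂ u z) := by
      intro z
      have : hermForm n F 2 (tp e P e1 (y + (c * f₂ y w) • w) + tp e P e2 ((c * f₂ y w) • w)) (tp e P e1 z) =
        hermForm n F 2 (tp e P x u) (tp e P e1 z) := by rw [hxu]
      rw [H.add_left, hform, hform, hform, he11, he21] at this
      linear_combination this
    have k2 : ∀ z, c * f₂ ((c * f₂ y w) • w) z = c * (f₁ x e2 * f₂ u z) := by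
      intro z
      have : hermForm n F 2 (tp e P e1 (y + (c * f₂ y w) • w) + tp e P e2 ((c * f₂ y w) • w)) (tp e P e2 z) =
        hermForm n F 2 (tp e P x u) (tp e P e2 z) := by rw [hxu]
      rw [H.add_left, hform, hform, hform, he12, he22] at this
      linear_combination this
    rcases hfr1 x hx with h3 | h3
    · have h4 : y + (c * f₂ y w) • w = 0 := by
        by_contra hne
        obtain ⟨z, -, hz⟩ := hnd2 _ trivial hne
        have := k1 z
        rw [h3, zero_mul, mul_zero] at this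
        exact hz ((mul_eq_zero.1 this).resolve_left hc0)
      have h5 : f₂ (y + (c * f₂ y w) • w) w = 0 := by rw [h4, H2.zero_left]
      rw [H2.add_left, H2.smul_left, hww, mul_zero, add_zero] at h5
      exact hyw h5
    · have h4 : (c * f₂ y w) • w = 0 := by
        by_contra hne
        obtain ⟨z, -, hz⟩ := hnd2 _ trivial hne
        have := k2 z
        rw [h3, zero_mul, mul_zero] at this
        exact hz ((mul_eq_zero.1 this).resolve_left hc0)
      exact (smul_ne_zero (mul_ne_zero hc0 hyw) hw0) h4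
  refine ⟨K0 ⊓ (Cfsg.GU n F 2 ⊓ Cfsg.Geo.specialLinear (Fin n) F), ?_, ?_⟩
  · refine lt_of_le_of_ne (le_inf hle inf_le_right) fun heq => hsH ?_
    rw [heq]; exact Subgroup.mem_inf.2 ⟨hsK, hsSU⟩
  · refine lt_of_le_of_ne inf_le_right fun heq => hgK ?_
    rw [← heq] at hgSU
    exact (Subgroup.mem_inf.1 hgSU).1

end Cfsg.Agent.S5671
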