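import Cfsg.Statements.S5673
import Cfsg.Agent.Lib.AschO6

set_option autoImplicit false
open Cfsg

namespace Cfsg.Agent.S5673

/-- Subgroup structure of the odd-dimensional orthogonal groups. Let F be a finite field of odd order and m ≥ 3, let Q be the standard quadratic form x₀² + Σ x_i y_i on F^(2m+1), and let Ω be the commutator subgroup of its isometry group, viewed inside GL_(2m+1)(F). Let H be a subgroup of Ω whose product with the scalar matrices in Ω is not all of Ω. Then either H is contained in a member of one of the geometric classes of subgroups of the isometry group (with the conditions built into InOrthogonalOddClass), or H is in the residual class: modulo scalars it is almost simple, and the perfect preimage of its socle acts absolutely irreducibly, is realisable over no proper subfield, and fixes no non-degenerate unitary form. -/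
theorem result {F : Type*} [Field F] [Fintype F] (hodd : Odd (Fintype.card F)) (m : ℕ) (hm : 3 ≤ m) (H : Subgroup (Matrix.GeneralLinearGroup (Unit ⊕ (Fin m ⊕ Fin m)) F)) (hH : H ≤ Cfsg.Geo.omegaGL (Cfsg.quadFormOdd m F)) (hproper : H ⊔ (Cfsg.Geo.scalars (Unit ⊕ (Fin m ⊕ Fin m)) F ⊓ Cfsg.Geo.omegaGL (Cfsg.quadFormOdd m F)) ≠ Cfsg.Geo.omegaGL (Cfsg.quadFormOdd m F)) : (∃ M : Subgroup (Matrix.GeneralLinearGroup (Unit ⊕ (Fin m ⊕ Fin m)) F), Cfsg.Geo.InOrthogonalOddClass m F M ∧ H ≤ M) ∨ Cfsg.Geo.InOrthogonalResidualClass H := by
  exact Cfsg.Agent.Lib.AschO.odd_case hodd (by omega) (hH.trans Cfsg.Agent.Lib.AschO.omega_le)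

end Cfsg.Agent.S5673
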