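import Cfsg.Statements.S5675
import Cfsg.Agent.Lib.OrthNdBridge
-- import your own Cfsg.Agent.* helpers here

set_option autoImplicit false
open Cfsg

namespace Cfsg.Agent.S5675

open Cfsg.Agent.Lib.Quad Cfsg.Agent.Lib.OrthBridge Cfsg.Agent.Lib.OrthNdBridge
  Cfsg.Agent.Lib.OrthNd Cfsg.Agent.Lib.GeoBridge


/-- Let F be a finite field of odd order q, m ≥ 6, Q the standard quadratic form on F^(2m+1) and Ω the commutator subgroup of its isometry group. Let W be a non-zero subspace of even dimension on which the polar form of Q is non-degenerate; exclude the case q = 3, dim W = 2 with Q vanishing on some line of W (a plus-type plane). Then the elements of Ω stabilising W (equivalently, stabilising its orthogonal complement, of odd dimension) form a maximal subgroup of Ω. -/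
theorem result {F : Type*} [Field F] [Fintype F] (hodd : Odd (Fintype.card F)) (m : ℕ) (hm : 6 ≤ m) (W : Submodule F (Unit ⊕ (Fin m ⊕ Fin m) → F)) (hW0 : W ≠ ⊥) (hev : Even (Module.finrank F W)) (hW : Cfsg.Geo.IsNondegenerateOn (QuadraticMap.polar (Cfsg.quadFormOdd m F)) W) (hex : ¬ (Fintype.card F = 3 ∧ Module.finrank F W = 2 ∧ Cfsg.Geo.IsPlusTypeOn (Cfsg.quadFormOdd m F) W)) : Cfsg.Geo.IsMaximalIn (Cfsg.Geo.omegaGL (Cfsg.quadFormOdd m F)) (Cfsg.Geo.subspaceStabilizer W ⊓ Cfsg.Geo.omegaGL (Cfsg.quadFormOdd m F)) := by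
  have h2 : (2 : F) ≠ 0 := two_ne_zero_of_odd rfl hodd
  have hfr : Module.finrank F (Unit ⊕ (Fin m ⊕ Fin m) → F) = 2 * m + 1 := finrank_odd
  have hQ : Nd (quadOdd m F) := nd_quadOdd h2
  have hdim := hQ.finrank_add_finrank_perp W
  rw [hfr] at hdim
  have hc : 1 < Fintype.card F := Fintype.one_lt_card
  refine Om_nd_max (Q := quadOdd m F) hQ (by omega) hW0 ?_ (nds_of_nondeg hW) ?_ ?_ ?_
  · rintro rfl
    rw [finrank_top, hfr] at hev
    rcases hev with ⟨r, hr⟩
    omega
  · intro g _ h
    have h3 : Module.finrank F (W.map g.toLinearMap) = Module.finrank F W := LinearEquiv.finrank_map_eq g _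
    rw [h] at h3
    omega
  · intro hW2
    by_contra hcon
    push Not at hcon
    obtain ⟨h4, w, hw, hQw, hw0⟩ := hcon
    rw [Nat.card_eq_fintype_card] at h4
    obtain ⟨r, hr⟩ := hodd
    refine hex ⟨by omega, hW2, plus_of_not (Q := quadOdd m F) hW2 ?_⟩
    intro hc
    exact hw0 (hc w hw hQw)
  · intro hW2
    rcases hev with ⟨r, hr⟩
    omega

end Cfsg.Agent.S5675
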