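import Cfsg.Statements.S5676
import Cfsg.Agent.Lib.OrthNot
-- import your own Cfsg.Agent.* helpers here

set_option autoImplicit false
open Cfsg

namespace Cfsg.Agent.S5676

open Cfsg.Agent.Lib.Quad Cfsg.Agent.Lib.OrthBridge Cfsg.Agent.Lib.OrthNdBridge
  Cfsg.Agent.Lib.OrthNd Cfsg.Agent.Lib.GeoBridge Cfsg.Agent.Lib.OrthNot


/-- Let F be the field with 3 elements, m ≥ 6, Q the standard quadratic form on F^(2m+1) and Ω the commutator subgroup of its isometry group. Let W be a 2-dimensional subspace on which the polar form is non-degenerate and which contains a line on which Q vanishes. Then the elements of Ω stabilising W form a subgroup that is not maximal: some subgroup lies strictly between it and Ω. -/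
theorem result {F : Type*} [Field F] [Fintype F] (hq : Fintype.card F = 3) (m : ℕ) (hm : 6 ≤ m) (W : Submodule F (Unit ⊕ (Fin m ⊕ Fin m) → F)) (hdim : Module.finrank F W = 2) (hW : Cfsg.Geo.IsNondegenerateOn (QuadraticMap.polar (Cfsg.quadFormOdd m F)) W) (hplus : Cfsg.Geo.IsPlusTypeOn (Cfsg.quadFormOdd m F) W) : ∃ K : Subgroup (Matrix.GeneralLinearGroup (Unit ⊕ (Fin m ⊕ Fin m)) F), Cfsg.Geo.subspaceStabilizer W ⊓ Cfsg.Geo.omegaGL (Cfsg.quadFormOdd m F) < K ∧ K < Cfsg.Geo.omegaGL (Cfsg.quadFormOdd m F) := by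
  have h2 : (2 : F) ≠ 0 := two_ne_zero_of_odd rfl (by rw [hq]; decide)
  have hfr : Module.finrank F (Unit ⊕ (Fin m ⊕ Fin m) → F) = 2 * m + 1 := finrank_odd
  have hnd : Nd (quadOdd m F) := nd_quadOdd h2
  have hgen : GenHyp (quadOdd m F) := Or.inr (Or.inl (by omega))
  obtain ⟨U, hUW, hU, hUd⟩ := hplus
  obtain ⟨e, he, he0⟩ := Submodule.exists_mem_ne_zero_of_ne_bot (show U ≠ ⊥ by
    rintro rfl
    rw [finrank_bot] at hUd
    omega)
  have hF : ∀ a : F, a ≠ 0 → a = 1 ∨ a = -1 := pm_of_card (by omega)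
  obtain ⟨v, hv0, h1, g, hg, hgv, w, hw, hgw⟩ := plus_plane (Q := quadOdd m F) hnd hgen (by omega) hF
    (nds_of_nondeg (Q := quadOdd m F) hW) hdim (hUW he) he0 (hU e he)
  have hv1 : Submodule.span F {v} ≠ ⊥ := by simpa using hv0
  have hv2 : Submodule.span F {v} ≠ ⊤ := by
    intro h
    have h3 : Module.finrank F (Submodule.span F {v}) = 1 := finrank_span_singleton hv0
    rw [h, finrank_top, hfr] at h3
    omega
  refine between_of (Q := quadOdd m F) (P := fun g => ∀ w ∈ W, g w ∈ W) (P₀ := fun g => ∀ w ∈ Submodule.span F {v},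
    g w ∈ Submodule.span F {v}) (mem_subspaceStabilizer_iff' W)
    (mem_subspaceStabilizer_iff' (Submodule.span F {v})) ?_ ?_ ?_
  · intro x hx hxW w hw
    obtain ⟨c, rfl⟩ := Submodule.mem_span_singleton.1 hw
    rw [LinearEquiv.map_smul]
    exact Submodule.smul_mem _ _ (h1 x (Om_le hx) hxW)
  · refine ⟨g, hg, ?_, fun hcon => hgw (hcon w hw)⟩
    intro w hw
    obtain ⟨c, rfl⟩ := Submodule.mem_span_singleton.1 hw
    rw [LinearEquiv.map_smul, hgv]
    exact hw
  · obtain ⟨x, hx, w, hw, hxw⟩ := Cfsg.Agent.Lib.OrthMax.exists_move (Q := quadOdd m F) hnd hgen (by omega) hv1 hv2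
    exact ⟨x, hx, fun hcon => hxw (hcon w hw)⟩

end Cfsg.Agent.S5676
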