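import Cfsg.Statements.S5677
import Cfsg.Agent.Lib.OrthDec3H94
-- import your own Cfsg.Agent.* helpers here

set_option autoImplicit false
open Cfsg

namespace Cfsg.Agent.S5677


open Cfsg.Agent.Lib.Quad Cfsg.Agent.Lib.OrthBridge Cfsg.Agent.Lib.OrthNdBridge
  Cfsg.Agent.Lib.OrthNd Cfsg.Agent.Lib.GeoBridge Cfsg.Agent.Lib.OrthDecH94 Cfsg.Agent.Lib.OrthFrameH94

/-- Let F be a finite field of odd order q, m ≥ 6, Q the standard quadratic form on F^(2m+1) and Ω the commutator subgroup of its isometry group. Let D be a decomposition of F^(2m+1) into t ≥ 2 pairwise orthogonal, pairwise Q-isometric subspaces of equal dimension k > 1 on which the polar form is non-degenerate. Unless q = 3 and k = 3, the elements of Ω permuting the members of D form a maximal subgroup of Ω. -/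
theorem result {F : Type*} [Field F] [Fintype F] (hodd : Odd (Fintype.card F)) (m : ℕ) (hm : 6 ≤ m) {t : ℕ} (k : ℕ) (hk : 1 < k) (D : Fin t → Submodule F (Unit ⊕ (Fin m ⊕ Fin m) → F)) (hD : Cfsg.Geo.IsOrthogonalMDecomposition (Cfsg.quadFormOdd m F) k D) (hex : ¬ (Fintype.card F = 3 ∧ k = 3)) : Cfsg.Geo.IsMaximalIn (Cfsg.Geo.omegaGL (Cfsg.quadFormOdd m F)) (Cfsg.Geo.decompositionStabilizer D ⊓ Cfsg.Geo.omegaGL (Cfsg.quadFormOdd m F)) := by
  have h2 : (2 : F) ≠ 0 := two_ne_zero_of_odd rfl hodd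
  have hfr : Module.finrank F (Unit ⊕ (Fin m ⊕ Fin m) → F) = 2 * m + 1 := finrank_odd
  have hQ : Nd (quadOdd m F) := nd_quadOdd h2
  have ht := card_decomp hD.decomp.decomp
  rw [hfr] at ht
  have hk3 : 3 ≤ k := by
    by_contra hcon
    have : k = 2 := by omega
    subst this
    omega
  refine od_bridge (Q := quadOdd m F) hQ h2 hk3 hD fun h3 => ?_
  have hc : 1 < Fintype.card F := Fintype.one_lt_card
  have h4 : 4 ≤ Nat.card F := by
    rw [Nat.card_eq_fintype_card]
    obtain ⟨r, hr⟩ := hodd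
    by_contra hcon
    exact hex ⟨by omega, h3⟩
  obtain ⟨a, ha0, ha1, ha2⟩ := exists_scalar (F := F) h4
  exact ⟨a, ha0, ha1, fun h => ha2 (by rw [h]; ring)⟩


end Cfsg.Agent.S5677
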