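import Cfsg.Statements.S5681
import Cfsg.Agent.Lib.OTen11
-- import your own Cfsg.Agent.* helpers here

set_option autoImplicit false
open Cfsg

namespace Cfsg.Agent.S5681

/-- Let F be a finite field of odd order q, m ≥ 6, Q the standard quadratic form on F^(2m+1) and Ω the commutator subgroup of its isometry group. Suppose the polar form of Q is similar, through a change of basis P and a bijection of index sets e, to the tensor product of non-degenerate symmetric bilinear forms f₁ on F^(n₁) and f₂ on F^(n₂) with 3 ≤ n₁ < n₂. Unless q = 3 and n₁ = 3, the elements of Ω in the stabiliser of this tensor decomposition form a maximal subgroup of Ω. -/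
theorem result {F : Type*} [Field F] [Fintype F] (hodd : Odd (Fintype.card F)) (m : ℕ) (hm : 6 ≤ m) (n₁ n₂ : ℕ) (h1 : 3 ≤ n₁) (h12 : n₁ < n₂) (hex : ¬ (Fintype.card F = 3 ∧ n₁ = 3)) (e : (Unit ⊕ (Fin m ⊕ Fin m)) ≃ Fin n₁ × Fin n₂) (P : Matrix.GeneralLinearGroup (Unit ⊕ (Fin m ⊕ Fin m)) F) (f₁ : (Fin n₁ → F) → (Fin n₁ → F) → F) (f₂ : (Fin n₂ → F) → (Fin n₂ → F) → F) (hf₁ : Cfsg.Geo.IsSymmetricForm f₁) (hf₂ : Cfsg.Geo.IsSymmetricForm f₂) (hT : Cfsg.Geo.IsTensorFormStructure id (QuadraticMap.polar (Cfsg.quadFormOdd m F)) f₁ f₂ e P) : Cfsg.Geo.IsMaximalIn (Cfsg.Geo.omegaGL (Cfsg.quadFormOdd m F)) (Cfsg.Geo.tensorProductSubgroup n₁ n₂ e P ⊓ Cfsg.Geo.omegaGL (Cfsg.quadFormOdd m F)) := by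
  have h2F : (2 : F) ≠ 0 := Cfsg.Agent.Lib.Quad.two_ne_zero_of_odd rfl hodd
  have hcard : n₁ * n₂ = 2 * m + 1 := by
    have h := Fintype.card_congr e
    simp only [Fintype.card_sum, Fintype.card_fin, Fintype.card_prod, Fintype.card_unit] at h
    omega
  have hn₁ : n₁ ≠ 4 := by
    rintro rfl
    omega
  have hn₂ : 5 ≤ n₂ := by
    by_contra hc
    have h3 : n₂ = 4 := by omega
    subst h3
    omega
  exact Cfsg.Agent.Lib.OTen.tensor_max2 (S := Cfsg.Agent.Lib.Quad.quadOdd m F) hodd (Cfsg.Agent.Lib.Quad.nd_quadOdd h2F) h1 hn₂ h12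
    hex hn₁ e P f₁ f₂ hf₁ hf₂ hT


end Cfsg.Agent.S5681
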