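import Cfsg.Statements.S5683
import Cfsg.Agent.Lib.SubfOm5
import Cfsg.Agent.Lib.OrthBridge
import Cfsg.Agent.Lib.QuadForms
import Cfsg.Agent.S5650

set_option autoImplicit false
open Cfsg

namespace Cfsg.Agent.S5683

open Matrix Cfsg.Geo Cfsg.Agent.Lib Cfsg.Agent.Lib.SubfOm Cfsg.Agent.Lib.SubfieldGeo Cfsg.Agent.Lib.GeoBridge
  Cfsg.Agent.Lib.OrthBridge Cfsg.Agent.Lib.Quad Cfsg.Agent.Lib.OrthMax QuadraticMap Module
open Cfsg.Agent.S5650 (ratS mem_ratS finrank_ratS range_par)
open scoped MatrixGroups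

/-- the general statement -/
theorem gen {ι : Type} [Fintype ι] [DecidableEq ι] {F : Type*} [Field F] [Fintype F] (h13 : 13 ≤ Fintype.card ι)
    (Q : QuadraticForm F (ι → F)) (hQ : Nd Q) (F₀ : Subfield F) (r : ℕ) (hr : r.Prime) (hcard : Fintype.card F = Nat.card F₀ ^ r)
    (P : Matrix.GeneralLinearGroup ι F) (ζ : F) (hζ : ζ ≠ 0)
    (hP : ∀ u : ι → F, (∀ i, u i ∈ F₀) → ζ * Q ((P : Matrix ι ι F) *ᵥ u) ∈ F₀) :
    Cfsg.Geo.IsMaximalIn (Cfsg.Geo.omegaGL ⇑Q) (Cfsg.Geo.subfieldSubgroup F₀ P ⊓ Cfsg.Geo.omegaGL ⇑Q) := by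
  set Q' : QuadraticForm F (ι → F) := ζ • Q with hQ'def
  have hQ'app : ∀ x, Q' x = ζ * Q x := fun x => rfl
  have hpol : ∀ x y, polar Q' x y = ζ * polar Q x y := by
    intro x y
    simp only [polar, hQ'app]; ring
  have hO : O Q' = O Q := by
    ext g
    rw [mem_O, mem_O]
    constructor
    · intro h v
      have := h v
      rw [hQ'app, hQ'app] at this
      exact mul_left_cancel₀ hζ this
    · intro h v
      rw [hQ'app, hQ'app, h]
  have hOm : Om Q' = Om Q := by rw [Om, Om, hO]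
  have hnd' : Nd Q' := by
    apply nd_of
    intro x hx
    apply hQ.eq_zero
    intro y
    have := hx y
    rw [hpol] at this
    exact (mul_eq_zero.mp this).resolve_left hζ
  have S : OrF Q' F₀ (ratS F₀ P) :=
    { form := by
        rintro _ ⟨u, hu, rfl⟩
        exact hP u hu
      span := span_rat
      nd := hnd'
      fin := by rw [← range_par]; infer_instance
      dim := by rw [finrank_ratS]; exact h13 }
  have h1F : 1 < Nat.card F₀ := Finite.one_lt_card
  have hne : ∃ x : F, x ∉ F₀ := by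
    by_contra hcon
    push Not at hcon
    have h1 : Nat.card F₀ = Nat.card F :=
      Nat.card_congr (Equiv.subtypeUnivEquiv hcon)
    rw [Nat.card_eq_fintype_card (α := F), hcard] at h1
    have h3 : Nat.card F₀ ^ 1 < Nat.card F₀ ^ r := Nat.pow_lt_pow_right h1F hr.one_lt
    rw [pow_one] at h3
    omega
  have hdim := S.dim_le
  apply Om_max_of (P := fun g => ∃ c : F, c ≠ 0 ∧ ∀ x ∈ ratS F₀ P, ∃ x' ∈ ratS F₀ P, g x = c • x')
    (fun g => mem_subfieldSubgroup_iff g)
  · obtain ⟨g, hg, h⟩ := exists_nonrational S hne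
    rw [hOm] at hg
    exact ⟨g, hg, h⟩
  · intro M hM hH hex
    rw [← hOm] at hM hH ⊢
    have H : Hyp Q' F₀ (ratS F₀ P) M :=
      { le := hM.trans Om_le
        mem := by
          intro z hz y hy hQz hzy
          refine ⟨sieg hnd' hQz hzy, hH _ (hnd'.sieg_mem_Om (Or.inr (Or.inl (by omega))) hQz hzy) ⟨1, one_ne_zero, fun x hx =>
            ⟨siegMap Q' z y x, sieg_rational S hz hy hx, ?_⟩⟩, fun x => ?_⟩
          · rw [one_smul, sieg_apply, siegMap_apply]
          · rw [sieg_apply, siegMap_apply] }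
    exact SubfOm.main S r hr hcard H hex

/-- Let F be a finite field of odd order, m ≥ 6, Q the standard quadratic form on F^(2m+1) and Ω the commutator subgroup of its isometry group. Let F₀ be a subfield with |F| = |F₀| ^ r for a prime r and P an invertible matrix such that Q takes values in F₀ on the F₀-span of the columns of P. Then the elements of Ω lying in the subfield group of P (the conjugate by P of the product of GL_(2m+1)(F₀) with the scalars) form a maximal subgroup of Ω. -/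
theorem result {F : Type*} [Field F] [Fintype F] (hodd : Odd (Fintype.card F)) (m : ℕ) (hm : 6 ≤ m) (F₀ : Subfield F) (r : ℕ) (hr : r.Prime) (hcard : Fintype.card F = Nat.card F₀ ^ r) (P : Matrix.GeneralLinearGroup (Unit ⊕ (Fin m ⊕ Fin m)) F) (hP : Cfsg.Geo.IsQuadFormRationalStructure (Cfsg.quadFormOdd m F) F₀ P) : Cfsg.Geo.IsMaximalIn (Cfsg.Geo.omegaGL (Cfsg.quadFormOdd m F)) (Cfsg.Geo.subfieldSubgroup F₀ P ⊓ Cfsg.Geo.omegaGL (Cfsg.quadFormOdd m F)) := by
  have h2 : (2 : F) ≠ 0 := two_ne_zero_of_odd rfl hodd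
  have := gen (by simp only [Fintype.card_sum, Fintype.card_fin, Fintype.card_unit]; omega) (quadOdd m F) (nd_quadOdd h2) F₀ r hr hcard P 1 one_ne_zero
    (fun u hu => by rw [one_mul]; exact hP u hu)
  exact this

end Cfsg.Agent.S5683
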