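import Cfsg.Statements.S5686
import Cfsg.Agent.Lib.OrthNot
-- import your own Cfsg.Agent.* helpers here

set_option autoImplicit false
open Cfsg

namespace Cfsg.Agent.S5686

open Cfsg.Agent.Lib.Quad Cfsg.Agent.Lib.OrthBridge Cfsg.Agent.Lib.OrthNdBridge
  Cfsg.Agent.Lib.OrthNd Cfsg.Agent.Lib.GeoBridge Cfsg.Agent.Lib.OrthNot


/-- Let F be a finite field with q elements, n ≥ 13 even, Q a non-degenerate quadratic form on F^n of plus type (some subspace of dimension n/2 is totally singular), and Ω the commutator subgroup of the isometry group of Q, viewed inside GL_n(F). The elements of Ω stabilising a subspace of dimension n/2 − 1 on which Q vanishes form a subgroup that is not maximal: some subgroup lies strictly between it and Ω. -/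
theorem result {F : Type*} [Field F] [Fintype F] {n : ℕ} (hn : 13 ≤ n) (heven : Even n) (Q : (Fin n → F) → F) (hQ : Cfsg.Geo.IsNondegenerateQuadraticForm Q) (hplus : Cfsg.Geo.IsPlusTypeOn Q ⊤) (W : Submodule F (Fin n → F)) (hW : Cfsg.Geo.IsTotallySingularQuad Q W) (hdim : 2 * (Module.finrank F W + 1) = n) : ∃ K : Subgroup (Matrix.GeneralLinearGroup (Fin n) F), Cfsg.Geo.subspaceStabilizer W ⊓ Cfsg.Geo.omegaGL Q < K ∧ K < Cfsg.Geo.omegaGL Q := by
  have hfr : Module.finrank F (Fin n → F) = n := Module.finrank_fin_fun F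
  have hnd : Nd (qf hQ) := nd_qf hQ
  have hgen : GenHyp (qf hQ) := Or.inr (Or.inl (by omega))
  obtain ⟨U₀, -, hU₀, hU₀d⟩ := hplus
  rw [finrank_top, hfr] at hU₀d
  have hW0 : W ≠ ⊥ := by
    rintro rfl
    rw [finrank_bot] at hdim
    omega
  obtain ⟨U, hU, h1, g, hg, hgU, w, hw, hgw⟩ := submax (Q := qf hQ) hnd hgen (m := Module.finrank F W + 1)
    (by rw [hfr]; omega) hW0 hW rfl (U₀ := U₀) ⟨by omega, hU₀⟩
  have hU1 : U ≠ ⊥ := by
    intro h; have := hU.1; rw [h, finrank_bot] at this; omega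
  have hU2 : U ≠ ⊤ := by
    intro h; have := hU.1; rw [h, finrank_top, hfr] at this; omega
  refine between_of (Q := qf hQ) (mem_subspaceStabilizer_iff' W) (mem_subspaceStabilizer_iff' U) h1
    ⟨g, hg, hgU, fun hcon => hgw (hcon w hw)⟩ ?_
  obtain ⟨x, hx, w, hw, hxw⟩ := Cfsg.Agent.Lib.OrthMax.exists_move (Q := qf hQ) hnd hgen (by omega) hU1 hU2
  exact ⟨x, hx, fun hcon => hxw (hcon w hw)⟩

end Cfsg.Agent.S5686
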