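import Cfsg.Statements.S5688
import Cfsg.Agent.Lib.OrthNdBridge
-- import your own Cfsg.Agent.* helpers here

set_option autoImplicit false
open Cfsg

namespace Cfsg.Agent.S5688

open Cfsg.Agent.Lib.Quad Cfsg.Agent.Lib.OrthBridge Cfsg.Agent.Lib.OrthNdBridge
  Cfsg.Agent.Lib.OrthNd Cfsg.Agent.Lib.GeoBridge


/-- Let F be a finite field with q elements, n ≥ 13 even, Q a non-degenerate quadratic form on F^n of plus type (some subspace of dimension n/2 is totally singular), and Ω the commutator subgroup of the isometry group of Q, viewed inside GL_n(F). Let W be a non-zero proper subspace with dim W ≠ n/2 on which the polar form of Q is non-degenerate. Exclude the case q ≤ 3 in which W, or its orthogonal complement, is a plane containing a line on which Q vanishes. Then the elements of Ω stabilising W form a maximal subgroup of Ω. -/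
theorem result {F : Type*} [Field F] [Fintype F] {n : ℕ} (hn : 13 ≤ n) (heven : Even n) (Q : (Fin n → F) → F) (hQ : Cfsg.Geo.IsNondegenerateQuadraticForm Q) (hplus : Cfsg.Geo.IsPlusTypeOn Q ⊤) (W : Submodule F (Fin n → F)) (hW0 : W ≠ ⊥) (hW1 : W ≠ ⊤) (hdim : 2 * Module.finrank F W ≠ n) (hW : Cfsg.Geo.IsNondegenerateOn (QuadraticMap.polar Q) W) (hex : ¬ (Fintype.card F ≤ 3 ∧ (∃ U : Submodule F (Fin n → F), Module.finrank F U = 2 ∧ Cfsg.Geo.IsNondegenerateOn (QuadraticMap.polar Q) U ∧ Cfsg.Geo.IsPlusTypeOn Q U ∧ (U = W ∨ (Cfsg.Geo.AreOrthogonalFor (QuadraticMap.polar Q) U W ∧ Module.finrank F U + Module.finrank F W = n))))) : Cfsg.Geo.IsMaximalIn (Cfsg.Geo.omegaGL Q) (Cfsg.Geo.subspaceStabilizer W ⊓ Cfsg.Geo.omegaGL Q) := by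
  have hfr : Module.finrank F (Fin n → F) = n := Module.finrank_fin_fun F
  have hd := (nd_qf hQ).finrank_add_finrank_perp W
  rw [hfr] at hd
  have hnd : NDs (qf hQ) W := nds_of_nondeg (Q := qf hQ) hW
  refine Om_nd_max (Q := qf hQ) (nd_qf hQ) (by omega) hW0 hW1 hnd ?_ ?_ ?_
  · intro g _ h
    have h3 : Module.finrank F (W.map g.toLinearMap) = Module.finrank F W := LinearEquiv.finrank_map_eq g _
    rw [h] at h3
    omega
  · intro hW2
    by_contra hcon
    push Not at hcon
    obtain ⟨h4, w, hw, hQw, hw0⟩ := hcon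
    rw [Nat.card_eq_fintype_card] at h4
    refine hex ⟨by omega, W, hW2, hW, plus_of_not (Q := qf hQ) hW2 ?_, Or.inl rfl⟩
    intro hc
    exact hw0 (hc w hw hQw)
  · intro hW2
    by_contra hcon
    push Not at hcon
    obtain ⟨h4, w, hw, hQw, hw0⟩ := hcon
    rw [Nat.card_eq_fintype_card] at h4
    refine hex ⟨by omega, perp (qf hQ) W, hW2, nondeg_of_nds (nds_perp (nd_qf hQ) hnd) (nd_qf hQ),
      plus_of_not (Q := qf hQ) hW2 ?_, Or.inr ⟨?_, by omega⟩⟩
    · intro hc
      exact hw0 (hc w hw hQw)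
    · intro u hu v hv
      have := mem_perp'.1 hu v hv
      exact this

end Cfsg.Agent.S5688
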