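import Cfsg.Statements.S5690
import Cfsg.Agent.Lib.OrthNot
-- import your own Cfsg.Agent.* helpers here

set_option autoImplicit false
open Cfsg

namespace Cfsg.Agent.S5690

open Cfsg.Agent.Lib.Quad Cfsg.Agent.Lib.OrthBridge Cfsg.Agent.Lib.OrthNdBridge
  Cfsg.Agent.Lib.OrthNd Cfsg.Agent.Lib.GeoBridge Cfsg.Agent.Lib.OrthNot


/-- Let F be a finite field with q elements, n ≥ 13 even, Q a non-degenerate quadratic form on F^n (of either type), and Ω the commutator subgroup of the isometry group of Q, viewed inside GL_n(F). Suppose q ≤ 3 and W is a plane on which the polar form is non-degenerate and which contains a line on which Q vanishes. Then the elements of Ω stabilising W form a subgroup that is not maximal: some subgroup lies strictly between it and Ω. -/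
theorem result {F : Type*} [Field F] [Fintype F] {n : ℕ} (hn : 13 ≤ n) (heven : Even n) (Q : (Fin n → F) → F) (hQ : Cfsg.Geo.IsNondegenerateQuadraticForm Q) (hq : Fintype.card F ≤ 3) (W : Submodule F (Fin n → F)) (hdim : Module.finrank F W = 2) (hW : Cfsg.Geo.IsNondegenerateOn (QuadraticMap.polar Q) W) (hWp : Cfsg.Geo.IsPlusTypeOn Q W) : ∃ K : Subgroup (Matrix.GeneralLinearGroup (Fin n) F), Cfsg.Geo.subspaceStabilizer W ⊓ Cfsg.Geo.omegaGL Q < K ∧ K < Cfsg.Geo.omegaGL Q := by
  have hfr : Module.finrank F (Fin n → F) = n := Module.finrank_fin_fun F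
  have hnd : Nd (qf hQ) := nd_qf hQ
  have hgen : GenHyp (qf hQ) := Or.inr (Or.inl (by omega))
  obtain ⟨U, hUW, hU, hUd⟩ := hWp
  obtain ⟨e, he, he0⟩ := Submodule.exists_mem_ne_zero_of_ne_bot (show U ≠ ⊥ by
    rintro rfl
    rw [finrank_bot] at hUd
    omega)
  have hF : ∀ a : F, a ≠ 0 → a = 1 ∨ a = -1 := pm_of_card (by omega)
  obtain ⟨v, hv0, h1, g, hg, hgv, w, hw, hgw⟩ := plus_plane (Q := qf hQ) hnd hgen (by omega) hF
    (nds_of_nondeg (Q := qf hQ) hW) hdim (hUW he) he0 (hU e he)
  have hv1 : Submodule.span F {v} ≠ ⊥ := by simpa using hv0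
  have hv2 : Submodule.span F {v} ≠ ⊤ := by
    intro h
    have h3 : Module.finrank F (Submodule.span F {v}) = 1 := finrank_span_singleton hv0
    rw [h, finrank_top, hfr] at h3
    omega
  refine between_of (Q := qf hQ) (P := fun g => ∀ w ∈ W, g w ∈ W) (P₀ := fun g => ∀ w ∈ Submodule.span F {v},
    g w ∈ Submodule.span F {v}) (mem_subspaceStabilizer_iff' W)
    (mem_subspaceStabilizer_iff' (Submodule.span F {v})) ?_ ?_ ?_
  · intro x hx hxW w hw
    obtain ⟨c, rfl⟩ := Submodule.mem_span_singleton.1 hw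
    rw [LinearEquiv.map_smul]
    exact Submodule.smul_mem _ _ (h1 x (Om_le hx) hxW)
  · refine ⟨g, hg, ?_, fun hcon => hgw (hcon w hw)⟩
    intro w hw
    obtain ⟨c, rfl⟩ := Submodule.mem_span_singleton.1 hw
    rw [LinearEquiv.map_smul, hgv]
    exact hw
  · obtain ⟨x, hx, w, hw, hxw⟩ := Cfsg.Agent.Lib.OrthMax.exists_move (Q := qf hQ) hnd hgen (by omega) hv1 hv2
    exact ⟨x, hx, fun hcon => hxw (hcon w hw)⟩

end Cfsg.Agent.S5690
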