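import Cfsg.Statements.S5691
import Cfsg.Agent.Lib.OrthPoint
-- import your own Cfsg.Agent.* helpers here

set_option autoImplicit false
open Cfsg

namespace Cfsg.Agent.S5691

open Cfsg.Agent.Lib.Quad Cfsg.Agent.Lib.OrthBridge Cfsg.Agent.Lib.OrthNdBridge
  Cfsg.Agent.Lib.OrthNd Cfsg.Agent.Lib.GeoBridge Cfsg.Agent.Lib.OrthPoint


/-- Let F be a finite field with q elements, n ≥ 13 even, Q a non-degenerate quadratic form on F^n (of either type), and Ω the commutator subgroup of the isometry group of Q, viewed inside GL_n(F). Suppose q is even and v is a vector with Q(v) ≠ 0. Then the elements of Ω stabilising the line spanned by v form a maximal subgroup of Ω. -/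
theorem result {F : Type*} [Field F] [Fintype F] {n : ℕ} (hn : 13 ≤ n) (heven : Even n) (Q : (Fin n → F) → F) (hQ : Cfsg.Geo.IsNondegenerateQuadraticForm Q) (hchar : ¬ Odd (Fintype.card F)) (v : (Fin n → F)) (hv : Q v ≠ 0) : Cfsg.Geo.IsMaximalIn (Cfsg.Geo.omegaGL Q) (Cfsg.Geo.subspaceStabilizer (Submodule.span F {v}) ⊓ Cfsg.Geo.omegaGL Q) := by
  have hfr : Module.finrank F (Fin n → F) = n := Module.finrank_fin_fun F
  have hv0 : v ≠ 0 := by rintro rfl; exact hv (QuadraticMap.map_zero (qf hQ))
  refine Om_stab_max_of (Q := qf hQ) (nd_qf hQ) (by omega) (by simpa using hv0) ?_ ?_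
  · intro h
    have h1 : Module.finrank F (Submodule.span F {v}) = 1 := finrank_span_singleton hv0
    rw [h, finrank_top, hfr] at h1
    omega
  · intro M hM hH ⟨g, hg, w, hw, hgw⟩
    refine point_max (nd_qf hQ) (Or.inr (Or.inl (by omega))) (by omega) (hM.trans Om_le) hv0 ?_ ?_
    · intro x hx hxv
      apply hH x hx
      intro w hw
      obtain ⟨c, rfl⟩ := Submodule.mem_span_singleton.1 hw
      rw [LinearEquiv.map_smul, hxv]
      exact hw
    · refine ⟨g, hg, fun hcon => hgw ?_⟩
      obtain ⟨c, rfl⟩ := Submodule.mem_span_singleton.1 hw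
      rw [LinearEquiv.map_smul]
      exact Submodule.smul_mem _ _ hcon

end Cfsg.Agent.S5691
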