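import Cfsg.Statements.S5693
import Cfsg.Agent.Lib.OrthFrame2H94
-- import your own Cfsg.Agent.* helpers here

set_option autoImplicit false
open Cfsg

namespace Cfsg.Agent.S5693

open Cfsg.Agent.Lib.Quad Cfsg.Agent.Lib.OrthBridge Cfsg.Agent.Lib.OrthNdBridge
  Cfsg.Agent.Lib.OrthNd Cfsg.Agent.Lib.GeoBridge Cfsg.Agent.Lib.OrthNot Cfsg.Agent.Lib.OrthFrameH94
  Cfsg.Agent.Lib.OrthFrame2H94


/-- Let F be a finite field with q elements, n ≥ 13 even, Q a non-degenerate quadratic form on F^n of plus type (some subspace of dimension n/2 is totally singular), and Ω the commutator subgroup of the isometry group of Q, viewed inside GL_n(F). Let D be a decomposition of F^n into t ≥ 2 pairwise orthogonal, pairwise Q-isometric subspaces of equal dimension k on which the polar form is non-degenerate (with, for even k, all members of plus type or t even; for odd k, q odd and square discriminant), in one of the cases: k = 2 with q = 3; k = 2 with plus-type members and q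 ∈ {2, 4, 5}; k = 3 with q = 3; k = 4 with plus-type members and q = 2. Then the elements of Ω permuting the members of D form a subgroup that is not maximal: some subgroup lies strictly between it and Ω. -/
theorem result {F : Type*} [Field F] [Fintype F] {n : ℕ} (hn : 13 ≤ n) (heven : Even n) (Q : (Fin n → F) → F) (hQ : Cfsg.Geo.IsNondegenerateQuadraticForm Q) (hplus : Cfsg.Geo.IsPlusTypeOn Q ⊤) {t : ℕ} (k : ℕ) (D : Fin t → Submodule F (Fin n → F)) (hD : Cfsg.Geo.IsOrthogonalMDecomposition Q k D) (hke : Even k → ((∀ i, Cfsg.Geo.IsPlusTypeOn Q (D i)) ∨ Even t)) (hko : Odd k → (Odd (Fintype.card F) ∧ Cfsg.Geo.HasSquareDiscriminant Q)) (hcase : ((k = 2 ∧ (Fintype.card F = 3 ∨ ((∀ i, Cfsg.Geo.IsPlusTypeOn Q (D i)) ∧ (Fintype.card F = 2 ∨ Fintype.card F = 4 ∨ Fintype.card F = 5)))) ∨ (k = 3 ∧ Fintype.card F = 3) ∨ (k = 4 ∧ Fintype.card F = 2 ∧ ∀ i, Cfsg.Geo.IsPlusTypeOn Q (D i)))) : ∃ K : Subgroup (Matrix.GeneralLinearGroup (Fin n) F), Cfsg.Geo.decompositionStabilizer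 D ⊓ Cfsg.Geo.omegaGL Q < K ∧ K < Cfsg.Geo.omegaGL Q := by
  have hfr : Module.finrank F (Fin n → F) = n := Module.finrank_fin_fun F
  have hnd : Nd (qf hQ) := nd_qf hQ
  have ht := card_decomp hD.decomp.decomp
  rw [hfr] at ht
  have hDn : ∀ i, NDs (qf hQ) (D i) := fun i => nds_of_nondeg (Q := qf hQ) (hD.decomp.nondegenerate i)
  have hDd := hD.decomp.decomp.finrank_eq
  rcases hcase with ⟨rfl, hq | ⟨hpl, hq | hq | hq⟩⟩ | ⟨rfl, hq⟩ | ⟨rfl, hq, hpl⟩
  · have h2 : (2 : F) ≠ 0 := Cfsg.Agent.Lib.O33.two_ne_zero' hq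
    have ht5 : 5 ≤ t := by omega
    obtain ⟨c, hc, hP⟩ := frp_three_two hq hnd (hDn ⟨0, by omega⟩) (hDd _)
    exact frame_not_max (Q := qf hQ) hnd (by omega) (by omega) hD ht5 h2 hc hP
  · exact case_two_two (Q := qf hQ) hq hnd (by omega) hD (by omega) hpl
  · exact case_four_two (Q := qf hQ) hq hnd (by omega) hD (by omega) hpl
  · have h2 : (2 : F) ≠ 0 := two_ne_zero_of_odd rfl (by rw [hq]; decide)
    have ht5 : 5 ≤ t := by omega
    obtain ⟨U, hU, hUQ, hUd⟩ := hpl ⟨0, by omega⟩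
    rw [hDd] at hUd
    obtain ⟨e, he, he0⟩ := Submodule.exists_mem_ne_zero_of_ne_bot (show U ≠ ⊥ by
      rintro rfl; rw [finrank_bot] at hUd; omega)
    exact frame_not_max (Q := qf hQ) hnd (by omega) (by omega) hD ht5 h2 one_ne_zero
      (frp_five_two hq hnd (hDn _) (hDd _) (hU he) he0 (hUQ e he))
  · have h2 : (2 : F) ≠ 0 := Cfsg.Agent.Lib.O33.two_ne_zero' hq
    have ht5 : 5 ≤ t := by omega
    obtain ⟨c, hc, hP⟩ := frp_three_three hq hnd (hDn ⟨0, by omega⟩) (hDd _)
    exact frame_not_max (Q := qf hQ) hnd (by omega) (by omega) hD ht5 h2 hc hP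
  · exact case_two_four (Q := qf hQ) hq hnd (by omega) hD (by omega) hpl

end Cfsg.Agent.S5693
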