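import Cfsg.Statements.S5696
import Cfsg.Agent.Lib.Rfe9
-- import your own Cfsg.Agent.* helpers here

set_option autoImplicit false
open Cfsg

namespace Cfsg.Agent.S5696

/-- Let F be a finite field with q elements, n ≥ 13 even, Q a non-degenerate quadratic form on F^n (of either type), and Ω the commutator subgroup of the isometry group of Q, viewed inside GL_n(F). Suppose q = p is an odd prime and the discriminant of Q is a square, and let D be a decomposition of F^n into pairwise orthogonal lines on which Q takes non-zero values in one square class (pairwise Q-isometric non-degenerate 1-spaces). Then the elements of Ω permuting these lines form a maximal subgroup of Ω. -/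
theorem result {F : Type*} [Field F] [Fintype F] {n : ℕ} (hn : 13 ≤ n) (heven : Even n) (Q : (Fin n → F) → F) (hQ : Cfsg.Geo.IsNondegenerateQuadraticForm Q) (hprime : (Fintype.card F).Prime) (hodd : Odd (Fintype.card F)) (hdisc : Cfsg.Geo.HasSquareDiscriminant Q) {t : ℕ} (D : Fin t → Submodule F (Fin n → F)) (hD : Cfsg.Geo.IsOrthogonalMDecomposition Q 1 D) : Cfsg.Geo.IsMaximalIn (Cfsg.Geo.omegaGL Q) (Cfsg.Geo.decompositionStabilizer D ⊓ Cfsg.Geo.omegaGL Q) := by
  have h2 : (2 : F) ≠ 0 := Cfsg.Agent.Lib.Quad.two_ne_zero_of_odd rfl hodd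
  have hfr : Module.finrank F (Fin n → F) = n := Module.finrank_fin_fun F
  exact Cfsg.Agent.Lib.Rfe.lines_bridge_even (Q := Cfsg.Agent.Lib.OrthBridge.qf hQ) (Cfsg.Agent.Lib.OrthBridge.nd_qf hQ) hprime h2
    (by rw [hfr]; exact hn) (by rw [hfr]; exact heven) hD

end Cfsg.Agent.S5696
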