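import Cfsg.Statements.S5697
import Cfsg.Agent.Lib.OrthBridge
import Cfsg.Agent.Lib.TSPairQH94
-- import your own Cfsg.Agent.* helpers here

set_option autoImplicit false
open Cfsg

namespace Cfsg.Agent.S5697

open Cfsg.Agent.Lib.Quad Cfsg.Agent.Lib.OrthBridge Cfsg.Agent.Lib.GeoBridge
  Cfsg.Agent.Lib.TSPairH94 Cfsg.Agent.Lib.TSPairQH94


/-- Let F be a finite field with q elements, n ≥ 13 even, Q a non-degenerate quadratic form on F^n of plus type (some subspace of dimension n/2 is totally singular), and Ω the commutator subgroup of the isometry group of Q, viewed inside GL_n(F). Suppose n/2 is even and let D be a decomposition of F^n into two complementary subspaces of dimension n/2 on each of which Q vanishes. Then the elements of Ω preserving or interchanging the two subspaces form a maximal subgroup of Ω. -/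
theorem result {F : Type*} [Field F] [Fintype F] {n : ℕ} (hn : 13 ≤ n) (heven : Even n) (Q : (Fin n → F) → F) (hQ : Cfsg.Geo.IsNondegenerateQuadraticForm Q) (hplus : Cfsg.Geo.IsPlusTypeOn Q ⊤) (k : ℕ) (hk : 2 * k = n) (hke : Even k) (D : Fin 2 → Submodule F (Fin n → F)) (hD : Cfsg.Geo.IsMDecomposition k D) (hts : ∀ i, Cfsg.Geo.IsTotallySingularQuad Q (D i)) : Cfsg.Geo.IsMaximalIn (Cfsg.Geo.omegaGL Q) (Cfsg.Geo.decompositionStabilizer D ⊓ Cfsg.Geo.omegaGL Q) := by
  have hfr : Module.finrank F (Fin n → F) = n := Module.finrank_fin_fun F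
  have hnd : Nd (qf hQ) := nd_qf hQ
  have hgen : GenHyp (qf hQ) := Or.inr (Or.inl (by omega))
  obtain ⟨hdec, hint⟩ := dec_of hD.indep hD.iSup_eq_top
  have hdd : Module.finrank F (D 0) = Module.finrank F (D 1) := by rw [hD.finrank_eq, hD.finrank_eq]
  have P0 : ∀ M : Subgroup ((Fin n → F) ≃ₗ[F] (Fin n → F)),
      M ≤ O (qf hQ) →
      (∀ g ∈ Om (qf hQ), (∀ a ∈ D 0, g a ∈ D 0) → (∀ b ∈ D 1, g b ∈ D 1) → g ∈ M) →
      (∀ g ∈ Om (qf hQ), (∀ a ∈ D 0, g a ∈ D 1) → (∀ b ∈ D 1, g b ∈ D 0) → g ∈ M) →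
      QPair (qf hQ) M (D 0) (D 1) := by
    intro M hM h1 h3
    exact ⟨hnd, hgen, hM, hts 0, hts 1, hdec, hint, by rw [hD.finrank_eq]; omega, hdd,
      by rw [hD.finrank_eq]; exact hke, h1, h3⟩
  refine Om_max_of (Q := qf hQ) (P := fun g => ∃ σ : Equiv.Perm (Fin 2), ∀ i, (D i).map g.toLinearMap = D (σ i))
    (mem_decompositionStabilizer_iff D) ?_ ?_
  · obtain ⟨g, hg, hg1, hg2⟩ := (P0 (Om (qf hQ)) Om_le (fun g hg _ _ => hg) (fun g hg _ _ => hg)).exists_not
    refine ⟨g, hg, fun hcon => ?_⟩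
    rcases (perm_iff hdd g).1 hcon with h4 | h4
    · exact hg1 h4
    · exact hg2 h4
  · intro M hM hH ⟨x, hx, hxP⟩
    have P := P0 M (hM.trans Om_le)
      (fun y hy h1 h3 => hH y hy ((perm_iff hdd y).2 (Or.inl ⟨h1, h3⟩)))
      (fun y hy h1 h3 => hH y hy ((perm_iff hdd y).2 (Or.inr ⟨h1, h3⟩)))
    exact P.main ⟨x, hx, by rw [← not_or, ← perm_iff hdd]; exact hxP⟩

end Cfsg.Agent.S5697
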