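import Cfsg.Statements.S5698
import Cfsg.Agent.Lib.OrthNot
-- import your own Cfsg.Agent.* helpers here

set_option autoImplicit false
open Cfsg

namespace Cfsg.Agent.S5698

open Cfsg.Agent.Lib.Quad Cfsg.Agent.Lib.OrthBridge Cfsg.Agent.Lib.OrthNdBridge
  Cfsg.Agent.Lib.OrthNd Cfsg.Agent.Lib.GeoBridge Cfsg.Agent.Lib.OrthNot


/-- Let F be a finite field with q elements, n ≥ 13 even, Q a non-degenerate quadratic form on F^n of plus type (some subspace of dimension n/2 is totally singular), and Ω the commutator subgroup of the isometry group of Q, viewed inside GL_n(F). Suppose n/2 is odd and let D be a decomposition of F^n into two complementary subspaces of dimension n/2 on each of which Q vanishes. Then the elements of Ω preserving or interchanging the two subspaces form a subgroup that is not maximal: some subgroup lies strictly between it and Ω. -/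
theorem result {F : Type*} [Field F] [Fintype F] {n : ℕ} (hn : 13 ≤ n) (heven : Even n) (Q : (Fin n → F) → F) (hQ : Cfsg.Geo.IsNondegenerateQuadraticForm Q) (hplus : Cfsg.Geo.IsPlusTypeOn Q ⊤) (k : ℕ) (hk : 2 * k = n) (hko : Odd k) (D : Fin 2 → Submodule F (Fin n → F)) (hD : Cfsg.Geo.IsMDecomposition k D) (hts : ∀ i, Cfsg.Geo.IsTotallySingularQuad Q (D i)) : ∃ K : Subgroup (Matrix.GeneralLinearGroup (Fin n) F), Cfsg.Geo.decompositionStabilizer D ⊓ Cfsg.Geo.omegaGL Q < K ∧ K < Cfsg.Geo.omegaGL Q := by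
  have hfr : Module.finrank F (Fin n → F) = n := Module.finrank_fin_fun F
  have hnd : Nd (qf hQ) := nd_qf hQ
  have hgen : GenHyp (qf hQ) := Or.inr (Or.inl (by omega))
  have hA : MTS (qf hQ) k (D 0) := ⟨hD.finrank_eq 0, hts 0⟩
  have hB : MTS (qf hQ) k (D 1) := ⟨hD.finrank_eq 1, hts 1⟩
  have hAB : D 0 ⊓ D 1 = ⊥ := (hD.indep.pairwiseDisjoint (by decide : (0 : Fin 2) ≠ 1)).eq_bot
  obtain ⟨hno, g, hg, hgA, b, hb, hgb⟩ := ts_pair (Q := qf hQ) hnd hgen (by omega) (by omega) hko hA hB hAB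
  have hU1 : D 0 ≠ ⊥ := by
    intro h; have := hA.1; rw [h, finrank_bot] at this; omega
  have hU2 : D 0 ≠ ⊤ := by
    intro h; have := hA.1; rw [h, finrank_top, hfr] at this; omega
  have key : ∀ i : Fin 2, i = 0 ∨ i = 1 := by decide
  refine between_of (Q := qf hQ) (P₀ := fun g => ∀ w ∈ D 0, g w ∈ D 0)
    (P := fun g => ∃ σ : Equiv.Perm (Fin 2), ∀ i, (D i).map g.toLinearMap = D (σ i))
    (mem_decompositionStabilizer_iff D)
    (mem_subspaceStabilizer_iff' (D 0)) ?_ ⟨g, hg, hgA, ?_⟩ ?_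
  · rintro x hx ⟨σ, hσ⟩ w hw
    have h3 := hσ 0
    rcases key (σ 0) with h4 | h4
    · rw [h4] at h3
      rw [← h3]
      exact ⟨w, hw, rfl⟩
    · rw [h4] at h3
      exact absurd h3 (hno x hx)
  · rintro ⟨σ, hσ⟩
    rcases key (σ 1) with h4 | h4
    · have h3 := hσ 1
      rw [h4] at h3
      have h5 := map_eq_of_stab hgA
      rw [← h5] at h3
      have h6 : D 1 = D 0 := Submodule.map_injective_of_injective g.injective h3
      rw [h6, inf_idem] at hAB
      exact hU1 hAB
    · have h3 := hσ 1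
      rw [h4] at h3
      apply hgb
      rw [← h3]
      exact ⟨b, hb, rfl⟩
  · obtain ⟨x, hx, w, hw, hxw⟩ := Cfsg.Agent.Lib.OrthMax.exists_move (Q := qf hQ) hnd hgen (by omega) hU1 hU2
    exact ⟨x, hx, fun hcon => hxw (hcon w hw)⟩

end Cfsg.Agent.S5698
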