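import Cfsg.Statements.S5699
import Cfsg.Agent.Lib.OrthNdBridge
-- import your own Cfsg.Agent.* helpers here

set_option autoImplicit false
open Cfsg

namespace Cfsg.Agent.S5699

open Cfsg.Agent.Lib.Quad Cfsg.Agent.Lib.OrthBridge Cfsg.Agent.Lib.OrthNdBridge
  Cfsg.Agent.Lib.OrthNd Cfsg.Agent.Lib.GeoBridge


/-- Let F be a finite field with q elements, n ≥ 13 even, Q a non-degenerate quadratic form on F^n (of either type), and Ω the commutator subgroup of the isometry group of Q, viewed inside GL_n(F). Let D be a decomposition of F^n into two orthogonal subspaces of odd dimension n/2 on which the polar form is non-degenerate and which are not Q-isometric to each other. Then the elements of Ω permuting (necessarily fixing) the two subspaces form a maximal subgroup of Ω. -/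
theorem result {F : Type*} [Field F] [Fintype F] {n : ℕ} (hn : 13 ≤ n) (heven : Even n) (Q : (Fin n → F) → F) (hQ : Cfsg.Geo.IsNondegenerateQuadraticForm Q) (k : ℕ) (hk : 2 * k = n) (hko : Odd k) (D : Fin 2 → Submodule F (Fin n → F)) (hD : Cfsg.Geo.IsNondegenerateMDecomposition (QuadraticMap.polar Q) k D) (hni : ¬ Cfsg.Geo.AreIsometricFor Q (D 0) (D 1)) : Cfsg.Geo.IsMaximalIn (Cfsg.Geo.omegaGL Q) (Cfsg.Geo.decompositionStabilizer D ⊓ Cfsg.Geo.omegaGL Q) := by
  have hfr : Module.finrank F (Fin n → F) = n := Module.finrank_fin_fun F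
  have hd := (nd_qf hQ).finrank_add_finrank_perp (D 0)
  rw [hfr] at hd
  have h0 := hD.decomp.finrank_eq 0
  have h1 := hD.decomp.finrank_eq 1
  have hnd : NDs (qf hQ) (D 0) := nds_of_nondeg (Q := qf hQ) (hD.nondegenerate 0)
  have hperp : D 1 = perp (qf hQ) (D 0) := by
    apply Submodule.eq_of_le_of_finrank_le
    · intro x hx
      rw [mem_perp]
      intro w hw
      exact hD.orthogonal 0 1 (by decide) w hw x hx
    · omega
  have hno : ∀ g ∈ O (qf hQ), (D 0).map g.toLinearMap ≠ D 1 := by
    intro g hg h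
    apply hni
    refine ⟨(g.submoduleMap (D 0)).trans (LinearEquiv.ofEq _ _ h), fun w => ?_⟩
    exact hg w
  have hmax : Cfsg.Geo.IsMaximalIn (Cfsg.Geo.omegaGL Q)
      (Cfsg.Geo.subspaceStabilizer (D 0) ⊓ Cfsg.Geo.omegaGL Q) := by
    refine Om_nd_max (Q := qf hQ) (nd_qf hQ) (by omega) ?_ ?_ hnd ?_ ?_ ?_
    · intro h
      rw [h, finrank_bot] at h0
      omega
    · intro h
      rw [h, finrank_top, hfr] at h0
      omega
    · intro g hg
      rw [← hperp]
      exact hno g hg
    · intro h; omega
    · intro h; omega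
  have heq : Cfsg.Geo.decompositionStabilizer D ⊓ Cfsg.Geo.omegaGL Q =
      Cfsg.Geo.subspaceStabilizer (D 0) ⊓ Cfsg.Geo.omegaGL Q := by
    ext g
    rw [Subgroup.mem_inf, Subgroup.mem_inf]
    refine and_congr_left fun hg => ?_
    have hgO : le g ∈ O (qf hQ) := Om_le ((mem_omegaGL_iff (Q := qf hQ) g).1 hg)
    rw [mem_decompositionStabilizer_iff, mem_subspaceStabilizer_iff']
    constructor
    · rintro ⟨σ, hσ⟩ v hv
      have h3 := hσ 0
      have h4 : σ 0 = 0 := by
        by_contra hne
        have h5 : σ 0 = 1 := by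
          have : ∀ i : Fin 2, i ≠ 0 → i = 1 := by decide
          exact this _ hne
        rw [h5] at h3
        exact hno _ hgO h3
      rw [h4] at h3
      rw [← h3]
      exact ⟨v, hv, rfl⟩
    · intro h
      have h3 := map_eq_of_stab h
      refine ⟨1, ?_⟩
      have key : ∀ i : Fin 2, i = 0 ∨ i = 1 := by decide
      intro i
      rcases key i with rfl | rfl
      · exact h3
      · show (D 1).map (le g).toLinearMap = D 1
        rw [hperp, map_perp (nd_qf hQ) hgO, h3]
  rw [heq]
  exact hmax

end Cfsg.Agent.S5699
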