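import Cfsg.Statements.S5700
import Cfsg.Agent.Lib.OrthBridge
import Cfsg.Agent.Lib.OrthExtH94
import Cfsg.Agent.Lib.QuadFieldH94
-- import your own Cfsg.Agent.* helpers here

set_option autoImplicit false
open Cfsg

namespace Cfsg.Agent.S5700

open Cfsg.Agent.Lib.Quad Cfsg.Agent.Lib.OrthBridge Cfsg.Agent.Lib.GeoBridge
  Cfsg.Agent.Lib.OrthExtH94 Cfsg.Agent.Lib.QuadFieldH94 Cfsg.Agent.Lib.OrthMax QuadraticMap
open scoped Matrix


/-- Let F be a finite field with q elements, n ≥ 13 even, Q a non-degenerate quadratic form on F^n (of either type), and Ω the commutator subgroup of the isometry group of Q, viewed inside GL_n(F). Let K be a subfield of the algebra of n × n matrices over F containing the scalars, of degree 2 over F, closed under adjoints for the polar form of Q but not consisting of self-adjoint elements, and such that every k in K rescales Q (Q(k v) = c Q(v) for a constant c depending on k). Then the elements of Ω normalising K form a maximal subgroup of Ω. -/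
theorem result {F : Type*} [Field F] [Fintype F] {n : ℕ} (hn : 13 ≤ n) (heven : Even n) (Q : (Fin n → F) → F) (hQ : Cfsg.Geo.IsNondegenerateQuadraticForm Q) (K : Subalgebra F (Matrix (Fin n) (Fin n) F)) (hK : Cfsg.Geo.IsFieldSubalgebra 2 K) (hac : Cfsg.Geo.IsAdjointClosedFor (QuadraticMap.polar Q) K) (hnsa : ¬ Cfsg.Geo.IsSelfAdjointFor (QuadraticMap.polar Q) K) (hsc : ∀ k ∈ K, ∃ c : F, ∀ v : (Fin n → F), Q (Matrix.mulVec k v) = c * Q v) : Cfsg.Geo.IsMaximalIn (Cfsg.Geo.omegaGL Q) (Cfsg.Geo.subalgebraNormalizer K ⊓ Cfsg.Geo.omegaGL Q) := by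
  have hfr : Module.finrank F (Fin n → F) = n := Module.finrank_fin_fun F
  have hn14 : 14 ≤ n := by
    obtain ⟨t, ht⟩ := heven
    omega
  haveI : Nonempty (Fin n) := ⟨⟨0, by omega⟩⟩
  have hnd : Nd (qf hQ) := nd_qf hQ
  have hgen : GenHyp (qf hQ) := Or.inr (Or.inl (by omega))
  obtain ⟨κ, hκ, T, N, hsq, hall, hirr, hκc⟩ := exists_gen hK
  have hadj : ∀ u v, polar (qf hQ) (κ *ᵥ u) v = T * polar (qf hQ) u v - polar (qf hQ) u (κ *ᵥ v) := by
    have h1 := adjoint_eq hK (polarBilin (qf hQ)) (by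
      intro x hx
      apply hnd.eq_zero
      intro y
      rw [polar_comm]
      exact hx y) hac hnsa hκ hsq hall
    exact h1
  obtain ⟨v₀, hv₀0, -⟩ := hnd.exists_singular (by omega)
  obtain ⟨w₀, hvw⟩ := hnd.exists_polar_one' hv₀0
  have hsq' : ∀ x, κ *ᵥ (κ *ᵥ x) = T • (κ *ᵥ x) - N • x := by
    intro x
    rw [Matrix.mulVec_mulVec, hsq, Matrix.sub_mulVec, Matrix.smul_mulVec, Matrix.smul_mulVec,
      Matrix.one_mulVec]
  have hk : KS (qf hQ) (Matrix.toLin' κ) T N := by
    refine ⟨fun x => ?_, fun x y => ?_, ?_, ?_, hirr⟩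
    · simp only [Matrix.toLin'_apply]; exact hsq' x
    · simp only [Matrix.toLin'_apply]; exact hadj x y
    · obtain ⟨c, hc⟩ := hsc κ hκ
      have h1 : ∀ x y, polar (qf hQ) (κ *ᵥ x) (κ *ᵥ y) = c * polar (qf hQ) x y := by
        intro x y
        show Q (κ *ᵥ x + κ *ᵥ y) - Q (κ *ᵥ x) - Q (κ *ᵥ y) = c * (Q (x + y) - Q x - Q y)
        rw [← Matrix.mulVec_add, hc, hc, hc]; ring
      have h2 : ∀ x y, polar (qf hQ) (κ *ᵥ x) (κ *ᵥ y) = N * polar (qf hQ) x y := by
        intro x y
        rw [hadj, hsq', polar_sub_right, polar_smul_right, polar_smul_right, smul_eq_mul, smul_eq_mul]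
        ring
      have h3 : c = N := by
        have := h1 v₀ w₀
        rw [h2, hvw, mul_one, mul_one] at this
        exact this.symm
      intro x
      simp only [Matrix.toLin'_apply]
      rw [← h3]
      exact hc x
    · obtain ⟨c, hc⟩ := hsc κ hκ
      obtain ⟨d, hd⟩ := hsc (1 + κ) (K.add_mem K.one_mem hκ)
      have h1 : ∀ x, polar (qf hQ) x (κ *ᵥ x) = (d - 1 - c) * qf hQ x := by
        intro x
        show Q (x + κ *ᵥ x) - Q x - Q (κ *ᵥ x) = (d - 1 - c) * Q x
        have h2 : x + κ *ᵥ x = (1 + κ) *ᵥ x := by rw [Matrix.add_mulVec, Matrix.one_mulVec]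
        rw [h2, hd, hc]; ring
      have h2 : d - 1 - c = T := by
        have h3 := h1 (v₀ + w₀)
        have h4 := h1 v₀
        have h5 := h1 w₀
        have h6 := hadj v₀ w₀
        rw [polar_comm _ (κ *ᵥ v₀) w₀, hvw] at h6
        rw [Matrix.mulVec_add, polar_add_left, polar_add_right, polar_add_right, h4, h5, Q_add, hvw] at h3
        linear_combination h6 - h3
      intro x
      simp only [Matrix.toLin'_apply]
      rw [h1, h2]
  refine Om_max_of (Q := qf hQ) (P := Nrm (Matrix.toLin' κ)) (mem_normalizer_iff hκ hall hκc) ?_ ?_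
  · exact hk.exists_not hnd hgen (by omega)
  · intro M hM hH hex
    refine hk.main hnd hgen (by omega) (hM.trans Om_le) ?_ hex
    intro u hu c
    have huκ : polar (qf hQ) u (c • Matrix.toLin' κ u) = 0 := by
      rw [polar_smul_right, hk.pk, hu, mul_zero, smul_zero]
    refine ⟨sieg hnd hu huκ, hH _ (SI_Om hnd hgen hu huκ) ⟨0, 1, fun x => ?_⟩, fun x => by
      rw [sieg_apply, siegMap_apply]⟩
    have hQκ : qf hQ (c • Matrix.toLin' κ u) = 0 := by rw [Q_smul, hk.qk, hu]; ring
    have h1 := hk.adj u x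
    have h2 := hk.polar_kk u x
    have h3 := hk.sq u
    simp only [sieg_apply, hQκ, zero_mul, zero_smul, sub_zero, one_smul, zero_add, map_sub, map_add,
      map_smul, polar_smul_left, smul_eq_mul, h3, h2]
    rw [show polar (qf hQ) u (Matrix.toLin' κ x) = T * polar (qf hQ) u x -
      polar (qf hQ) (Matrix.toLin' κ u) x by rw [h1]; ring]
    module

end Cfsg.Agent.S5700
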