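import Cfsg.Statements.S5701
import Cfsg.Agent.Lib.FldOBrH94
-- import your own Cfsg.Agent.* helpers here

set_option autoImplicit false
open Cfsg

namespace Cfsg.Agent.S5701


open Cfsg.Agent.Lib.Quad Cfsg.Agent.Lib.OrthBridge Cfsg.Agent.Lib.OrthNdBridge
  Cfsg.Agent.Lib.OrthNd Cfsg.Agent.Lib.GeoBridge Cfsg.Agent.Lib.FldOH94

/-- Let F be a finite field with q elements, n ≥ 13 even, Q a non-degenerate quadratic form on F^n (of either type), and Ω the commutator subgroup of the isometry group of Q, viewed inside GL_n(F). Suppose q is odd. Let K be a subfield of the algebra of n × n matrices over F containing the scalars, of prime degree r over F with n/r ≥ 3, whose elements are self-adjoint for the polar form of Q. Then the elements of Ω normalising K form a maximal subgroup of Ω. -/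
theorem result {F : Type*} [Field F] [Fintype F] {n : ℕ} (hn : 13 ≤ n) (heven : Even n) (Q : (Fin n → F) → F) (hQ : Cfsg.Geo.IsNondegenerateQuadraticForm Q) (hodd : Odd (Fintype.card F)) (r : ℕ) (hr : r.Prime) (hnr : 3 * r ≤ n) (K : Subalgebra F (Matrix (Fin n) (Fin n) F)) (hK : Cfsg.Geo.IsFieldSubalgebra r K) (hsa : Cfsg.Geo.IsSelfAdjointFor (QuadraticMap.polar Q) K) : Cfsg.Geo.IsMaximalIn (Cfsg.Geo.omegaGL Q) (Cfsg.Geo.subalgebraNormalizer K ⊓ Cfsg.Geo.omegaGL Q) := by
  have h2 : (2 : F) ≠ 0 := two_ne_zero_of_odd rfl hodd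
  have : Nonempty (Fin n) := ⟨⟨0, by omega⟩⟩
  have hd := dvd_of hK
  rw [Fintype.card_fin] at hd
  have hnr4 : 4 * r ≤ n := by
    obtain ⟨c, hc⟩ := hd
    have h3 : 3 ≤ c := by
      by_contra hcon
      have : r * c ≤ r * 2 := Nat.mul_le_mul_left _ (by omega)
      have := hr.pos
      omega
    rcases Nat.lt_or_ge 3 c with h4 | h4
    · have : r * 4 ≤ r * c := Nat.mul_le_mul_left _ h4
      omega
    · have h5 : c = 3 := by omega
      subst h5
      exfalso
      have h6 : Even r := by
        rcases Nat.even_mul.1 (hc ▸ heven) with h | h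
        · exact h
        · exact absurd h (by decide)
      have h7 := hr.eq_two_or_odd'
      rcases h7 with h7 | h7
      · subst h7; omega
      · exact (Nat.not_even_iff_odd.2 h7) h6
  have key := matrix_main (Q := qf hQ) (nd_qf hQ) h2 hr (by rw [Fintype.card_fin]; exact hnr4) hK hsa
  exact key


end Cfsg.Agent.S5701
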