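import Cfsg.Statements.S5707
import Cfsg.Agent.Lib.H12Spin5

set_option autoImplicit false
open Cfsg

namespace Cfsg.Agent.S5707

open Cfsg.Agent.Lib.H12Spin in
/-- Let F be a finite field with q elements, n ≥ 13 even, Q a non-degenerate quadratic form on F^n of plus type (some subspace of dimension n/2 is totally singular), and Ω the commutator subgroup of the isometry group of Q, viewed inside GL_n(F). Suppose q is even and that, through P and e, the polar form of Q is similar to the t-fold tensor power (t ≥ 2) of a non-degenerate symplectic form f₁ on F^k with k ≤ 4 and (q, k) ≠ (2, 2), Q vanishing on the images of all pure tensors. Then the elements of Ω in the stabiliser of this decomposition form a subgroup that is not maximal: some subgroup lies strictly between it and Ω. -/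
theorem result {F : Type*} [Field F] [Fintype F] {n : ℕ} (hn : 13 ≤ n) (heven : Even n) (Q : (Fin n → F) → F) (hQ : Cfsg.Geo.IsNondegenerateQuadraticForm Q) (hplus : Cfsg.Geo.IsPlusTypeOn Q ⊤) (hchar : ¬ Odd (Fintype.card F)) (k t : ℕ) (ht : 2 ≤ t) (hk : k ≤ 4) (hex1 : ¬ (Fintype.card F = 2 ∧ k = 2)) (e : (Fin n) ≃ (Fin t → Fin k)) (P : Matrix.GeneralLinearGroup (Fin n) F) (f₁ : (Fin k → F) → (Fin k → F) → F) (hf₁ : Cfsg.Geo.IsSymplecticForm f₁) (hT : Cfsg.Geo.IsTensorPowerFormStructure id (QuadraticMap.polar Q) f₁ e P) (hpure : (∀ xs : Fin t → (Fin k → F), Q (Matrix.mulVec (P : Matrix (Fin n) (Fin n) F) ((fun a : Fin t → Fin k => ∏ i, xs i (a i)) ∘ e)) = 0)) : ∃ K : Subgroup (Matrix.GeneralLinearGroup (Fin n) F), Cfsg.Geo.tensorWreathSubgroup k t e P ⊓ Cfsg.Geo.omegaGL Q < K ∧ K < Cfsg.Geo.omegaGL Q := by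
  classical
  have h2 : (2 : F) = 0 := by
    by_contra h2
    apply hchar
    have h3 : ringChar F ≠ 2 := by
      intro h3
      apply h2
      have := ringChar.Nat.cast_ringChar (R := F)
      rw [h3] at this
      exact_mod_cast this
    exact Nat.odd_iff.2 (FiniteField.odd_card_of_char_ne_two h3)
  have hcard : n = k ^ t := by
    have := Fintype.card_congr e
    simpa using this
  have hne : (1 : Matrix (Fin n) (Fin n) F) ≠ 0 := by
    haveI : Nonempty (Fin n) := ⟨⟨0, by omega⟩⟩
    exact one_ne_zero
  -- `k` is even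
  let Bf : (Fin k → F) →ₗ[F] (Fin k → F) →ₗ[F] F := LinearMap.mk₂ F f₁ hf₁.bilinear.add_left
    (fun c x y => hf₁.bilinear.smul_left c x y) (fun x y z => hf₁.bilinear.add_right x y z)
    (fun c x y => hf₁.bilinear.smul_right c x y)
  have hkE : Even k := by
    have := Cfsg.Agent.Lib.AltForm.even_finrank Bf (fun v => hf₁.alternating v)
      (fun v hv => by
        by_contra hv0
        obtain ⟨x, hx⟩ := (hf₁.nondegenerate v hv0).2
        exact hx (hv x))
    simpa using this
  have hk' : k = 0 ∨ k = 2 ∨ k = 4 := by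
    obtain ⟨r, hr⟩ := hkE
    omega
  rcases hk' with rfl | rfl | rfl
  · rw [zero_pow (by omega)] at hcard
    omega
  · -- `k = 2`
    have ht4 : 4 ≤ t := by
      by_contra hlt
      have : 2 ^ t ≤ 2 ^ 3 := Nat.pow_le_pow_right (by norm_num) (by omega)
      omega
    obtain ⟨P', hTF, hM⟩ := reduce h2 hQ hf₁ hT hpure (J2 F) ⟨0, 1, by simp [J2]⟩
      (fun v => by
        simp [J2, Matrix.mulVec, dotProduct, Fin.sum_univ_two]
        linear_combination (v 0 * v 1) * h2)
      (fun v hv => by
        have h0 := hv (Pi.single 0 1)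
        have h1 := hv (Pi.single 1 1)
        simp [J2, Matrix.mulVec, dotProduct, Fin.sum_univ_two] at h0 h1
        funext i
        fin_cases i
        · simpa using h1
        · simpa using h0)
    exact core hTF (fam2 h2) hne (⟨0, by omega⟩, ()) (⟨1, by omega⟩, ()) (⟨2, by omega⟩, ()) (⟨3, by omega⟩, ())
      (by simp) (by simp) (by simp) (by simp) (by simp) (by simp) (by simp) _ hM
  · -- `k = 4`
    obtain ⟨P', hTF, hM⟩ := reduce h2 hQ hf₁ hT hpure (J4 F) ⟨0, 3, by simp [J4]⟩
      (fun v => by
        simp [J4, Matrix.mulVec, dotProduct, Fin.sum_univ_four]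
        linear_combination (v 0 * v 3 + v 1 * v 2) * h2)
      (fun v hv => by
        have h0 := hv (Pi.single 0 1)
        have h1 := hv (Pi.single 1 1)
        have h2 := hv (Pi.single 2 1)
        have h3 := hv (Pi.single 3 1)
        simp [J4, Matrix.mulVec, dotProduct, Fin.sum_univ_four] at h0 h1 h2 h3
        funext i
        fin_cases i
        · simpa using h3
        · simpa using h2
        · simpa using h1
        · simpa using h0)
    exact core hTF (fam4 h2) hne (⟨0, by omega⟩, true) (⟨1, by omega⟩, true) (⟨0, by omega⟩, false) (⟨1, by omega⟩, false)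
      (by simp) (by simp) (by simp) (by simp) (by simp) (by simp) (by simp) _ hM

end Cfsg.Agent.S5707
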