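import Cfsg.Statements.S5778
import Cfsg.Agent.Lib.UnArith
import Cfsg.Agent.Lib.UnTwo2
import Cfsg.Agent.Lib.SU3SixF
import Cfsg.Agent.Lib.SU3Sub
import Cfsg.Agent.Lib.SU3FldE

set_option autoImplicit false
open Cfsg

namespace Cfsg.Agent.S5778

/-- Every maximal subgroup of SU_3(q), q ≥ 3, is of one of the listed geometric types or lies in the residual class. Let F be the field with q² elements, f the standard unitary form Σ u_i v_i^q on F^3, and H a maximal subgroup of SU_3(q) (the determinant-one isometries of f, inside GL_3(F)). Then H is the intersection with SU_3(q) of one of: the stabiliser of a non-zero subspace on which f vanishes; the stabiliser of a non-degenerate 1-space; for q ≠ 5, the stabiliser of a decomposition into three mutually orthogonal non-degenerate 1-spaces; for q ≠ 3, 5, the normaliser of an adjoint-closed degree-3 subfield of the matrix algebra; a subfield group of odd prime index whose F₀-structure carries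 f; for q odd, q ≥ 7, a subfield group of index 2 whose F₀-structure carries f; for q = p ≡ 2 mod 3 prime with p ≥ 11, the normaliser of an absolutely irreducible subgroup of order 27 with centre of order 3, exponent 3 and all characteristic abelian subgroups cyclic, contained in the similarity group of f — or else H lies in the residual class of the unitary case. -/
theorem result {F : Type*} [Field F] [Fintype F] (q : ℕ) (hF : Fintype.card F = q ^ 2) (hq : 3 ≤ q) (H : Subgroup (Matrix.GeneralLinearGroup (Fin 3) F)) (hH : Cfsg.Geo.IsMaximalIn (Cfsg.GU 3 F q ⊓ Cfsg.Geo.specialLinear (Fin 3) F) H) :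
    (∃ W : Submodule F (Fin 3 → F), W ≠ ⊥ ∧ Cfsg.Geo.IsTotallySingularFor (Cfsg.hermForm 3 F q) W ∧ H = Cfsg.Geo.subspaceStabilizer W ⊓ (Cfsg.GU 3 F q ⊓ Cfsg.Geo.specialLinear (Fin 3) F)) ∨
    (∃ W : Submodule F (Fin 3 → F), W ≠ ⊥ ∧ Cfsg.Geo.IsNondegenerateOn (Cfsg.hermForm 3 F q) W ∧ 2 * Module.finrank F W < 3 ∧ H = Cfsg.Geo.subspaceStabilizer W ⊓ (Cfsg.GU 3 F q ⊓ Cfsg.Geo.specialLinear (Fin 3) F)) ∨
    (q ≠ 5 ∧ ∃ D : Fin 3 → Submodule F (Fin 3 → F), Cfsg.Geo.IsNondegenerateMDecomposition (Cfsg.hermForm 3 F q) 1 D ∧ H = Cfsg.Geo.decompositionStabilizer D ⊓ (Cfsg.GU 3 F q ⊓ Cfsg.Geo.specialLinear (Fin 3) F)) ∨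
    (q ≠ 3 ∧ q ≠ 5 ∧ ∃ K : Subalgebra F (Matrix (Fin 3) (Fin 3) F), Cfsg.Geo.IsFieldSubalgebra 3 K ∧ Cfsg.Geo.IsAdjointClosedFor (Cfsg.hermForm 3 F q) K ∧ H = Cfsg.Geo.subalgebraNormalizer K ⊓ (Cfsg.GU 3 F q ⊓ Cfsg.Geo.specialLinear (Fin 3) F)) ∨
    (∃ (F₀ : Subfield F) (r : ℕ) (P : Matrix.GeneralLinearGroup (Fin 3) F), r.Prime ∧ Odd r ∧ Fintype.card F = Nat.card F₀ ^ r ∧ Cfsg.Geo.IsFormRationalStructure (Cfsg.hermForm 3 F q) F₀ 1 P ∧ H = Cfsg.Geo.subfieldSubgroup F₀ P ⊓ (Cfsg.GU 3 F q ⊓ Cfsg.Geo.specialLinear (Fin 3) F)) ∨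
    (Odd q ∧ 7 ≤ q ∧ ∃ (F₀ : Subfield F) (P : Matrix.GeneralLinearGroup (Fin 3) F), Fintype.card F = Nat.card F₀ ^ 2 ∧ Cfsg.Geo.IsFormRationalStructure (Cfsg.hermForm 3 F q) F₀ 1 P ∧ H = Cfsg.Geo.subfieldSubgroup F₀ P ⊓ (Cfsg.GU 3 F q ⊓ Cfsg.Geo.specialLinear (Fin 3) F)) ∨
    (∃ (p : ℕ) (R : Subgroup (Matrix.GeneralLinearGroup (Fin 3) F)), p.Prime ∧ q = p ∧ p % 3 = 2 ∧ 11 ≤ p ∧ Cfsg.Geo.IsSymplecticTypeGroup 3 R ∧ Cfsg.Geo.ActsAbsolutelyIrreducibly (Cfsg.Geo.matrixSet R) ∧ R ≤ Cfsg.Geo.similarityGroup (Cfsg.hermForm 3 F q) ∧ Nat.card R = 27 ∧ Nat.card (Subgroup.center R) = 3 ∧ H = Cfsg.Geo.subgroupNormalizer R ⊓ (Cfsg.GU 3 F q ⊓ Cfsg.Geo.specialLinear (Fin 3) F)) ∨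
    Cfsg.Geo.InUnitaryResidualClass H := by
  classical
  have hnn : ¬ (3 = 3 ∧ q = 2) := by omega
  cases Cfsg.Agent.Lib.UnNot.umax hF (by norm_num) hnn hH with
  | c1a W h0 hs h => exact Or.inl (⟨W, h0, hs, h⟩)
  | c1b W h0 hs hd h => exact Or.inr (Or.inl (⟨W, h0, hs, hd, h⟩))
  | c2a t k D htk hD h =>
    have ht2 := hD.decomp.two_le
    have hk0 := hD.decomp.pos
    have htn : t ≤ 3 := by rw [← htk]; exact Nat.le_mul_of_pos_right _ hk0
    interval_cases t
    · omega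
    · obtain rfl : k = 1 := by omega
      rcases eq_or_ne q 5 with rfl | hq5
      · exact (Cfsg.Agent.Lib.SU3.frame_five_not_maximal hF hD hH h).elim
      · exact Or.inr (Or.inr (Or.inl (⟨hq5, D, hD, h⟩)))
  | c2b k D hk hD hs h => omega
  | c3 r K hr hodd hrn hK hadj h =>
    have hrle : r ≤ 3 := Nat.le_of_dvd (by norm_num) hrn
    have hr2 := hr.two_le
    interval_cases r
    · exact absurd hodd (by decide)
    · rcases eq_or_ne q 5 with rfl | hq5
      · exact (Cfsg.Agent.Lib.SU3.field_five3_not_maximal hF hK hadj hH h).elim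
      · rcases eq_or_ne q 3 with rfl | hq3
        · exact (Cfsg.Agent.Lib.SU3.field_three3_not_maximal hF hK hadj hH h).elim
        · exact Or.inr (Or.inr (Or.inr (Or.inl (⟨hq3, hq5, K, hK, hadj, h⟩))))
  | c4 n₁ n₂ e P f₁ f₂ h2 hlt hn h₁ h₂ hst h =>
    exfalso
    have hn1 : n₁ < 2 := by nlinarith
    omega
  | c5a F₀ r P hr hodd hc hst h => exact Or.inr (Or.inr (Or.inr (Or.inr (Or.inl (⟨F₀, r, P, hr, hodd, hc, hst, h⟩)))))
  | c5b F₀ P hqo hc hst h =>
    rcases eq_or_ne q 3 with rfl | hq3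
    · obtain ⟨D, hD, hDH⟩ := Cfsg.Agent.Lib.SU3.subfield_three hF hc hst hH h
      exact Or.inr (Or.inr (Or.inl (⟨by norm_num, D, hD, hDH⟩)))
    · rcases eq_or_ne q 5 with rfl | hq5
      · exact (Cfsg.Agent.Lib.SU3.subfield_five_not_maximal hF hc hst hH h).elim
      · have h7 : 7 ≤ q := by
          obtain ⟨m, hm⟩ := hqo
          omega
        exact Or.inr (Or.inr (Or.inr (Or.inr (Or.inr (Or.inl (⟨hqo, h7, F₀, P, hc, hst, h⟩))))))
  | c5c F₀ P ζ hn hc hζ hζq hst halt h => exact absurd hn (by decide)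
  | c6 r R p e k hsy hirr hRG hrp hnk hk hmin hcases h =>
    have hkk := hnk
    obtain rfl : r = 3 := Cfsg.Agent.Lib.AschSmall.eq_of_pow_eq (q := 3) (k := 1) (by norm_num) hsy.prime (by norm_num) hnk (by norm_num)
    obtain rfl : k = 1 := Nat.pow_right_injective (by norm_num : 2 ≤ 3) (show 3 ^ k = 3 ^ 1 from hnk.symm.trans (by norm_num))
    have hsim : R ≤ Cfsg.Geo.similarityGroup (Cfsg.hermForm 3 F q) := fun g hg => ⟨1, fun u v => by rw [Units.val_one, one_mul]; exact hRG hg u v⟩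
    rcases hcases with ⟨hodd, hc, hR⟩ | ⟨h2, -⟩
    · rw [hc] at hmin
      obtain ⟨hqp, hp3⟩ := Cfsg.Agent.Lib.UnNot.uarith3 hF hrp hmin
      have hR27 : Nat.card R = 27 := hR.trans (by norm_num)
      rcases eq_or_ne q 5 with rfl | hq5
      · exact (Cfsg.Agent.Lib.SU3.six_not_maximal hF hsy hirr hRG hR27 hc hH h).elim
      · have h11 : 11 ≤ p := by
          by_contra hlt
          have hpp := hmin.1
          have h3p : 3 ≤ p := by omega
          have hp10 : p ≤ 10 := by omega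
          interval_cases p
          · omega
          · omega
          · omega
          · omega
          · omega
          · exact absurd hpp (by norm_num)
          · omega
          · omega
        exact Or.inr (Or.inr (Or.inr (Or.inr (Or.inr (Or.inr (Or.inl (⟨p, R, hmin.1, hqp, hp3, h11, hsy, hirr, hsim, hR27, hc, h⟩)))))))
    · exact absurd h2 (by norm_num)
  | c7 k t e P f₁ hk ht hkt hex h₁ hst h =>
    exfalso
    have h9 : 3 ^ 2 ≤ k ^ t := (Nat.pow_le_pow_left hk 2).trans (Nat.pow_le_pow_right (by omega) ht)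
    omega
  | res h => exact Or.inr (Or.inr (Or.inr (Or.inr (Or.inr (Or.inr (Or.inr (h)))))))

end Cfsg.Agent.S5778
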