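import Cfsg.Statements.S5781
import Cfsg.Agent.Lib.AschSL4

set_option autoImplicit false
open Cfsg

namespace Cfsg.Agent.S5781

/-- Every maximal subgroup of SL_4(q) is of one of the listed geometric types or lies in the residual class. Let F be a finite field with q elements and H a maximal subgroup of SL_4(F) (inside GL_4(F)). Then H is the intersection with SL_4(F) of one of: the stabiliser of a proper non-zero subspace; for q ≥ 7, the stabiliser of a decomposition into four independent lines; for q ≥ 4, the stabiliser of a decomposition into two independent planes; the normaliser of a degree-2 subfield of the matrix algebra; a subfield group for a subfield F₀ with |F| = |F₀|^r, r prime; for q = p ≡ 1 mod 4 prime, the normaliser of an absolutely irreducible 2-subgroup R of exponent 4 with centre of order 4, all of whose characteristic abelian subgroups are cyclic, of order 2^(2+2m) for some m (here |R| = 64), with 4 dividing p − 1; for q odd, the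 similarity group of a non-degenerate quadratic form; the similarity group of a non-degenerate symplectic form; the similarity group of a non-degenerate unitary form — or else H lies in the residual class of the linear case. -/
theorem result {F : Type*} [Field F] [Fintype F] (H : Subgroup (Matrix.GeneralLinearGroup (Fin 4) F)) (hH : Cfsg.Geo.IsMaximalIn (Cfsg.Geo.specialLinear (Fin 4) F) H) :
    (∃ W : Submodule F (Fin 4 → F), W ≠ ⊥ ∧ W ≠ ⊤ ∧ H = Cfsg.Geo.subspaceStabilizer W ⊓ Cfsg.Geo.specialLinear (Fin 4) F) ∨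
    (7 ≤ Fintype.card F ∧ ∃ D : Fin 4 → Submodule F (Fin 4 → F), Cfsg.Geo.IsMDecomposition 1 D ∧ H = Cfsg.Geo.decompositionStabilizer D ⊓ Cfsg.Geo.specialLinear (Fin 4) F) ∨
    (4 ≤ Fintype.card F ∧ ∃ D : Fin 2 → Submodule F (Fin 4 → F), Cfsg.Geo.IsMDecomposition 2 D ∧ H = Cfsg.Geo.decompositionStabilizer D ⊓ Cfsg.Geo.specialLinear (Fin 4) F) ∨
    (∃ K : Subalgebra F (Matrix (Fin 4) (Fin 4) F), Cfsg.Geo.IsFieldSubalgebra 2 K ∧ H = Cfsg.Geo.subalgebraNormalizer K ⊓ Cfsg.Geo.specialLinear (Fin 4) F) ∨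
    (∃ (F₀ : Subfield F) (r : ℕ) (P : Matrix.GeneralLinearGroup (Fin 4) F), r.Prime ∧ Fintype.card F = Nat.card F₀ ^ r ∧ H = Cfsg.Geo.subfieldSubgroup F₀ P ⊓ Cfsg.Geo.specialLinear (Fin 4) F) ∨
    (∃ (p : ℕ) (R : Subgroup (Matrix.GeneralLinearGroup (Fin 4) F)), p.Prime ∧ Fintype.card F = p ∧ p % 4 = 1 ∧ Cfsg.Geo.IsLinearSymplecticTypeData 2 R ∧ H = Cfsg.Geo.subgroupNormalizer R ⊓ Cfsg.Geo.specialLinear (Fin 4) F) ∨
    (Odd (Fintype.card F) ∧ ∃ Q : (Fin 4 → F) → F, Cfsg.Geo.IsNondegenerateQuadraticForm Q ∧ H = Cfsg.Geo.quadSimilarityGroup Q ⊓ Cfsg.Geo.specialLinear (Fin 4) F) ∨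
    (∃ f : (Fin 4 → F) → (Fin 4 → F) → F, Cfsg.Geo.IsSymplecticForm f ∧ H = Cfsg.Geo.similarityGroup f ⊓ Cfsg.Geo.specialLinear (Fin 4) F) ∨
    (∃ (σ : F ≃+* F) (f : (Fin 4 → F) → (Fin 4 → F) → F), Cfsg.Geo.IsUnitaryForm σ f ∧ H = Cfsg.Geo.similarityGroup f ⊓ Cfsg.Geo.specialLinear (Fin 4) F) ∨
    Cfsg.Geo.InLinearResidualClass H := by
  classical
  have hι : 3 ≤ Fintype.card (Fin 4) := by simp
  have hqq : Fintype.card F ≠ 6 := by
    intro h6
    obtain ⟨p, hp⟩ := CharP.exists F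
    obtain ⟨e, hpp, hcard⟩ := FiniteField.card F p
    rw [h6] at hcard
    exact Cfsg.Agent.Lib.AschSmall.false_of_two_primes (q₁ := 2) (q₂ := 3) hpp hcard (by norm_num) (by norm_num) (by norm_num) (by norm_num) (by norm_num)
  cases Cfsg.Agent.Lib.AschLinMax.linMax hι hH with
  | reducible W hb ht h => exact Or.inl (⟨W, hb, ht, h⟩)
  | imprimitive t m D hD h =>
    have hle : H ≤ Cfsg.Geo.decompositionStabilizer D := h.le.trans inf_le_left
    have hc : 4 = t * m := by simpa using Cfsg.Agent.Lib.AschLinMax.card_eq_mul hD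
    have ht2 := hD.two_le
    have hm0 := hD.pos
    have htn : t ≤ 4 := by rw [hc]; exact Nat.le_mul_of_pos_right _ hm0
    interval_cases t
    · obtain rfl : m = 2 := by omega
      rcases Cfsg.Agent.Lib.AschSL4.planes_three hι hH hD hle with h4 | ⟨f, hf, hHf⟩
      · exact Or.inr (Or.inr (Or.inl (⟨h4, D, hD, h⟩)))
      · exact Or.inr (Or.inr (Or.inr (Or.inr (Or.inr (Or.inr (Or.inr (Or.inl (⟨f, hf, hHf⟩))))))))
    · omega
    · obtain rfl : m = 1 := by omega
      rcases Cfsg.Agent.Lib.AschLinMax.lines hι hH hD hle with h5 | ⟨W, hb, ht, hW⟩ | ⟨hodd, Q, hQ, hHQ⟩ | ⟨σ, f, hf, hHf⟩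
      · by_cases hq : Fintype.card F = 5
        · obtain ⟨R, hR, hHR⟩ := Cfsg.Agent.Lib.AschSL4.lines_five (by simp) hH hD hle hq
          exact Or.inr (Or.inr (Or.inr (Or.inr (Or.inr (Or.inl (⟨5, R, by norm_num, hq, by norm_num, hR, hHR⟩))))))
        · exact Or.inr (Or.inl (⟨by omega, D, hD, h⟩))
      · exact Or.inl (⟨W, hb, ht, hW⟩)
      · exact Or.inr (Or.inr (Or.inr (Or.inr (Or.inr (Or.inr (Or.inl (⟨hodd, Q, hQ, hHQ⟩)))))))
      · exact Or.inr (Or.inr (Or.inr (Or.inr (Or.inr (Or.inr (Or.inr (Or.inr (Or.inl (⟨σ, f, hf, hHf⟩)))))))))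
  | field r K hr hrn hK h =>
    have hrn' : r ∣ 4 := by simpa using hrn
    have hrle : r ≤ 4 := Nat.le_of_dvd (by norm_num) hrn'
    have hr2 := hr.two_le
    interval_cases r
    · exact Or.inr (Or.inr (Or.inr (Or.inl (⟨K, hK, h⟩))))
    · exact absurd hrn' (by norm_num)
    · exact absurd hr (by norm_num)
  | tensor n₁ n₂ e P h1 h2 h =>
    have hc : 4 = n₁ * n₂ := by simpa using Fintype.card_congr e
    have hn1 : n₁ < 2 := by nlinarith
    omega
  | subfield F₀ r P hr hc h => exact Or.inr (Or.inr (Or.inr (Or.inr (Or.inl (⟨F₀, r, P, hr, hc, h⟩)))))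
  | symplecticType r m R hm hR h =>
    have hm' : 4 = r ^ m := by simpa using hm
    obtain rfl : r = 2 := Cfsg.Agent.Lib.AschSmall.eq_of_pow_eq (q := 2) (k := 2) (by norm_num) hR.symplecticType.prime (by norm_num) hm' (by norm_num)
    obtain ⟨p, hp, hcp, hp4⟩ := Cfsg.Agent.Lib.AschSmall.two_data hR hι
    exact Or.inr (Or.inr (Or.inr (Or.inr (Or.inr (Or.inl (⟨p, R, hp, hcp, hp4, hR, h⟩))))))
  | tensorWreath m t e P hm ht h =>
    have hc : 4 = m ^ t := by simpa using Fintype.card_congr e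
    obtain ⟨rfl, rfl⟩ := Cfsg.Agent.Lib.AschSmall.wreath_small hm ht hc (by norm_num)
    exact absurd hc (by norm_num)
  | symplectic f hf h => exact Or.inr (Or.inr (Or.inr (Or.inr (Or.inr (Or.inr (Or.inr (Or.inl (⟨f, hf, h⟩))))))))
  | unitary σ f hf h => exact Or.inr (Or.inr (Or.inr (Or.inr (Or.inr (Or.inr (Or.inr (Or.inr (Or.inl (⟨σ, f, hf, h⟩)))))))))
  | quadratic Q hQ hodd h => exact Or.inr (Or.inr (Or.inr (Or.inr (Or.inr (Or.inr (Or.inl (⟨hodd, Q, hQ, h⟩)))))))
  | residual h => exact Or.inr (Or.inr (Or.inr (Or.inr (Or.inr (Or.inr (Or.inr (Or.inr (Or.inr (h)))))))))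

end Cfsg.Agent.S5781
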