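import Cfsg.Statements.S5784
import Cfsg.Agent.Lib.UnArith
import Cfsg.Agent.Lib.UnTwo2
import Cfsg.Agent.Lib.UnExF

set_option autoImplicit false
open Cfsg

namespace Cfsg.Agent.S5784

/-- Every maximal subgroup of SU_4(q) is of one of the listed geometric types or lies in the residual class. Let F be the field with q² elements, f the standard unitary form Σ u_i v_i^q on F^4, and H a maximal subgroup of SU_4(q) (inside GL_4(F)). Then H is the intersection with SU_4(q) of one of: the stabiliser of a non-zero subspace on which f vanishes; the stabiliser of a non-degenerate 1-space; for q ≠ 3, the stabiliser of a decomposition into four mutually orthogonal non-degenerate 1-spaces; for q ≥ 3, of a decomposition into two orthogonal non-degenerate 2-spaces; for q ≥ 4, of a decomposition into two totally isotropic 2-spaces; a subfield group of odd prime index whose F₀-structure carries f; a subfield group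 of index 2 whose F₀-structure carries ζ f, vanishing on pairs (u, u), for some non-zero ζ with ζ + ζ^q = 0; for q odd, a subfield group of index 2 whose F₀-structure carries f; for q = p ≡ 3 mod 4 prime, the normaliser of an absolutely irreducible symplectic-type 2-group of exponent 4, order 64 and centre of order 4 inside the similarity group of f — or else H lies in the residual class of the unitary case. -/
theorem result {F : Type*} [Field F] [Fintype F] (q : ℕ) (hF : Fintype.card F = q ^ 2) (H : Subgroup (Matrix.GeneralLinearGroup (Fin 4) F)) (hH : Cfsg.Geo.IsMaximalIn (Cfsg.GU 4 F q ⊓ Cfsg.Geo.specialLinear (Fin 4) F) H) :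
    (∃ W : Submodule F (Fin 4 → F), W ≠ ⊥ ∧ Cfsg.Geo.IsTotallySingularFor (Cfsg.hermForm 4 F q) W ∧ H = Cfsg.Geo.subspaceStabilizer W ⊓ (Cfsg.GU 4 F q ⊓ Cfsg.Geo.specialLinear (Fin 4) F)) ∨
    (∃ W : Submodule F (Fin 4 → F), W ≠ ⊥ ∧ Cfsg.Geo.IsNondegenerateOn (Cfsg.hermForm 4 F q) W ∧ 2 * Module.finrank F W < 4 ∧ H = Cfsg.Geo.subspaceStabilizer W ⊓ (Cfsg.GU 4 F q ⊓ Cfsg.Geo.specialLinear (Fin 4) F)) ∨
    (q ≠ 3 ∧ ∃ D : Fin 4 → Submodule F (Fin 4 → F), Cfsg.Geo.IsNondegenerateMDecomposition (Cfsg.hermForm 4 F q) 1 D ∧ H = Cfsg.Geo.decompositionStabilizer D ⊓ (Cfsg.GU 4 F q ⊓ Cfsg.Geo.specialLinear (Fin 4) F)) ∨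
    (3 ≤ q ∧ ∃ D : Fin 2 → Submodule F (Fin 4 → F), Cfsg.Geo.IsNondegenerateMDecomposition (Cfsg.hermForm 4 F q) 2 D ∧ H = Cfsg.Geo.decompositionStabilizer D ⊓ (Cfsg.GU 4 F q ⊓ Cfsg.Geo.specialLinear (Fin 4) F)) ∨
    (4 ≤ q ∧ ∃ D : Fin 2 → Submodule F (Fin 4 → F), Cfsg.Geo.IsMDecomposition 2 D ∧ (∀ i, Cfsg.Geo.IsTotallySingularFor (Cfsg.hermForm 4 F q) (D i)) ∧ H = Cfsg.Geo.decompositionStabilizer D ⊓ (Cfsg.GU 4 F q ⊓ Cfsg.Geo.specialLinear (Fin 4) F)) ∨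
    (∃ (F₀ : Subfield F) (r : ℕ) (P : Matrix.GeneralLinearGroup (Fin 4) F), r.Prime ∧ Odd r ∧ Fintype.card F = Nat.card F₀ ^ r ∧ Cfsg.Geo.IsFormRationalStructure (Cfsg.hermForm 4 F q) F₀ 1 P ∧ H = Cfsg.Geo.subfieldSubgroup F₀ P ⊓ (Cfsg.GU 4 F q ⊓ Cfsg.Geo.specialLinear (Fin 4) F)) ∨
    (∃ (F₀ : Subfield F) (P : Matrix.GeneralLinearGroup (Fin 4) F) (ζ : F), Fintype.card F = Nat.card F₀ ^ 2 ∧ ζ ≠ 0 ∧ ζ + ζ ^ q = 0 ∧ Cfsg.Geo.IsFormRationalStructure (Cfsg.hermForm 4 F q) F₀ ζ P ∧ (∀ u : Fin 4 → F, (∀ i, u i ∈ F₀) → (Cfsg.hermForm 4 F q) (Matrix.mulVec (P : Matrix (Fin 4) (Fin 4) F) u) (Matrix.mulVec (P : Matrix (Fin 4) (Fin 4) F) u) = 0) ∧ H = Cfsg.Geo.subfieldSubgroup F₀ P ⊓ (Cfsg.GU 4 F q ⊓ Cfsg.Geo.specialLinear (Fin 4) F)) ∨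
    (Odd q ∧ ∃ (F₀ : Subfield F) (P : Matrix.GeneralLinearGroup (Fin 4) F), Fintype.card F = Nat.card F₀ ^ 2 ∧ Cfsg.Geo.IsFormRationalStructure (Cfsg.hermForm 4 F q) F₀ 1 P ∧ H = Cfsg.Geo.subfieldSubgroup F₀ P ⊓ (Cfsg.GU 4 F q ⊓ Cfsg.Geo.specialLinear (Fin 4) F)) ∨
    (∃ (p : ℕ) (R : Subgroup (Matrix.GeneralLinearGroup (Fin 4) F)), p.Prime ∧ q = p ∧ p % 4 = 3 ∧ Cfsg.Geo.IsSymplecticTypeGroup 2 R ∧ Cfsg.Geo.ActsAbsolutelyIrreducibly (Cfsg.Geo.matrixSet R) ∧ R ≤ Cfsg.Geo.similarityGroup (Cfsg.hermForm 4 F q) ∧ Nat.card R = 64 ∧ Nat.card (Subgroup.center R) = 4 ∧ H = Cfsg.Geo.subgroupNormalizer R ⊓ (Cfsg.GU 4 F q ⊓ Cfsg.Geo.specialLinear (Fin 4) F)) ∨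
    Cfsg.Geo.InUnitaryResidualClass H := by
  classical
  have hnn : ¬ (4 = 3 ∧ q = 2) := by omega
  cases Cfsg.Agent.Lib.UnNot.umax hF (by norm_num) hnn hH with
  | c1a W h0 hs h => exact Or.inl (⟨W, h0, hs, h⟩)
  | c1b W h0 hs hd h => exact Or.inr (Or.inl (⟨W, h0, hs, hd, h⟩))
  | c2a t k D htk hD h =>
    have ht2 := hD.decomp.two_le
    have hk0 := hD.decomp.pos
    have htn : t ≤ 4 := by rw [← htk]; exact Nat.le_mul_of_pos_right _ hk0
    interval_cases t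
    · obtain rfl : k = 2 := by omega
      rcases Nat.lt_or_ge q 3 with hq | hq
      · obtain rfl : q = 2 := by have := Cfsg.Agent.Lib.HermMat.two_le_q hF; omega
        obtain ⟨E, hE, hHE⟩ := Cfsg.Agent.Lib.UnNot.two_spaces_two hF (by norm_num) (by norm_num) hH hD h
        exact Or.inr (Or.inr (Or.inl (⟨by norm_num, E, hE, hHE⟩)))
      · exact Or.inr (Or.inr (Or.inr (Or.inl (⟨hq, D, hD, h⟩))))
    · omega
    · obtain rfl : k = 1 := by omega
      by_cases hq : q = 3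
      · subst hq
        obtain ⟨R, hsy, hirr, hsim, hR, hc, hHR⟩ := Cfsg.Agent.Lib.UnEx.frame_three hF hD hH h
        exact Or.inr (Or.inr (Or.inr (Or.inr (Or.inr (Or.inr (Or.inr (Or.inr (Or.inl
          (⟨3, R, by norm_num, rfl, by norm_num, hsy, hirr, hsim, hR, hc, hHR⟩)))))))))
      · exact Or.inr (Or.inr (Or.inl (⟨hq, D, hD, h⟩)))
  | c2b k D hk hD hs h =>
    obtain rfl : k = 2 := by omega
    rcases Nat.lt_or_ge q 4 with hq | hq
    · have hrat := Cfsg.Agent.Lib.UnEx.ti_pair_rat2 hF (by omega) hD hs hH.1.le (H := H) (by rw [h]; exact inf_le_left)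
      rcases Cfsg.Agent.Lib.UnEx.rat2_max hF (by norm_num) hH hrat with h1 | h1
      · exact Or.inr (Or.inr (Or.inr (Or.inr (Or.inr (Or.inr (Or.inr (Or.inl h1)))))))
      · exact Or.inr (Or.inr (Or.inr (Or.inr (Or.inr (Or.inr (Or.inl h1))))))
    · exact Or.inr (Or.inr (Or.inr (Or.inr (Or.inl (⟨hq, D, hD, hs, h⟩)))))
  | c3 r K hr hodd hrn hK hadj h =>
    have hrle : r ≤ 4 := Nat.le_of_dvd (by norm_num) hrn
    have hr2 := hr.two_le
    interval_cases r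
    · exact absurd hodd (by decide)
    · exact absurd hrn (by norm_num)
    · exact absurd hr (by norm_num)
  | c4 n₁ n₂ e P f₁ f₂ h2 hlt hn h₁ h₂ hst h =>
    exfalso
    have hn1 : n₁ < 2 := by nlinarith
    omega
  | c5a F₀ r P hr hodd hc hst h => exact Or.inr (Or.inr (Or.inr (Or.inr (Or.inr (Or.inl (⟨F₀, r, P, hr, hodd, hc, hst, h⟩))))))
  | c5b F₀ P hq hc hst h => exact Or.inr (Or.inr (Or.inr (Or.inr (Or.inr (Or.inr (Or.inr (Or.inl (⟨hq, F₀, P, hc, hst, h⟩))))))))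
  | c5c F₀ P ζ hn hc hζ hζq hst halt h => exact Or.inr (Or.inr (Or.inr (Or.inr (Or.inr (Or.inr (Or.inl (⟨F₀, P, ζ, hc, hζ, hζq, hst, halt, h⟩)))))))
  | c6 r R p e k hsy hirr hRG hrp hnk hk hmin hcases h =>
    have hkk := hnk
    obtain rfl : r = 2 := Cfsg.Agent.Lib.AschSmall.eq_of_pow_eq (q := 2) (k := 2) (by norm_num) hsy.prime (by norm_num) hnk (by norm_num)
    obtain rfl : k = 2 := Nat.pow_right_injective (by norm_num : 2 ≤ 2) (show 2 ^ k = 2 ^ 2 from hnk.symm.trans (by norm_num))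
    have hsim : R ≤ Cfsg.Geo.similarityGroup (Cfsg.hermForm 4 F q) := fun g hg => ⟨1, fun u v => by rw [Units.val_one, one_mul]; exact hRG hg u v⟩
    rcases hcases with ⟨hodd, -⟩ | ⟨-, he, hc, hR⟩
    · exact absurd hodd (by decide)
    · rw [hc] at hmin
      obtain ⟨hqp, hp4⟩ := Cfsg.Agent.Lib.UnNot.two_udata hF he hmin
      exact Or.inr (Or.inr (Or.inr (Or.inr (Or.inr (Or.inr (Or.inr (Or.inr (Or.inl (⟨p, R, hmin.1, hqp, hp4, hsy, hirr, hsim, hR.trans (by norm_num), hc, h⟩)))))))))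
  | c7 k t e P f₁ hk ht hkt hex h₁ hst h =>
    exfalso
    have h9 : 3 ^ 2 ≤ k ^ t := (Nat.pow_le_pow_left hk 2).trans (Nat.pow_le_pow_right (by omega) ht)
    omega
  | res h => exact Or.inr (Or.inr (Or.inr (Or.inr (Or.inr (Or.inr (Or.inr (Or.inr (Or.inr (h)))))))))

end Cfsg.Agent.S5784
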