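import Cfsg.Statements.S5787
import Cfsg.Agent.Lib.AschSp15

set_option autoImplicit false
open Cfsg

namespace Cfsg.Agent.S5787

/-- Every maximal subgroup of Sp_4(q), q odd, is of one of the listed geometric types or lies in the residual class. Let F be a finite field of odd order q, f the standard alternating form on F^4 (coordinates Fin 2 ⊕ Fin 2), and H a maximal subgroup of the isometry group Sp_4(F) (inside GL_4(F)). Then H is the intersection with Sp_4(F) of one of: the stabiliser of a non-zero totally isotropic subspace; the stabiliser of a decomposition into two orthogonal non-degenerate 2-spaces; for q ≥ 5, of a decomposition into two totally isotropic 2-spaces; the normaliser of a degree-2 subfield K of the matrix algebra, self-adjoint with f(k v, v) = 0; for q ≥ 5, the normaliser of a degree-2 subfield closed under adjoints but not self-adjoint; a subfield group whose F₀-structure carries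 a non-zero multiple of f, |F| = |F₀|^r with r prime; for q = p prime, the normaliser of an absolutely irreducible symplectic-type 2-group of exponent 4, order 32, centre of order 2 and minus type inside the similarity group of f — or else H lies in the residual class of the symplectic case. -/
theorem result {F : Type*} [Field F] [Fintype F] (hodd : Odd (Fintype.card F)) (H : Subgroup (Matrix.GeneralLinearGroup (Fin 2 ⊕ Fin 2) F)) (hH : Cfsg.Geo.IsMaximalIn (Cfsg.spGL 2 F) H) :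
    (∃ W : Submodule F (Fin 2 ⊕ Fin 2 → F), W ≠ ⊥ ∧ Cfsg.Geo.IsTotallySingularFor (Cfsg.sympForm 2 F) W ∧ H = Cfsg.Geo.subspaceStabilizer W ⊓ Cfsg.spGL 2 F) ∨
    (∃ D : Fin 2 → Submodule F (Fin 2 ⊕ Fin 2 → F), Cfsg.Geo.IsNondegenerateMDecomposition (Cfsg.sympForm 2 F) 2 D ∧ H = Cfsg.Geo.decompositionStabilizer D ⊓ Cfsg.spGL 2 F) ∨
    (5 ≤ Fintype.card F ∧ ∃ D : Fin 2 → Submodule F (Fin 2 ⊕ Fin 2 → F), Cfsg.Geo.IsMDecomposition 2 D ∧ (∀ i, Cfsg.Geo.IsTotallySingularFor (Cfsg.sympForm 2 F) (D i)) ∧ H = Cfsg.Geo.decompositionStabilizer D ⊓ Cfsg.spGL 2 F) ∨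
    (∃ K : Subalgebra F (Matrix (Fin 2 ⊕ Fin 2) (Fin 2 ⊕ Fin 2) F), Cfsg.Geo.IsFieldSubalgebra 2 K ∧ Cfsg.Geo.IsSelfAdjointFor (Cfsg.sympForm 2 F) K ∧ (∀ k ∈ K, ∀ v : (Fin 2 ⊕ Fin 2 → F), (Cfsg.sympForm 2 F) (Matrix.mulVec k v) v = 0) ∧ H = Cfsg.Geo.subalgebraNormalizer K ⊓ Cfsg.spGL 2 F) ∨
    (5 ≤ Fintype.card F ∧ ∃ K : Subalgebra F (Matrix (Fin 2 ⊕ Fin 2) (Fin 2 ⊕ Fin 2) F), Cfsg.Geo.IsFieldSubalgebra 2 K ∧ Cfsg.Geo.IsAdjointClosedFor (Cfsg.sympForm 2 F) K ∧ ¬ Cfsg.Geo.IsSelfAdjointFor (Cfsg.sympForm 2 F) K ∧ H = Cfsg.Geo.subalgebraNormalizer K ⊓ Cfsg.spGL 2 F) ∨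
    (∃ (F₀ : Subfield F) (r : ℕ) (P : Matrix.GeneralLinearGroup (Fin 2 ⊕ Fin 2) F) (ζ : F), r.Prime ∧ Fintype.card F = Nat.card F₀ ^ r ∧ ζ ≠ 0 ∧ Cfsg.Geo.IsFormRationalStructure (Cfsg.sympForm 2 F) F₀ ζ P ∧ H = Cfsg.Geo.subfieldSubgroup F₀ P ⊓ Cfsg.spGL 2 F) ∨
    (∃ (p : ℕ) (R : Subgroup (Matrix.GeneralLinearGroup (Fin 2 ⊕ Fin 2) F)), p.Prime ∧ Fintype.card F = p ∧ Cfsg.Geo.IsSymplecticTypeGroup 2 R ∧ Cfsg.Geo.ActsAbsolutelyIrreducibly (Cfsg.Geo.matrixSet R) ∧ R ≤ Cfsg.Geo.similarityGroup (Cfsg.sympForm 2 F) ∧ Nat.card R = 32 ∧ Nat.card (Subgroup.center R) = 2 ∧ Cfsg.Geo.IsOfMinusType 2 R ∧ H = Cfsg.Geo.subgroupNormalizer R ⊓ Cfsg.spGL 2 F) ∨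
    Cfsg.Geo.InSymplecticResidualClass H := by
  have hI : H ≤ Cfsg.spGL 2 F := hH.1.le
  have hfive : Fintype.card F ≠ 3 → 5 ≤ Fintype.card F := by
    intro h
    have := Fintype.one_lt_card (α := F)
    obtain ⟨j, hj⟩ := hodd
    omega
  have hdec : ∀ {t k : ℕ} {D : Fin t → Submodule F (Fin 2 ⊕ Fin 2 → F)}, Cfsg.Geo.IsNondegenerateMDecomposition (Cfsg.sympForm 2 F) k D →
      H ≤ Cfsg.Geo.decompositionStabilizer D → ∃ D : Fin 2 → Submodule F (Fin 2 ⊕ Fin 2 → F), Cfsg.Geo.IsNondegenerateMDecomposition (Cfsg.sympForm 2 F) 2 D ∧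
        H = Cfsg.Geo.decompositionStabilizer D ⊓ Cfsg.spGL 2 F := by
    intro t k D hD hle
    have hc := Cfsg.Agent.Lib.AschAdj.card_of_decomp hD.decomp
    rw [Fintype.card_sum, Fintype.card_fin] at hc
    have hev := Cfsg.Agent.Lib.AschSp.even_of_nondeg (hD.nondegenerate ⟨0, by have := hD.decomp.two_le; omega⟩)
    rw [hD.decomp.finrank_eq] at hev
    obtain ⟨j, hj⟩ := hev
    have ht := hD.decomp.two_le
    have hj1 : j < 2 := by
      by_contra hcon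
      have : 2 * 4 ≤ t * k := Nat.mul_le_mul ht (by omega)
      omega
    have hj0 : j = 1 := by
      interval_cases j
      · rw [hj] at hc; omega
      · rfl
    subst hj0
    have hk : k = 2 := by omega
    subst hk
    have ht2 : t = 2 := by omega
    subst ht2
    exact ⟨D, hD, Cfsg.Agent.Lib.SLNot.eq_inf_of_maximal hH hle (Cfsg.Agent.Lib.SpNot.not_le_decomposition le_rfl hD.decomp)⟩
  rcases Cfsg.Agent.Lib.AschSp.spMaxl (by norm_num) hH with ⟨W, h0, hs, heq⟩ | ⟨W, h0, hs, hd, heq⟩ | ⟨t, k, D, ht, htk, hk, hq, hD, heq⟩ |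
    ⟨D, hodd, hD, hs, heq⟩ | ⟨r, K, hr, hrm, hK, hsa, hz, heq⟩ | ⟨K, hodd, hK, hac, hns, heq⟩ |
    ⟨n₁, n₂, e, P, f₁, f₂, hodd, h2, h3, hn, hev, hq, hf₁, hf₂, hst, heq⟩ | ⟨F₀, r, P, ζ, hr, hc, hζ, hrs, heq⟩ |
    ⟨R, p, k, hR, habs, hRI, hp, hodd, hc, hcard, hk, hz, hmin, heq⟩ |
    ⟨k, t, e, P, f₁, hodd, ht, h3, hk, hne, hcard, hf₁, hst, heq⟩ | ⟨Q, heven', hQ, hpol, heq⟩ | h
  · exact Or.inl ⟨W, h0, hs, heq⟩
  · exfalso
    have hev := Cfsg.Agent.Lib.AschSp.even_of_nondeg hs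
    obtain ⟨j, hj⟩ := hev
    have : Module.finrank F W = 0 := by omega
    exact h0 (Submodule.finrank_eq_zero.1 this)
  · exact Or.inr (Or.inl (hdec hD (by rw [heq]; exact inf_le_left)))
  · by_cases h3 : Fintype.card F = 3
    · have hle : H ≤ Cfsg.Geo.decompositionStabilizer D := by rw [heq]; exact inf_le_left
      obtain ⟨e, hf, hself⟩ := Cfsg.Agent.Lib.AschSp.ts_pair_three h3 hI hD hs hle
      by_cases hirr : Cfsg.Geo.ActsIrreducibly (Cfsg.Geo.matrixSet H)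
      · have hD := hf.nondeg Cfsg.Agent.Lib.AschSp.rfJ hself hirr
        rw [← Cfsg.Agent.Lib.AschSp.symp_eq] at hD
        exact Or.inr (Or.inl (hdec hD (hf.decomp hirr).2))
      · rcases Cfsg.Agent.Lib.AschSp.red_explicit hI hirr with ⟨W, h0, hs, hle⟩ | ⟨W, h0, hs, hd, hle⟩ | ⟨D, hev, hD, hle⟩
        · exact Or.inl ⟨W, h0, hs, Cfsg.Agent.Lib.SLNot.eq_inf_of_maximal hH hle
            (Cfsg.Agent.Lib.SpNot.not_le_subspace h0 (Cfsg.Agent.Lib.AschSp.ne_top_of_ts (by norm_num) hs))⟩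
        · exfalso
          have hev := Cfsg.Agent.Lib.AschSp.even_of_nondeg hs
          obtain ⟨j, hj⟩ := hev
          have : Module.finrank F W = 0 := by omega
          exact h0 (Submodule.finrank_eq_zero.1 this)
        · exact Or.inr (Or.inl (hdec hD hle))
    · exact Or.inr (Or.inr (Or.inl ⟨hfive h3, D, hD, hs, heq⟩))
  · have hr2 : r = 2 := le_antisymm (Nat.le_of_dvd (by norm_num) hrm) hr.two_le
    subst hr2
    exact Or.inr (Or.inr (Or.inr (Or.inl ⟨K, hK, hsa, hz, heq⟩)))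
  · by_cases h3 : Fintype.card F = 3
    · obtain ⟨i, hiK, hii, hadj, hsp⟩ := Cfsg.Agent.Lib.AschE4.exists_i h3 hK hac hns
      obtain ⟨R, hR, habs, hRI, hcard, hz, hmin, hle⟩ := Cfsg.Agent.Lib.AschE4.unitary_three h3 hI hii hadj
        (Cfsg.Agent.Lib.AschE4.cj_i h3 hiK hii hadj hsp hI (by rw [heq]; exact inf_le_left))
      refine Or.inr (Or.inr (Or.inr (Or.inr (Or.inr (Or.inr (Or.inl ⟨3, R, by norm_num, h3, hR, habs, Cfsg.Agent.Lib.AschSp.similarity_of_sp hRI,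
        hcard, hz, hmin, Cfsg.Agent.Lib.SLNot.eq_inf_of_maximal hH hle (Cfsg.Agent.Lib.SpNot.not_le_normalizer le_rfl hodd hR hRI (by rw [hcard]; norm_num))⟩))))))
    · exact Or.inr (Or.inr (Or.inr (Or.inr (Or.inl ⟨hfive h3, K, hK, hac, hns, heq⟩))))
  · exfalso
    obtain ⟨j, hj⟩ := hev
    have : 2 * 3 ≤ n₁ * n₂ := Nat.mul_le_mul h2 h3
    omega
  · exact Or.inr (Or.inr (Or.inr (Or.inr (Or.inr (Or.inl ⟨F₀, r, P, ζ, hr, hc, hζ, hrs, heq⟩)))))
  · have hk2 : k = 2 := by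
      have hk5 : k < 3 := by
        by_contra h
        have : 2 ^ 3 ≤ 2 ^ k := Nat.pow_le_pow_right (by norm_num) (by omega)
        omega
      interval_cases k <;> omega
    subst hk2
    exact Or.inr (Or.inr (Or.inr (Or.inr (Or.inr (Or.inr (Or.inl ⟨p, R, hp, hc, hR, habs, hRI, hcard, hz, hmin, heq⟩))))))
  · exfalso
    have h5 : 2 ^ 3 ≤ k ^ t := (Nat.pow_le_pow_left hk 3).trans (Nat.pow_le_pow_right (by omega) h3)
    omega
  · exact absurd hodd heven'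
  · exact Or.inr (Or.inr (Or.inr (Or.inr (Or.inr (Or.inr (Or.inr h))))))

end Cfsg.Agent.S5787
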