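import Cfsg.Statements.S5790
import Cfsg.Agent.Lib.AschSp10

set_option autoImplicit false
open Cfsg

namespace Cfsg.Agent.S5790

/-- Every maximal subgroup of Sp_4(q), q ≥ 4 even, is of one of the listed geometric types or lies in the residual class. Let F be a finite field of even order q ≥ 4, f the standard alternating form on F^4 (coordinates Fin 2 ⊕ Fin 2), and H a maximal subgroup of Sp_4(F) (inside GL_4(F)). Then H is the intersection with Sp_4(F) of one of: the stabiliser of a non-zero totally isotropic subspace; the stabiliser of a decomposition into two orthogonal non-degenerate 2-spaces; the normaliser of a degree-2 subfield K of the matrix algebra, self-adjoint with f(k v, v) = 0; a subfield group whose F₀-structure carries a non-zero multiple of f, |F| = |F₀|^r with r prime; the similarity group of a non-degenerate quadratic form whose polar form is f — or else H lies in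 the residual class of the symplectic case. -/
theorem result {F : Type*} [Field F] [Fintype F] (heven : ¬ Odd (Fintype.card F)) (h4 : 4 ≤ Fintype.card F) (H : Subgroup (Matrix.GeneralLinearGroup (Fin 2 ⊕ Fin 2) F)) (hH : Cfsg.Geo.IsMaximalIn (Cfsg.spGL 2 F) H) :
    (∃ W : Submodule F (Fin 2 ⊕ Fin 2 → F), W ≠ ⊥ ∧ Cfsg.Geo.IsTotallySingularFor (Cfsg.sympForm 2 F) W ∧ H = Cfsg.Geo.subspaceStabilizer W ⊓ Cfsg.spGL 2 F) ∨
    (∃ D : Fin 2 → Submodule F (Fin 2 ⊕ Fin 2 → F), Cfsg.Geo.IsNondegenerateMDecomposition (Cfsg.sympForm 2 F) 2 D ∧ H = Cfsg.Geo.decompositionStabilizer D ⊓ Cfsg.spGL 2 F) ∨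
    (∃ K : Subalgebra F (Matrix (Fin 2 ⊕ Fin 2) (Fin 2 ⊕ Fin 2) F), Cfsg.Geo.IsFieldSubalgebra 2 K ∧ Cfsg.Geo.IsSelfAdjointFor (Cfsg.sympForm 2 F) K ∧ (∀ k ∈ K, ∀ v : (Fin 2 ⊕ Fin 2 → F), (Cfsg.sympForm 2 F) (Matrix.mulVec k v) v = 0) ∧ H = Cfsg.Geo.subalgebraNormalizer K ⊓ Cfsg.spGL 2 F) ∨
    (∃ (F₀ : Subfield F) (r : ℕ) (P : Matrix.GeneralLinearGroup (Fin 2 ⊕ Fin 2) F) (ζ : F), r.Prime ∧ Fintype.card F = Nat.card F₀ ^ r ∧ ζ ≠ 0 ∧ Cfsg.Geo.IsFormRationalStructure (Cfsg.sympForm 2 F) F₀ ζ P ∧ H = Cfsg.Geo.subfieldSubgroup F₀ P ⊓ Cfsg.spGL 2 F) ∨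
    (∃ Q : (Fin 2 ⊕ Fin 2 → F) → F, Cfsg.Geo.IsNondegenerateQuadraticForm Q ∧ (∀ u v : (Fin 2 ⊕ Fin 2 → F), QuadraticMap.polar Q u v = (Cfsg.sympForm 2 F) u v) ∧ H = Cfsg.Geo.quadSimilarityGroup Q ⊓ Cfsg.spGL 2 F) ∨
    Cfsg.Geo.InSymplecticResidualClass H := by
  rcases Cfsg.Agent.Lib.AschSp.spMaxl le_rfl hH with ⟨W, h0, hs, heq⟩ | ⟨W, h0, hs, hd, heq⟩ | ⟨t, k, D, ht, htk, hk, hq, hD, heq⟩ |
    ⟨D, hodd, hD, hs, heq⟩ | ⟨r, K, hr, hrm, hK, hsa, hz, heq⟩ | ⟨K, hodd, hK, hac, hns, heq⟩ |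
    ⟨n₁, n₂, e, P, f₁, f₂, hodd, h2, h3, hn, hev, hq, hf₁, hf₂, hst, heq⟩ | ⟨F₀, r, P, ζ, hr, hc, hζ, hrs, heq⟩ |
    ⟨R, p, k, hR, habs, hRI, hp, hodd, hc, hcard, hk, hz, hmin, heq⟩ |
    ⟨k, t, e, P, f₁, hodd, ht, h3, hk, hne, hcard, hf₁, hst, heq⟩ | ⟨Q, heven', hQ, hpol, heq⟩ | h
  · exact Or.inl ⟨W, h0, hs, heq⟩
  · exfalso
    have h1 := Cfsg.Agent.Lib.AschSp.even_of_nondeg hs
    obtain ⟨j, hj⟩ := h1
    exact h0 (Submodule.finrank_eq_zero.1 (by omega))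
  · have hk2 : k = 2 ∧ t = 2 := by
      obtain ⟨j, rfl⟩ := hk
      have hj : j ≠ 0 := by rintro rfl; omega
      have hj1 : 1 ≤ j := Nat.pos_of_ne_zero hj
      have : t * j = 2 := by nlinarith
      constructor
      · nlinarith
      · nlinarith
    obtain ⟨rfl, rfl⟩ := hk2
    exact Or.inr (Or.inl ⟨D, hD, heq⟩)
  · exact absurd hodd heven
  · have hr2 : r = 2 := (Nat.prime_dvd_prime_iff_eq hr Nat.prime_two).1 hrm
    subst hr2
    exact Or.inr (Or.inr (Or.inl ⟨K, hK, hsa, hz, heq⟩))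
  · exact absurd hodd heven
  · exact absurd hodd heven
  · exact Or.inr (Or.inr (Or.inr (Or.inl ⟨F₀, r, P, ζ, hr, hc, hζ, hrs, heq⟩)))
  · exact absurd (by rw [hc]; exact hodd) heven
  · exact absurd hodd heven
  · exact Or.inr (Or.inr (Or.inr (Or.inr (Or.inl ⟨Q, hQ, hpol, heq⟩))))
  · exact Or.inr (Or.inr (Or.inr (Or.inr (Or.inr h))))

end Cfsg.Agent.S5790
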