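import Cfsg.Statements.S5796
import Cfsg.Agent.Lib.UnArith
import Cfsg.Agent.Lib.UnTwo2
import Cfsg.Agent.Lib.UnExM

set_option autoImplicit false
open Cfsg

namespace Cfsg.Agent.S5796

/-- Every maximal subgroup of SU_5(q) is of one of the listed geometric types or lies in the residual class. Let F be the field with q² elements (characteristic p), f the standard unitary form Σ u_i v_i^q on F^5, and H a maximal subgroup of SU_5(q) (inside GL_5(F)). Then H is the intersection with SU_5(q) of one of: the stabiliser of a non-zero totally isotropic subspace; the stabiliser of a non-degenerate 1-space or 2-space; the stabiliser of a decomposition into five mutually orthogonal non-degenerate 1-spaces; for q ≥ 3, the normaliser of an adjoint-closed degree-5 subfield of the matrix algebra; a subfield group of odd prime index whose F₀-structure carries f; for q odd, a subfield group of index 2 whose F₀-structure carries f; for q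 = p ≡ 4 mod 5 or q = p² with p ≡ 2, 3 mod 5, the normaliser of an absolutely irreducible 5-group of exponent 5, order 125 and centre of order 5 with all characteristic abelian subgroups cyclic inside the similarity group of f — or else H lies in the residual class of the unitary case. -/
theorem result {F : Type*} [Field F] [Fintype F] (q : ℕ) (hF : Fintype.card F = q ^ 2) (H : Subgroup (Matrix.GeneralLinearGroup (Fin 5) F)) (hH : Cfsg.Geo.IsMaximalIn (Cfsg.GU 5 F q ⊓ Cfsg.Geo.specialLinear (Fin 5) F) H) :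
    (∃ W : Submodule F (Fin 5 → F), W ≠ ⊥ ∧ Cfsg.Geo.IsTotallySingularFor (Cfsg.hermForm 5 F q) W ∧ H = Cfsg.Geo.subspaceStabilizer W ⊓ (Cfsg.GU 5 F q ⊓ Cfsg.Geo.specialLinear (Fin 5) F)) ∨
    (∃ W : Submodule F (Fin 5 → F), W ≠ ⊥ ∧ Cfsg.Geo.IsNondegenerateOn (Cfsg.hermForm 5 F q) W ∧ 2 * Module.finrank F W < 5 ∧ H = Cfsg.Geo.subspaceStabilizer W ⊓ (Cfsg.GU 5 F q ⊓ Cfsg.Geo.specialLinear (Fin 5) F)) ∨
    (∃ D : Fin 5 → Submodule F (Fin 5 → F), Cfsg.Geo.IsNondegenerateMDecomposition (Cfsg.hermForm 5 F q) 1 D ∧ H = Cfsg.Geo.decompositionStabilizer D ⊓ (Cfsg.GU 5 F q ⊓ Cfsg.Geo.specialLinear (Fin 5) F)) ∨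
    (3 ≤ q ∧ ∃ K : Subalgebra F (Matrix (Fin 5) (Fin 5) F), Cfsg.Geo.IsFieldSubalgebra 5 K ∧ Cfsg.Geo.IsAdjointClosedFor (Cfsg.hermForm 5 F q) K ∧ H = Cfsg.Geo.subalgebraNormalizer K ⊓ (Cfsg.GU 5 F q ⊓ Cfsg.Geo.specialLinear (Fin 5) F)) ∨
    (∃ (F₀ : Subfield F) (r : ℕ) (P : Matrix.GeneralLinearGroup (Fin 5) F), r.Prime ∧ Odd r ∧ Fintype.card F = Nat.card F₀ ^ r ∧ Cfsg.Geo.IsFormRationalStructure (Cfsg.hermForm 5 F q) F₀ 1 P ∧ H = Cfsg.Geo.subfieldSubgroup F₀ P ⊓ (Cfsg.GU 5 F q ⊓ Cfsg.Geo.specialLinear (Fin 5) F)) ∨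
    (Odd q ∧ ∃ (F₀ : Subfield F) (P : Matrix.GeneralLinearGroup (Fin 5) F), Fintype.card F = Nat.card F₀ ^ 2 ∧ Cfsg.Geo.IsFormRationalStructure (Cfsg.hermForm 5 F q) F₀ 1 P ∧ H = Cfsg.Geo.subfieldSubgroup F₀ P ⊓ (Cfsg.GU 5 F q ⊓ Cfsg.Geo.specialLinear (Fin 5) F)) ∨
    (∃ (p : ℕ) (R : Subgroup (Matrix.GeneralLinearGroup (Fin 5) F)), p.Prime ∧ CharP F p ∧ ((q = p ∧ p % 5 = 4) ∨ (q = p ^ 2 ∧ (p % 5 = 2 ∨ p % 5 = 3))) ∧ Cfsg.Geo.IsSymplecticTypeGroup 5 R ∧ Cfsg.Geo.ActsAbsolutelyIrreducibly (Cfsg.Geo.matrixSet R) ∧ R ≤ Cfsg.Geo.similarityGroup (Cfsg.hermForm 5 F q) ∧ Nat.card R = 125 ∧ Nat.card (Subgroup.center R) = 5 ∧ H = Cfsg.Geo.subgroupNormalizer R ⊓ (Cfsg.GU 5 F q ⊓ Cfsg.Geo.specialLinear (Fin 5) F)) ∨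
    Cfsg.Geo.InUnitaryResidualClass H := by
  classical
  have hnn : ¬ (5 = 3 ∧ q = 2) := by omega
  cases Cfsg.Agent.Lib.UnNot.umax hF (by norm_num) hnn hH with
  | c1a W h0 hs h => exact Or.inl (⟨W, h0, hs, h⟩)
  | c1b W h0 hs hd h => exact Or.inr (Or.inl (⟨W, h0, hs, hd, h⟩))
  | c2a t k D htk hD h =>
    have ht2 := hD.decomp.two_le
    have hk0 := hD.decomp.pos
    have htn : t ≤ 5 := by rw [← htk]; exact Nat.le_mul_of_pos_right _ hk0
    interval_cases t
    · omega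
    · omega
    · omega
    · obtain rfl : k = 1 := by omega
      exact Or.inr (Or.inr (Or.inl (⟨D, hD, h⟩)))
  | c2b k D hk hD hs h => omega
  | c3 r K hr hodd hrn hK hadj h =>
    have hrle : r ≤ 5 := Nat.le_of_dvd (by norm_num) hrn
    have hr2 := hr.two_le
    interval_cases r
    · exact absurd hodd (by decide)
    · exact absurd hrn (by norm_num)
    · exact absurd hr (by norm_num)
    · rcases Nat.lt_or_ge q 3 with hq | hq
      · obtain rfl : q = 2 := by have := Cfsg.Agent.Lib.HermMat.two_le_q hF; omega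
        exact (Cfsg.Agent.Lib.UnEx.field_five_not_maximal hF hK hadj hH h).elim
      · exact Or.inr (Or.inr (Or.inr (Or.inl (⟨hq, K, hK, hadj, h⟩))))
  | c4 n₁ n₂ e P f₁ f₂ h2 hlt hn h₁ h₂ hst h =>
    exfalso
    have hn1 : n₁ < 3 := by nlinarith
    interval_cases n₁
    omega
  | c5a F₀ r P hr hodd hc hst h => exact Or.inr (Or.inr (Or.inr (Or.inr (Or.inl (⟨F₀, r, P, hr, hodd, hc, hst, h⟩)))))
  | c5b F₀ P hq hc hst h => exact Or.inr (Or.inr (Or.inr (Or.inr (Or.inr (Or.inl (⟨hq, F₀, P, hc, hst, h⟩))))))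
  | c5c F₀ P ζ hn hc hζ hζq hst halt h => exact absurd hn (by decide)
  | c6 r R p e k hsy hirr hRG hrp hnk hk hmin hcases h =>
    have hkk := hnk
    obtain rfl : r = 5 := Cfsg.Agent.Lib.AschSmall.eq_of_pow_eq (q := 5) (k := 1) (by norm_num) hsy.prime (by norm_num) hnk (by norm_num)
    obtain rfl : k = 1 := Nat.pow_right_injective (by norm_num : 2 ≤ 5) (show 5 ^ k = 5 ^ 1 from hnk.symm.trans (by norm_num))
    have hsim : R ≤ Cfsg.Geo.similarityGroup (Cfsg.hermForm 5 F q) := fun g hg => ⟨1, fun u v => by rw [Units.val_one, one_mul]; exact hRG hg u v⟩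
    rcases hcases with ⟨hodd, hc, hR⟩ | ⟨h2, -⟩
    · rw [hc] at hmin
      have har := Cfsg.Agent.Lib.UnNot.uarith5 hF hrp hmin
      exact Or.inr (Or.inr (Or.inr (Or.inr (Or.inr (Or.inr (Or.inl (⟨p, R, hmin.1, hmin.2.1, har, hsy, hirr, hsim, hR.trans (by norm_num), hc, h⟩)))))))
    · exact absurd h2 (by norm_num)
  | c7 k t e P f₁ hk ht hkt hex h₁ hst h =>
    exfalso
    have h9 : 3 ^ 2 ≤ k ^ t := (Nat.pow_le_pow_left hk 2).trans (Nat.pow_le_pow_right (by omega) ht)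
    omega
  | res h => exact Or.inr (Or.inr (Or.inr (Or.inr (Or.inr (Or.inr (Or.inr (h)))))))

end Cfsg.Agent.S5796
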