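import Cfsg.Statements.S5805
import Cfsg.Agent.Lib.AschSp10

set_option autoImplicit false
open Cfsg

namespace Cfsg.Agent.S5805

/-- Every maximal subgroup of Sp_6(q) is of one of the listed geometric types or lies in the residual class. Let F be a finite field with q elements, f the standard alternating form on F^6 (coordinates Fin 3 ⊕ Fin 3), and H a maximal subgroup of Sp_6(F) (inside GL_6(F)). Then H is the intersection with Sp_6(F) of one of: the stabiliser of a non-zero totally isotropic subspace; the stabiliser of a non-degenerate 2-space; for q ≥ 3, the stabiliser of a decomposition into three mutually orthogonal non-degenerate 2-spaces; for q odd, of a decomposition into two totally isotropic 3-spaces; the normaliser of a degree-3 subfield K of the matrix algebra, self-adjoint with f(k v, v) = 0; for q odd, the normaliser of a degree-2 subfield closed under adjoints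 but not self-adjoint; for q odd, q ≥ 5, the stabiliser of a tensor decomposition of f into an alternating form on F^2 and a symmetric form on F^3; a subfield group (|F| = |F₀|^r, r prime) whose F₀-structure carries a non-zero multiple of f; for q even, the similarity group of a non-degenerate quadratic form polarising to f — or else H lies in the residual class of the symplectic case. -/
theorem result {F : Type*} [Field F] [Fintype F] (H : Subgroup (Matrix.GeneralLinearGroup (Fin 3 ⊕ Fin 3) F)) (hH : Cfsg.Geo.IsMaximalIn (Cfsg.spGL 3 F) H) :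
    (∃ W : Submodule F (Fin 3 ⊕ Fin 3 → F), W ≠ ⊥ ∧ Cfsg.Geo.IsTotallySingularFor (Cfsg.sympForm 3 F) W ∧ H = Cfsg.Geo.subspaceStabilizer W ⊓ Cfsg.spGL 3 F) ∨
    (∃ W : Submodule F (Fin 3 ⊕ Fin 3 → F), W ≠ ⊥ ∧ Cfsg.Geo.IsNondegenerateOn (Cfsg.sympForm 3 F) W ∧ Module.finrank F W < 3 ∧ H = Cfsg.Geo.subspaceStabilizer W ⊓ Cfsg.spGL 3 F) ∨
    (3 ≤ Fintype.card F ∧ ∃ D : Fin 3 → Submodule F (Fin 3 ⊕ Fin 3 → F), Cfsg.Geo.IsNondegenerateMDecomposition (Cfsg.sympForm 3 F) 2 D ∧ H = Cfsg.Geo.decompositionStabilizer D ⊓ Cfsg.spGL 3 F) ∨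
    (Odd (Fintype.card F) ∧ ∃ D : Fin 2 → Submodule F (Fin 3 ⊕ Fin 3 → F), Cfsg.Geo.IsMDecomposition 3 D ∧ (∀ i, Cfsg.Geo.IsTotallySingularFor (Cfsg.sympForm 3 F) (D i)) ∧ H = Cfsg.Geo.decompositionStabilizer D ⊓ Cfsg.spGL 3 F) ∨
    (∃ K : Subalgebra F (Matrix (Fin 3 ⊕ Fin 3) (Fin 3 ⊕ Fin 3) F), Cfsg.Geo.IsFieldSubalgebra 3 K ∧ Cfsg.Geo.IsSelfAdjointFor (Cfsg.sympForm 3 F) K ∧ (∀ k ∈ K, ∀ v : (Fin 3 ⊕ Fin 3 → F), (Cfsg.sympForm 3 F) (Matrix.mulVec k v) v = 0) ∧ H = Cfsg.Geo.subalgebraNormalizer K ⊓ Cfsg.spGL 3 F) ∨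
    (Odd (Fintype.card F) ∧ ∃ K : Subalgebra F (Matrix (Fin 3 ⊕ Fin 3) (Fin 3 ⊕ Fin 3) F), Cfsg.Geo.IsFieldSubalgebra 2 K ∧ Cfsg.Geo.IsAdjointClosedFor (Cfsg.sympForm 3 F) K ∧ ¬ Cfsg.Geo.IsSelfAdjointFor (Cfsg.sympForm 3 F) K ∧ H = Cfsg.Geo.subalgebraNormalizer K ⊓ Cfsg.spGL 3 F) ∨
    (Odd (Fintype.card F) ∧ 5 ≤ Fintype.card F ∧ ∃ (e : (Fin 3 ⊕ Fin 3) ≃ Fin 2 × Fin 3) (P : Matrix.GeneralLinearGroup (Fin 3 ⊕ Fin 3) F) (f₁ : (Fin 2 → F) → (Fin 2 → F) → F) (f₂ : (Fin 3 → F) → (Fin 3 → F) → F), Cfsg.Geo.IsSymplecticForm f₁ ∧ Cfsg.Geo.IsSymmetricForm f₂ ∧ Cfsg.Geo.IsTensorFormStructure id (Cfsg.sympForm 3 F) f₁ f₂ e P ∧ H = Cfsg.Geo.tensorProductSubgroup 2 3 e P ⊓ Cfsg.spGL 3 F) ∨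
    (∃ (F₀ : Subfield F) (r : ℕ) (P : Matrix.GeneralLinearGroup (Fin 3 ⊕ Fin 3) F) (ζ : F), r.Prime ∧ Fintype.card F = Nat.card F₀ ^ r ∧ ζ ≠ 0 ∧ Cfsg.Geo.IsFormRationalStructure (Cfsg.sympForm 3 F) F₀ ζ P ∧ H = Cfsg.Geo.subfieldSubgroup F₀ P ⊓ Cfsg.spGL 3 F) ∨
    (¬ Odd (Fintype.card F) ∧ ∃ Q : (Fin 3 ⊕ Fin 3 → F) → F, Cfsg.Geo.IsNondegenerateQuadraticForm Q ∧ (∀ u v : (Fin 3 ⊕ Fin 3 → F), QuadraticMap.polar Q u v = (Cfsg.sympForm 3 F) u v) ∧ H = Cfsg.Geo.quadSimilarityGroup Q ⊓ Cfsg.spGL 3 F) ∨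
    Cfsg.Geo.InSymplecticResidualClass H := by
  rcases Cfsg.Agent.Lib.AschSp.spMaxl (by norm_num) hH with ⟨W, h0, hs, heq⟩ | ⟨W, h0, hs, hd, heq⟩ | ⟨t, k, D, ht, htk, hk, hq, hD, heq⟩ |
    ⟨D, hodd, hD, hs, heq⟩ | ⟨r, K, hr, hrm, hK, hsa, hz, heq⟩ | ⟨K, hodd, hK, hac, hns, heq⟩ |
    ⟨n₁, n₂, e, P, f₁, f₂, hodd, h2, h3, hn, hev, hq, hf₁, hf₂, hst, heq⟩ | ⟨F₀, r, P, ζ, hr, hc, hζ, hrs, heq⟩ |
    ⟨R, p, k, hR, habs, hRI, hp, hodd, hc, hcard, hk, hz, hmin, heq⟩ |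
    ⟨k, t, e, P, f₁, hodd, ht, h3, hk, hne, hcard, hf₁, hst, heq⟩ | ⟨Q, heven', hQ, hpol, heq⟩ | h
  · exact Or.inl (⟨W, h0, hs, heq⟩)
  · exact Or.inr (Or.inl (⟨W, h0, hs, hd, heq⟩))
  · have hk0 : k ∣ 6 := ⟨t, by rw [mul_comm, htk]⟩
    have hk1 : k ≤ 6 := Nat.le_of_dvd (by norm_num) hk0
    have hcase : (t = 3 ∧ k = 2) := by
      obtain ⟨j, hj⟩ := hk
      interval_cases k <;> omega
    rcases hcase with ⟨rfl, rfl⟩
    · exact Or.inr (Or.inr (Or.inl (⟨hq rfl, D, hD, heq⟩)))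
  · exact Or.inr (Or.inr (Or.inr (Or.inl (⟨hodd, D, hD, hs, heq⟩))))
  · have hr1 : r ≤ 3 := Nat.le_of_dvd (by norm_num) hrm
    have hcase : r = 3 := by
      have := hr.two_le
      interval_cases r <;> first | omega | (exfalso; revert hr; decide)
    rcases hcase with rfl
    · exact Or.inr (Or.inr (Or.inr (Or.inr (Or.inl (⟨K, hK, hsa, hz, heq⟩)))))
  · exact Or.inr (Or.inr (Or.inr (Or.inr (Or.inr (Or.inl (⟨hodd, K, hK, hac, hns, heq⟩))))))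
  · have hk0 : n₁ ∣ 6 := ⟨n₂, hn.symm⟩
    have hk1 : n₁ ≤ 6 := Nat.le_of_dvd (by norm_num) hk0
    have hcase : (n₁ = 2 ∧ n₂ = 3) := by
      obtain ⟨j, hj⟩ := hev
      interval_cases n₁ <;> omega
    rcases hcase with ⟨rfl, rfl⟩
    · exact Or.inr (Or.inr (Or.inr (Or.inr (Or.inr (Or.inr (Or.inl (⟨hodd, hq rfl, e, P, f₁, f₂, hf₁, hf₂, hst, heq⟩)))))))
  · exact Or.inr (Or.inr (Or.inr (Or.inr (Or.inr (Or.inr (Or.inr (Or.inl (⟨F₀, r, P, ζ, hr, hc, hζ, hrs, heq⟩))))))))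
  · exfalso
    have hk5 : k < 5 := by
      by_contra h
      have : 2 ^ 5 ≤ 2 ^ k := Nat.pow_le_pow_right (by norm_num) (by omega)
      omega
    interval_cases k <;> omega
  · exfalso
    have ht3 : t < 4 := by
      by_contra h
      have h4 : 4 ≤ t := by omega
      have h5 : 2 ^ 4 ≤ k ^ t := (Nat.pow_le_pow_left hk 4).trans (Nat.pow_le_pow_right (by omega) h4)
      omega
    have ht' : t = 3 := by omega
    subst ht'
    have hk3 : k < 3 := by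
      by_contra h
      have h5 : 3 ^ 3 ≤ k ^ 3 := Nat.pow_le_pow_left (by omega) 3
      omega
    have : k = 2 := by omega
    subst this
    omega
  · exact Or.inr (Or.inr (Or.inr (Or.inr (Or.inr (Or.inr (Or.inr (Or.inr (Or.inl (⟨heven', Q, hQ, hpol, heq⟩)))))))))
  · exact Or.inr (Or.inr (Or.inr (Or.inr (Or.inr (Or.inr (Or.inr (Or.inr (Or.inr (h)))))))))

end Cfsg.Agent.S5805
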