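import Cfsg.Statements.S5811
import Cfsg.Agent.Lib.UnArith

set_option autoImplicit false
open Cfsg

namespace Cfsg.Agent.S5811

/-- Every maximal subgroup of SU_7(q) is of one of the listed geometric types or lies in the residual class. Let F be the field with q² elements (characteristic p), f the standard unitary form Σ u_i v_i^q on F^7, and H a maximal subgroup of SU_7(q) (inside GL_7(F)). Then H is the intersection with SU_7(q) of one of: the stabiliser of a non-zero totally isotropic subspace; the stabiliser of a non-degenerate 1-, 2- or 3-space; the stabiliser of a decomposition into seven mutually orthogonal non-degenerate 1-spaces; the normaliser of an adjoint-closed degree-7 subfield of the matrix algebra; a subfield group of odd prime index whose F₀-structure carries f; for q odd, a subfield group of index 2 whose F₀-structure carries f; for q = p prime with p ≡ 6 mod 7, or q = p³ with p ≡ 3 or 5 mod 7, the normaliser of an absolutely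 irreducible 7-group R of exponent 7, order 343 and centre of order 7, all of whose characteristic abelian subgroups are cyclic, contained in the similarity group of f — or else H lies in the residual class of the unitary case (modulo scalars H is almost simple, with absolutely irreducible perfect socle preimage realisable over no proper subfield and fixing no non-degenerate quadratic or symplectic form). -/
theorem result {F : Type*} [Field F] [Fintype F] (q : ℕ) (hF : Fintype.card F = q ^ 2) (H : Subgroup (Matrix.GeneralLinearGroup (Fin 7) F)) (hH : Cfsg.Geo.IsMaximalIn (Cfsg.GU 7 F q ⊓ Cfsg.Geo.specialLinear (Fin 7) F) H) :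
    (∃ W : Submodule F (Fin 7 → F), W ≠ ⊥ ∧ Cfsg.Geo.IsTotallySingularFor (Cfsg.hermForm 7 F q) W ∧ H = Cfsg.Geo.subspaceStabilizer W ⊓ (Cfsg.GU 7 F q ⊓ Cfsg.Geo.specialLinear (Fin 7) F)) ∨
    (∃ W : Submodule F (Fin 7 → F), W ≠ ⊥ ∧ Cfsg.Geo.IsNondegenerateOn (Cfsg.hermForm 7 F q) W ∧ 2 * Module.finrank F W < 7 ∧ H = Cfsg.Geo.subspaceStabilizer W ⊓ (Cfsg.GU 7 F q ⊓ Cfsg.Geo.specialLinear (Fin 7) F)) ∨
    (∃ D : Fin 7 → Submodule F (Fin 7 → F), Cfsg.Geo.IsNondegenerateMDecomposition (Cfsg.hermForm 7 F q) 1 D ∧ H = Cfsg.Geo.decompositionStabilizer D ⊓ (Cfsg.GU 7 F q ⊓ Cfsg.Geo.specialLinear (Fin 7) F)) ∨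
    (∃ K : Subalgebra F (Matrix (Fin 7) (Fin 7) F), Cfsg.Geo.IsFieldSubalgebra 7 K ∧ Cfsg.Geo.IsAdjointClosedFor (Cfsg.hermForm 7 F q) K ∧ H = Cfsg.Geo.subalgebraNormalizer K ⊓ (Cfsg.GU 7 F q ⊓ Cfsg.Geo.specialLinear (Fin 7) F)) ∨
    (∃ (F₀ : Subfield F) (r : ℕ) (P : Matrix.GeneralLinearGroup (Fin 7) F), r.Prime ∧ Odd r ∧ Fintype.card F = Nat.card F₀ ^ r ∧ Cfsg.Geo.IsFormRationalStructure (Cfsg.hermForm 7 F q) F₀ 1 P ∧ H = Cfsg.Geo.subfieldSubgroup F₀ P ⊓ (Cfsg.GU 7 F q ⊓ Cfsg.Geo.specialLinear (Fin 7) F)) ∨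
    (Odd q ∧ ∃ (F₀ : Subfield F) (P : Matrix.GeneralLinearGroup (Fin 7) F), Fintype.card F = Nat.card F₀ ^ 2 ∧ Cfsg.Geo.IsFormRationalStructure (Cfsg.hermForm 7 F q) F₀ 1 P ∧ H = Cfsg.Geo.subfieldSubgroup F₀ P ⊓ (Cfsg.GU 7 F q ⊓ Cfsg.Geo.specialLinear (Fin 7) F)) ∨
    (∃ (p : ℕ) (R : Subgroup (Matrix.GeneralLinearGroup (Fin 7) F)), p.Prime ∧ CharP F p ∧ ((q = p ∧ p % 7 = 6) ∨ (q = p ^ 3 ∧ (p % 7 = 3 ∨ p % 7 = 5))) ∧ Cfsg.Geo.IsSymplecticTypeGroup 7 R ∧ Cfsg.Geo.ActsAbsolutelyIrreducibly (Cfsg.Geo.matrixSet R) ∧ R ≤ Cfsg.Geo.similarityGroup (Cfsg.hermForm 7 F q) ∧ Nat.card R = 343 ∧ Nat.card (Subgroup.center R) = 7 ∧ H = Cfsg.Geo.subgroupNormalizer R ⊓ (Cfsg.GU 7 F q ⊓ Cfsg.Geo.specialLinear (Fin 7) F)) ∨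
    Cfsg.Geo.InUnitaryResidualClass H := by
  classical
  have hnn : ¬ (7 = 3 ∧ q = 2) := by omega
  cases Cfsg.Agent.Lib.UnNot.umax hF (by norm_num) hnn hH with
  | c1a W h0 hs h => exact Or.inl (⟨W, h0, hs, h⟩)
  | c1b W h0 hs hd h => exact Or.inr (Or.inl (⟨W, h0, hs, hd, h⟩))
  | c2a t k D htk hD h =>
    have ht2 := hD.decomp.two_le
    have hk0 := hD.decomp.pos
    have htn : t ≤ 7 := by rw [← htk]; exact Nat.le_mul_of_pos_right _ hk0
    interval_cases t
    · omega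
    · omega
    · omega
    · omega
    · omega
    · obtain rfl : k = 1 := by omega
      exact Or.inr (Or.inr (Or.inl (⟨D, hD, h⟩)))
  | c2b k D hk hD hs h => omega
  | c3 r K hr hodd hrn hK hadj h =>
    have hrle : r ≤ 7 := Nat.le_of_dvd (by norm_num) hrn
    have hr2 := hr.two_le
    interval_cases r
    · exact absurd hrn (by norm_num)
    · exact absurd hrn (by norm_num)
    · exact absurd hrn (by norm_num)
    · exact absurd hrn (by norm_num)
    · exact absurd hrn (by norm_num)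
    · exact Or.inr (Or.inr (Or.inr (Or.inl (⟨K, hK, hadj, h⟩))))
  | c4 n₁ n₂ e P f₁ f₂ h2 hlt hn h₁ h₂ hst h =>
    have hn1 : n₁ < 3 := by nlinarith
    interval_cases n₁
    · omega
  | c5a F₀ r P hr hodd hc hst h => exact Or.inr (Or.inr (Or.inr (Or.inr (Or.inl (⟨F₀, r, P, hr, hodd, hc, hst, h⟩)))))
  | c5b F₀ P hq hc hst h => exact Or.inr (Or.inr (Or.inr (Or.inr (Or.inr (Or.inl (⟨hq, F₀, P, hc, hst, h⟩))))))
  | c5c F₀ P ζ hn hc hζ hζq hst halt h => exact absurd hn (by decide)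
  | c6 r R p e k hsy hirr hRG hrp hnk hk hmin hcases h =>
    have hkk := hnk
    obtain rfl : r = 7 := Cfsg.Agent.Lib.AschSmall.eq_of_pow_eq (q := 7) (k := 1) (by norm_num) hsy.prime (by norm_num) hnk (by norm_num)
    obtain rfl : k = 1 := Nat.pow_right_injective (by norm_num : 2 ≤ 7) (show 7 ^ k = 7 ^ 1 from hnk.symm.trans (by norm_num))
    have hsim : R ≤ Cfsg.Geo.similarityGroup (Cfsg.hermForm 7 F q) := fun g hg => ⟨1, fun u v => by rw [Units.val_one, one_mul]; exact hRG hg u v⟩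
    rcases hcases with ⟨-, hc, hR⟩ | ⟨h2, -⟩
    · rw [hc] at hmin
      exact Or.inr (Or.inr (Or.inr (Or.inr (Or.inr (Or.inr (Or.inl (⟨p, R, hmin.1, hmin.2.1, Cfsg.Agent.Lib.UnNot.uarith7 hF hrp hmin, hsy, hirr, hsim, hR.trans (by norm_num), hc, h⟩)))))))
    · exact absurd h2 (by norm_num)
  | c7 k t e P f₁ hk ht hkt hex h₁ hst h =>
    obtain ⟨rfl, rfl⟩ := Cfsg.Agent.Lib.AschSmall.wreath_small hk ht hkt.symm (by norm_num)
    omega
  | res h => exact Or.inr (Or.inr (Or.inr (Or.inr (Or.inr (Or.inr (Or.inr (h)))))))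

end Cfsg.Agent.S5811
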