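import Cfsg.Statements.S5829
import Cfsg.Agent.Lib.AschSmall

set_option autoImplicit false
open Cfsg

namespace Cfsg.Agent.S5829

/-- Every maximal subgroup of SL_9(q) is of one of the listed geometric types or lies in the residual class. Let F be a finite field with q elements (p its characteristic) and H a maximal subgroup of SL_9(F) (inside GL_9(F)). Then H is the intersection with SL_9(F) of one of: the stabiliser of a proper non-zero subspace; for q ≥ 5, the stabiliser of a decomposition into 9 independent 1-spaces; the stabiliser of a decomposition into 3 independent 3-spaces; the normaliser of a degree-3 subfield of the matrix algebra; a subfield group for a subfield F₀ with |F| = |F₀|^r, r prime; for q = p prime with p ≡ 1 mod 3, the normaliser of an absolutely irreducible 3-subgroup R of exponent 3 and order 3^(1+2m) with centre of order 3, all of whose characteristic abelian subgroups are cyclic, F being the smallest field of characteristic p containing the cube roots of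 unity (here R is extraspecial of order 3^5); the stabiliser of a tensor decomposition into 2 factors of dimension 3; for q odd, the similarity group of a non-degenerate quadratic form; the similarity group of a non-degenerate unitary form — or else H lies in the residual class of the linear case (modulo scalars H is almost simple, with absolutely irreducible perfect socle preimage realisable over no proper subfield and fixing no non-degenerate quadratic, symplectic or unitary form). -/
theorem result {F : Type*} [Field F] [Fintype F] (H : Subgroup (Matrix.GeneralLinearGroup (Fin 9) F)) (hH : Cfsg.Geo.IsMaximalIn (Cfsg.Geo.specialLinear (Fin 9) F) H) :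
    (∃ W : Submodule F (Fin 9 → F), W ≠ ⊥ ∧ W ≠ ⊤ ∧ H = Cfsg.Geo.subspaceStabilizer W ⊓ Cfsg.Geo.specialLinear (Fin 9) F) ∨
    (5 ≤ Fintype.card F ∧ ∃ D : Fin 9 → Submodule F (Fin 9 → F), Cfsg.Geo.IsMDecomposition 1 D ∧ H = Cfsg.Geo.decompositionStabilizer D ⊓ Cfsg.Geo.specialLinear (Fin 9) F) ∨
    (∃ D : Fin 3 → Submodule F (Fin 9 → F), Cfsg.Geo.IsMDecomposition 3 D ∧ H = Cfsg.Geo.decompositionStabilizer D ⊓ Cfsg.Geo.specialLinear (Fin 9) F) ∨
    (∃ K : Subalgebra F (Matrix (Fin 9) (Fin 9) F), Cfsg.Geo.IsFieldSubalgebra 3 K ∧ H = Cfsg.Geo.subalgebraNormalizer K ⊓ Cfsg.Geo.specialLinear (Fin 9) F) ∨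
    (∃ (F₀ : Subfield F) (r : ℕ) (P : Matrix.GeneralLinearGroup (Fin 9) F), r.Prime ∧ Fintype.card F = Nat.card F₀ ^ r ∧ H = Cfsg.Geo.subfieldSubgroup F₀ P ⊓ Cfsg.Geo.specialLinear (Fin 9) F) ∨
    ((∃ p : ℕ, p.Prime ∧ Fintype.card F = p ∧ (p % 3 = 1)) ∧ ∃ R : Subgroup (Matrix.GeneralLinearGroup (Fin 9) F), Cfsg.Geo.IsLinearSymplecticTypeData 3 R ∧ H = Cfsg.Geo.subgroupNormalizer R ⊓ Cfsg.Geo.specialLinear (Fin 9) F) ∨
    (∃ (e : Fin 9 ≃ (Fin 2 → Fin 3)) (P : Matrix.GeneralLinearGroup (Fin 9) F), H = Cfsg.Geo.tensorWreathSubgroup 3 2 e P ⊓ Cfsg.Geo.specialLinear (Fin 9) F) ∨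
    (Odd (Fintype.card F) ∧ ∃ Q : (Fin 9 → F) → F, Cfsg.Geo.IsNondegenerateQuadraticForm Q ∧ H = Cfsg.Geo.quadSimilarityGroup Q ⊓ Cfsg.Geo.specialLinear (Fin 9) F) ∨
    (∃ (σ : F ≃+* F) (f : (Fin 9 → F) → (Fin 9 → F) → F), Cfsg.Geo.IsUnitaryForm σ f ∧ H = Cfsg.Geo.similarityGroup f ⊓ Cfsg.Geo.specialLinear (Fin 9) F) ∨
    Cfsg.Geo.InLinearResidualClass H := by
  classical
  have hι : 3 ≤ Fintype.card (Fin 9) := by simp
  cases Cfsg.Agent.Lib.AschLinMax.linMax hι hH with
  | reducible W hb ht h => exact Or.inl (⟨W, hb, ht, h⟩)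
  | imprimitive t m D hD h =>
    have hle : H ≤ Cfsg.Geo.decompositionStabilizer D := h.le.trans inf_le_left
    have hc : 9 = t * m := by simpa using Cfsg.Agent.Lib.AschLinMax.card_eq_mul hD
    have ht2 := hD.two_le
    have hm0 := hD.pos
    have htn : t ≤ 9 := by rw [hc]; exact Nat.le_mul_of_pos_right _ hm0
    interval_cases t
    · omega
    · obtain rfl : m = 3 := by omega
      exact Or.inr (Or.inr (Or.inl (⟨D, hD, h⟩)))
    · omega
    · omega
    · omega
    · omega
    · omega
    · obtain rfl : m = 1 := by omega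
      rcases Cfsg.Agent.Lib.AschLinMax.lines hι hH hD hle with h5 | ⟨W, hb, ht, hW⟩ | ⟨hodd, Q, hQ, hHQ⟩ | ⟨σ, f, hf, hHf⟩
      · exact Or.inr (Or.inl (⟨h5, D, hD, h⟩))
      · exact Or.inl (⟨W, hb, ht, hW⟩)
      · exact Or.inr (Or.inr (Or.inr (Or.inr (Or.inr (Or.inr (Or.inr (Or.inl (⟨hodd, Q, hQ, hHQ⟩))))))))
      · exact Or.inr (Or.inr (Or.inr (Or.inr (Or.inr (Or.inr (Or.inr (Or.inr (Or.inl (⟨σ, f, hf, hHf⟩)))))))))
  | field r K hr hrn hK h =>
    have hrn' : r ∣ 9 := by simpa using hrn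
    have hrle : r ≤ 9 := Nat.le_of_dvd (by norm_num) hrn'
    have hr2 := hr.two_le
    interval_cases r
    · exact absurd hrn' (by norm_num)
    · exact Or.inr (Or.inr (Or.inr (Or.inl (⟨K, hK, h⟩))))
    · exact absurd hrn' (by norm_num)
    · exact absurd hrn' (by norm_num)
    · exact absurd hrn' (by norm_num)
    · exact absurd hrn' (by norm_num)
    · exact absurd hrn' (by norm_num)
    · exact absurd hr (by norm_num)
  | tensor n₁ n₂ e P h1 h2 h =>
    have hc : 9 = n₁ * n₂ := by simpa using Fintype.card_congr e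
    have hn1 : n₁ < 4 := by nlinarith
    interval_cases n₁
    · omega
    · omega
  | subfield F₀ r P hr hc h => exact Or.inr (Or.inr (Or.inr (Or.inr (Or.inl (⟨F₀, r, P, hr, hc, h⟩)))))
  | symplecticType r m R hm hR h =>
    have hm' : 9 = r ^ m := by simpa using hm
    obtain rfl : r = 3 := Cfsg.Agent.Lib.AschSmall.eq_of_pow_eq (q := 3) (k := 2) (by norm_num) hR.symplecticType.prime (by norm_num) hm' (by norm_num)
    exact Or.inr (Or.inr (Or.inr (Or.inr (Or.inr (Or.inl (⟨Cfsg.Agent.Lib.AschSmall.arith3 hR, R, hR, h⟩))))))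
  | tensorWreath m t e P hm ht h =>
    have hc : 9 = m ^ t := by simpa using Fintype.card_congr e
    obtain ⟨rfl, rfl⟩ := Cfsg.Agent.Lib.AschSmall.wreath_small hm ht hc (by norm_num)
    exact Or.inr (Or.inr (Or.inr (Or.inr (Or.inr (Or.inr (Or.inl (⟨e, P, h⟩)))))))
  | symplectic f hf h =>
    have he := Cfsg.Agent.Lib.AschForm2.even_of_symplectic hf
    rw [Fintype.card_fin] at he
    exact absurd he (by decide)
  | unitary σ f hf h => exact Or.inr (Or.inr (Or.inr (Or.inr (Or.inr (Or.inr (Or.inr (Or.inr (Or.inl (⟨σ, f, hf, h⟩)))))))))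
  | quadratic Q hQ hodd h => exact Or.inr (Or.inr (Or.inr (Or.inr (Or.inr (Or.inr (Or.inr (Or.inl (⟨hodd, Q, hQ, h⟩))))))))
  | residual h => exact Or.inr (Or.inr (Or.inr (Or.inr (Or.inr (Or.inr (Or.inr (Or.inr (Or.inr (h)))))))))

end Cfsg.Agent.S5829
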