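import Cfsg.Statements.S5832
import Cfsg.Agent.Lib.UnArith

set_option autoImplicit false
open Cfsg

namespace Cfsg.Agent.S5832

/-- Every maximal subgroup of SU_9(q) is of one of the listed geometric types or lies in the residual class. Let F be the field with q² elements, f the standard unitary form Σ u_i v_i^q on F^9, and H a maximal subgroup of SU_9(q) (inside GL_9(F)). Then H is the intersection with SU_9(q) of one of: the stabiliser of a non-zero totally isotropic subspace; the stabiliser of a non-degenerate 1-, 2-, 3- or 4-space; the stabiliser of a decomposition into nine mutually orthogonal non-degenerate 1-spaces; of a decomposition into three mutually orthogonal non-degenerate 3-spaces; the normaliser of an adjoint-closed degree-3 subfield of the matrix algebra; a subfield group of odd prime index whose F₀-structure carries f; for q odd, a subfield group of index 2 whose F₀-structure carries f; for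 q = p ≡ 2 mod 3 prime, the normaliser of an absolutely irreducible extraspecial group 3_+^(1+4) of exponent 3 inside the similarity group of f; for q ≥ 3, the stabiliser of a tensor decomposition of f as a tensor square of a unitary form on F^3 — or else H lies in the residual class of the unitary case. -/
theorem result {F : Type*} [Field F] [Fintype F] (q : ℕ) (hF : Fintype.card F = q ^ 2) (H : Subgroup (Matrix.GeneralLinearGroup (Fin 9) F)) (hH : Cfsg.Geo.IsMaximalIn (Cfsg.GU 9 F q ⊓ Cfsg.Geo.specialLinear (Fin 9) F) H) :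
    (∃ W : Submodule F (Fin 9 → F), W ≠ ⊥ ∧ Cfsg.Geo.IsTotallySingularFor (Cfsg.hermForm 9 F q) W ∧ H = Cfsg.Geo.subspaceStabilizer W ⊓ (Cfsg.GU 9 F q ⊓ Cfsg.Geo.specialLinear (Fin 9) F)) ∨
    (∃ W : Submodule F (Fin 9 → F), W ≠ ⊥ ∧ Cfsg.Geo.IsNondegenerateOn (Cfsg.hermForm 9 F q) W ∧ 2 * Module.finrank F W < 9 ∧ H = Cfsg.Geo.subspaceStabilizer W ⊓ (Cfsg.GU 9 F q ⊓ Cfsg.Geo.specialLinear (Fin 9) F)) ∨
    (∃ D : Fin 9 → Submodule F (Fin 9 → F), Cfsg.Geo.IsNondegenerateMDecomposition (Cfsg.hermForm 9 F q) 1 D ∧ H = Cfsg.Geo.decompositionStabilizer D ⊓ (Cfsg.GU 9 F q ⊓ Cfsg.Geo.specialLinear (Fin 9) F)) ∨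
    (∃ D : Fin 3 → Submodule F (Fin 9 → F), Cfsg.Geo.IsNondegenerateMDecomposition (Cfsg.hermForm 9 F q) 3 D ∧ H = Cfsg.Geo.decompositionStabilizer D ⊓ (Cfsg.GU 9 F q ⊓ Cfsg.Geo.specialLinear (Fin 9) F)) ∨
    (∃ K : Subalgebra F (Matrix (Fin 9) (Fin 9) F), Cfsg.Geo.IsFieldSubalgebra 3 K ∧ Cfsg.Geo.IsAdjointClosedFor (Cfsg.hermForm 9 F q) K ∧ H = Cfsg.Geo.subalgebraNormalizer K ⊓ (Cfsg.GU 9 F q ⊓ Cfsg.Geo.specialLinear (Fin 9) F)) ∨
    (∃ (F₀ : Subfield F) (r : ℕ) (P : Matrix.GeneralLinearGroup (Fin 9) F), r.Prime ∧ Odd r ∧ Fintype.card F = Nat.card F₀ ^ r ∧ Cfsg.Geo.IsFormRationalStructure (Cfsg.hermForm 9 F q) F₀ 1 P ∧ H = Cfsg.Geo.subfieldSubgroup F₀ P ⊓ (Cfsg.GU 9 F q ⊓ Cfsg.Geo.specialLinear (Fin 9) F)) ∨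
    (Odd q ∧ ∃ (F₀ : Subfield F) (P : Matrix.GeneralLinearGroup (Fin 9) F), Fintype.card F = Nat.card F₀ ^ 2 ∧ Cfsg.Geo.IsFormRationalStructure (Cfsg.hermForm 9 F q) F₀ 1 P ∧ H = Cfsg.Geo.subfieldSubgroup F₀ P ⊓ (Cfsg.GU 9 F q ⊓ Cfsg.Geo.specialLinear (Fin 9) F)) ∨
    (∃ (p : ℕ) (R : Subgroup (Matrix.GeneralLinearGroup (Fin 9) F)), p.Prime ∧ q = p ∧ p % 3 = 2 ∧ Cfsg.Geo.IsSymplecticTypeGroup 3 R ∧ Cfsg.Geo.ActsAbsolutelyIrreducibly (Cfsg.Geo.matrixSet R) ∧ R ≤ Cfsg.Geo.similarityGroup (Cfsg.hermForm 9 F q) ∧ Nat.card R = 243 ∧ Nat.card (Subgroup.center R) = 3 ∧ H = Cfsg.Geo.subgroupNormalizer R ⊓ (Cfsg.GU 9 F q ⊓ Cfsg.Geo.specialLinear (Fin 9) F)) ∨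
    (3 ≤ q ∧ ∃ (e : Fin 9 ≃ (Fin 2 → Fin 3)) (P : Matrix.GeneralLinearGroup (Fin 9) F) (f₁ : (Fin 3 → F) → (Fin 3 → F) → F), Cfsg.Geo.IsUnitaryFormPow q f₁ ∧ Cfsg.Geo.IsTensorPowerFormStructure (fun x : F => x ^ q) (Cfsg.hermForm 9 F q) f₁ e P ∧ H = Cfsg.Geo.tensorWreathSubgroup 3 2 e P ⊓ (Cfsg.GU 9 F q ⊓ Cfsg.Geo.specialLinear (Fin 9) F)) ∨
    Cfsg.Geo.InUnitaryResidualClass H := by
  classical
  have hnn : ¬ (9 = 3 ∧ q = 2) := by omega
  cases Cfsg.Agent.Lib.UnNot.umax hF (by norm_num) hnn hH with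
  | c1a W h0 hs h => exact Or.inl (⟨W, h0, hs, h⟩)
  | c1b W h0 hs hd h => exact Or.inr (Or.inl (⟨W, h0, hs, hd, h⟩))
  | c2a t k D htk hD h =>
    have ht2 := hD.decomp.two_le
    have hk0 := hD.decomp.pos
    have htn : t ≤ 9 := by rw [← htk]; exact Nat.le_mul_of_pos_right _ hk0
    interval_cases t
    · omega
    · obtain rfl : k = 3 := by omega
      exact Or.inr (Or.inr (Or.inr (Or.inl (⟨D, hD, h⟩))))
    · omega
    · omega
    · omega
    · omega
    · omega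
    · obtain rfl : k = 1 := by omega
      exact Or.inr (Or.inr (Or.inl (⟨D, hD, h⟩)))
  | c2b k D hk hD hs h => omega
  | c3 r K hr hodd hrn hK hadj h =>
    have hrle : r ≤ 9 := Nat.le_of_dvd (by norm_num) hrn
    have hr2 := hr.two_le
    interval_cases r
    · exact absurd hrn (by norm_num)
    · exact Or.inr (Or.inr (Or.inr (Or.inr (Or.inl (⟨K, hK, hadj, h⟩)))))
    · exact absurd hrn (by norm_num)
    · exact absurd hrn (by norm_num)
    · exact absurd hrn (by norm_num)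
    · exact absurd hrn (by norm_num)
    · exact absurd hrn (by norm_num)
    · exact absurd hr (by norm_num)
  | c4 n₁ n₂ e P f₁ f₂ h2 hlt hn h₁ h₂ hst h =>
    have hn1 : n₁ < 3 := by nlinarith
    interval_cases n₁
    · omega
  | c5a F₀ r P hr hodd hc hst h => exact Or.inr (Or.inr (Or.inr (Or.inr (Or.inr (Or.inl (⟨F₀, r, P, hr, hodd, hc, hst, h⟩))))))
  | c5b F₀ P hq hc hst h => exact Or.inr (Or.inr (Or.inr (Or.inr (Or.inr (Or.inr (Or.inl (⟨hq, F₀, P, hc, hst, h⟩)))))))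
  | c5c F₀ P ζ hn hc hζ hζq hst halt h => exact absurd hn (by decide)
  | c6 r R p e k hsy hirr hRG hrp hnk hk hmin hcases h =>
    have hkk := hnk
    obtain rfl : r = 3 := Cfsg.Agent.Lib.AschSmall.eq_of_pow_eq (q := 3) (k := 2) (by norm_num) hsy.prime (by norm_num) hnk (by norm_num)
    obtain rfl : k = 2 := Nat.pow_right_injective (by norm_num : 2 ≤ 3) (show 3 ^ k = 3 ^ 2 from hnk.symm.trans (by norm_num))
    have hsim : R ≤ Cfsg.Geo.similarityGroup (Cfsg.hermForm 9 F q) := fun g hg => ⟨1, fun u v => by rw [Units.val_one, one_mul]; exact hRG hg u v⟩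
    rcases hcases with ⟨-, hc, hR⟩ | ⟨h2, -⟩
    · rw [hc] at hmin
      obtain ⟨hqp, hp3⟩ := Cfsg.Agent.Lib.UnNot.uarith3 hF hrp hmin
      exact Or.inr (Or.inr (Or.inr (Or.inr (Or.inr (Or.inr (Or.inr (Or.inl (⟨p, R, hmin.1, hqp, hp3, hsy, hirr, hsim, hR.trans (by norm_num), hc, h⟩))))))))
    · exact absurd h2 (by norm_num)
  | c7 k t e P f₁ hk ht hkt hex h₁ hst h =>
    obtain ⟨rfl, rfl⟩ := Cfsg.Agent.Lib.AschSmall.wreath_small hk ht hkt.symm (by norm_num)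
    have hq2 := Cfsg.Agent.Lib.HermMat.two_le_q hF
    exact Or.inr (Or.inr (Or.inr (Or.inr (Or.inr (Or.inr (Or.inr (Or.inr (Or.inl (⟨by omega, e, P, f₁, h₁, hst, h⟩)))))))))
  | res h => exact Or.inr (Or.inr (Or.inr (Or.inr (Or.inr (Or.inr (Or.inr (Or.inr (Or.inr (h)))))))))

end Cfsg.Agent.S5832
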