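import Cfsg.Statements.S5838
import Cfsg.Agent.Lib.AschSmall

set_option autoImplicit false
open Cfsg

namespace Cfsg.Agent.S5838

/-- Every maximal subgroup of SL_10(q) is of one of the listed geometric types or lies in the residual class. Let F be a finite field with q elements (p its characteristic) and H a maximal subgroup of SL_10(F) (inside GL_10(F)). Then H is the intersection with SL_10(F) of one of: the stabiliser of a proper non-zero subspace; for q ≥ 5, the stabiliser of a decomposition into 10 independent 1-spaces; for q ≥ 3, the stabiliser of a decomposition into 5 independent 2-spaces; the stabiliser of a decomposition into 2 independent 5-spaces; the normaliser of a degree-5 subfield of the matrix algebra; the normaliser of a degree-2 subfield of the matrix algebra; for q ≥ 3, the stabiliser of a tensor decomposition F^2 ⊗ F^5; a subfield group for a subfield F₀ with |F| = |F₀|^r, r prime; for q odd, the similarity group of a non-degenerate quadratic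 form; the similarity group of a non-degenerate symplectic form; the similarity group of a non-degenerate unitary form — or else H lies in the residual class of the linear case (modulo scalars H is almost simple, with absolutely irreducible perfect socle preimage realisable over no proper subfield and fixing no non-degenerate quadratic, symplectic or unitary form). -/
theorem result {F : Type*} [Field F] [Fintype F] (H : Subgroup (Matrix.GeneralLinearGroup (Fin 10) F)) (hH : Cfsg.Geo.IsMaximalIn (Cfsg.Geo.specialLinear (Fin 10) F) H) :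
    (∃ W : Submodule F (Fin 10 → F), W ≠ ⊥ ∧ W ≠ ⊤ ∧ H = Cfsg.Geo.subspaceStabilizer W ⊓ Cfsg.Geo.specialLinear (Fin 10) F) ∨
    (5 ≤ Fintype.card F ∧ ∃ D : Fin 10 → Submodule F (Fin 10 → F), Cfsg.Geo.IsMDecomposition 1 D ∧ H = Cfsg.Geo.decompositionStabilizer D ⊓ Cfsg.Geo.specialLinear (Fin 10) F) ∨
    (3 ≤ Fintype.card F ∧ ∃ D : Fin 5 → Submodule F (Fin 10 → F), Cfsg.Geo.IsMDecomposition 2 D ∧ H = Cfsg.Geo.decompositionStabilizer D ⊓ Cfsg.Geo.specialLinear (Fin 10) F) ∨
    (∃ D : Fin 2 → Submodule F (Fin 10 → F), Cfsg.Geo.IsMDecomposition 5 D ∧ H = Cfsg.Geo.decompositionStabilizer D ⊓ Cfsg.Geo.specialLinear (Fin 10) F) ∨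
    (∃ K : Subalgebra F (Matrix (Fin 10) (Fin 10) F), Cfsg.Geo.IsFieldSubalgebra 5 K ∧ H = Cfsg.Geo.subalgebraNormalizer K ⊓ Cfsg.Geo.specialLinear (Fin 10) F) ∨
    (∃ K : Subalgebra F (Matrix (Fin 10) (Fin 10) F), Cfsg.Geo.IsFieldSubalgebra 2 K ∧ H = Cfsg.Geo.subalgebraNormalizer K ⊓ Cfsg.Geo.specialLinear (Fin 10) F) ∨
    (3 ≤ Fintype.card F ∧ ∃ (e : Fin 10 ≃ Fin 2 × Fin 5) (P : Matrix.GeneralLinearGroup (Fin 10) F), H = Cfsg.Geo.tensorProductSubgroup 2 5 e P ⊓ Cfsg.Geo.specialLinear (Fin 10) F) ∨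
    (∃ (F₀ : Subfield F) (r : ℕ) (P : Matrix.GeneralLinearGroup (Fin 10) F), r.Prime ∧ Fintype.card F = Nat.card F₀ ^ r ∧ H = Cfsg.Geo.subfieldSubgroup F₀ P ⊓ Cfsg.Geo.specialLinear (Fin 10) F) ∨
    (Odd (Fintype.card F) ∧ ∃ Q : (Fin 10 → F) → F, Cfsg.Geo.IsNondegenerateQuadraticForm Q ∧ H = Cfsg.Geo.quadSimilarityGroup Q ⊓ Cfsg.Geo.specialLinear (Fin 10) F) ∨
    (∃ f : (Fin 10 → F) → (Fin 10 → F) → F, Cfsg.Geo.IsSymplecticForm f ∧ H = Cfsg.Geo.similarityGroup f ⊓ Cfsg.Geo.specialLinear (Fin 10) F) ∨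
    (∃ (σ : F ≃+* F) (f : (Fin 10 → F) → (Fin 10 → F) → F), Cfsg.Geo.IsUnitaryForm σ f ∧ H = Cfsg.Geo.similarityGroup f ⊓ Cfsg.Geo.specialLinear (Fin 10) F) ∨
    Cfsg.Geo.InLinearResidualClass H := by
  classical
  have hι : 3 ≤ Fintype.card (Fin 10) := by simp
  cases Cfsg.Agent.Lib.AschLinMax.linMax hι hH with
  | reducible W hb ht h => exact Or.inl (⟨W, hb, ht, h⟩)
  | imprimitive t m D hD h =>
    have hle : H ≤ Cfsg.Geo.decompositionStabilizer D := h.le.trans inf_le_left
    have hc : 10 = t * m := by simpa using Cfsg.Agent.Lib.AschLinMax.card_eq_mul hD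
    have ht2 := hD.two_le
    have hm0 := hD.pos
    have htn : t ≤ 10 := by rw [hc]; exact Nat.le_mul_of_pos_right _ hm0
    interval_cases t
    · obtain rfl : m = 5 := by omega
      exact Or.inr (Or.inr (Or.inr (Or.inl (⟨D, hD, h⟩))))
    · omega
    · omega
    · obtain rfl : m = 2 := by omega
      rcases Cfsg.Agent.Lib.AschSmall.planes_two hι hH hD hle with h3 | ⟨f, hf, hHf⟩
      · exact Or.inr (Or.inr (Or.inl (⟨h3, D, hD, h⟩)))
      · exact Or.inr (Or.inr (Or.inr (Or.inr (Or.inr (Or.inr (Or.inr (Or.inr (Or.inr (Or.inl (⟨f, hf, hHf⟩))))))))))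
    · omega
    · omega
    · omega
    · omega
    · obtain rfl : m = 1 := by omega
      rcases Cfsg.Agent.Lib.AschLinMax.lines hι hH hD hle with h5 | ⟨W, hb, ht, hW⟩ | ⟨hodd, Q, hQ, hHQ⟩ | ⟨σ, f, hf, hHf⟩
      · exact Or.inr (Or.inl (⟨h5, D, hD, h⟩))
      · exact Or.inl (⟨W, hb, ht, hW⟩)
      · exact Or.inr (Or.inr (Or.inr (Or.inr (Or.inr (Or.inr (Or.inr (Or.inr (Or.inl (⟨hodd, Q, hQ, hHQ⟩)))))))))
      · exact Or.inr (Or.inr (Or.inr (Or.inr (Or.inr (Or.inr (Or.inr (Or.inr (Or.inr (Or.inr (Or.inl (⟨σ, f, hf, hHf⟩)))))))))))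
  | field r K hr hrn hK h =>
    have hrn' : r ∣ 10 := by simpa using hrn
    have hrle : r ≤ 10 := Nat.le_of_dvd (by norm_num) hrn'
    have hr2 := hr.two_le
    interval_cases r
    · exact Or.inr (Or.inr (Or.inr (Or.inr (Or.inr (Or.inl (⟨K, hK, h⟩))))))
    · exact absurd hrn' (by norm_num)
    · exact absurd hrn' (by norm_num)
    · exact Or.inr (Or.inr (Or.inr (Or.inr (Or.inl (⟨K, hK, h⟩)))))
    · exact absurd hrn' (by norm_num)
    · exact absurd hrn' (by norm_num)
    · exact absurd hrn' (by norm_num)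
    · exact absurd hrn' (by norm_num)
    · exact absurd hr (by norm_num)
  | tensor n₁ n₂ e P h1 h2 h =>
    have hc : 10 = n₁ * n₂ := by simpa using Fintype.card_congr e
    have hn1 : n₁ < 4 := by nlinarith
    interval_cases n₁
    · obtain rfl : n₂ = 5 := by omega
      rcases Cfsg.Agent.Lib.AschSmall.tensor_two hι hH (h.le.trans inf_le_left) with h3 | ⟨K, hK, hHK⟩
      · exact Or.inr (Or.inr (Or.inr (Or.inr (Or.inr (Or.inr (Or.inl (⟨h3, e, P, h⟩)))))))
      · exact Or.inr (Or.inr (Or.inr (Or.inr (Or.inr (Or.inl (⟨K, hK, hHK⟩))))))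
    · omega
  | subfield F₀ r P hr hc h => exact Or.inr (Or.inr (Or.inr (Or.inr (Or.inr (Or.inr (Or.inr (Or.inl (⟨F₀, r, P, hr, hc, h⟩))))))))
  | symplecticType r m R hm hR h =>
    have hm' : 10 = r ^ m := by simpa using hm
    exact (Cfsg.Agent.Lib.AschSmall.false_of_two_primes (q₁ := 2) (q₂ := 5) hR.symplecticType.prime hm' (by norm_num) (by norm_num) (by norm_num) (by norm_num) (by norm_num)).elim
  | tensorWreath m t e P hm ht h =>
    have hc : 10 = m ^ t := by simpa using Fintype.card_congr e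
    obtain ⟨rfl, rfl⟩ := Cfsg.Agent.Lib.AschSmall.wreath_small hm ht hc (by norm_num)
    exact absurd hc (by norm_num)
  | symplectic f hf h => exact Or.inr (Or.inr (Or.inr (Or.inr (Or.inr (Or.inr (Or.inr (Or.inr (Or.inr (Or.inl (⟨f, hf, h⟩))))))))))
  | unitary σ f hf h => exact Or.inr (Or.inr (Or.inr (Or.inr (Or.inr (Or.inr (Or.inr (Or.inr (Or.inr (Or.inr (Or.inl (⟨σ, f, hf, h⟩)))))))))))
  | quadratic Q hQ hodd h => exact Or.inr (Or.inr (Or.inr (Or.inr (Or.inr (Or.inr (Or.inr (Or.inr (Or.inl (⟨hodd, Q, hQ, h⟩)))))))))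
  | residual h => exact Or.inr (Or.inr (Or.inr (Or.inr (Or.inr (Or.inr (Or.inr (Or.inr (Or.inr (Or.inr (Or.inr (h)))))))))))

end Cfsg.Agent.S5838
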