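import Cfsg.Statements.S5841
import Cfsg.Agent.Lib.UnArith
import Cfsg.Agent.Lib.UnTwo2

set_option autoImplicit false
open Cfsg

namespace Cfsg.Agent.S5841

/-- Every maximal subgroup of SU_10(q) is of one of the listed geometric types or lies in the residual class. Let F be the field with q² elements (characteristic p), f the standard unitary form Σ u_i v_i^q on F^10, and H a maximal subgroup of SU_10(q) (inside GL_10(F)). Then H is the intersection with SU_10(q) of one of: the stabiliser of a non-zero totally isotropic subspace; the stabiliser of a non-zero non-degenerate subspace W with 2 dim W < 10; the stabiliser of a decomposition into 10 mutually orthogonal non-degenerate 1-spaces; for q ≥ 3, the stabiliser of a decomposition into 5 mutually orthogonal non-degenerate 2-spaces; the stabiliser of a decomposition into 2 mutually orthogonal non-degenerate 5-spaces; of a decomposition into two totally isotropic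 5-spaces; the normaliser of an adjoint-closed degree-5 subfield of the matrix algebra; for q ≥ 3, the stabiliser of a tensor decomposition of f into unitary forms on F^2 and F^5; a subfield group of odd prime index whose F₀-structure carries f; a subfield group of index 2 and symplectic type; for q odd, a subfield group of index 2 whose F₀-structure carries f — or else H lies in the residual class of the unitary case (modulo scalars H is almost simple, with absolutely irreducible perfect socle preimage realisable over no proper subfield and fixing no non-degenerate quadratic or symplectic form). -/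
theorem result {F : Type*} [Field F] [Fintype F] (q : ℕ) (hF : Fintype.card F = q ^ 2) (H : Subgroup (Matrix.GeneralLinearGroup (Fin 10) F)) (hH : Cfsg.Geo.IsMaximalIn (Cfsg.GU 10 F q ⊓ Cfsg.Geo.specialLinear (Fin 10) F) H) :
    (∃ W : Submodule F (Fin 10 → F), W ≠ ⊥ ∧ Cfsg.Geo.IsTotallySingularFor (Cfsg.hermForm 10 F q) W ∧ H = Cfsg.Geo.subspaceStabilizer W ⊓ (Cfsg.GU 10 F q ⊓ Cfsg.Geo.specialLinear (Fin 10) F)) ∨
    (∃ W : Submodule F (Fin 10 → F), W ≠ ⊥ ∧ Cfsg.Geo.IsNondegenerateOn (Cfsg.hermForm 10 F q) W ∧ 2 * Module.finrank F W < 10 ∧ H = Cfsg.Geo.subspaceStabilizer W ⊓ (Cfsg.GU 10 F q ⊓ Cfsg.Geo.specialLinear (Fin 10) F)) ∨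
    (∃ D : Fin 10 → Submodule F (Fin 10 → F), Cfsg.Geo.IsNondegenerateMDecomposition (Cfsg.hermForm 10 F q) 1 D ∧ H = Cfsg.Geo.decompositionStabilizer D ⊓ (Cfsg.GU 10 F q ⊓ Cfsg.Geo.specialLinear (Fin 10) F)) ∨
    (3 ≤ q ∧ ∃ D : Fin 5 → Submodule F (Fin 10 → F), Cfsg.Geo.IsNondegenerateMDecomposition (Cfsg.hermForm 10 F q) 2 D ∧ H = Cfsg.Geo.decompositionStabilizer D ⊓ (Cfsg.GU 10 F q ⊓ Cfsg.Geo.specialLinear (Fin 10) F)) ∨
    (∃ D : Fin 2 → Submodule F (Fin 10 → F), Cfsg.Geo.IsNondegenerateMDecomposition (Cfsg.hermForm 10 F q) 5 D ∧ H = Cfsg.Geo.decompositionStabilizer D ⊓ (Cfsg.GU 10 F q ⊓ Cfsg.Geo.specialLinear (Fin 10) F)) ∨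
    (∃ D : Fin 2 → Submodule F (Fin 10 → F), Cfsg.Geo.IsMDecomposition 5 D ∧ (∀ i, Cfsg.Geo.IsTotallySingularFor (Cfsg.hermForm 10 F q) (D i)) ∧ H = Cfsg.Geo.decompositionStabilizer D ⊓ (Cfsg.GU 10 F q ⊓ Cfsg.Geo.specialLinear (Fin 10) F)) ∨
    (∃ K : Subalgebra F (Matrix (Fin 10) (Fin 10) F), Cfsg.Geo.IsFieldSubalgebra 5 K ∧ Cfsg.Geo.IsAdjointClosedFor (Cfsg.hermForm 10 F q) K ∧ H = Cfsg.Geo.subalgebraNormalizer K ⊓ (Cfsg.GU 10 F q ⊓ Cfsg.Geo.specialLinear (Fin 10) F)) ∨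
    (3 ≤ q ∧ ∃ (e : Fin 10 ≃ Fin 2 × Fin 5) (P : Matrix.GeneralLinearGroup (Fin 10) F) (f₁ : (Fin 2 → F) → (Fin 2 → F) → F) (f₂ : (Fin 5 → F) → (Fin 5 → F) → F), Cfsg.Geo.IsUnitaryFormPow q f₁ ∧ Cfsg.Geo.IsUnitaryFormPow q f₂ ∧ Cfsg.Geo.IsTensorFormStructure (fun x : F => x ^ q) (Cfsg.hermForm 10 F q) f₁ f₂ e P ∧ H = Cfsg.Geo.tensorProductSubgroup 2 5 e P ⊓ (Cfsg.GU 10 F q ⊓ Cfsg.Geo.specialLinear (Fin 10) F)) ∨
    (∃ (F₀ : Subfield F) (r : ℕ) (P : Matrix.GeneralLinearGroup (Fin 10) F), r.Prime ∧ Odd r ∧ Fintype.card F = Nat.card F₀ ^ r ∧ Cfsg.Geo.IsFormRationalStructure (Cfsg.hermForm 10 F q) F₀ 1 P ∧ H = Cfsg.Geo.subfieldSubgroup F₀ P ⊓ (Cfsg.GU 10 F q ⊓ Cfsg.Geo.specialLinear (Fin 10) F)) ∨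
    (∃ (F₀ : Subfield F) (P : Matrix.GeneralLinearGroup (Fin 10) F) (ζ : F), Fintype.card F = Nat.card F₀ ^ 2 ∧ ζ ≠ 0 ∧ ζ + ζ ^ q = 0 ∧ Cfsg.Geo.IsFormRationalStructure (Cfsg.hermForm 10 F q) F₀ ζ P ∧ (∀ u : Fin 10 → F, (∀ i, u i ∈ F₀) → (Cfsg.hermForm 10 F q) (Matrix.mulVec (P : Matrix (Fin 10) (Fin 10) F) u) (Matrix.mulVec (P : Matrix (Fin 10) (Fin 10) F) u) = 0) ∧ H = Cfsg.Geo.subfieldSubgroup F₀ P ⊓ (Cfsg.GU 10 F q ⊓ Cfsg.Geo.specialLinear (Fin 10) F)) ∨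
    (Odd q ∧ ∃ (F₀ : Subfield F) (P : Matrix.GeneralLinearGroup (Fin 10) F), Fintype.card F = Nat.card F₀ ^ 2 ∧ Cfsg.Geo.IsFormRationalStructure (Cfsg.hermForm 10 F q) F₀ 1 P ∧ H = Cfsg.Geo.subfieldSubgroup F₀ P ⊓ (Cfsg.GU 10 F q ⊓ Cfsg.Geo.specialLinear (Fin 10) F)) ∨
    Cfsg.Geo.InUnitaryResidualClass H := by
  classical
  have hnn : ¬ (10 = 3 ∧ q = 2) := by omega
  cases Cfsg.Agent.Lib.UnNot.umax hF (by norm_num) hnn hH with
  | c1a W h0 hs h => exact Or.inl (⟨W, h0, hs, h⟩)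
  | c1b W h0 hs hd h => exact Or.inr (Or.inl (⟨W, h0, hs, hd, h⟩))
  | c2a t k D htk hD h =>
    have ht2 := hD.decomp.two_le
    have hk0 := hD.decomp.pos
    have htn : t ≤ 10 := by rw [← htk]; exact Nat.le_mul_of_pos_right _ hk0
    interval_cases t
    · obtain rfl : k = 5 := by omega
      exact Or.inr (Or.inr (Or.inr (Or.inr (Or.inl (⟨D, hD, h⟩)))))
    · omega
    · omega
    · obtain rfl : k = 2 := by omega
      rcases Nat.lt_or_ge q 3 with hq | hq
      · obtain rfl : q = 2 := by have := Cfsg.Agent.Lib.HermMat.two_le_q hF; omega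
        obtain ⟨E, hE, hHE⟩ := Cfsg.Agent.Lib.UnNot.two_spaces_two hF (by norm_num) (by norm_num) hH hD h
        exact Or.inr (Or.inr (Or.inl (⟨E, hE, hHE⟩)))
      · exact Or.inr (Or.inr (Or.inr (Or.inl (⟨hq, D, hD, h⟩))))
    · omega
    · omega
    · omega
    · omega
    · obtain rfl : k = 1 := by omega
      exact Or.inr (Or.inr (Or.inl (⟨D, hD, h⟩)))
  | c2b k D hk hD hs h =>
    obtain rfl : k = 5 := by omega
    exact Or.inr (Or.inr (Or.inr (Or.inr (Or.inr (Or.inl (⟨D, hD, hs, h⟩))))))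
  | c3 r K hr hodd hrn hK hadj h =>
    have hrle : r ≤ 10 := Nat.le_of_dvd (by norm_num) hrn
    have hr2 := hr.two_le
    interval_cases r
    · exact absurd hodd (by decide)
    · exact absurd hrn (by norm_num)
    · exact absurd hrn (by norm_num)
    · exact Or.inr (Or.inr (Or.inr (Or.inr (Or.inr (Or.inr (Or.inl (⟨K, hK, hadj, h⟩)))))))
    · exact absurd hrn (by norm_num)
    · exact absurd hrn (by norm_num)
    · exact absurd hrn (by norm_num)
    · exact absurd hrn (by norm_num)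
    · exact absurd hr (by norm_num)
  | c4 n₁ n₂ e P f₁ f₂ h2 hlt hn h₁ h₂ hst h =>
    have hn1 : n₁ < 3 := by nlinarith
    interval_cases n₁
    · obtain rfl : n₂ = 5 := by omega
      rcases Nat.lt_or_ge q 3 with hq | hq
      · obtain rfl : q = 2 := by have := Cfsg.Agent.Lib.HermMat.two_le_q hF; omega
        obtain ⟨E, hE, hHE⟩ := Cfsg.Agent.Lib.UnNot.tensor_two_two hF (by norm_num) (by norm_num) hH h₁ h₂ hst h
        exact Or.inr (Or.inr (Or.inr (Or.inr (Or.inl (⟨E, hE, hHE⟩)))))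
      · exact Or.inr (Or.inr (Or.inr (Or.inr (Or.inr (Or.inr (Or.inr (Or.inl (⟨hq, e, P, f₁, f₂, h₁, h₂, hst, h⟩))))))))
  | c5a F₀ r P hr hodd hc hst h => exact Or.inr (Or.inr (Or.inr (Or.inr (Or.inr (Or.inr (Or.inr (Or.inr (Or.inl (⟨F₀, r, P, hr, hodd, hc, hst, h⟩)))))))))
  | c5b F₀ P hq hc hst h => exact Or.inr (Or.inr (Or.inr (Or.inr (Or.inr (Or.inr (Or.inr (Or.inr (Or.inr (Or.inr (Or.inl (⟨hq, F₀, P, hc, hst, h⟩)))))))))))
  | c5c F₀ P ζ hn hc hζ hζq hst halt h => exact Or.inr (Or.inr (Or.inr (Or.inr (Or.inr (Or.inr (Or.inr (Or.inr (Or.inr (Or.inl (⟨F₀, P, ζ, hc, hζ, hζq, hst, halt, h⟩))))))))))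
  | c6 r R p e k hsy hirr hRG hrp hnk hk hmin hcases h =>
    exact (Cfsg.Agent.Lib.AschSmall.false_of_two_primes (q₁ := 2) (q₂ := 5) hsy.prime hnk (by norm_num) (by norm_num) (by norm_num) (by norm_num) (by norm_num)).elim
  | c7 k t e P f₁ hk ht hkt hex h₁ hst h =>
    obtain ⟨rfl, rfl⟩ := Cfsg.Agent.Lib.AschSmall.wreath_small hk ht hkt.symm (by norm_num)
    omega
  | res h => exact Or.inr (Or.inr (Or.inr (Or.inr (Or.inr (Or.inr (Or.inr (Or.inr (Or.inr (Or.inr (Or.inr (h)))))))))))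

end Cfsg.Agent.S5841
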