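import Cfsg.Statements.S5858
import Cfsg.Agent.Lib.LowOrBridge
import Cfsg.Agent.Lib.Rf13

set_option autoImplicit false
open Cfsg

namespace Cfsg.Agent.S5858

open Cfsg.Agent.Lib.Quad Cfsg.Agent.Lib.OrthBridge Cfsg.Agent.Lib.OrthNdBridge Cfsg.Agent.Lib.OrthNd
  Cfsg.Agent.Lib.GeoBridge Cfsg.Agent.Lib.LowOrBridge

/-- Maximal subgroups of Ω_11(q) of geometric type, q odd. Let F be a finite field of odd order q, Q the standard quadratic form x₀² + Σ x_i y_i on F^11 (coordinates Unit ⊕ (Fin 5 ⊕ Fin 5)), and Ω = Ω_11(q) the commutator subgroup of its isometry group, inside GL_11(F). Each of the following, intersected with Ω, is a maximal subgroup of Ω: (1) the stabiliser of any non-zero subspace on which Q vanishes identically (totally singular 1- to 5-spaces); (2) the stabiliser of any non-zero even-dimensional subspace W (dimension 2 to 10) on which the polar form of Q is non-degenerate (equivalently of its odd-dimensional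 orthogonal complement), except when q = 3 and W is a 2-space containing a non-zero singular vector (a plus-type plane); (3) for q = p prime, the stabiliser of any decomposition of F^11 into eleven pairwise orthogonal, pairwise Q-isometric non-degenerate 1-spaces; (4) every subfield group for a subfield F₀ with |F| = |F₀|^r, r prime, whose F₀-structure carries Q. -/
theorem result {F : Type*} [Field F] [Fintype F] (hodd : Odd (Fintype.card F)) :
    (∀ W : Submodule F (Unit ⊕ (Fin 5 ⊕ Fin 5) → F), W ≠ ⊥ → Cfsg.Geo.IsTotallySingularQuad (Cfsg.quadFormOdd 5 F) W → Cfsg.Geo.IsMaximalIn (Cfsg.Geo.omegaGL (Cfsg.quadFormOdd 5 F)) (Cfsg.Geo.subspaceStabilizer W ⊓ Cfsg.Geo.omegaGL (Cfsg.quadFormOdd 5 F))) ∧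
    (∀ W : Submodule F (Unit ⊕ (Fin 5 ⊕ Fin 5) → F), W ≠ ⊥ → Even (Module.finrank F W) → Cfsg.Geo.IsNondegenerateOn (QuadraticMap.polar (Cfsg.quadFormOdd 5 F)) W → ¬ (Fintype.card F = 3 ∧ Module.finrank F W = 2 ∧ Cfsg.Geo.IsPlusTypeOn (Cfsg.quadFormOdd 5 F) W) → Cfsg.Geo.IsMaximalIn (Cfsg.Geo.omegaGL (Cfsg.quadFormOdd 5 F)) (Cfsg.Geo.subspaceStabilizer W ⊓ Cfsg.Geo.omegaGL (Cfsg.quadFormOdd 5 F))) ∧
    ((Fintype.card F).Prime → ∀ D : Fin 11 → Submodule F (Unit ⊕ (Fin 5 ⊕ Fin 5) → F), Cfsg.Geo.IsOrthogonalMDecomposition (Cfsg.quadFormOdd 5 F) 1 D → Cfsg.Geo.IsMaximalIn (Cfsg.Geo.omegaGL (Cfsg.quadFormOdd 5 F)) (Cfsg.Geo.decompositionStabilizer D ⊓ Cfsg.Geo.omegaGL (Cfsg.quadFormOdd 5 F))) ∧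
    (∀ (F₀ : Subfield F) (r : ℕ) (P : Matrix.GeneralLinearGroup (Unit ⊕ (Fin 5 ⊕ Fin 5)) F), r.Prime → Fintype.card F = Nat.card F₀ ^ r → Cfsg.Geo.IsQuadFormRationalStructure (Cfsg.quadFormOdd 5 F) F₀ P → Cfsg.Geo.IsMaximalIn (Cfsg.Geo.omegaGL (Cfsg.quadFormOdd 5 F)) (Cfsg.Geo.subfieldSubgroup F₀ P ⊓ Cfsg.Geo.omegaGL (Cfsg.quadFormOdd 5 F))) := by
  have h2 : (2 : F) ≠ 0 := two_ne_zero_of_odd rfl hodd
  have hfr : Module.finrank F (Unit ⊕ (Fin 5 ⊕ Fin 5) → F) = 11 := finrank_odd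
  have ho : Odd (Module.finrank F (Unit ⊕ (Fin 5 ⊕ Fin 5) → F)) := ⟨5, hfr⟩
  have hQ : Nd (quadOdd 5 F) := nd_quadOdd h2
  refine ⟨?_, ?_, ?_, ?_⟩
  · intro W hW0 hW
    rw [← coe_quadOdd] at hW ⊢
    refine Om_ts_max hQ (by omega) hW0 hW ?_
    intro C _ _ h
    omega
  · intro W hW0 hev hW hex
    refine Om_nd_even (Q := quadOdd 5 F) hQ h2 (by omega) ho hW0 hev (nds_of_nondeg hW) ?_
    intro hW2
    by_contra hcon
    push Not at hcon
    obtain ⟨h4, w, hw, hQw, hw0⟩ := hcon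
    rw [Nat.card_eq_fintype_card] at h4
    have hc : 1 < Fintype.card F := Fintype.one_lt_card
    obtain ⟨r, hr⟩ := hodd
    refine hex ⟨by omega, hW2, plus_of_not (Q := quadOdd 5 F) hW2 ?_⟩
    intro hc
    exact hw0 (hc w hw hQw)
  · intro hp D hD
    exact Cfsg.Agent.Lib.Rf.lines_bridge (Q := quadOdd 5 F) hQ hp h2 (by omega) ho hD
  · intro F₀ r P hr hcard hP
    exact subf_odd (by simp only [Fintype.card_sum, Fintype.card_fin, Fintype.card_unit]; omega) (quadOdd 5 F) hQ F₀ r hr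
      hcard P hP

end Cfsg.Agent.S5858
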