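import Cfsg.Statements.S5876
import Cfsg.Agent.Lib.PrimLin

set_option autoImplicit false
open Cfsg

namespace Cfsg.Agent.S5876

/-- The action of a subgroup of GL on column vectors. -/
def act {F : Type*} [Field F] {n : ℕ} (G : Subgroup (Matrix.GeneralLinearGroup (Fin n) F)) :
    G →* Module.End F (Fin n → F) :=
  ((Matrix.toLinAlgEquiv' : Matrix (Fin n) (Fin n) F ≃ₐ[F] _).toMonoidHom.comp
    (Units.coeHom (Matrix (Fin n) (Fin n) F))).comp G.subtype

lemma act_apply {F : Type*} [Field F] {n : ℕ} (G : Subgroup (Matrix.GeneralLinearGroup (Fin n) F)) (g : G) :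
    act G g = Matrix.toLin' ((g : Matrix.GeneralLinearGroup (Fin n) F) : Matrix (Fin n) (Fin n) F) := rfl

/-- Fixed-point spaces in primitive soluble linear groups. Let F be a finite field and G a soluble subgroup of GL_n(F) that acts irreducibly on F^n and primitively (G preserves no decomposition of F^n into two or more independent subspaces of equal dimension). Then every non-identity element g of G has fixed-point space {v : g v = v} of dimension at most 3n/4. -/
theorem result {F : Type*} [Field F] [Fintype F] {n : ℕ} (G : Subgroup (Matrix.GeneralLinearGroup (Fin n) F)) (hsol : IsSolvable G) (hirr : Cfsg.Geo.ActsIrreducibly (Cfsg.Geo.matrixSet G)) (hprim : ∀ (m t : ℕ) (D : Fin t → Submodule F (Fin n → F)), 2 ≤ t → Cfsg.Geo.IsMDecomposition m D → ¬ G ≤ Cfsg.Geo.decompositionStabilizer D) (g : Matrix.GeneralLinearGroup (Fin n) F) (hg : g ∈ G) (hg1 : g ≠ 1) :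
    4 * Module.finrank F (Module.End.eigenspace (Matrix.toLin' (g : Matrix (Fin n) (Fin n) F)) 1) ≤ 3 * n := by
  classical
  have hn : 0 < n := by
    rcases Nat.eq_zero_or_pos n with h | h
    · subst h
      exact absurd (Subsingleton.elim g 1) hg1
    · exact h
  haveI : Nontrivial (Fin n → F) := by
    haveI : Nonempty (Fin n) := ⟨⟨0, hn⟩⟩
    infer_instance
  haveI : Finite G := inferInstance
  haveI : Group.IsSolvable G := hsol
  have h := Cfsg.Agent.Lib.PrimLin.solvable_fix_le (act G) ?_ ?_ ?_ (⟨g, hg⟩ : G) ?_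
  · rw [Module.finrank_fintype_fun_eq_card, Fintype.card_fin] at h
    exact h
  · intro W hW
    refine hirr W ?_
    rintro _ ⟨x, hx, rfl⟩
    exact hW ⟨x, hx⟩
  · intro m t D ht hm hf hind hsup hperm
    refine hprim m t D ht ⟨ht, hm, hf, hind, hsup⟩ (fun x hx => ?_)
    exact hperm ⟨x, hx⟩
  · intro x y hxy
    apply Subtype.ext
    apply Units.ext
    exact Matrix.toLin'.injective hxy
  · intro h
    exact hg1 (congrArg Subtype.val h)

end Cfsg.Agent.S5876
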