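import Cfsg.Statements.S5938
import Cfsg.Agent.Lib.DkSmall
import Cfsg.Agent.S0803

set_option autoImplicit false
open Cfsg

namespace Cfsg.Agent.S5938

open Cfsg.Agent.Lib Cfsg.Agent.Lib.MobCount MulAction Matrix Cfsg.Agent.Lib.ClProjLine Cfsg.Agent.Lib.DkTorus
  Cfsg.Agent.Lib.DkSub Cfsg.Agent.Lib.DkMax Cfsg.Agent.Lib.DkSmall
open scoped LinearAlgebra.Projectivization MatrixGroups

/-- any subgroup `S_4` is maximal when `q = p` -/
theorem coatom {F : Type*} [Field F] [Fintype F] (p : ℕ) [Fact p.Prime] (hF : Fintype.card F = p)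
    (hp : p % 8 = 1 ∨ p % 8 = 7) (H : Subgroup (P2 F)) (e : Nonempty (H ≃* Equiv.Perm (Fin 4))) : IsCoatom H := by
  obtain ⟨e⟩ := e
  have hpp : p.Prime := Fact.out
  haveI : CharP F p := by
    obtain ⟨c, hc⟩ := CharP.exists F
    haveI := hc
    haveI : Fact c.Prime := ⟨CharP.char_is_prime F c⟩
    obtain ⟨n, hn0, hn⟩ := ClSLn.exists_card_eq_pow (F := F) c
    rw [hF] at hn
    have h1 : c = p := by
      have h2 : p ∣ c ^ n := by rw [← hn]
      exact ((Nat.prime_dvd_prime_iff_eq hpp (CharP.char_is_prime F c)).mp (hpp.dvd_of_dvd_pow h2)).symm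
    rwa [← h1]
  have hH : Nat.card H = 24 := by
    rw [Nat.card_congr e.toEquiv, Nat.card_perm, Nat.card_fin]; rfl
  have hp7 : 7 ≤ p := by
    have := hpp.one_lt
    omega
  have hpH : ¬ p ∣ Nat.card H := by
    rw [hH]
    intro h
    have h1 : p ∣ 2 ^ 3 * 3 := h
    rcases hpp.dvd_mul.mp h1 with h2 | h2
    · have := Nat.le_of_dvd (by norm_num) (hpp.dvd_of_dvd_pow h2); omega
    · have := Nat.le_of_dvd (by norm_num) h2; omega
  have hodd : Odd (Fintype.card F) := by rw [hF, Nat.odd_iff]; omega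
  have hcF : 2 * Nat.card (P2 F) = p * (p ^ 2 - 1) := by
    rw [← hF, ← card_P2 (F := F) rfl, gcd_odd hodd]
  refine ⟨?_, ?_⟩
  · apply ne_top_of_card
    rw [hH]
    change 24 ≠ Nat.card (P2 F)
    intro h
    rw [← h] at hcF
    have h1 : 7 ^ 2 ≤ p ^ 2 := Nat.pow_le_pow_left hp7 2
    have h2 : 7 * 48 ≤ p * (p ^ 2 - 1) := Nat.mul_le_mul hp7 (by omega)
    omega
  · intro M hM
    by_contra hne
    have hdvd := Subgroup.card_dvd_of_le hM.le
    rw [hH] at hdvd
    rcases over_bad p (bad_S4.of_equiv e.symm) hpH hM.le hne with ⟨_, h, _⟩ | ⟨_, h, _⟩ | ⟨_, h, _⟩ | ⟨g, k, m, hm, hk, _⟩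
    · rw [h] at hdvd; norm_num at hdvd
    · apply hM.not_ge
      exact (Subgroup.eq_of_le_of_card_ge hM.le (by rw [h, hH])).ge
    · rw [h] at hdvd; norm_num at hdvd
    · exact sub_of_prime hpp k m hm (by rw [hk, hF])

/-- Let p be a prime with p ≡ ±1 (mod 8) and F a field with p elements. Then PSL_2(F) has a maximal subgroup isomorphic to the symmetric group S_4. -/
theorem result {F : Type*} [Field F] [Fintype F] (p : ℕ) [Fact p.Prime] (hF : Fintype.card F = p) (hp : p % 8 = 1 ∨ p % 8 = 7) : ∃ H : Subgroup (Matrix.ProjectiveSpecialLinearGroup (Fin 2) F), IsCoatom H ∧ Nonempty (H ≃* Equiv.Perm (Fin 4)) := by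
  obtain ⟨H, hH⟩ := (Cfsg.Agent.S0803.result (F := F) hF).mpr (by
    have h1 : p ^ 2 % 16 = (p % 16) ^ 2 % 16 := by rw [Nat.pow_mod]
    have h2 : p % 16 = 1 ∨ p % 16 = 9 ∨ p % 16 = 7 ∨ p % 16 = 15 := by omega
    rcases h2 with h | h | h | h <;> rw [h1, h] <;> norm_num)
  exact ⟨H, coatom p hF hp H hH, hH⟩

end Cfsg.Agent.S5938
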