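import Cfsg.Statements.S5941
import Cfsg.Agent.Lib.DkSubMax

set_option autoImplicit false
open Cfsg

namespace Cfsg.Agent.S5941

open Cfsg.Agent.Lib Cfsg.Agent.Lib.MobCount MulAction Matrix Cfsg.Agent.Lib.ClProjLine Cfsg.Agent.Lib.DkTorus
  Cfsg.Agent.Lib.DkSub Cfsg.Agent.Lib.DkMax Cfsg.Agent.Lib.DkSubMax
open scoped LinearAlgebra.Projectivization MatrixGroups

/-- Let K and F be finite fields of odd characteristic with #F = (#K)². Then PSL_2(F) has a maximal subgroup isomorphic to PGL_2(K). -/
theorem result {F K : Type*} [Field F] [Fintype F] [Field K] [Fintype K] (q : ℕ) (hK : Fintype.card K = q) (hF : Fintype.card F = q ^ 2) (hq : Odd q) : ∃ H : Subgroup (Matrix.ProjectiveSpecialLinearGroup (Fin 2) F), IsCoatom H ∧ Nonempty (H ≃* Matrix.ProjGenLinGroup (Fin 2) K) := by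
  classical
  obtain ⟨alg, _⟩ := FFTower.exists_algebra_of_card (F := K) (K := F) (d := 2) (by rw [hF, hK]) (by norm_num)
  let σ : K →+* F := algebraMap K F
  have hFo : Odd (Fintype.card F) := by rw [hF]; exact hq.pow
  have hKF : Fintype.card K ^ 2 = Fintype.card F := by rw [hF, hK]
  have hK2 : 1 < Fintype.card K := Fintype.one_lt_card
  obtain ⟨p, hpF⟩ := CharP.exists F
  haveI : CharP F p := hpF
  haveI hpp : Fact p.Prime := ⟨CharP.char_is_prime F p⟩
  have hKo : Odd (Fintype.card K) := by rw [hK]; exact hq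
  have hdK : Nat.gcd 2 (Fintype.card K - 1) = 2 := gcd_odd hKo
  have hdF : Nat.gcd 2 (Fintype.card F - 1) = 2 := gcd_odd hFo
  have hK3 : 3 ≤ Fintype.card K := by
    obtain ⟨t, ht⟩ := hKo; omega
  have hcF : 2 * Nat.card (P2 F) = Fintype.card F * (Fintype.card F ^ 2 - 1) := by
    rw [← card_P2 (F := F) rfl, hdF]
  -- the image of `PGL_2(K)` lies in `L`
  set R := (Matrix.ProjGenLinGroup.map (n := Fin 2) σ).range with hR
  have hRL : R ≤ LL F := by
    have h1 := pgl_le_LL (F := F) σ.fieldRange 2 (by decide) (by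
      rw [← hKF]
      congr 1
      rw [← Nat.card_eq_fintype_card]
      exact Nat.card_congr (RingHom.rangeRestrictFieldEquiv σ).symm.toEquiv)
    have h2 := range_map_comp σ.fieldRange.subtype (RingHom.rangeRestrictFieldEquiv σ)
    have h3 : σ.fieldRange.subtype.comp ((RingHom.rangeRestrictFieldEquiv σ : K ≃+* σ.fieldRange) : K →+* σ.fieldRange) = σ := by
      ext x; rfl
    rw [h3] at h2
    rw [hR, h2]
    exact h1
  have hHmap : (R.comap (tP F)).map (tP F) = R := by
    rw [Subgroup.map_comap_eq]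
    exact inf_eq_right.mpr hRL
  have hHcard : Nat.card (R.comap (tP F)) = Fintype.card K * (Fintype.card K ^ 2 - 1) := by
    rw [← Subgroup.card_map_of_injective tP_inj, hHmap, hR, card_pglRange, card_G2 rfl]
  refine ⟨R.comap (tP F), ⟨?_, ?_⟩, ?_⟩
  · apply ne_top_of_card
    rw [hHcard]
    change _ ≠ Nat.card (P2 F)
    have h1 : 3 * Fintype.card K ≤ Fintype.card F := by
      rw [← hKF, sq]; exact Nat.mul_le_mul_right _ hK3
    have h2 : Fintype.card K ^ 2 ≤ Fintype.card F ^ 2 := Nat.pow_le_pow_left (by omega) 2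
    have h3 : 0 < Fintype.card K ^ 2 - 1 := by
      have : 2 ^ 2 ≤ Fintype.card K ^ 2 := Nat.pow_le_pow_left (by omega) 2
      omega
    have h4 : 3 * (Fintype.card K * (Fintype.card K ^ 2 - 1)) ≤ Fintype.card F * (Fintype.card F ^ 2 - 1) := by
      calc 3 * (Fintype.card K * (Fintype.card K ^ 2 - 1)) = (3 * Fintype.card K) * (Fintype.card K ^ 2 - 1) := by ring
        _ ≤ Fintype.card F * (Fintype.card F ^ 2 - 1) := Nat.mul_le_mul h1 (by omega)
    have h5 : 0 < Fintype.card K * (Fintype.card K ^ 2 - 1) := Nat.mul_pos (by omega) h3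
    omega
  · intro M hM
    by_contra hne
    have hSP : SP σ ≤ M := (Subgroup.comap_mono (psl_le_pgl σ)).trans hM.le
    rcases overgroups p σ 2 Nat.prime_two hKF (by omega) M hne hSP with ⟨g, k, hk, h⟩ | ⟨h3, h60, _⟩
    · apply hM.not_ge
      have hc : Nat.card M ≤ Nat.card (R.comap (tP F)) := by
        have hk' : Nat.card (Matrix.ProjGenLinGroup.map (n := Fin 2) k.subtype).range = Nat.card (R.comap (tP F)) := by
          rw [card_pgl_sub, hk, hHcard]
        rcases h with h | h
        · rw [card_of_range_psl M g k h, ← hk', ← card_pslRange k.subtype]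
          exact Subgroup.card_le_of_le (psl_le_pgl _)
        · rw [card_of_range_pgl M g k h, ← card_pglRange k.subtype, hk']
      exact (Subgroup.eq_of_le_of_card_ge hM.le hc).ge
    · have h1 := Subgroup.card_dvd_of_le hM.le
      rw [h60, hHcard] at h1
      have h2 : Fintype.card K ≤ 7 := by
        by_contra hlt
        push Not at hlt
        have h5 : 8 ^ 2 ≤ Fintype.card K ^ 2 := Nat.pow_le_pow_left hlt 2
        have h6 : 8 * 63 ≤ Fintype.card K * (Fintype.card K ^ 2 - 1) := Nat.mul_le_mul hlt (by omega)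
        have h7 := Nat.le_of_dvd (by norm_num) h1
        omega
      have h8 : Fintype.card K = 3 ∨ Fintype.card K = 5 ∨ Fintype.card K = 7 := by
        obtain ⟨t, ht⟩ := hKo
        omega
      rcases h8 with h | h | h <;> rw [h] at h1 <;> norm_num at h1
  · exact ⟨((Subgroup.equivMapOfInjective _ _ tP_inj).trans (MulEquiv.subgroupCongr hHmap)).trans
      (MonoidHom.ofInjective (map_PGL_injective σ)).symm⟩

end Cfsg.Agent.S5941
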