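import Cfsg.Statements.S5943
import Cfsg.Agent.Lib.DkSubMax

set_option autoImplicit false
open Cfsg

namespace Cfsg.Agent.S5943

open Cfsg.Agent.Lib Cfsg.Agent.Lib.MobCount MulAction Matrix Cfsg.Agent.Lib.ClProjLine Cfsg.Agent.Lib.DkTorus
  Cfsg.Agent.Lib.DkSub Cfsg.Agent.Lib.DkMax Cfsg.Agent.Lib.DkSubMax
open scoped LinearAlgebra.Projectivization MatrixGroups

/-- Let K and F be finite fields of characteristic 2 with #K = q > 2 and #F = q^r for a prime r. Then PSL_2(F) has a maximal subgroup isomorphic to PSL_2(K) (which equals PGL_2(K) in characteristic 2). -/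
theorem result {F K : Type*} [Field F] [Fintype F] [Field K] [Fintype K] (q r : ℕ) (hK : Fintype.card K = q) (hF : Fintype.card F = q ^ r) (hq : Even q) (hq2 : q ≠ 2) (hr : r.Prime) : ∃ H : Subgroup (Matrix.ProjectiveSpecialLinearGroup (Fin 2) F), IsCoatom H ∧ Nonempty (H ≃* Matrix.ProjectiveSpecialLinearGroup (Fin 2) K) := by
  classical
  obtain ⟨alg, _⟩ := FFTower.exists_algebra_of_card (F := K) (K := F) (d := r) (by rw [hF, hK]) hr.ne_zero
  let σ : K →+* F := algebraMap K F
  have hFe : Even (Fintype.card F) := by rw [hF, Nat.even_pow]; exact ⟨hq, hr.ne_zero⟩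
  have hch : ringChar F = 2 := FiniteField.even_card_iff_char_two.mpr (Nat.even_iff.mp hFe)
  haveI : CharP F 2 := by rw [← hch]; exact ringChar.charP F
  haveI : Fact (Nat.Prime 2) := ⟨Nat.prime_two⟩
  have hKF : Fintype.card K ^ r = Fintype.card F := by rw [hF, hK]
  have hK2 : 1 < Fintype.card K := Fintype.one_lt_card
  have hdK : Nat.gcd 2 (Fintype.card K - 1) = 1 := by
    rw [hK]
    exact Nat.coprime_two_left.mpr (Nat.Even.sub_odd (by rw [← hK]; omega) hq odd_one)
  have hdF : Nat.gcd 2 (Fintype.card F - 1) = 1 := by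
    have := index_LL (F := F)
    rw [LL_eq_top hFe, Subgroup.index_top] at this
    exact this.symm
  have hcK : Nat.card (P2 K) = Fintype.card K * (Fintype.card K ^ 2 - 1) := by
    rw [← card_P2 (F := K) rfl, hdK, one_mul]
  have hcF : Nat.card (P2 F) = Fintype.card F * (Fintype.card F ^ 2 - 1) := by
    rw [← card_P2 (F := F) rfl, hdF, one_mul]
  refine ⟨SP σ, ⟨?_, ?_⟩, ?_⟩
  · apply ne_top_of_card
    rw [SP_card, hcK, hcF]
    have h1 : Fintype.card K < Fintype.card F := by
      rw [← hKF]
      calc Fintype.card K = Fintype.card K ^ 1 := (pow_one _).symm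
        _ < Fintype.card K ^ r := Nat.pow_lt_pow_right hK2 hr.one_lt
    have h2 : Fintype.card K ^ 2 ≤ Fintype.card F ^ 2 := Nat.pow_le_pow_left h1.le 2
    have h3 : 0 < Fintype.card F ^ 2 - 1 := by
      have : 2 ^ 2 ≤ Fintype.card F ^ 2 := Nat.pow_le_pow_left (by omega) 2
      omega
    apply ne_of_lt
    calc Fintype.card K * (Fintype.card K ^ 2 - 1) ≤ Fintype.card K * (Fintype.card F ^ 2 - 1) :=
          Nat.mul_le_mul_left _ (by omega)
      _ < Fintype.card F * (Fintype.card F ^ 2 - 1) := Nat.mul_lt_mul_of_pos_right h1 h3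
  · intro M hM
    by_contra hne
    rcases overgroups 2 σ r hr hKF (by rw [hK]; exact hq2) M hne hM.le with ⟨g, k, hk, h⟩ | ⟨h, _⟩
    · apply hM.not_ge
      have hc : Nat.card M ≤ Nat.card (SP σ) := by
        have hk' : Nat.card (Matrix.ProjGenLinGroup.map (n := Fin 2) k.subtype).range = Nat.card (P2 K) := by
          rw [card_pgl_sub, hk, hcK]
        rw [SP_card]
        rcases h with h | h
        · rw [card_of_range_psl M g k h, ← hk', ← card_pslRange k.subtype]
          exact Subgroup.card_le_of_le (psl_le_pgl _)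
        · rw [card_of_range_pgl M g k h, ← card_pglRange k.subtype, hk']
      exact (Subgroup.eq_of_le_of_card_ge hM.le hc).ge
    · norm_num at h
  · exact ⟨((Subgroup.equivMapOfInjective _ _ tP_inj).trans (MulEquiv.subgroupCongr (SP_map σ))).trans
      (MonoidHom.ofInjective (pslMap_injective σ)).symm⟩

end Cfsg.Agent.S5943
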