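import Cfsg.Statements.S5944

set_option autoImplicit false
open Cfsg

namespace Cfsg.Agent.S5944


/-- For n ≠ 4, every proper subgroup of the symmetric group S_n other than the alternating group A_n has index at least n. -/
theorem result (n : ℕ) (hn : n ≠ 4) (H : Subgroup (Equiv.Perm (Fin n))) (hH : H ≠ ⊤) (hA : H ≠ alternatingGroup (Fin n)) : n ≤ H.index := by
  have h0 : H.index ≠ 0 := Subgroup.index_ne_zero_of_finite
  have h1 : H.index ≠ 1 := fun h => hH (Subgroup.index_eq_one.mp h)
  have h2 : H.index ≠ 2 := fun h => hA (Equiv.Perm.eq_alternatingGroup_of_index_eq_two h)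
  by_contra hlt
  push Not at hlt
  have hn5 : 5 ≤ n := by omega
  have hbot : H.normalCore = ⊥ ∨ Nontrivial H.normalCore := by
    by_cases h : H.normalCore = ⊥
    · exact Or.inl h
    · exact Or.inr ((Subgroup.nontrivial_iff_ne_bot _).mpr h)
  rcases hbot with hb | hnt
  · rw [Subgroup.normalCore_eq_ker] at hb
    have hinj : Function.Injective (MulAction.toPermHom (Equiv.Perm (Fin n)) (Equiv.Perm (Fin n) ⧸ H)) :=
      (MonoidHom.ker_eq_bot_iff _).mp hb
    have hle := Nat.card_le_card_of_injective _ hinj
    rw [Nat.card_perm, Nat.card_perm, Nat.card_fin] at hle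
    have : Nat.card (Equiv.Perm (Fin n) ⧸ H) = H.index := rfl
    rw [this] at hle
    have hlt' : (H.index).factorial < n.factorial := (Nat.factorial_lt (by omega)).mpr hlt
    omega
  · have hle : alternatingGroup (Fin n) ≤ H.normalCore :=
      Equiv.Perm.alternatingGroup_le_of_normal (by simpa using hn5) hnt
    have hle' : alternatingGroup (Fin n) ≤ H := hle.trans H.normalCore_le
    haveI : Nontrivial (Fin n) := Fin.nontrivial_iff_two_le.mpr (by omega)
    have hd := Subgroup.index_dvd_of_le hle'
    rw [alternatingGroup.index_eq_two] at hd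
    have := (Nat.dvd_prime Nat.prime_two).mp hd
    omega

end Cfsg.Agent.S5944
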