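import Cfsg.Statements.S5945

set_option autoImplicit false
open Cfsg

namespace Cfsg.Agent.S5945

open Equiv

abbrev G := Equiv.Perm (Fin 6)
abbrev S := Equiv.Perm (Fin 5)

lemma card_G : Nat.card G = 720 := by
  rw [Nat.card_perm, Nat.card_fin]; rfl

lemma card_S : Nat.card S = 120 := by
  rw [Nat.card_perm, Nat.card_fin]; rfl

lemma core_bot (H : Subgroup G) (h : H.index = 6) : H.normalCore = ⊥ := by
  by_contra hb
  have hnt := (Subgroup.nontrivial_iff_ne_bot _).mpr hb
  have hle : alternatingGroup (Fin 6) ≤ H.normalCore :=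
    Equiv.Perm.alternatingGroup_le_of_normal (by simp) hnt
  have hd := Subgroup.index_dvd_of_le (hle.trans H.normalCore_le)
  rw [alternatingGroup.index_eq_two, h] at hd
  omega

lemma exists_theta (H : Subgroup G) (h : H.index = 6) :
    ∃ (θ : G ≃* G) (a : Fin 6), ∀ g : G, g ∈ H ↔ θ g a = a := by
  have hb := core_bot H h
  rw [Subgroup.normalCore_eq_ker] at hb
  have hinj : Function.Injective (MulAction.toPermHom G (G ⧸ H)) :=
    (MonoidHom.ker_eq_bot_iff _).mp hb
  have hc : Nat.card (G ⧸ H) = 6 := h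
  have : Fintype (G ⧸ H) := Fintype.ofFinite _
  have hcard : Nat.card (Equiv.Perm (G ⧸ H)) = 720 := by
    rw [Nat.card_perm, hc]; rfl
  have hbij : Function.Bijective (MulAction.toPermHom G (G ⧸ H)) :=
    (Nat.bijective_iff_injective_and_card _).mpr ⟨hinj, by rw [card_G, hcard]⟩
  let b : (G ⧸ H) ≃ Fin 6 := Finite.equivFinOfCardEq hc
  let θ : G ≃* G := (MulEquiv.ofBijective _ hbij).trans b.permCongrHom
  refine ⟨θ, b ((1 : G) : G ⧸ H), fun g => ?_⟩
  have : θ g (b ((1 : G) : G ⧸ H)) = b (g • ((1 : G) : G ⧸ H)) := by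
    simp [θ, Equiv.permCongrHom, Equiv.permCongr_apply]
  rw [this, b.injective.eq_iff]
  constructor
  · intro hg
    change ((g * 1 : G) : G ⧸ H) = _
    rw [mul_one, QuotientGroup.eq]
    simpa using H.inv_mem hg
  · intro hg
    change ((g * 1 : G) : G ⧸ H) = _ at hg
    rw [mul_one, QuotientGroup.eq] at hg
    simpa using hg

lemma stab_equiv (a : Fin 6) : Nonempty (MulAction.stabilizer G a ≃* S) := by
  have hinj : Function.Injective (Equiv.Perm.ofSubtype (p := fun x : Fin 6 => x ≠ a)) :=
    Equiv.Perm.ofSubtype_injective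
  have hr : (Equiv.Perm.ofSubtype (p := fun x : Fin 6 => x ≠ a)).range = MulAction.stabilizer G a := by
    ext g
    rw [Equiv.Perm.mem_range_ofSubtype_iff, MulAction.mem_stabilizer_iff]
    constructor
    · intro hg
      by_contra hne
      have : a ∈ (g.support : Set (Fin 6)) := by
        simpa using hne
      exact hg this rfl
    · intro hg x hx hxa
      subst hxa
      have hx' : g x ≠ x := by simpa using hx
      exact hx' hg
  have e1 := (MonoidHom.ofInjective hinj).trans (MulEquiv.subgroupCongr hr)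
  have e2 : {x : Fin 6 // x ≠ a} ≃ Fin 5 := Fintype.equivFinOfCardEq (by simp)
  exact ⟨e1.symm.trans e2.permCongrHom⟩

lemma H_equiv (H : Subgroup G) (h : H.index = 6) : Nonempty (H ≃* S) := by
  obtain ⟨θ, a, hθ⟩ := exists_theta H h
  have : H.map θ.toMonoidHom = MulAction.stabilizer G a := by
    ext g
    rw [Subgroup.mem_map, MulAction.mem_stabilizer_iff]
    constructor
    · rintro ⟨x, hx, rfl⟩
      exact (hθ x).mp hx
    · intro hg
      refine ⟨θ.symm g, (hθ _).mpr ?_, by simp⟩
      simpa using hg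
  obtain ⟨e⟩ := stab_equiv a
  exact ⟨(θ.subgroupMap H).trans ((MulEquiv.subgroupCongr this).trans e)⟩

lemma stab_index (a : Fin 6) : (MulAction.stabilizer G a).index = 6 := by
  rw [MulAction.index_stabilizer, MulAction.orbit_eq_univ]
  simp

lemma stab_inj : Function.Injective (fun a : Fin 6 => MulAction.stabilizer G a) := by
  intro a b hab
  by_contra hne
  have key : ∀ a b : Fin 6, ∃ c : Fin 6, c ≠ a ∧ c ≠ b := by decide
  obtain ⟨c, hc⟩ := key a b
  have h1 : Equiv.swap b c ∈ MulAction.stabilizer G a := by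
    rw [MulAction.mem_stabilizer_iff, Equiv.Perm.smul_def, Equiv.swap_apply_of_ne_of_ne hne hc.1.symm]
  have h2 : Equiv.swap b c ∈ MulAction.stabilizer G b := by
    have : MulAction.stabilizer G a = MulAction.stabilizer G b := hab
    rwa [this] at h1
  rw [MulAction.mem_stabilizer_iff, Equiv.Perm.smul_def, Equiv.swap_apply_left] at h2
  exact hc.2 h2


lemma card_sylow : Nat.card (Sylow 5 S) = 6 := by
  have : Fact (Nat.Prime 5) := ⟨by norm_num⟩
  obtain ⟨P⟩ : Nonempty (Sylow 5 S) := inferInstance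
  have hP : Nat.card P = 5 := by
    rw [P.card_eq_multiplicity, card_S]
    have : (120 : ℕ).factorization 5 = 1 := by
      rw [show (120 : ℕ) = 5 ^ 1 * 24 by norm_num]
      rw [Nat.factorization_mul (by norm_num) (by norm_num)]
      rw [Nat.Prime.factorization_pow (by norm_num)]
      simp [Nat.factorization_eq_zero_of_not_dvd (show ¬ 5 ∣ 24 by norm_num)]
    rw [this, pow_one]
  have h1 : Nat.card (Sylow 5 S) ≡ 1 [MOD 5] := card_sylow_modEq_one 5 S
  have h2 : Nat.card (Sylow 5 S) ∣ (P : Subgroup S).index := P.card_dvd_index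
  have h3 : (P : Subgroup S).index = 24 := by
    have := (P : Subgroup S).card_mul_index
    rw [card_S] at this
    have hP' : Nat.card (P : Subgroup S) = 5 := hP
    rw [hP'] at this
    omega
  rw [h3] at h2
  have h4 : Nat.card (Sylow 5 S) ≤ 24 := Nat.le_of_dvd (by norm_num) h2
  have h5 : Nat.card (Sylow 5 S) ≠ 1 := by
    intro h
    have hn : (P : Subgroup S).Normal := by
      have : Subsingleton (Sylow 5 S) := (Nat.card_eq_one_iff_unique.mp h).1
      exact Sylow.normal_of_subsingleton P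
    have hnt : Nontrivial (P : Subgroup S) := by
      rw [← Finite.one_lt_card_iff_nontrivial]
      have hP' : Nat.card (P : Subgroup S) = 5 := hP
      rw [hP']; norm_num
    have hle : alternatingGroup (Fin 5) ≤ (P : Subgroup S) :=
      Equiv.Perm.alternatingGroup_le_of_normal (by simp) hnt
    have := Subgroup.index_dvd_of_le hle
    rw [alternatingGroup.index_eq_two, h3] at this
    omega
  have h6 : Nat.card (Sylow 5 S) % 5 = 1 := h1
  interval_cases (Nat.card (Sylow 5 S)) <;> omega

lemma rho_inj : Function.Injective (MulAction.toPermHom S (Sylow 5 S)) := by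
  have : Fact (Nat.Prime 5) := ⟨by norm_num⟩
  rw [← MonoidHom.ker_eq_bot_iff]
  by_contra hb
  have hnt := (Subgroup.nontrivial_iff_ne_bot _).mpr hb
  have hle : alternatingGroup (Fin 5) ≤ (MulAction.toPermHom S (Sylow 5 S)).ker :=
    Equiv.Perm.alternatingGroup_le_of_normal (by simp) hnt
  -- the orbit has size 6, so stabilizer index 6, but contains A_5 of index 2
  obtain ⟨P⟩ : Nonempty (Sylow 5 S) := inferInstance
  have hst : alternatingGroup (Fin 5) ≤ MulAction.stabilizer S P := by
    intro g hg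
    have := hle hg
    rw [MonoidHom.mem_ker] at this
    rw [MulAction.mem_stabilizer_iff]
    have h2 := congrArg (fun σ : Equiv.Perm (Sylow 5 S) => σ P) this
    simpa using h2
  have hi : (MulAction.stabilizer S P).index = 6 := by
    rw [MulAction.index_stabilizer, MulAction.orbit_eq_univ]
    rw [Set.ncard_univ, card_sylow]
  have := Subgroup.index_dvd_of_le hst
  rw [alternatingGroup.index_eq_two, hi] at this
  omega

lemma fixed_unique (f : S →* G) (hf : Function.Injective f) (P : Sylow 5 S) :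
    ∃ a : Fin 6, (∀ p ∈ P, f p a = a) ∧ ∀ b c, b ≠ a → c ≠ a → ∃ p ∈ P, f p b = c := by
  have : Fact (Nat.Prime 5) := ⟨by norm_num⟩
  have hP : Nat.card P = 5 := by
    rw [P.card_eq_multiplicity, card_S]
    have : (120 : ℕ).factorization 5 = 1 := by
      rw [show (120 : ℕ) = 5 ^ 1 * 24 by norm_num]
      rw [Nat.factorization_mul (by norm_num) (by norm_num)]
      rw [Nat.Prime.factorization_pow (by norm_num)]
      simp [Nat.factorization_eq_zero_of_not_dvd (show ¬ 5 ∣ 24 by norm_num)]
    rw [this, pow_one]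
  let _ : MulAction P (Fin 6) := MulAction.compHom (Fin 6) (f.comp (P : Subgroup S).subtype)
  have hsm : ∀ (p : P) (b : Fin 6), p • b = f (p : S) b := fun p b => rfl
  have hpg : IsPGroup 5 P := P.isPGroup'
  have h1 := hpg.card_modEq_card_fixedPoints (Fin 6)
  rw [Nat.card_fin] at h1
  have hle : Nat.card (MulAction.fixedPoints P (Fin 6)) ≤ 6 := by
    have := Nat.card_le_card_of_injective (Subtype.val : MulAction.fixedPoints P (Fin 6) → Fin 6)
      Subtype.val_injective
    rwa [Nat.card_fin] at this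
  have horb : ∀ b : Fin 6, Nat.card (MulAction.orbit P b) = 1 ∨ Nat.card (MulAction.orbit P b) = 5 := by
    intro b
    have : Nat.card (MulAction.orbit P b) ∣ Nat.card P := by
      rw [Nat.card_congr (MulAction.orbitEquivQuotientStabilizer P b)]
      exact Subgroup.index_dvd_card _
    have hP' : Nat.card P = 5 := hP
    rw [hP'] at this
    exact (Nat.dvd_prime (by norm_num)).mp this
  have hfix : ∃ a : Fin 6, (∀ p ∈ P, f p a = a) ∧ ∀ b, b ≠ a → Nat.card (MulAction.orbit P b) = 5 := by
    have hne6 : Nat.card (MulAction.fixedPoints P (Fin 6)) ≠ 6 := by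
      intro h6
      have hall : ∀ b : Fin 6, b ∈ MulAction.fixedPoints P (Fin 6) := by
        intro b
        have huniv : MulAction.fixedPoints P (Fin 6) = Set.univ := by
          apply Set.eq_of_subset_of_ncard_le (Set.subset_univ _)
          rw [Set.ncard_univ, Nat.card_fin]; exact h6.ge
        rw [huniv]; trivial
      obtain ⟨p, hp1⟩ : ∃ p : P, p ≠ 1 := by
        have : Nontrivial P := by
          rw [← Finite.one_lt_card_iff_nontrivial]
          rw [hP]; norm_num
        exact exists_ne 1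
      apply hp1
      have : f (p : S) = 1 := by
        ext b
        have := hall b p
        rw [hsm] at this
        rw [this]; rfl
      have h2 : (p : S) = 1 := hf (by rw [this, map_one])
      exact Subtype.ext h2
    have h1c : Nat.card (MulAction.fixedPoints P (Fin 6)) = 1 := by
      have h1' : 6 % 5 = Nat.card (MulAction.fixedPoints P (Fin 6)) % 5 := h1
      omega
    obtain ⟨⟨a, ha⟩, huniq⟩ := (Nat.card_eq_one_iff_exists).mp h1c
    refine ⟨a, fun p hp => ha ⟨p, hp⟩, fun b hb => ?_⟩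
    rcases horb b with h | h
    · exfalso
      apply hb
      have hb' : b ∈ MulAction.fixedPoints P (Fin 6) := by
        intro p
        obtain ⟨x, hx⟩ := Nat.card_eq_one_iff_exists.mp h
        have e1 := hx ⟨b, MulAction.mem_orbit_self b⟩
        have e2 := hx ⟨p • b, MulAction.mem_orbit b p⟩
        have := e2.trans e1.symm
        exact congrArg Subtype.val this
      have := huniq ⟨b, hb'⟩
      exact congrArg Subtype.val this
    · exact h
  obtain ⟨a, ha, hb⟩ := hfix
  refine ⟨a, ha, fun b c hba hca => ?_⟩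
  have h5 := hb b hba
  have hsub : MulAction.orbit P b ⊆ {a}ᶜ := by
    rintro _ ⟨p, rfl⟩ hpa
    have hpa' : f (p : S) b = a := hpa
    have : f (p : S) b = f (p : S) a := by rw [hpa', ha _ p.2]
    exact hba ((f (p : S)).injective this)
  have heq : MulAction.orbit P b = {a}ᶜ := by
    apply Set.eq_of_subset_of_ncard_le hsub
    have e1 : (MulAction.orbit P b).ncard = 5 := h5
    rw [e1, Set.ncard_compl]
    simp
  have hc : c ∈ MulAction.orbit P b := by
    rw [heq]; exact hca
  obtain ⟨p, hp⟩ := hc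
  exact ⟨p, p.2, hp⟩


lemma transitive_form (f : S →* G) (hf : Function.Injective f) (ht : ∀ a b, ∃ s, f s a = b) :
    ∃ β : Sylow 5 S ≃ Fin 6, ∀ s, f s = β.permCongrHom (MulAction.toPermHom S (Sylow 5 S) s) := by
  choose F hF1 hF2 using fixed_unique f hf
  have huniq : ∀ (P : Sylow 5 S) (b : Fin 6), (∀ p ∈ P, f p b = b) → b = F P := by
    intro P b hb
    by_contra hne
    obtain ⟨c, hc1, hc2⟩ : ∃ c : Fin 6, c ≠ F P ∧ c ≠ b := by
      have key : ∀ a b : Fin 6, ∃ c : Fin 6, c ≠ a ∧ c ≠ b := by decide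
      exact key _ _
    obtain ⟨p, hp, hpc⟩ := hF2 P b c hne hc1
    rw [hb p hp] at hpc
    exact hc2 hpc.symm
  have hequiv : ∀ (s : S) (P : Sylow 5 S), F (s • P) = f s (F P) := by
    intro s P
    symm
    apply huniq
    intro p hp
    have hp' : s⁻¹ * p * s ∈ P := by
      have h : p ∈ ((s • P : Sylow 5 S) : Subgroup S) := hp
      rw [Sylow.coe_subgroup_smul, Subgroup.mem_pointwise_smul_iff_inv_smul_mem] at h
      have h' : s⁻¹ * p * s ∈ (P : Subgroup S) := by simpa [MulAut.smul_def, mul_assoc] using h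
      exact h'
    have h1 := hF1 P _ hp'
    rw [map_mul, map_mul, map_inv] at h1
    have h2 := congrArg (f s) h1
    simp only [Equiv.Perm.mul_apply] at h2
    rw [← Equiv.Perm.mul_apply (f s) (f s)⁻¹, mul_inv_cancel] at h2
    exact h2
  have hsurj : Function.Surjective F := by
    intro b
    obtain ⟨P⟩ : Nonempty (Sylow 5 S) := inferInstance
    obtain ⟨s, hs⟩ := ht (F P) b
    exact ⟨s • P, by rw [hequiv, hs]⟩
  have hbij : Function.Bijective F :=
    (Nat.bijective_iff_surjective_and_card F).mpr ⟨hsurj, by rw [card_sylow, Nat.card_fin]⟩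
  refine ⟨Equiv.ofBijective F hbij, fun s => ?_⟩
  ext b : 1
  obtain ⟨P, rfl⟩ := hbij.2 b
  rw [← hequiv]
  have : (Equiv.ofBijective F hbij).symm (F P) = P := by
    rw [Equiv.symm_apply_eq]; rfl
  simp [Equiv.permCongrHom, Equiv.permCongr_apply, this]

lemma fix_or_trans (f : S →* G) (hf : Function.Injective f) :
    (∃ a, ∀ s, f s a = a) ∨ (∀ a b, ∃ s, f s a = b) := by
  obtain ⟨P⟩ : Nonempty (Sylow 5 S) := inferInstance
  obtain ⟨a, ha, hb⟩ := fixed_unique f hf P
  by_cases h : ∀ s, f s a = a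
  · exact Or.inl ⟨a, h⟩
  · right
    push Not at h
    obtain ⟨s, hs⟩ := h
    -- every point can be reached from a
    have hreach : ∀ b, ∃ s, f s a = b := by
      intro b
      by_cases hba : b = a
      · exact ⟨1, by rw [map_one, hba]; rfl⟩
      · obtain ⟨p, _, hp⟩ := hb (f s a) b hs hba
        exact ⟨p * s, by rw [map_mul, Equiv.Perm.mul_apply, hp]⟩
    intro b c
    obtain ⟨s1, h1⟩ := hreach b
    obtain ⟨s2, h2⟩ := hreach c
    refine ⟨s2 * s1⁻¹, ?_⟩
    rw [map_mul, Equiv.Perm.mul_apply, map_inv, ← h1]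
    simp [h2]

lemma index_six_of_card (H : Subgroup G) (h : Nat.card H = 120) : H.index = 6 := by
  have := H.card_mul_index
  rw [h, card_G] at this
  omega

lemma card_of_index_six (H : Subgroup G) (h : H.index = 6) : Nat.card H = 120 := by
  have := H.card_mul_index
  rw [h, card_G] at this
  omega

/-- trichotomy -/
lemma stab_or_trans (H : Subgroup G) (h : H.index = 6) :
    (∃ a : Fin 6, H = MulAction.stabilizer G a) ∨
    (∃ β : Sylow 5 S ≃ Fin 6, H = (MulAction.toPermHom S (Sylow 5 S)).range.map β.permCongrHom.toMonoidHom) := by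
  obtain ⟨e⟩ := H_equiv H h
  let f : S →* G := H.subtype.comp e.symm.toMonoidHom
  have hf : Function.Injective f := H.subtype_injective.comp e.symm.injective
  have hr : ∀ g, g ∈ H ↔ ∃ s, f s = g := by
    intro g
    constructor
    · intro hg
      exact ⟨e ⟨g, hg⟩, by simp [f]⟩
    · rintro ⟨s, rfl⟩
      exact (e.symm s).2
  rcases fix_or_trans f hf with ⟨a, ha⟩ | ht
  · left
    refine ⟨a, ?_⟩
    have hle : H ≤ MulAction.stabilizer G a := by
      intro g hg
      obtain ⟨s, rfl⟩ := (hr g).mp hg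
      exact ha s
    apply Subgroup.eq_of_le_of_card_ge hle
    rw [card_of_index_six _ h, card_of_index_six _ (stab_index a)]
  · right
    obtain ⟨β, hβ⟩ := transitive_form f hf ht
    refine ⟨β, ?_⟩
    ext g
    rw [hr, Subgroup.mem_map]
    constructor
    · rintro ⟨s, rfl⟩
      exact ⟨_, ⟨s, rfl⟩, (hβ s).symm⟩
    · rintro ⟨_, ⟨s, rfl⟩, rfl⟩
      exact ⟨s, hβ s⟩

/-- the exotic subgroups -/
def exo (β : Sylow 5 S ≃ Fin 6) : Subgroup G :=
  (MulAction.toPermHom S (Sylow 5 S)).range.map β.permCongrHom.toMonoidHom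

lemma exo_index (β : Sylow 5 S ≃ Fin 6) : (exo β).index = 6 := by
  apply index_six_of_card
  unfold exo
  rw [Subgroup.card_map_of_injective β.permCongrHom.injective]
  rw [Nat.card_congr (MonoidHom.ofInjective rho_inj).toEquiv.symm, card_S]

lemma exo_ne_stab (β : Sylow 5 S ≃ Fin 6) (a : Fin 6) : exo β ≠ MulAction.stabilizer G a := by
  intro h
  have : Fact (Nat.Prime 5) := ⟨by norm_num⟩
  obtain ⟨b, hb⟩ : ∃ b : Fin 6, b ≠ a := exists_ne a
  obtain ⟨s, hs⟩ := MulAction.exists_smul_eq S (β.symm a) (β.symm b)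
  have hmem : β.permCongrHom (MulAction.toPermHom S (Sylow 5 S) s) ∈ exo β :=
    ⟨_, ⟨s, rfl⟩, rfl⟩
  rw [h, MulAction.mem_stabilizer_iff] at hmem
  have : β.permCongrHom (MulAction.toPermHom S (Sylow 5 S) s) a = b := by
    simp [Equiv.permCongrHom, Equiv.permCongr_apply, hs]
  rw [Equiv.Perm.smul_def, this] at hmem
  exact hb hmem

lemma exo_conj (β β' : Sylow 5 S ≃ Fin 6) (g : G) :
    g ∈ exo β' ↔ (β'.symm.trans β : G) * g * (β'.symm.trans β : G)⁻¹ ∈ exo β := by
  unfold exo
  constructor
  · rintro ⟨_, ⟨s, rfl⟩, rfl⟩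
    refine ⟨_, ⟨s, rfl⟩, ?_⟩
    ext b : 1
    simp [Equiv.permCongrHom, Equiv.permCongr_apply]
  · rintro ⟨_, ⟨s, rfl⟩, hs⟩
    refine ⟨_, ⟨s, rfl⟩, ?_⟩
    have hg : g = (β'.symm.trans β : G)⁻¹ * ((β'.symm.trans β : G) * g * (β'.symm.trans β : G)⁻¹) * (β'.symm.trans β : G) := by
      group
    rw [hg, ← hs]
    ext b : 1
    simp [Equiv.permCongrHom, Equiv.permCongr_apply]

theorem main : Nat.card {H : Subgroup G // H.index = 6} = 12 ∧ (∀ H : Subgroup G, H.index = 6 → Nonempty (H ≃* S)) ∧ ∃ H : Subgroup G, H.index = 6 ∧ ∀ a : Fin 6, H ≠ MulAction.stabilizer G a := by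
  obtain ⟨β⟩ : Nonempty (Sylow 5 S ≃ Fin 6) := ⟨Finite.equivFinOfCardEq card_sylow⟩
  refine ⟨?_, H_equiv, exo β, exo_index β, exo_ne_stab β⟩
  obtain ⟨θ, a0, hθ⟩ := exists_theta (exo β) (exo_index β)
  let A : Fin 6 → Subgroup G := fun a => MulAction.stabilizer G a
  let B : Fin 6 → Subgroup G := fun a => (MulAction.stabilizer G a).comap θ.toMonoidHom
  have hA : Function.Injective A := stab_inj
  have hB : Function.Injective B := by
    intro a b hab
    apply stab_inj
    exact Subgroup.comap_injective θ.surjective hab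
  have hBi : ∀ a, (B a).index = 6 := by
    intro a
    change ((MulAction.stabilizer G a).comap θ.toMonoidHom).index = 6
    rw [Subgroup.index_comap_of_surjective _ θ.surjective, stab_index]
  have hset : {H : Subgroup G | H.index = 6} = Set.range A ∪ Set.range B := by
    ext H
    simp only [Set.mem_ofPred_eq, Set.mem_union, Set.mem_range]
    constructor
    · intro h
      rcases stab_or_trans H h with ⟨a, ha⟩ | ⟨β', hβ'⟩
      · exact Or.inl ⟨a, ha.symm⟩
      · right
        refine ⟨(θ (β'.symm.trans β : G))⁻¹ a0, ?_⟩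
        ext g
        have h1 : g ∈ H ↔ g ∈ exo β' := by rw [hβ']; rfl
        rw [h1, exo_conj β β', hθ]
        change θ g ((θ (β'.symm.trans β : G))⁻¹ a0) = _ ↔ _
        rw [map_mul, map_mul, map_inv, Equiv.Perm.mul_apply, Equiv.Perm.mul_apply, Equiv.Perm.eq_inv_iff_eq]
    · rintro (⟨a, rfl⟩ | ⟨a, rfl⟩)
      · exact stab_index a
      · exact hBi a
  have hdisj : Disjoint (Set.range A) (Set.range B) := by
    rw [Set.disjoint_left]
    rintro _ ⟨a, rfl⟩ ⟨b, hb⟩
    -- B b = stabilizer a
    obtain ⟨g, hg⟩ : ∃ g : G, g b = a0 := ⟨Equiv.swap b a0, Equiv.swap_apply_left _ _⟩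
    apply exo_ne_stab β ((θ.symm g) a)
    ext x
    rw [hθ, MulAction.mem_stabilizer_iff, Equiv.Perm.smul_def]
    have h2 : (θ.symm g)⁻¹ * x * (θ.symm g) ∈ B b ↔ (θ.symm g)⁻¹ * x * (θ.symm g) ∈ A a := by rw [hb]
    have h3 : ((θ.symm g)⁻¹ * x * (θ.symm g) ∈ A a) ↔ x ((θ.symm g) a) = (θ.symm g) a := by
      change ((θ.symm g)⁻¹ * x * (θ.symm g)) a = a ↔ _
      rw [Equiv.Perm.mul_apply, Equiv.Perm.mul_apply, Equiv.Perm.inv_eq_iff_eq]
    have h4 : ((θ.symm g)⁻¹ * x * (θ.symm g) ∈ B b) ↔ θ x a0 = a0 := by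
      change θ ((θ.symm g)⁻¹ * x * (θ.symm g)) b = b ↔ _
      rw [map_mul, map_mul, map_inv, MulEquiv.apply_symm_apply, Equiv.Perm.mul_apply, Equiv.Perm.mul_apply, hg,
        Equiv.Perm.inv_eq_iff_eq, hg]
    rw [← h3, ← h2, h4]
  have : Nat.card {H : Subgroup G // H.index = 6} = ({H : Subgroup G | H.index = 6}).ncard := rfl
  rw [this, hset, Set.ncard_union_eq hdisj]
  rw [← Set.image_univ, Set.ncard_image_of_injective _ hA, ← Set.image_univ, Set.ncard_image_of_injective _ hB]
  simp


/-- The symmetric group S_6 has exactly 12 subgroups of index 6; each of them is isomorphic to S_5, and at least one of them is not the stabilizer of any point. -/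
theorem result : Nat.card {H : Subgroup (Equiv.Perm (Fin 6)) // H.index = 6} = 12 ∧ (∀ H : Subgroup (Equiv.Perm (Fin 6)), H.index = 6 → Nonempty (H ≃* Equiv.Perm (Fin 5))) ∧ ∃ H : Subgroup (Equiv.Perm (Fin 6)), H.index = 6 ∧ ∀ a : Fin 6, H ≠ MulAction.stabilizer (Equiv.Perm (Fin 6)) a := by
  exact main

end Cfsg.Agent.S5945
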