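import Cfsg.Statements.S5950
import Cfsg.Agent.Lib.ElusiveUni
import Cfsg.Agent.Lib.SubspaceCount2

set_option autoImplicit false
open scoped MatrixGroups
open Cfsg

namespace Cfsg.Agent.S5950

open Cfsg.Agent.Lib.ElusiveLin Cfsg.Agent.Lib.InvSub Cfsg.Agent.Lib.SubspaceCount
  Cfsg.Agent.Lib.ElusiveUni Cfsg.Agent.Lib.PrimeOrd

/-- Elements of prime order of PSL_n(q) fixing no decomposition `F^n = U ⊕ W` with `dim U = m`. Here `T = PSL_n(F)` for a field `F` with `q = p^f` elements (`n ≥ 2`, `(n, q) ≠ (2, 2), (2, 3)`); an element of `T` of prime order `r` is represented by a matrix `x` of determinant 1 with `x^r` scalar and `x` not scalar; `i` denotes the multiplicative order of `q` modulo `r` (when `r ≠ p`), and `(a)_r` the `r`-part of `a`. Let `n ≥ 3`, `1 ≤ m < n/2`, and let `r` be a prime dividing the number of such decompositions (unordered pairs `{U, W}` of complementary subspaces with `dim U = m`; since `m ≠ n − m` these are the ordered pairs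 with `dim U = m`). Then every element of `T` of order `r` fixes such a pair (fixes both `U` and `W` for some complementary `U, W` with `dim U = m`) if and only if one of: (i) `r = p > 2` and every partition of `n` into parts of size at most `p` contains, as a sub-multiset, a partition of `m`; (ii) `r = p = 2` and `n` is odd or `m` is even; (iii) `r ≠ p`, `i = 1`, and `r ∣ m` or `(q−1)_r ≥ (n)_r` (with `q ≡ 1 (mod 4)` required when `r = 2` and `n` is even); (iv) `r ≠ p`, `2 ≤ i ≤ m` and `n mod i ≥ m mod i`. -/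
theorem result {F : Type*} [Field F] [Fintype F] {p : ℕ} [Fact p.Prime] [CharP F p] {q : ℕ} (hq : Fintype.card F = q)
    (n m : ℕ) (hn : 3 ≤ n) (hm : 1 ≤ m) (hmn : 2 * m < n)
    (r : ℕ) [Fact r.Prime]
    (hrΩ : r ∣ Nat.card {P : Submodule F (Fin n → F) × Submodule F (Fin n → F) // IsCompl P.1 P.2 ∧ Module.finrank F ↥P.1 = m}) :
    (∀ x : Matrix.SpecialLinearGroup (Fin n) F,
      (∃ c : F, ((x ^ r : Matrix.SpecialLinearGroup (Fin n) F) : Matrix (Fin n) (Fin n) F) = c • (1 : Matrix (Fin n) (Fin n) F)) →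
      (∀ c : F, (x : Matrix (Fin n) (Fin n) F) ≠ c • (1 : Matrix (Fin n) (Fin n) F)) →
      ∃ U W : Submodule F (Fin n → F), IsCompl U W ∧ Module.finrank F ↥U = m ∧
        U.map (Matrix.toLin' (x : Matrix (Fin n) (Fin n) F)) ≤ U ∧ W.map (Matrix.toLin' (x : Matrix (Fin n) (Fin n) F)) ≤ W) ↔
    ((r = p ∧ 2 < p ∧ (∀ μ : Multiset ℕ, (∀ a ∈ μ, 0 < a ∧ a ≤ p) → μ.sum = n → ∃ ν : Multiset ℕ, ν ≤ μ ∧ ν.sum = m)) ∨
     (r = p ∧ p = 2 ∧ (Odd n ∨ Even m)) ∨
     (r ≠ p ∧
      ((orderOf (q : ZMod r) = 1 ∧ (r ∣ m ∨ (padicValNat r n ≤ padicValNat r (q - 1) ∧ (r = 2 → Even n → q % 4 = 1)))) ∨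
       (2 ≤ orderOf (q : ZMod r) ∧ orderOf (q : ZMod r) ≤ m ∧ m % orderOf (q : ZMod r) ≤ n % orderOf (q : ZMod r))))) := by
  classical
  subst hq
  have hr : r.Prime := Fact.out
  have hp : p.Prime := Fact.out
  have hfr : Module.finrank F (Fin n → F) = n := by simp
  obtain ⟨k, -, hk⟩ := FiniteField.card F p
  have hpq : p ∣ Fintype.card F := by rw [hk]; exact dvd_pow_self p k.2.ne'
  simp only [← inv_iff_map_le]
  by_cases hrp : r = p
  · subst hrp
    have key := pairs_p_iff (F := F) (n := n) (p := r) (m := m) (by omega)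
    refine Iff.trans key ?_
    constructor
    · intro h
      rcases (hr.two_le).lt_or_eq with h2 | h2
      · exact Or.inl ⟨rfl, h2, h⟩
      · refine Or.inr (Or.inl ⟨rfl, h2.symm, ?_⟩)
        subst h2
        exact (two_parts (by omega)).mp h
    · rintro (⟨-, -, h⟩ | ⟨-, h2, h⟩ | ⟨h, -⟩)
      · exact h
      · subst h2
        exact (two_parts (by omega)).mpr h
      · exact absurd rfl h
  · have hrq : ¬ r ∣ Fintype.card F := by
      intro h
      rw [hk] at h
      exact hrp ((Nat.prime_dvd_prime_iff_eq hr hp).mp (hr.dvd_of_dvd_pow h))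
    have hdvd : r ∣ Nat.card {W : Submodule F (Fin n → F) // Module.finrank F W = m} := by
      obtain ⟨t, ht⟩ := exists_card_compl (F := F) (V := Fin n → F) (m := m)
      rw [ht] at hrΩ
      rcases (hr.dvd_mul).mp hrΩ with h | h
      · exact h
      · exact absurd (hr.dvd_of_dvd_pow h) hrq
    have hex := exists_dvd (F := F) (V := Fin n → F) (m := m) (by rw [hfr]; omega) hr hdvd
    rw [hfr] at hex
    have key := elusive_subspaces (F := F) (n := n) (p := p) (r := r) hrp hm (by omega) hex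
    unfold CondC at key
    have h1 : ((r = p ∧ 2 < p ∧ (∀ μ : Multiset ℕ, (∀ a ∈ μ, 0 < a ∧ a ≤ p) → μ.sum = n → ∃ ν : Multiset ℕ, ν ≤ μ ∧ ν.sum = m)) ∨
     (r = p ∧ p = 2 ∧ (Odd n ∨ Even m)) ∨
     (r ≠ p ∧
      ((orderOf ((Fintype.card F : ℕ) : ZMod r) = 1 ∧ (r ∣ m ∨ (padicValNat r n ≤ padicValNat r (Fintype.card F - 1) ∧ (r = 2 → Even n → Fintype.card F % 4 = 1)))) ∨
       (2 ≤ orderOf ((Fintype.card F : ℕ) : ZMod r) ∧ orderOf ((Fintype.card F : ℕ) : ZMod r) ≤ m ∧ m % orderOf ((Fintype.card F : ℕ) : ZMod r) ≤ n % orderOf ((Fintype.card F : ℕ) : ZMod r))))) ↔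
       ((orderOf ((Fintype.card F : ℕ) : ZMod r) = 1 ∧ (r ∣ m ∨ (padicValNat r n ≤ padicValNat r (Fintype.card F - 1) ∧ (r = 2 → Even n → Fintype.card F % 4 = 1)))) ∨
       (2 ≤ orderOf ((Fintype.card F : ℕ) : ZMod r) ∧ orderOf ((Fintype.card F : ℕ) : ZMod r) ≤ m ∧ m % orderOf ((Fintype.card F : ℕ) : ZMod r) ≤ n % orderOf ((Fintype.card F : ℕ) : ZMod r))) := by
      constructor
      · rintro (⟨h, -⟩ | ⟨h, -⟩ | ⟨-, h⟩)
        · exact absurd h hrp
        · exact absurd h hrp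
        · exact h
      · intro h
        exact Or.inr (Or.inr ⟨hrp, h⟩)
    rw [h1, ← key]
    constructor
    · intro h x hx1 hx2
      obtain ⟨U, W, -, h2, h3, -⟩ := h x hx1 hx2
      exact ⟨U, h2, h3⟩
    · intro h x hx1 hx2
      obtain ⟨U, hU, hU'⟩ := h x hx1 hx2
      obtain ⟨c, hc⟩ := hx1
      rcases structure_of hrp x c hc (by omega) with ⟨y, -, -, h2⟩ | ⟨-, h2, -⟩
      · obtain ⟨W, hW, hUW⟩ := h2.compl U hU'
        exact ⟨U, W, hUW, hU, hU', hW⟩
      · obtain ⟨W, hW, hUW⟩ := h2.compl U hU'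
        exact ⟨U, W, hUW, hU, hU', hW⟩

end Cfsg.Agent.S5950
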