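import Cfsg.Statements.S5951
import Cfsg.Agent.Lib.ElusiveLin
import Cfsg.Agent.Lib.SubspaceCount2

set_option autoImplicit false
open scoped MatrixGroups
open Cfsg

namespace Cfsg.Agent.S5951

open Cfsg.Agent.Lib.ElusiveLin Cfsg.Agent.Lib.InvSub Cfsg.Agent.Lib.SubspaceCount Cfsg.Agent.Lib.PrimeOrd

lemma exists_dk2 {n e s a m : ℕ} (ha : 0 < a) (hn : n = e + s * a) (hm : 2 * m ≤ n) (h1 : a ≤ m) (h2 : 2 * (m % a) ≤ e) :
    ∃ d k d' k', d + d' ≤ e ∧ k + k' ≤ s ∧ m = d + k * a ∧ m = d' + k' * a := by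
  have hdm := Nat.mod_add_div m a
  by_cases hle : 2 * (m / a) ≤ s
  · exact ⟨m % a, m / a, m % a, m / a, by omega, by omega, by rw [mul_comm (m / a)]; omega, by rw [mul_comm (m / a)]; omega⟩
  · push Not at hle
    by_cases h3 : m / a ≤ s
    · -- k = m / a, k' = s - m / a
      have h4 : s - m / a ≤ m / a := by omega
      have h5 : (s - m / a) * a ≤ (m / a) * a := Nat.mul_le_mul_right a h4
      have h6 : (m / a) * a ≤ m := Nat.div_mul_le_self m a
      have h7 : (m / a) * a + (s - m / a) * a = s * a := by rw [← Nat.add_mul]; congr 1; omega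
      exact ⟨m - (m / a) * a, m / a, m - (s - m / a) * a, s - m / a, by omega, by omega, by omega, by omega⟩
    · push Not at h3
      have h5 : s * a ≤ (m / a) * a := Nat.mul_le_mul_right a h3.le
      have h6 : (m / a) * a ≤ m := Nat.div_mul_le_self m a
      exact ⟨m - s * a, s, m, 0, by omega, by omega, by omega, by omega⟩


/-- Elements of prime order of PSL_n(q) fixing no pair of subspaces `U < W` with `dim U = m`, `dim W = n − m`. Here `T = PSL_n(F)` for a field `F` with `q = p^f` elements (`n ≥ 2`, `(n, q) ≠ (2, 2), (2, 3)`); an element of `T` of prime order `r` is represented by a matrix `x` of determinant 1 with `x^r` scalar and `x` not scalar; `i` denotes the multiplicative order of `q` modulo `r` (when `r ≠ p`), and `(a)_r` the `r`-part of `a`. Let `1 ≤ m < n/2` and let `r` be a prime dividing the number of such pairs. Then every element of `T` of order `r` fixes such a pair (both `U` and `W`) if and only if `r ≠ p` and either (i) `i = 1` and (`r ∣ m`, or `(q−1)_r ≥ (n)_r` with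 `q ≡ 1 (mod 4)` required when `r = 2` and `n` is even), or (ii) `2 ≤ i ≤ m` and `n mod i ≥ 2 (m mod i)`. -/
theorem result {F : Type*} [Field F] [Fintype F] {p : ℕ} [Fact p.Prime] [CharP F p] {q : ℕ} (hq : Fintype.card F = q)
    (n m : ℕ) (hn : 2 ≤ n) (hT : (n, q) ≠ (2, 2) ∧ (n, q) ≠ (2, 3)) (hm : 1 ≤ m) (hmn : 2 * m < n)
    (r : ℕ) [Fact r.Prime]
    (hrΩ : r ∣ Nat.card {P : Submodule F (Fin n → F) × Submodule F (Fin n → F) //
        P.1 ≤ P.2 ∧ Module.finrank F ↥P.1 = m ∧ Module.finrank F ↥P.2 = n - m}) :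
    (∀ x : Matrix.SpecialLinearGroup (Fin n) F,
      (∃ c : F, ((x ^ r : Matrix.SpecialLinearGroup (Fin n) F) : Matrix (Fin n) (Fin n) F) = c • (1 : Matrix (Fin n) (Fin n) F)) →
      (∀ c : F, (x : Matrix (Fin n) (Fin n) F) ≠ c • (1 : Matrix (Fin n) (Fin n) F)) →
      ∃ U W : Submodule F (Fin n → F), U ≤ W ∧ Module.finrank F ↥U = m ∧ Module.finrank F ↥W = n - m ∧
        U.map (Matrix.toLin' (x : Matrix (Fin n) (Fin n) F)) ≤ U ∧ W.map (Matrix.toLin' (x : Matrix (Fin n) (Fin n) F)) ≤ W) ↔
    (r ≠ p ∧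
      ((orderOf (q : ZMod r) = 1 ∧ (r ∣ m ∨ (padicValNat r n ≤ padicValNat r (q - 1) ∧ (r = 2 → Even n → q % 4 = 1)))) ∨
       (2 ≤ orderOf (q : ZMod r) ∧ orderOf (q : ZMod r) ≤ m ∧ 2 * (m % orderOf (q : ZMod r)) ≤ n % orderOf (q : ZMod r)))) := by
  subst hq
  have hr : r.Prime := Fact.out
  have hp : p.Prime := Fact.out
  have hfr : Module.finrank F (Fin n → F) = n := by simp
  have hfr' : Module.finrank F (Fin (n - m) → F) = n - m := by simp
  obtain ⟨k, -, hk⟩ := FiniteField.card F p
  have hpq : p ∣ Fintype.card F := by rw [hk]; exact dvd_pow_self p k.2.ne'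
  have hqpos : 0 < Fintype.card F := Fintype.card_pos
  rw [card_flags (F := F) (V := Fin n → F) (m := m) (k := n - m)] at hrΩ
  have hdual := card_dual (F := F) (V := Fin n → F) (m := m) (by rw [hfr]; omega)
  rw [hfr] at hdual
  rw [hdual] at hrΩ
  have hdiv := (Nat.Prime.dvd_mul hr).mp hrΩ
  have hrp : r ≠ p := by
    rintro rfl
    rcases hdiv with h | h
    · exact not_dvd_card (F := F) (V := Fin n → F) (m := m) (by rw [hfr]; omega) hr hpq h
    · exact not_dvd_card (F := F) (V := Fin (n - m) → F) (m := m) (by rw [hfr']; omega) hr hpq h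
  have hex : ∃ j < 2 * m, r ∣ Fintype.card F ^ (n - j) - 1 := by
    rcases hdiv with h | h
    · obtain ⟨j, hj, hj'⟩ := exists_dvd (F := F) (V := Fin n → F) (m := m) (by rw [hfr]; omega) hr h
      rw [hfr] at hj'
      exact ⟨j, by omega, hj'⟩
    · obtain ⟨j, hj, hj'⟩ := exists_dvd (F := F) (V := Fin (n - m) → F) (m := m) (by rw [hfr']; omega) hr h
      rw [hfr', Nat.sub_sub] at hj'
      exact ⟨m + j, by omega, hj'⟩
  have hipos := order_pos (F := F) (p := p) (r := r) hrp
  set i := orderOf ((Fintype.card F : ℕ) : ZMod r) with hi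
  have hi1 : i = 1 ↔ r ∣ Fintype.card F - 1 := orderOf_eq_one_iff hqpos
  have hfold : (padicValNat r n ≤ padicValNat r (Fintype.card F - 1) ∧ (r = 2 → Even n → Fintype.card F % 4 = 1)) ↔
      CondC (Fintype.card F) n r := Iff.rfl
  rw [hfold]
  constructor
  · intro h
    refine ⟨hrp, ?_⟩
    by_cases h1 : i = 1
    · left
      refine ⟨h1, ?_⟩
      by_contra hcon
      push Not at hcon
      obtain ⟨hrm, hC⟩ := hcon
      have hrn : r ∣ n := by
        by_contra hrn
        apply hC
        refine ⟨by rw [padicValNat.eq_zero_of_not_dvd hrn]; exact Nat.zero_le _, ?_⟩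
        rintro rfl he
        exact absurd (even_iff_two_dvd.mp he) hrn
      obtain ⟨c, hc, hdet⟩ := exists_typeC hr (hi1.mp h1) (by omega) hrn hC
      obtain ⟨x, hx, hss, hE⟩ := exists_typeC_elt (n := n) hr hc (Nat.mul_div_cancel' hrn).symm hdet
      obtain ⟨e, s, hty, hnes⟩ := ty_top hss
      have he : e = 0 := by
        rw [← hty.fin_e, hE]; simp
      have hs : 0 < s := by
        rcases Nat.eq_zero_or_pos s with h0 | h0
        · rw [h0, he] at hnes; omega
        · exact h0
      obtain ⟨W, -, -, hWm, -, hW, -⟩ := h x ⟨c, by rw [← tl_eq_smul_iff, ← tl_pow, hx]⟩ (fun z hz =>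
        nonscalar_of_ty hss hr.two_le hty hs z ((tl_eq_smul_iff x z).mpr hz))
      have := hss.dvd (inv_iff_map_le.mpr hW) (by rw [hE]; exact disjoint_bot_left)
      rw [hWm] at this
      exact hrm this
    · right
      have hi2 : 2 ≤ i := by omega
      refine ⟨hi2, ?_⟩
      obtain ⟨j, hj, hjd⟩ := hex
      have hij : i ∣ n - j := orderOf_dvd_of_dvd hqpos hjd
      have hin : i ≤ n := le_trans (Nat.le_of_dvd (by omega) hij) (Nat.sub_le _ _)
      have hs : 0 < n / i := Nat.div_pos hin hipos
      obtain ⟨x, f, -, -, hxr, -, hss, hty⟩ := exists_typeB (F := F) (n := n) (s := n / i) (k := n % i) hrp hi2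
        (by rw [← hi, mul_comm]; exact (Nat.mod_add_div n i).symm)
      rw [← hi] at hss hty
      obtain ⟨U, W, hUW, hUm, hWm, hU, hW⟩ := h x ⟨1, by rw [← tl_eq_smul_iff, ← tl_pow, hxr, one_smul]⟩ (fun z hz =>
        nonscalar_of_ty hss hi2 hty hs z ((tl_eq_smul_iff x z).mpr hz))
      have hUi : Inv (tl x) U := inv_iff_map_le.mpr hU
      have hWi : Inv (tl x) W := inv_iff_map_le.mpr hW
      obtain ⟨W', hW', hcompl⟩ := hss.compl W hWi
      have hW'm : Module.finrank F W' = m := by
        have := Submodule.finrank_add_eq_of_isCompl hcompl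
        rw [hfr] at this
        omega
      obtain ⟨d, k', hUty⟩ := hss.exists_ty hUi
      obtain ⟨d', k'', hW'ty⟩ := hss.exists_ty hW'
      have hdis : Disjoint U W' := hcompl.disjoint.mono_left hUW
      have hsum := hUty.sup hW'ty hdis
      have hd : d + d' ≤ n % i := by
        rw [← hsum.fin_e, ← hty.fin_e]
        exact Submodule.finrank_mono (inf_le_inf_right _ le_top)
      have hmd := hUty.fin
      rw [hUm] at hmd
      have hmd' := hW'ty.fin
      rw [hW'm] at hmd'
      have hmod := Nat.mod_lt n hipos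
      rcases Nat.eq_zero_or_pos k' with h0 | h0
      · exfalso
        subst h0
        have h5 : n % i ≤ j := by
          obtain ⟨t, ht⟩ := hij
          have h6 : n = j + i * t := by omega
          rw [h6, Nat.add_mul_mod_self_left]
          exact Nat.mod_le _ _
        rcases Nat.eq_zero_or_pos k'' with h7 | h7
        · subst h7; omega
        · have h8 : i ≤ k'' * i := Nat.le_mul_of_pos_left i h7
          omega
      · have h5 : i ≤ k' * i := Nat.le_mul_of_pos_left i h0
        have e1 : m % i = d := by rw [hmd, Nat.add_mul_mod_self_right]; exact Nat.mod_eq_of_lt (by omega)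
        have e2 : m % i = d' := by rw [hmd', Nat.add_mul_mod_self_right]; exact Nat.mod_eq_of_lt (by omega)
        exact ⟨by omega, by omega⟩
  · rintro ⟨-, h⟩ x ⟨c, hx⟩ _
    -- reduce to numbers
    have main : ∀ (y : F) (a e s : ℕ), 0 < a → SS (tl x) y a → Ty (tl x) y a ⊤ e s → n = e + s * a →
        (∃ d k d' k', d + d' ≤ e ∧ k + k' ≤ s ∧ m = d + k * a ∧ m = d' + k' * a) →
        ∃ U W : Submodule F (Fin n → F), U ≤ W ∧ Module.finrank F ↥U = m ∧ Module.finrank F ↥W = n - m ∧
        U.map (Matrix.toLin' (x : Matrix (Fin n) (Fin n) F)) ≤ U ∧ W.map (Matrix.toLin' (x : Matrix (Fin n) (Fin n) F)) ≤ W := by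
      rintro y a e s ha hss hty hnes ⟨d, k, d', k', h1, h2, h3, h4⟩
      obtain ⟨U, C, hU, hC, hUC, hsup⟩ := hss.split hty (d := d) (k := k) (by omega) (by omega)
      obtain ⟨W', M, hW', hM, hWM, hsup'⟩ := hss.split hC (d := d') (k := k') (by omega) (by omega)
      have hMC : M ≤ C := by rw [← hsup']; exact le_sup_right
      have hdis : Disjoint U M := hUC.mono_right hMC
      have hUM := hU.sup hM hdis
      refine ⟨U, U ⊔ M, le_sup_left, by rw [hU.fin, ← h3], ?_, inv_iff_map_le.mp hU.inv, inv_iff_map_le.mp hUM.inv⟩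
      have e1 := Submodule.finrank_sup_add_finrank_inf_eq U M
      rw [hdis.eq_bot, finrank_bot] at e1
      have e2 := Submodule.finrank_sup_add_finrank_inf_eq W' M
      rw [hWM.eq_bot, finrank_bot, hsup'] at e2
      have e3 := Submodule.finrank_sup_add_finrank_inf_eq U C
      rw [hUC.eq_bot, finrank_bot, hsup, finrank_top, hfr] at e3
      have e4 := hU.fin
      have e5 := hW'.fin
      omega
    rcases structure_of hrp x c hx (by omega) with ⟨y, hy0, hy, hss⟩ | ⟨hc, hss, hE, k, hk, hnk, hdet⟩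
    · obtain ⟨e, s, hty, hnes⟩ := ty_top hss
      rw [← hi] at hnes hss hty
      refine main y i e s hipos hss hty hnes (exists_dk2 hipos hnes hmn.le ?_ ?_)
      · rcases h with ⟨h1, -⟩ | ⟨h2, h3, h4⟩
        · omega
        · exact h3
      · rcases h with ⟨h1, -⟩ | ⟨h2, h3, h4⟩
        · rw [h1, Nat.mod_one]; omega
        · refine h4.trans ?_
          rw [hnes, Nat.add_mul_mod_self_right]
          exact Nat.mod_le _ _
    · obtain ⟨e, s, hty, hnes⟩ := ty_top hss
      have he : e = 0 := by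
        rw [← hty.fin_e, hE]; simp
      rcases h with ⟨h1, h2⟩ | ⟨h2, -, -⟩
      · rcases h2 with h2 | h2
        · exact main 0 r e s hr.pos hss hty hnes (exists_dk2 hr.pos hnes hmn.le (Nat.le_of_dvd (by omega) h2)
            (by rw [Nat.mod_eq_zero_of_dvd h2]; omega))
        · exact (not_typeC hr hc hnk hk hdet h2).elim
      · exfalso
        have h5 : ¬ r ∣ Fintype.card F - 1 := fun h => by
          have := hi1.mpr h; omega
        obtain ⟨b, hb⟩ := exists_root_of_not_dvd hr h5 c
        exact hc b hb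

end Cfsg.Agent.S5951
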