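import Cfsg.Statements.S5953
import Cfsg.Agent.Lib.UnTI6

set_option autoImplicit false
open scoped MatrixGroups
open Cfsg

namespace Cfsg.Agent.S5953

open Cfsg.Agent.Lib.InvSub Cfsg.Agent.Lib.PrimeOrd Cfsg.Agent.Lib.Sesq Cfsg.Agent.Lib.UniPair Cfsg.Agent.Lib.UnND Cfsg.Agent.Lib.UnTI


/-- Elements of prime order of PSU_n(q) with no fixed totally isotropic `m`-space. Here `T = PSU_n(q)` (`n ≥ 3`, `(n, q) ≠ (3, 2)`), realised through the matrices of determinant 1 over the field `F` with `q²` elements preserving the Hermitian form `h(u, v) = Σ u_i v_i^q`; an element of `T` of prime order `r` is such a matrix `x` with `x^r` scalar and `x` not scalar. For `r ≠ p` let `i` be the multiplicative order of `q` modulo `r`, `b = i/2` for `i` even and `b = i` for `i` odd, `c = i, i/2, 2i` according as `i ≡ 0, 2 (mod 4)` or `i` odd, and write `k = n mod c`, `ℓ = m mod b`, `ℓ' = m mod c`, `n' = ⌊n/b⌋`, `m' = ⌊m/b⌋`, `s = (r−1)/b`; `(a)_r` is the `r`-part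 of `a`. Let `1 ≤ m ≤ n/2` and let `r` be a prime dividing the number of totally isotropic `m`-spaces. Then every element of `T` of order `r` fixes a totally isotropic `m`-space if and only if either (i) `r = 2`, `p ≠ 2`, and (`m < n/2` or `(q+1)_2 ≤ (n)_2`); or (ii) `r ≠ p`, `r > 2`, `b ≤ m`, `k ≥ 2ℓ`, and either `i ≢ 2 (mod 4)`, or `i ≡ 2 (mod 4)`, `n' − 2m' ≥ s` and (`i > 2`, or `i = 2` and (`r ∣ m` or `(q+1)_r ≥ (n)_r`)). -/
theorem result {F : Type*} [Field F] [Fintype F] {p : ℕ} [Fact p.Prime] [CharP F p] {q : ℕ} (hq : Fintype.card F = q ^ 2)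
    (n m : ℕ) (hn : 3 ≤ n) (hT : (n, q) ≠ (3, 2)) (hm : 1 ≤ m) (hmn : 2 * m ≤ n)
    (r : ℕ) [Fact r.Prime]
    (hrΩ : r ∣ Nat.card {W : Submodule F (Fin n → F) // Module.finrank F ↥W = m ∧ (∀ u ∈ W, ∀ v ∈ W, Cfsg.hermForm n F q u v = 0)})
    (i b c : ℕ) (hi : i = orderOf (q : ZMod r)) (hb : b = if Even i then i / 2 else i)
    (hc : c = if i % 4 = 0 then i else if i % 4 = 2 then i / 2 else 2 * i) :
    (∀ x : Matrix.SpecialLinearGroup (Fin n) F, x ∈ Cfsg.SU n F q →
      (∃ z : F, ((x ^ r : Matrix.SpecialLinearGroup (Fin n) F) : Matrix (Fin n) (Fin n) F) = z • (1 : Matrix (Fin n) (Fin n) F)) →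
      (∀ z : F, (x : Matrix (Fin n) (Fin n) F) ≠ z • (1 : Matrix (Fin n) (Fin n) F)) →
      ∃ W : Submodule F (Fin n → F), Module.finrank F ↥W = m ∧ (∀ u ∈ W, ∀ v ∈ W, Cfsg.hermForm n F q u v = 0) ∧
        W.map (Matrix.toLin' (x : Matrix (Fin n) (Fin n) F)) ≤ W) ↔
    ((r = 2 ∧ p ≠ 2 ∧ (2 * m < n ∨ padicValNat 2 (q + 1) ≤ padicValNat 2 n)) ∨
     (r ≠ p ∧ 2 < r ∧ b ≤ m ∧ 2 * (m % b) ≤ n % c ∧
       (i % 4 ≠ 2 ∨ (i % 4 = 2 ∧ (r - 1) / b + 2 * (m / b) ≤ n / b ∧
         (2 < i ∨ (i = 2 ∧ (r ∣ m ∨ padicValNat r n ≤ padicValNat r (q + 1)))))))) := by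
  have hr : r.Prime := Fact.out
  have hp : p.Prime := Fact.out
  have hn0 : 0 < n := by omega
  have hcard : r ∣ Nat.card {W : Submodule F (Fin n → F) // Module.finrank F W = m ∧ TI (HF hq n) W} := hrΩ
  have hred := su_red hq (n := n) (r := r) (fun T => ∃ W : Submodule F (Fin n → F), Module.finrank F W = m ∧ TI (HF hq n) W ∧ Inv T W)
  have hgoal : (∀ x : Matrix.SpecialLinearGroup (Fin n) F, x ∈ Cfsg.SU n F q →
      (∃ z : F, ((x ^ r : Matrix.SpecialLinearGroup (Fin n) F) : Matrix (Fin n) (Fin n) F) = z • (1 : Matrix (Fin n) (Fin n) F)) →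
      (∀ z : F, (x : Matrix (Fin n) (Fin n) F) ≠ z • (1 : Matrix (Fin n) (Fin n) F)) →
      ∃ W : Submodule F (Fin n → F), Module.finrank F ↥W = m ∧ (∀ u ∈ W, ∀ v ∈ W, Cfsg.hermForm n F q u v = 0) ∧
        W.map (Matrix.toLin' (x : Matrix (Fin n) (Fin n) F)) ≤ W) ↔
      (∀ T : Module.End F (Fin n → F), Iso (HF hq n) T → LinearMap.det T = 1 → (∃ z : F, T ^ r = z • (1 : Module.End F (Fin n → F))) →
      (∀ z : F, T ≠ z • (1 : Module.End F (Fin n → F))) → ∃ W : Submodule F (Fin n → F), Module.finrank F W = m ∧ TI (HF hq n) W ∧ Inv T W) := by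
    rw [← hred]
    refine forall_congr' fun x => imp_congr_right fun _ => imp_congr_right fun _ => imp_congr_right fun _ => ?_
    refine exists_congr fun W => and_congr_right fun _ => and_congr Iff.rfl ?_
    exact (inv_iff_map_le).symm
  rw [hgoal]
  have hbb : b = bU i := by rw [hb]; rfl
  have hcc : c = cU i := by rw [hc]; rfl
  have hrp : r ≠ p := by
    rintro rfl
    exact not_p_dvd_ti (p := r) hq hmn hcard
  have hne : (r : F) ≠ 0 := by
    intro h
    rw [CharP.cast_eq_zero_iff F p] at h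
    exact hrp ((Nat.prime_dvd_prime_iff_eq hp hr).1 h).symm
  by_cases h2 : r = 2
  · subst h2
    have h2' : (2 : F) ≠ 0 := by exact_mod_cast hne
    rw [r2_iff_ti hq h2' (by omega) hmn]
    have hp2 : p ≠ 2 := fun h => hrp h.symm
    simp [hp2]
  · have h3 : 2 < r := by have := hr.two_le; omega
    have ho : Odd r := hr.odd_of_ne_two h2
    have hi2 : i = 2 ↔ r ∣ q + 1 := by rw [hi]; exact ord_eq_two_iff hr ho
    by_cases hrq : r ∣ q + 1
    · rw [two_iff_ti hq hr ho hne hrq (by omega) hm hmn]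
      have h4 := hi2.2 hrq
      have hb1 : b = 1 := by rw [hbb, h4]; rfl
      have hc1 : c = 1 := by rw [hcc, h4]; rfl
      subst hb1
      subst hc1
      simp [h2, h3, h4, hrp, hm, Nat.mod_one]
    · have hi2' : i ≠ 2 := fun h => hrq (hi2.1 h)
      have h5 := odd_red hq hn0 hr ho hne hrq (fun W => Module.finrank F W = m ∧ TI (HF hq n) W)
      simp only [and_assoc] at h5
      have hi0 : 0 < i := by rw [hi]; exact (ord_q_pos hq hr hne).1
      by_cases h4 : i % 4 = 2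
      · have hi3 : 2 < i := by omega
        have hcb : c = b := by rw [hcc, hbb, cU_eq, if_pos h4]
        rw [hi] at h4 hbb
        have h6 := iff_b (b := b) hq hr ho hne h4 hbb hmn hcard
        rw [h5, h6, hcb]
        rw [← hi] at h4
        simp [hrp, h2, h3, h4, hi3, hi2']
      · rw [hi] at h4 hbb hcc
        have h6 := iff_a (b := b) (c := c) hq hr ho hne h4 hbb hcc hmn hcard
        rw [h5, h6]
        rw [← hi] at h4
        simp [hrp, h2, h3, h4]

end Cfsg.Agent.S5953
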