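import Cfsg.Statements.S5954
import Cfsg.Agent.Lib.UnND8

set_option autoImplicit false
open scoped MatrixGroups
open Cfsg

namespace Cfsg.Agent.S5954

open Cfsg.Agent.Lib.InvSub Cfsg.Agent.Lib.PrimeOrd Cfsg.Agent.Lib.Sesq Cfsg.Agent.Lib.UniPair Cfsg.Agent.Lib.UnND

theorem nd_iff' {F : Type*} [Field F] [Fintype F] {q : ℕ} (hq : Fintype.card F = q ^ 2) {n : ℕ} (W : Submodule F (Fin n → F)) :
    (∀ u ∈ W, u ≠ 0 → ∃ v ∈ W, Cfsg.hermForm n F q u v ≠ 0) ↔ ND (HF hq n) W := by
  constructor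
  · intro h w hw h'
    by_contra hw0
    obtain ⟨v, hv, hne⟩ := h w hw hw0
    exact hne (h' v hv)
  · intro h u hu hu0
    by_contra hcon
    push Not at hcon
    exact hu0 (h u hu hcon)


/-- Elements of prime order of PSU_n(q) with no fixed nondegenerate `m`-space. Here `T = PSU_n(q)` (`n ≥ 3`, `(n, q) ≠ (3, 2)`), realised through the matrices of determinant 1 over the field `F` with `q²` elements preserving the Hermitian form `h(u, v) = Σ u_i v_i^q`; an element of `T` of prime order `r` is such a matrix `x` with `x^r` scalar and `x` not scalar. For `r ≠ p` let `i` be the multiplicative order of `q` modulo `r`, `b = i/2` for `i` even and `b = i` for `i` odd, `c = i, i/2, 2i` according as `i ≡ 0, 2 (mod 4)` or `i` odd, and write `k = n mod c`, `ℓ = m mod b`, `ℓ' = m mod c`, `n' = ⌊n/b⌋`, `m' = ⌊m/b⌋`, `s = (r−1)/b`; `(a)_r` is the `r`-part of `a`. Let `1 ≤ m < n/2` and let `r` be a prime dividing the number of nondegenerate `m`-spaces. Then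 every element of `T` of order `r` fixes a nondegenerate `m`-space if and only if one of: (i) `r = p > 2` and every partition of `n` into parts of size at most `p` contains (as a sub-multiset) a partition of `m`; (ii) `r = p = 2` and (`n` is odd or `m` is even); (iii) `r = 2 ≠ p` and (`n` is odd, or `m` is even, or `(q+1)_2 ≥ (n)_2` and `q ≡ 3 (mod 4)`); (iv) `r ≠ p`, `r > 2`, and either `i ≠ 2`, `c ≤ m` and `k ≥ ℓ'`, or `i = 2` and (`r ∣ m` or `(q+1)_r ≥ (n)_r`). -/
theorem result {F : Type*} [Field F] [Fintype F] {p : ℕ} [Fact p.Prime] [CharP F p] {q : ℕ} (hq : Fintype.card F = q ^ 2)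
    (n m : ℕ) (hn : 3 ≤ n) (hT : (n, q) ≠ (3, 2)) (hm : 1 ≤ m) (hmn : 2 * m < n)
    (r : ℕ) [Fact r.Prime]
    (hrΩ : r ∣ Nat.card {W : Submodule F (Fin n → F) // Module.finrank F ↥W = m ∧ (∀ u ∈ W, u ≠ 0 → ∃ v ∈ W, Cfsg.hermForm n F q u v ≠ 0)})
    (i b c : ℕ) (hi : i = orderOf (q : ZMod r)) (hb : b = if Even i then i / 2 else i)
    (hc : c = if i % 4 = 0 then i else if i % 4 = 2 then i / 2 else 2 * i) :
    (∀ x : Matrix.SpecialLinearGroup (Fin n) F, x ∈ Cfsg.SU n F q →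
      (∃ z : F, ((x ^ r : Matrix.SpecialLinearGroup (Fin n) F) : Matrix (Fin n) (Fin n) F) = z • (1 : Matrix (Fin n) (Fin n) F)) →
      (∀ z : F, (x : Matrix (Fin n) (Fin n) F) ≠ z • (1 : Matrix (Fin n) (Fin n) F)) →
      ∃ W : Submodule F (Fin n → F), Module.finrank F ↥W = m ∧ (∀ u ∈ W, u ≠ 0 → ∃ v ∈ W, Cfsg.hermForm n F q u v ≠ 0) ∧
        W.map (Matrix.toLin' (x : Matrix (Fin n) (Fin n) F)) ≤ W) ↔
    ((r = p ∧ 2 < p ∧ (∀ μ : Multiset ℕ, (∀ a ∈ μ, 0 < a ∧ a ≤ p) → μ.sum = n → ∃ ν : Multiset ℕ, ν ≤ μ ∧ ν.sum = m)) ∨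
     (r = p ∧ p = 2 ∧ (Odd n ∨ Even m)) ∨
     (r = 2 ∧ p ≠ 2 ∧ (Odd n ∨ Even m ∨ (padicValNat 2 n ≤ padicValNat 2 (q + 1) ∧ q % 4 = 3))) ∨
     (r ≠ p ∧ 2 < r ∧ ((i ≠ 2 ∧ c ≤ m ∧ m % c ≤ n % c) ∨ (i = 2 ∧ (r ∣ m ∨ padicValNat r n ≤ padicValNat r (q + 1)))))) := by
  have hr : r.Prime := Fact.out
  have hp : p.Prime := Fact.out
  have hn0 : 0 < n := by omega
  have hcard : r ∣ Nat.card {W : Submodule F (Fin n → F) // Module.finrank F W = m ∧ ND (HF hq n) W} := by
    have e : {W : Submodule F (Fin n → F) // Module.finrank F W = m ∧ ND (HF hq n) W} ≃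
        {W : Submodule F (Fin n → F) // Module.finrank F ↥W = m ∧ (∀ u ∈ W, u ≠ 0 → ∃ v ∈ W, Cfsg.hermForm n F q u v ≠ 0)} :=
      Equiv.subtypeEquivRight (fun W => and_congr_right (fun _ => (nd_iff' hq W).symm))
    rw [Nat.card_congr e]; exact hrΩ
  have hred := su_red hq (n := n) (r := r) (fun T => ∃ W : Submodule F (Fin n → F), Module.finrank F W = m ∧ ND (HF hq n) W ∧ Inv T W)
  have hgoal : (∀ x : Matrix.SpecialLinearGroup (Fin n) F, x ∈ Cfsg.SU n F q →
      (∃ z : F, ((x ^ r : Matrix.SpecialLinearGroup (Fin n) F) : Matrix (Fin n) (Fin n) F) = z • (1 : Matrix (Fin n) (Fin n) F)) →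
      (∀ z : F, (x : Matrix (Fin n) (Fin n) F) ≠ z • (1 : Matrix (Fin n) (Fin n) F)) →
      ∃ W : Submodule F (Fin n → F), Module.finrank F ↥W = m ∧ (∀ u ∈ W, u ≠ 0 → ∃ v ∈ W, Cfsg.hermForm n F q u v ≠ 0) ∧
        W.map (Matrix.toLin' (x : Matrix (Fin n) (Fin n) F)) ≤ W) ↔
      (∀ T : Module.End F (Fin n → F), Iso (HF hq n) T → LinearMap.det T = 1 → (∃ z : F, T ^ r = z • (1 : Module.End F (Fin n → F))) →
      (∀ z : F, T ≠ z • (1 : Module.End F (Fin n → F))) → ∃ W : Submodule F (Fin n → F), Module.finrank F W = m ∧ ND (HF hq n) W ∧ Inv T W) := by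
    rw [← hred]
    refine forall_congr' fun x => imp_congr_right fun _ => imp_congr_right fun _ => imp_congr_right fun _ => ?_
    refine exists_congr fun W => and_congr_right fun _ => and_congr (nd_iff' hq W) ?_
    exact (inv_iff_map_le).symm
  rw [hgoal]
  have hbb : b = bU i := by rw [hb]; rfl
  have hcc : c = cU i := by rw [hc]; rfl
  by_cases hrp : r = p
  · -- unipotent
    subst hrp
    have h5 := unip_red (p := r) hq hn0 (fun W => Module.finrank F W = m ∧ ND (HF hq n) W)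
    simp only [and_assoc] at h5
    rw [h5, unip_iff hq (by omega)]
    by_cases h2 : r = 2
    · subst h2
      rw [parts_two (by omega)]
      simp
    · have h3 : 2 < r := by have := hr.two_le; omega
      simp [h2, h3]
  · have hne : (r : F) ≠ 0 := by
      intro h
      rw [CharP.cast_eq_zero_iff F p] at h
      exact hrp ((Nat.prime_dvd_prime_iff_eq hp hr).1 h).symm
    by_cases h2 : r = 2
    · subst h2
      have h2' : (2 : F) ≠ 0 := by exact_mod_cast hne
      rw [r2_iff hq h2' hn0 (by omega)]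
      have hp2 : p ≠ 2 := fun h => hrp h.symm
      simp [hrp, hp2]
    · have h3 : 2 < r := by have := hr.two_le; omega
      have ho : Odd r := hr.odd_of_ne_two h2
      have hi2 : i = 2 ↔ r ∣ q + 1 := by rw [hi]; exact ord_eq_two_iff hr ho
      by_cases hrq : r ∣ q + 1
      · rw [two_iff hq hr ho hne hrq hn0 (by omega)]
        have := hi2.2 hrq
        simp [hrp, h2, h3, this]
      · have hi2' : i ≠ 2 := fun h => hrq (hi2.1 h)
        have h5 := odd_red hq hn0 hr ho hne hrq (fun W => Module.finrank F W = m ∧ ND (HF hq n) W)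
        simp only [and_assoc] at h5
        rw [h5, Cfsg.Agent.Lib.UnND.odd_iff hq hr ho hne hmn hcard, ← hi, ← hcc]
        simp [hrp, h2, h3, hi2']

end Cfsg.Agent.S5954
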