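import Cfsg.Statements.S5955
import Cfsg.Agent.Lib.SpTI6

set_option autoImplicit false
open scoped MatrixGroups
open Cfsg

namespace Cfsg.Agent.S5955

open Cfsg.Agent.Lib.Sesq Cfsg.Agent.Lib.InvSub Cfsg.Agent.Lib.PrimeOrd Module Cfsg.Agent.Lib Cfsg.Agent.Lib.SpTI

lemma fixes_iff {F : Type*} [Field F] {d m : ℕ} (M : Module.End F (Fin d ⊕ Fin d → F)) :
    (∃ W : Submodule F (Fin d ⊕ Fin d → F), Module.finrank F ↥W = m ∧ (∀ u ∈ W, ∀ v ∈ W, Cfsg.sympForm d F u v = 0) ∧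
        W.map M ≤ W) ↔ TIFix (AltSim.JB (F := F) d) M m := by
  constructor
  · rintro ⟨W, h1, h2, h3⟩
    exact ⟨W, inv_iff_map_le.mpr h3, h2, h1⟩
  · rintro ⟨W, h1, h2, h3⟩
    exact ⟨W, h3, h2, inv_iff_map_le.mp h1⟩

lemma fixes_smul {F V : Type*} [Field F] [AddCommGroup V] [Module F V] {B : V →ₗ[F] V →ₗ[F] F} {S T : Module.End F V}
    (h : ∀ W : Submodule F V, W.map S = W.map T) {m : ℕ} : TIFix B S m ↔ TIFix B T m := by
  constructor
  · rintro ⟨W, h1, h2, h3⟩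
    exact ⟨W, inv_iff_map_le.mpr (by rw [← h]; exact inv_iff_map_le.mp h1), h2, h3⟩
  · rintro ⟨W, h1, h2, h3⟩
    exact ⟨W, inv_iff_map_le.mpr (by rw [h]; exact inv_iff_map_le.mp h1), h2, h3⟩

/-- Elements of prime order of PSp_n(q) with no fixed totally isotropic `m`-space. Here `T = PSp_n(q)` with `n = 2d ≥ 4`, `(n, q) ≠ (4, 2)`, realised through the symplectic matrices over the field `F` with `q` elements (preserving the standard alternating form); an element of `T` of prime order `r` is such a matrix `x` with `x^r` scalar and `x` not scalar. For `r ≠ p` let `i` be the multiplicative order of `q` modulo `r`, `c = i` for `i` even and `c = 2i` for `i` odd, and write `k = n mod c`, `ℓ = m mod i`, `ℓ' = m mod c`, `n' = ⌊n/i⌋`, `m' = ⌊m/i⌋`, `t = (r−1)/i`. Let `1 ≤ m ≤ n/2` and let `r` be a prime dividing the number of totally isotropic `m`-spaces. Then every element of `T` of order `r` fixes a totally isotropic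 `m`-space if and only if either (i) `r = 2 ≠ p` and (`m` is even or `q ≡ 1 (mod 4)`); or (ii) `r ≠ p`, `r > 2`, `i ≤ m`, `k ≥ 2ℓ`, and (`i` is odd or `n' − 2m' ≥ t`). -/
theorem result {F : Type*} [Field F] [Fintype F] {p : ℕ} [Fact p.Prime] [CharP F p] {q : ℕ} (hq : Fintype.card F = q)
    (d m : ℕ) (hd : 2 ≤ d) (hT : (d, q) ≠ (2, 2)) (hm : 1 ≤ m) (hmd : m ≤ d)
    (r : ℕ) [Fact r.Prime]
    (hrΩ : r ∣ Nat.card {W : Submodule F (Fin d ⊕ Fin d → F) // Module.finrank F ↥W = m ∧ (∀ u ∈ W, ∀ v ∈ W, Cfsg.sympForm d F u v = 0)})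
    (i c : ℕ) (hi : i = orderOf (q : ZMod r)) (hc : c = if Even i then i else 2 * i) :
    (∀ x : ↥(Matrix.symplecticGroup (Fin d) F),
      (∃ z : F, ((x ^ r : ↥(Matrix.symplecticGroup (Fin d) F)) : Matrix (Fin d ⊕ Fin d) (Fin d ⊕ Fin d) F) = z • (1 : Matrix (Fin d ⊕ Fin d) (Fin d ⊕ Fin d) F)) →
      (∀ z : F, (x : Matrix (Fin d ⊕ Fin d) (Fin d ⊕ Fin d) F) ≠ z • (1 : Matrix (Fin d ⊕ Fin d) (Fin d ⊕ Fin d) F)) →
      ∃ W : Submodule F (Fin d ⊕ Fin d → F), Module.finrank F ↥W = m ∧ (∀ u ∈ W, ∀ v ∈ W, Cfsg.sympForm d F u v = 0) ∧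
        W.map (Matrix.toLin' (x : Matrix (Fin d ⊕ Fin d) (Fin d ⊕ Fin d) F)) ≤ W) ↔
    ((r = 2 ∧ p ≠ 2 ∧ (Even m ∨ q % 4 = 1)) ∨
     (r ≠ p ∧ 2 < r ∧ i ≤ m ∧ 2 * (m % i) ≤ (2 * d) % c ∧ (Odd i ∨ (r - 1) / i + 2 * (m / i) ≤ (2 * d) / i))) := by
  classical
  subst hq
  have hr : r.Prime := Fact.out
  have hp : p.Prime := Fact.out
  have hd1 : 1 ≤ d := by omega
  have hcc : c = csz F r := by rw [hc, hi]; rfl
  simp only [fixes_iff]
  -- counting
  have hcount := card_ti (jb_alt (F := F) d) (jb_nd d) m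
  rw [finrank_jb] at hcount
  have hcount' := ti_formula (q := Fintype.card F) (n := 2 * d) Fintype.one_lt_card (by omega) hcount
  have hrp : r ≠ p := not_p_dvd (by omega) hcount' hrΩ
  rcases hr.eq_two_or_odd' with h2 | ho
  · subst h2
    have h2F : (2 : F) ≠ 0 := by
      intro h
      have h3 : ((2 : ℕ) : F) = 0 := by exact_mod_cast h
      rw [CharP.cast_eq_zero_iff F p] at h3
      exact hrp ((Nat.prime_dvd_prime_iff_eq hp Nat.prime_two).mp h3).symm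
    rw [two_ti_iff h2F hmd hd1]
    constructor
    · intro h; exact Or.inl ⟨rfl, fun h' => hrp h'.symm, h⟩
    · rintro (⟨-, -, h⟩ | ⟨-, h, -⟩)
      · exact h
      · omega
  · have h2 : 2 < r := by
      have := hr.two_le
      obtain ⟨k, hk⟩ := ho
      omega
    obtain ⟨hcle, hnot⟩ := csz_of_dvd (F := F) (d := d) hmd hm hcount' hrΩ
    have hL : (∀ x : ↥(Matrix.symplecticGroup (Fin d) F),
      (∃ z : F, ((x ^ r : ↥(Matrix.symplecticGroup (Fin d) F)) : Matrix (Fin d ⊕ Fin d) (Fin d ⊕ Fin d) F) = z • (1 : Matrix (Fin d ⊕ Fin d) (Fin d ⊕ Fin d) F)) →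
      (∀ z : F, (x : Matrix (Fin d ⊕ Fin d) (Fin d ⊕ Fin d) F) ≠ z • (1 : Matrix (Fin d ⊕ Fin d) (Fin d ⊕ Fin d) F)) →
      TIFix (AltSim.JB (F := F) d) (Matrix.toLin' (x : Matrix (Fin d ⊕ Fin d) (Fin d ⊕ Fin d) F)) m) ↔
      (∀ T : Module.End F (Fin d ⊕ Fin d → F), PO F p r (AltSim.JB (F := F) d) T → T ≠ 1 →
      TIFix (AltSim.JB (F := F) d) T m) := by
      constructor
      · intro H T hT hT1
        obtain ⟨x, hx1, hx2, hx3⟩ := exists_symp_of_po hd1 hT hT1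
        rw [← hx3]; exact H x hx1 hx2
      · intro H x hx1 hx2
        obtain ⟨T, hT, hT1, hm'⟩ := exists_po_of_symp (p := p) hrp ho hd1 x hx1 hx2
        rw [fixes_smul hm']
        exact H T hT hT1
    rw [hL, odd_ti_iff hrp ho hm hmd hi hcle hnot, hcc]
    constructor
    · intro h; exact Or.inr ⟨hrp, h2, h⟩
    · rintro (⟨h, -⟩ | ⟨-, -, h⟩)
      · omega
      · exact h

end Cfsg.Agent.S5955
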