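import Cfsg.Statements.S5956
import Cfsg.Agent.Lib.SpND5

set_option autoImplicit false
open scoped MatrixGroups
open Cfsg

namespace Cfsg.Agent.S5956

open Cfsg.Agent.Lib.Sesq Cfsg.Agent.Lib.InvSub Cfsg.Agent.Lib.PrimeOrd Module Cfsg.Agent.Lib Cfsg.Agent.Lib.SpND

lemma fixes_iff {F : Type*} [Field F] {d m : ℕ} (M : Module.End F (Fin d ⊕ Fin d → F)) :
    (∃ W : Submodule F (Fin d ⊕ Fin d → F), Module.finrank F ↥W = m ∧ (∀ u ∈ W, u ≠ 0 → ∃ v ∈ W, Cfsg.sympForm d F u v ≠ 0) ∧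
        W.map M ≤ W) ↔ Fixes (AltSim.JB (F := F) d) M m := by
  constructor
  · rintro ⟨W, h1, h2, h3⟩
    refine ⟨W, inv_iff_map_le.mpr h3, fun u hu hu' => ?_, h1⟩
    by_contra hu0
    obtain ⟨v, hv, huv⟩ := h2 u hu hu0
    exact huv (hu' v hv)
  · rintro ⟨W, h1, h2, h3⟩
    refine ⟨W, h3, fun u hu hu0 => ?_, inv_iff_map_le.mp h1⟩
    by_contra hcon
    push Not at hcon
    exact hu0 (h2 u hu hcon)

lemma fixes_smul {F V : Type*} [Field F] [AddCommGroup V] [Module F V] {B : V →ₗ[F] V →ₗ[F] F} {S T : Module.End F V}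
    (h : ∀ W : Submodule F V, W.map S = W.map T) {m : ℕ} : Fixes B S m ↔ Fixes B T m := by
  constructor
  · rintro ⟨W, h1, h2, h3⟩
    exact ⟨W, inv_iff_map_le.mpr (by rw [← h]; exact inv_iff_map_le.mp h1), h2, h3⟩
  · rintro ⟨W, h1, h2, h3⟩
    exact ⟨W, inv_iff_map_le.mpr (by rw [h]; exact inv_iff_map_le.mp h1), h2, h3⟩

section
variable {F : Type*} [Field F] [Fintype F] {p : ℕ} [Fact p.Prime] [CharP F p] {d : ℕ}

lemma unip_of_symp (hd : 1 ≤ d) (x : ↥(Matrix.symplecticGroup (Fin d) F))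
    (hx1 : ∃ z : F, ((x ^ p : ↥(Matrix.symplecticGroup (Fin d) F)) : Matrix (Fin d ⊕ Fin d) (Fin d ⊕ Fin d) F) = z • (1 : Matrix (Fin d ⊕ Fin d) (Fin d ⊕ Fin d) F))
    (hx2 : ∀ z : F, (x : Matrix (Fin d ⊕ Fin d) (Fin d ⊕ Fin d) F) ≠ z • (1 : Matrix (Fin d ⊕ Fin d) (Fin d ⊕ Fin d) F)) :
    ∃ T : Module.End F (Fin d ⊕ Fin d → F), Iso (σ := RingHom.id F) (AltSim.JB (F := F) d) T ∧ T ^ p = 1 ∧ T ≠ 1 ∧
      (∀ W : Submodule F (Fin d ⊕ Fin d → F), W.map (Matrix.toLin' (x : Matrix (Fin d ⊕ Fin d) (Fin d ⊕ Fin d) F)) = W.map T) := by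
  obtain ⟨z, hz⟩ := hx1
  have hne : Nonempty (Fin d ⊕ Fin d) := ⟨Sum.inl ⟨0, by omega⟩⟩
  set S : Module.End F (Fin d ⊕ Fin d → F) := Matrix.toLin' (x : Matrix (Fin d ⊕ Fin d) (Fin d ⊕ Fin d) F) with hS
  have hSr : S ^ p = z • (1 : Module.End F _) := by
    rw [hS, ← toLin_pow, ← scalar_iff]; exact hz
  have hSi := jb_iso x.2
  rw [← hS] at hSi
  have hz2 : z ^ 2 = 1 := sq_scalar (jb_nd d) hSi hSr
  have hz3 : z = 1 ∨ z = -1 := by
    rw [pow_two] at hz2
    exact mul_self_eq_one_iff.mp hz2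
  have key : ∃ ε : F, ε * ε = 1 ∧ ε ^ p * z = 1 := by
    rcases hz3 with h | h
    · exact ⟨1, by ring, by rw [h]; ring⟩
    · rcases (Fact.out : p.Prime).eq_two_or_odd' with h2 | ho
      · subst h2
        refine ⟨1, by ring, ?_⟩
        rw [h, CharTwo.neg_eq]; ring
      · exact ⟨-1, by ring, by rw [h, ho.neg_one_pow]; ring⟩
  obtain ⟨ε, hε, hεz⟩ := key
  refine ⟨ε • S, ?_, ?_, ?_, ?_⟩
  · intro u v
    simp only [LinearMap.smul_apply, map_smul, smul_eq_mul]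
    rw [← mul_assoc, hε, one_mul]
    exact hSi u v
  · rw [smul_pow, hSr, smul_smul, hεz, one_smul]
  · intro h1
    apply hx2 ε
    rw [scalar_iff, ← hS, ← h1, smul_smul, hε, one_smul]
  · intro W
    rw [Submodule.map_smul]
    intro h0
    rw [h0, mul_zero] at hε
    exact zero_ne_one hε

lemma symp_of_unip (hd : 1 ≤ d) {T : Module.End F (Fin d ⊕ Fin d → F)} (hT : Iso (σ := RingHom.id F) (AltSim.JB (F := F) d) T)
    (hTp : T ^ p = 1) (hT1 : T ≠ 1) :
    ∃ x : ↥(Matrix.symplecticGroup (Fin d) F),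
      (∃ z : F, ((x ^ p : ↥(Matrix.symplecticGroup (Fin d) F)) : Matrix (Fin d ⊕ Fin d) (Fin d ⊕ Fin d) F) = z • (1 : Matrix (Fin d ⊕ Fin d) (Fin d ⊕ Fin d) F)) ∧
      (∀ z : F, (x : Matrix (Fin d ⊕ Fin d) (Fin d ⊕ Fin d) F) ≠ z • (1 : Matrix (Fin d ⊕ Fin d) (Fin d ⊕ Fin d) F)) ∧
      Matrix.toLin' (x : Matrix (Fin d ⊕ Fin d) (Fin d ⊕ Fin d) F) = T := by
  have hne : Nonempty (Fin d ⊕ Fin d) := ⟨Sum.inl ⟨0, by omega⟩⟩
  obtain ⟨x, hx⟩ := exists_symp hT
  refine ⟨x, ⟨1, ?_⟩, ?_, hx⟩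
  · rw [scalar_iff, toLin_pow, hx, hTp, one_smul]
  · intro z hz
    rw [scalar_iff, hx] at hz
    apply hT1
    have h1 : z ^ p = 1 := by
      rw [hz, smul_pow, one_pow] at hTp
      obtain ⟨v, hv⟩ := exists_ne (0 : Fin d ⊕ Fin d → F)
      have h2 := congrArg (fun f : Module.End F (Fin d ⊕ Fin d → F) => f v) hTp
      simp only [LinearMap.smul_apply, Module.End.one_apply] at h2
      have h3 : (z ^ p - 1) • v = 0 := by rw [sub_smul, one_smul, h2, sub_self]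
      rcases smul_eq_zero.mp h3 with h4 | h4
      · exact sub_eq_zero.mp h4
      · exact absurd h4 hv
    have h2 : (z - 1) ^ p = 0 := by rw [sub_pow_char, h1, one_pow, sub_self]
    have h3 : z = 1 := sub_eq_zero.mp (pow_eq_zero_iff (Fact.out : p.Prime).ne_zero |>.mp h2)
    rw [hz, h3, one_smul]

end

/-- Elements of prime order of PSp_n(q) with no fixed nondegenerate `m`-space. Here `T = PSp_n(q)` with `n = 2d ≥ 4`, `(n, q) ≠ (4, 2)`, realised through the symplectic matrices over the field `F` with `q` elements (preserving the standard alternating form); an element of `T` of prime order `r` is such a matrix `x` with `x^r` scalar and `x` not scalar. For `r ≠ p` let `i` be the multiplicative order of `q` modulo `r`, `c = i` for `i` even and `c = 2i` for `i` odd, and write `k = n mod c`, `ℓ = m mod i`, `ℓ' = m mod c`, `n' = ⌊n/i⌋`, `m' = ⌊m/i⌋`, `t = (r−1)/i`. Let `m` be even with `2 ≤ m < n/2` and let `r` be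 a prime dividing the number of nondegenerate `m`-spaces. Then every element of `T` of order `r` fixes a nondegenerate `m`-space if and only if one of: (i) `r = p > 2` and every partition of `n` into parts of size at most `p` in which every odd part has even multiplicity contains (as a sub-multiset) a partition of `m` in which every odd part has even multiplicity; (ii) `r = p = 2` and (`n ≡ 2 (mod 4)` or `m ≡ 0 (mod 4)`); (iii) `r = 2 ≠ p`; (iv) `r ≠ p`, `r > 2`, `c ≤ m` and `k ≥ ℓ'`. -/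
theorem result {F : Type*} [Field F] [Fintype F] {p : ℕ} [Fact p.Prime] [CharP F p] {q : ℕ} (hq : Fintype.card F = q)
    (d m : ℕ) (hd : 2 ≤ d) (hT : (d, q) ≠ (2, 2)) (hm : 2 ≤ m) (hme : Even m) (hmd : m < d)
    (r : ℕ) [Fact r.Prime]
    (hrΩ : r ∣ Nat.card {W : Submodule F (Fin d ⊕ Fin d → F) // Module.finrank F ↥W = m ∧ (∀ u ∈ W, u ≠ 0 → ∃ v ∈ W, Cfsg.sympForm d F u v ≠ 0)})
    (i c : ℕ) (hi : i = orderOf (q : ZMod r)) (hc : c = if Even i then i else 2 * i) :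
    (∀ x : ↥(Matrix.symplecticGroup (Fin d) F),
      (∃ z : F, ((x ^ r : ↥(Matrix.symplecticGroup (Fin d) F)) : Matrix (Fin d ⊕ Fin d) (Fin d ⊕ Fin d) F) = z • (1 : Matrix (Fin d ⊕ Fin d) (Fin d ⊕ Fin d) F)) →
      (∀ z : F, (x : Matrix (Fin d ⊕ Fin d) (Fin d ⊕ Fin d) F) ≠ z • (1 : Matrix (Fin d ⊕ Fin d) (Fin d ⊕ Fin d) F)) →
      ∃ W : Submodule F (Fin d ⊕ Fin d → F), Module.finrank F ↥W = m ∧ (∀ u ∈ W, u ≠ 0 → ∃ v ∈ W, Cfsg.sympForm d F u v ≠ 0) ∧
        W.map (Matrix.toLin' (x : Matrix (Fin d ⊕ Fin d) (Fin d ⊕ Fin d) F)) ≤ W) ↔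
    ((r = p ∧ 2 < p ∧ (∀ μ : Multiset ℕ, (∀ a ∈ μ, 0 < a ∧ a ≤ p) → (∀ a : ℕ, Odd a → Even (μ.count a)) → μ.sum = 2 * d →
        ∃ ν : Multiset ℕ, ν ≤ μ ∧ ν.sum = m ∧ ∀ a : ℕ, Odd a → Even (ν.count a))) ∨
     (r = p ∧ p = 2 ∧ ((2 * d) % 4 = 2 ∨ m % 4 = 0)) ∨
     (r = 2 ∧ p ≠ 2) ∨
     (r ≠ p ∧ 2 < r ∧ c ≤ m ∧ m % c ≤ (2 * d) % c)) := by
  classical
  subst hq
  have hr : r.Prime := Fact.out
  have hp : p.Prime := Fact.out
  have hd1 : 1 ≤ d := by omega
  have hcc : c = csz F r := by rw [hc, hi]; rfl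
  simp only [fixes_iff]
  by_cases hrp : r = p
  · subst hrp
    have hL : (∀ x : ↥(Matrix.symplecticGroup (Fin d) F),
      (∃ z : F, ((x ^ r : ↥(Matrix.symplecticGroup (Fin d) F)) : Matrix (Fin d ⊕ Fin d) (Fin d ⊕ Fin d) F) = z • (1 : Matrix (Fin d ⊕ Fin d) (Fin d ⊕ Fin d) F)) →
      (∀ z : F, (x : Matrix (Fin d ⊕ Fin d) (Fin d ⊕ Fin d) F) ≠ z • (1 : Matrix (Fin d ⊕ Fin d) (Fin d ⊕ Fin d) F)) →
      Fixes (AltSim.JB (F := F) d) (Matrix.toLin' (x : Matrix (Fin d ⊕ Fin d) (Fin d ⊕ Fin d) F)) m) ↔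
      (∀ T : Module.End F (Fin d ⊕ Fin d → F), Iso (σ := RingHom.id F) (AltSim.JB (F := F) d) T → T ^ r = 1 → T ≠ 1 →
      Fixes (AltSim.JB (F := F) d) T m) := by
      constructor
      · intro H T hT hTp hT1
        obtain ⟨x, hx1, hx2, hx3⟩ := symp_of_unip hd1 hT hTp hT1
        rw [← hx3]; exact H x hx1 hx2
      · intro H x hx1 hx2
        obtain ⟨T, hT, hTp, hT1, hm'⟩ := unip_of_symp hd1 x hx1 hx2
        rw [fixes_smul hm']
        exact H T hT hTp hT1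
    rw [hL]
    rcases hr.eq_two_or_odd' with h2 | ho
    · subst h2
      rw [two_iff hme hm hmd]
      constructor
      · intro h; exact Or.inr (Or.inl ⟨rfl, rfl, h⟩)
      · rintro (⟨-, h, -⟩ | ⟨-, -, h⟩ | ⟨-, h⟩ | ⟨h, -⟩)
        · omega
        · exact h
        · exact absurd rfl h
        · exact absurd rfl h
    · have h2 : 2 < r := by
        have := hr.two_le
        obtain ⟨k, hk⟩ := ho
        omega
      rw [unip_iff h2 hm hme hmd]
      constructor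
      · intro h; exact Or.inl ⟨rfl, h2, h⟩
      · rintro (⟨-, -, h⟩ | ⟨-, h, -⟩ | ⟨h', h⟩ | ⟨h, -⟩)
        · exact h
        · omega
        · exact absurd h' h
        · exact absurd rfl h
  · rcases hr.eq_two_or_odd' with h2 | ho
    · subst h2
      have h2F : (2 : F) ≠ 0 := by
        intro h
        have h3 : ((2 : ℕ) : F) = 0 := by exact_mod_cast h
        rw [CharP.cast_eq_zero_iff F p] at h3
        exact hrp ((Nat.prime_dvd_prime_iff_eq hp Nat.prime_two).mp h3).symm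
      constructor
      · intro _; exact Or.inr (Or.inr (Or.inl ⟨rfl, fun h => hrp h.symm⟩))
      · rintro - x ⟨z, hz⟩ hx2
        have hne : Nonempty (Fin d ⊕ Fin d) := ⟨Sum.inl ⟨0, by omega⟩⟩
        have hSi := jb_iso x.2
        have hSr : (Matrix.toLin' (x : Matrix (Fin d ⊕ Fin d) (Fin d ⊕ Fin d) F)) ^ 2 = z • (1 : Module.End F _) := by
          rw [← toLin_pow, ← scalar_iff]; exact hz
        have hz2 : z ^ 2 = 1 := sq_scalar (jb_nd d) hSi hSr
        have hz3 : z = 1 ∨ z = -1 := by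
          rw [pow_two] at hz2
          exact mul_self_eq_one_iff.mp hz2
        apply fixes_two h2F (jb_alt d) (jb_nd d) hSi _ hme (by rw [finrank_jb]; omega)
        rw [pow_two] at hSr
        rcases hz3 with h | h
        · left; rw [hSr, h, one_smul]
        · right; rw [hSr, h]; apply LinearMap.ext; intro v; simp
    · have h2 : 2 < r := by
        have := hr.two_le
        obtain ⟨k, hk⟩ := ho
        omega
      have hN : Nat.card {W : Submodule F (Fin d ⊕ Fin d → F) // Module.finrank F ↥W = m ∧ (∀ u ∈ W, u ≠ 0 → ∃ v ∈ W, Cfsg.sympForm d F u v ≠ 0)} =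
          Nat.card (NDS (AltSim.JB (F := F) d) m) := by
        apply Nat.card_congr
        refine Equiv.subtypeEquivRight fun W => ⟨fun h => ⟨h.1, fun u hu hu' => ?_⟩, fun h => ⟨h.1, fun u hu hu0 => ?_⟩⟩
        · by_contra hu0
          obtain ⟨v, hv, huv⟩ := h.2 u hu hu0
          exact huv (hu' v hv)
        · by_contra hcon
          push Not at hcon
          exact hu0 (h.2 u hu hcon)
      rw [hN] at hrΩ
      have hL : (∀ x : ↥(Matrix.symplecticGroup (Fin d) F),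
        (∃ z : F, ((x ^ r : ↥(Matrix.symplecticGroup (Fin d) F)) : Matrix (Fin d ⊕ Fin d) (Fin d ⊕ Fin d) F) = z • (1 : Matrix (Fin d ⊕ Fin d) (Fin d ⊕ Fin d) F)) →
        (∀ z : F, (x : Matrix (Fin d ⊕ Fin d) (Fin d ⊕ Fin d) F) ≠ z • (1 : Matrix (Fin d ⊕ Fin d) (Fin d ⊕ Fin d) F)) →
        Fixes (AltSim.JB (F := F) d) (Matrix.toLin' (x : Matrix (Fin d ⊕ Fin d) (Fin d ⊕ Fin d) F)) m) ↔
        (∀ T : Module.End F (Fin d ⊕ Fin d → F), PO F p r (AltSim.JB (F := F) d) T → T ≠ 1 →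
        Fixes (AltSim.JB (F := F) d) T m) := by
        constructor
        · intro H T hT hT1
          obtain ⟨x, hx1, hx2, hx3⟩ := exists_symp_of_po hd1 hT hT1
          rw [← hx3]; exact H x hx1 hx2
        · intro H x hx1 hx2
          obtain ⟨T, hT, hT1, hm'⟩ := exists_po_of_symp (p := p) hrp ho hd1 x hx1 hx2
          rw [fixes_smul hm']
          exact H T hT hT1
      rw [hL, odd_iff hrp ho hm hme hmd hrΩ, hcc]
      constructor
      · intro h; exact Or.inr (Or.inr (Or.inr ⟨hrp, h2, h⟩))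
      · rintro (⟨h, -⟩ | ⟨h, -⟩ | ⟨h, -⟩ | ⟨-, -, h⟩)
        · exact absurd h hrp
        · exact absurd h hrp
        · omega
        · exact h

end Cfsg.Agent.S5956
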