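import Cfsg.Statements.S5957
import Cfsg.Agent.Lib.ImpDec2

set_option autoImplicit false
open scoped MatrixGroups
open Cfsg

namespace Cfsg.Agent.S5957

open Cfsg.Agent.Lib.ImpDec Cfsg.Agent.Lib.ElusiveLin

/-- Involutions of PSL_n(q) and imprimitive subgroups. Here `T = PSL_n(F)` for a field `F` with `q = p^f` elements (`n ≥ 2`, `(n, q) ≠ (2, 2), (2, 3)`), `n = a·t` with `t ≥ 2`, and Ω is the set of direct-sum decompositions of `F^n` into `t` subspaces of dimension `a` (unordered; their number is the number of ordered ones divided by `t!`), whose stabilizers are the imprimitive subgroups of type GL_a(q) ≀ S_t (maximal except in some small cases; maximality is not assumed); an element of `T` of prime order `r` (a matrix `x` of determinant 1 with `x^r` scalar, `x` not scalar) fixes a point of Ω when it permutes the summands of some such decomposition. If the number of such decompositions is even, then every involution of `T` stabilizes one of them (the action is 2-elusive). -/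
theorem result {F : Type*} [Field F] [Fintype F] {p : ℕ} [Fact p.Prime] [CharP F p] {q : ℕ} (hq : Fintype.card F = q)
    (n a t : ℕ) (hn : 2 ≤ n) (hT : (n, q) ≠ (2, 2) ∧ (n, q) ≠ (2, 3)) (hat : n = a * t) (ha : 1 ≤ a) (ht : 2 ≤ t)
    (hΩ : 2 ∣ Nat.card {D : Fin t → Submodule F (Fin n → F) // Cfsg.Geo.IsMDecomposition a D} / Nat.factorial t)
    (x : Matrix.SpecialLinearGroup (Fin n) F)
    (hx1 : ∃ z : F, ((x ^ 2 : Matrix.SpecialLinearGroup (Fin n) F) : Matrix (Fin n) (Fin n) F) = z • (1 : Matrix (Fin n) (Fin n) F))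
    (hx2 : ∀ z : F, (x : Matrix (Fin n) (Fin n) F) ≠ z • (1 : Matrix (Fin n) (Fin n) F)) :
    ∃ D : Fin t → Submodule F (Fin n → F), Cfsg.Geo.IsMDecomposition a D ∧
        ∃ σ : Equiv.Perm (Fin t), ∀ j, (D j).map (Matrix.toLin' (x : Matrix (Fin n) (Fin n) F)) = D (σ j) := by
  subst hq
  have hp : p.Prime := Fact.out
  have hn0 : 0 < n := by omega
  by_cases hp2 : p = 2
  · subst hp2
    exact (imp_all_two hat hn0 x hx1).toDec ha ht
  · have : Fact (Nat.Prime 2) := ⟨Nat.prime_two⟩
    have hodd : 2 ∣ Fintype.card F - 1 := by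
      obtain ⟨k, -, hk⟩ := FiniteField.card F p
      have h1 : Odd (Fintype.card F) := by
        rw [hk]
        exact (hp.odd_of_ne_two hp2).pow
      obtain ⟨m, hm⟩ := h1
      exact ⟨m, by omega⟩
    have hc : orderOf ((Fintype.card F : ℕ) : ZMod 2) = 1 := (orderOf_eq_one_iff Fintype.card_pos).mpr hodd
    refine (imp_all (p := p) (r := 2) (Ne.symm hp2) hat hn0 ?_ ?_ x hx1).toDec ha ht
    · rw [hc]; exact ha
    · rw [hc, Nat.mod_one, Nat.mod_one, mul_zero]

end Cfsg.Agent.S5957
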