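import Cfsg.Statements.S5958
import Cfsg.Agent.Lib.DecCount

set_option autoImplicit false
open scoped MatrixGroups
open Cfsg

namespace Cfsg.Agent.S5958

open Cfsg.Agent.Lib.ImpDec Cfsg.Agent.Lib.ElusiveLin Cfsg.Agent.Lib.PrimeOrd Cfsg.Agent.Lib.InvSub Module

lemma step {F : Type*} [Field F] [Fintype F] {p : ℕ} [Fact p.Prime] [CharP F p]
    {n a t r c : ℕ} [Fact r.Prime] (hrp : r ≠ p) (hcdef : c = orderOf ((Fintype.card F : ℕ) : ZMod r)) (hc2 : 2 ≤ c)
    (hat : n = a * t) (ha : 1 ≤ a) (ht : 2 ≤ t)
    (h : ∀ x : Matrix.SpecialLinearGroup (Fin n) F,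
      (∃ z : F, ((x ^ r : Matrix.SpecialLinearGroup (Fin n) F) : Matrix (Fin n) (Fin n) F) = z • (1 : Matrix (Fin n) (Fin n) F)) →
      (∀ z : F, (x : Matrix (Fin n) (Fin n) F) ≠ z • (1 : Matrix (Fin n) (Fin n) F)) →
      ∃ D : Fin t → Submodule F (Fin n → F), Cfsg.Geo.IsMDecomposition a D ∧
        ∃ σ : Equiv.Perm (Fin t), ∀ j, (D j).map (Matrix.toLin' (x : Matrix (Fin n) (Fin n) F)) = D (σ j))
    (s k : ℕ) (hs : 0 < s) (hn : n = k + s * c) (hlt : t * (a / c) < s) :
    a ≤ k ∧ (r - 1) * a ≤ s * c ∧ (a = 1 → n ≤ r * k) := by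
  have hr : r.Prime := Fact.out
  subst hcdef
  obtain ⟨x, f, -, -, hxr, -, hss, hty⟩ := exists_typeB (F := F) (p := p) (r := r) hrp hc2 hn
  obtain ⟨D, hD, σ, hσ⟩ := h x ⟨1, by rw [← tl_eq_smul_iff, ← tl_pow, hxr, one_smul]⟩
    (fun z hz => nonscalar_of_ty hss hc2 hty hs z ((tl_eq_smul_iff x z).mpr hz))
  have hne : ∀ j, D j ≠ ⊥ := fun j hj => by
    have := hD.finrank_eq j
    rw [hj, finrank_bot] at this
    omega
  have hσr : σ ^ r = 1 := perm_pow_eq_one hD.indep (T := tl x) hσ hne (one_ne_zero (α := F)) (by rw [hxr, one_smul])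
  have hE : finrank F (E (tl x) 1) = k := by
    have := hty.fin_e
    rwa [top_inf_eq] at this
  have hinvj : ∀ j, σ j = j → Inv (tl x) (D j) := by
    intro j hj
    rw [inv_iff_map_le]
    have := hσ j
    rw [hj] at this
    exact this.le
  obtain ⟨j, hj⟩ : ∃ j, σ j ≠ j := by
    by_contra hall
    push Not at hall
    have := le_of_all_inv (T := tl x) hD.iSup_eq_top hD.indep hss hD.finrank_eq (fun j => hinvj j (hall j)) hty
    rw [Fintype.card_fin] at this
    omega
  refine ⟨?_, ?_, ?_⟩
  · have := le_finrank_E hD.indep hD.iSup_eq_top (T := tl x) hσ hr hσr hxr hj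
    rwa [hD.finrank_eq, hE] at this
  · have := finrank_add_E_le hD.indep hD.iSup_eq_top (T := tl x) hσ hr hσr hD.finrank_eq hj
    rw [hE] at this
    have h2 : finrank F (Fin n → F) = n := by simp
    omega
  · intro ha1
    subst ha1
    have := card_le_mul_finrank_E hD.indep hD.iSup_eq_top (T := tl x) hσ hr hσr hxr hne (fun j hj => by
      obtain ⟨e', s', hty'⟩ := hss.exists_ty (hinvj j hj)
      have h3 := hty'.fin
      rw [hD.finrank_eq] at h3
      have hs0 : s' = 0 := by
        rcases Nat.eq_zero_or_pos s' with h0 | h0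
        · exact h0
        · have h4 := Nat.mul_le_mul_right (orderOf ((Fintype.card F : ℕ) : ZMod r)) h0
          rw [Nat.succ_mul] at h4
          omega
      have h4 : D j ⊓ E (tl x) 1 = D j := by
        apply Submodule.eq_of_le_of_finrank_eq inf_le_left
        rw [hty'.fin_e, hD.finrank_eq, h3, hs0]; omega
      rw [← h4]; exact inf_le_right)
    rw [Fintype.card_fin, hE] at this
    omega

/-- Elements of odd prime order of PSL_n(q) and imprimitive subgroups. Here `T = PSL_n(F)` for a field `F` with `q = p^f` elements (`n ≥ 2`, `(n, q) ≠ (2, 2), (2, 3)`), `n = a·t` with `t ≥ 2`, and Ω is the set of direct-sum decompositions of `F^n` into `t` subspaces of dimension `a` (unordered; their number is the number of ordered ones divided by `t!`), whose stabilizers are the imprimitive subgroups of type GL_a(q) ≀ S_t (maximal except in some small cases; maximality is not assumed); an element of `T` of prime order `r` (a matrix `x` of determinant 1 with `x^r` scalar, `x` not scalar) fixes a point of Ω when it permutes the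 summands of some such decomposition. Let `r ≠ p` be an odd prime dividing the number of such decompositions, let `c` be the multiplicative order of `q` modulo `r`, and write `k = n mod c`, `ℓ = a mod c`. Then every element of `T` of order `r` stabilizes such a decomposition if and only if either `a = 1`, `c = r − 1 > 1` and `n ≤ k·r`, or `c ≤ a` and `k = t·ℓ`. -/
theorem result {F : Type*} [Field F] [Fintype F] {p : ℕ} [Fact p.Prime] [CharP F p] {q : ℕ} (hq : Fintype.card F = q)
    (n a t : ℕ) (hn : 2 ≤ n) (hT : (n, q) ≠ (2, 2) ∧ (n, q) ≠ (2, 3)) (hat : n = a * t) (ha : 1 ≤ a) (ht : 2 ≤ t)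
    (r : ℕ) [Fact r.Prime] (hr2 : r ≠ 2) (hrp : r ≠ p) (hΩ : r ∣ Nat.card {D : Fin t → Submodule F (Fin n → F) // Cfsg.Geo.IsMDecomposition a D} / Nat.factorial t)
    (c : ℕ) (hc : c = orderOf (q : ZMod r)) :
    (∀ x : Matrix.SpecialLinearGroup (Fin n) F,
      (∃ z : F, ((x ^ r : Matrix.SpecialLinearGroup (Fin n) F) : Matrix (Fin n) (Fin n) F) = z • (1 : Matrix (Fin n) (Fin n) F)) →
      (∀ z : F, (x : Matrix (Fin n) (Fin n) F) ≠ z • (1 : Matrix (Fin n) (Fin n) F)) →
      ∃ D : Fin t → Submodule F (Fin n → F), Cfsg.Geo.IsMDecomposition a D ∧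
        ∃ σ : Equiv.Perm (Fin t), ∀ j, (D j).map (Matrix.toLin' (x : Matrix (Fin n) (Fin n) F)) = D (σ j)) ↔
    ((a = 1 ∧ 1 < c ∧ c = r - 1 ∧ n ≤ (n % c) * r) ∨ (c ≤ a ∧ n % c = t * (a % c))) := by
  classical
  have hr : r.Prime := Fact.out
  have hp : p.Prime := Fact.out
  subst hq
  have hcpos : 0 < c := by rw [hc]; exact order_pos (F := F) (p := p) (r := r) hrp
  have hn0 : 0 < n := by omega
  have hpq : ¬ r ∣ Fintype.card F := by
    obtain ⟨k, -, hk⟩ := FiniteField.card F p
    intro h
    rw [hk] at h
    exact hrp ((Nat.prime_dvd_prime_iff_eq hr hp).mp (hr.dvd_of_dvd_pow h))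
  constructor
  · intro h
    by_cases hcase : c ≤ a ∧ n % c = t * (a % c)
    · exact Or.inr hcase
    left
    have hc2 : 2 ≤ c := by
      by_contra hlt
      have h1 : c = 1 := by omega
      apply hcase
      rw [h1, Nat.mod_one, Nat.mod_one, mul_zero]
      exact ⟨ha, rfl⟩
    have hcn : c ≤ n := by
      rw [card_mdec ha ht] at hΩ
      rw [hc]
      exact order_le_of_dvd' ha hat hr hpq hΩ
    have hstep := step hrp hc hc2 hat ha ht h
    have hdm : n = n % c + (n / c) * c := by rw [mul_comm]; exact (Nat.mod_add_div n c).symm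
    have hncpos : 0 < n / c := Nat.div_pos hcn hcpos
    rcases Nat.lt_or_ge a c with hac | hac
    · have ha0 : a / c = 0 := Nat.div_eq_of_lt hac
      obtain ⟨-, h1, -⟩ := hstep 1 (n - c) one_pos (by omega) (by rw [ha0, mul_zero]; exact one_pos)
      obtain ⟨-, -, h2⟩ := hstep (n / c) (n % c) hncpos hdm (by rw [ha0, mul_zero]; exact hncpos)
      have hcr : c ∣ r - 1 := by
        rw [hc]
        apply ZMod.orderOf_dvd_card_sub_one
        intro h0
        rw [ZMod.natCast_eq_zero_iff] at h0
        exact hpq h0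
      have hr1 : 0 < r - 1 := by have := hr.two_le; omega
      have hcr' : c ≤ r - 1 := Nat.le_of_dvd hr1 hcr
      rw [one_mul] at h1
      have ha1 : a = 1 := by
        by_contra hne
        have h3 : 2 ≤ a := by omega
        have h4 : (r - 1) * 2 ≤ (r - 1) * a := Nat.mul_le_mul_left _ h3
        omega
      subst ha1
      have h5 := h2 rfl
      refine ⟨rfl, by omega, by omega, ?_⟩
      rw [mul_comm]; exact h5
    · exfalso
      have hne : n % c ≠ t * (a % c) := fun h' => hcase ⟨hac, h'⟩
      have hn' : n = c * (t * (a / c)) + t * (a % c) := by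
        conv_lhs => rw [hat, ← Nat.div_add_mod a c]
        ring
      have hge : c ≤ t * (a % c) := by
        by_contra hlt
        push Not at hlt
        apply hne
        conv_lhs => rw [hn']
        rw [Nat.mul_add_mod, Nat.mod_eq_of_lt hlt]
      have hlt : t * (a / c) < n / c := by
        rw [Nat.lt_iff_add_one_le, Nat.le_div_iff_mul_le hcpos, Nat.add_mul, one_mul]
        rw [mul_comm] at hn'
        have : c * (t * (a / c)) = t * (a / c) * c := mul_comm _ _
        omega
      obtain ⟨h1, -, -⟩ := hstep (n / c) (n % c) hncpos hdm hlt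
      have := Nat.mod_lt n hcpos
      omega
  · rintro (⟨ha1, hc1, hcr, hle⟩ | ⟨hca, hk⟩)
    · intro x hx1 hx2
      obtain ⟨z, hz⟩ := hx1
      refine Imp.toDec ha ht ?_
      subst ha1
      have hT : (tl x) ^ r = z • (1 : Module.End F (Fin n → F)) := by
        rw [tl_pow, tl_eq_smul_iff, hz]
      rcases structure_of hrp x z hz hn0 with ⟨y, hy0, hy, hss⟩ | ⟨hnp, -⟩
      · rw [← hc] at hss
        obtain ⟨e, s, hty, hn'⟩ := ty_top hss
        have hT' : (tl x) ^ r = (y ^ r) • (1 : Module.End F (Fin n → F)) := by rw [hT, hy]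
        -- s ≤ e
        have hdm : n % c + c * (n / c) = n := Nat.mod_add_div n c
        have hq1 : n / c ≤ n % c := by
          have h1 : (n % c) * r = (n % c) * c + n % c := by
            have h2 : r = c + 1 := by have := hr.two_le; omega
            conv_lhs => rw [h2, Nat.mul_succ]
          have h2 : c * (n / c) ≤ c * (n % c) := by
            rw [mul_comm c (n % c)]; omega
          exact Nat.le_of_mul_le_mul_left h2 hcpos
        have hse : s ≤ e := by
          have h1 : s ≤ n / c := by
            rw [Nat.le_div_iff_mul_le hcpos]; omega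
          have h2 : e % c = n % c := by rw [hn', Nat.add_mul_mod_self_right]
          have h3 : e % c ≤ e := Nat.mod_le e c
          omega
        subst hcr
        obtain ⟨W, W', hW, hW', hdis, hsup⟩ := hss.split hty hse le_rfl
        rw [Nat.sub_self] at hW'
        have h1 : Imp (tl x) 1 W (s * r) := imp_of_regular hr.two_le hy0 hss hT' s hW
        have hinj := injective_of_scalar hr.pos (pow_ne_zero r hy0) hT'
        have h2 : Imp (tl x) 1 W' (e - s) := imp_of_ty hss hinj hW' (by omega) (Nat.zero_le _)
        have h3 := h1.sup h2 hdis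
        rw [hsup] at h3
        have h4 : s * r + (e - s) = t := by
          have h5 : s * r = s * (r - 1) + s := by
            have h6 : r = (r - 1) + 1 := by have := hr.two_le; omega
            conv_lhs => rw [h6, Nat.mul_succ]
          omega
        rwa [h4] at h3
      · exfalso
        obtain ⟨b, hb⟩ := exists_root_of_not_dvd hr (F := F) (by
          intro h1
          rw [← orderOf_eq_one_iff Fintype.card_pos] at h1
          omega) z
        exact hnp b hb
    · intro x hx1 _
      exact (imp_all hrp hat hn0 (by rw [← hc]; exact hca) (by rw [← hc]; exact hk) x hx1).toDec ha ht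

end Cfsg.Agent.S5958
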