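import Cfsg.Statements.S5959
import Cfsg.Agent.Lib.ImpDec3

set_option autoImplicit false
open scoped MatrixGroups
open Cfsg

namespace Cfsg.Agent.S5959

open Cfsg.Agent.Lib.ImpDec Cfsg.Agent.Lib.ElusiveLin Cfsg.Agent.Lib.JordanNil Cfsg.Agent.Lib.ElusiveUni Cfsg.Agent.Lib.InvSub Module

lemma trc_eq {F V : Type*} [Field F] [AddCommGroup V] [Module F V] {p : ℕ} [Fact p.Prime] [CharP F p]
    (T : Module.End F V) : trc T p = (T - 1) ^ (p - 1) := by
  have hp : p.Prime := Fact.out
  open Polynomial in
  have h1 : (∑ i ∈ Finset.range p, (X : F[X]) ^ i) = (X - 1) ^ (p - 1) := by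
    have h2 : (∑ i ∈ Finset.range p, (X : F[X]) ^ i) * (X - 1) = (X - 1) ^ (p - 1) * (X - 1) := by
      rw [geom_sum_mul, ← pow_succ, Nat.sub_add_cancel hp.one_lt.le, sub_pow_char, one_pow]
    exact mul_right_cancel₀ (X_sub_C_ne_zero (1 : F)) (by simpa using h2)
  have h3 := congrArg (Polynomial.aeval T) h1
  rw [map_sum, map_pow, map_sub, Polynomial.aeval_X, map_one] at h3
  rw [trc, ← h3]
  simp

lemma sum_sub_eq_count {μ : Multiset ℕ} {p : ℕ} (hp : 0 < p) (h : ∀ b ∈ μ, b ≤ p) :
    (μ.map (fun b => b - (p - 1))).sum = μ.count p := by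
  induction μ using Multiset.induction_on with
  | empty => simp
  | cons a μ ih =>
    rw [Multiset.map_cons, Multiset.sum_cons, Multiset.count_cons, ih (fun b hb => h b (Multiset.mem_cons_of_mem hb))]
    have := h a (Multiset.mem_cons_self a μ)
    split_ifs with h1 <;> omega

/-- Elements of order `p` of PSL_n(q) and imprimitive subgroups: a necessary condition. Here `T = PSL_n(F)` for a field `F` with `q = p^f` elements (`n ≥ 2`, `(n, q) ≠ (2, 2), (2, 3)`), `n = a·t` with `t ≥ 2`, and Ω is the set of direct-sum decompositions of `F^n` into `t` subspaces of dimension `a` (unordered; their number is the number of ordered ones divided by `t!`), whose stabilizers are the imprimitive subgroups of type GL_a(q) ≀ S_t (maximal except in some small cases; maximality is not assumed); an element of `T` of prime order `r` (a matrix `x` of determinant 1 with `x^r` scalar, `x` not scalar) fixes a point of Ω when it permutes the summands of some such decomposition. Suppose `p > 2` divides the number of such decompositions. If every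 element of `T` of order `p` stabilizes such a decomposition, then every partition of `n` into parts of size at most `p` in which the part `p` occurs fewer than `a` times contains (as a sub-multiset) a partition of `a`. -/
theorem result {F : Type*} [Field F] [Fintype F] {p : ℕ} [Fact p.Prime] [CharP F p] {q : ℕ} (hq : Fintype.card F = q)
    (n a t : ℕ) (hn : 2 ≤ n) (hT : (n, q) ≠ (2, 2) ∧ (n, q) ≠ (2, 3)) (hat : n = a * t) (ha : 1 ≤ a) (ht : 2 ≤ t)
    (hp : 2 < p) (hΩ : p ∣ Nat.card {D : Fin t → Submodule F (Fin n → F) // Cfsg.Geo.IsMDecomposition a D} / Nat.factorial t)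
    (h : ∀ x : Matrix.SpecialLinearGroup (Fin n) F,
      (∃ z : F, ((x ^ p : Matrix.SpecialLinearGroup (Fin n) F) : Matrix (Fin n) (Fin n) F) = z • (1 : Matrix (Fin n) (Fin n) F)) →
      (∀ z : F, (x : Matrix (Fin n) (Fin n) F) ≠ z • (1 : Matrix (Fin n) (Fin n) F)) →
      ∃ D : Fin t → Submodule F (Fin n → F), Cfsg.Geo.IsMDecomposition a D ∧
        ∃ σ : Equiv.Perm (Fin t), ∀ j, (D j).map (Matrix.toLin' (x : Matrix (Fin n) (Fin n) F)) = D (σ j)) :
    (∀ μ : Multiset ℕ, (∀ b ∈ μ, 0 < b ∧ b ≤ p) → μ.sum = n → μ.count p < a → ∃ ν : Multiset ℕ, ν ≤ μ ∧ ν.sum = a) := by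
  classical
  intro μ hμ hsum hcount
  have hpp : p.Prime := Fact.out
  obtain ⟨x, N, hN, ht', hx, hNp, hxp⟩ := exists_unip (F := F) (p := p) hμ hsum
  by_cases hN0 : N = 0
  · have h1 : ∀ b ∈ μ, b = 1 := by
      intro b hb
      have h2 := (ht'.pow_eq_zero_iff 1).mp (by rw [pow_one, hN0]) b hb
      have h3 := (hμ b hb).1
      omega
    have h2 : μ = Multiset.replicate n 1 := by
      have h4 := Multiset.eq_replicate_card.mpr h1
      have h5 : μ.sum = Multiset.card μ := by
        conv_lhs => rw [h4]
        simp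
      rw [h4, ← h5, hsum]
    refine ⟨Multiset.replicate a 1, ?_, by simp⟩
    rw [h2]
    apply (Multiset.replicate_le_replicate 1).mpr
    rw [hat]; exact Nat.le_mul_of_pos_right a (by omega)
  · obtain ⟨D, hD, σ, hσ⟩ := h x ⟨1, by rw [← tl_eq_smul_iff, ← tl_pow, hxp, one_smul]⟩ (fun c hc => by
      rw [← tl_eq_smul_iff, hx] at hc
      exact not_smul_of_nil hN hN0 c hc)
    have hne : ∀ j, D j ≠ ⊥ := fun j hj => by
      have := hD.finrank_eq j
      rw [hj, finrank_bot] at this
      omega
    have hσr : σ ^ p = 1 := perm_pow_eq_one hD.indep (T := tl x) hσ hne (one_ne_zero (α := F)) (by rw [hxp, one_smul])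
    let j : Fin t := ⟨0, by omega⟩
    by_cases hj : σ j = j
    · -- the block is invariant and has an invariant complement
      have hU : Inv N (D j) := by
        rw [← inv_one_add_iff, ← hx, inv_iff_map_le]
        have := hσ j
        rw [hj] at this
        exact this.le
      have hW : Inv N (⨆ (l : Fin t) (_ : l ≠ j), D l) := by
        rw [← inv_one_add_iff, ← hx, inv_iff_map_le, Submodule.map_iSup]
        apply iSup_le; intro l
        rw [Submodule.map_iSup]
        apply iSup_le; intro hl
        have h1 : (D l).map (tl x) = D (σ l) := hσ l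
        rw [h1]
        exact le_iSup₂_of_le (f := fun l' (_ : l' ≠ j) => D l') (σ l) (fun h' => hl (σ.injective (by rw [h', hj]))) le_rfl
      have hUW := isCompl_others hD.indep hD.iSup_eq_top j
      obtain ⟨μ1, hμ1⟩ := exists_typ hN hU
      obtain ⟨μ2, hμ2⟩ := exists_typ hN hW
      have h3 := hμ1.sup hU hW hUW.disjoint hμ2
      rw [hUW.sup_eq_top] at h3
      have h4 := ht'.unique h3
      refine ⟨μ1, ?_, ?_⟩
      · rw [h4]; exact Multiset.le_add_right μ1 μ2
      · rw [← hμ1.finrank_eq, hD.finrank_eq]
    · exfalso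
      have h1 := finrank_map_trc hD.indep hD.iSup_eq_top (T := tl x) hσ hpp hσr hj
      rw [hD.finrank_eq, trc_eq, hx, add_sub_cancel_left] at h1
      have h2 := ht'.2 (p - 1)
      rw [sum_sub_eq_count hpp.pos (fun b hb => (hμ b hb).2)] at h2
      have h3 : finrank F ↥((D j).map (N ^ (p - 1))) ≤ finrank F ↥((⊤ : Submodule F (Fin n → F)).map (N ^ (p - 1))) :=
        Submodule.finrank_mono (Submodule.map_mono le_top)
      omega

end Cfsg.Agent.S5959
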