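import Cfsg.Statements.S5960
import Cfsg.Agent.Lib.Sesq6

set_option autoImplicit false
open scoped MatrixGroups
open Cfsg

namespace Cfsg.Agent.S5960

open Cfsg.Agent.Lib.Sesq Cfsg.Agent.Lib.InvSub Module

/-- Involutions of PSp_n(q) and imprimitive subgroups. Here `T = PSp_n(q)`, `n = 2d ≥ 4`, `(n, q) ≠ (4, 2)`, realised through the symplectic matrices over the field `F` with `q` elements and the standard alternating form; `n = a·t` with `a` even and `t ≥ 2`, and Ω is the (nonempty) set of orthogonal decompositions of `F^n` into `t` nondegenerate subspaces of dimension `a` (unordered; counted as ordered ones divided by `t!`), whose stabilizers are the imprimitive subgroups of type Sp_a(q) ≀ S_t (maximality is not assumed); an element of `T` of prime order `r` (a symplectic matrix `x` with `x^r` scalar, `x` not scalar) fixes a point of Ω when it permutes the summands of some such decomposition. If the number of such decompositions is even, then every involution of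 `T` stabilizes one of them (the action is 2-elusive). -/
theorem result {F : Type*} [Field F] [Fintype F] {p : ℕ} [Fact p.Prime] [CharP F p] {q : ℕ} (hq : Fintype.card F = q)
    (d : ℕ) (hd : 2 ≤ d) (hT : (d, q) ≠ (2, 2))
    (a t : ℕ) (hat : 2 * d = a * t) (ha : 2 ≤ a) (hae : Even a) (ht : 2 ≤ t) (hΩ : 2 ∣ Nat.card {D : Fin t → Submodule F (Fin d ⊕ Fin d → F) // (Cfsg.Geo.IsMDecomposition a D ∧ (∀ j, ∀ u ∈ D j, u ≠ 0 → ∃ v ∈ D j, Cfsg.sympForm d F u v ≠ 0) ∧
          (∀ j j', j ≠ j' → ∀ u ∈ D j, ∀ v ∈ D j', Cfsg.sympForm d F u v = 0))} / Nat.factorial t)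
    (x : ↥(Matrix.symplecticGroup (Fin d) F))
    (hx1 : ∃ z : F, ((x ^ 2 : ↥(Matrix.symplecticGroup (Fin d) F)) : Matrix (Fin d ⊕ Fin d) (Fin d ⊕ Fin d) F) = z • (1 : Matrix (Fin d ⊕ Fin d) (Fin d ⊕ Fin d) F))
    (hx2 : ∀ z : F, (x : Matrix (Fin d ⊕ Fin d) (Fin d ⊕ Fin d) F) ≠ z • (1 : Matrix (Fin d ⊕ Fin d) (Fin d ⊕ Fin d) F)) :
    ∃ D : Fin t → Submodule F (Fin d ⊕ Fin d → F), (Cfsg.Geo.IsMDecomposition a D ∧ (∀ j, ∀ u ∈ D j, u ≠ 0 → ∃ v ∈ D j, Cfsg.sympForm d F u v ≠ 0) ∧
          (∀ j j', j ≠ j' → ∀ u ∈ D j, ∀ v ∈ D j', Cfsg.sympForm d F u v = 0)) ∧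
        ∃ σ : Equiv.Perm (Fin t), ∀ j, (D j).map (Matrix.toLin' (x : Matrix (Fin d ⊕ Fin d) (Fin d ⊕ Fin d) F)) = D (σ j) := by
  classical
  subst hq
  obtain ⟨z, hz⟩ := hx1
  set T : Module.End F (Fin d ⊕ Fin d → F) := Matrix.toLin' (x : Matrix (Fin d ⊕ Fin d) (Fin d ⊕ Fin d) F) with hTdef
  have hT := jb_iso x.2
  rw [← hTdef] at hT
  have hTT : T * T = z • (1 : Module.End F _) := by
    have h1 : (x : Matrix (Fin d ⊕ Fin d) (Fin d ⊕ Fin d) F) * (x : Matrix (Fin d ⊕ Fin d) (Fin d ⊕ Fin d) F) =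
        z • (1 : Matrix (Fin d ⊕ Fin d) (Fin d ⊕ Fin d) F) := by
      rw [← hz, pow_two]; rfl
    have h3 := congrArg Matrix.toLin' h1
    rw [Matrix.toLin'_mul, map_smul, Matrix.toLin'_one] at h3
    exact h3
  obtain ⟨v, w, τ, hs⟩ := exists_msys (jb_alt d) (p := p) (jb_nd d) hT hTT (finrank_jb d) (by omega)
  obtain ⟨k, hk⟩ := hae
  have hk0 : 0 < k := by omega
  have hdk : d = t * k := by
    have h1 : 2 * d = 2 * (t * k) := by rw [hat, hk]; ring
    omega
  obtain ⟨f, hf1, hf2, π, hπ, hf3⟩ := exists_blocks τ hs.invol k hk0 t Finset.univ (fun _ _ => Finset.mem_univ _)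
    (by rw [Finset.card_univ, Fintype.card_fin, hdk])
  have hps := hs.psys
  have hfr : ∀ l < t, finrank F (blockS F v w f l) = a := by
    intro l hl
    rw [hps.finrank_block f l, hf2 l hl]; omega
  let D : Fin t → Submodule F (Fin d ⊕ Fin d → F) := fun l => blockS F v w f l
  have htop : iSup D = ⊤ := hps.iSup_block (finrank_jb d) f (fun j => hf1 j (Finset.mem_univ j))
  have hinj : Function.Injective (fun l : Fin t => (⟨π l, hπ l l.2⟩ : Fin t)) := by
    intro l l' h
    exact Fin.ext (π.injective (congrArg Fin.val h))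
  let σ : Equiv.Perm (Fin t) := Equiv.ofBijective _ (Finite.injective_iff_bijective.mp hinj)
  refine ⟨D, ⟨⟨ht, by omega, fun l => hfr l l.2, ?_, htop⟩, ?_, ?_⟩, σ, ?_⟩
  · apply Cfsg.Agent.Lib.ImpDec.indep_of_finrank
    rw [htop, finrank_top, Finset.sum_congr rfl (fun (l : Fin t) _ => hfr (l : ℕ) l.2), Finset.sum_const, Finset.card_univ, Fintype.card_fin,
      finrank_jb, smul_eq_mul, hat, mul_comm]
  · intro l u hu hu0
    by_contra hcon
    push Not at hcon
    exact hu0 (hps.nd_block (jb_alt d) f l u hu hcon)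
  · intro l l' hl u hu v hv
    exact hps.block_orth (jb_alt d) f (fun h => hl (Fin.ext h)) u hu v hv
  · intro l
    have hσ : ((σ l : Fin t) : ℕ) = π l := rfl
    apply Submodule.eq_of_le_of_finrank_eq
    · rw [Submodule.map_le_iff_le_comap]
      apply Submodule.span_le.mpr
      rintro y ⟨j, hj, rfl | rfl⟩
      · change T (v j) ∈ blockS F v w f (σ l)
        rw [hσ, ← hj, ← hf3 j (Finset.mem_univ j)]
        exact pair_mem _ (v_mem_block f _) (w_mem_block f _) (hs.tv j)
      · change T (w j) ∈ blockS F v w f (σ l)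
        rw [hσ, ← hj, ← hf3 j (Finset.mem_univ j)]
        exact pair_mem _ (v_mem_block f _) (w_mem_block f _) (hs.tw j)
    · have h1 : finrank F ((D l).map T) = finrank F (D l) :=
        (LinearEquiv.finrank_eq (Submodule.equivMapOfInjective T (hT.injective (jb_nd d)) (D l))).symm
      rw [h1]
      rw [hfr l l.2]
      exact (hfr (σ l) (σ l).2).symm

end Cfsg.Agent.S5960
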