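import Cfsg.Statements.S5961
import Cfsg.Agent.Lib.Sesq14

set_option autoImplicit false
open scoped MatrixGroups
open Cfsg

namespace Cfsg.Agent.S5961

open Cfsg.Agent.Lib.Sesq Cfsg.Agent.Lib.InvSub Cfsg.Agent.Lib.PrimeOrd Module Cfsg.Agent.Lib

lemma types {F V : Type*} [Field F] [Fintype F] [AddCommGroup V] [Module F V] [FiniteDimensional F V] {p r : ℕ}
    {B : V →ₗ[F] V →ₗ[F] F} {T : Module.End F V} (h : PO F p r B T) {t a : ℕ} {D : Fin t → Submodule F V}
    (hind : iSupIndep D) (htop : iSup D = ⊤) (hinv : ∀ j, Inv T (D j)) (hf : ∀ j, finrank F (D j) = a)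
    (hnd : ∀ j, ND (σ := RingHom.id F) B (D j)) {e s : ℕ} (hes : e + s * csz F r = finrank F V) (he : finrank F (E T 1) = e) :
    ∃ e' s' : Fin t → ℕ, (∀ j, a = e' j + s' j * csz F r) ∧ ∑ j, e' j = e ∧ ∑ j, s' j = s := by
  have h1 : ∀ j, ∃ e s, Ty T 1 (csz F r) (D j) e s := fun j => by
    obtain ⟨s, hs⟩ := h.exists_ty (hinv j) (hnd j)
    exact ⟨_, s, hs.inv, hs.fE, hs.f⟩
  choose e' s' h2 using h1
  refine ⟨e', s', fun j => by rw [← (h2 j).fin, hf j], ?_⟩
  have h3 := ImpDec.ty_biSup hind h2 Finset.univ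
  have h4 : (⨆ i ∈ (Finset.univ : Finset (Fin t)), D i) = ⊤ := by rw [← htop]; simp
  rw [h4] at h3
  have h5 : Ty T 1 (csz F r) ⊤ e s := ⟨fun _ _ => trivial, by rw [top_inf_eq]; exact he, by rw [finrank_top, hes]⟩
  obtain ⟨h6, h7⟩ := ImpDec.ty_unique h.csz_pos h3 h5
  exact ⟨h6, h7⟩

/-- Elements of odd prime order of PSp_n(q) and imprimitive subgroups. Here `T = PSp_n(q)`, `n = 2d ≥ 4`, `(n, q) ≠ (4, 2)`, realised through the symplectic matrices over the field `F` with `q` elements and the standard alternating form; `n = a·t` with `a` even and `t ≥ 2`, and Ω is the (nonempty) set of orthogonal decompositions of `F^n` into `t` nondegenerate subspaces of dimension `a` (unordered; counted as ordered ones divided by `t!`), whose stabilizers are the imprimitive subgroups of type Sp_a(q) ≀ S_t (maximality is not assumed); an element of `T` of prime order `r` (a symplectic matrix `x` with `x^r` scalar, `x` not scalar) fixes a point of Ω when it permutes the summands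 of some such decomposition. Let `r ≠ p` be an odd prime dividing the number of such decompositions, let `i` be the multiplicative order of `q` modulo `r`, `c = i` if `i` is even and `c = 2i` if `i` is odd, and write `k = n mod c`, `ℓ = a mod c`. Then every element of `T` of order `r` stabilizes such a decomposition if and only if `c ≤ a` and `k = t·ℓ`. -/
theorem result {F : Type*} [Field F] [Fintype F] {p : ℕ} [Fact p.Prime] [CharP F p] {q : ℕ} (hq : Fintype.card F = q)
    (d : ℕ) (hd : 2 ≤ d) (hT : (d, q) ≠ (2, 2))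
    (a t : ℕ) (hat : 2 * d = a * t) (ha : 2 ≤ a) (hae : Even a) (ht : 2 ≤ t)
    (r : ℕ) [Fact r.Prime] (hr2 : r ≠ 2) (hrp : r ≠ p) (hΩ : r ∣ Nat.card {D : Fin t → Submodule F (Fin d ⊕ Fin d → F) // (Cfsg.Geo.IsMDecomposition a D ∧ (∀ j, ∀ u ∈ D j, u ≠ 0 → ∃ v ∈ D j, Cfsg.sympForm d F u v ≠ 0) ∧
          (∀ j j', j ≠ j' → ∀ u ∈ D j, ∀ v ∈ D j', Cfsg.sympForm d F u v = 0))} / Nat.factorial t)
    (i c : ℕ) (hi : i = orderOf (q : ZMod r)) (hc : c = if Even i then i else 2 * i) :
    (∀ x : ↥(Matrix.symplecticGroup (Fin d) F),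
      (∃ z : F, ((x ^ r : ↥(Matrix.symplecticGroup (Fin d) F)) : Matrix (Fin d ⊕ Fin d) (Fin d ⊕ Fin d) F) = z • (1 : Matrix (Fin d ⊕ Fin d) (Fin d ⊕ Fin d) F)) →
      (∀ z : F, (x : Matrix (Fin d ⊕ Fin d) (Fin d ⊕ Fin d) F) ≠ z • (1 : Matrix (Fin d ⊕ Fin d) (Fin d ⊕ Fin d) F)) →
      ∃ D : Fin t → Submodule F (Fin d ⊕ Fin d → F), (Cfsg.Geo.IsMDecomposition a D ∧ (∀ j, ∀ u ∈ D j, u ≠ 0 → ∃ v ∈ D j, Cfsg.sympForm d F u v ≠ 0) ∧
          (∀ j j', j ≠ j' → ∀ u ∈ D j, ∀ v ∈ D j', Cfsg.sympForm d F u v = 0)) ∧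
        ∃ σ : Equiv.Perm (Fin t), ∀ j, (D j).map (Matrix.toLin' (x : Matrix (Fin d ⊕ Fin d) (Fin d ⊕ Fin d) F)) = D (σ j)) ↔
    (c ≤ a ∧ (2 * d) % c = t * (a % c)) := by
  classical
  subst hq
  have hr : r.Prime := Fact.out
  have hro : Odd r := hr.odd_of_ne_two hr2
  have hcc : c = csz F r := by rw [hc, hi]; rfl
  obtain ⟨k, hk⟩ := hae
  have hk' : a = 2 * k := by omega
  have hdk : d = t * k := by
    have h1 : 2 * d = 2 * (t * k) := by rw [hat, hk']; ring
    omega
  -- counting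
  have hN : Nat.card {D : Fin t → Submodule F (Fin d ⊕ Fin d → F) // (Cfsg.Geo.IsMDecomposition a D ∧ (∀ j, ∀ u ∈ D j, u ≠ 0 → ∃ v ∈ D j, Cfsg.sympForm d F u v ≠ 0) ∧
          (∀ j j', j ≠ j' → ∀ u ∈ D j, ∀ v ∈ D j', Cfsg.sympForm d F u v = 0))} = Nat.card (OD (AltSim.JB (F := F) d) a t) := by
    apply Nat.card_congr
    refine Equiv.subtypeEquivRight fun D => ⟨fun h => ⟨h.1.finrank_eq, fun j u hu hu' => ?_, h.2.2⟩, fun h => ?_⟩
    · by_contra hu0
      obtain ⟨v, hv, huv⟩ := h.2.1 j u hu hu0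
      exact huv (hu' v hv)
    · have hind := odn_indep (jb_alt d) h.2.1 h.2.2
      refine ⟨⟨ht, by omega, h.1, hind, iSup_top_of_finrank hind h.1 (by rw [finrank_jb, hat, mul_comm])⟩, fun j u hu hu0 => ?_, h.2.2⟩
      by_contra hcon
      push Not at hcon
      exact hu0 (h.2.1 j u hu hcon)
  rw [hN] at hΩ
  have hrN : r ∣ Nat.card (OD (AltSim.JB (F := F) d) a t) := by
    obtain ⟨m, hm⟩ := od_factorial_dvd (jb_alt (F := F) d) (a := a) (by omega) t
    rw [hm, Nat.mul_div_cancel_left _ (Nat.factorial_pos t)] at hΩ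
    rw [hm]
    exact Dvd.dvd.mul_left hΩ _
  have hcle : c ≤ 2 * d := by
    rw [hcc]
    apply csz_le_of_dvd hr hrp
    have h1 := od_card (jb_alt (F := F) d) (jb_nd d) k t (by rw [finrank_jb, hat, hk', mul_comm])
    rw [← hk', ← hdk] at h1
    rw [← h1]
    exact Dvd.dvd.mul_right hrN _
  have hd1 : 1 ≤ d := by omega
  have hE1 : E (1 : Module.End F (Fin d ⊕ Fin d → F)) 1 = ⊤ := by
    rw [eq_top_iff]
    intro x _
    rw [Module.End.mem_eigenspace_iff, one_smul]; rfl
  constructor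
  · intro H
    -- general consequence
    have key : ∀ s : ℕ, 0 < s → s * c ≤ 2 * d → ∃ (T : Module.End F (Fin d ⊕ Fin d → F)) (D : Fin t → Submodule F (Fin d ⊕ Fin d → F))
        (σ : Equiv.Perm (Fin t)), PO F p r (AltSim.JB (F := F) d) T ∧ finrank F (E T 1) + s * c = 2 * d ∧ iSupIndep D ∧ iSup D = ⊤ ∧
        (∀ j, finrank F (D j) = a) ∧ (∀ j, ND (σ := RingHom.id F) (AltSim.JB (F := F) d) (D j)) ∧ (∀ j, (D j).map T = D (σ j)) := by
      intro s hs hsc
      obtain ⟨T, hT, hTf⟩ := exists_po (F := F) (p := p) Fact.out inferInstance hr hrp hro s (jb_alt (F := F) d) (jb_nd d) (by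
        rw [finrank_jb, ← hcc]; exact hsc)
      rw [finrank_jb, ← hcc] at hTf
      have hpos := hT.csz_pos
      rw [← hcc] at hpos
      have hT1 : T ≠ 1 := by
        rintro rfl
        rw [hE1, finrank_top, finrank_jb] at hTf
        have : 0 < s * c := Nat.mul_pos hs hpos
        omega
      obtain ⟨x, hx1, hx2, hx3⟩ := exists_symp_of_po hd1 hT hT1
      obtain ⟨D, ⟨hD1, hD2, hD3⟩, σ, hσ⟩ := H x hx1 hx2
      rw [hx3] at hσ
      refine ⟨T, D, σ, hT, hTf, hD1.indep, hD1.iSup_eq_top, hD1.finrank_eq, fun j u hu hu' => ?_, hσ⟩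
      by_contra hu0
      obtain ⟨v, hv, huv⟩ := hD2 j u hu hu0
      exact huv (hu' v hv)
    have hca : c ≤ a := by
      by_contra hlt
      push Not at hlt
      obtain ⟨T, D, σ, hT, hTf, hind, htop, hf, hnd, hσ⟩ := key 1 one_pos (by omega)
      have hpos := hT.csz_pos
      have hσr : σ ^ r = 1 := ImpDec.perm_pow_eq_one hind hσ (fun j hj => by
        have := hf j
        rw [hj, finrank_bot] at this; omega) one_ne_zero (by rw [one_smul]; exact hT.pow)
      by_cases hmv : ∃ j, σ j ≠ j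
      · obtain ⟨j, hj⟩ := hmv
        have h1 := ImpDec.finrank_add_E_le hind htop hσ hr hσr hf hj
        rw [finrank_jb] at h1
        have h2 : c ∣ r - 1 := by rw [hcc]; exact csz_dvd_sub_one (p := p) hrp hro
        have h3 : 2 < r := by have := hr.two_le; omega
        have h4 := Nat.le_of_dvd (by omega) h2
        have h5 : (r - 1) * 2 ≤ (r - 1) * a := Nat.mul_le_mul_left _ ha
        omega
      · push Not at hmv
        obtain ⟨e', s', h1, h2, h3⟩ := types hT hind htop (fun j u hu => by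
          have := (hσ j).le ⟨u, hu, rfl⟩
          rwa [hmv j] at this) hf hnd (s := 1) (by rw [finrank_jb, ← hcc]; exact hTf) rfl
        have h4 : ∃ j, s' j ≠ 0 := by
          by_contra hcon
          push Not at hcon
          rw [Finset.sum_eq_zero (fun j _ => hcon j)] at h3
          exact zero_ne_one h3
        obtain ⟨j, hj⟩ := h4
        have h5 := h1 j
        have h6 : 1 * csz F r ≤ s' j * csz F r := Nat.mul_le_mul_right _ (by omega)
        omega
    refine ⟨hca, ?_⟩
    have hc0 : 0 < c := by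
      have := order_pos (F := F) (p := p) hrp
      rw [hcc]; unfold csz csize; split_ifs <;> omega
    obtain ⟨T, D, σ, hT, hTf, hind, htop, hf, hnd, hσ⟩ := key (2 * d / c) (Nat.div_pos hcle hc0) (Nat.div_mul_le_self _ _)
    have hEf : finrank F (E T 1) = 2 * d % c := by
      have := Nat.div_add_mod' (2 * d) c
      omega
    have hmod := Nat.mod_lt (2 * d) hc0
    have hσr : σ ^ r = 1 := ImpDec.perm_pow_eq_one hind hσ (fun j hj => by
      have := hf j
      rw [hj, finrank_bot] at this; omega) one_ne_zero (by rw [one_smul]; exact hT.pow)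
    by_cases hmv : ∃ j, σ j ≠ j
    · obtain ⟨j, hj⟩ := hmv
      have h1 := ImpDec.le_finrank_E hind htop hσ hr hσr hT.pow hj
      rw [hf, hEf] at h1
      omega
    · push Not at hmv
      obtain ⟨e', s', h1, h2, h3⟩ := types hT hind htop (fun j u hu => by
        have := (hσ j).le ⟨u, hu, rfl⟩
        rwa [hmv j] at this) hf hnd (s := 2 * d / c) (by rw [finrank_jb, ← hcc]; exact hTf) rfl
      have h4 : ∀ j, e' j = a % c := by
        intro j
        have h5 : e' j ≤ ∑ j, e' j := Finset.single_le_sum (fun _ _ => Nat.zero_le _) (Finset.mem_univ j)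
        have h6 : e' j < c := by omega
        rw [h1 j, ← hcc, Nat.add_mul_mod_self_right, Nat.mod_eq_of_lt h6]
      rw [Finset.sum_congr rfl (fun j _ => h4 j), Finset.sum_const, Finset.card_univ, Fintype.card_fin, smul_eq_mul] at h2
      rw [← hEf, ← h2]
  · rintro ⟨hca, hkl⟩ x hx1 hx2
    obtain ⟨T, hT, hT1, hTm⟩ := exists_po_of_symp (p := p) hrp hro hd1 x hx1 hx2
    obtain ⟨s, hty⟩ := hT.exists_ty (W := ⊤) (fun _ _ => trivial) (jb_nd d)
    have hpos := hT.csz_pos
    have hes := hty.f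
    rw [finrank_top, finrank_jb, ← hcc] at hes
    rw [← hcc] at hpos
    obtain ⟨D, hD1, hD2, hD3, hD4, hD5⟩ := TyS.decompose hT (a := a) ⟨k, hk⟩ t ⊤ _ s hty (by rw [← hcc, ← hes, hat, mul_comm]) (by
      rw [← hcc]
      have h1 : s * c ≤ 2 * d := by omega
      have h2 : s ≤ 2 * d / c := (Nat.le_div_iff_mul_le hpos).mpr h1
      have h3 : 2 * d / c = t * (a / c) := by
        have h4 := Nat.div_add_mod' (2 * d) c
        have h5 := Nat.div_add_mod' a c
        have h6 : t * (a / c) * c + t * (a % c) = 2 * d := by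
          have h8 : t * a = t * (a / c * c + a % c) := by rw [h5]
          rw [hat, mul_comm a t, h8]
          ring
        have h7 : t * (a / c) * c = 2 * d / c * c := by omega
        exact (Nat.eq_of_mul_eq_mul_right hpos h7).symm
      omega)
    have hind := odn_indep (jb_alt d) hD4 hD5
    refine ⟨D, ⟨⟨ht, by omega, hD3, hind, iSup_top_of_finrank hind hD3 (by rw [finrank_jb, hat, mul_comm])⟩, fun j u hu hu0 => ?_, hD5⟩,
      Equiv.refl _, fun j => ?_⟩
    · by_contra hcon
      push Not at hcon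
      exact hu0 (hD4 j u hu hcon)
    · rw [hTm]
      exact hT.iso.map_eq (jb_nd d) (hD2 j)

end Cfsg.Agent.S5961
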