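import Cfsg.Statements.S5962
import Cfsg.Agent.Lib.Sesq3

set_option autoImplicit false
open scoped MatrixGroups
open Cfsg

namespace Cfsg.Agent.S5962

open Cfsg.Agent.Lib.Sesq Cfsg.Agent.Lib.InvSub Module

/-- Involutions of PSp_n(q), q odd, and the subgroups GL_{n/2}(q).2. Here `T = PSp_n(q)`, `n = 2d ≥ 4`, `q` odd, realised through the symplectic matrices over the field `F` with `q` elements; Ω is the set of unordered pairs `{U, W}` of complementary totally isotropic `d`-spaces (`F^n = U ⊕ W`), whose stabilizers are the subgroups of type GL_d(q).2 (maximal except in some small cases; maximality is not assumed); an element of `T` of prime order `r` (a symplectic matrix `x` with `x^r` scalar, `x` not scalar) fixes such a pair when it fixes or interchanges `U` and `W`. If the number of such pairs is even, every involution of `T` fixes one of them (the action is 2-elusive). -/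
theorem result {F : Type*} [Field F] [Fintype F] {p : ℕ} [Fact p.Prime] [CharP F p] {q : ℕ} (hq : Fintype.card F = q)
    (d : ℕ) (hd : 2 ≤ d) (hT : (d, q) ≠ (2, 2)) (hodd : Odd q)
    (hΩ : 2 ∣ Nat.card {P : Submodule F (Fin d ⊕ Fin d → F) × Submodule F (Fin d ⊕ Fin d → F) // IsCompl P.1 P.2 ∧ (∀ u ∈ P.1, ∀ v ∈ P.1, Cfsg.sympForm d F u v = 0) ∧ (∀ u ∈ P.2, ∀ v ∈ P.2, Cfsg.sympForm d F u v = 0)} / 2)
    (x : ↥(Matrix.symplecticGroup (Fin d) F))
    (hx1 : ∃ z : F, ((x ^ 2 : ↥(Matrix.symplecticGroup (Fin d) F)) : Matrix (Fin d ⊕ Fin d) (Fin d ⊕ Fin d) F) = z • (1 : Matrix (Fin d ⊕ Fin d) (Fin d ⊕ Fin d) F))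
    (hx2 : ∀ z : F, (x : Matrix (Fin d ⊕ Fin d) (Fin d ⊕ Fin d) F) ≠ z • (1 : Matrix (Fin d ⊕ Fin d) (Fin d ⊕ Fin d) F)) :
    ∃ U W : Submodule F (Fin d ⊕ Fin d → F), IsCompl U W ∧ (∀ u ∈ U, ∀ v ∈ U, Cfsg.sympForm d F u v = 0) ∧ (∀ u ∈ W, ∀ v ∈ W, Cfsg.sympForm d F u v = 0) ∧
        ((U.map (Matrix.toLin' (x : Matrix (Fin d ⊕ Fin d) (Fin d ⊕ Fin d) F)) = U ∧ W.map (Matrix.toLin' (x : Matrix (Fin d ⊕ Fin d) (Fin d ⊕ Fin d) F)) = W) ∨
         (U.map (Matrix.toLin' (x : Matrix (Fin d ⊕ Fin d) (Fin d ⊕ Fin d) F)) = W ∧ W.map (Matrix.toLin' (x : Matrix (Fin d ⊕ Fin d) (Fin d ⊕ Fin d) F)) = U)) := by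
  classical
  subst hq
  have h2F : (2 : F) ≠ 0 := two_ne_zero_of_odd hodd
  obtain ⟨z, hz⟩ := hx1
  set T : Module.End F (Fin d ⊕ Fin d → F) := Matrix.toLin' (x : Matrix (Fin d ⊕ Fin d) (Fin d ⊕ Fin d) F) with hTdef
  have hT := jb_iso x.2
  rw [← hTdef] at hT
  have hTT : T * T = z • (1 : Module.End F _) := by
    have h1 : (x : Matrix (Fin d ⊕ Fin d) (Fin d ⊕ Fin d) F) * (x : Matrix (Fin d ⊕ Fin d) (Fin d ⊕ Fin d) F) =
        z • (1 : Matrix (Fin d ⊕ Fin d) (Fin d ⊕ Fin d) F) := by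
      rw [← hz, pow_two]; rfl
    have h3 := congrArg Matrix.toLin' h1
    rw [Matrix.toLin'_mul, map_smul, Matrix.toLin'_one] at h3
    exact h3
  have hne : Nonempty (Fin d ⊕ Fin d) := ⟨Sum.inl ⟨0, by omega⟩⟩
  have hz2 : z ^ 2 = 1 := sq_scalar (jb_nd d) hT (k := 2) (by rw [pow_two]; exact hTT)
  have hz3 : z = 1 ∨ z = -1 := by
    rw [pow_two] at hz2
    exact mul_self_eq_one_iff.mp hz2
  rcases hz3 with rfl | rfl
  · rw [one_smul] at hTT
    obtain ⟨v, w, hs⟩ := exists_psys (jb_alt d) (jb_nd d) hT (P := fun v w => ∃ ε : F, ε ^ 2 = 1 ∧ T v = ε • v ∧ T w = ε • w)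
      (by
        rintro v w ⟨ε, -, h1, h3⟩
        rw [h1, h3]
        exact ⟨Submodule.smul_mem _ _ (Submodule.subset_span (by simp)), Submodule.smul_mem _ _ (Submodule.subset_span (by simp))⟩)
      (fun W hW hWnd hne => plane_one h2F hT hTT hW hWnd hne) (finrank_jb d)
    refine ⟨_, _, hs.isCompl (finrank_jb d), hs.ti_v, hs.ti_w, Or.inl ⟨?_, ?_⟩⟩
    · apply hT.map_eq (jb_nd d)
      apply inv_span
      rintro _ ⟨j, rfl⟩
      obtain ⟨ε, -, h1, -⟩ := hs.p j
      rw [h1]; exact Submodule.smul_mem _ _ (Submodule.subset_span ⟨j, rfl⟩)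
    · apply hT.map_eq (jb_nd d)
      apply inv_span
      rintro _ ⟨j, rfl⟩
      obtain ⟨ε, -, -, h1⟩ := hs.p j
      rw [h1]; exact Submodule.smul_mem _ _ (Submodule.subset_span ⟨j, rfl⟩)
  · have hTT' : T * T = -1 := by rw [hTT]; apply LinearMap.ext; intro v; simp
    obtain ⟨v, w, hs⟩ := exists_psys (jb_alt d) (jb_nd d) hT (P := fun v w => T v = w ∧ T w = -v)
      (by
        rintro v w ⟨h1, h3⟩
        rw [h1, h3]
        exact ⟨Submodule.subset_span (by simp), Submodule.neg_mem _ (Submodule.subset_span (by simp))⟩)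
      (fun W hW hWnd hne => plane_neg (jb_alt d) h2F hT hTT' hW hWnd hne) (finrank_jb d)
    refine ⟨_, _, hs.isCompl (finrank_jb d), hs.ti_v, hs.ti_w, Or.inr ⟨?_, ?_⟩⟩
    · rw [Submodule.map_span, ← Set.range_comp]
      congr 1
      congr 1
      funext j
      exact (hs.p j).1
    · rw [Submodule.map_span, ← Set.range_comp]
      have : (T ∘ w) = fun j => -(v j) := by funext j; exact (hs.p j).2
      rw [this]
      apply le_antisymm
      · rw [Submodule.span_le]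
        rintro _ ⟨j, rfl⟩
        exact Submodule.neg_mem _ (Submodule.subset_span ⟨j, rfl⟩)
      · rw [Submodule.span_le]
        rintro _ ⟨j, rfl⟩
        have h1 : -(v j) ∈ Submodule.span F (Set.range fun j => -(v j)) := Submodule.subset_span ⟨j, rfl⟩
        have := Submodule.neg_mem _ h1
        rwa [neg_neg] at this

end Cfsg.Agent.S5962
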