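import Cfsg.Statements.S5963
import Cfsg.Agent.Lib.Sesq13

set_option autoImplicit false
open scoped MatrixGroups
open Cfsg

namespace Cfsg.Agent.S5963

open Cfsg.Agent.Lib.Sesq Cfsg.Agent.Lib.InvSub Cfsg.Agent.Lib.PrimeOrd Module Cfsg.Agent.Lib

lemma prod_formula (q d N : ℕ) (hq : 2 ≤ q) (h : N * ∏ i : Fin d, (q ^ d - q ^ i.val) = spc q d) :
    N * ∏ i ∈ Finset.range d, q ^ i = q ^ (d ^ 2) * ∏ i ∈ Finset.range d, (q ^ (i + 1) + 1) := by
  have h1 : ∏ i : Fin d, (q ^ d - q ^ i.val) = (∏ i ∈ Finset.range d, q ^ i) * ∏ i ∈ Finset.range d, (q ^ (i + 1) - 1) := by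
    rw [Fin.prod_univ_eq_prod_range (fun i => q ^ d - q ^ i) d]
    rw [← Finset.prod_range_reflect (fun i => q ^ (i + 1) - 1), ← Finset.prod_mul_distrib]
    apply Finset.prod_congr rfl
    intro i hi
    rw [Finset.mem_range] at hi
    rw [Nat.mul_sub, mul_one, ← pow_add]
    congr 2
    omega
  have h2 : spc q d = q ^ (d ^ 2) * ((∏ i ∈ Finset.range d, (q ^ (i + 1) - 1)) * ∏ i ∈ Finset.range d, (q ^ (i + 1) + 1)) := by
    rw [spc, ← Finset.prod_mul_distrib]
    congr 1
    apply Finset.prod_congr rfl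
    intro i _
    have h3 : 1 ≤ q ^ (i + 1) := Nat.one_le_pow _ _ (by omega)
    have h4 : 1 ≤ q ^ (2 * (i + 1)) := Nat.one_le_pow _ _ (by omega)
    have h5 : q ^ (2 * (i + 1)) = q ^ (i + 1) * q ^ (i + 1) := by rw [← pow_add]; congr 1; ring
    obtain ⟨k, hk⟩ := Nat.exists_eq_add_of_le h3
    rw [h5, hk]
    have e1 : (1 + k) * (1 + k) = 1 + (2 * k + k * k) := by ring
    rw [e1, Nat.add_sub_cancel_left, Nat.add_sub_cancel_left]
    ring
  rw [h1, h2] at h
  have h3 : 0 < ∏ i ∈ Finset.range d, (q ^ (i + 1) - 1) := by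
    apply Finset.prod_pos
    intro i _
    have : q ^ 1 ≤ q ^ (i + 1) := Nat.pow_le_pow_right (by omega) (by omega)
    rw [pow_one] at this
    omega
  apply Nat.eq_of_mul_eq_mul_right h3
  rw [mul_assoc, h, mul_assoc, mul_comm (∏ i ∈ Finset.range d, (q ^ (i + 1) + 1))]

lemma no_fixed {F V : Type*} [Field F] [Fintype F] [AddCommGroup V] [Module F V] [FiniteDimensional F V] {p r : ℕ}
    {B : V →ₗ[F] V →ₗ[F] F} {T : Module.End F V} (h : PO F p r B T) {i : ℕ} (hss : SS T 1 i)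
    (hC : finrank F (perp (σ := RingHom.id F) B (E T 1)) = i) {U W : Submodule F V} (hUW : IsCompl U W)
    (hU : TI (σ := RingHom.id F) B U) (hW : TI (σ := RingHom.id F) B W) (hiU : Inv T U) (hiW : Inv T W) : False := by
  obtain ⟨h0, h1, h2, h3, h4, h5⟩ := h.split_E (W := ⊤) (fun _ _ => trivial) h.nd
  rw [top_inf_eq] at h2 h3 h4 h5
  rw [top_inf_eq] at h2 h3 h4 h5
  set C := perp (σ := RingHom.id F) B (E T 1) with hCdef
  have hCne : C ≠ ⊥ := by
    intro hbot
    rw [hbot, finrank_bot] at hC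
    exact hss.pos.ne hC
  obtain ⟨x, hx, hx0⟩ := Submodule.exists_mem_ne_zero_of_ne_bot hCne
  have key : ∀ U : Submodule F V, TI (σ := RingHom.id F) B U → Inv T U → ∀ a ∈ U, T a ≠ a → False := by
    intro U hU hiU a ha hTa
    have hmem : T a - a ∈ U ⊓ C := by
      refine ⟨U.sub_mem (hiU a ha) ha, ?_⟩
      intro e he
      have hTe : T e = e := by
        have := Module.End.mem_eigenspace_iff.mp he
        rwa [one_smul] at this
      have := h.iso e a
      rw [hTe] at this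
      rw [map_sub, this, sub_self]
    have hinv : Inv T (U ⊓ C) := inv_inf hiU h2
    obtain ⟨X, hX, hXi, hXf⟩ := hss.ex (U ⊓ C) hinv (by
      intro hbot
      rw [hbot, Submodule.mem_bot] at hmem
      exact hTa (sub_eq_zero.mp hmem)) (by
      rw [disjoint_iff, eq_bot_iff, ← h4]
      exact le_inf (inf_le_right.trans inf_le_right) inf_le_left)
    have hXC : X = C := Submodule.eq_of_le_of_finrank_eq (hX.trans inf_le_right) (by rw [hXf, hC])
    rw [hXC] at hX
    exact hx0 (h3 x hx (fun w hw => hU _ (hX hx).1 _ (hX hw).1))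
  have hxm : x ∈ U ⊔ W := by rw [hUW.sup_eq_top]; trivial
  obtain ⟨a, ha, b, hb, rfl⟩ := Submodule.mem_sup.mp hxm
  by_cases hTa : T a = a
  · by_cases hTb : T b = b
    · have : a + b ∈ C ⊓ E T 1 := ⟨hx, Module.End.mem_eigenspace_iff.mpr (by rw [map_add, hTa, hTb, one_smul])⟩
      rw [h4] at this
      exact hx0 ((Submodule.mem_bot F).mp this)
    · exact key W hW hiW b hb hTb
  · exact key U hU hiU a ha hTa

/-- Derangements of odd prime order of PSp_n(q), q odd, on pairs of complementary totally isotropic subspaces. Here `T = PSp_n(q)`, `n = 2d ≥ 4`, `q` odd, realised through the symplectic matrices over the field `F` with `q` elements; Ω is the set of unordered pairs `{U, W}` of complementary totally isotropic `d`-spaces (`F^n = U ⊕ W`), whose stabilizers are the subgroups of type GL_d(q).2 (maximal except in some small cases; maximality is not assumed); an element of `T` of prime order `r` (a symplectic matrix `x` with `x^r` scalar, `x`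 not scalar) fixes such a pair when it fixes or interchanges `U` and `W`. For every odd prime `r ≠ p` dividing the number of such pairs, some element of `T` of order `r` fixes no such pair (the action is never `r`-elusive for odd `r ≠ p`). -/
theorem result {F : Type*} [Field F] [Fintype F] {p : ℕ} [Fact p.Prime] [CharP F p] {q : ℕ} (hq : Fintype.card F = q)
    (d : ℕ) (hd : 2 ≤ d) (hT : (d, q) ≠ (2, 2)) (hodd : Odd q)
    (r : ℕ) [Fact r.Prime] (hr2 : r ≠ 2) (hrp : r ≠ p) (hΩ : r ∣ Nat.card {P : Submodule F (Fin d ⊕ Fin d → F) × Submodule F (Fin d ⊕ Fin d → F) // IsCompl P.1 P.2 ∧ (∀ u ∈ P.1, ∀ v ∈ P.1, Cfsg.sympForm d F u v = 0) ∧ (∀ u ∈ P.2, ∀ v ∈ P.2, Cfsg.sympForm d F u v = 0)} / 2) :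
    ∃ x : ↥(Matrix.symplecticGroup (Fin d) F),
      (∃ z : F, ((x ^ r : ↥(Matrix.symplecticGroup (Fin d) F)) : Matrix (Fin d ⊕ Fin d) (Fin d ⊕ Fin d) F) = z • (1 : Matrix (Fin d ⊕ Fin d) (Fin d ⊕ Fin d) F)) ∧
      (∀ z : F, (x : Matrix (Fin d ⊕ Fin d) (Fin d ⊕ Fin d) F) ≠ z • (1 : Matrix (Fin d ⊕ Fin d) (Fin d ⊕ Fin d) F)) ∧
      ¬ (∃ U W : Submodule F (Fin d ⊕ Fin d → F), IsCompl U W ∧ (∀ u ∈ U, ∀ v ∈ U, Cfsg.sympForm d F u v = 0) ∧ (∀ u ∈ W, ∀ v ∈ W, Cfsg.sympForm d F u v = 0) ∧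
        ((U.map (Matrix.toLin' (x : Matrix (Fin d ⊕ Fin d) (Fin d ⊕ Fin d) F)) = U ∧ W.map (Matrix.toLin' (x : Matrix (Fin d ⊕ Fin d) (Fin d ⊕ Fin d) F)) = W) ∨
         (U.map (Matrix.toLin' (x : Matrix (Fin d ⊕ Fin d) (Fin d ⊕ Fin d) F)) = W ∧ W.map (Matrix.toLin' (x : Matrix (Fin d ⊕ Fin d) (Fin d ⊕ Fin d) F)) = U))) := by
  classical
  subst hq
  have hr : r.Prime := Fact.out
  have hro : Odd r := hr.odd_of_ne_two hr2
  have hq2 : 2 ≤ Fintype.card F := Fintype.one_lt_card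
  -- the counting
  have hcount := card_ti_pairs (jb_alt (F := F) d) (jb_nd d) (d := d) (finrank_jb d)
  set N := Nat.card {P : Submodule F (Fin d ⊕ Fin d → F) × Submodule F (Fin d ⊕ Fin d → F) // IsCompl P.1 P.2 ∧ (∀ u ∈ P.1, ∀ v ∈ P.1, Cfsg.sympForm d F u v = 0) ∧ (∀ u ∈ P.2, ∀ v ∈ P.2, Cfsg.sympForm d F u v = 0)} with hN
  have hcount' : N * ∏ i : Fin d, (Fintype.card F ^ d - Fintype.card F ^ i.val) = spc (Fintype.card F) d := hcount
  have hform := prod_formula _ _ _ hq2 hcount'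
  have hNeven : 2 ∣ N := by
    have h1 : 2 ∣ N * ∏ i ∈ Finset.range d, Fintype.card F ^ i := by
      rw [hform]
      apply Dvd.dvd.mul_left
      have h2 : (0 : ℕ) ∈ Finset.range d := Finset.mem_range.mpr (by omega)
      refine Dvd.dvd.trans ?_ (Finset.dvd_prod_of_mem _ h2)
      rw [zero_add, pow_one]
      obtain ⟨k, hk⟩ := hodd
      exact ⟨k + 1, by omega⟩
    rcases (Nat.Prime.dvd_mul Nat.prime_two).mp h1 with h2 | h2
    · exact h2
    · exfalso
      obtain ⟨i, -, h3⟩ := (Prime.dvd_finsetProd_iff Nat.prime_two.prime _).mp h2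
      have h4 := Nat.prime_two.dvd_of_dvd_pow h3
      obtain ⟨k, hk⟩ := hodd
      omega
  have hrN : r ∣ N := by
    obtain ⟨k, hk⟩ := hNeven
    rw [hk, Nat.mul_div_cancel_left _ (by norm_num)] at hΩ
    rw [hk]
    exact Dvd.dvd.mul_left hΩ 2
  have hrq : ¬ r ∣ Fintype.card F := by
    intro h
    obtain ⟨n, hn, hc⟩ := FiniteField.card F p
    rw [hc] at h
    exact hrp ((Nat.prime_dvd_prime_iff_eq hr Fact.out).mp (hr.dvd_of_dvd_pow h))
  obtain ⟨j, hjd, hj⟩ : ∃ j, j < d ∧ r ∣ Fintype.card F ^ (j + 1) + 1 := by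
    have h1 : r ∣ Fintype.card F ^ (d ^ 2) * ∏ i ∈ Finset.range d, (Fintype.card F ^ (i + 1) + 1) := by
      rw [← hform]; exact Dvd.dvd.mul_right hrN _
    rcases (Nat.Prime.dvd_mul hr).mp h1 with h2 | h2
    · exact absurd (hr.dvd_of_dvd_pow h2) hrq
    · obtain ⟨j, hj, h3⟩ := (Prime.dvd_finsetProd_iff hr.prime _).mp h2
      exact ⟨j, Finset.mem_range.mp hj, h3⟩
  -- the order is even
  have hd2 : r ∣ Fintype.card F ^ (2 * (j + 1)) - 1 := by
    have : Fintype.card F ^ (2 * (j + 1)) - 1 = (Fintype.card F ^ (j + 1) + 1) * (Fintype.card F ^ (j + 1) - 1) := by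
      rw [mul_comm 2, pow_mul, ← Nat.sq_sub_sq, one_pow]
    rw [this]; exact Dvd.dvd.mul_right hj _
  have hi2 := SubspaceCount.orderOf_dvd_of_dvd Fintype.card_pos hd2
  have hie : Even (orderOf ((Fintype.card F : ℕ) : ZMod r)) := by
    by_contra ho
    have hco : Nat.Coprime (orderOf ((Fintype.card F : ℕ) : ZMod r)) 2 := by
      rw [Nat.coprime_comm, Nat.coprime_two_left]; exact Nat.not_even_iff_odd.mp ho
    have h1 := SubspaceCount.dvd_of_orderOf_dvd (r := r) Fintype.card_pos (hco.dvd_of_dvd_mul_left hi2)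
    have h2 : r ∣ 2 := by
      have h3 : 1 ≤ Fintype.card F ^ (j + 1) := Nat.one_le_pow _ _ (by omega)
      have : 2 = (Fintype.card F ^ (j + 1) + 1) - (Fintype.card F ^ (j + 1) - 1) := by omega
      rw [this]
      exact Nat.dvd_sub hj h1
    exact hr2 ((Nat.prime_dvd_prime_iff_eq hr Nat.prime_two).mp h2)
  have hcsz : csz F r = orderOf ((Fintype.card F : ℕ) : ZMod r) := by
    unfold csz csize; rw [if_pos hie]
  have hcle : csz F r ≤ 2 * d := by
    have := Nat.le_of_dvd (by omega) hi2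
    omega
  obtain ⟨T, hT, hTf⟩ := exists_po (F := F) (p := p) Fact.out inferInstance hr hrp hro 1 (jb_alt (F := F) d) (jb_nd d) (by
    rw [finrank_jb, one_mul]; exact hcle)
  rw [finrank_jb, one_mul] at hTf
  have hpos := hT.csz_pos
  have hT1 : T ≠ 1 := by
    rintro rfl
    have : E (1 : Module.End F (Fin d ⊕ Fin d → F)) 1 = ⊤ := by
      rw [eq_top_iff]
      intro x _
      rw [Module.End.mem_eigenspace_iff, one_smul]; rfl
    rw [this, finrank_top, finrank_jb] at hTf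
    omega
  obtain ⟨x, hx1, hx2, hx3⟩ := exists_symp_of_po (by omega) hT hT1
  refine ⟨x, hx1, hx2, ?_⟩
  rw [hx3]
  rintro ⟨U, W, hUW, hU, hW, hfix⟩
  have hss : SS T 1 (csz F r) := by
    rw [hcsz]
    exact ssB (p := p) hrp one_ne_zero (by rw [one_pow, one_smul]; exact hT.pow)
  have hC : finrank F (perp (σ := RingHom.id F) (AltSim.JB (F := F) d) (E T 1)) = csz F r := by
    have := finrank_add_perp (σ := RingHom.id F) (jb_nd (F := F) d) (E T 1)
    rw [finrank_jb] at this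
    omega
  rcases hfix with ⟨h1, h2⟩ | ⟨h1, h2⟩
  · exact no_fixed hT hss hC hUW hU hW (fun u hu => h1.le ⟨u, hu, rfl⟩) (fun u hu => h2.le ⟨u, hu, rfl⟩)
  · have h3 : ∀ k, U.map (T ^ (2 * k)) = U := by
      intro k
      induction k with
      | zero => exact Submodule.map_id U
      | succ k ih =>
        rw [Nat.mul_succ, pow_add, Module.End.mul_eq_comp, Submodule.map_comp, pow_two, Module.End.mul_eq_comp, Submodule.map_comp, h1, h2, ih]
    obtain ⟨k, hk⟩ := hro
    have h4 : U.map (T ^ r) = W := by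
      rw [hk, pow_succ', Module.End.mul_eq_comp, Submodule.map_comp, h3, h1]
    rw [hT.pow] at h4
    have h5 : U = W := by rw [← h4]; exact (Submodule.map_id U).symm
    have h6 := hUW.inf_eq_bot
    have h7 := hUW.sup_eq_top
    rw [h5, inf_idem] at h6
    rw [h5, sup_idem, h6] at h7
    have h8 : finrank F (⊤ : Submodule F (Fin d ⊕ Fin d → F)) = 0 := by rw [← h7, finrank_bot]
    rw [finrank_top, finrank_jb] at h8
    omega

end Cfsg.Agent.S5963
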