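import Cfsg.Statements.S5964
import Cfsg.Agent.Lib.SubIndex

set_option autoImplicit false
open scoped MatrixGroups
open Cfsg

namespace Cfsg.Agent.S5964

open Cfsg.Agent.Lib.ConjSub Cfsg.Agent.Lib.ElusiveLin Cfsg.Agent.Lib.JordanNil Cfsg.Agent.Lib.ElusiveUni Cfsg.Agent.Lib.PrimeOrd Module

/-- Involutions of PSL_n(q) and subfield subgroups. Here `T = PSL_n(F)` for a field `F` with `q = p^f` elements (`n ≥ 2`, `(n, q) ≠ (2, 2), (2, 3)`), `F₀` is the subfield with `q₀` elements where `q = q₀^k` for a prime `k`, and `H` is the subgroup of matrices of determinant 1 lying in the subfield group of `F₀` (invertible matrices over `F₀` times scalars) — a maximal subgroup of type GL_n(q₀) (the case `n = 2`, `q₀ = 2` is excluded); Ω is the set of `T`-conjugates of `H` (cosets of `H`), so an element of `T` of prime order `r` (a matrix `x` of determinant 1 with `x^r` scalar, `x` not scalar) fixes a point of Ω when some conjugate of `x` by a matrix of determinant 1 lies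 in `H`. Suppose the index of `H` is even. Then every involution of `T` is conjugate in `T` into `H` if and only if either `q` is even, or `k = 2` and `(n)_2 ≤ (q − 1)_2`. (For `q` odd and `k` odd the index of `H` is odd, so that case does not arise.) -/
theorem result {F : Type*} [Field F] [Fintype F] {p : ℕ} [Fact p.Prime] [CharP F p] {q : ℕ} (hq : Fintype.card F = q)
    (n : ℕ) (hn : 2 ≤ n) (hT : (n, q) ≠ (2, 2) ∧ (n, q) ≠ (2, 3))
    (F₀ : Subfield F) (k q₀ : ℕ) (hk : k.Prime) (hF₀ : Nat.card ↥F₀ = q₀) (hqk : q = q₀ ^ k) (hC5 : ¬ (n = 2 ∧ q₀ = 2)) (hΩ : 2 ∣ ((Cfsg.Geo.subfieldSubgroup F₀ 1).comap (Matrix.SpecialLinearGroup.toGL : Matrix.SpecialLinearGroup (Fin n) F →* GL (Fin n) F)).index) :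
    (∀ x : Matrix.SpecialLinearGroup (Fin n) F,
      (∃ z : F, ((x ^ 2 : Matrix.SpecialLinearGroup (Fin n) F) : Matrix (Fin n) (Fin n) F) = z • (1 : Matrix (Fin n) (Fin n) F)) →
      (∀ z : F, (x : Matrix (Fin n) (Fin n) F) ≠ z • (1 : Matrix (Fin n) (Fin n) F)) →
      ∃ P : Matrix.SpecialLinearGroup (Fin n) F, P⁻¹ * x * P ∈ ((Cfsg.Geo.subfieldSubgroup F₀ 1).comap (Matrix.SpecialLinearGroup.toGL : Matrix.SpecialLinearGroup (Fin n) F →* GL (Fin n) F))) ↔
    (Odd q → (k = 2 ∧ padicValNat 2 n ≤ padicValNat 2 (q - 1))) := by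
  classical
  subst hq
  have hn0 : 0 < n := by omega
  have hp : p.Prime := Fact.out
  have hcard : Fintype.card F = Nat.card F₀ ^ k := by rw [hF₀]; exact hqk
  obtain ⟨e, -, he⟩ := FiniteField.card F p
  constructor
  · intro h hodd
    have hk2 : k = 2 := by
      by_contra hne
      have := index_odd hn0 F₀ hF₀ hqk hodd (hk.odd_of_ne_two hne)
      exact (Nat.not_even_iff_odd.mpr this) (even_iff_two_dvd.mpr hΩ)
    refine ⟨hk2, ?_⟩
    subst hk2
    by_contra hlt
    push Not at hlt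
    have h2n : 2 ∣ n := by
      by_contra h2
      rw [padicValNat.eq_zero_of_not_dvd h2] at hlt
      omega
    have h2q : 2 ∣ Fintype.card F - 1 := by
      obtain ⟨m, hm⟩ := hodd; exact ⟨m, by omega⟩
    obtain ⟨c, hc, hdet⟩ := exists_typeC (F := F) Nat.prime_two h2q hn0 h2n (fun h => absurd h.1 (by omega))
    obtain ⟨x, hx, -, -⟩ := exists_typeC_elt (n := n) (k := n / 2) Nat.prime_two hc (by omega) hdet
    have hx' : ((x ^ 2 : Matrix.SpecialLinearGroup (Fin n) F) : Matrix (Fin n) (Fin n) F) = c • (1 : Matrix (Fin n) (Fin n) F) := by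
      rw [← tl_eq_smul_iff, ← tl_pow, hx]
    obtain ⟨P, hP⟩ := h x ⟨c, hx'⟩ (fun z hz => by
      have h1 : tl x = z • (1 : Module.End F (Fin n → F)) := (tl_eq_smul_iff x z).mpr hz
      rw [h1, smul_pow, one_pow] at hx
      have h2 := congrArg (fun f : Module.End F (Fin n → F) => f (Pi.single ⟨0, hn0⟩ 1) ⟨0, hn0⟩) hx
      simp at h2
      exact hc z h2)
    obtain ⟨l, B, hB⟩ := (mem_HSub_iff hn0 F₀ _).mp hP
    have h3 : (P⁻¹ * x * P) ^ 2 = P⁻¹ * x ^ 2 * P := by
      rw [pow_two, pow_two]; group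
    have h4 : ((P⁻¹ * x ^ 2 * P : Matrix.SpecialLinearGroup (Fin n) F) : Matrix (Fin n) (Fin n) F) = c • (1 : Matrix (Fin n) (Fin n) F) := by
      rw [Matrix.SpecialLinearGroup.coe_mul, Matrix.SpecialLinearGroup.coe_mul, hx', Matrix.mul_smul, Matrix.mul_one,
        Matrix.smul_mul, ← Matrix.SpecialLinearGroup.coe_mul, inv_mul_cancel, Matrix.SpecialLinearGroup.coe_one]
    have h5 : (l • B.map F₀.subtype) ^ 2 = c • (1 : Matrix (Fin n) (Fin n) F) := by
      rw [← hB, ← Matrix.SpecialLinearGroup.coe_pow, h3, h4]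
    have h6 := congrFun (congrFun h5 ⟨0, hn0⟩) ⟨0, hn0⟩
    rw [smul_pow, Matrix.smul_apply, Matrix.smul_apply, Matrix.one_apply_eq, smul_eq_mul, smul_eq_mul, mul_one] at h6
    have h7 : ((B.map F₀.subtype) ^ 2) ⟨0, hn0⟩ ⟨0, hn0⟩ = (((B ^ 2) ⟨0, hn0⟩ ⟨0, hn0⟩ : F₀) : F) := by
      rw [pow_two, pow_two, ← Matrix.map_mul]; rfl
    rw [h7] at h6
    obtain ⟨s, hs⟩ := isSquare_of_two F₀ hcard ((B ^ 2) ⟨0, hn0⟩ ⟨0, hn0⟩)
    apply hc (l * s)
    rw [← h6, hs]; ring
  · intro hcond x hx1 _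
    obtain ⟨z, hz⟩ := hx1
    have hT : (tl x) ^ 2 = z • (1 : Module.End F (Fin n → F)) := by
      rw [tl_pow, tl_eq_smul_iff, hz]
    have hz0 : z ≠ 0 := by
      rintro rfl
      have h1 := (x ^ 2).2
      have hne : Nonempty (Fin n) := ⟨⟨0, hn0⟩⟩
      rw [hz, zero_smul, Matrix.det_zero] at h1
      exact zero_ne_one h1
    by_cases hp2 : p = 2
    · subst hp2
      obtain ⟨y, hy, hN⟩ := exists_nil x hz
      have hy0 : y ≠ 0 := by rintro rfl; apply hz0; rw [← hy]; ring
      have hnil : IsNilpotent (tl x - y • (1 : Module.End F (Fin n → F))) := ⟨2, hN⟩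
      obtain ⟨μ, hμ⟩ := exists_typ_top hnil
      have hle := (hμ.pow_eq_zero_iff 2).mp hN
      have hsum : n = μ.sum := by rw [← hμ.finrank_eq, finrank_top]; simp
      obtain ⟨m, hm⟩ : ∃ m, m ∈ μ := by
        apply Multiset.exists_mem_of_ne_zero
        rintro rfl
        simp at hsum
        omega
      refine exists_conj_unip hn0 F₀ hy0 hnil hμ hm ?_
      have h1 := hle m hm
      have h2 : m ≠ 0 := by rintro rfl; exact hμ.1 hm
      have h3 : m = 1 ∨ m = 2 := by omega
      rcases h3 with rfl | rfl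
      · exact full_one F₀
      · exact full_p F₀
    · have hodd : Odd (Fintype.card F) := by rw [he]; exact (hp.odd_of_ne_two hp2).pow
      obtain ⟨rfl, hv⟩ := hcond hodd
      have h2F : (2 : F) ≠ 0 := by
        have : Fact (Nat.Prime 2) := ⟨Nat.prime_two⟩
        have := cast_ne_zero (F := F) (p := p) (r := 2) (Ne.symm hp2)
        exact_mod_cast this
      have : Fact (Nat.Prime 2) := ⟨Nat.prime_two⟩
      rcases structure_of (p := p) (r := 2) (Ne.symm hp2) x z hz hn0 with ⟨y, hy0, hy, -⟩ | ⟨hnp, -, -, m, hm, hnm, hdet⟩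
      · exact exists_conj_inv hn0 F₀ h2F hy0 (by rw [hT, hy])
      · exfalso
        apply not_typeC Nat.prime_two hnp hnm hm hdet
        refine ⟨hv, fun _ _ => ?_⟩
        have hq0 : Odd q₀ := by
          rw [hqk] at hodd
          exact (Nat.odd_pow_iff (by norm_num)).mp hodd
        obtain ⟨s, hs⟩ := hq0
        rw [hqk, hs]
        have : (2 * s + 1) ^ 2 = 4 * (s * (s + 1)) + 1 := by ring
        omega

end Cfsg.Agent.S5964
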