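import Cfsg.Statements.S5965
import Cfsg.Agent.Lib.SubfR4

set_option autoImplicit false
open scoped MatrixGroups
open Cfsg

namespace Cfsg.Agent.S5965

open Cfsg.Agent.Lib.SubfR Cfsg.Agent.Lib.UnForm Cfsg.Agent.Lib.XSym Cfsg.Agent.Lib.PrimeOrd Cfsg.Agent.Lib.InvSub Cfsg.Agent.Lib.ElusiveLin Module Matrix
open Cfsg.Agent.Lib.NormTool (mem_SL_iff)


/-- Elements of odd prime order r ≠ p of PSL_n(q) and subfield subgroups. Here `T = PSL_n(F)` for a field `F` with `q = p^f` elements (`n ≥ 2`, `(n, q) ≠ (2, 2), (2, 3)`), `F₀` is the subfield with `q₀` elements where `q = q₀^k` for a prime `k`, and `H` is the subgroup of matrices of determinant 1 lying in the subfield group of `F₀` (invertible matrices over `F₀` times scalars) — a maximal subgroup of type GL_n(q₀) (the case `n = 2`, `q₀ = 2` is excluded); Ω is the set of `T`-conjugates of `H` (cosets of `H`), so an element of `T` of prime order `r` (a matrix `x` of determinant 1 with `x^r` scalar, `x` not scalar) fixes a point of Ω when some conjugate of `x`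 by a matrix of determinant 1 lies in `H`. Let `r ≠ p` be an odd prime dividing the index of `H`, with `(n, r) ≠ (6, 3)` and, when `r = k` divides `q₀ − 1`, with `(n)_r ≤ (q − 1)_r`. Then every element of `T` of order `r` is conjugate in `T` into `H` if and only if `r = k`, or `k = 2`, `r = n ∈ {3, 5}` and `(q₀ + 1)_r = r`. The two excluded cases, `(n, r) = (6, 3)` and `r = k ∣ q₀ − 1` with `(n)_r > (q − 1)_r`, are ones where this criterion can fail, so they are left out. -/
theorem result {F : Type*} [Field F] [Fintype F] {p : ℕ} [Fact p.Prime] [CharP F p] {q : ℕ} (hq : Fintype.card F = q)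
    (n : ℕ) (hn : 2 ≤ n) (hT : (n, q) ≠ (2, 2) ∧ (n, q) ≠ (2, 3))
    (F₀ : Subfield F) (k q₀ : ℕ) (hk : k.Prime) (hF₀ : Nat.card ↥F₀ = q₀) (hqk : q = q₀ ^ k) (hC5 : ¬ (n = 2 ∧ q₀ = 2)) (r : ℕ) [Fact r.Prime] (hr2 : r ≠ 2) (hrp : r ≠ p) (hgap : ¬ (n = 6 ∧ r = 3)) (hgapk : r = k → r ∣ q₀ - 1 → padicValNat r n ≤ padicValNat r (q - 1)) (hΩ : r ∣ ((Cfsg.Geo.subfieldSubgroup F₀ 1).comap (Matrix.SpecialLinearGroup.toGL : Matrix.SpecialLinearGroup (Fin n) F →* GL (Fin n) F)).index) :
    (∀ x : Matrix.SpecialLinearGroup (Fin n) F,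
      (∃ z : F, ((x ^ r : Matrix.SpecialLinearGroup (Fin n) F) : Matrix (Fin n) (Fin n) F) = z • (1 : Matrix (Fin n) (Fin n) F)) →
      (∀ z : F, (x : Matrix (Fin n) (Fin n) F) ≠ z • (1 : Matrix (Fin n) (Fin n) F)) →
      ∃ P : Matrix.SpecialLinearGroup (Fin n) F, P⁻¹ * x * P ∈ ((Cfsg.Geo.subfieldSubgroup F₀ 1).comap (Matrix.SpecialLinearGroup.toGL : Matrix.SpecialLinearGroup (Fin n) F →* GL (Fin n) F))) ↔
    (r = k ∨ (k = 2 ∧ r = n ∧ (n = 3 ∨ n = 5) ∧ padicValNat r (q₀ + 1) = 1)) := by
  classical
  subst hq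
  subst hF₀
  have hn0 : 0 < n := by omega
  have hrp' : r.Prime := Fact.out
  have hk0 : 0 < k := hk.pos
  have hq₀1 : 1 < Nat.card F₀ := Finite.one_lt_card
  have hone : ∀ {a : ℕ}, r ∣ Nat.card F₀ ^ a - 1 → ((Nat.card F₀ : ℕ) : ZMod r) ^ a = 1 := by
    intro a h
    have h6 : 1 ≤ Nat.card F₀ ^ a := Nat.one_le_pow _ _ (by omega)
    have h7 := (ZMod.natCast_eq_zero_iff _ _).2 h
    rw [Nat.cast_sub h6, Nat.cast_one, sub_eq_zero, Nat.cast_pow] at h7
    exact h7
  have hone' : ∀ {a : ℕ}, ((Nat.card F₀ : ℕ) : ZMod r) ^ a = 1 → r ∣ Nat.card F₀ ^ a - 1 := by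
    intro a h
    have h6 : 1 ≤ Nat.card F₀ ^ a := Nat.one_le_pow _ _ (by omega)
    rw [← ZMod.natCast_eq_zero_iff, Nat.cast_sub h6, Nat.cast_one, sub_eq_zero, Nat.cast_pow]
    exact h
  have h2r : ¬ r ∣ 2 := fun h => hr2 ((Nat.prime_dvd_prime_iff_eq hrp' Nat.prime_two).mp h)
  have toG : ∀ X : Matrix.SpecialLinearGroup (Fin n) F, ∃ x ∈ Cfsg.Geo.specialLinear (Fin n) F, x.1 = X.1 :=
    fun X => ⟨Matrix.GeneralLinearGroup.mkOfDetNeZero X.1 (by rw [X.2]; exact one_ne_zero), mem_SL_iff.2 X.2, rfl⟩
  constructor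
  · intro hall
    by_contra hcon
    push Not at hcon
    obtain ⟨hrk, hcon2⟩ := hcon
    obtain ⟨j, hj2, hjn, hj1, hj0⟩ := index_factor' hn0 F₀ hk hqk hrp hrk hΩ
    set a := orderOf ((Fintype.card F : ℕ) : ZMod r) with ha
    have haj : a ∣ j := Cfsg.Agent.Lib.SubspaceCount.orderOf_dvd_of_dvd Fintype.card_pos hj1
    have hale : a ≤ j := Nat.le_of_dvd (by omega) haj
    have hapos : 0 < a := order_pos (p := p) hrp
    by_cases ha1 : a = 1
    · have hrq : r ∣ Fintype.card F - 1 := by
        have := Cfsg.Agent.Lib.SubspaceCount.dvd_of_orderOf_dvd (q := Fintype.card F) (r := r) (k := 1) Fintype.card_pos (by rw [← ha, ha1])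
        rwa [pow_one] at this
      have hrq₀ : ¬ r ∣ Nat.card F₀ - 1 := by
        intro h
        apply hj0
        have := Nat.sub_dvd_pow_sub_pow (Nat.card F₀) 1 j
        rw [one_pow] at this
        exact h.trans this
      have hk1 : ((Nat.card F₀ : ℕ) : ZMod r) ^ k = 1 := hone (by rw [← hqk]; exact hrq)
      have hne1 : ((Nat.card F₀ : ℕ) : ZMod r) ≠ 1 := by
        intro h
        apply hrq₀
        have := hone' (a := 1) (by rw [pow_one]; exact h)
        rwa [pow_one] at this
      obtain ⟨ζ, hζ⟩ := exists_prim hrq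
      have hζ0 : ζ ≠ 0 := hζ.ne_zero hrp'.ne_zero
      by_cases hk2 : k = 2
      · subst hk2
        have hplus : r ∣ Nat.card F₀ + 1 := by
          rw [hqk] at hrq
          have e1 : Nat.card F₀ ^ 2 - 1 = (Nat.card F₀ + 1) * (Nat.card F₀ - 1) := by rw [← Nat.sq_sub_sq, one_pow]
          rw [e1] at hrq
          exact ((Nat.Prime.dvd_mul hrp').1 hrq).resolve_right hrq₀
        have hn3 : 3 ≤ n := by
          by_contra hlt
          have : j = 2 := by omega
          rw [this] at hj0
          exact hj0 (hone' hk1)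
        obtain ⟨w, x, hw, hx, hxz, hxn, hxa⟩ := exists_asym hζ hn3 hr2 hgap (by
          rintro ⟨h1, h3, h4⟩
          refine hcon2 rfl h3.symm ?_ ?_
          · rw [h3]; exact h1
          · rw [hqk] at h4
            have e1 : Nat.card F₀ ^ 2 - 1 = (Nat.card F₀ + 1) * (Nat.card F₀ - 1) := by rw [← Nat.sq_sub_sq, one_pow]
            rw [e1, padicValNat.mul (by omega) (by omega), padicValNat.eq_zero_of_not_dvd hrq₀, add_zero] at h4
            exact h4)
        let X : Matrix.SpecialLinearGroup (Fin n) F := ⟨x.1, mem_SL_iff.1 hx⟩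
        obtain ⟨z, hz⟩ := hxz
        obtain ⟨P, hP⟩ := hall X ⟨z, by
          rw [Matrix.SpecialLinearGroup.coe_pow, ← hz, Units.val_pow_eq_pow_val]⟩ hxn
        obtain ⟨c, hc, -, htau⟩ := tau hn0 F₀ (by norm_num) hqk hP
        obtain ⟨b, hb0, hbr, hbne⟩ := hxa (c * (w / c) ^ Nat.card F₀ * w)
        apply hbne
        have h1 := htau b
        have h2 : c * (b / c) ^ Nat.card F₀ = c * (w / c) ^ Nat.card F₀ * w / b := by
          have h3 : (b / w) ^ Nat.card F₀ = w / b := by
            obtain ⟨s, hs⟩ := hplus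
            have h4 : (b / w) ^ (Nat.card F₀ + 1) = 1 := by rw [hs, pow_mul, hbr, one_pow]
            rw [pow_succ] at h4
            have h5 : b / w ≠ 0 := div_ne_zero hb0 hw
            rw [← inv_div b w]
            exact eq_inv_of_mul_eq_one_left h4
          have h6 : b / c = (w / c) * (b / w) := by field_simp
          rw [h6, mul_pow, h3]
          ring
        rw [h2] at h1
        exact h1
      · have hk3 : Odd k := hk.odd_of_ne_two hk2
        have hinv : ζ ≠ ζ⁻¹ := by
          intro h
          have h1 : ζ ^ 2 = 1 := by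
            rw [pow_two]
            nth_rw 2 [h]
            exact mul_inv_cancel₀ hζ0
          have h3 := hζ.dvd_of_pow_eq_one 2 h1
          exact h2r h3
        have hζ1 : ζ ≠ 1 := hζ.ne_one hrp'.one_lt
        have hζi1 : ζ⁻¹ ≠ 1 := fun h => hζ1 (inv_eq_one.1 h)
        obtain ⟨X, hXr, hXn, hXe⟩ := exists_zeta (F := F) hn hζ.pow_eq_one hζ0 hinv
        obtain ⟨P, hP⟩ := hall X ⟨1, by
          apply (tl_eq_smul_iff (X ^ r) 1).1
          rw [← tl_pow, hXr, one_smul]⟩ hXn
        obtain ⟨c, hc, hcn, htau⟩ := tau hn0 F₀ hk0 hqk hP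
        -- order of q₀ is k
        have hkF : Fact k.Prime := ⟨hk⟩
        have hok : orderOf ((Nat.card F₀ : ℕ) : ZMod r) = k := orderOf_eq_prime hk1 hne1
        have hkr : k ∣ r - 1 := by
          rw [← hok]
          apply ZMod.orderOf_dvd_card_sub_one
          intro h0
          rw [h0, zero_pow hk0.ne'] at hk1
          exact zero_ne_one hk1
        have hkr' : k ≤ r - 1 := Nat.le_of_dvd (by have := hrp'.two_le; omega) hkr
        have hk3' : 3 ≤ k := by
          have := hk.two_le
          omega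
        -- c ^ (q₀ - 1) = 1
        have hcq : c ^ Nat.card F₀ = c := by
          by_cases hn4 : 4 ≤ n
          · have h1 := htau 1
            rw [hXe, hXe, if_neg hζ1, if_neg hζi1, if_pos rfl, zero_add] at h1
            by_contra hne
            have h3 : (1 : F) ≠ c * (1 / c) ^ Nat.card F₀ := by
              intro h4
              apply hne
              rw [one_div, _root_.inv_pow] at h4
              have h5 : c ^ Nat.card F₀ ≠ 0 := pow_ne_zero _ hc
              field_simp at h4
              exact h4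
            rw [if_neg h3] at h1
            by_cases h5 : ζ = c * (1 / c) ^ Nat.card F₀
            · rw [if_pos h5, if_neg (fun h6 => hinv (h5.trans h6.symm))] at h1
              omega
            · rw [if_neg h5] at h1
              split_ifs at h1 <;> omega
          · have h1 := htau ζ
            rw [hXe, hXe, if_pos rfl] at h1
            have h3 : (c * (ζ / c) ^ Nat.card F₀) ^ r = 1 := by
              by_cases h4 : ζ = c * (ζ / c) ^ Nat.card F₀
              · rw [← h4]; exact hζ.pow_eq_one
              · by_cases h5 : ζ⁻¹ = c * (ζ / c) ^ Nat.card F₀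
                · rw [← h5, _root_.inv_pow, hζ.pow_eq_one, inv_one]
                · by_cases h6 : 1 = c * (ζ / c) ^ Nat.card F₀
                  · rw [← h6, one_pow]
                  · rw [if_neg h4, if_neg h5, if_neg h6] at h1
                    omega
            have h4 : (c ^ (Nat.card F₀ - 1)) ^ r = 1 := by
              have h5 : c * (ζ / c) ^ Nat.card F₀ * c ^ (Nat.card F₀ - 1) = ζ ^ Nat.card F₀ := by
                have h6 : Nat.card F₀ = Nat.card F₀ - 1 + 1 := by omega
                rw [div_pow]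
                have h7 : c ^ Nat.card F₀ = c ^ (Nat.card F₀ - 1) * c := by rw [← pow_succ, ← h6]
                have h8 : c ^ (Nat.card F₀ - 1) ≠ 0 := pow_ne_zero _ hc
                rw [h7]
                field_simp
              have h9 : (c * (ζ / c) ^ Nat.card F₀) ^ r * (c ^ (Nat.card F₀ - 1)) ^ r = (ζ ^ Nat.card F₀) ^ r := by
                rw [← mul_pow, h5]
              rw [h3, one_mul, ← pow_mul ζ, mul_comm (Nat.card F₀) r, pow_mul ζ, hζ.pow_eq_one, one_pow] at h9
              exact h9
            have h5 : (c ^ (Nat.card F₀ - 1)) ^ n = 1 := by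
              rw [← pow_mul, mul_comm]; exact hcn
            have h6 := Nat.dvd_gcd (orderOf_dvd_of_pow_eq_one h4) (orderOf_dvd_of_pow_eq_one h5)
            have h7 : ¬ r ∣ n := by
              intro h
              have := Nat.le_of_dvd hn0 h
              omega
            rw [(Nat.Prime.coprime_iff_not_dvd hrp').2 h7] at h6
            have h8 := _root_.orderOf_eq_one_iff.1 (Nat.dvd_one.1 h6)
            have h9 : Nat.card F₀ = Nat.card F₀ - 1 + 1 := by omega
            rw [h9, pow_succ, h8, one_mul]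
        have h1 := htau ζ
        have h2 : c * (ζ / c) ^ Nat.card F₀ = ζ ^ Nat.card F₀ := by
          rw [div_pow, hcq]; field_simp
        rw [h2, hXe, hXe, if_pos rfl] at h1
        have hcast : ∀ {a : ℕ}, ζ ^ (Nat.card F₀ + a) = 1 → ((Nat.card F₀ + a : ℕ) : ZMod r) = 0 := fun h =>
          (ZMod.natCast_eq_zero_iff _ _).2 (hζ.dvd_of_pow_eq_one _ h)
        by_cases h4 : ζ = ζ ^ Nat.card F₀
        · apply hrq₀
          apply hζ.dvd_of_pow_eq_one
          have h9 : Nat.card F₀ = Nat.card F₀ - 1 + 1 := by omega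
          rw [h9, pow_succ] at h4
          exact mul_right_cancel₀ hζ0 (by rw [← h4, one_mul])
        · by_cases h5 : ζ⁻¹ = ζ ^ Nat.card F₀
          · have h6 : ζ ^ (Nat.card F₀ + 1) = 1 := by rw [pow_succ, ← h5, inv_mul_cancel₀ hζ0]
            have h7 := hcast h6
            rw [Nat.cast_add, Nat.cast_one] at h7
            have h8 : ((Nat.card F₀ : ℕ) : ZMod r) = -1 := eq_neg_of_add_eq_zero_left h7
            rw [h8, hk3.neg_one_pow] at hk1
            apply h2r
            rw [← ZMod.natCast_eq_zero_iff]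
            push_cast
            linear_combination -hk1
          · by_cases h6 : 1 = ζ ^ Nat.card F₀
            · have h7 := hcast (a := 0) (by rw [add_zero]; exact h6.symm)
              rw [add_zero] at h7
              rw [h7, zero_pow hk0.ne'] at hk1
              exact zero_ne_one hk1
            · rw [if_neg h4, if_neg h5, if_neg h6] at h1
              omega
    · have ha2 : 2 ≤ a := by omega
      have hrq : ¬ r ∣ Fintype.card F - 1 := by
        intro h
        apply ha1
        exact Nat.dvd_one.1 (Cfsg.Agent.Lib.SubspaceCount.orderOf_dvd_of_dvd (k := 1) Fintype.card_pos (by rwa [pow_one]))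
      obtain ⟨X, -, -, -, hXr, -, hss, hty⟩ := exists_typeB (n := n) (F := F) hrp (r := r) ha2 (s := 1) (k := n - a) (by rw [← ha]; omega)
      have hfe := hty.fin_e
      rw [top_inf_eq] at hfe
      obtain ⟨P, hP⟩ := hall X ⟨1, by
          apply (tl_eq_smul_iff (X ^ r) 1).1
          rw [← tl_pow, hXr, one_smul]⟩ (by
        intro z hz
        refine nonscalar_of_ty hss ha2 hty (by norm_num) z ?_
        exact (tl_eq_smul_iff X z).2 hz)
      have h1 := no_block hrp hn0 F₀ hrq hP hXr (i := a) (by rw [hfe]; omega)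
      apply hj0
      obtain ⟨s, hs⟩ := haj
      apply hone'
      rw [hs, pow_mul, hone h1, one_pow]
  · rintro (hrk | ⟨hk2, hrn, hn35, hval⟩) x ⟨z, hz⟩ -
    · subst hrk
      have hcond : CondC (Fintype.card F) n r ∨ ¬ r ∣ Fintype.card F - 1 := by
        by_cases h : r ∣ Fintype.card F - 1
        · left
          refine ⟨hgapk rfl ?_, fun h' => absurd h' hr2⟩
          have h1 : ((Nat.card F₀ : ℕ) : ZMod r) ^ r = 1 := hone (by rw [← hqk]; exact h)
          rw [ZMod.pow_card] at h1
          have := hone' (a := 1) (by rw [pow_one]; exact h1)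
          rwa [pow_one] at this
        · exact Or.inr h
      rcases structure_of (p := p) (r := r) hrp x z hz hn0 with ⟨y, hy0, hy, -⟩ | ⟨hnp, -, -, m, hm, hnm, hdet⟩
      · refine yes_rk (p := p) hrp hn0 F₀ hqk hy0 ?_
        rw [hy, tl_pow, tl_eq_smul_iff, hz]
      · exfalso
        rcases hcond with h | h
        · exact not_typeC hrp' hnp hnm hm hdet h
        · obtain ⟨b, hb⟩ := exists_root_of_not_dvd hrp' h z
          exact hnp b hb
    · subst hk2
      have hrd : r ∣ Nat.card F₀ + 1 := by
        by_contra h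
        rw [padicValNat.eq_zero_of_not_dvd h] at hval
        exact zero_ne_one hval
      have hrm : ¬ r ∣ Nat.card F₀ - 1 := by
        intro h
        apply h2r
        have e1 : 2 = (Nat.card F₀ + 1) - (Nat.card F₀ - 1) := by omega
        rw [e1]; exact Nat.dvd_sub hrd h
      have e1 : Nat.card F₀ ^ 2 - 1 = (Nat.card F₀ + 1) * (Nat.card F₀ - 1) := by rw [← Nat.sq_sub_sq, one_pow]
      have hrq : r ∣ Fintype.card F - 1 := by
        rw [hqk, e1]; exact Dvd.dvd.mul_right hrd _
      have hr22 : ¬ r ^ 2 ∣ Fintype.card F - 1 := by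
        rw [padicValNat_dvd_iff_le (by have := Fintype.one_lt_card (α := F); omega), hqk, e1,
          padicValNat.mul (by omega) (by omega), padicValNat.eq_zero_of_not_dvd hrm, hval]
        norm_num
      obtain ⟨ζ, hζ⟩ := exists_prim hrq
      obtain ⟨xg, hxg, hxx⟩ := toG x
      have hz' : (xg ^ r).1 = z • (1 : Matrix (Fin n) (Fin n) F) := by
        rw [Units.val_pow_eq_pow_val, hxx, ← Matrix.SpecialLinearGroup.coe_pow, hz]
      have hfix : ∀ a : F, a ^ r = 1 → a ≠ 0 ∧ a ^ Nat.card F₀ = a⁻¹ := by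
        intro a har
        obtain ⟨s, hs⟩ := hrd
        have h4 : a ^ (Nat.card F₀ + 1) = 1 := by rw [hs, pow_mul, har, one_pow]
        rw [pow_succ] at h4
        refine ⟨?_, eq_inv_of_mul_eq_one_left h4⟩
        rintro rfl
        rw [zero_pow hrp'.pos.ne'] at har
        exact zero_ne_one har
      rcases hn35 with h35 | h35
      · subst h35
        subst hrn
        obtain ⟨P, u, π, c, ν, hc, hν, hP, hu⟩ := sym_three hζ hr22 hxg hz'
        have hg : Good F₀ (![ν, ν⁻¹, 1] : Fin 3 → F) := by
          have h1 := (good_two F₀ (hfix ν hν).1 (hfix ν hν).2).sum (good_one F₀ 1)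
          have h2 := h1.reindex (finSumFinEquiv (m := 2) (n := 1)).symm
          have h3 : (Sum.elim ![ν, ν⁻¹] ![((1 : F₀) : F)] ∘ (finSumFinEquiv (m := 2) (n := 1)).symm : Fin 3 → F) = ![ν, ν⁻¹, 1] := by
            funext i
            fin_cases i <;> rfl
          rw [← h3]; exact h2
        refine yes_good hn0 hg hxx.symm hP π (hfix c hc).1 (fun i => ?_)
        rw [hu]
        fin_cases i
        · rfl
        · rfl
        · show c = c * 1
          rw [mul_one]
      · subst h35
        subst hrn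
        obtain ⟨P, u, π, c, ν, ν', hc, hν, hν', hP, hu⟩ := sym_five hζ hr22 hxg hz'
        have hg : Good F₀ (![ν, ν⁻¹, ν', ν'⁻¹, 1] : Fin 5 → F) := by
          have h1 := ((good_two F₀ (hfix ν hν).1 (hfix ν hν).2).sum (good_two F₀ (hfix ν' hν').1 (hfix ν' hν').2)).sum (good_one F₀ 1)
          let e : Fin 5 ≃ (Fin 2 ⊕ Fin 2) ⊕ Fin 1 :=
            (finSumFinEquiv (m := 4) (n := 1)).symm.trans (Equiv.sumCongr (finSumFinEquiv (m := 2) (n := 2)).symm (Equiv.refl _))
          have h2 := h1.reindex e
          have h3 : (Sum.elim (Sum.elim ![ν, ν⁻¹] ![ν', ν'⁻¹]) ![((1 : F₀) : F)] ∘ e : Fin 5 → F) = ![ν, ν⁻¹, ν', ν'⁻¹, 1] := by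
            funext i
            fin_cases i <;> rfl
          rw [← h3]; exact h2
        refine yes_good hn0 hg hxx.symm hP π (hfix c hc).1 (fun i => ?_)
        rw [hu]
        fin_cases i
        · rfl
        · rfl
        · rfl
        · rfl
        · show c = c * 1
          rw [mul_one]

end Cfsg.Agent.S5965
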