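import Cfsg.Statements.S5966
import Cfsg.Agent.Lib.UniTwo

set_option autoImplicit false
open scoped MatrixGroups
open Cfsg

namespace Cfsg.Agent.S5966

open Cfsg.Agent.Lib.ConjSub Cfsg.Agent.Lib.ElusiveLin Cfsg.Agent.Lib.JordanNil Cfsg.Agent.Lib.ElusiveUni Cfsg.Agent.Lib.UniTwo Module

lemma mem_of_cube {F : Type*} [Field F] [Fintype F] [CharP F 3] (F₀ : Subfield F) {l : F} (h : l ^ 3 ∈ F₀) : l ∈ F₀ := by
  have : Fact (Nat.Prime 3) := ⟨Nat.prime_three⟩
  have hch : CharP F₀ 3 := (algebraMap F₀ F).charP (algebraMap F₀ F).injective 3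
  have hs : Function.Surjective (frobenius F₀ 3) := Finite.surjective_of_injective (frobenius F₀ 3).injective
  obtain ⟨y, hy⟩ := hs ⟨l ^ 3, h⟩
  have h1 : (y : F) ^ 3 = l ^ 3 := by
    have := congrArg (fun z : F₀ => (z : F)) hy
    simpa [frobenius_def] using this
  have h2 : ((y : F) - l) ^ 3 = 0 := by rw [sub_pow_char, h1, sub_self]
  have h3 : (y : F) - l = 0 := pow_eq_zero_iff (by norm_num) |>.mp h2
  rw [← sub_eq_zero.mp h3]; exact y.2

/-- Elements of order 3 of PSL_n(q) in characteristic 3 and subfield subgroups. Here `T = PSL_n(F)` for a field `F` with `q` elements, `q` a power of 3 (`n ≥ 2`, `(n, q) ≠ (2, 2), (2, 3)`), `F₀` is the subfield with `q₀` elements where `q = q₀^k` for a prime `k`, and `H` is the subgroup of matrices of determinant 1 lying in the subfield group of `F₀` (invertible matrices over `F₀` times scalars) — a maximal subgroup of type GL_n(q₀) (the case `n = 2`, `q₀ = 2` is excluded); Ω is the set of `T`-conjugates of `H` (cosets of `H`), so an element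 of `T` of prime order `r` (a matrix `x` of determinant 1 with `x^r` scalar, `x` not scalar) fixes a point of Ω when some conjugate of `x` by a matrix of determinant 1 lies in `H`. Suppose 3 divides the index of `H`. Then every element of `T` of order 3 is conjugate in `T` into `H` if and only if `n` is odd, or `n` is even and `k > 2`. -/
theorem result {F : Type*} [Field F] [Fintype F] [CharP F 3] {q : ℕ} (hq : Fintype.card F = q)
    (n : ℕ) (hn : 2 ≤ n) (hT : (n, q) ≠ (2, 3))
    (F₀ : Subfield F) (k q₀ : ℕ) (hk : k.Prime) (hF₀ : Nat.card ↥F₀ = q₀) (hqk : q = q₀ ^ k) (hC5 : ¬ (n = 2 ∧ q₀ = 2)) (hΩ : 3 ∣ ((Cfsg.Geo.subfieldSubgroup F₀ 1).comap (Matrix.SpecialLinearGroup.toGL : Matrix.SpecialLinearGroup (Fin n) F →* GL (Fin n) F)).index) :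
    (∀ x : Matrix.SpecialLinearGroup (Fin n) F,
      (∃ z : F, ((x ^ 3 : Matrix.SpecialLinearGroup (Fin n) F) : Matrix (Fin n) (Fin n) F) = z • (1 : Matrix (Fin n) (Fin n) F)) →
      (∀ z : F, (x : Matrix (Fin n) (Fin n) F) ≠ z • (1 : Matrix (Fin n) (Fin n) F)) →
      ∃ P : Matrix.SpecialLinearGroup (Fin n) F, P⁻¹ * x * P ∈ ((Cfsg.Geo.subfieldSubgroup F₀ 1).comap (Matrix.SpecialLinearGroup.toGL : Matrix.SpecialLinearGroup (Fin n) F →* GL (Fin n) F))) ↔
    (Odd n ∨ (Even n ∧ 2 < k)) := by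
  classical
  subst hq
  have hF3 : Fact (Nat.Prime 3) := ⟨Nat.prime_three⟩
  have hn0 : 0 < n := by omega
  have hcard : Fintype.card F = Nat.card F₀ ^ k := by rw [hF₀]; exact hqk
  obtain ⟨e, -, he⟩ := FiniteField.card F 3
  have hodd : Odd (Fintype.card F) := by rw [he]; exact (by decide : Odd 3).pow
  have hring : ringChar F ≠ 2 := by
    rw [ringChar.eq F 3]; norm_num
  constructor
  · intro h
    by_contra hcon
    push Not at hcon
    obtain ⟨hne, hk2⟩ := hcon
    rw [Nat.not_odd_iff_even] at hne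
    have hk2' : k = 2 := le_antisymm (hk2 hne) hk.two_le
    subst hk2'
    obtain ⟨m, hm⟩ := hne
    have hm0 : 0 < m := by omega
    obtain ⟨g, hg⟩ := FiniteField.exists_nonsquare hring
    have hg0 : g ≠ 0 := by rintro rfl; exact hg ⟨0, by simp⟩
    let e' : Fin m ⊕ Fin m ≃ Fin n := finSumFinEquiv.trans (finCongr hm.symm)
    let J' : Matrix (Fin n) (Fin n) F := (J F m).submatrix e'.symm e'.symm
    have hJ2 : J' * J' = 0 := by
      change (J F m).submatrix e'.symm e'.symm * (J F m).submatrix e'.symm e'.symm = 0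
      rw [Matrix.submatrix_mul_equiv, J, Matrix.fromBlocks_multiply]
      simp
    let Pd : Matrix (Fin n) (Fin n) F := Matrix.diagonal (Function.update (fun _ => (1 : F)) ⟨0, hn0⟩ g)
    have hPd : Pd.det = g := by
      rw [Matrix.det_diagonal, Finset.prod_update_of_mem (Finset.mem_univ _)]
      simp
    have hPu : IsUnit Pd.det := by rw [hPd]; exact isUnit_iff_ne_zero.mpr hg0
    have hPP : Pd * Pd⁻¹ = 1 := Matrix.mul_nonsing_inv _ hPu
    have hPP' : Pd⁻¹ * Pd = 1 := Matrix.nonsing_inv_mul _ hPu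
    -- N = P J' P⁻¹
    let N : Matrix (Fin n) (Fin n) F := Pd * J' * Pd⁻¹
    have hNP : N * Pd = Pd * J' := by
      change Pd * J' * Pd⁻¹ * Pd = _
      rw [Matrix.mul_assoc, hPP', Matrix.mul_one]
    have hN2 : N * N = 0 := by
      change Pd * J' * Pd⁻¹ * (Pd * J' * Pd⁻¹) = 0
      calc Pd * J' * Pd⁻¹ * (Pd * J' * Pd⁻¹) = Pd * J' * (Pd⁻¹ * Pd) * J' * Pd⁻¹ := by noncomm_ring
        _ = Pd * (J' * J') * Pd⁻¹ := by rw [hPP']; noncomm_ring
        _ = 0 := by rw [hJ2]; simp
    have hchar : CharP (Matrix (Fin n) (Fin n) F) 3 := by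
      have : Nonempty (Fin n) := ⟨⟨0, hn0⟩⟩
      exact charP_of_injective_algebraMap (algebraMap F (Matrix (Fin n) (Fin n) F)).injective 3
    have hu3 : (1 + N) ^ 3 = 1 := by
      have : (1 + N) ^ 3 = 1 ^ 3 + N ^ 3 := add_pow_char_of_commute 3 (Commute.one_left N)
      rw [this, one_pow, pow_succ, pow_two, hN2, zero_mul, add_zero]
    have hudet : (1 + N).det = 1 := by
      have h1 : ((1 + N).det) ^ 3 = 1 := by rw [← Matrix.det_pow, hu3, Matrix.det_one]
      have h2 : ((1 + N).det - 1) ^ 3 = 0 := by rw [sub_pow_char, h1, one_pow, sub_self]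
      exact sub_eq_zero.mp (pow_eq_zero_iff (by norm_num) |>.mp h2)
    let u : Matrix.SpecialLinearGroup (Fin n) F := ⟨1 + N, hudet⟩
    have hN0 : N ≠ 0 := by
      intro h0
      rw [h0, Matrix.zero_mul] at hNP
      have h1 : J' = 0 := by
        rw [← Matrix.one_mul J', ← hPP', Matrix.mul_assoc, ← hNP, Matrix.mul_zero]
      have h2 := congrFun (congrFun h1 (e' (Sum.inr ⟨0, hm0⟩))) (e' (Sum.inl ⟨0, hm0⟩))
      simp [J', J] at h2
    obtain ⟨Q, hQ⟩ := h u ⟨1, by
      rw [one_smul, Matrix.SpecialLinearGroup.coe_pow]; exact hu3⟩ (fun z hz => by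
        have hz' : (1 + N) = z • (1 : Matrix (Fin n) (Fin n) F) := hz
        have h1 : N = (z - 1) • (1 : Matrix (Fin n) (Fin n) F) := by
          rw [sub_smul, one_smul, ← hz']; abel
        have h2 : (z - 1) * (z - 1) = 0 := by
          have h3 := congrFun (congrFun hN2 ⟨0, hn0⟩) ⟨0, hn0⟩
          rw [h1, Matrix.smul_mul, Matrix.mul_smul, Matrix.one_mul] at h3
          simpa using h3
        have h3 : z - 1 = 0 := mul_self_eq_zero.mp h2
        rw [h3, zero_smul] at h1
        exact hN0 h1)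
    obtain ⟨l, B, hB⟩ := (mem_HSub_iff hn0 F₀ _).mp hQ
    -- l ∈ F₀
    have hB3 : (l • B.map F₀.subtype) ^ 3 = 1 := by
      rw [← hB, ← Matrix.SpecialLinearGroup.coe_pow]
      have h1 : (Q⁻¹ * u * Q) ^ 3 = Q⁻¹ * u ^ 3 * Q := by
        rw [pow_succ, pow_two, pow_succ, pow_two]; group
      have h2 : u ^ 3 = 1 := by
        apply Subtype.ext
        rw [Matrix.SpecialLinearGroup.coe_pow]; exact hu3
      rw [h1, h2, mul_one, inv_mul_cancel, Matrix.SpecialLinearGroup.coe_one]
    have hl3 : l ^ 3 ∈ F₀ := by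
      have h6 := congrFun (congrFun hB3 ⟨0, hn0⟩) ⟨0, hn0⟩
      rw [smul_pow, Matrix.smul_apply, Matrix.one_apply_eq, smul_eq_mul] at h6
      have h7 : ((B.map F₀.subtype) ^ 3) ⟨0, hn0⟩ ⟨0, hn0⟩ = (((B ^ 3) ⟨0, hn0⟩ ⟨0, hn0⟩ : F₀) : F) := by
        rw [pow_succ, pow_two, pow_succ B, pow_two, ← Matrix.map_mul, ← Matrix.map_mul]; rfl
      rw [h7] at h6
      have h8 : l ^ 3 = (((B ^ 3) ⟨0, hn0⟩ ⟨0, hn0⟩ : F₀) : F)⁻¹ := eq_inv_of_mul_eq_one_left h6
      rw [h8]
      exact F₀.inv_mem (Subtype.prop _)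
    have hl := mem_of_cube F₀ hl3
    let B₁ : Matrix (Fin n) (Fin n) F₀ := (⟨l, hl⟩ : F₀) • B - 1
    have hB₁ : B₁.map F₀.subtype = ((Q⁻¹ * u * Q : Matrix.SpecialLinearGroup (Fin n) F) : Matrix (Fin n) (Fin n) F) - 1 := by
      rw [hB]
      ext i j
      simp only [B₁, Matrix.map_apply, Matrix.sub_apply, Matrix.smul_apply, smul_eq_mul, Subfield.coe_subtype]
      push_cast
      congr 1
      rw [Matrix.one_apply, Matrix.one_apply]
      split_ifs <;> simp
    have hQQ : ((Q⁻¹ : Matrix.SpecialLinearGroup (Fin n) F) : Matrix (Fin n) (Fin n) F) * (Q : Matrix (Fin n) (Fin n) F) = 1 := by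
      rw [← Matrix.SpecialLinearGroup.coe_mul, inv_mul_cancel, Matrix.SpecialLinearGroup.coe_one]
    have hQQ' : (Q : Matrix (Fin n) (Fin n) F) * ((Q⁻¹ : Matrix.SpecialLinearGroup (Fin n) F) : Matrix (Fin n) (Fin n) F) = 1 := by
      rw [← Matrix.SpecialLinearGroup.coe_mul, mul_inv_cancel, Matrix.SpecialLinearGroup.coe_one]
    have hB₁' : B₁.map F₀.subtype = ((Q⁻¹ : Matrix.SpecialLinearGroup (Fin n) F) : Matrix (Fin n) (Fin n) F) * N * (Q : Matrix (Fin n) (Fin n) F) := by
      rw [hB₁, Matrix.SpecialLinearGroup.coe_mul, Matrix.SpecialLinearGroup.coe_mul]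
      have hu : (u : Matrix (Fin n) (Fin n) F) = 1 + N := rfl
      rw [hu, Matrix.mul_add, Matrix.add_mul, Matrix.mul_one, hQQ, add_sub_cancel_left]
    have hNQ : N * (Q : Matrix (Fin n) (Fin n) F) = (Q : Matrix (Fin n) (Fin n) F) * B₁.map F₀.subtype := by
      rw [hB₁', ← Matrix.mul_assoc, ← Matrix.mul_assoc, hQQ', Matrix.one_mul]
    -- B₁ ^ 2 = 0 over F₀
    have hB₁2 : B₁ ^ 2 = 0 := by
      have h1 : (B₁ * B₁).map F₀.subtype = 0 := by
        rw [Matrix.map_mul, hB₁']
        calc ((Q⁻¹ : Matrix.SpecialLinearGroup (Fin n) F) : Matrix (Fin n) (Fin n) F) * N * (Q : Matrix (Fin n) (Fin n) F) *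
            (((Q⁻¹ : Matrix.SpecialLinearGroup (Fin n) F) : Matrix (Fin n) (Fin n) F) * N * (Q : Matrix (Fin n) (Fin n) F))
            = ((Q⁻¹ : Matrix.SpecialLinearGroup (Fin n) F) : Matrix (Fin n) (Fin n) F) * N * ((Q : Matrix (Fin n) (Fin n) F) *
            ((Q⁻¹ : Matrix.SpecialLinearGroup (Fin n) F) : Matrix (Fin n) (Fin n) F)) * N * (Q : Matrix (Fin n) (Fin n) F) := by noncomm_ring
          _ = ((Q⁻¹ : Matrix.SpecialLinearGroup (Fin n) F) : Matrix (Fin n) (Fin n) F) * (N * N) * (Q : Matrix (Fin n) (Fin n) F) := by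
            rw [hQQ']; noncomm_ring
          _ = 0 := by rw [hN2]; simp
      rw [pow_two]
      ext i j
      have h3 := congrFun (congrFun h1 i) j
      exact h3
    -- rank
    have hrkN : m ≤ finrank F (LinearMap.range (Matrix.toLin' (B₁.map F₀.subtype))) := by
      -- N has rank m
      have h1 : finrank F (LinearMap.range (Matrix.toLin' (B₁.map F₀.subtype))) = (B₁.map F₀.subtype).rank := rfl
      have h2 : (B₁.map F₀.subtype).rank = J'.rank := by
        have hQd : IsUnit (Q : Matrix (Fin n) (Fin n) F).det := by rw [Q.2]; exact isUnit_one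
        have hQd' : IsUnit ((Q⁻¹ : Matrix.SpecialLinearGroup (Fin n) F) : Matrix (Fin n) (Fin n) F).det := by rw [(Q⁻¹).2]; exact isUnit_one
        have hPu' : IsUnit (Pd⁻¹).det := by
          rw [Matrix.det_nonsing_inv]; exact IsUnit.ringInverse hPu
        rw [hB₁', Matrix.rank_mul_eq_left_of_isUnit_det _ _ hQd, Matrix.rank_mul_eq_right_of_isUnit_det _ _ hQd']
        change (Pd * J' * Pd⁻¹).rank = _
        rw [Matrix.rank_mul_eq_left_of_isUnit_det _ _ hPu', Matrix.rank_mul_eq_right_of_isUnit_det _ _ hPu]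
      rw [h1, h2]
      -- rank J' ≥ m : the columns e' (inl i) are independent
      have h3 : J'.rank = finrank F (LinearMap.range (Matrix.toLin' J')) := rfl
      rw [h3]
      let w : Fin m → LinearMap.range (Matrix.toLin' J') := fun i =>
        ⟨Matrix.toLin' J' (Pi.single (e' (Sum.inl i)) 1), ⟨_, rfl⟩⟩
      have hw : ∀ i, (w i : Fin n → F) = Pi.single (e' (Sum.inr i)) 1 := by
        intro i
        change Matrix.toLin' J' (Pi.single (e' (Sum.inl i)) 1) = _
        rw [Matrix.toLin'_apply, Matrix.mulVec_single_one]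
        ext a
        obtain ⟨b, rfl⟩ := e'.surjective a
        rw [Matrix.col_apply]
        rcases b with b | b
        · simp [J', J, Pi.single_apply, e'.injective.eq_iff]
        · simp [J', J, Matrix.one_apply, Pi.single_apply, e'.injective.eq_iff]
      have hli : LinearIndependent F w := by
        have h4 : LinearIndependent F (fun i => (w i : Fin n → F)) := by
          have h5 : (fun i => (w i : Fin n → F)) = (Pi.basisFun F (Fin n)) ∘ (fun i => e' (Sum.inr i)) := by
            funext i; rw [hw]; simp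
          rw [h5]
          exact (Pi.basisFun F (Fin n)).linearIndependent.comp _ (e'.injective.comp Sum.inr_injective)
        exact LinearIndependent.of_comp (Submodule.subtype _) h4
      have := hli.fintype_card_le_finrank
      rwa [Fintype.card_fin] at this
    have hB₁lin : (Matrix.toLin' B₁) ^ 2 = 0 := by
      rw [← toLin'_pow', hB₁2, map_zero]
    have hrk : finrank F₀ (LinearMap.range (Matrix.toLin' B₁)) = m := by
      have h1 := rank_map_le F₀ B₁
      have h2 := LinearMap.finrank_range_add_finrank_ker (Matrix.toLin' B₁)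
      have h3 : LinearMap.range (Matrix.toLin' B₁) ≤ LinearMap.ker (Matrix.toLin' B₁) := by
        rintro _ ⟨v, rfl⟩
        have := congrArg (fun f : Module.End F₀ (Fin n → F₀) => f v) hB₁lin
        rw [LinearMap.mem_ker]
        simpa [pow_two] using this
      have h4 := Submodule.finrank_mono h3
      have h5 : finrank F₀ (Fin n → F₀) = n := by simp
      omega
    obtain ⟨b, hb1, hb2⟩ := exists_basis_two hB₁lin (m := m) (by simp [hm]) hrk
    let b' : Basis (Fin n) F₀ (Fin n → F₀) := b.reindex e'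
    have hbJ : B₁ * bmat b' = bmat b' * (J F₀ m).submatrix e'.symm e'.symm := by
      rw [mul_bmat]
      congr 1
      rw [← toMatrix_J b hb1 hb2]
      ext i j
      simp [b', LinearMap.toMatrix_apply]
    have hJmap : ((J F₀ m).submatrix e'.symm e'.symm).map F₀.subtype = J' := by
      ext i j
      simp only [J', Matrix.map_apply, Matrix.submatrix_apply]
      rcases e'.symm i with a | a <;> rcases e'.symm j with c | c <;> simp [J, Matrix.one_apply] <;> split_ifs <;> simp
    let M₀ : Matrix (Fin n) (Fin n) F := (bmat b').map F₀.subtype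
    have hM₀ : B₁.map F₀.subtype * M₀ = M₀ * J' := by
      rw [← hJmap, ← Matrix.map_mul, ← Matrix.map_mul, hbJ]
    -- C := P⁻¹ Q M₀ commutes with J'
    let C : Matrix (Fin n) (Fin n) F := Pd⁻¹ * (Q : Matrix (Fin n) (Fin n) F) * M₀
    have hPinvN : Pd⁻¹ * N = J' * Pd⁻¹ := by
      change Pd⁻¹ * (Pd * J' * Pd⁻¹) = _
      rw [Matrix.mul_assoc Pd, ← Matrix.mul_assoc Pd⁻¹, hPP', Matrix.one_mul]
    have hCJ : C * J' = J' * C := by
      change Pd⁻¹ * (Q : Matrix (Fin n) (Fin n) F) * M₀ * J' = J' * (Pd⁻¹ * (Q : Matrix (Fin n) (Fin n) F) * M₀)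
      rw [Matrix.mul_assoc, ← hM₀, Matrix.mul_assoc, ← Matrix.mul_assoc (Q : Matrix (Fin n) (Fin n) F), ← hNQ,
        ← Matrix.mul_assoc, ← Matrix.mul_assoc, hPinvN]
      simp only [Matrix.mul_assoc]
    have hCdet : ∃ a, C.det = a ^ 2 := by
      have h1 : (C.submatrix e' e') * J F m = J F m * (C.submatrix e' e') := by
        have h2 : J'.submatrix e' e' = J F m := by
          ext i j; simp [J']
        rw [← h2, Matrix.submatrix_mul_equiv, Matrix.submatrix_mul_equiv, hCJ]
      obtain ⟨a, ha⟩ := det_comm_J h1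
      rw [Matrix.det_submatrix_equiv_self] at ha
      exact ⟨a, ha⟩
    obtain ⟨a, ha⟩ := hCdet
    have hC' : C.det = g⁻¹ * ((bmat b').det : F) := by
      change (Pd⁻¹ * (Q : Matrix (Fin n) (Fin n) F) * M₀).det = _
      rw [Matrix.det_mul, Matrix.det_mul, Q.2, mul_one, det_map_subtype, Matrix.det_nonsing_inv, hPd,
        Ring.inverse_eq_inv]
    obtain ⟨s, hs⟩ := isSquare_of_two F₀ hcard (bmat b').det
    have hs0 : s ≠ 0 := by
      rintro rfl
      apply bmat_det_ne b'
      have : ((bmat b').det : F) = 0 := by rw [hs]; ring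
      exact_mod_cast this
    rw [hC', hs] at ha
    apply hg
    have ha0 : a ≠ 0 := by
      rintro rfl
      have : g⁻¹ * (s * s) = 0 := by rw [ha]; ring
      rcases mul_eq_zero.mp this with h1 | h1
      · exact hg0 (inv_eq_zero.mp h1)
      · exact hs0 (mul_self_eq_zero.mp h1)
    refine ⟨s / a, ?_⟩
    field_simp at ha ⊢
    linear_combination (-1 : F) * ha
  · intro hcond x hx1 _
    obtain ⟨z, hz⟩ := hx1
    have hz0 : z ≠ 0 := by
      rintro rfl
      have h1 := (x ^ 3).2
      have hne : Nonempty (Fin n) := ⟨⟨0, hn0⟩⟩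
      rw [hz, zero_smul, Matrix.det_zero] at h1
      exact zero_ne_one h1
    obtain ⟨y, hy, hN⟩ := exists_nil x hz
    have hy0 : y ≠ 0 := by rintro rfl; apply hz0; rw [← hy]; ring
    have hnil : IsNilpotent (tl x - y • (1 : Module.End F (Fin n → F))) := ⟨3, hN⟩
    obtain ⟨μ, hμ⟩ := exists_typ_top hnil
    have hle := (hμ.pow_eq_zero_iff 3).mp hN
    have hsum : n = μ.sum := by rw [← hμ.finrank_eq, finrank_top]; simp
    by_cases hex : 1 ∈ μ ∨ 3 ∈ μ
    · rcases hex with h1 | h1
      · exact exists_conj_unip hn0 F₀ hy0 hnil hμ h1 (full_one F₀)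
      · exact exists_conj_unip hn0 F₀ hy0 hnil hμ h1 (full_p F₀)
    · push Not at hex
      have hall : ∀ b ∈ μ, b = 2 := by
        intro b hb
        have h1 := hle b hb
        have h2 : b ≠ 0 := by rintro rfl; exact hμ.1 hb
        have h3 : b ≠ 1 := by rintro rfl; exact hex.1 hb
        have h4 : b ≠ 3 := by rintro rfl; exact hex.2 hb
        omega
      have hne : Even n := by
        rw [hsum, Multiset.eq_replicate_card.mpr hall, Multiset.sum_replicate, smul_eq_mul]
        exact even_two.mul_left _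
      have hk2 : 2 < k := by
        rcases hcond with h1 | h1
        · exact absurd hne (Nat.not_even_iff_odd.mpr h1)
        · exact h1.2
      obtain ⟨m, hm⟩ : ∃ m, m ∈ μ := by
        apply Multiset.exists_mem_of_ne_zero
        rintro rfl
        simp at hsum
        omega
      have hm2 := hall m hm
      subst hm2
      exact exists_conj_unip hn0 F₀ hy0 hnil hμ hm (full_two_odd F₀ (hk.odd_of_ne_two (by omega)) hcard hodd)

end Cfsg.Agent.S5966
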