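import Cfsg.Statements.S5967
import Cfsg.Agent.Lib.AltSim2

set_option autoImplicit false
open scoped MatrixGroups
open Cfsg

namespace Cfsg.Agent.S5967

open Cfsg.Agent.Lib.AltSim Cfsg.Agent.Lib.ConjSub Cfsg.Agent.Lib.ElusiveLin Cfsg.Agent.Lib.JordanNil Cfsg.Agent.Lib.ElusiveUni
  Cfsg.Agent.Lib.PrimeOrd Cfsg.Agent.Lib.InvSub Module

lemma exists_root_neg_one {F : Type*} [Field F] [Fintype F] (h2 : (2 : F) ≠ 0) {n : ℕ} (hn : 0 < n)
    (h : padicValNat 2 n < padicValNat 2 (Fintype.card F - 1)) : ∃ y : F, y ^ n = -1 := by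
  classical
  have : Fact (Nat.Prime 2) := ⟨Nat.prime_two⟩
  set a := padicValNat 2 n with ha
  have hdvd : 2 ^ (a + 1) ∣ Fintype.card F - 1 := by
    have hne : Fintype.card F - 1 ≠ 0 := by
      have := Fintype.one_lt_card (α := F); omega
    rw [padicValNat_dvd_iff_le hne]; omega
  obtain ⟨g, hg⟩ := IsCyclic.exists_generator (α := Fˣ)
  have hord : orderOf g = Fintype.card F - 1 := by
    rw [orderOf_eq_card_of_forall_mem_zpowers hg, Nat.card_eq_fintype_card, Fintype.card_units]
  have hpos : orderOf g ≠ 0 := by
    rw [hord]; have := Fintype.one_lt_card (α := F); omega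
  have hu : orderOf (g ^ (orderOf g / 2 ^ (a + 1))) = 2 ^ (a + 1) :=
    orderOf_pow_orderOf_div hpos (by rw [hord]; exact hdvd)
  set u := g ^ (orderOf g / 2 ^ (a + 1)) with hudef
  have h1 : (u ^ 2 ^ a) ^ 2 = 1 := by
    rw [← pow_mul, ← pow_succ, ← hu]; exact pow_orderOf_eq_one u
  have h3 : u ^ 2 ^ a ≠ 1 := by
    intro h3
    have h4 := orderOf_dvd_of_pow_eq_one h3
    rw [hu, pow_succ] at h4
    have h5 := Nat.le_of_dvd (by positivity) h4
    have h6 : 0 < 2 ^ a := by positivity
    omega
  have h4 : ((u : F) ^ 2 ^ a) = -1 := by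
    have h5 : ((u : F) ^ 2 ^ a) ^ 2 = 1 := by
      have := congrArg Units.val h1
      simpa using this
    rw [pow_two] at h5
    rcases mul_self_eq_one_iff.mp h5 with h6 | h6
    · exfalso; apply h3; ext; simpa using h6
    · exact h6
  obtain ⟨m, hm⟩ : 2 ^ a ∣ n := pow_padicValNat_dvd
  have hmodd : Odd m := by
    rw [← Nat.not_even_iff_odd]
    rintro ⟨k, hk⟩
    have h7 : 2 ^ (a + 1) ∣ n := ⟨k, by rw [hm, hk, pow_succ]; ring⟩
    rw [padicValNat_dvd_iff_le hn.ne'] at h7
    omega
  refine ⟨u, ?_⟩
  rw [hm, pow_mul, h4, hmodd.neg_one_pow]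

/-- Involutions of PSL_n(q) and the symplectic-type subgroups. Here `T = PSL_n(F)` for a field `F` with `q` elements, `n ≥ 4` even, `f` is a nondegenerate alternating form on `F^n`, and `H` is the subgroup of matrices of determinant 1 preserving `f` up to a scalar — a maximal subgroup of type Sp_n(q); Ω is the set of `T`-conjugates of `H` (cosets of `H`), so an element of `T` of prime order `r` (a matrix `x` of determinant 1 with `x^r` scalar, `x` not scalar) fixes a point of Ω when some conjugate of `x` by a matrix of determinant 1 preserves `f` up to a scalar. Suppose the index of `H` is even. Then every involution of `T` is conjugate in `T` into `H` if and only if `(q − 1)_2 ≤ (n)_2`. -/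
theorem result {F : Type*} [Field F] [Fintype F] {p : ℕ} [Fact p.Prime] [CharP F p] {q : ℕ} (hq : Fintype.card F = q)
    (n : ℕ) (hn : 4 ≤ n) (he : Even n) (f : (Fin n → F) → (Fin n → F) → F) (hf : Cfsg.Geo.IsSymplecticForm f)
    (hΩ : 2 ∣ ((Cfsg.Geo.similarityGroup f).comap (Matrix.SpecialLinearGroup.toGL : Matrix.SpecialLinearGroup (Fin n) F →* GL (Fin n) F)).index) :
    (∀ x : Matrix.SpecialLinearGroup (Fin n) F,
      (∃ z : F, ((x ^ 2 : Matrix.SpecialLinearGroup (Fin n) F) : Matrix (Fin n) (Fin n) F) = z • (1 : Matrix (Fin n) (Fin n) F)) →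
      (∀ z : F, (x : Matrix (Fin n) (Fin n) F) ≠ z • (1 : Matrix (Fin n) (Fin n) F)) →
      ∃ P : Matrix.SpecialLinearGroup (Fin n) F, P⁻¹ * x * P ∈ ((Cfsg.Geo.similarityGroup f).comap (Matrix.SpecialLinearGroup.toGL : Matrix.SpecialLinearGroup (Fin n) F →* GL (Fin n) F))) ↔
    padicValNat 2 (q - 1) ≤ padicValNat 2 n := by
  classical
  subst hq
  have hn0 : 0 < n := by omega
  have hp : p.Prime := Fact.out
  obtain ⟨e, -, he'⟩ := FiniteField.card F p
  have hntV : Nontrivial (Fin n → F) := by
    have : Nonempty (Fin n) := ⟨⟨0, hn0⟩⟩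
    infer_instance
  constructor
  · intro h
    by_contra hlt
    push Not at hlt
    have h2F : (2 : F) ≠ 0 := by
      intro h2
      have hp2 : p = 2 := by
        have h3 : ((2 : ℕ) : F) = 0 := by exact_mod_cast h2
        rw [CharP.cast_eq_zero_iff F p] at h3
        exact (Nat.prime_dvd_prime_iff_eq hp Nat.prime_two).mp h3
      have hev : ¬ 2 ∣ Fintype.card F - 1 := by
        have h4 : 2 ∣ Fintype.card F := by rw [he', hp2]; exact dvd_pow_self 2 e.2.ne'
        have := Fintype.one_lt_card (α := F)
        omega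
      rw [padicValNat.eq_zero_of_not_dvd hev] at hlt
      omega
    obtain ⟨y, hy⟩ := exists_root_neg_one h2F hn0 hlt
    have hy0 : y ≠ 0 := by
      rintro rfl
      rw [zero_pow hn0.ne'] at hy
      exact (neg_ne_zero.mpr (one_ne_zero (α := F))) hy.symm
    let i0 : Fin n := ⟨0, by omega⟩
    let i1 : Fin n := ⟨1, by omega⟩
    let i2 : Fin n := ⟨2, by omega⟩
    let d : Fin n → F := Function.update (fun _ => y) i0 (-y)
    have hd0 : d i0 = -y := by simp [d]
    have hdi : ∀ i, i ≠ i0 → d i = y := fun i hi => by simp [d, hi]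
    have hdet : (Matrix.diagonal d).det = 1 := by
      rw [Matrix.det_diagonal, Finset.prod_update_of_mem (Finset.mem_univ _)]
      rw [Finset.prod_const, Finset.card_sdiff_of_subset (Finset.subset_univ _), Finset.card_univ, Fintype.card_fin, Finset.card_singleton]
      have : y ^ n = y * y ^ (n - 1) := by
        conv_lhs => rw [← Nat.sub_add_cancel (show 1 ≤ n by omega), pow_succ]
        ring
      rw [this] at hy
      linear_combination (-1 : F) * hy
    let x : Matrix.SpecialLinearGroup (Fin n) F := ⟨Matrix.diagonal d, hdet⟩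
    have hx : (x : Matrix (Fin n) (Fin n) F) = Matrix.diagonal d := rfl
    have hx2 : ((x ^ 2 : Matrix.SpecialLinearGroup (Fin n) F) : Matrix (Fin n) (Fin n) F) = (y ^ 2) • (1 : Matrix (Fin n) (Fin n) F) := by
      rw [Matrix.SpecialLinearGroup.coe_pow, hx, Matrix.diagonal_pow, Matrix.smul_one_eq_diagonal]
      congr 1
      funext i
      by_cases hi : i = i0
      · rw [Pi.pow_apply, hi, hd0, neg_pow_two]
      · rw [Pi.pow_apply, hdi i hi]
    have hxn : ∀ z : F, (x : Matrix (Fin n) (Fin n) F) ≠ z • (1 : Matrix (Fin n) (Fin n) F) := by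
      intro z hz
      rw [hx] at hz
      have h1 := congrFun (congrFun hz i0) i0
      have h3 := congrFun (congrFun hz i1) i1
      rw [Matrix.diagonal_apply_eq, hd0] at h1
      rw [Matrix.diagonal_apply_eq, hdi i1 (by simp [i1, i0])] at h3
      simp at h1 h3
      have h4 : (2 : F) * y = 0 := by linear_combination (h3 - h1)
      exact (mul_ne_zero h2F hy0) h4
    obtain ⟨P, hP⟩ := h x ⟨_, hx2⟩ hxn
    obtain ⟨c, hc⟩ := mem_SimSub_iff.mp hP
    -- transported form
    let G : Module.End F (Fin n → F) := tl P⁻¹
    let B : (Fin n → F) →ₗ[F] (Fin n → F) →ₗ[F] F := (toB hf.bilinear).compl₁₂ G G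
    have hB : ∀ u v, B u v = f (G u) (G v) := fun u v => rfl
    have hGinj : Function.Injective G := by
      have h1 : tl P * G = 1 := by rw [← tl_mul, mul_inv_cancel, tl_one]
      intro u v huv
      have h3 := congrArg (tl P) huv
      have h4 : ∀ w, tl P (G w) = w := fun w => congrArg (fun φ : Module.End F (Fin n → F) => φ w) h1
      rwa [h4, h4] at h3
    have hGsurj : Function.Surjective G := by
      have h1 : G * tl P = 1 := by rw [← tl_mul, inv_mul_cancel, tl_one]
      intro w
      exact ⟨tl P w, congrArg (fun φ : Module.End F (Fin n → F) => φ w) h1⟩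
    have hBT : ∀ u v, B (tl x u) (tl x v) = (c : F) * B u v := by
      intro u v
      rw [hB, hB, ← hc]
      have h1 : tl (P⁻¹ * x * P) * G = G * tl x := by
        rw [← tl_mul, ← tl_mul]; congr 1; group
      have h3 : ∀ w, tl (P⁻¹ * x * P) (G w) = G (tl x w) :=
        fun w => congrArg (fun φ : Module.End F (Fin n → F) => φ w) h1
      rw [h3, h3]
    have hBnd : ∀ u, (∀ v, B u v = 0) → u = 0 := by
      intro u hu
      by_contra hne
      have h1 : G u ≠ 0 := fun h0 => hne (hGinj (by rw [h0, map_zero]))
      obtain ⟨w, hw⟩ := (hf.nondegenerate (G u) h1).2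
      obtain ⟨v, rfl⟩ := hGsurj w
      exact hw (hu v)
    have hBalt : ∀ u, B u u = 0 := fun u => hf.alternating _
    have hBskew : ∀ u v, B u v = - B v u := fun u v => hf.skew _ _
    have hbasis : ∀ u, (∀ i, B u (Pi.single i 1) = 0) → u = 0 := by
      intro u hu
      apply hBnd
      intro v
      have : B u = 0 := by
        apply (Pi.basisFun F (Fin n)).ext
        intro i
        rw [Pi.basisFun_apply, hu]; rfl
      rw [this]; rfl
    have htl : ∀ i, tl x (Pi.single i 1) = d i • (Pi.single i 1 : Fin n → F) := by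
      intro i
      change Matrix.toLin' (x : Matrix (Fin n) (Fin n) F) (Pi.single i 1) = _
      rw [hx, Matrix.toLin'_apply, Matrix.mulVec_single_one]
      ext j
      by_cases hj : j = i
      · subst hj; simp
      · simp [Matrix.diagonal_apply_ne _ hj, hj]
    have hrel : ∀ i j, d i * d j * B (Pi.single i 1) (Pi.single j 1) = (c : F) * B (Pi.single i 1) (Pi.single j 1) := by
      intro i j
      rw [← hBT, htl, htl, map_smul, map_smul, LinearMap.smul_apply, smul_eq_mul, smul_eq_mul]; ring
    by_cases hcy : (c : F) = y ^ 2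
    · have h0 : (Pi.single i0 1 : Fin n → F) = 0 := by
        apply hbasis
        intro i
        by_cases hi : i = i0
        · rw [hi]; exact hBalt _
        · have h1 := hrel i0 i
          rw [hd0, hdi i hi, hcy] at h1
          have h3 : (2 * y ^ 2) * B (Pi.single i0 1) (Pi.single i 1) = 0 := by linear_combination (-1 : F) * h1
          exact (mul_eq_zero.mp h3).resolve_left (mul_ne_zero h2F (pow_ne_zero 2 hy0))
      have := congrFun h0 i0
      simp at this
    · have hW : ∀ i j, i ≠ i0 → j ≠ i0 → B (Pi.single i 1) (Pi.single j 1) = 0 := by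
        intro i j hi hj
        have h1 := hrel i j
        rw [hdi i hi, hdi j hj] at h1
        have h3 : (y ^ 2 - c) * B (Pi.single i 1) (Pi.single j 1) = 0 := by linear_combination h1
        exact (mul_eq_zero.mp h3).resolve_left (sub_ne_zero.mpr (Ne.symm hcy))
      have h10 : i1 ≠ i0 := by simp [i1, i0]
      have h20 : i2 ≠ i0 := by simp [i2, i0]
      have h12 : i1 ≠ i2 := by simp [i1, i2]
      set α := B (Pi.single i1 1) (Pi.single i0 1) with hα
      set β := B (Pi.single i2 1) (Pi.single i0 1) with hβ
      have h0 : β • (Pi.single i1 1 : Fin n → F) - α • (Pi.single i2 1 : Fin n → F) = 0 := by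
        apply hbasis
        intro i
        rw [map_sub, map_smul, map_smul, LinearMap.sub_apply, LinearMap.smul_apply, LinearMap.smul_apply, smul_eq_mul, smul_eq_mul]
        by_cases hi : i = i0
        · rw [hi, ← hα, ← hβ]; ring
        · rw [hW i1 i h10 hi, hW i2 i h20 hi]; ring
      have hα0 : α = 0 := by
        have := congrFun h0 i2
        simp [h12.symm] at this
        exact this
      have h1 : (Pi.single i1 1 : Fin n → F) = 0 := by
        apply hbasis
        intro i
        by_cases hi : i = i0
        · rw [hi, ← hα, hα0]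
        · exact hW i1 i h10 hi
      have := congrFun h1 i1
      simp at this
  · intro hcond x hx1 _
    obtain ⟨z, hz⟩ := hx1
    have hT : (tl x) ^ 2 = z • (1 : Module.End F (Fin n → F)) := by
      rw [tl_pow, tl_eq_smul_iff, hz]
    have hz0 : z ≠ 0 := by
      rintro rfl
      have h1 := (x ^ 2).2
      have hne : Nonempty (Fin n) := ⟨⟨0, hn0⟩⟩
      rw [hz, zero_smul, Matrix.det_zero] at h1
      exact zero_ne_one h1
    by_cases hp2 : p = 2
    · subst hp2
      obtain ⟨y, hy, hN⟩ := exists_nil x hz
      have hnil : IsNilpotent (tl x - y • (1 : Module.End F (Fin n → F))) := ⟨2, hN⟩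
      obtain ⟨μ, hμ⟩ := exists_typ_top hnil
      have hle := (hμ.pow_eq_zero_iff 2).mp hN
      have hsum : n = μ.sum := by rw [← hμ.finrank_eq, finrank_top]; simp
      obtain ⟨m, hm⟩ : ∃ m, m ∈ μ := by
        apply Multiset.exists_mem_of_ne_zero
        rintro rfl
        simp at hsum
        omega
      have hHF : HF (tl x) (y ^ 2) := HF.char_two n (tl x) hN (by simp) he
      rw [hy] at hHF
      apply conj_sim f hf hz0 hHF
      intro δ hδ
      obtain ⟨U, W, hUW, hU, hW, hUf⟩ := hμ.split hnil (Multiset.singleton_le.mpr hm)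
      rw [Multiset.sum_singleton] at hUf
      have h1 := hle m hm
      have h2 : m ≠ 0 := by rintro rfl; exact hμ.1 hm
      obtain ⟨s, hs⟩ : ∃ s : F, s ^ m = δ := by
        have h3 : m = 1 ∨ m = 2 := by omega
        rcases h3 with rfl | rfl
        · exact ⟨δ, pow_one δ⟩
        · have h : Function.Surjective (frobenius F 2) :=
            Finite.surjective_of_injective (frobenius F 2).injective
          obtain ⟨s, hs⟩ := h δ
          exact ⟨s, hs⟩
      obtain ⟨C, hC, hCd⟩ := exists_comm (T := tl x) hUW (inv_sub_smul_iff.mp hU) (inv_sub_smul_iff.mp hW) s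
      exact ⟨C, hC, by rw [hCd, hUf, hs]⟩
    · have h2F : (2 : F) ≠ 0 := by
        have : Fact (Nat.Prime 2) := ⟨Nat.prime_two⟩
        have := cast_ne_zero (F := F) (p := p) (r := 2) (Ne.symm hp2)
        exact_mod_cast this
      have : Fact (Nat.Prime 2) := ⟨Nat.prime_two⟩
      rcases structure_of (p := p) (r := 2) (Ne.symm hp2) x z hz hn0 with ⟨y, hy0, hy, hss⟩ | ⟨hnp, hss, -, m, hm, hnm, hdet⟩
      · have hT' : (tl x) ^ 2 = (y ^ 2) • (1 : Module.End F (Fin n → F)) := by rw [hT, hy]
        have hdet := det_inv h2F hy0 hT'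
        rw [det_tl] at hdet
        have hfin := Submodule.finrank_add_eq_of_isCompl (isCompl_inv h2F hy0 hT')
        have hfr : finrank F (Fin n → F) = n := by simp
        rw [hfr] at hfin
        set e1 := finrank F (E (tl x) y) with he1
        set s1 := finrank F (E (tl x) (-y)) with hs1
        have hs : Even s1 := by
          by_contra hodd
          rw [Nat.not_even_iff_odd] at hodd
          have h1 : y ^ n = -1 := by
            rw [neg_pow, hodd.neg_one_pow] at hdet
            rw [← hfin, pow_add]
            linear_combination hdet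
          -- contradiction with the 2-parts
          set a := padicValNat 2 (Fintype.card F - 1) with ha
          have hne : Fintype.card F - 1 ≠ 0 := by
            have := Fintype.one_lt_card (α := F); omega
          obtain ⟨m, hm⟩ : 2 ^ a ∣ Fintype.card F - 1 := pow_padicValNat_dvd
          have hmodd : Odd m := by
            rw [← Nat.not_even_iff_odd]
            rintro ⟨k, hk⟩
            have h7 : 2 ^ (a + 1) ∣ Fintype.card F - 1 := ⟨k, by rw [hm, hk, pow_succ]; ring⟩
            rw [padicValNat_dvd_iff_le hne] at h7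
            omega
          obtain ⟨n', hn'⟩ : 2 ^ a ∣ n := by rw [padicValNat_dvd_iff_le hn0.ne']; exact hcond
          have h3 : (y ^ n) ^ m = 1 := by
            rw [hn', ← pow_mul]
            have h4 : 2 ^ a * n' * m = (Fintype.card F - 1) * n' := by rw [hm]; ring
            rw [h4, pow_mul, FiniteField.pow_card_sub_one_eq_one y hy0, one_pow]
          rw [h1, hmodd.neg_one_pow] at h3
          have h5 : (2 : F) = 0 := by linear_combination (-1 : F) * h3
          exact h2F h5
        have hee : Even e1 := by
          rw [← Nat.even_add.mp (by rw [hfin]; exact he)] at hs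
          exact hs
        have hHF := HF.typeB h2F hy0 hT' hee hs
        rw [hy] at hHF
        apply conj_sim f hf hz0 hHF
        intro δ _
        exact Cfsg.Agent.Lib.FieldComm.SS.exists_comm_full hss δ
      · have hHF := HF.typeC hnp n (tl x) hT (by simp)
        apply conj_sim f hf (neg_ne_zero.mpr hz0) hHF
        intro δ _
        exact Cfsg.Agent.Lib.FieldComm.SS.exists_comm_full hss δ

end Cfsg.Agent.S5967
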