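import Cfsg.Statements.S5968
import Cfsg.Agent.Lib.AltSim4
import Cfsg.Agent.Lib.ConjSub2
import Cfsg.Agent.Lib.ElusiveUni
import Cfsg.Agent.Lib.SubspaceCount

set_option autoImplicit false
open scoped MatrixGroups
open Cfsg

namespace Cfsg.Agent.S5968

open Cfsg.Agent.Lib.AltSim Cfsg.Agent.Lib.ConjSub Cfsg.Agent.Lib.ElusiveLin Cfsg.Agent.Lib.JordanNil Cfsg.Agent.Lib.ElusiveUni
  Cfsg.Agent.Lib.PrimeOrd Cfsg.Agent.Lib.InvSub Cfsg.Agent.Lib.SubspaceCount Module

lemma eq_one_of_pow {F : Type*} [Field F] [Fintype F] {r : ℕ} (hr : r.Prime) (h : ¬ r ∣ Fintype.card F - 1) {c : F}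
    (hc : c ^ r = 1) : c = 1 := by
  have hc0 : c ≠ 0 := by
    rintro rfl
    rw [zero_pow hr.ne_zero] at hc
    exact zero_ne_one hc
  have h1 := FiniteField.pow_card_sub_one_eq_one c hc0
  have h2 : orderOf c ∣ r := orderOf_dvd_of_pow_eq_one hc
  have h3 : orderOf c ∣ Fintype.card F - 1 := orderOf_dvd_of_pow_eq_one h1
  rcases (Nat.dvd_prime hr).mp h2 with h4 | h4
  · exact orderOf_eq_one_iff.mp h4
  · rw [h4] at h3; exact absurd h3 h

/-- three places -/
def pat {F : Type*} [Field F] (n : ℕ) (a b c : F) : Fin (n + 3) → F :=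
  Fin.cons a (Fin.cons b (Fin.cons c (fun _ : Fin n => (1 : F))))

lemma card_pat {F : Type*} [Field F] [DecidableEq F] (n : ℕ) (a b c α : F) :
    (Finset.univ.filter fun i => pat n a b c i = α).card =
      (if a = α then 1 else 0) + ((if b = α then 1 else 0) + ((if c = α then 1 else 0) + (if (1 : F) = α then n else 0))) := by
  rw [Finset.card_filter, Fin.sum_univ_succ, Fin.sum_univ_succ, Fin.sum_univ_succ]
  simp only [pat, Fin.cons_zero, Fin.cons_succ]
  congr 3
  split_ifs <;> simp


/-- Derangements of odd prime order of PSL_n(q) on the cosets of a symplectic-type subgroup. Here `T = PSL_n(F)` for a field `F` with `q` elements, `n ≥ 4` even, `f` is a nondegenerate alternating form on `F^n`, and `H` is the subgroup of matrices of determinant 1 preserving `f` up to a scalar — a maximal subgroup of type Sp_n(q); Ω is the set of `T`-conjugates of `H` (cosets of `H`), so an element of `T` of prime order `r` (a matrix `x` of determinant 1 with `x^r` scalar, `x` not scalar) fixes a point of Ω when some conjugate of `x`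 by a matrix of determinant 1 preserves `f` up to a scalar. For every odd prime `r` dividing the index of `H`, with `(n, r) ≠ (6, 3)`, there is an element of `T` of order `r` with no conjugate in `H`. (For `n = 6`, `r = 3` this can fail: when `(q − 1)_3 = 3` every element of order 3 is conjugate into `H`.) -/
theorem result {F : Type*} [Field F] [Fintype F] {p : ℕ} [Fact p.Prime] [CharP F p] {q : ℕ} (hq : Fintype.card F = q)
    (n : ℕ) (hn : 4 ≤ n) (he : Even n) (f : (Fin n → F) → (Fin n → F) → F) (hf : Cfsg.Geo.IsSymplecticForm f)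
    (r : ℕ) [Fact r.Prime] (hr2 : r ≠ 2) (hgap : ¬ (n = 6 ∧ r = 3)) (hΩ : r ∣ ((Cfsg.Geo.similarityGroup f).comap (Matrix.SpecialLinearGroup.toGL : Matrix.SpecialLinearGroup (Fin n) F →* GL (Fin n) F)).index) :
    ∃ x : Matrix.SpecialLinearGroup (Fin n) F,
      (∃ z : F, ((x ^ r : Matrix.SpecialLinearGroup (Fin n) F) : Matrix (Fin n) (Fin n) F) = z • (1 : Matrix (Fin n) (Fin n) F)) ∧
      (∀ z : F, (x : Matrix (Fin n) (Fin n) F) ≠ z • (1 : Matrix (Fin n) (Fin n) F)) ∧
      ∀ P : Matrix.SpecialLinearGroup (Fin n) F, P⁻¹ * x * P ∉ ((Cfsg.Geo.similarityGroup f).comap (Matrix.SpecialLinearGroup.toGL : Matrix.SpecialLinearGroup (Fin n) F →* GL (Fin n) F)) := by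
  classical
  subst hq
  have hn0 : 0 < n := by omega
  have hp : p.Prime := Fact.out
  have hr : r.Prime := Fact.out
  have hntV : Nontrivial (Fin n → F) := by
    have : Nonempty (Fin n) := ⟨⟨0, hn0⟩⟩
    infer_instance
  by_cases hrp : r = p
  · subst hrp
    have h3p : 3 ≤ r := by
      have := hr.two_le; omega
    obtain ⟨x, N, hN, ht, hx, hNp, hxp⟩ := exists_unip (F := F) (n := n) (p := r) (μ := 3 ::ₘ Multiset.replicate (n - 3) 1)
      (fun a ha => by
        rw [Multiset.mem_cons] at ha
        rcases ha with rfl | ha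
        · exact ⟨by norm_num, h3p⟩
        · rw [Multiset.eq_of_mem_replicate ha]; exact ⟨by norm_num, by omega⟩)
      (by simp; omega)
    have hN2 : finrank F (LinearMap.range (N ^ 2)) = 1 := by
      have := ht.2 2
      rw [← LinearMap.range_eq_map] at this
      rw [this]
      simp
    have hN3 : N ^ 3 = 0 := by
      rw [ht.pow_eq_zero_iff 3]
      intro b hb
      rw [Multiset.mem_cons] at hb
      rcases hb with rfl | hb
      · exact le_rfl
      · rw [Multiset.eq_of_mem_replicate hb]; norm_num
    have hN0 : N ≠ 0 := by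
      rintro rfl
      rw [zero_pow (by norm_num), LinearMap.range_zero] at hN2
      simp at hN2
    have h2F : (2 : F) ≠ 0 := by
      have : Fact (Nat.Prime 2) := ⟨Nat.prime_two⟩
      have := cast_ne_zero (F := F) (p := r) (r := 2) (Ne.symm hr2)
      exact_mod_cast this
    refine ⟨x, ⟨1, ?_⟩, ?_, ?_⟩
    · rw [← tl_eq_smul_iff, ← tl_pow, hxp, one_smul]
    · intro z hz
      rw [← tl_eq_smul_iff, hx] at hz
      exact not_smul_of_nil hN hN0 z hz
    · intro P hP
      obtain ⟨c, hc, hHF⟩ := HF_of_conj hf hP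
      have hcr := mult_pow hxp hHF
      have hc1 : c = 1 := by
        have h1 : (c - 1) ^ r = 0 := by rw [sub_pow_char, hcr, one_pow, sub_self]
        exact sub_eq_zero.mp (pow_eq_zero_iff hr.ne_zero |>.mp h1)
      rw [hc1, hx] at hHF
      exact not_HF_three h2F hN3 hN2 hHF
  · obtain ⟨m, hm⟩ := he
    have hrq : ¬ r ∣ Fintype.card F := by
      obtain ⟨e, -, he'⟩ := FiniteField.card F p
      rw [he']
      intro h
      have := hr.dvd_of_dvd_pow h
      exact hrp ((Nat.prime_dvd_prime_iff_eq hr hp).mp this)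
    obtain ⟨j, hj, hj3, hjn, hrj⟩ := exists_odd_exponent m (by omega) (by omega) f hf hr hrq hΩ
    have hij := Cfsg.Agent.Lib.SubspaceCount.orderOf_dvd_of_dvd (Fintype.card_pos (α := F)) hrj
    by_cases hi1 : orderOf ((Fintype.card F : ℕ) : ZMod r) = 1
    · -- r ∣ q - 1
      have hrq1 : r ∣ Fintype.card F - 1 := (orderOf_eq_one_iff (Fintype.card_pos (α := F))).mp hi1
      obtain ⟨ω, hω⟩ : ∃ ω : F, orderOf ω = r := by
        have h1 : r ∣ Nat.card Fˣ := by
          rw [Nat.card_eq_fintype_card, Fintype.card_units]; exact hrq1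
        obtain ⟨u, hu⟩ := exists_prime_orderOf_dvd_card' r h1
        exact ⟨u, by rw [orderOf_units, hu]⟩
      have hω1 : ω ^ r = 1 := by rw [← hω]; exact pow_orderOf_eq_one ω
      have hω0 : ω ≠ 0 := by
        rintro rfl
        rw [zero_pow hr.ne_zero] at hω1
        exact zero_ne_one hω1
      have hωk : ∀ k, 0 < k → k < r → ω ^ k ≠ 1 := by
        intro k hk hkr h
        have := orderOf_dvd_of_pow_eq_one h
        rw [hω] at this
        have := Nat.le_of_dvd hk this
        omega
      have h3r : 3 ≤ r := by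
        have := hr.two_le; omega
      have hωn1 : ω ≠ 1 := by
        have := hωk 1 (by norm_num) (by omega); rwa [pow_one] at this
      have hωn2 : ω ^ 2 ≠ 1 := hωk 2 (by norm_num) (by omega)
      obtain ⟨n', rfl⟩ : ∃ n', n = n' + 3 := ⟨n - 3, by omega⟩
      have hdet : (Matrix.diagonal (pat n' ω ω (ω⁻¹ ^ 2))).det = 1 := by
        rw [Matrix.det_diagonal, Fin.prod_univ_succ, Fin.prod_univ_succ, Fin.prod_univ_succ]
        simp only [pat, Fin.cons_zero, Fin.cons_succ, Finset.prod_const_one]
        field_simp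
      let x : Matrix.SpecialLinearGroup (Fin (n' + 3)) F := ⟨Matrix.diagonal (pat n' ω ω (ω⁻¹ ^ 2)), hdet⟩
      have hx : (x : Matrix (Fin (n' + 3)) (Fin (n' + 3)) F) = Matrix.diagonal (pat n' ω ω (ω⁻¹ ^ 2)) := rfl
      have hpatr : ∀ i, pat n' ω ω (ω⁻¹ ^ 2) i ^ r = 1 := by
        intro i
        refine Fin.cases ?_ (fun i => ?_) i
        · exact hω1
        · refine Fin.cases ?_ (fun i => ?_) i
          · exact hω1
          · refine Fin.cases ?_ (fun i => ?_) i
            · change (ω⁻¹ ^ 2) ^ r = 1
              rw [← pow_mul, mul_comm, pow_mul, inv_pow, hω1, inv_one, one_pow]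
            · change (1 : F) ^ r = 1
              rw [one_pow]
      have hxr : ((x ^ r : Matrix.SpecialLinearGroup (Fin (n' + 3)) F) : Matrix (Fin (n' + 3)) (Fin (n' + 3)) F) = 1 := by
        rw [Matrix.SpecialLinearGroup.coe_pow, hx, Matrix.diagonal_pow, ← Matrix.diagonal_one]
        congr 1
        funext i
        rw [Pi.pow_apply]; exact hpatr i
      refine ⟨x, ⟨1, by rw [hxr, one_smul]⟩, ?_, ?_⟩
      · intro z hz
        rw [hx] at hz
        have h1 := congrFun (congrFun hz 0) 0
        have h3 := congrFun (congrFun hz (Fin.succ (Fin.succ (Fin.succ ⟨0, by omega⟩)))) (Fin.succ (Fin.succ (Fin.succ ⟨0, by omega⟩)))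
        rw [Matrix.diagonal_apply_eq, Matrix.smul_apply, Matrix.one_apply_eq] at h1 h3
        exact hωn1 (by rw [← h1] at h3; exact h3.symm)
      · intro P hP
        obtain ⟨c, hc, hHF⟩ := HF_of_conj hf hP
        obtain ⟨σ, hσ⟩ := HF_diagonal (F := F) (n := n' + 3) (d := pat n' ω ω (ω⁻¹ ^ 2)) hHF
        have hcard := card_filter_eq hc hσ
        have hpat := card_pat (F := F) n' ω ω (ω⁻¹ ^ 2)
        have hn'1 : 1 ≤ n' := by omega
        have hn'odd : n' ≠ 2 := by omega
        -- ω⁻² = ω iff r = 3
        have h3iff : ω⁻¹ ^ 2 = ω → r = 3 := by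
          intro h
          have h1 : ω ^ 3 = 1 := by
            field_simp at h
            exact h.symm
          have := orderOf_dvd_of_pow_eq_one h1
          rw [hω] at this
          exact (Nat.prime_dvd_prime_iff_eq hr Nat.prime_three).mp this
        have hinv1 : ω⁻¹ ^ 2 ≠ 1 := by
          intro h; apply hωn2; rw [inv_pow] at h; exact inv_eq_one.mp h
        have key : c / ω = ω := by
          have h1 := hcard ω hω0
          rw [hpat ω, hpat (c / ω)] at h1
          by_contra hne
          rw [if_pos rfl, if_neg (Ne.symm hωn1), if_neg (Ne.symm hne)] at h1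
          by_cases h4 : ω⁻¹ ^ 2 = ω
          · have hr3 := h3iff h4
            rw [if_pos h4, if_neg (by rw [h4]; exact Ne.symm hne)] at h1
            by_cases h5 : (1 : F) = c / ω
            · rw [if_pos h5] at h1
              have : n' = 3 := by omega
              exact hgap ⟨by omega, hr3⟩
            · rw [if_neg h5] at h1; omega
          · rw [if_neg h4] at h1
            by_cases h5 : (1 : F) = c / ω
            · rw [if_pos h5, if_neg (by rw [← h5]; exact hinv1)] at h1
              omega
            · rw [if_neg h5] at h1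
              split_ifs at h1 <;> omega
        have hcω : c = ω ^ 2 := by
          field_simp at key
          rw [key]
        have h1 := hcard 1 one_ne_zero
        rw [hpat 1, hpat (c / 1), if_neg hωn1, if_neg hinv1, if_pos rfl, div_one, hcω, if_neg (Ne.symm hωn2)] at h1
        have h4 : ω ≠ ω ^ 2 := by
          intro h
          apply hωn1
          have : ω * (ω - 1) = 0 := by linear_combination -h
          exact sub_eq_zero.mp ((mul_eq_zero.mp this).resolve_left hω0)
        rw [if_neg h4] at h1
        by_cases h5 : ω⁻¹ ^ 2 = ω ^ 2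
        · have h6 : ω ^ 4 = 1 := by
            field_simp at h5
            rw [← h5]
          have h7 := orderOf_dvd_of_pow_eq_one h6
          rw [hω] at h7
          have h8 : r ∣ 2 ^ 2 := by simpa using h7
          have := (Nat.prime_dvd_prime_iff_eq hr Nat.prime_two).mp (hr.dvd_of_dvd_pow h8)
          exact hr2 this
        · rw [if_neg h5] at h1
          omega
    · have hi0 := order_pos (F := F) (p := p) (r := r) hrp
      have hiodd : Odd (orderOf ((Fintype.card F : ℕ) : ZMod r)) := hj.of_dvd_nat hij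
      have hin : orderOf ((Fintype.card F : ℕ) : ZMod r) ≤ j := Nat.le_of_dvd (by omega) hij
      have hi2 : 2 ≤ orderOf ((Fintype.card F : ℕ) : ZMod r) := by omega
      obtain ⟨x, g, -, -, hxr, -, hss, hty⟩ := exists_typeB (F := F) (n := n) (s := 1)
        (k := n - orderOf ((Fintype.card F : ℕ) : ZMod r)) hrp hi2 (by omega)
      have hrq1 : ¬ r ∣ Fintype.card F - 1 := fun h => hi1 ((orderOf_eq_one_iff (Fintype.card_pos (α := F))).mpr h)
      refine ⟨x, ⟨1, ?_⟩, ?_, ?_⟩
      · rw [← tl_eq_smul_iff, ← tl_pow, hxr, one_smul]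
      · intro z hz
        rw [← tl_eq_smul_iff] at hz
        exact nonscalar_of_ty hss hi2 hty one_pos z hz
      · intro P hP
        obtain ⟨c, hc, hHF⟩ := HF_of_conj hf hP
        have hc1 := eq_one_of_pow hr hrq1 (mult_pow hxr hHF)
        rw [hc1] at hHF
        refine not_HF_odd (cast_ne_zero (F := F) (p := p) hrp) hxr ?_ hHF
        have h1 := hty.fin_e
        rw [top_inf_eq] at h1
        rw [h1]
        have h3 : finrank F (Fin n → F) = n := by simp
        rw [h3]
        have h4 : n - (n - orderOf ((Fintype.card F : ℕ) : ZMod r)) = orderOf ((Fintype.card F : ℕ) : ZMod r) := by omega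
        rw [h4]; exact hiodd

end Cfsg.Agent.S5968
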