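import Cfsg.Statements.S5969
import Cfsg.Agent.Lib.ExtField5
import Cfsg.Agent.Lib.FieldComm
import Cfsg.Agent.Lib.ElusiveUni

set_option autoImplicit false
open scoped MatrixGroups
open Cfsg

namespace Cfsg.Agent.S5969

open Cfsg.Agent.Lib.AltSim Cfsg.Agent.Lib.ElusiveLin Cfsg.Agent.Lib.ExtField Cfsg.Agent.Lib.PrimeOrd Cfsg.Agent.Lib.InvSub Module Polynomial
  Cfsg.Agent.Lib.JordanNil Cfsg.Agent.Lib.ElusiveUni

lemma exists_root_neg_one {F : Type*} [Field F] [Fintype F] {n : ℕ} (hn : 0 < n)
    (h : padicValNat 2 n < padicValNat 2 (Fintype.card F - 1)) : ∃ y : F, y ^ n = -1 := by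
  classical
  have : Fact (Nat.Prime 2) := ⟨Nat.prime_two⟩
  set a := padicValNat 2 n with ha
  have hdvd : 2 ^ (a + 1) ∣ Fintype.card F - 1 := by
    have hne : Fintype.card F - 1 ≠ 0 := by
      have := Fintype.one_lt_card (α := F); omega
    rw [padicValNat_dvd_iff_le hne]; omega
  obtain ⟨g, hg⟩ := IsCyclic.exists_generator (α := Fˣ)
  have hord : orderOf g = Fintype.card F - 1 := by
    rw [orderOf_eq_card_of_forall_mem_zpowers hg, Nat.card_eq_fintype_card, Fintype.card_units]
  have hpos : orderOf g ≠ 0 := by
    rw [hord]; have := Fintype.one_lt_card (α := F); omega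
  have hu : orderOf (g ^ (orderOf g / 2 ^ (a + 1))) = 2 ^ (a + 1) :=
    orderOf_pow_orderOf_div hpos (by rw [hord]; exact hdvd)
  set u := g ^ (orderOf g / 2 ^ (a + 1)) with hudef
  have h1 : (u ^ 2 ^ a) ^ 2 = 1 := by
    rw [← pow_mul, ← pow_succ, ← hu]; exact pow_orderOf_eq_one u
  have h3 : u ^ 2 ^ a ≠ 1 := by
    intro h3
    have h4 := orderOf_dvd_of_pow_eq_one h3
    rw [hu, pow_succ] at h4
    have h5 := Nat.le_of_dvd (by positivity) h4
    have h6 : 0 < 2 ^ a := by positivity
    omega
  have h4 : ((u : F) ^ 2 ^ a) = -1 := by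
    have h5 : ((u : F) ^ 2 ^ a) ^ 2 = 1 := by
      have := congrArg Units.val h1
      simpa using this
    rw [pow_two] at h5
    rcases mul_self_eq_one_iff.mp h5 with h6 | h6
    · exfalso; apply h3; ext; simpa using h6
    · exact h6
  obtain ⟨m, hm⟩ : 2 ^ a ∣ n := pow_padicValNat_dvd
  have hmodd : Odd m := by
    rw [← Nat.not_even_iff_odd]
    rintro ⟨k, hk⟩
    have h7 : 2 ^ (a + 1) ∣ n := ⟨k, by rw [hm, hk, pow_succ]; ring⟩
    rw [padicValNat_dvd_iff_le hn.ne'] at h7
    omega
  refine ⟨u, ?_⟩
  rw [hm, pow_mul, h4, hmodd.neg_one_pow]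

lemma not_root {F : Type*} [Field F] [Fintype F] (h2F : (2 : F) ≠ 0) {n : ℕ} (hn0 : 0 < n)
    (hcond : padicValNat 2 (Fintype.card F - 1) ≤ padicValNat 2 n) {y : F} (hy0 : y ≠ 0) : y ^ n ≠ -1 := by
  have : Fact (Nat.Prime 2) := ⟨Nat.prime_two⟩
  intro h1
  set a := padicValNat 2 (Fintype.card F - 1) with ha
  have hne : Fintype.card F - 1 ≠ 0 := by
    have := Fintype.one_lt_card (α := F); omega
  obtain ⟨m, hm⟩ : 2 ^ a ∣ Fintype.card F - 1 := pow_padicValNat_dvd
  have hmodd : Odd m := by
    rw [← Nat.not_even_iff_odd]
    rintro ⟨k, hk⟩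
    have h7 : 2 ^ (a + 1) ∣ Fintype.card F - 1 := ⟨k, by rw [hm, hk, pow_succ]; ring⟩
    rw [padicValNat_dvd_iff_le hne] at h7
    omega
  obtain ⟨n', hn'⟩ : 2 ^ a ∣ n := by rw [padicValNat_dvd_iff_le hn0.ne']; exact hcond
  have h3 : (y ^ n) ^ m = 1 := by
    rw [hn', ← pow_mul]
    have h4 : 2 ^ a * n' * m = (Fintype.card F - 1) * n' := by rw [hm]; ring
    rw [h4, pow_mul, FiniteField.pow_card_sub_one_eq_one y hy0, one_pow]
  rw [h1, hmodd.neg_one_pow] at h3
  have h5 : (2 : F) = 0 := by linear_combination (-1 : F) * h3
  exact h2F h5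

/-- Artin-Schreier polynomials in characteristic two -/
lemma exists_as {F : Type*} [Field F] [Finite F] [CharP F 2] :
    ∃ d : F, Irreducible (X ^ 2 + X + C d) ∧ (X ^ 2 + X + C d : F[X]).natDegree = 2 := by
  have hns : ¬ Function.Surjective (fun y : F => y ^ 2 + y) := by
    intro hs
    have hi := Finite.injective_iff_surjective.mpr hs
    have h1 : (0 : F) = 1 := hi (by
      change (0 : F) ^ 2 + 0 = 1 ^ 2 + 1
      have : (1 : F) + 1 = 0 := CharTwo.add_self_eq_zero 1
      rw [one_pow, this]; ring)
    exact zero_ne_one h1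
  rw [Function.Surjective] at hns
  push Not at hns
  obtain ⟨d, hd⟩ := hns
  have hdeg : (X ^ 2 + X + C d : F[X]).natDegree = 2 := by compute_degree!
  refine ⟨d, ?_, hdeg⟩
  have hne : (X ^ 2 + X + C d : F[X]) ≠ 0 := by
    intro h; rw [h, natDegree_zero] at hdeg; omega
  apply (Polynomial.irreducible_iff_roots_eq_zero_of_degree_le_three (by omega) (by omega)).mpr
  rw [Multiset.eq_zero_iff_forall_notMem]
  intro y hy
  rw [mem_roots hne, IsRoot.def] at hy
  simp only [eval_add, eval_pow, eval_X, eval_C] at hy
  apply hd y
  have h2 : (d : F) + d = 0 := CharTwo.add_self_eq_zero d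
  change y ^ 2 + y = d
  linear_combination hy - h2

/-- Involutions of PSL_n(q) and extension-field subgroups of degree 2. Here `T = PSL_n(F)` for a field `F` with `q = p^f` elements (`n ≥ 2`, `(n, q) ≠ (2, 2), (2, 3)`), `k` is a prime dividing `n`, `K` is a subalgebra of the `n × n` matrices that is a field of degree `k` over `F` (an extension-field structure F_{q^k} on `F^n`), and `H` is the subgroup of matrices of determinant 1 normalizing `K` — a subgroup of type GL_{n/k}(q^k) (maximal except in some small cases; maximality is not assumed); Ω is the set of cosets of `H` in `T`, so an element of `T` of prime order `r` (a matrix `x` of determinant 1 with `x^r` scalar, `x` not scalar) fixes a point of Ω when some conjugate of `x` by a matrix of determinant 1 normalizes `K`. Take `k = 2` and suppose the index of `H` is even. Then every involution of `T` is conjugate in `T` into `H` if and only if `n = 2`, or `q` is odd and `(q − 1)_2 ≤ (n)_2`. -/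
theorem result {F : Type*} [Field F] [Fintype F] {p : ℕ} [Fact p.Prime] [CharP F p] {q : ℕ} (hq : Fintype.card F = q)
    (n : ℕ) (hn : 2 ≤ n) (hT : (n, q) ≠ (2, 2) ∧ (n, q) ≠ (2, 3))
    (k : ℕ) (hk : k.Prime) (hkn : k ∣ n) (K : Subalgebra F (Matrix (Fin n) (Fin n) F)) (hK : Cfsg.Geo.IsFieldSubalgebra k K) (hk2 : k = 2) (hΩ : 2 ∣ ((Cfsg.Geo.subalgebraNormalizer K).comap (Matrix.SpecialLinearGroup.toGL : Matrix.SpecialLinearGroup (Fin n) F →* GL (Fin n) F)).index) :
    (∀ x : Matrix.SpecialLinearGroup (Fin n) F,
      (∃ z : F, ((x ^ 2 : Matrix.SpecialLinearGroup (Fin n) F) : Matrix (Fin n) (Fin n) F) = z • (1 : Matrix (Fin n) (Fin n) F)) →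
      (∀ z : F, (x : Matrix (Fin n) (Fin n) F) ≠ z • (1 : Matrix (Fin n) (Fin n) F)) →
      ∃ P : Matrix.SpecialLinearGroup (Fin n) F, P⁻¹ * x * P ∈ ((Cfsg.Geo.subalgebraNormalizer K).comap (Matrix.SpecialLinearGroup.toGL : Matrix.SpecialLinearGroup (Fin n) F →* GL (Fin n) F))) ↔
    (n = 2 ∨ (Odd q ∧ padicValNat 2 (q - 1) ≤ padicValNat 2 n)) := by
  classical
  subst hq
  subst hk2
  have hp : p.Prime := Fact.out
  have hn0 : 0 < n := by omega
  have hne : Nonempty (Fin n) := ⟨⟨0, hn0⟩⟩
  have hntV : Nontrivial (Fin n → F) := inferInstance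
  have h2f : Fact (Nat.Prime 2) := ⟨Nat.prime_two⟩
  obtain ⟨e, -, hce⟩ := FiniteField.card F p
  have hfr : finrank F (Fin n → F) = n := by simp
  constructor
  · intro h
    by_contra hcon
    push Not at hcon
    obtain ⟨hn2, hcon⟩ := hcon
    have hn4 : 4 ≤ n := by
      obtain ⟨m, hm⟩ := hkn
      omega
    have hneven : Even n := even_iff_two_dvd.mpr hkn
    have key : ∀ x : Matrix.SpecialLinearGroup (Fin n) F, ∀ z : F, (tl x) ^ 2 = z • (1 : Module.End F (Fin n → F)) →
        (∀ z : F, tl x ≠ z • (1 : Module.End F (Fin n → F))) → ∀ y : F, y ≠ 0 →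
        finrank F (E (tl x) y) ≠ n - 1 := by
      intro x z hx hxn y hy
      obtain ⟨P, hP⟩ := h x ⟨z, by rw [← tl_eq_smul_iff, ← tl_pow, hx]⟩
        (fun z hz => hxn z ((tl_eq_smul_iff x z).mpr hz))
      rw [← finrank_E_conj x P y]
      let _ : Field K := (isField_of hK).toField
      rcases eigen_quad (rhoK K) hK.finrank_eq (mem_NSub_iff.mp hP) hy with h1 | h1
      · intro h2
        rw [h2] at h1
        obtain ⟨a, ha⟩ := h1
        obtain ⟨b, hb⟩ := hneven
        omega
      · rw [hfr] at h1
        omega
    by_cases hp2 : p = 2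
    · subst hp2
      obtain ⟨x, N, hN, ht, hx, -, hxp⟩ := exists_unip (F := F) (n := n) (p := 2) (μ := 2 ::ₘ Multiset.replicate (n - 2) 1)
        (fun a ha => by
          rw [Multiset.mem_cons] at ha
          rcases ha with rfl | ha
          · exact ⟨by norm_num, le_rfl⟩
          · rw [Multiset.eq_of_mem_replicate ha]; exact ⟨by norm_num, by omega⟩)
        (by simp; omega)
      have hrk : finrank F (LinearMap.range N) = 1 := by
        have := ht.2 1
        rw [← LinearMap.range_eq_map, pow_one] at this
        rw [this]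
        simp
      have hker := LinearMap.finrank_range_add_finrank_ker N
      rw [hrk, hfr] at hker
      have hN0 : N ≠ 0 := by
        rintro rfl
        rw [LinearMap.range_zero, finrank_bot] at hrk
        omega
      apply key x 1 (by rw [hxp, one_smul]) (fun z => by rw [hx]; exact not_smul_of_nil hN hN0 z) 1 one_ne_zero
      have hE : E (tl x) 1 = LinearMap.ker N := by
        ext v
        rw [Module.End.mem_eigenspace_iff, one_smul, hx, LinearMap.add_apply, LinearMap.mem_ker, Module.End.one_apply]
        constructor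
        · intro h; exact add_eq_left.mp h
        · intro h; rw [h, add_zero]
      rw [hE]
      omega
    · have hodd : Odd (Fintype.card F) := by rw [hce]; exact (hp.odd_of_ne_two hp2).pow
      have h2F : (2 : F) ≠ 0 := by
        have := cast_ne_zero (F := F) (p := p) (r := 2) (Ne.symm hp2)
        exact_mod_cast this
      obtain ⟨y, hy⟩ := exists_root_neg_one hn0 (hcon hodd)
      have hy0 : y ≠ 0 := by
        rintro rfl
        rw [zero_pow hn0.ne'] at hy
        exact (neg_ne_zero.mpr (one_ne_zero (α := F))) hy.symm
      let i0 : Fin n := ⟨0, by omega⟩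
      let i1 : Fin n := ⟨1, by omega⟩
      let d : Fin n → F := Function.update (fun _ => y) i0 (-y)
      have hd0 : d i0 = -y := by simp [d]
      have hdi : ∀ i, i ≠ i0 → d i = y := fun i hi => by simp [d, hi]
      have hdet : (Matrix.diagonal d).det = 1 := by
        rw [Matrix.det_diagonal, Finset.prod_update_of_mem (Finset.mem_univ _)]
        rw [Finset.prod_const, Finset.card_sdiff_of_subset (Finset.subset_univ _), Finset.card_univ, Fintype.card_fin, Finset.card_singleton]
        have : y ^ n = y * y ^ (n - 1) := by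
          conv_lhs => rw [← Nat.sub_add_cancel (show 1 ≤ n by omega), pow_succ]
          ring
        rw [this] at hy
        linear_combination (-1 : F) * hy
      let x : Matrix.SpecialLinearGroup (Fin n) F := ⟨Matrix.diagonal d, hdet⟩
      have htlx : ∀ v j, tl x v j = d j * v j := by
        intro v j
        change ((Matrix.diagonal d).mulVec v) j = _
        rw [Matrix.mulVec_diagonal]
      have hx2 : (tl x) ^ 2 = (y ^ 2) • (1 : Module.End F (Fin n → F)) := by
        rw [tl_pow, tl_eq_smul_iff, Matrix.SpecialLinearGroup.coe_pow]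
        change (Matrix.diagonal d) ^ 2 = _
        rw [Matrix.diagonal_pow, Matrix.smul_one_eq_diagonal]
        congr 1
        funext i
        by_cases hi : i = i0
        · rw [Pi.pow_apply, hi, hd0, neg_pow_two]
        · rw [Pi.pow_apply, hdi i hi]
      have hxn : ∀ z : F, tl x ≠ z • (1 : Module.End F (Fin n → F)) := by
        intro z hz
        have h1 := congrArg (fun f : Module.End F (Fin n → F) => f (Pi.single i0 1) i0) hz
        have h3 := congrArg (fun f : Module.End F (Fin n → F) => f (Pi.single i1 1) i1) hz
        simp only [htlx] at h1 h3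
        rw [hd0] at h1
        rw [hdi i1 (by simp [i1, i0])] at h3
        simp at h1 h3
        have h4 : (2 : F) * y = 0 := by linear_combination (h3 - h1)
        exact (mul_ne_zero h2F hy0) h4
      apply key x _ hx2 hxn y hy0
      -- dimension of the eigenspace
      have hker : E (tl x) y = LinearMap.ker (tl x - y • (1 : Module.End F (Fin n → F))) := by
        ext v
        rw [Module.End.mem_eigenspace_iff, LinearMap.mem_ker, LinearMap.sub_apply, sub_eq_zero]
        rfl
      have hrange : LinearMap.range (tl x - y • (1 : Module.End F (Fin n → F))) ≤ Submodule.span F {(Pi.single i0 1 : Fin n → F)} := by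
        rintro _ ⟨v, rfl⟩
        rw [Submodule.mem_span_singleton]
        refine ⟨(-2 * y) * v i0, ?_⟩
        funext j
        rw [LinearMap.sub_apply, Pi.sub_apply, htlx, LinearMap.smul_apply, Module.End.one_apply, Pi.smul_apply, Pi.smul_apply,
          smul_eq_mul, smul_eq_mul]
        by_cases hj : j = i0
        · subst hj
          rw [hd0, Pi.single_eq_same]; ring
        · rw [hdi j hj, Pi.single_eq_of_ne hj]; ring
      have h1 := LinearMap.finrank_range_add_finrank_ker (tl x - y • (1 : Module.End F (Fin n → F)))
      have h3 := Submodule.finrank_mono hrange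
      have h4 : finrank F (Submodule.span F {(Pi.single i0 1 : Fin n → F)}) = 1 := finrank_span_singleton (by
        intro h0
        have := congrFun h0 i0
        simp at this)
      rw [h4] at h3
      rw [hfr, ← hker] at h1
      have h5 : finrank F (E (tl x) y) ≠ n := by
        intro h6
        have h7 : E (tl x) y = ⊤ := Submodule.eq_top_of_finrank_eq (by rw [h6, hfr])
        apply hxn y
        apply LinearMap.ext
        intro v
        have : v ∈ E (tl x) y := by rw [h7]; trivial
        exact Module.End.mem_eigenspace_iff.mp this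
      omega
  · intro hcond x hx1 hxn
    obtain ⟨z, hz⟩ := hx1
    have hT : (tl x) ^ 2 = z • (1 : Module.End F (Fin n → F)) := by
      rw [tl_pow, tl_eq_smul_iff, hz]
    have hTn : ∀ z : F, tl x ≠ z • (1 : Module.End F (Fin n → F)) := fun z h => hxn z ((tl_eq_smul_iff x z).mp h)
    have hz0 : z ≠ 0 := by
      rintro rfl
      have h1 := (x ^ 2).2
      rw [hz, zero_smul, Matrix.det_zero] at h1
      exact zero_ne_one h1
    by_cases hp2 : p = 2
    · subst hp2
      have hqe : Even (Fintype.card F) := by rw [hce]; exact (even_two.pow_of_ne_zero e.2.ne')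
      have hn2 : n = 2 := by
        rcases hcond with h | h
        · exact h
        · exact absurd hqe (Nat.not_even_iff_odd.mpr h.1)
      subst hn2
      obtain ⟨y, hy, hN⟩ := exists_nil x hz
      have hy0 : y ≠ 0 := by rintro rfl; apply hz0; rw [← hy]; ring
      obtain ⟨d, hirr, hdeg⟩ := exists_as (F := F)
      set N := tl x - y • (1 : Module.End F (Fin 2 → F)) with hNdef
      have hNv : ∃ v, N v ≠ 0 := by
        by_contra hall
        push Not at hall
        apply hTn y
        have : N = 0 := LinearMap.ext hall
        rw [hNdef, sub_eq_zero] at this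
        exact this
      obtain ⟨v, hv⟩ := hNv
      have hNN : ∀ u, N (N u) = 0 := by
        intro u
        have := congrArg (fun f : Module.End F (Fin 2 → F) => f u) hN
        simpa [pow_two] using this
      have hTN : ∀ u, tl x u = y • u + N u := by
        intro u
        rw [hNdef, LinearMap.sub_apply, LinearMap.smul_apply, Module.End.one_apply]; abel
      let w : Fin 2 → F := y⁻¹ • N v
      have hNw : N w = 0 := by
        change N (y⁻¹ • N v) = 0
        rw [map_smul, hNN, smul_zero]
      have hNvw : N v = y • w := by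
        change N v = y • (y⁻¹ • N v)
        rw [smul_smul, mul_inv_cancel₀ hy0, one_smul]
      have hw0 : w ≠ 0 := by
        intro h0; rw [h0, smul_zero] at hNvw; exact hv hNvw
      have hli : LinearIndependent F ![v, w] := by
        rw [LinearIndependent.pair_iff]
        intro s t hst
        have h1 := congrArg N hst
        rw [map_add, map_smul, map_smul, hNw, smul_zero, add_zero, map_zero] at h1
        have hs := (smul_eq_zero.mp h1).resolve_right hv
        rw [hs, zero_smul, zero_add] at hst
        exact ⟨hs, (smul_eq_zero.mp hst).resolve_right hw0⟩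
      let b := basisOfLinearIndependentOfCardEqFinrank hli (by simp)
      have hb0 : b 0 = v := by simp [b]
      have hb1 : b 1 = w := by simp [b]
      let J : Module.End F (Fin 2 → F) := b.constr F ![v + d • w, v]
      have hJ0 : J v = v + d • w := by
        rw [← hb0, Basis.constr_basis]; simp [hb0]
      have hJ1 : J w = v := by
        rw [← hb1, Basis.constr_basis]; simp
      have hx2 : ∀ a : (Fin 2 → F), a + a = 0 := fun a => by
        funext i; exact CharTwo.add_self_eq_zero (a i)
      have hJJ : aeval J (X ^ 2 + X + C d : F[X]) = 0 := by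
        rw [map_add, map_add, map_pow, aeval_X, aeval_C]
        apply b.ext
        intro i
        fin_cases i
        · change (J ^ 2) (b 0) + J (b 0) + d • (b 0) = 0
          rw [hb0, pow_two, Module.End.mul_apply, hJ0, map_add, map_smul, hJ0, hJ1]
          have : v + d • w + d • v + (v + d • w) + d • v = (v + v) + (d • w + d • w) + (d • v + d • v) := by abel
          rw [this]; simp only [hx2, add_zero]
        · change (J ^ 2) (b 1) + J (b 1) + d • (b 1) = 0
          rw [hb1, pow_two, Module.End.mul_apply, hJ1, hJ0]
          have : v + d • w + v + d • w = (v + v) + (d • w + d • w) := by abel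
          rw [this]; simp only [hx2, add_zero]
      have hxJ : tl x * J = aeval J (X + 1 : F[X]) * tl x := by
        rw [map_add, aeval_X, map_one]
        apply b.ext
        intro i
        fin_cases i
        · change tl x (J (b 0)) = (J + 1) (tl x (b 0))
          rw [hb0, hJ0, hTN v, hNvw, map_add, map_smul, hTN v, hTN w, hNw, hNvw, LinearMap.add_apply, map_add, map_smul, map_smul,
            hJ0, hJ1, Module.End.one_apply]
          have h1 : y • (v + d • w) + y • v + (y • v + y • w) = (y • v + y • v) + (y • v + y • w + d • (y • w + 0)) := by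
            rw [smul_add, smul_comm y d, add_zero]; abel
          rw [h1, hx2, zero_add]
        · change tl x (J (b 1)) = (J + 1) (tl x (b 1))
          rw [hb1, hJ1, hTN v, hTN w, hNw, hNvw, add_zero, LinearMap.add_apply, map_smul, hJ1, Module.End.one_apply]
      refine exists_conj_NSub hn0 Nat.prime_two hK hirr hdeg hJJ hxJ ?_
      intro δ _
      obtain ⟨s, hs⟩ : ∃ s : F, s ^ 2 = δ := by
        have h : Function.Surjective (frobenius F 2) :=
          Finite.surjective_of_injective (frobenius F 2).injective
        obtain ⟨s, hs⟩ := h δ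
        exact ⟨s, hs⟩
      refine ⟨s • 1, by simp, ?_⟩
      rw [LinearMap.det_smul, LinearMap.det.map_one, mul_one, hfr, hs]
    · have h2F : (2 : F) ≠ 0 := by
        have := cast_ne_zero (F := F) (p := p) (r := 2) (Ne.symm hp2)
        exact_mod_cast this
      have hring : ringChar F ≠ 2 := by
        rw [ringChar.eq F p]; exact hp2
      rcases structure_of (p := p) (r := 2) (Ne.symm hp2) x z hz hn0 with ⟨y, hy0, hy, hss⟩ | ⟨hnp, hss, -, -⟩
      · have hT' : (tl x) ^ 2 = (y ^ 2) • (1 : Module.End F (Fin n → F)) := by rw [hT, hy]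
        have hcompl := isCompl_inv h2F hy0 hT'
        have hdet := det_inv h2F hy0 hT'
        rw [det_tl] at hdet
        have hfin := Submodule.finrank_add_eq_of_isCompl hcompl
        rw [hfr] at hfin
        obtain ⟨d, hd⟩ := FiniteField.exists_nonsquare hring
        obtain ⟨hirr, hdeg⟩ := irred_sq (fun y (h : y ^ 2 = d) => hd ⟨y, by rw [← h, pow_two]⟩)
        have hU : ∀ u ∈ E (tl x) y, tl x u = y • u := fun u hu => Module.End.mem_eigenspace_iff.mp hu
        have hW : ∀ u ∈ E (tl x) (-y), tl x u = (-y) • u := fun u hu => Module.End.mem_eigenspace_iff.mp hu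
        have hneven : Even n := even_iff_two_dvd.mpr hkn
        have main : ∃ (J : Module.End F (Fin n → F)) (Q : F[X]), J * J = d • (1 : Module.End F (Fin n → F)) ∧ tl x * J = aeval J Q * tl x := by
          by_cases hs : Even (finrank F (E (tl x) (-y)))
          · have he : Even (finrank F (E (tl x) y)) := by
              rw [← Nat.even_add.mp (by rw [hfin]; exact hneven)] at hs
              exact hs
            obtain ⟨J, hJ, hTJ⟩ := exists_J_comm hcompl hU hW he hs d
            exact ⟨J, X, hJ, by rw [aeval_X, hTJ]⟩
          · have hsodd := Nat.not_even_iff_odd.mp hs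
            have hyn : y ^ n = -1 := by
              rw [neg_pow, hsodd.neg_one_pow] at hdet
              rw [← hfin, pow_add]
              linear_combination hdet
            have hn2 : n = 2 := by
              rcases hcond with h | h
              · exact h
              · exact absurd hyn (not_root h2F hn0 h.2 hy0)
            have he : finrank F (E (tl x) y) = finrank F (E (tl x) (-y)) := by
              obtain ⟨s, hs⟩ := hsodd
              have h1 : finrank F (E (tl x) y) + finrank F (E (tl x) (-y)) = 2 := by rw [hfin, hn2]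
              omega
            obtain ⟨J, hJ, hTJ⟩ := exists_J_swap hcompl hU hW he d
            refine ⟨J, -X, hJ, ?_⟩
            rw [hTJ, map_neg, aeval_X]
            exact (neg_mul J (tl x)).symm
        obtain ⟨J, Q, hJ, hTJ⟩ := main
        have hJJ : aeval J (X ^ 2 - C d : F[X]) = 0 := by
          rw [map_sub, map_pow, aeval_X, aeval_C, pow_two, hJ, sub_eq_zero]; rfl
        exact exists_conj_NSub hn0 Nat.prime_two hK hirr hdeg hJJ hTJ
          (fun δ _ => Cfsg.Agent.Lib.FieldComm.SS.exists_comm_full hss δ)
      · obtain ⟨hirr, hdeg⟩ := irred_sq hnp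
        have hJJ : aeval (tl x) (X ^ 2 - C z : F[X]) = 0 := by
          rw [map_sub, map_pow, aeval_X, aeval_C, hT, sub_eq_zero]; rfl
        exact exists_conj_NSub hn0 Nat.prime_two hK hirr hdeg hJJ (Q := X) (by rw [aeval_X])
          (fun δ _ => Cfsg.Agent.Lib.FieldComm.SS.exists_comm_full hss δ)

end Cfsg.Agent.S5969
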