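import Cfsg.Statements.S5970
import Cfsg.Agent.Lib.ExtField4
import Cfsg.Agent.Lib.FieldComm

set_option autoImplicit false
open scoped MatrixGroups
open Cfsg

namespace Cfsg.Agent.S5970

open Cfsg.Agent.Lib.AltSim Cfsg.Agent.Lib.ElusiveLin Cfsg.Agent.Lib.ExtField Cfsg.Agent.Lib.PrimeOrd Cfsg.Agent.Lib.InvSub Module Polynomial

/-- Elements of order `n` of PSL_n(q), `n` prime, and the normalizer of a Singer cycle. Here `T = PSL_n(F)` for a field `F` with `q = p^f` elements (`n ≥ 2`, `(n, q) ≠ (2, 2), (2, 3)`), `k` is a prime dividing `n`, `K` is a subalgebra of the `n × n` matrices that is a field of degree `k` over `F` (an extension-field structure F_{q^k} on `F^n`), and `H` is the subgroup of matrices of determinant 1 normalizing `K` — a subgroup of type GL_{n/k}(q^k) (maximal except in some small cases; maximality is not assumed); Ω is the set of cosets of `H` in `T`, so an element of `T` of prime order `r` (a matrix `x` of determinant 1 with `x^r` scalar, `x` not scalar) fixes a point of Ω when some conjugate of `x`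 by a matrix of determinant 1 normalizes `K`. Take `k = n > 3` prime with `n ≠ p` (so `H` is the normalizer of a Singer cycle), and suppose `n` divides the index of `H`. Then every element of `T` of order `n` is conjugate in `T` into `H` if and only if the multiplicative order of `q` modulo `n` is `n − 1`. -/
theorem result {F : Type*} [Field F] [Fintype F] {p : ℕ} [Fact p.Prime] [CharP F p] {q : ℕ} (hq : Fintype.card F = q)
    (n : ℕ) (hn : 2 ≤ n) (hT : (n, q) ≠ (2, 2) ∧ (n, q) ≠ (2, 3))
    (k : ℕ) (hk : k.Prime) (hkn : k ∣ n) (K : Subalgebra F (Matrix (Fin n) (Fin n) F)) (hK : Cfsg.Geo.IsFieldSubalgebra k K) (hkn' : k = n) (hn3 : 3 < n) (hnp : n ≠ p) (hΩ : n ∣ ((Cfsg.Geo.subalgebraNormalizer K).comap (Matrix.SpecialLinearGroup.toGL : Matrix.SpecialLinearGroup (Fin n) F →* GL (Fin n) F)).index) :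
    (∀ x : Matrix.SpecialLinearGroup (Fin n) F,
      (∃ z : F, ((x ^ n : Matrix.SpecialLinearGroup (Fin n) F) : Matrix (Fin n) (Fin n) F) = z • (1 : Matrix (Fin n) (Fin n) F)) →
      (∀ z : F, (x : Matrix (Fin n) (Fin n) F) ≠ z • (1 : Matrix (Fin n) (Fin n) F)) →
      ∃ P : Matrix.SpecialLinearGroup (Fin n) F, P⁻¹ * x * P ∈ ((Cfsg.Geo.subalgebraNormalizer K).comap (Matrix.SpecialLinearGroup.toGL : Matrix.SpecialLinearGroup (Fin n) F →* GL (Fin n) F))) ↔
    orderOf (q : ZMod n) = n - 1 := by
  classical
  subst hq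
  subst hkn'
  have hkF : Fact k.Prime := ⟨hk⟩
  have hp : p.Prime := Fact.out
  have hne : Nonempty (Fin k) := ⟨⟨0, by omega⟩⟩
  have hntV : Nontrivial (Fin k → F) := inferInstance
  let _ : Field K := (isField_of hK).toField
  have hfK : finrank F K = finrank F (Fin k → F) := by rw [hK.finrank_eq]; simp
  have hpK : (finrank F K).Prime := by rw [hK.finrank_eq]; exact hk
  have hfinM : Finite (Matrix (Fin k) (Fin k) F) := inferInstanceAs (Finite (Fin k → Fin k → F))
  have hfinK : Finite K := Finite.of_injective (fun a : K => (a : Matrix (Fin k) (Fin k) F)) Subtype.coe_injective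
  set i := orderOf ((Fintype.card F : ℕ) : ZMod k) with hidef
  have hi0 : 0 < i := order_pos (F := F) (p := p) (r := k) hnp
  have hcop : (Fintype.card F).Coprime k := by
    rw [Nat.coprime_comm, hk.coprime_iff_not_dvd]
    intro h
    obtain ⟨e, -, he'⟩ := FiniteField.card F p
    rw [he'] at h
    exact hnp ((Nat.prime_dvd_prime_iff_eq hk hp).mp (hk.dvd_of_dvd_pow h))
  have hidvd : i ∣ k - 1 := by
    have hu : ((Fintype.card F : ℕ) : ZMod k) = ((ZMod.unitOfCoprime _ hcop : (ZMod k)ˣ) : ZMod k) := rfl
    rw [hidef, hu, orderOf_units]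
    exact orderOf_dvd_of_pow_eq_one (ZMod.units_pow_card_sub_one_eq_one k _)
  have hkF0 : (k : F) ≠ 0 := cast_ne_zero (F := F) (p := p) hnp
  constructor
  · intro h
    by_contra hcon
    -- any nonscalar element has small eigenspaces
    have key : ∀ x : Matrix.SpecialLinearGroup (Fin k) F, (tl x) ^ k = 1 → (∀ z : F, tl x ≠ z • (1 : Module.End F (Fin k → F))) →
        finrank F (E (tl x) 1) ≤ 1 := by
      intro x hx hxn
      obtain ⟨P, hP⟩ := h x ⟨1, by rw [← tl_eq_smul_iff, ← tl_pow, hx, one_smul]⟩
        (fun z hz => hxn z ((tl_eq_smul_iff x z).mpr hz))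
      rw [← finrank_E_conj x P 1]
      refine eigen_singer (rhoK K) hfK hpK (mem_NSub_iff.mp hP) ?_ one_ne_zero
      intro c hc
      apply hxn c
      have h1 : (P⁻¹ * x * P : Matrix.SpecialLinearGroup (Fin k) F) = (c • (1 : Matrix (Fin k) (Fin k) F)) :=
        (tl_eq_smul_iff _ c).mp hc
      rw [tl_eq_smul_iff]
      have hPP : (P : Matrix (Fin k) (Fin k) F) * ((P⁻¹ : Matrix.SpecialLinearGroup (Fin k) F) : Matrix (Fin k) (Fin k) F) = 1 := by
        rw [← Matrix.SpecialLinearGroup.coe_mul, mul_inv_cancel, Matrix.SpecialLinearGroup.coe_one]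
      have h2 : x = P * (P⁻¹ * x * P) * P⁻¹ := by group
      rw [h2, Matrix.SpecialLinearGroup.coe_mul, Matrix.SpecialLinearGroup.coe_mul, h1, Matrix.mul_smul, Matrix.mul_one,
        Matrix.smul_mul, hPP]
    by_cases hi1 : i = 1
    · have hkq : k ∣ Fintype.card F - 1 := (orderOf_eq_one_iff (Fintype.card_pos (α := F))).mp hi1
      obtain ⟨ω, hω⟩ : ∃ ω : F, orderOf ω = k := by
        have h1 : k ∣ Nat.card Fˣ := by
          rw [Nat.card_eq_fintype_card, Fintype.card_units]; exact hkq
        obtain ⟨u, hu⟩ := exists_prime_orderOf_dvd_card' k h1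
        exact ⟨u, by rw [orderOf_units, hu]⟩
      have hω1 : ω ^ k = 1 := by rw [← hω]; exact pow_orderOf_eq_one ω
      have hω0 : ω ≠ 0 := by
        rintro rfl
        rw [zero_pow hk.ne_zero] at hω1
        exact zero_ne_one hω1
      have hωn1 : ω ≠ 1 := by
        rintro rfl
        rw [orderOf_one] at hω
        omega
      let d : Fin k → F := fun j => if (j : ℕ) = 0 then ω else if (j : ℕ) = 1 then ω⁻¹ else 1
      have hdet : (Matrix.diagonal d).det = 1 := by
        obtain ⟨k', hk'⟩ : ∃ k', k = k' + 2 := ⟨k - 2, by omega⟩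
        clear_value i
        subst hk'
        rw [Matrix.det_diagonal, Fin.prod_univ_succ, Fin.prod_univ_succ]
        simp [d, hω0]
      let x : Matrix.SpecialLinearGroup (Fin k) F := ⟨Matrix.diagonal d, hdet⟩
      have hdk : ∀ j, d j ^ k = 1 := by
        intro j
        simp only [d]
        split_ifs
        · exact hω1
        · rw [inv_pow, hω1, inv_one]
        · exact one_pow k
      have htlx : ∀ v j, tl x v j = d j * v j := by
        intro v j
        change ((Matrix.diagonal d).mulVec v) j = _
        rw [Matrix.mulVec_diagonal]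
      have hxk : (tl x) ^ k = 1 := by
        have : ((x ^ k : Matrix.SpecialLinearGroup (Fin k) F) : Matrix (Fin k) (Fin k) F) = (1 : F) • (1 : Matrix (Fin k) (Fin k) F) := by
          rw [Matrix.SpecialLinearGroup.coe_pow, one_smul]
          change (Matrix.diagonal d) ^ k = 1
          rw [Matrix.diagonal_pow, ← Matrix.diagonal_one]
          congr 1
          funext j
          exact hdk j
        rw [tl_pow, (tl_eq_smul_iff _ _).mpr this, one_smul]
      have hmem : ∀ j : Fin k, 2 ≤ (j : ℕ) → (Pi.single j 1 : Fin k → F) ∈ E (tl x) 1 := by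
        intro j hj
        rw [Module.End.mem_eigenspace_iff, one_smul]
        funext l
        rw [htlx]
        by_cases hl : l = j
        · subst hl
          have : d l = 1 := by
            simp only [d]; rw [if_neg (by omega), if_neg (by omega)]
          rw [this, one_mul]
        · simp [hl]
      have hle := key x hxk (fun z hz => by
        have h1 := congrArg (fun f : Module.End F (Fin k → F) => f (Pi.single ⟨0, by omega⟩ 1) ⟨0, by omega⟩) hz
        have h2 := congrArg (fun f : Module.End F (Fin k → F) => f (Pi.single ⟨2, by omega⟩ 1) ⟨2, by omega⟩) hz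
        simp only [htlx] at h1 h2
        simp [d] at h1 h2
        exact hωn1 (by rw [h1, ← h2]))
      have := two_le_of_singles (U := E (tl x) 1) (i := ⟨2, by omega⟩) (j := ⟨3, by omega⟩) (by simp)
        (hmem _ le_rfl) (hmem _ (by simp))
      omega
    · have hi2 : 2 ≤ i := by omega
      have hik := Nat.le_of_dvd (by omega) hidvd
      obtain ⟨x, g, -, -, hxr, -, hss, hty⟩ := exists_typeB (F := F) (n := k) (s := 1) (k := k - i) hnp hi2 (by omega)
      have hle := key x hxr (fun z => nonscalar_of_ty hss hi2 hty one_pos z)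
      have h1 := hty.fin_e
      rw [top_inf_eq] at h1
      omega
  · intro hi x hx hxn
    obtain ⟨z, hz⟩ := hx
    have hi3 : 3 ≤ i := by omega
    have hkq : ¬ k ∣ Fintype.card F - 1 := by
      intro h
      have := (orderOf_eq_one_iff (Fintype.card_pos (α := F))).mpr h
      omega
    have hTz : (tl x) ^ k = z • (1 : Module.End F (Fin k → F)) := by
      rw [tl_pow, tl_eq_smul_iff, hz]
    have hcopq : (Nat.card Fˣ).Coprime k := by
      rw [Nat.card_eq_fintype_card, Fintype.card_units]
      exact ((Nat.Prime.coprime_iff_not_dvd hk).mpr hkq).symm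
    have hz0 : z ≠ 0 := by
      rintro rfl
      have h1 := (x ^ k).2
      rw [hz, zero_smul, Matrix.det_zero] at h1
      exact zero_ne_one h1
    -- z = 1
    have hdet : z ^ k = 1 := by
      have h1 := congrArg LinearMap.det hTz
      rw [map_pow, det_tl, one_pow, LinearMap.det_smul, LinearMap.det.map_one, mul_one] at h1
      simpa using h1.symm
    have hz1 : z = 1 := by
      have h1 : (Units.mk0 z hz0) ^ k = 1 := by ext; simpa using hdet
      have h2 : orderOf (Units.mk0 z hz0) ∣ k := orderOf_dvd_of_pow_eq_one h1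
      have h3 : orderOf (Units.mk0 z hz0) ∣ Nat.card Fˣ := orderOf_dvd_natCard _
      have h4 := Nat.eq_one_of_dvd_coprimes hcopq h3 h2
      rw [_root_.orderOf_eq_one_iff] at h4
      have := congrArg Units.val h4
      simpa using this
    have hT1 : (tl x) ^ k = 1 := by rw [hTz, hz1, one_smul]
    have hTn : ∀ z : F, tl x ≠ z • (1 : Module.End F (Fin k → F)) := fun z h => hxn z ((tl_eq_smul_iff x z).mp h)
    -- irreducibility
    have hirr : Irreducible (cyclotomic k F) := irr_cyclotomic hnp (by rw [← hidef, hi])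
    obtain ⟨φ, hφN, hφk, hφn⟩ := exists_frob (rhoK K) hfK (by simp; omega)
    rw [show finrank F (Fin k → F) = k by simp] at hφk
    obtain ⟨v, hv⟩ := exists_cyc_irred hk (by omega) hirr hkF0 (by simp) hT1 (fun h => hTn 1 (by rw [h, one_smul]))
    obtain ⟨w, hw⟩ := exists_cyc_irred hk (by omega) hirr hkF0 (by simp) hφk (fun h => hφn 1 (by rw [h, one_smul]))
    obtain ⟨g, hg⟩ := exists_conj_cyc hk.pos (by simp) hφk hT1 hw hv
    have hss : ∃ y a, SS (tl x) y a := by
      rcases structure_of (p := p) (r := k) hnp x z hz hk.pos with ⟨y, -, -, hss⟩ | ⟨-, hss, -⟩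
      · exact ⟨y, _, hss⟩
      · exact ⟨_, _, hss⟩
    obtain ⟨y, a, hss⟩ := hss
    obtain ⟨P, hP⟩ := exists_conj_eq (x := x) g hg (fun δ _ => Cfsg.Agent.Lib.FieldComm.SS.exists_comm_full hss δ)
    refine ⟨P, mem_NSub_iff.mpr ?_⟩
    rw [hP]
    exact hφN

end Cfsg.Agent.S5970
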