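import Cfsg.Statements.S5971
import Cfsg.Agent.Lib.ExtField4
import Cfsg.Agent.Lib.FieldComm
import Cfsg.Agent.Lib.ElusiveUni
import Cfsg.Agent.Lib.ClSLn

set_option autoImplicit false
open scoped MatrixGroups
open Cfsg

namespace Cfsg.Agent.S5971

open Cfsg.Agent.Lib.AltSim Cfsg.Agent.Lib.ElusiveLin Cfsg.Agent.Lib.ExtField Cfsg.Agent.Lib.PrimeOrd Cfsg.Agent.Lib.InvSub Module Polynomial
  Cfsg.Agent.Lib.JordanNil Cfsg.Agent.Lib.ElusiveUni

lemma no_nine {q : ℕ} (h : q % 9 = 2 ∨ q % 9 = 5) : ¬ 9 ∣ q ^ 3 * ((q ^ 2 - 1) * (q ^ 3 - 1)) := by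
  have hq : q = 9 * (q / 9) + q % 9 := (Nat.div_add_mod q 9).symm
  set m := q / 9
  intro hd
  rcases h with h | h <;> rw [h] at hq <;> rw [hq] at hd
  · have h1 : (9 * m + 2) ^ 2 - 1 = 9 * (9 * m ^ 2 + 4 * m) + 3 := by
      rw [show (9 * m + 2) ^ 2 = 9 * (9 * m ^ 2 + 4 * m) + 3 + 1 from by ring]; rfl
    have h2 : (9 * m + 2) ^ 3 - 1 = 9 * (81 * m ^ 3 + 54 * m ^ 2 + 12 * m) + 7 := by
      rw [show (9 * m + 2) ^ 3 = 9 * (81 * m ^ 3 + 54 * m ^ 2 + 12 * m) + 7 + 1 from by ring]; rfl
    have h3 : (9 * m + 2) ^ 3 = 9 * (81 * m ^ 3 + 54 * m ^ 2 + 12 * m) + 8 := by ring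
    rw [h1, h2, h3] at hd
    generalize 81 * m ^ 3 + 54 * m ^ 2 + 12 * m = a at hd
    generalize 9 * m ^ 2 + 4 * m = b at hd
    have h4 : (9 * a + 8) * ((9 * b + 3) * (9 * a + 7)) = 9 * (81 * a * a * b + 27 * a * a + 135 * a * b + 45 * a + 56 * b + 18) + 6 := by ring
    rw [h4] at hd
    omega
  · have h1 : (9 * m + 5) ^ 2 - 1 = 9 * (9 * m ^ 2 + 10 * m + 2) + 6 := by
      rw [show (9 * m + 5) ^ 2 = 9 * (9 * m ^ 2 + 10 * m + 2) + 6 + 1 from by ring]; rfl
    have h2 : (9 * m + 5) ^ 3 - 1 = 9 * (81 * m ^ 3 + 135 * m ^ 2 + 75 * m + 13) + 7 := by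
      rw [show (9 * m + 5) ^ 3 = 9 * (81 * m ^ 3 + 135 * m ^ 2 + 75 * m + 13) + 7 + 1 from by ring]; rfl
    have h3 : (9 * m + 5) ^ 3 = 9 * (81 * m ^ 3 + 135 * m ^ 2 + 75 * m + 13) + 8 := by ring
    rw [h1, h2, h3] at hd
    generalize 81 * m ^ 3 + 135 * m ^ 2 + 75 * m + 13 = a at hd
    generalize 9 * m ^ 2 + 10 * m + 2 = b at hd
    have h4 : (9 * a + 8) * ((9 * b + 6) * (9 * a + 7)) = 9 * (81 * a * a * b + 54 * a * a + 135 * a * b + 90 * a + 56 * b + 37) + 3 := by ring
    rw [h4] at hd
    omega

lemma ord_two : orderOf (2 : ZMod 3) = 2 := orderOf_eq_prime (by decide) (by decide)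

/-- Elements of order 3 of PSL_3(q) and the normalizer of a Singer cycle. Here `T = PSL_n(F)` for a field `F` with `q = p^f` elements (`n ≥ 2`, `(n, q) ≠ (2, 2), (2, 3)`), `k` is a prime dividing `n`, `K` is a subalgebra of the `n × n` matrices that is a field of degree `k` over `F` (an extension-field structure F_{q^k} on `F^n`), and `H` is the subgroup of matrices of determinant 1 normalizing `K` — a subgroup of type GL_{n/k}(q^k) (maximal except in some small cases; maximality is not assumed); Ω is the set of cosets of `H` in `T`, so an element of `T` of prime order `r` (a matrix `x` of determinant 1 with `x^r` scalar, `x` not scalar) fixes a point of Ω when some conjugate of `x` by a matrix of determinant 1 normalizes `K`. Take `n = k = 3` and suppose 3 divides the index of `H`. Then every element of `T` of order 3 is conjugate in `T` into `H` if and only if `q ≡ 4, 7` or `8 (mod 9)`. -/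
theorem result {F : Type*} [Field F] [Fintype F] {p : ℕ} [Fact p.Prime] [CharP F p] {q : ℕ} (hq : Fintype.card F = q)
    (n : ℕ) (hn : n = 3) (k : ℕ) (hk : k.Prime) (hkn : k ∣ n) (K : Subalgebra F (Matrix (Fin n) (Fin n) F)) (hK : Cfsg.Geo.IsFieldSubalgebra k K) (hk3 : k = 3) (hΩ : 3 ∣ ((Cfsg.Geo.subalgebraNormalizer K).comap (Matrix.SpecialLinearGroup.toGL : Matrix.SpecialLinearGroup (Fin n) F →* GL (Fin n) F)).index) :
    (∀ x : Matrix.SpecialLinearGroup (Fin n) F,
      (∃ z : F, ((x ^ 3 : Matrix.SpecialLinearGroup (Fin n) F) : Matrix (Fin n) (Fin n) F) = z • (1 : Matrix (Fin n) (Fin n) F)) →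
      (∀ z : F, (x : Matrix (Fin n) (Fin n) F) ≠ z • (1 : Matrix (Fin n) (Fin n) F)) →
      ∃ P : Matrix.SpecialLinearGroup (Fin n) F, P⁻¹ * x * P ∈ ((Cfsg.Geo.subalgebraNormalizer K).comap (Matrix.SpecialLinearGroup.toGL : Matrix.SpecialLinearGroup (Fin n) F →* GL (Fin n) F))) ↔
    (q % 9 = 4 ∨ q % 9 = 7 ∨ q % 9 = 8) := by
  classical
  subst hq
  subst hn
  subst hk3
  have hkF : Fact (Nat.Prime 3) := ⟨Nat.prime_three⟩
  have hk : (3 : ℕ).Prime := Nat.prime_three
  have hp : p.Prime := Fact.out
  have hne : Nonempty (Fin 3) := ⟨⟨0, by omega⟩⟩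
  have hntV : Nontrivial (Fin 3 → F) := inferInstance
  let _ : Field K := (isField_of hK).toField
  have hfK : finrank F K = finrank F (Fin 3 → F) := by rw [hK.finrank_eq]; simp
  have hpK : (finrank F K).Prime := by rw [hK.finrank_eq]; exact hk
  have hfinM : Finite (Matrix (Fin 3) (Fin 3) F) := inferInstanceAs (Finite (Fin 3 → Fin 3 → F))
  have hfinK : Finite K := Finite.of_injective (fun a : K => (a : Matrix (Fin 3) (Fin 3) F)) Subtype.coe_injective
  have hq1 : 1 < Fintype.card F := Fintype.one_lt_card
  obtain ⟨e, -, hce⟩ := FiniteField.card F p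
  have hi2 : ∀ (h : Fintype.card F % 3 = 2), orderOf ((Fintype.card F : ℕ) : ZMod 3) = 2 := by
    intro h
    have h1 : ((Fintype.card F : ℕ) : ZMod 3) = 2 := by
      rw [← ZMod.natCast_mod, h]; rfl
    rw [h1]
    exact ord_two
  constructor
  · intro h
    have key : ∀ x : Matrix.SpecialLinearGroup (Fin 3) F, ∀ z : F, (tl x) ^ 3 = z • (1 : Module.End F (Fin 3 → F)) →
        (∀ z : F, tl x ≠ z • (1 : Module.End F (Fin 3 → F))) → ∀ y : F, y ≠ 0 →
        finrank F (E (tl x) y) ≤ 1 := by
      intro x z hx hxn y hy
      obtain ⟨P, hP⟩ := h x ⟨z, by rw [← tl_eq_smul_iff, ← tl_pow, hx]⟩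
        (fun z hz => hxn z ((tl_eq_smul_iff x z).mpr hz))
      rw [← finrank_E_conj x P y]
      refine eigen_singer (rhoK K) hfK hpK (mem_NSub_iff.mp hP) ?_ hy
      intro c hc
      apply hxn c
      have h1 : (P⁻¹ * x * P : Matrix.SpecialLinearGroup (Fin 3) F) = (c • (1 : Matrix (Fin 3) (Fin 3) F)) :=
        (tl_eq_smul_iff _ c).mp hc
      rw [tl_eq_smul_iff]
      have hPP : (P : Matrix (Fin 3) (Fin 3) F) * ((P⁻¹ : Matrix.SpecialLinearGroup (Fin 3) F) : Matrix (Fin 3) (Fin 3) F) = 1 := by
        rw [← Matrix.SpecialLinearGroup.coe_mul, mul_inv_cancel, Matrix.SpecialLinearGroup.coe_one]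
      have h2 : x = P * (P⁻¹ * x * P) * P⁻¹ := by group
      rw [h2, Matrix.SpecialLinearGroup.coe_mul, Matrix.SpecialLinearGroup.coe_mul, h1, Matrix.mul_smul, Matrix.mul_one,
        Matrix.smul_mul, hPP]
    have hp3 : p ≠ 3 := by
      rintro rfl
      obtain ⟨x, N, hN, ht, hx, -, hxp⟩ := exists_unip (F := F) (n := 3) (p := 3) (μ := {2, 1})
        (fun a ha => by
          have : a = 2 ∨ a = 1 := by simpa using ha
          omega) (by simp)
      have hrk : finrank F (LinearMap.range N) = 1 := by
        have := ht.2 1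
        rw [← LinearMap.range_eq_map, pow_one] at this
        rw [this]
        simp
      have hker := LinearMap.finrank_range_add_finrank_ker N
      rw [hrk] at hker
      have h3 : finrank F (Fin 3 → F) = 3 := by simp
      rw [h3] at hker
      have hN0 : N ≠ 0 := by
        rintro rfl
        rw [LinearMap.range_zero, finrank_bot] at hrk
        omega
      have hle := key x 1 (by rw [hxp, one_smul]) (fun z => by rw [hx]; exact not_smul_of_nil hN hN0 z) 1 one_ne_zero
      have hE : E (tl x) 1 = LinearMap.ker N := by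
        ext v
        rw [Module.End.mem_eigenspace_iff, one_smul, hx, LinearMap.add_apply, LinearMap.mem_ker, Module.End.one_apply]
        constructor
        · intro h; exact add_eq_left.mp h
        · intro h; rw [h, add_zero]
      rw [hE] at hle
      omega
    have hq3 : ¬ 3 ∣ Fintype.card F := by
      rw [hce]
      intro h
      exact hp3 ((Nat.prime_dvd_prime_iff_eq hk hp).mp (hk.dvd_of_dvd_pow h)).symm
    have hn9 : ¬ Fintype.card F % 9 = 1 := by
      intro h9
      obtain ⟨g, hg⟩ := IsCyclic.exists_generator (α := Fˣ)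
      have hord : orderOf g = Fintype.card F - 1 := by
        rw [orderOf_eq_card_of_forall_mem_zpowers hg, Nat.card_eq_fintype_card, Fintype.card_units]
      have hb : orderOf (g ^ (orderOf g / 9)) = 9 :=
        orderOf_pow_orderOf_div (by rw [hord]; omega) (by rw [hord]; omega)
      set b := g ^ (orderOf g / 9)
      have hb9 : (b : F) ^ 9 = 1 := by
        have := pow_orderOf_eq_one b
        rw [hb] at this
        have := congrArg Units.val this
        simpa using this
      have hb3 : (b : F) ^ 3 ≠ 1 := by
        intro h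
        have h1 : b ^ 3 = 1 := by ext; simpa using h
        have := orderOf_dvd_of_pow_eq_one h1
        rw [hb] at this
        have := Nat.le_of_dvd (by norm_num) this
        omega
      have hb0 : (b : F) ≠ 0 := b.ne_zero
      let d : Fin 3 → F := ![b, b, ((b : F)⁻¹) ^ 2]
      have hdet : (Matrix.diagonal d).det = 1 := by
        rw [Matrix.det_diagonal, Fin.prod_univ_three]
        simp only [d, Matrix.cons_val_zero, Matrix.cons_val_one, Matrix.cons_val_two, Matrix.tail_cons, Matrix.head_cons]
        field_simp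
      let x : Matrix.SpecialLinearGroup (Fin 3) F := ⟨Matrix.diagonal d, hdet⟩
      have htlx : ∀ v j, tl x v j = d j * v j := by
        intro v j
        change ((Matrix.diagonal d).mulVec v) j = _
        rw [Matrix.mulVec_diagonal]
      have hd3 : ∀ j, d j ^ 3 = (b : F) ^ 3 := by
        intro j
        fin_cases j
        · rfl
        · rfl
        · change (((b : F)⁻¹) ^ 2) ^ 3 = (b : F) ^ 3
          field_simp
          exact hb9.symm
      have hxk : (tl x) ^ 3 = ((b : F) ^ 3) • (1 : Module.End F (Fin 3 → F)) := by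
        rw [tl_pow, tl_eq_smul_iff, Matrix.SpecialLinearGroup.coe_pow]
        change (Matrix.diagonal d) ^ 3 = _
        rw [Matrix.diagonal_pow, Matrix.smul_one_eq_diagonal]
        congr 1
        funext j
        exact hd3 j
      have hmem : ∀ j : Fin 3, (j : ℕ) < 2 → (Pi.single j 1 : Fin 3 → F) ∈ E (tl x) b := by
        intro j hj
        rw [Module.End.mem_eigenspace_iff]
        funext l
        rw [htlx]
        by_cases hl : l = j
        · subst hl
          have : d l = b := by
            fin_cases l
            · rfl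
            · rfl
            · simp at hj
          rw [this]; rfl
        · simp [hl]
      have hle := key x _ hxk (fun z hz => by
        have h1 := congrArg (fun f : Module.End F (Fin 3 → F) => f (Pi.single 0 1) 0) hz
        have h2 := congrArg (fun f : Module.End F (Fin 3 → F) => f (Pi.single 2 1) 2) hz
        simp only [htlx] at h1 h2
        simp [d] at h1 h2
        apply hb3
        rw [← h2] at h1
        field_simp at h1
        rw [← h1]) (b : F) hb0
      have := two_le_of_singles (U := E (tl x) b) (i := 0) (j := 1) (by simp) (hmem _ (by simp)) (hmem _ (by simp))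
      omega
    by_contra hcon
    have h25 : Fintype.card F % 9 = 2 ∨ Fintype.card F % 9 = 5 := by omega
    have hord := hi2 (by omega)
    obtain ⟨x, g, -, -, hxr, -, hss, hty⟩ := exists_typeB (F := F) (n := 3) (s := 1) (k := 1) (r := 3) (Ne.symm hp3)
      (by rw [hord]) (by rw [hord])
    have hxn := fun z => nonscalar_of_ty hss (by rw [hord]) hty one_pos z
    obtain ⟨P, hP⟩ := h x ⟨1, by rw [← tl_eq_smul_iff, ← tl_pow, hxr, one_smul]⟩ (fun z hz => hxn z ((tl_eq_smul_iff x z).mpr hz))
    have h3H : 3 ∣ Nat.card (NSub K) := by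
      have h1 : orderOf (⟨P⁻¹ * x * P, hP⟩ : NSub K) = 3 := by
        rw [Subgroup.orderOf_mk]
        apply orderOf_eq_prime
        · have h2 : x ^ 3 = 1 := by
            apply Subtype.ext
            have := (tl_eq_smul_iff (x ^ 3) 1).mp (by rw [← tl_pow, hxr, one_smul])
            rw [this, one_smul]; rfl
          have h3 : (P⁻¹ * x * P) ^ 3 = P⁻¹ * x ^ 3 * P := by
            rw [pow_succ, pow_two, pow_succ x, pow_two]; group
          rw [h3, h2]; group
        · intro h2
          have h3 : x = 1 := by
            have : x = P * (P⁻¹ * x * P) * P⁻¹ := by group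
            rw [this, h2]; group
          exact hxn 1 (by rw [h3, tl_one, one_smul])
      have h2 := orderOf_dvd_natCard (⟨P⁻¹ * x * P, hP⟩ : NSub K)
      rw [h1] at h2
      exact h2
    have h9 : 9 ∣ Nat.card (Matrix.SpecialLinearGroup (Fin 3) F) := by
      rw [← (NSub K).index_mul_card]
      exact mul_dvd_mul hΩ h3H
    have h4 := Cfsg.Agent.Lib.ClSLn.card_SL_formula (F := F) rfl 3 (by norm_num)
    rw [show 3 * (3 - 1) / 2 = 3 from rfl, Finset.prod_range_succ, Finset.prod_range_succ, Finset.prod_range_one] at h4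
    have h5 : Nat.card (Matrix.SpecialLinearGroup (Fin 3) F) = Fintype.card F ^ 3 * ((Fintype.card F ^ 2 - 1) * (Fintype.card F ^ 3 - 1)) := by
      apply Nat.eq_of_mul_eq_mul_left (show 0 < Fintype.card F - 1 by omega)
      rw [h4, zero_add, pow_one]
      ring
    rw [h5] at h9
    exact no_nine h25 h9
  · intro hq x hx hxn
    obtain ⟨z, hz⟩ := hx
    have hp3 : p ≠ 3 := by
      rintro rfl
      have : 3 ∣ Fintype.card F := by rw [hce]; exact dvd_pow_self 3 e.2.ne'
      omega
    have h3F : ((3 : ℕ) : F) ≠ 0 := cast_ne_zero (F := F) (p := p) (Ne.symm hp3)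
    have hTz : (tl x) ^ 3 = z • (1 : Module.End F (Fin 3 → F)) := by
      rw [tl_pow, tl_eq_smul_iff, hz]
    have hTn : ∀ z : F, tl x ≠ z • (1 : Module.End F (Fin 3 → F)) := fun z h => hxn z ((tl_eq_smul_iff x z).mp h)
    have hdet : z ^ 3 = 1 := by
      have h1 := congrArg LinearMap.det hTz
      rw [map_pow, det_tl, one_pow, LinearMap.det_smul, LinearMap.det.map_one, mul_one] at h1
      simpa using h1.symm
    obtain ⟨φ, hφN, hφk, hφn⟩ := exists_frob (rhoK K) hfK (by simp)
    rw [show finrank F (Fin 3 → F) = 3 by simp] at hφk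
    have hst := structure_of (p := p) (r := 3) (Ne.symm hp3) x z hz (by norm_num)
    have hss : ∃ y a, SS (tl x) y a := by
      rcases hst with ⟨y, -, -, hss⟩ | ⟨-, hss, -⟩
      · exact ⟨y, _, hss⟩
      · exact ⟨_, _, hss⟩
    obtain ⟨y', a', hss⟩ := hss
    have main : ∃ v w, Cyc (tl x) 3 v ∧ Cyc φ 3 w ∧ (tl x) ^ 3 = 1 := by
      by_cases hq3 : Fintype.card F % 3 = 2
      · have hord := hi2 hq3
        have hirr : Irreducible (cyclotomic 3 F) := irr_cyclotomic (p := p) (Ne.symm hp3) hord
        have hz1 : z = 1 := by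
          have hz0 : z ≠ 0 := by rintro rfl; norm_num at hdet
          have h1 : (Units.mk0 z hz0) ^ 3 = 1 := by ext; simpa using hdet
          have h2 : orderOf (Units.mk0 z hz0) ∣ 3 := orderOf_dvd_of_pow_eq_one h1
          have h3 : orderOf (Units.mk0 z hz0) ∣ Nat.card Fˣ := orderOf_dvd_natCard _
          have hcopq : (Nat.card Fˣ).Coprime 3 := by
            rw [Nat.card_eq_fintype_card, Fintype.card_units]
            exact ((Nat.Prime.coprime_iff_not_dvd hk).mpr (by omega)).symm
          have h4 := Nat.eq_one_of_dvd_coprimes hcopq h3 h2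
          rw [_root_.orderOf_eq_one_iff] at h4
          have := congrArg Units.val h4
          simpa using this
        have hT1 : (tl x) ^ 3 = 1 := by rw [hTz, hz1, one_smul]
        obtain ⟨v, hv⟩ := exists_cyc_irred hk (by omega) hirr h3F (by simp) hT1 (fun h => hTn 1 (by rw [h, one_smul]))
        obtain ⟨w, hw⟩ := exists_cyc_irred hk (by omega) hirr h3F (by simp) hφk (fun h => hφn 1 (by rw [h, one_smul]))
        exact ⟨v, w, hv, hw, hT1⟩
      · have hq31 : 3 ∣ Fintype.card F - 1 := by omega
        have hi1 : orderOf ((Fintype.card F : ℕ) : ZMod 3) = 1 := (orderOf_eq_one_iff (Fintype.card_pos (α := F))).mpr hq31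
        have h9 : ∀ y : F, y ^ 9 = 1 → y ^ 3 = 1 := by
          intro y hy
          have hy0 : y ≠ 0 := by rintro rfl; norm_num at hy
          have h1 : orderOf y ∣ 9 := orderOf_dvd_of_pow_eq_one hy
          have h2 : orderOf y ∣ Fintype.card F - 1 := orderOf_dvd_of_pow_eq_one (FiniteField.pow_card_sub_one_eq_one y hy0)
          have h3 : orderOf y ∣ 3 ^ 2 := h1
          obtain ⟨j, hj, hj'⟩ := (Nat.dvd_prime_pow hk).mp h3
          have hj1 : j ≤ 1 := by
            by_contra hcon
            have : j = 2 := by omega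
            rw [hj', this] at h2
            omega
          apply orderOf_dvd_iff_pow_eq_one.mp
          rw [hj']
          exact (Nat.pow_dvd_pow 3 hj1)
        have hz1 : z = 1 := by
          rcases hst with ⟨y, hy0, hyz, -⟩ | ⟨hnp, -, -, k', hk', hn, hdet'⟩
          · rw [← hyz]
            apply h9
            rw [show 9 = 3 * 3 from rfl, pow_mul, hyz, hdet]
          · exfalso
            have hk1 : k' = 1 := by omega
            rw [hk1, pow_one] at hdet'
            apply hnp 1
            rw [one_pow, ← hdet']; ring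
        have hT1 : (tl x) ^ 3 = 1 := by rw [hTz, hz1, one_smul]
        obtain ⟨ω, hω⟩ : ∃ ω : F, orderOf ω = 3 := by
          have h1 : 3 ∣ Nat.card Fˣ := by
            rw [Nat.card_eq_fintype_card, Fintype.card_units]; exact hq31
          obtain ⟨u, hu⟩ := exists_prime_orderOf_dvd_card' 3 h1
          exact ⟨u, by rw [orderOf_units, hu]⟩
        have hω3 : ω ^ 3 = 1 := by rw [← hω]; exact pow_orderOf_eq_one ω
        have hω1 : ω ≠ 1 := by
          rintro rfl
          rw [orderOf_one] at hω
          omega
        have hωeq : ω ^ 2 + ω + 1 = 0 := by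
          have : (ω - 1) * (ω ^ 2 + ω + 1) = 0 := by linear_combination hω3
          exact (mul_eq_zero.mp this).resolve_left (sub_ne_zero.mpr hω1)
        have hE : ∀ c : F, c ≠ 0 → finrank F (E (tl x) c) ≤ 1 := by
          intro c hc
          by_contra hcon
          push Not at hcon
          have hEinv : Inv (tl x) (E (tl x) c) := inv_of_le_E le_rfl
          obtain ⟨W, hW, hEW⟩ := hss.compl _ hEinv
          have hsum := Submodule.finrank_add_eq_of_isCompl hEW
          rw [show finrank F (Fin 3 → F) = 3 by simp] at hsum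
          have hc3 : c ^ 3 = 1 := by
            have hne : E (tl x) c ≠ ⊥ := by
              intro h; rw [h, finrank_bot] at hcon; omega
            obtain ⟨v, hv, hv0⟩ := Submodule.exists_mem_ne_zero_of_ne_bot hne
            have hv' := Module.End.mem_eigenspace_iff.mp hv
            have h1 : (tl x ^ 3) v = c ^ 3 • v := by
              rw [pow_succ, pow_two, Module.End.mul_apply, Module.End.mul_apply, hv', map_smul, map_smul, hv', map_smul, hv',
                smul_smul, smul_smul]
              congr 1; ring
            rw [hT1] at h1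
            have h2 : (c ^ 3 - 1) • v = 0 := by
              rw [sub_smul, ← h1, one_smul]; exact sub_self _
            exact sub_eq_zero.mp ((smul_eq_zero.mp h2).resolve_right hv0)
          have hdE := det_isCompl hEW hEinv hW
          rw [det_tl] at hdE
          have hres : (tl x).restrict hEinv = c • (1 : Module.End F (E (tl x) c)) := by
            apply LinearMap.ext
            intro v
            apply Subtype.ext
            exact Module.End.mem_eigenspace_iff.mp v.2
          have hWe : ∃ e' : F, (tl x).restrict hW = e' • (1 : Module.End F W) := by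
            rcases Nat.eq_zero_or_pos (finrank F W) with h0 | h0
            · refine ⟨1, ?_⟩
              have hsub : Subsingleton W := Module.finrank_zero_iff.mp h0
              apply LinearMap.ext; intro v; exact Subsingleton.elim _ _
            · have h1 : finrank F W = 1 := by omega
              obtain ⟨u, hu0, hu⟩ := finrank_eq_one_iff'.mp h1
              obtain ⟨e', he'⟩ := hu ((tl x).restrict hW u)
              refine ⟨e', ?_⟩
              apply LinearMap.ext
              intro v
              obtain ⟨t, rfl⟩ := hu v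
              rw [map_smul, ← he', LinearMap.smul_apply, Module.End.one_apply, smul_comm]
          obtain ⟨e', hWe⟩ := hWe
          rw [hres, hWe, LinearMap.det_smul, LinearMap.det_smul, LinearMap.det.map_one, LinearMap.det.map_one, mul_one, mul_one] at hdE
          -- T = c
          have hall : ∀ v ∈ W, tl x v = c • v := by
            have hcase : finrank F (E (tl x) c) = 3 ∨ finrank F (E (tl x) c) = 2 := by omega
            rcases hcase with h3 | h2
            · intro v hv
              have h0 : finrank F W = 0 := by omega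
              have hsub : Subsingleton W := Module.finrank_zero_iff.mp h0
              have : (⟨v, hv⟩ : W) = 0 := Subsingleton.elim _ _
              have : v = 0 := congrArg Subtype.val this
              rw [this, map_zero, smul_zero]
            · have hW1 : finrank F W = 1 := by omega
              rw [h2, hW1, pow_one] at hdE
              have hce' : e' = c := by linear_combination (-c) * hdE - e' * hc3
              intro v hv
              have := congrArg (fun f : Module.End F W => ((f ⟨v, hv⟩ : W) : Fin 3 → F)) hWe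
              rw [hce'] at this
              exact this
          apply hTn c
          apply LinearMap.ext
          intro v
          have hv : v ∈ E (tl x) c ⊔ W := by rw [hEW.sup_eq_top]; trivial
          obtain ⟨a, ha, b, hb, rfl⟩ := Submodule.mem_sup.mp hv
          rw [map_add, Module.End.mem_eigenspace_iff.mp ha, hall b hb, LinearMap.smul_apply, Module.End.one_apply, smul_add]
        have h3F' : (3 : F) ≠ 0 := by exact_mod_cast h3F
        obtain ⟨v, hv⟩ := exists_cyc_three hωeq h3F' (by simp) hT1 hE
        obtain ⟨w, hw⟩ := exists_cyc_three hωeq h3F' (by simp) hφk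
          (fun y hy => eigen_singer (rhoK K) hfK hpK hφN hφn hy)
        exact ⟨v, w, hv, hw, hT1⟩
    obtain ⟨v, w, hv, hw, hT1⟩ := main
    obtain ⟨g, hg⟩ := exists_conj_cyc (r := 3) (by norm_num) (by simp) hφk hT1 hw hv
    obtain ⟨P, hP⟩ := exists_conj_eq (x := x) g hg (fun δ _ => Cfsg.Agent.Lib.FieldComm.SS.exists_comm_full hss δ)
    refine ⟨P, mem_NSub_iff.mpr ?_⟩
    rw [hP]
    exact hφN

end Cfsg.Agent.S5971
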