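import Cfsg.Statements.S5972
import Cfsg.Agent.Lib.OrthTSG67
import Cfsg.Agent.Lib.QuadForms

set_option autoImplicit false
open scoped MatrixGroups
open Cfsg

namespace Cfsg.Agent.S5972

open QuadraticMap Module Cfsg.Agent.Lib.Quad Cfsg.Agent.Lib.QuadD67 Cfsg.Agent.Lib.QuadEmb67 Cfsg.Agent.Lib.OrthR67
open Cfsg.Agent.Lib.InvSub Cfsg.Agent.Lib.PrimeOrd in
/-- Elements of prime order of Ω_n(q), n = 2d+1 ≥ 7, q odd, with no fixed totally singular `m`-space. Here `T = Ω_n(q)` is realised as the commutator subgroup of the isometry group of the quadratic form `x₀² + Σ xᵢyᵢ` over the field `F` with `q` elements (it has trivial centre, so its elements of prime order `r` are used directly); let `1 ≤ m ≤ d` and let `r` be a prime dividing the number of totally singular `m`-spaces. For `r ≠ p` let `i` be the multiplicative order of `q` modulo `r`, `c = i` for `i` even and `c = 2i` for `i` odd, and write `k = n mod c`, `ℓ = m mod i`,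 `n' = ⌊n/i⌋`, `m' = ⌊m/i⌋`, `t = (r−1)/i`. Then every element of `T` of order `r` fixes some totally singular `m`-space if and only if either (i) `r = 2` and (`m < (n−1)/2` or `q ≡ 1 (mod 4)`); or (ii) `r ≠ p` is odd, `i ≤ m`, `k > 2ℓ`, and (`i` is odd or `n' − 2m' ≥ t`). -/
theorem result {F : Type*} [Field F] [Fintype F] {p : ℕ} [Fact p.Prime] [CharP F p] {q : ℕ} (hq : Fintype.card F = q) (hqodd : Odd q)
    (d m : ℕ) (hd : 3 ≤ d) (hm : 1 ≤ m) (hmd : m ≤ d)
    (r : ℕ) [Fact r.Prime]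
    (hrΩ : r ∣ Nat.card {W : Submodule F (Unit ⊕ (Fin d ⊕ Fin d) → F) // Module.finrank F ↥W = m ∧ (∀ w ∈ W, Cfsg.quadFormOdd d F w = 0)})
    (i c : ℕ) (hi : i = orderOf (q : ZMod r)) (hc : c = if Even i then i else 2 * i) :
    (∀ x : GL (Unit ⊕ (Fin d ⊕ Fin d)) F, x ∈ Cfsg.Geo.omegaGL (Cfsg.quadFormOdd d F) → orderOf x = r →
      ∃ W : Submodule F (Unit ⊕ (Fin d ⊕ Fin d) → F), Module.finrank F ↥W = m ∧ (∀ w ∈ W, Cfsg.quadFormOdd d F w = 0) ∧
        W.map (Matrix.toLin' (x : Matrix (Unit ⊕ (Fin d ⊕ Fin d)) (Unit ⊕ (Fin d ⊕ Fin d)) F)) ≤ W) ↔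
    ((r = 2 ∧ (m < d ∨ q % 4 = 1)) ∨
     (r ≠ p ∧ 2 < r ∧ i ≤ m ∧ 2 * (m % i) < (2 * d + 1) % c ∧ (Odd i ∨ (r - 1) / i + 2 * (m / i) ≤ (2 * d + 1) / i))) := by
  have hr : r.Prime := Fact.out
  have h2 : (2 : F) ≠ 0 := two_ne_zero_of_odd hq hqodd
  have hQ : Nd (quadOdd d F) := nd_quadOdd h2
  have hfr : finrank F (Unit ⊕ (Fin d ⊕ Fin d) → F) = 2 * d + 1 := finrank_odd
  have hgen : GenHyp (quadOdd d F) := genHyp_of_card (Or.inr (by rw [hfr]; omega))
  have hcardeq : Nat.card {W : Submodule F (Unit ⊕ (Fin d ⊕ Fin d) → F) // Module.finrank F ↥W = m ∧ (∀ w ∈ W, Cfsg.quadFormOdd d F w = 0)} =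
      Nat.card {W : Submodule F (Unit ⊕ (Fin d ⊕ Fin d) → F) // Ts (quadOdd d F) m W} :=
    Nat.card_congr (Equiv.subtypeEquivRight fun W => and_comm)
  rw [hcardeq] at hrΩ
  have hrp : r ≠ p := by
    rintro rfl
    exact not_dvd_card_ts (p := r) hQ (by omega) hrΩ
  have hne : (r : F) ≠ 0 := Cfsg.Agent.Lib.PrimeOrd.cast_ne_zero (p := p) hrp
  have e1 := keyO (quadOdd d F) (fun W => Ts (quadOdd d F) m W) hr
  rw [coe_quadOdd] at e1
  refine Iff.trans (forall_congr' fun x => forall_congr' fun _ => forall_congr' fun _ => exists_congr fun W => ?_) (e1.trans ?_)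
  · exact ⟨fun h => ⟨⟨h.2.1, h.1⟩, h.2.2⟩, fun h => ⟨h.1.2, h.1.1, h.2⟩⟩
  rcases hr.eq_two_or_odd' with rfl | ho
  · rw [two_ts_odd h2 hQ hgen (d := d) (by omega) hfr hmd, FiniteField.isSquare_neg_one_iff, hq]
    obtain ⟨k, hk⟩ := hqodd
    constructor
    · rintro (h | h)
      · exact Or.inl ⟨rfl, Or.inl h⟩
      · exact Or.inl ⟨rfl, Or.inr (by omega)⟩
    · rintro (⟨-, h | h⟩ | ⟨-, h, -⟩)
      · exact Or.inl h
      · exact Or.inr (by omega)
      · omega
  · have hr2 : 2 < r := by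
      have := hr.two_le
      rcases ho with ⟨k, hk⟩
      omega
    rw [redO hQ hgen ho, ts_main hQ hr ho hne (ε := 1) (by norm_num) (fun N hN => by omega) (i := i) (t := (r - 1) / i) (n := 2 * d + 1)
      (by rw [hi, hq]) rfl hfr (by omega) hrΩ]
    unfold TSok
    by_cases he : Even i
    · have hno : ¬ Odd i := by rwa [Nat.not_odd_iff_even]
      rw [if_pos he, hc, if_pos he]
      have hk1 : (2 * d + 1) % i % 2 = 1 := by
        obtain ⟨k, hk⟩ := he
        rw [Nat.mod_mod_of_dvd _ ⟨k, by omega⟩]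
        omega
      constructor
      · rintro ⟨h5, h6, ⟨h7, -⟩ | h7 | ⟨h7, -⟩⟩
        · omega
        · exact Or.inr ⟨hrp, hr2, h5, h7, Or.inr h6⟩
        · omega
      · rintro (⟨h5, -⟩ | ⟨-, -, h5, h6, h7 | h7⟩)
        · omega
        · exact absurd h7 hno
        · exact ⟨h5, h7, Or.inr (Or.inl h6)⟩
    · have ho' : Odd i := Nat.not_even_iff_odd.1 he
      rw [if_neg he, hc, if_neg he]
      have hk1 : (2 * d + 1) % (2 * i) % 2 = 1 := by
        rw [Nat.mod_mod_of_dvd _ ⟨i, rfl⟩]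
        omega
      constructor
      · rintro ⟨h5, ⟨h7, -⟩ | h7 | ⟨h7, -⟩⟩
        · omega
        · exact Or.inr ⟨hrp, hr2, h5, h7, Or.inl ho'⟩
        · omega
      · rintro (⟨h5, -⟩ | ⟨-, -, h5, h6, -⟩)
        · omega
        · exact ⟨h5, Or.inr (Or.inl h6)⟩

end Cfsg.Agent.S5972
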