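import Cfsg.Statements.S5973
import Cfsg.Agent.Lib.OrthTSG67
import Cfsg.Agent.Lib.QuadForms

set_option autoImplicit false
open scoped MatrixGroups
open Cfsg

namespace Cfsg.Agent.S5973

open QuadraticMap Module Cfsg.Agent.Lib.Quad Cfsg.Agent.Lib.QuadD67 Cfsg.Agent.Lib.QuadEmb67 Cfsg.Agent.Lib.OrthR67
open Cfsg.Agent.Lib.InvSub Cfsg.Agent.Lib.PrimeOrd in
/-- Elements of prime order of PΩ⁺_n(q), n = 2d ≥ 8, with no fixed totally singular `m`-space, `m < n/2`. Here `T = PΩ⁺_n(q)` is realised through `Ω⁺_n(q)`, the commutator subgroup of the isometry group of the quadratic form `Σ xᵢyᵢ` over the field `F` with `q` elements; an element of `T` of prime order `r` is an element `x` of `Ω⁺_n(q)` with `x^r` scalar and `x` not scalar. Let `1 ≤ m < d` and let `r` be a prime dividing the number of totally singular `m`-spaces. For `r ≠ p` let `i` be the multiplicative order of `q` modulo `r`, `c = i` for `i` even and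 `c = 2i` for `i` odd, and write `k = n mod c`, `ℓ = m mod i`, `n' = ⌊n/i⌋`, `m' = ⌊m/i⌋`, `t = (r−1)/i`. Then every element of `T` of order `r` fixes some totally singular `m`-space if and only if one of: (i) `r = 2 ≠ p` and either `q ≡ 1 (mod 4)`, or `q ≡ 3 (mod 4)`, `m ≤ n/2 − 2` and (`m` even or `n ≡ 2 (mod 4)`); (ii) `r ≠ p` odd, `i` odd, `i ≤ m` and `k ≥ 2ℓ`; (iii) `r ≠ p` odd, `i` even, `i ≤ m`, `n' − 2m' ≥ t`, and one of: `i ≥ 2ℓ`, `k = 0`, `n/i` odd and `n' − 2m' > t`; or `k ≥ 2ℓ` and `n'` even; or `k > 2ℓ` and `n'` odd. -/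
theorem result {F : Type*} [Field F] [Fintype F] {p : ℕ} [Fact p.Prime] [CharP F p] {q : ℕ} (hq : Fintype.card F = q)
    (d m : ℕ) (hd : 4 ≤ d) (hm : 1 ≤ m) (hmd : m < d)
    (r : ℕ) [Fact r.Prime]
    (hrΩ : r ∣ Nat.card {W : Submodule F (Fin d ⊕ Fin d → F) // Module.finrank F ↥W = m ∧ (∀ w ∈ W, Cfsg.quadFormPlus d F w = 0)})
    (i c : ℕ) (hi : i = orderOf (q : ZMod r)) (hc : c = if Even i then i else 2 * i) :
    (∀ x : GL (Fin d ⊕ Fin d) F, x ∈ Cfsg.Geo.omegaGL (Cfsg.quadFormPlus d F) →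
      (∃ z : F, ((x ^ r : GL (Fin d ⊕ Fin d) F) : Matrix (Fin d ⊕ Fin d) (Fin d ⊕ Fin d) F) = z • (1 : Matrix (Fin d ⊕ Fin d) (Fin d ⊕ Fin d) F)) →
      (∀ z : F, (x : Matrix (Fin d ⊕ Fin d) (Fin d ⊕ Fin d) F) ≠ z • (1 : Matrix (Fin d ⊕ Fin d) (Fin d ⊕ Fin d) F)) →
      ∃ W : Submodule F (Fin d ⊕ Fin d → F), Module.finrank F ↥W = m ∧ (∀ w ∈ W, Cfsg.quadFormPlus d F w = 0) ∧
        W.map (Matrix.toLin' (x : Matrix (Fin d ⊕ Fin d) (Fin d ⊕ Fin d) F)) ≤ W) ↔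
    ((r = 2 ∧ p ≠ 2 ∧ (q % 4 = 1 ∨ (q % 4 = 3 ∧ m + 2 ≤ d ∧ (Even m ∨ (2 * d) % 4 = 2)))) ∨
     (r ≠ p ∧ 2 < r ∧ Odd i ∧ i ≤ m ∧ 2 * (m % i) ≤ (2 * d) % c) ∨
     (r ≠ p ∧ 2 < r ∧ Even i ∧ i ≤ m ∧ (r - 1) / i + 2 * (m / i) ≤ (2 * d) / i ∧
       ((2 * (m % i) ≤ i ∧ (2 * d) % c = 0 ∧ Odd ((2 * d) / i) ∧ (r - 1) / i + 2 * (m / i) < (2 * d) / i) ∨
        (2 * (m % i) ≤ (2 * d) % c ∧ Even ((2 * d) / i)) ∨
        (2 * (m % i) < (2 * d) % c ∧ Odd ((2 * d) / i))))) := by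
  have hr : r.Prime := Fact.out
  have hQ : Nd (quadPlus d F) := nd_quadPlus
  have hfr : finrank F (Fin d ⊕ Fin d → F) = 2 * d := finrank_plus
  have hgen : GenHyp (quadPlus d F) := genHyp_of_card (Or.inr (by rw [hfr]; omega))
  have hD : D (quadPlus d F) = 1 * (Nat.card F : ℤ) ^ d := by rw [D_quadPlus, one_mul]
  have hcardeq : Nat.card {W : Submodule F (Fin d ⊕ Fin d → F) // Module.finrank F ↥W = m ∧ (∀ w ∈ W, Cfsg.quadFormPlus d F w = 0)} =
      Nat.card {W : Submodule F (Fin d ⊕ Fin d → F) // Ts (quadPlus d F) m W} :=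
    Nat.card_congr (Equiv.subtypeEquivRight fun W => and_comm)
  rw [hcardeq] at hrΩ
  have hrp : r ≠ p := by
    rintro rfl
    exact not_dvd_card_ts (p := r) hQ (by omega) hrΩ
  have hne : (r : F) ≠ 0 := Cfsg.Agent.Lib.PrimeOrd.cast_ne_zero (p := p) hrp
  have e1 := keyS (quadPlus d F) (fun W => Ts (quadPlus d F) m W) r
  rw [coe_quadPlus] at e1
  refine Iff.trans (forall_congr' fun x => forall_congr' fun _ => forall_congr' fun _ => forall_congr' fun _ => exists_congr fun W => ?_) (e1.trans ?_)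
  · exact ⟨fun h => ⟨⟨h.2.1, h.1⟩, h.2.2⟩, fun h => ⟨h.1.2, h.1.1, h.2⟩⟩
  rcases hr.eq_two_or_odd' with rfl | ho
  · have h2 : (2 : F) ≠ 0 := by exact_mod_cast hne
    have hqo : q % 2 = 1 := by
      have h3 := FiniteField.odd_card_of_char_ne_two (F := F) (by
        rw [ringChar.eq F p]
        exact Ne.symm hrp)
      rw [hq] at h3
      exact h3
    rw [two_ts_even h2 hQ hgen (d := d) (by omega) hfr hmd (Or.inl rfl) hD, FiniteField.isSquare_neg_one_iff, hq]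
    have hpow : (1 : ℤ) = (-1) ^ d ↔ Even d := by
      rw [eq_comm, neg_one_pow_eq_one_iff_even (by norm_num)]
    rw [hpow]
    constructor
    · intro H
      refine Or.inl ⟨rfl, Ne.symm hrp, ?_⟩
      by_cases h3 : q % 4 = 1
      · exact Or.inl h3
      · obtain ⟨h4, h5⟩ := H (by omega)
        refine Or.inr ⟨by omega, h4 rfl, ?_⟩
        by_cases h6 : Even d
        · exact Or.inl (h5 h6 (Or.inl h6))
        · right
          rw [Nat.not_even_iff] at h6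
          omega
    · rintro (⟨-, -, h3 | ⟨h3, h4, h5⟩⟩ | ⟨-, h3, -⟩ | ⟨-, h3, -⟩)
      · intro h4; omega
      · intro _
        refine ⟨fun _ => h4, fun h6 _ => ?_⟩
        rcases h5 with h5 | h5
        · exact h5
        · obtain ⟨k, hk⟩ := h6
          omega
      · omega
      · omega
  · have hr2 : 2 < r := by
      have := hr.two_le
      rcases ho with ⟨k, hk⟩
      omega
    rw [redS hQ hgen (by rw [hfr]; omega) ho, ts_main hQ hr ho hne (ε := 1) (by norm_num) (fun N hN => by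
        have : N = d := by omega
        rw [hD, this, Nat.card_eq_fintype_card]) (i := i) (t := (r - 1) / i) (n := 2 * d)
      (by rw [hi, hq]) rfl hfr (by omega) hrΩ]
    unfold TSok
    by_cases he : Even i
    · have hno : ¬ Odd i := by rwa [Nat.not_odd_iff_even]
      rw [if_pos he, hc, if_pos he]
      have hpow : (1 : ℤ) = (-1) ^ (2 * d / i) ↔ Even (2 * d / i) := by
        rw [eq_comm, neg_one_pow_eq_one_iff_even (by norm_num)]
      have hpow' : (1 : ℤ) ≠ (-1) ^ (2 * d / i) ↔ Odd (2 * d / i) := by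
        rw [Ne, hpow, Nat.not_even_iff_odd]
      rw [hpow, hpow']
      constructor
      · rintro ⟨h5, h6, ⟨h7, h8, h9, h10⟩ | h7 | ⟨h7, h8⟩⟩
        · exact Or.inr (Or.inr ⟨hrp, hr2, he, h5, h6, Or.inl ⟨h9, h7, h8, h10⟩⟩)
        · refine Or.inr (Or.inr ⟨hrp, hr2, he, h5, h6, Or.inr ?_⟩)
          rcases Nat.even_or_odd (2 * d / i) with h8 | h8
          · exact Or.inl ⟨h7.le, h8⟩
          · exact Or.inr ⟨h7, h8⟩
        · exact Or.inr (Or.inr ⟨hrp, hr2, he, h5, h6, Or.inr (Or.inl ⟨h7.le, h8⟩)⟩)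
      · rintro (⟨h5, -⟩ | ⟨-, -, h5, -⟩ | ⟨-, -, -, h5, h6, ⟨h7, h8, h9, h10⟩ | ⟨h7, h8⟩ | ⟨h7, h8⟩⟩)
        · omega
        · exact absurd h5 hno
        · exact ⟨h5, h6, Or.inl ⟨h8, h9, h7, h10⟩⟩
        · refine ⟨h5, h6, Or.inr ?_⟩
          rcases Nat.lt_or_ge (2 * (m % i)) (2 * d % i) with h9 | h9
          · exact Or.inl h9
          · exact Or.inr ⟨by omega, h8⟩
        · exact ⟨h5, h6, Or.inr (Or.inl h7)⟩
    · have ho' : Odd i := Nat.not_even_iff_odd.1 he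
      rw [if_neg he, hc, if_neg he]
      constructor
      · rintro ⟨h5, ⟨-, h7⟩ | h7 | ⟨h7, -⟩⟩
        · exact absurd rfl h7
        · exact Or.inr (Or.inl ⟨hrp, hr2, ho', h5, h7.le⟩)
        · exact Or.inr (Or.inl ⟨hrp, hr2, ho', h5, h7.le⟩)
      · rintro (⟨h5, -⟩ | ⟨-, -, -, h5, h6⟩ | ⟨-, -, h5, -⟩)
        · omega
        · refine ⟨h5, Or.inr ?_⟩
          rcases Nat.lt_or_ge (2 * (m % i)) (2 * d % (2 * i)) with h9 | h9
          · exact Or.inl h9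
          · exact Or.inr ⟨by omega, rfl⟩
        · exact absurd h5 he

end Cfsg.Agent.S5973
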