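import Cfsg.Statements.S5974
import Cfsg.Agent.Lib.OrthEvB67

set_option autoImplicit false
open scoped MatrixGroups
open Cfsg

namespace Cfsg.Agent.S5974

open QuadraticMap Module Cfsg.Agent.Lib.Quad Cfsg.Agent.Lib.QuadD67 Cfsg.Agent.Lib.QuadEmb67 Cfsg.Agent.Lib.OrthR67
open Cfsg.Agent.Lib.InvSub Cfsg.Agent.Lib.PrimeOrd in
/-- Elements of prime order of PΩ⁺_n(q), n = 2d ≥ 8, with no fixed nondegenerate hyperbolic `m`-space. Here `T = PΩ⁺_n(q)` is realised through `Ω⁺_n(q)`, the commutator subgroup of the isometry group of `Q = Σ xᵢyᵢ` over the field `F` with `q` elements; an element of `T` of prime order `r` is an element `x` of `Ω⁺_n(q)` with `x^r` scalar and `x` not scalar. A hyperbolic `m`-space is a subspace `W` of even dimension `m` on which the polar form of `Q` is nondegenerate and which contains a totally singular subspace of dimension `m/2`. Let `m` be even with `2 ≤ m < n/2`, and let `r` be a prime dividing the number of hyperbolic `m`-spaces, with `r = 2`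 or `r ≠ p`. For `r ≠ p` let `i` be the multiplicative order of `q` modulo `r`, `c = i` for `i` even and `c = 2i` for `i` odd, and write `k = n mod c`, `ℓ' = m mod c`. Then every element of `T` of order `r` fixes some hyperbolic `m`-space if and only if one of: (i) `r = 2` and (`n ≡ 2 (mod 4)`, or `m ≡ 0 (mod 4)`, or `q ≡ 1 (mod 4)`); (ii) `r ≠ p` odd, `i` odd, `c ≤ m` and `k ≥ ℓ'`; (iii) `r ≠ p` odd, `i` even, and either `k = 0` and (`n/i` odd, or `ℓ' = 0` and `m/i` even), or `i ≤ m` and (`k > ℓ' > 0`, or `k = ℓ' > 0` and `(n + m − 2k)/i` even, or `k > ℓ' = 0` and `m/i` even). -/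
theorem result {F : Type*} [Field F] [Fintype F] {p : ℕ} [Fact p.Prime] [CharP F p] {q : ℕ} (hq : Fintype.card F = q)
    (d m : ℕ) (hd : 4 ≤ d) (hm : 2 ≤ m) (hme : Even m) (hmd : m < d)
    (r : ℕ) [Fact r.Prime] (hr : r = 2 ∨ r ≠ p)
    (hrΩ : r ∣ Nat.card {W : Submodule F (Fin d ⊕ Fin d → F) // (Module.finrank F ↥W = m ∧ (∀ u ∈ W, u ≠ 0 → ∃ v ∈ W, QuadraticMap.polar (Cfsg.quadFormPlus d F) u v ≠ 0) ∧
          ∃ U : Submodule F (Fin d ⊕ Fin d → F), U ≤ W ∧ 2 * Module.finrank F ↥U = m ∧ ∀ u ∈ U, Cfsg.quadFormPlus d F u = 0)})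
    (i c : ℕ) (hi : i = orderOf (q : ZMod r)) (hc : c = if Even i then i else 2 * i) :
    (∀ x : GL (Fin d ⊕ Fin d) F, x ∈ Cfsg.Geo.omegaGL (Cfsg.quadFormPlus d F) →
      (∃ z : F, ((x ^ r : GL (Fin d ⊕ Fin d) F) : Matrix (Fin d ⊕ Fin d) (Fin d ⊕ Fin d) F) = z • (1 : Matrix (Fin d ⊕ Fin d) (Fin d ⊕ Fin d) F)) →
      (∀ z : F, (x : Matrix (Fin d ⊕ Fin d) (Fin d ⊕ Fin d) F) ≠ z • (1 : Matrix (Fin d ⊕ Fin d) (Fin d ⊕ Fin d) F)) →
      ∃ W : Submodule F (Fin d ⊕ Fin d → F), (Module.finrank F ↥W = m ∧ (∀ u ∈ W, u ≠ 0 → ∃ v ∈ W, QuadraticMap.polar (Cfsg.quadFormPlus d F) u v ≠ 0) ∧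
          ∃ U : Submodule F (Fin d ⊕ Fin d → F), U ≤ W ∧ 2 * Module.finrank F ↥U = m ∧ ∀ u ∈ U, Cfsg.quadFormPlus d F u = 0) ∧
        W.map (Matrix.toLin' (x : Matrix (Fin d ⊕ Fin d) (Fin d ⊕ Fin d) F)) ≤ W) ↔
    ((r = 2 ∧ ((2 * d) % 4 = 2 ∨ m % 4 = 0 ∨ q % 4 = 1)) ∨
     (r ≠ p ∧ 2 < r ∧ Odd i ∧ c ≤ m ∧ m % c ≤ (2 * d) % c) ∨
     (r ≠ p ∧ 2 < r ∧ Even i ∧
       (((2 * d) % c = 0 ∧ (Odd ((2 * d) / i) ∨ (m % c = 0 ∧ Even (m / i)))) ∨
        (i ≤ m ∧ ((m % c < (2 * d) % c ∧ 0 < m % c) ∨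
                  ((2 * d) % c = m % c ∧ 0 < m % c ∧ Even ((2 * d + m - 2 * ((2 * d) % c)) / i)) ∨
                  (0 < (2 * d) % c ∧ m % c = 0 ∧ Even (m / i))))))) := by
  have hrp' : r.Prime := Fact.out
  have hp : p.Prime := Fact.out
  have hQ : Nd (quadPlus d F) := nd_quadPlus
  have hfr : finrank F (Fin d ⊕ Fin d → F) = 2 * d := by rw [finrank_plus]
  obtain ⟨M, hM⟩ := hme
  have hm2 : m = 2 * M := by omega
  obtain ⟨X, i1, i2, i3, Q₀, hQ₀, hX, hD⟩ := exists_space (F := F) M 1 (Or.inl rfl)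
  have hD' : D Q₀ = (Nat.card F : ℤ) ^ M := by rw [hD]; ring
  have hP : ∀ W : Submodule F (Fin d ⊕ Fin d → F), (Module.finrank F ↥W = m ∧ (∀ u ∈ W, u ≠ 0 → ∃ v ∈ W, QuadraticMap.polar (Cfsg.quadFormPlus d F) u v ≠ 0) ∧
          ∃ U : Submodule F (Fin d ⊕ Fin d → F), U ≤ W ∧ 2 * Module.finrank F ↥U = m ∧ ∀ u ∈ U, Cfsg.quadFormPlus d F u = 0) ↔
      Cl (quadPlus d F) Q₀ W := by
    intro W
    rw [cl_plus hQ₀ hX hD', hm2]
    have hnd := ndOn_iff' (Q := quadPlus d F) (W := W)
    constructor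
    · rintro ⟨h1, h2, U, h3, h4, h5⟩
      exact ⟨h1, hnd.1 h2, U, h3, h5, by rw [h4, h1]⟩
    · rintro ⟨h1, h2, U, h3, h4, h5⟩
      exact ⟨h1, hnd.2 h2, U, h3, by rw [h5, h1], h4⟩
  have hgen : GenHyp (quadPlus d F) := genHyp_of_card (Or.inr (by rw [hfr]; omega))
  simp only [hP] at hrΩ ⊢
  have e1 := keyS (quadPlus d F) (fun W => Cl (quadPlus d F) Q₀ W) r
  rw [coe_quadPlus] at e1
  rw [e1]
  have hcard : (0 : ℤ) < (Nat.card F : ℤ) := by exact_mod_cast Nat.card_pos
  rcases hrp'.eq_two_or_odd' with rfl | ho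
  · by_cases hp2 : p = 2
    · -- characteristic two
      subst hp2
      rw [ev_plus hQ hQ₀ hgen (by omega) hfr (D_quadPlus d) (by omega) hX hD']
      have hq2 : q % 2 = 0 := by
        have h3 := FiniteField.even_card_of_char_two (F := F) (ringChar.eq F 2)
        rw [hq] at h3
        exact h3
      rw [Nat.odd_iff, Nat.even_iff]
      constructor
      · rintro (h3 | h3)
        · exact Or.inl ⟨rfl, Or.inl (by omega)⟩
        · exact Or.inl ⟨rfl, Or.inr (Or.inl (by omega))⟩
      · rintro (⟨-, h3 | h3 | h3⟩ | ⟨-, h3, -⟩ | ⟨-, h3, -⟩)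
        · left; omega
        · right; omega
        · omega
        · omega
        · omega
    -- involutions, odd characteristic
    have h2 : (2 : F) ≠ 0 := by
      have := Cfsg.Agent.Lib.PrimeOrd.cast_ne_zero (F := F) (p := p) (Ne.symm hp2)
      exact_mod_cast this
    rw [two_main h2 hQ hQ₀ hgen (d := d) (by omega) hfr (by rw [hX, hfr]; omega)]
    have hqo : q % 2 = 1 := by
      have h3 := FiniteField.odd_card_of_char_ne_two (F := F) (by
        rw [ringChar.eq F p]
        exact hp2)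
      rw [hq] at h3
      exact h3
    have hsq := FiniteField.isSquare_two_iff (F := F)
    rw [hq] at hsq
    have hchi := chi_eq (F := F)
    rw [hq] at hchi
    have hpos : ∀ k : ℕ, (0 : ℤ) < (Nat.card F : ℤ) ^ k := fun k => pow_pos hcard k
    have hDeq : (D (quadPlus d F) = chi F ^ d * (Nat.card F : ℤ) ^ d) ↔ chi F ^ d = 1 := by
      rw [D_quadPlus]
      constructor
      · intro h
        have := hpos d
        have h3 : (chi F ^ d - 1) * (Nat.card F : ℤ) ^ d = 0 := by linear_combination -h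
        rcases mul_eq_zero.1 h3 with h4 | h4
        · linarith
        · omega
      · intro h
        rw [h, one_mul]
    have hD0 : (∃ j, finrank F X = 2 * j ∧ D Q₀ = chi F ^ j * (Nat.card F : ℤ) ^ j) ↔ chi F ^ M = 1 := by
      rw [hX]
      constructor
      · rintro ⟨j, hj, h⟩
        have : j = M := by omega
        subst this
        have := hpos j
        have h3 : (chi F ^ j - 1) * (Nat.card F : ℤ) ^ j = 0 := by linear_combination -h + hD'
        rcases mul_eq_zero.1 h3 with h4 | h4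
        · linarith
        · omega
      · intro h
        exact ⟨M, rfl, by rw [h, hD']; ring⟩
    rw [hDeq, hD0, hsq, hchi]
    by_cases h3 : q % 4 = 3
    · rw [if_pos h3]
      rw [neg_one_pow_eq_one_iff_even (by norm_num), neg_one_pow_eq_one_iff_even (by norm_num)]
      rw [Nat.even_iff, Nat.even_iff]
      constructor
      · intro H
        refine Or.inl ⟨rfl, ?_⟩
        by_cases h4 : d % 2 = 0
        · have := H h4 (Or.inl h4)
          right; left; omega
        · left; omega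
      · rintro (⟨-, h4 | h4 | h4⟩ | ⟨-, h4, -⟩ | ⟨-, h4, -⟩)
        · intro h5
          omega
        · intro _ _
          omega
        · omega
        · omega
        · omega
    · rw [if_neg h3, one_pow, one_pow]
      constructor
      · intro _
        exact Or.inl ⟨rfl, Or.inr (Or.inr (by omega))⟩
      · intro _ _ _
        rfl
  · have hr2 : 2 < r := by
      have := hrp'.two_le
      rcases ho with ⟨k, hk⟩
      omega
    have hrp : r ≠ p := by
      rcases hr with h | h
      · omega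
      · exact h
    have hne : (r : F) ≠ 0 := Cfsg.Agent.Lib.PrimeOrd.cast_ne_zero (p := p) hrp
    have hε : ∀ N, finrank F (Fin d ⊕ Fin d → F) = 2 * N → D (quadPlus d F) = 1 * (Fintype.card F : ℤ) ^ N := fun N hN => by
      have : N = d := by omega
      rw [D_quadPlus, one_mul, this, Nat.card_eq_fintype_card]
    have hδ : ∀ N, finrank F X = 2 * N → D Q₀ = 1 * (Fintype.card F : ℤ) ^ N := fun N hN => by
      have : N = M := by omega
      rw [hD, this, Nat.card_eq_fintype_card]
    have main := nd_main hQ hQ₀ hrp' ho hne (by norm_num) (by norm_num) hε hδ (Or.inr ⟨M, by omega⟩) (by omega) (by omega) hrΩ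
    have main' := nd_main' hQ hQ₀ hrp' ho hne (by norm_num) (by norm_num) hε hδ (Or.inr ⟨M, by omega⟩) (by omega) (by omega)
    rw [redS hQ hgen (by rw [hfr]; omega) ho]
    have hci : c = Cfsg.Agent.Lib.Sesq.csize i := hc
    rw [csize_eq] at hci
    have hi' : hF F r = hh i := by rw [hi, ← hq]
    have hs' : sF F r = sg i := by rw [hi, ← hq]
    have hc' : 2 * hF F r = c := by rw [hi', hci]
    rw [hc', hs', hfr, hX, ← hm2] at main main'
    have hc0 : 0 < c := by
      have h3 : 0 < hF F r := hh_pos (ord_pos hrp' hne)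
      omega
    unfold GG at main main'
    have hn := Nat.div_add_mod (2 * d) c
    have hmd' := Nat.div_add_mod m c
    have hMN : m / c ≤ 2 * d / c := Nat.div_le_div_right (by omega)
    by_cases he : Even i
    · have hci' : c = i := by rw [hc, if_pos he]
      have hsg : sg i = -1 := by unfold sg; rw [if_pos he]
      rw [hsg] at main main'
      have hno : ¬ Odd i := by rwa [Nat.not_odd_iff_even]
      have hpow1 : ∀ k : ℕ, ((1 : ℤ) ≠ (-1) ^ k) ↔ Odd k := fun k => by
        rw [ne_comm, Ne, neg_one_pow_eq_one_iff_even (by norm_num), Nat.not_even_iff_odd]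
      have hpow2 : ∀ k : ℕ, ((1 : ℤ) = (-1) ^ k) ↔ Even k := fun k => by
        rw [eq_comm, neg_one_pow_eq_one_iff_even (by norm_num)]
      have hpow3 : ∀ k : ℕ, ((1 : ℤ) = 1 * (-1) ^ k) ↔ Even k := fun k => by
        rw [one_mul, hpow2]
      simp only [hpow1, hpow2, hpow3] at main main'
      rw [← hci']
      have hquot : 2 * d % c = m % c → (2 * d + m - 2 * (2 * d % c)) / c = 2 * d / c + m / c := by
        intro h
        have h1 : 2 * d + m - 2 * (2 * d % c) = c * (2 * d / c + m / c) := by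
          rw [Nat.mul_add]; omega
        rw [h1, Nat.mul_div_cancel_left _ hc0]
      have hodd : Even (2 * d / c - m / c) ↔ Even (2 * d / c + m / c) := by
        rw [Nat.even_iff, Nat.even_iff]; omega
      constructor
      · intro H
        obtain ⟨h5, ⟨h6, h7⟩ | ⟨h6, h7, h8, h9⟩⟩ := main.1 H
        · exact Or.inr (Or.inr ⟨hrp, hr2, by rw [hci']; exact he, Or.inl ⟨h6, h7⟩⟩)
        · refine Or.inr (Or.inr ⟨hrp, hr2, by rw [hci']; exact he, Or.inr ⟨h5, ?_⟩⟩)
          rcases Nat.eq_zero_or_pos (m % c) with h10 | h10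
          · exact Or.inr (Or.inr ⟨h6, h10, h8 h10⟩)
          · rcases Nat.lt_or_ge (m % c) (2 * d % c) with h11 | h11
            · exact Or.inl ⟨h11, h10⟩
            · have h12 : m % c = 2 * d % c := by omega
              refine Or.inr (Or.inl ⟨h12.symm, h10, ?_⟩)
              rw [hquot h12.symm]
              exact hodd.1 (h9 h12)
      · rintro (⟨h5, -⟩ | ⟨-, -, h5, -⟩ | ⟨-, -, -, ⟨h5, h6⟩ | ⟨h4, h5⟩⟩)
        · omega
        · rw [hci'] at h5; exact absurd h5 hno
        · exact main' (Or.inl ⟨h5, h6⟩)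
        · rcases h5 with ⟨h6, h7⟩ | ⟨h7, h6, h8⟩ | ⟨h7, h6, h8⟩
          · exact main' (Or.inr ⟨by omega, by omega, fun h => by omega, fun h => by omega⟩)
          · exact main' (Or.inr ⟨by omega, by omega, fun h => by omega, fun h => hodd.2 (by rw [hquot h7] at h8; exact h8)⟩)
          · exact main' (Or.inr ⟨by omega, by omega, fun h => h8, fun h => by omega⟩)
    · have hsg : sg i = 1 := by unfold sg; rw [if_neg he]
      rw [hsg] at main main'
      simp only [one_pow, mul_one] at main main'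
      have ho' : Odd i := Nat.not_even_iff_odd.1 he
      constructor
      · intro H
        obtain ⟨h5, h6⟩ := main.1 H
        right; left
        refine ⟨hrp, hr2, ho', h5, ?_⟩
        rcases h6 with ⟨h6, h7 | ⟨h7, -⟩⟩ | ⟨h6, h7, -, -⟩
        · exact absurd rfl h7
        · omega
        · exact h7
      · rintro (⟨h5, -⟩ | ⟨-, -, -, h5, h6⟩ | ⟨-, -, h5, -⟩)
        · omega
        · rcases Nat.eq_zero_or_pos (2 * d % c) with h7 | h7
          · exact main' (Or.inl ⟨h7, Or.inr ⟨by omega, trivial⟩⟩)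
          · exact main' (Or.inr ⟨h7, h6, fun _ => trivial, fun _ => trivial⟩)
        · exact absurd h5 he

end Cfsg.Agent.S5974
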