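import Cfsg.Statements.S5975
import Cfsg.Agent.Lib.TrForm4

set_option autoImplicit false
open scoped MatrixGroups
open scoped Matrix
open Cfsg

namespace Cfsg.Agent.S5975

open Cfsg.Agent.Lib.SpConj Cfsg.Agent.Lib.TrForm Cfsg.Agent.Lib.ElusiveTool Cfsg.Agent.Lib.Sesq Cfsg.Agent.Lib.PrimeOrd
  Cfsg.Agent.Lib.InvSub Module Matrix
open Cfsg.Agent.Lib.AltSim (JB)

section
universe u
variable {F : Type u} [Field F] [Fintype F] {d : ℕ} {L : Type u} [Field L] [Finite L] [Algebra F L]

/-- galois facts in prime degree -/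
theorem gal_facts {k : ℕ} (hk : k.Prime) (hL : finrank F L = k) (τ : L ≃ₐ[F] L) :
    (τ ^ k = 1) ∧ (τ ≠ 1 → ∀ a : L, τ a = a → a ∈ (algebraMap F L).range) := by
  classical
  have hfL : FiniteDimensional F L := Module.Finite.of_finite
  have hgal : IsGalois F L := inferInstance
  have hcard : Nat.card (L ≃ₐ[F] L) = k := by rw [IsGalois.card_aut_eq_finrank, hL]
  refine ⟨by rw [← hcard]; exact pow_card_eq_one', ?_⟩
  intro hτ a ha
  -- the fixed field of `τ` is a subalgebra of prime degree extension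
  let A : Subalgebra F L :=
    { carrier := {x | τ x = x}
      mul_mem' := fun {x y} hx hy => by
        show τ (x * y) = x * y
        rw [map_mul, hx, hy]
      add_mem' := fun {x y} hx hy => by
        show τ (x + y) = x + y
        rw [map_add, hx, hy]
      algebraMap_mem' := fun c => τ.commutes c }
  have hp : (finrank F L).Prime := by rw [hL]; exact hk
  rcases (Subalgebra.isSimpleOrder_of_finrank_prime F L hp).eq_bot_or_eq_top A with h | h
  · have : a ∈ A := ha
    rw [h, Algebra.mem_bot] at this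
    obtain ⟨c, hc⟩ := this
    exact ⟨c, hc⟩
  · exfalso
    apply hτ
    ext x
    have : x ∈ A := by rw [h]; trivial
    exact this

variable {K : Subalgebra F (Matrix (Fin d ⊕ Fin d) (Fin d ⊕ Fin d) F)} [Module L (Fin d ⊕ Fin d → F)]
  [IsScalarTower F L (Fin d ⊕ Fin d → F)]

/-- the order of the induced automorphism divides `r` -/
theorem tau_pow (hd : 0 < d) {r : ℕ} {τ : L ≃ₐ[F] L} {S : Module.End F (Fin d ⊕ Fin d → F)}
    (hτ : ∀ (a : L) (v : Fin d ⊕ Fin d → F), S (a • v) = τ a • S v) (hS : S ^ r = 1) : τ ^ r = 1 := by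
  have h1 : ∀ (k : ℕ) (a : L) (v : Fin d ⊕ Fin d → F), (S ^ k) (a • v) = (τ ^ k) a • (S ^ k) v := by
    intro k
    induction k with
    | zero => intro a v; rfl
    | succ k ih =>
      intro a v
      rw [pow_succ', Module.End.mul_apply, Module.End.mul_apply, ih, hτ, pow_succ', AlgEquiv.mul_apply]
  ext a
  apply smul_ext (F := F) hd
  intro v
  have h2 := h1 r a v
  rw [hS] at h2
  exact h2.symm

/-- conjugates in the normalizer: a semilinear map with the same eigenspace dimensions -/
theorem exists_semi (hd : 0 < d) (hKL : KL K L) {x g : GL (Fin d ⊕ Fin d) F} {T : Module.End F (Fin d ⊕ Fin d → F)}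
    (hx : x ∈ Cfsg.spGL d F) (hxT : Matrix.toLin' x.1 = T) (hg : g ∈ Cfsg.spGL d F)
    (hmem : g⁻¹ * x * g ∈ Cfsg.Geo.subalgebraNormalizer K) :
    ∃ (S : Module.End F (Fin d ⊕ Fin d → F)) (τ : L ≃ₐ[F] L), Iso (σ := RingHom.id F) (JB (F := F) d) S ∧
      (∀ (a : L) (v : Fin d ⊕ Fin d → F), S (a • v) = τ a • S v) ∧ (∀ y, finrank F (E S y) = finrank F (E T y)) ∧
      (∀ (k : ℕ) (c : F), T ^ k = c • (1 : Module.End F (Fin d ⊕ Fin d → F)) → S ^ k = c • (1 : Module.End F (Fin d ⊕ Fin d → F))) := by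
  obtain ⟨τ, hτ⟩ := exists_tau hd hKL hmem
  have hy : g⁻¹ * x * g ∈ Cfsg.spGL d F := mul_mem (mul_mem (inv_mem hg) hx) hg
  let g' : (Fin d ⊕ Fin d → F) ≃ₗ[F] (Fin d ⊕ Fin d → F) := Matrix.toLin'OfInv (M := g.1) (M' := (g⁻¹ : GL (Fin d ⊕ Fin d) F).1) (by rw [← Units.val_mul, mul_inv_cancel]; rfl)
    (by rw [← Units.val_mul, inv_mul_cancel]; rfl)
  have hg' : ∀ v, g' v = (g⁻¹ : GL (Fin d ⊕ Fin d) F).1 *ᵥ v := fun v => rfl
  have hconj : ∀ v, g' (T v) = Matrix.toLin' (g⁻¹ * x * g).1 (g' v) := by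
    intro v
    rw [hg', hg', ← hxT, Matrix.toLin'_apply, Matrix.toLin'_apply, Matrix.mulVec_mulVec, Matrix.mulVec_mulVec, ← Units.val_mul,
      ← Units.val_mul]
    congr 2
    group
  refine ⟨Matrix.toLin' (g⁻¹ * x * g).1, τ, (mem_spGL _).1 hy, hτ, fun y => (finrank_E_conj g' hconj y).symm, ?_⟩
  intro k c hk
  have h1 : ∀ (k : ℕ) v, g' ((T ^ k) v) = ((Matrix.toLin' (g⁻¹ * x * g).1) ^ k) (g' v) := by
    intro k
    induction k with
    | zero => intro v; rfl
    | succ k ih => intro v; rw [pow_succ, Module.End.mul_apply, ih, hconj, pow_succ, Module.End.mul_apply]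
  apply LinearMap.ext
  intro v
  obtain ⟨w, rfl⟩ := g'.surjective v
  rw [← h1, hk, LinearMap.smul_apply, Module.End.one_apply, map_smul]
  rfl

end

/-- Elements of prime order of PSp_n(q) and the field-extension subgroups of type Sp_{n/k}(q^k). Here `T = PSp_{2d}(F)` for a field `F` with `q` elements (`d ≥ 2`, `(d, q) ≠ (2, 2)`), realised through the matrices preserving the standard alternating form `f`; `k` is a prime and `K` is a subalgebra of the `2d × 2d` matrices that is a field of degree `k` over `F` whose elements are self-adjoint for `f` and satisfy `f(a v, v) = 0` (so `F^{2d}` becomes a vector space over `K ≅ F_{q^k}` on which `f` is the trace of a `K`-bilinear alternating form); `H` is the subgroup of `T` normalizing `K` — the symplectic maps that are `K`-linear or `K`-semilinear, a subgroup of type Sp_{2d/k}(q^k) (maximality is not assumed). Ω is the set of cosets of `H` in `T`, so an element of `T` of prime order `r` (`x ∈ T` with `x^r` scalar, `x` not scalar)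 fixes a point of Ω exactly when some `T`-conjugate of `x` normalizes `K`. Let `r` be a prime dividing the index of `H`. Then every element of `T` of order `r` fixes a point of Ω if and only if `r = 2`, `d = 2`, `k = 2` and `q` is odd. -/
theorem result {F : Type*} [Field F] [Fintype F] {p : ℕ} [Fact p.Prime] [CharP F p] {q : ℕ} (hq : Fintype.card F = q)
    (d : ℕ) (hd : 2 ≤ d) (hT : (d, q) ≠ (2, 2)) (k : ℕ) (hk : k.Prime)
    (K : Subalgebra F (Matrix (Fin d ⊕ Fin d) (Fin d ⊕ Fin d) F)) (hK : Cfsg.Geo.IsFieldSubalgebra k K)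
    (hKf : Cfsg.Geo.IsSelfAdjointFor (Cfsg.sympForm d F) K) (hKalt : ∀ a ∈ K, ∀ v : Fin d ⊕ Fin d → F, Cfsg.sympForm d F (a *ᵥ v) v = 0)
    (r : ℕ) [Fact r.Prime]
    (hΩ : r ∣ (Cfsg.Geo.subalgebraNormalizer K).relIndex (Cfsg.spGL d F)) :
    (∀ x ∈ Cfsg.spGL d F, (∃ z : F, ((x ^ r : GL (Fin d ⊕ Fin d) F) : Matrix (Fin d ⊕ Fin d) (Fin d ⊕ Fin d) F) = z • (1 : Matrix (Fin d ⊕ Fin d) (Fin d ⊕ Fin d) F)) →
      (∀ z : F, (x : Matrix (Fin d ⊕ Fin d) (Fin d ⊕ Fin d) F) ≠ z • (1 : Matrix (Fin d ⊕ Fin d) (Fin d ⊕ Fin d) F)) →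
      ∃ g ∈ Cfsg.spGL d F, g⁻¹ * x * g ∈ Cfsg.Geo.subalgebraNormalizer K) ↔
    (r = 2 ∧ d = 2 ∧ k = 2 ∧ Odd q) := by
  classical
  subst hq
  have hr : r.Prime := Fact.out
  have hp : p.Prime := Fact.out
  have hchar : CharP F p := inferInstance
  have hd0 : 0 < d := by omega
  obtain ⟨L, iL1, iL2, iL3, hst, hKL, hLk, hLfin⟩ := exists_KL (K := K) hd0 hK
  haveI := hst
  letI : Fintype L := Fintype.ofFinite L
  have hfL : FiniteDimensional F L := Module.Finite.of_finite
  have hfV : FiniteDimensional L (Fin d ⊕ Fin d → F) := Module.Finite.of_finite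
  have hadj : ∀ (a : L) (u v : Fin d ⊕ Fin d → F), JB (F := F) d (a • u) v = JB (F := F) d u (a • v) := by
    intro a u v
    obtain ⟨κ, hκ, hκa⟩ := hKL.ex a
    rw [← hκa, ← hκa]
    exact hKf κ hκ u v
  have halt : ∀ (a : L) (v : Fin d ⊕ Fin d → F), JB (F := F) d (a • v) v = 0 := by
    intro a v
    obtain ⟨κ, hκ, hκa⟩ := hKL.ex a
    rw [← hκa]
    exact hKalt κ hκ v
  obtain ⟨BL₀, hBL₀⟩ := exists_form (AlgHom.id F L) (fun a => rfl) (JB (F := F) d) hadj
  let BL : (Fin d ⊕ Fin d → F) →ₗ[L] (Fin d ⊕ Fin d → F) →ₗ[L] L := BL₀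
  have hBL : ∀ (a : L) (u v : Fin d ⊕ Fin d → F), Algebra.trace F L (a * BL u v) = JB (F := F) d (a • u) v := hBL₀
  have hBalt : Alt BL := alt_of (F := F) hBL halt
  have hBnd : ND (σ := RingHom.id L) BL ⊤ := by
    apply nd_of (F := F) (σ := AlgHom.id F L) (B := JB (F := F) d) hBL
    intro w hw hw'
    exact jb_nd d w trivial (fun v _ => hw' v trivial)
  obtain ⟨m, hm⟩ := even_of_nd (B := BL) hBalt (U := ⊤) hBnd
  rw [finrank_top] at hm
  have hm' : finrank L (Fin d ⊕ Fin d → F) = 2 * m := by omega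
  have hdm : d = k * m := by
    have h1 := Module.finrank_mul_finrank F L (Fin d ⊕ Fin d → F)
    rw [hm', finrank_jb, hLk] at h1
    have h2 : 2 * (k * m) = 2 * d := by rw [← h1]; ring
    omega
  have hkd : k ∣ d := ⟨m, hdm⟩
  have hkled : k ≤ d := Nat.le_of_dvd hd0 hkd
  have hk2 := hk.two_le
  constructor
  · intro hall
    -- elements and their semilinear conjugates
    have hsemi : ∀ T : Module.End F (Fin d ⊕ Fin d → F), Iso (σ := RingHom.id F) (JB (F := F) d) T → T ^ r = 1 →
        (∀ z : F, T ≠ z • (1 : Module.End F (Fin d ⊕ Fin d → F))) →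
        ∃ (S : Module.End F (Fin d ⊕ Fin d → F)) (τ : L ≃ₐ[F] L), Iso (σ := RingHom.id F) (JB (F := F) d) S ∧
          (∀ (a : L) (v : Fin d ⊕ Fin d → F), S (a • v) = τ a • S v) ∧ (∀ y, finrank F (E S y) = finrank F (E T y)) ∧
          S ^ r = 1 ∧ (τ = 1 ∨ (r = k ∧ k * finrank F (E S 1) ≤ 2 * d)) := by
      intro T h1 h2 h3
      obtain ⟨x, hx, hxT, g, hg, hmem⟩ := of_hall hall h1 ⟨1, by rw [h2, one_smul]⟩ h3
      obtain ⟨S, τ, hS1, hS2, hS3, hS4⟩ := exists_semi hd0 hKL hx hxT hg hmem
      have hSr : S ^ r = 1 := by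
        have := hS4 r 1 (by rw [h2, one_smul])
        rwa [one_smul] at this
      refine ⟨S, τ, hS1, hS2, hS3, hSr, ?_⟩
      by_cases hτ : τ = 1
      · exact Or.inl hτ
      · right
        have h4 := tau_pow hd0 hS2 hSr
        obtain ⟨h5, h6⟩ := gal_facts hk hLk τ
        have hrk : r = k := by
          by_contra hne
          apply hτ
          have hcop : Nat.Coprime r k := (Nat.coprime_primes hr hk).2 hne
          have h7 : orderOf τ ∣ Nat.gcd r k := Nat.dvd_gcd (orderOf_dvd_of_pow_eq_one h4) (orderOf_dvd_of_pow_eq_one h5)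
          rw [hcop] at h7
          exact orderOf_eq_one_iff.1 (Nat.dvd_one.1 h7)
        refine ⟨hrk, ?_⟩
        have := semilin_bound (F := F) (L := L) (τ := (τ : L →+* L)) (h6 hτ) hS2
        rwa [hLk, finrank_jb] at this
    -- linear maps: dimension of eigenspaces
    have hdiv : ∀ (S : Module.End F (Fin d ⊕ Fin d → F)) (τ : L ≃ₐ[F] L),
        (∀ (a : L) (v : Fin d ⊕ Fin d → F), S (a • v) = τ a • S v) → τ = 1 → ∀ y, k ∣ finrank F (E S y) := by
      rintro S τ hS rfl y
      rw [finrank_E_toL (L := L) S hS y, hLk]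
      exact dvd_mul_right _ _
    have hrp : r ≠ p := by
      rintro rfl
      obtain ⟨T, hT, hTp, hE, hns⟩ := exists_transv (jb_alt (F := F) d) (jb_nd d) (p := r) (by rw [finrank_jb]; omega)
      rw [finrank_jb] at hE
      obtain ⟨S, τ, hS1, hS2, hS3, hSr, hτ | ⟨hrk, hb⟩⟩ := hsemi T hT hTp hns
      · have h1 := hdiv S τ hS2 hτ 1
        rw [hS3] at h1
        have h2 : k ∣ 1 := by
          rw [← Nat.dvd_add_right h1, hE]
          exact Dvd.dvd.mul_left hkd 2
        have := Nat.le_of_dvd one_pos h2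
        omega
      · rw [hS3] at hb
        have h1 : 2 * finrank F (E T 1) ≤ k * finrank F (E T 1) := Nat.mul_le_mul_right _ hk2
        omega
    have hpq : ¬ r ∣ Fintype.card F := by
      obtain ⟨k, -, hk⟩ := FiniteField.card F p
      intro h
      rw [hk] at h
      exact hrp ((Nat.prime_dvd_prime_iff_eq hr hp).mp (hr.dvd_of_dvd_pow h))
    by_cases hr2 : r = 2
    · subst hr2
      have hodd : Odd (Fintype.card F) := by
        rw [← Nat.not_even_iff_odd, even_iff_two_dvd]; exact hpq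
      have h2F := two_ne_zero_of_odd hodd
      have hntop : (⊤ : Submodule F (Fin d ⊕ Fin d → F)) ≠ ⊥ := by
        intro h
        have := finrank_top F (Fin d ⊕ Fin d → F)
        rw [h, finrank_bot, finrank_jb] at this
        omega
      obtain ⟨W, -, hWnd, hWf⟩ := exists_plane (jb_alt (F := F) d) (jb_nd d) hntop
      obtain ⟨T, hT, hT2, hE1, hE2⟩ := exists_invol h2F (jb_alt (F := F) d) W hWnd
      have hE1' : finrank F (E T (-1)) = 2 := by rw [hE1, hWf]
      have hE2' : finrank F (E T 1) + 2 = 2 * d := by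
        have h3 := Submodule.finrank_add_eq_of_isCompl (isCompl_perp (jb_alt (F := F) d).refl hWnd)
        rw [finrank_jb] at h3
        rw [hE2, ← h3, hWf]; omega
      obtain ⟨S, τ, hS1, hS2, hS3, hSr, hτ | ⟨hrk, hb⟩⟩ := hsemi T hT hT2 (nonscalar_of (y := -1) (by omega) (by rw [finrank_jb]; omega))
      · exfalso
        have h1 := hdiv S τ hS2 hτ (-1)
        rw [hS3, hE1'] at h1
        have hk2' : k = 2 := le_antisymm (Nat.le_of_dvd (by norm_num) h1) hk2
        -- the `-1` space is one-dimensional over `L` and nondegenerate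
        subst hτ
        have hS2 : ∀ (a : L) (v : Fin d ⊕ Fin d → F), S (a • v) = a • S v := hS2
        have h3 := finrank_E_toL (L := L) S hS2 (-1)
        rw [hS3, hE1', hLk, hk2', map_neg, map_one] at h3
        have h4 : finrank L (E (toL (L := L) S hS2) (-1)) = 1 := by omega
        have hSS : (toL (L := L) S hS2) ^ 2 = ((1 : L) ^ 2) • (1 : Module.End L (Fin d ⊕ Fin d → F)) := by
          rw [one_pow, one_smul]
          apply LinearMap.ext
          intro v
          rw [toL_pow, hSr]; rfl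
        have h2L : (2 : L) ≠ 0 := by
          intro h
          apply h2F
          apply (algebraMap F L).injective
          rw [map_ofNat, map_zero]; exact h
        have h5 := even_neg hBalt hBnd h2L (iso_of (F := F) (σ := AlgHom.id F L) hBL (T := toL (L := L) S hS2) hS1) hSS
        rw [h4] at h5
        exact absurd h5 (by decide)
      · rw [hS3, ← hrk] at hb
        exact ⟨rfl, by omega, hrk.symm, hodd⟩
    · exfalso
      have hodd' : Odd r := hr.odd_of_ne_two hr2
      have hcsz : csz F r ≤ 2 * d := by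
        apply csz_le_of_dvd hr hrp
        rw [← card_spGL]
        exact hΩ.trans (Subgroup.relIndex_dvd_card _ _)
      obtain ⟨T, hPO, hE⟩ := exists_po hp hchar hr hrp hodd' 1 (jb_alt (F := F) d) (jb_nd d) (by rw [one_mul, finrank_jb]; exact hcsz)
      rw [one_mul, finrank_jb] at hE
      have hcpos := hPO.csz_pos
      have hns : ∀ z : F, T ≠ z • (1 : Module.End F (Fin d ⊕ Fin d → F)) := by
        intro z hz
        have hne : Nonempty (Fin d ⊕ Fin d) := ⟨Sum.inl ⟨0, by omega⟩⟩
        have h1 := hPO.eq_one hz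
        have h2 : E T 1 = ⊤ := by
          rw [eq_top_iff]; intro w _
          rw [Module.End.mem_eigenspace_iff, h1, one_smul]; rfl
        rw [h2, finrank_top, finrank_jb] at hE
        omega
      obtain ⟨S, τ, hS1, hS2, hS3, hSr, hτ | ⟨hrk, hb⟩⟩ := hsemi T hPO.iso hPO.pow hns
      · subst hτ
        have hPOS : PO F p r (JB (F := F) d) S := ⟨hp, hchar, hr, hrp, hodd', jb_alt d, jb_nd d, hS1, hSr⟩
        obtain ⟨s, hs⟩ := key_commute hBL halt hPOS (L := L) hS2
        rw [hS3, finrank_jb, ← hE] at hs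
        have h1 : csz F r = s * (finrank F L * csz L r) := by omega
        obtain ⟨t, ht⟩ := csz_rel (F := F) (L := L) (r := r)
        have h2 : s = 1 := by
          have hs0 : s ≠ 0 := by rintro rfl; rw [zero_mul] at h1; omega
          have ht0 : t ≠ 0 := by
            rintro rfl
            rw [mul_zero] at ht
            rw [ht, mul_zero] at h1; omega
          rw [ht] at h1
          have h3 : csz F r * 1 = csz F r * (s * t) := by rw [mul_one]; nth_rewrite 1 [h1]; ring
          have h4 := Nat.eq_of_mul_eq_mul_left hcpos h3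
          exact Nat.eq_one_of_mul_eq_one_right h4.symm
        rw [h2, one_mul] at h1
        exact index_prime (p := p) hKL hBL halt hr hrp hΩ h1
      · rw [hS3] at hb
        -- `r = k ≤ d`, `c ≤ r - 1`
        have h1 := Nat.le_of_dvd (by have := hr.two_le; omega) (csz_dvd_sub_one (F := F) hrp hodd')
        have h2 : 2 * finrank F (E T 1) ≤ k * finrank F (E T 1) := Nat.mul_le_mul_right _ hk2
        have := hr.two_le
        omega
  · rintro ⟨rfl, rfl, rfl, hodd⟩ x hx ⟨z, hz⟩ hxn
    have h2F := two_ne_zero_of_odd hodd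
    have hnV : Nontrivial (Fin 2 ⊕ Fin 2 → F) := inferInstance
    have hm1 : m = 1 := by omega
    have hfr2 : finrank L (Fin 2 ⊕ Fin 2 → F) = 2 := by rw [hm', hm1]
    set T : Module.End F (Fin 2 ⊕ Fin 2 → F) := Matrix.toLin' x.1 with hTdef
    have hT : Iso (σ := RingHom.id F) (JB (F := F) 2) T := (mem_spGL x).1 hx
    have hTz : T ^ 2 = z • (1 : Module.End F (Fin 2 ⊕ Fin 2 → F)) := by
      rw [scalar_iff, Units.val_pow_eq_pow_val] at hz
      rw [← hz]
      exact (map_pow Matrix.toLinAlgEquiv' x.1 2).symm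
    have hTn : ∀ z : F, T ≠ z • (1 : Module.End F (Fin 2 ⊕ Fin 2 → F)) := by
      intro z h
      exact hxn z ((scalar_iff _ _).2 h)
    have hz2 := sq_scalar (jb_nd 2) hT hTz
    rw [pow_two] at hz2
    rcases mul_self_eq_one_iff.1 hz2 with rfl | rfl
    · -- involutions
      have hT1 : T ^ 2 = ((1 : F) ^ 2) • (1 : Module.End F (Fin 2 ⊕ Fin 2 → F)) := by rw [hTz, one_pow]
      obtain ⟨σ, hσ⟩ : ∃ σ : L ≃ₐ[F] L, σ ≠ 1 := by
        have hgal : IsGalois F L := inferInstance
        have hcard : Nat.card (L ≃ₐ[F] L) = 2 := by rw [IsGalois.card_aut_eq_finrank, hLk]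
        have hnt : Nontrivial (L ≃ₐ[F] L) := by
          haveI : Finite (L ≃ₐ[F] L) := Nat.finite_of_card_ne_zero (by rw [hcard]; norm_num)
          exact Finite.one_lt_card_iff_nontrivial.1 (by rw [hcard]; norm_num)
        exact exists_ne 1
      obtain ⟨S, hS1, hS2, hS3, hS4⟩ := exists_semi_invol (F := F) hBalt hBnd hBL hfr2 (gal_facts hk hLk σ).1 hσ
      have hdim : ∀ T : Module.End F (Fin 2 ⊕ Fin 2 → F), Iso (σ := RingHom.id F) (JB (F := F) 2) T →
          T ^ 2 = ((1 : F) ^ 2) • (1 : Module.End F (Fin 2 ⊕ Fin 2 → F)) →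
          (∀ z : F, T ≠ z • (1 : Module.End F (Fin 2 ⊕ Fin 2 → F))) → finrank F (E T (-1)) = 2 := by
        intro T hT hT1 hTn
        obtain ⟨j, hj⟩ := even_neg (jb_alt (F := F) 2) (jb_nd 2) h2F hT hT1
        have h1 := Submodule.finrank_add_eq_of_isCompl (Cfsg.Agent.Lib.AltSim.isCompl_inv h2F (one_ne_zero (α := F)) hT1)
        rw [finrank_jb] at h1
        have hall : ∀ y : F, E T y = ⊤ → False := by
          intro y hy
          apply hTn y
          apply LinearMap.ext
          intro v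
          have : v ∈ E T y := by rw [hy]; trivial
          exact Module.End.mem_eigenspace_iff.1 this
        have h2 : finrank F (E T (-1)) ≠ 4 := by
          intro h
          apply hall (-1)
          apply Submodule.eq_top_of_finrank_eq
          rw [h, finrank_jb]
        have h3 : finrank F (E T 1) ≠ 4 := by
          intro h
          apply hall 1
          apply Submodule.eq_top_of_finrank_eq
          rw [h, finrank_jb]
        omega
      have hS1' : S ^ 2 = ((1 : F) ^ 2) • (1 : Module.End F (Fin 2 ⊕ Fin 2 → F)) := by rw [hS3, one_pow, one_smul]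
      obtain ⟨g, hg⟩ := conj_of_sq h2F (one_ne_zero) hT1 hS1' rfl (by rw [hdim T hT hT1 hTn, hdim S hS1 hS1' hS4])
      obtain ⟨h, hh, hh'⟩ := conj_spGL hx hS1 (compl_of_sq h2F one_ne_zero hTz) g hg
      refine ⟨h, hh, mem_normalizer hKL σ ?_⟩
      rw [hh']
      exact hS2
    · obtain ⟨S, hS1, hS2, hS3⟩ := exists_lin_neg (F := F) hBalt hBnd hBL hfr2
      obtain ⟨g, hg⟩ := conj_neg_one (jb_nd 2) h2F hT hS1 hTz hS3
      obtain ⟨h, hh, hh'⟩ := conj_spGL hx hS1 (compl_of_sq h2F (neg_ne_zero.2 one_ne_zero) hTz) g hg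
      refine ⟨h, hh, mem_normalizer hKL (1 : L ≃ₐ[F] L) ?_⟩
      rw [hh']
      exact hS2

end Cfsg.Agent.S5975
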