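import Cfsg.Statements.S5976
import Cfsg.Agent.Lib.TrForm7
import Cfsg.Agent.S5975

set_option autoImplicit false
open scoped MatrixGroups
open Cfsg

namespace Cfsg.Agent.S5976

open Cfsg.Agent.Lib.SpConj Cfsg.Agent.Lib.TrForm Cfsg.Agent.Lib.ElusiveTool Cfsg.Agent.Lib.Sesq Cfsg.Agent.Lib.PrimeOrd
  Cfsg.Agent.Lib.InvSub Module Matrix
open Cfsg.Agent.Lib.AltSim (JB)


/-- Elements of prime order of PSp_n(q), q odd, and the subgroups of type GU_{n/2}(q). Here `T = PSp_{2d}(F)` for a field `F` with `q` elements, `q` odd, `d ≥ 2`, realised through the matrices preserving the standard alternating form `f`; `K` is a subalgebra of the `2d × 2d` matrices that is a field of degree 2 over `F`, closed under taking adjoints for `f` but not consisting of self-adjoint elements (so `F^{2d}` becomes a `d`-dimensional space over `K ≅ F_{q²}` on which `f` is the trace of a multiple of a non-degenerate hermitian form); `H` is the subgroup of `T` normalizing `K` — the symplectic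 maps that are `K`-linear or `K`-semilinear, a subgroup of type GU_d(q) (maximality is not assumed). Ω is the set of cosets of `H` in `T`, so an element of `T` of prime order `r` (`x ∈ T` with `x^r` scalar, `x` not scalar) fixes a point of Ω exactly when some `T`-conjugate of `x` normalizes `K`. Let `r` be a prime dividing the index of `H`. Then every element of `T` of order `r` fixes a point of Ω if and only if `r = 2`. -/
theorem result {F : Type*} [Field F] [Fintype F] {p : ℕ} [Fact p.Prime] [CharP F p] {q : ℕ} (hq : Fintype.card F = q)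
    (hodd : Odd q) (d : ℕ) (hd : 2 ≤ d)
    (K : Subalgebra F (Matrix (Fin d ⊕ Fin d) (Fin d ⊕ Fin d) F)) (hK : Cfsg.Geo.IsFieldSubalgebra 2 K)
    (hKf : Cfsg.Geo.IsAdjointClosedFor (Cfsg.sympForm d F) K) (hKns : ¬ Cfsg.Geo.IsSelfAdjointFor (Cfsg.sympForm d F) K)
    (r : ℕ) [Fact r.Prime]
    (hΩ : r ∣ (Cfsg.Geo.subalgebraNormalizer K).relIndex (Cfsg.spGL d F)) :
    (∀ x ∈ Cfsg.spGL d F, (∃ z : F, ((x ^ r : GL (Fin d ⊕ Fin d) F) : Matrix (Fin d ⊕ Fin d) (Fin d ⊕ Fin d) F) = z • (1 : Matrix (Fin d ⊕ Fin d) (Fin d ⊕ Fin d) F)) →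
      (∀ z : F, (x : Matrix (Fin d ⊕ Fin d) (Fin d ⊕ Fin d) F) ≠ z • (1 : Matrix (Fin d ⊕ Fin d) (Fin d ⊕ Fin d) F)) →
      ∃ g ∈ Cfsg.spGL d F, g⁻¹ * x * g ∈ Cfsg.Geo.subalgebraNormalizer K) ↔ r = 2 := by
  classical
  subst hq
  have hr : r.Prime := Fact.out
  have hp : p.Prime := Fact.out
  have hchar : CharP F p := inferInstance
  have hd0 : 0 < d := by omega
  have h2F := two_ne_zero_of_odd hodd
  obtain ⟨L, iL1, iL2, iL3, hst, hKL, hLk, hLfin⟩ := exists_KL (K := K) hd0 hK
  haveI := hst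
  letI : Fintype L := Fintype.ofFinite L
  have hfL : FiniteDimensional F L := Module.Finite.of_finite
  have hfV : FiniteDimensional L (Fin d ⊕ Fin d → F) := Module.Finite.of_finite
  have hne : Nonempty (Fin d ⊕ Fin d) := ⟨Sum.inl ⟨0, by omega⟩⟩
  have hnV : Nontrivial (Fin d ⊕ Fin d → F) := inferInstance
  have h2L : (2 : L) ≠ 0 := by
    intro h
    apply h2F
    apply (algebraMap F L).injective
    rw [map_ofNat, map_zero]; exact h
  have hadj₀ : ∀ a : L, ∃ b : L, ∀ u v : Fin d ⊕ Fin d → F, JB (F := F) d (a • u) v = JB (F := F) d u (b • v) := by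
    intro a
    obtain ⟨κ, hκ, hκa⟩ := hKL.ex a
    obtain ⟨κ', hκ', h⟩ := hKf κ hκ
    obtain ⟨b, hb⟩ := hKL.ex' κ' hκ'
    refine ⟨b, fun u v => ?_⟩
    rw [← hκa, ← hb]
    exact h u v
  obtain ⟨σ, hσ, hadj⟩ := exists_sigma (jb_alt (F := F) d) (jb_nd d) hadj₀
  have hσ1 : ∃ a, σ a ≠ a := by
    by_contra hcon
    push Not at hcon
    apply hKns
    intro κ hκ u v
    obtain ⟨a, ha⟩ := hKL.ex' κ hκ
    have := hadj a u v
    rw [hcon, ← ha, ← ha] at this
    exact this
  have hL : Fintype.card L = Fintype.card F ^ 2 := by rw [← hLk]; exact Module.card_eq_pow_finrank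
  have hσq : ∀ a : L, σ a = a ^ Fintype.card F := by
    obtain ⟨i, hi⟩ := (FiniteField.bijective_frobeniusAlgEquivOfAlgebraic_pow F L).2
      (AlgEquiv.ofBijective σ ⟨σ.toRingHom.injective, fun a => ⟨σ a, hσ a⟩⟩)
    have hi2 : i.1 < 2 := by rw [← hLk]; exact i.2
    simp only at hi
    have hi1 : i.1 = 1 := by
      by_contra hne
      have h0 : i.1 = 0 := by omega
      obtain ⟨a, ha⟩ := hσ1
      rw [h0, pow_zero] at hi
      exact ha (congrArg (fun f : L ≃ₐ[F] L => f a) hi).symm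
    intro a
    rw [hi1, pow_one] at hi
    have := congrArg (fun f : L ≃ₐ[F] L => f a) hi
    rw [FiniteField.coe_frobeniusAlgEquivOfAlgebraic] at this
    exact this.symm
  obtain ⟨BL, hBL⟩ := exists_form σ hσ (JB (F := F) d) hadj
  have hBnd : ND (σ := (σ : L →+* L)) BL ⊤ := by
    apply nd_of (F := F) (B := JB (F := F) d) hBL
    intro w hw hw'
    exact jb_nd d w trivial (fun v _ => hw' v trivial)
  have hBrefl : Refl (σ := (σ : L →+* L)) BL := by
    intro u v h
    rw [skew_of hBL hσ (jb_alt d) hadj, h, map_zero, neg_zero]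
  obtain ⟨κ, hκ0, hκ⟩ := exists_anti h2L hσ hσ1
  have hfr : finrank L (Fin d ⊕ Fin d → F) = d := by
    have h1 := Module.finrank_mul_finrank F L (Fin d ⊕ Fin d → F)
    rw [finrank_jb, hLk] at h1
    omega
  obtain ⟨c, hc⟩ := exists_herm_coords hBL hσ hσ1 (jb_alt d) hBnd hadj hκ0 hκ hfr
  constructor
  · intro hall
    by_contra hr2
    have hodd' : Odd r := hr.odd_of_ne_two hr2
    -- linear conjugates
    have hsemi : ∀ T : Module.End F (Fin d ⊕ Fin d → F), Iso (σ := RingHom.id F) (JB (F := F) d) T → T ^ r = 1 →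
        (∀ z : F, T ≠ z • (1 : Module.End F (Fin d ⊕ Fin d → F))) →
        ∃ S : Module.End F (Fin d ⊕ Fin d → F), Iso (σ := RingHom.id F) (JB (F := F) d) S ∧
          (∀ (a : L) (v : Fin d ⊕ Fin d → F), S (a • v) = a • S v) ∧ (∀ y, finrank F (E S y) = finrank F (E T y)) ∧
          S ^ r = 1 := by
      intro T h1 h2 h3
      obtain ⟨x, hx, hxT, g, hg, hmem⟩ := of_hall hall h1 ⟨1, by rw [h2, one_smul]⟩ h3
      obtain ⟨S, τ, hS1, hS2, hS3, hS4⟩ := S5975.exists_semi hd0 hKL hx hxT hg hmem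
      have hSr : S ^ r = 1 := by
        have := hS4 r 1 (by rw [h2, one_smul])
        rwa [one_smul] at this
      have hτ : τ = 1 := by
        have h4 := S5975.tau_pow hd0 hS2 hSr
        obtain ⟨h5, -⟩ := S5975.gal_facts Nat.prime_two hLk τ
        have hcop : Nat.Coprime r 2 := (Nat.coprime_primes hr Nat.prime_two).2 hr2
        have h7 : orderOf τ ∣ Nat.gcd r 2 := Nat.dvd_gcd (orderOf_dvd_of_pow_eq_one h4) (orderOf_dvd_of_pow_eq_one h5)
        rw [hcop] at h7
        exact orderOf_eq_one_iff.1 (Nat.dvd_one.1 h7)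
      subst hτ
      exact ⟨S, hS1, hS2, hS3, hSr⟩
    have hrp : r ≠ p := by
      rintro rfl
      obtain ⟨T, hT, hTp, hE, hns⟩ := exists_transv (jb_alt (F := F) d) (jb_nd d) (p := r) (by rw [finrank_jb]; omega)
      rw [finrank_jb] at hE
      obtain ⟨S, hS1, hS2, hS3, hSr⟩ := hsemi T hT hTp hns
      have h1 := finrank_E_toL (L := L) S hS2 1
      rw [hS3, hLk] at h1
      omega
    have hcsz : csz F r ≤ 2 * d := by
      apply csz_le_of_dvd hr hrp
      rw [← card_spGL]
      exact hΩ.trans (Subgroup.relIndex_dvd_card _ _)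
    obtain ⟨T, hPO, hE⟩ := exists_po hp hchar hr hrp hodd' 1 (jb_alt (F := F) d) (jb_nd d) (by rw [one_mul, finrank_jb]; exact hcsz)
    rw [one_mul, finrank_jb] at hE
    have hcpos := hPO.csz_pos
    have hns : ∀ z : F, T ≠ z • (1 : Module.End F (Fin d ⊕ Fin d → F)) := by
      intro z hz
      have h1 := hPO.eq_one hz
      have h2 : E T 1 = ⊤ := by
        rw [eq_top_iff]; intro w _
        rw [Module.End.mem_eigenspace_iff, h1, one_smul]; rfl
      rw [h2, finrank_top, finrank_jb] at hE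
      omega
    obtain ⟨S, hS1, hS2, hS3, hSr⟩ := hsemi T hPO.iso hPO.pow hns
    have h1 := finrank_E_toL_one (L := L) S hS2
    rw [hS3, hLk] at h1
    obtain ⟨j, hj⟩ := herm_atom (F := F) (r := r) hrp hL hσq hσ hBrefl hBnd (T := toL (L := L) S hS2)
      (iso_of (F := F) hBL (T := toL (L := L) S hS2) hS1)
      (by
        apply LinearMap.ext
        intro v
        rw [toL_pow, hSr]; rfl)
      (by rw [hfr]; omega)
    exact index_prime_herm hKL hBL hL hσq hκ0 c hc hr hodd' hΩ j hj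
  · rintro rfl x hx ⟨z, hz⟩ hxn
    set T : Module.End F (Fin d ⊕ Fin d → F) := Matrix.toLin' x.1 with hTdef
    have hT : Iso (σ := RingHom.id F) (JB (F := F) d) T := (mem_spGL x).1 hx
    have hTz : T ^ 2 = z • (1 : Module.End F (Fin d ⊕ Fin d → F)) := by
      rw [scalar_iff, Units.val_pow_eq_pow_val] at hz
      rw [← hz]
      exact (map_pow Matrix.toLinAlgEquiv' x.1 2).symm
    have hz2 := sq_scalar (jb_nd d) hT hTz
    rw [pow_two] at hz2
    rcases mul_self_eq_one_iff.1 hz2 with rfl | rfl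
    · have hT1 : T ^ 2 = ((1 : F) ^ 2) • (1 : Module.End F (Fin d ⊕ Fin d → F)) := by rw [hTz, one_pow]
      obtain ⟨j, hj⟩ := even_neg (jb_alt (F := F) d) (jb_nd d) h2F hT hT1
      have hjd : j ≤ d := by
        have h1 := Submodule.finrank_le (E T (-1))
        rw [finrank_jb] at h1
        omega
      obtain ⟨S, hS1, hS2, hS3, hS4⟩ := exists_herm_diag (F := F) h2F hBL hκ0 c hc hjd
      have hS3' : S ^ 2 = ((1 : F) ^ 2) • (1 : Module.End F (Fin d ⊕ Fin d → F)) := by rw [hS3, one_pow, one_smul]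
      obtain ⟨g, hg⟩ := conj_of_sq h2F (one_ne_zero) hT1 hS3' rfl (by rw [hS4, hLk]; omega)
      obtain ⟨h, hh, hh'⟩ := conj_spGL hx hS1 (compl_of_sq h2F one_ne_zero hTz) g hg
      refine ⟨h, hh, mem_normalizer hKL (1 : L ≃ₐ[F] L) ?_⟩
      rw [hh']
      exact hS2
    · obtain ⟨y, hy⟩ := Cfsg.Agent.Lib.ClUnitary.exists_norm hL (c := (-1 : L)) (by rw [hodd.neg_one_pow])
      have hy' : y * σ y = -1 := by rw [hσq, ← pow_succ', hy]
      obtain ⟨S, hS1, hS2, hS3⟩ := exists_herm_neg (F := F) hBL hκ0 hκ hσ c hc hy'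
      obtain ⟨g, hg⟩ := conj_neg_one (jb_nd d) h2F hT hS1 hTz hS3
      obtain ⟨h, hh, hh'⟩ := conj_spGL hx hS1 (compl_of_sq h2F (neg_ne_zero.2 one_ne_zero) hTz) g hg
      refine ⟨h, hh, mem_normalizer hKL (AlgEquiv.ofBijective σ ⟨σ.toRingHom.injective, fun a => ⟨σ a, hσ a⟩⟩) ?_⟩
      rw [hh']
      exact hS2

end Cfsg.Agent.S5976
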