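import Cfsg.Statements.S5977
import Cfsg.Agent.Lib.OFg

set_option autoImplicit false
open scoped MatrixGroups
open Cfsg

namespace Cfsg.Agent.S5977

open Cfsg.Agent.Lib.OFg Cfsg.Agent.Lib.Quad

/-- Elements of prime order of PΩ⁺_n(q), q odd, and the field-extension subgroups of degree 2 (orthogonal type over F_{q²}). Here `T = PΩ⁺_{2d}(F)` for a field `F` with `q` elements, `q` odd, `d ≥ 4`, realised through `Ω⁺_{2d}(q)`, the commutator subgroup of the isometry group of `Q = Σ xᵢyᵢ`, with polar form `B`; `K` is a subalgebra of the `2d × 2d` matrices that is a field of degree 2 over `F` whose elements are self-adjoint for `B` (so `F^{2d}` becomes a `d`-dimensional space over `K ≅ F_{q²}` on which `B` is the trace of a `K`-bilinear symmetric form); `H` is the subgroup of `Ω⁺_{2d}(q)` normalizing `K` — the elements of `Ω⁺_{2d}(q)` that are `K`-linear or `K`-semilinear, a subgroup of orthogonal type over the quadratic extension (maximality is not assumed). Ω is the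 set of cosets of `H`, so an element of `T` of prime order `r` (`x ∈ Ω⁺_{2d}(q)` with `x^r` scalar, `x` not scalar) fixes a point of Ω exactly when some `Ω⁺_{2d}(q)`-conjugate of `x` normalizes `K`. Let `r` be a prime dividing the index of `H`. Then every element of `T` of order `r` fixes a point of Ω if and only if `r = 2`. -/
theorem result {F : Type*} [Field F] [Fintype F] {p : ℕ} [Fact p.Prime] [CharP F p] {q : ℕ} (hq : Fintype.card F = q)
    (hodd : Odd q) (d : ℕ) (hd : 4 ≤ d)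
    (K : Subalgebra F (Matrix (Fin d ⊕ Fin d) (Fin d ⊕ Fin d) F)) (hK : Cfsg.Geo.IsFieldSubalgebra 2 K)
    (hKf : Cfsg.Geo.IsSelfAdjointFor (QuadraticMap.polar (Cfsg.quadFormPlus d F)) K)
    (r : ℕ) [Fact r.Prime]
    (hΩ : r ∣ (Cfsg.Geo.subalgebraNormalizer K).relIndex (Cfsg.Geo.omegaGL (Cfsg.quadFormPlus d F))) :
    (∀ x ∈ Cfsg.Geo.omegaGL (Cfsg.quadFormPlus d F), (∃ z : F, ((x ^ r : GL (Fin d ⊕ Fin d) F) : Matrix (Fin d ⊕ Fin d) (Fin d ⊕ Fin d) F) = z • (1 : Matrix (Fin d ⊕ Fin d) (Fin d ⊕ Fin d) F)) →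
      (∀ z : F, (x : Matrix (Fin d ⊕ Fin d) (Fin d ⊕ Fin d) F) ≠ z • (1 : Matrix (Fin d ⊕ Fin d) (Fin d ⊕ Fin d) F)) →
      ∃ g ∈ Cfsg.Geo.omegaGL (Cfsg.quadFormPlus d F), g⁻¹ * x * g ∈ Cfsg.Geo.subalgebraNormalizer K) ↔ r = 2 := by
  have h2 : (2 : F) ≠ 0 := two_ne_zero_of_odd hq hodd
  exact main (p := p) h2 (Q := quadPlus d F) nd_quadPlus hd finrank_plus hK hKf hΩ

end Cfsg.Agent.S5977
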