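import Cfsg.Statements.S5979
import Cfsg.Agent.Lib.TenFix2
import Cfsg.Agent.Lib.ElusiveTool

set_option autoImplicit false
open scoped MatrixGroups
open Cfsg

namespace Cfsg.Agent.S5979

open Cfsg.Agent.Lib.TenFix Cfsg.Agent.Lib.ElusiveTool Cfsg.Agent.Lib.AltSim Cfsg.Agent.Lib.ElusiveLin Cfsg.Agent.Lib.JordanNil Cfsg.Agent.Lib.ElusiveUni
  Cfsg.Agent.Lib.PrimeOrd Cfsg.Agent.Lib.InvSub Module Matrix
open scoped Kronecker

section
variable {F : Type*} [Field F] {n : ℕ}

theorem tl_toGL (X : Matrix.SpecialLinearGroup (Fin n) F) : Matrix.toLin' (Matrix.SpecialLinearGroup.toGL X).1 = tl X := rfl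

/-- a conjugator from equality of tensor type -/
theorem exists_conj_of {a b : ℕ} {e : Fin n ≃ Fin a × Fin b} {P : GL (Fin n) F} [Finite F] (hn : 0 < n)
    {x : GL (Fin n) F} {T : Module.End F (Fin n → F)} (hT : T = Matrix.toLin' x.1)
    (hcompl : ∀ W, Inv T W → ∃ W', Inv T W' ∧ IsCompl W W')
    (A : GL (Fin a) F) (B : GL (Fin b) F)
    (h : ∀ S : Module.End F (Fin n → F), (∀ v, phi e P (S v) = Matrix.toLin' B.1 ∘ₗ phi e P v ∘ₗ Matrix.toLin' (A.1)ᵀ) →
      ∃ g : (Fin n → F) ≃ₗ[F] (Fin n → F), ∀ v, g (T v) = S (g v)) :
    ∃ g ∈ Cfsg.Geo.specialLinear (Fin n) F, g⁻¹ * x * g ∈ Cfsg.Geo.tensorProductSubgroup a b e P := by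
  classical
  have hne : Nonempty (Fin n) := ⟨⟨0, hn⟩⟩
  let S : Module.End F (Fin n → F) := 
    { toFun := fun v => (phi e P).symm (Matrix.toLin' B.1 ∘ₗ phi e P v ∘ₗ Matrix.toLin' (A.1)ᵀ)
      map_add' := by
        intro u v
        rw [map_add, LinearMap.add_comp, LinearMap.comp_add, map_add]
      map_smul' := by
        intro c v
        rw [map_smul, LinearMap.smul_comp, LinearMap.comp_smul, map_smul, RingHom.id_apply] }
  have hS : ∀ v, phi e P (S v) = Matrix.toLin' B.1 ∘ₗ phi e P v ∘ₗ Matrix.toLin' (A.1)ᵀ := by
    intro v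
    exact LinearEquiv.apply_symm_apply _ _
  obtain ⟨g, hg⟩ := h S hS
  obtain ⟨C, hC, hdet⟩ := Cfsg.Agent.Lib.FieldComm.exists_comm_full hcompl (LinearMap.det (g : (Fin n → F) →ₗ[F] (Fin n → F)))⁻¹
  have hdg : LinearMap.det (g : (Fin n → F) →ₗ[F] (Fin n → F)) ≠ 0 := (LinearEquiv.isUnit_det' g).ne_zero
  let G : Module.End F (Fin n → F) := (g : (Fin n → F) →ₗ[F] (Fin n → F)) * C
  have hGdet : LinearMap.det G = 1 := by
    rw [map_mul, hdet, mul_inv_cancel₀ hdg]
  let M : Matrix (Fin n) (Fin n) F := LinearMap.toMatrix' G
  have hM : M.det = 1 := by rw [LinearMap.det_toMatrix', hGdet]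
  let k : GL (Fin n) F := Matrix.GeneralLinearGroup.mkOfDetNeZero M (by rw [hM]; exact one_ne_zero)
  have hk : k ∈ Cfsg.Geo.specialLinear (Fin n) F := by
    rw [Cfsg.Geo.specialLinear, MonoidHom.mem_ker]
    ext
    rw [Matrix.GeneralLinearGroup.val_det_apply]
    exact hM
  refine ⟨k⁻¹, inv_mem hk, ?_⟩
  rw [inv_inv, mem_iff]
  refine ⟨A, B, fun v => ?_⟩
  rw [← hS]
  congr 1
  have h1 : ∀ w, k.1 *ᵥ w = G w := by
    intro w
    rw [← Matrix.toLin'_apply]
    exact congrArg (fun f : Module.End F (Fin n → F) => f w) (Matrix.toLin'_toMatrix' G)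
  have h2 : ∀ w, G (T w) = S (G w) := by
    intro w
    show g (C (T w)) = S (g (C w))
    rw [← hg]
    congr 1
    exact congrArg (fun f : Module.End F (Fin n → F) => f w) hC
  have h3 : v = G ((k⁻¹).1 *ᵥ v) := by
    rw [← h1, Matrix.mulVec_mulVec, ← Units.val_mul, mul_inv_cancel, Units.val_one, Matrix.one_mulVec]
  conv_rhs => rw [h3]
  rw [← h2, ← h1, hT, Matrix.toLin'_apply, Matrix.mulVec_mulVec, Matrix.mulVec_mulVec, ← Units.val_mul, ← Units.val_mul, mul_assoc]

end

/-- Elements of prime order of PSL_n(q) and the stabilizers of tensor decompositions with factors of different dimensions. Here `T = PSL_n(F)` for a field `F` with `q` elements and `n = a·b` with `2 ≤ a < b`; a tensor decomposition `F^n ≅ F^a ⊗ F^b` is given by a bijection `e` of index sets and a change of basis `P`, and `H` is the subgroup of matrices of determinant 1 in its stabilizer (the conjugate by `P` of the group of Kronecker products `g₁ ⊗ g₂`) — a subgroup of type GL_a(q) ⊗ GL_b(q) (maximality is not assumed); Ω is the set of cosets of `H` in `T`, so an element of `T`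 of prime order `r` (a matrix `x` of determinant 1 with `x^r` scalar, `x` not scalar) fixes a point of Ω exactly when some conjugate of `x` by a matrix of determinant 1 lies in `H`. Let `r` be a prime dividing the index of `H`. Then every element of `T` of order `r` fixes a point of Ω if and only if `r = 2`, `a = 2`, `q` is odd and `(q − 1)_2 ≤ (n)_2` (2-parts). -/
theorem result {F : Type*} [Field F] [Fintype F] {p : ℕ} [Fact p.Prime] [CharP F p] {q : ℕ} (hq : Fintype.card F = q)
    (n a b : ℕ) (hab : n = a * b) (ha : 2 ≤ a) (hlt : a < b) (e : Fin n ≃ Fin a × Fin b) (P : GL (Fin n) F)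
    (r : ℕ) [Fact r.Prime]
    (hΩ : r ∣ (Cfsg.Geo.tensorProductSubgroup a b e P).relIndex (Cfsg.Geo.specialLinear (Fin n) F)) :
    (∀ x ∈ Cfsg.Geo.specialLinear (Fin n) F, (∃ z : F, ((x ^ r : GL (Fin n) F) : Matrix (Fin n) (Fin n) F) = z • (1 : Matrix (Fin n) (Fin n) F)) →
      (∀ z : F, (x : Matrix (Fin n) (Fin n) F) ≠ z • (1 : Matrix (Fin n) (Fin n) F)) →
      ∃ g ∈ Cfsg.Geo.specialLinear (Fin n) F, g⁻¹ * x * g ∈ Cfsg.Geo.tensorProductSubgroup a b e P) ↔
    (r = 2 ∧ a = 2 ∧ Odd q ∧ padicValNat 2 (q - 1) ≤ padicValNat 2 n) := by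
  classical
  subst hq
  have hr : r.Prime := Fact.out
  have hp : p.Prime := Fact.out
  have hb : 3 ≤ b := by omega
  have hn6 : 6 ≤ n := by
    rw [hab]
    calc 6 = 2 * 3 := rfl
      _ ≤ a * b := Nat.mul_le_mul ha hb
  have hn0 : 0 < n := by omega
  have hmem : ∀ X : Matrix.SpecialLinearGroup (Fin n) F, Matrix.SpecialLinearGroup.toGL X ∈ Cfsg.Geo.specialLinear (Fin n) F := by
    intro X
    rw [Cfsg.Geo.specialLinear, MonoidHom.mem_ker]
    ext
    rw [Matrix.GeneralLinearGroup.val_det_apply]
    exact X.2
  constructor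
  · intro hall
    have hTD : ∀ X : Matrix.SpecialLinearGroup (Fin n) F, (∃ z : F, (tl X) ^ r = z • (1 : Module.End F (Fin n → F))) →
        (∀ z : F, tl X ≠ z • (1 : Module.End F (Fin n → F))) →
        ∃ (A : GL (Fin a) F) (B : GL (Fin b) F), TD (tl X) (Matrix.toLin' (A.1)ᵀ) (Matrix.toLin' B.1) := by
      rintro X ⟨z, hz⟩ hne
      obtain ⟨g, -, hg⟩ := hall (Matrix.SpecialLinearGroup.toGL X) (hmem X) ⟨z, by
        rw [tl_pow, tl_eq_smul_iff] at hz
        rw [← hz]
        simp⟩ (by
        intro z hz
        exact hne z ((tl_eq_smul_iff _ _).2 hz))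
      obtain ⟨A, B, h⟩ := exists_TD hg
      exact ⟨A, B, h⟩
    have hdims : ∀ X : Matrix.SpecialLinearGroup (Fin n) F, (∃ z : F, (tl X) ^ r = z • (1 : Module.End F (Fin n → F))) →
        (∀ z : F, tl X ≠ z • (1 : Module.End F (Fin n → F))) →
        (∀ y : F, finrank F (E (tl X) y) + b ≤ n) ∨ (∀ y : F, a ∣ finrank F (E (tl X) y)) := by
      intro X h1 h2
      obtain ⟨A, B, h⟩ := hTD X h1 h2
      rcases dims (by omega) h with h3 | h3
      · left
        intro y
        have := h3 y
        omega
      · exact Or.inr h3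
    have han : a ∣ n := ⟨b, hab⟩
    -- `r = p`
    have hrp : r ≠ p := by
      rintro rfl
      obtain ⟨X, hX, hE⟩ := exists_transv (F := F) (n := n) (p := r) (by omega)
      have hns : ∀ z : F, tl X ≠ z • (1 : Module.End F (Fin n → F)) := by
        intro z hz
        by_cases h1 : z = 1
        · have : E (tl X) 1 = ⊤ := by
            rw [eq_top_iff]
            intro w _
            rw [Module.End.mem_eigenspace_iff, hz, h1]
            rfl
          rw [this, finrank_top, Module.finrank_fintype_fun_eq_card, Fintype.card_fin] at hE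
          omega
        · have : E (tl X) 1 = ⊥ := by
            rw [eq_bot_iff]
            intro w hw
            rw [Module.End.mem_eigenspace_iff, hz, LinearMap.smul_apply, Module.End.one_apply] at hw
            have h2 : (z - 1) • w = 0 := by rw [sub_smul, hw, sub_self]
            rcases smul_eq_zero.1 h2 with h3 | h3
            · exact absurd (sub_eq_zero.1 h3) h1
            · exact h3
          rw [this, finrank_bot] at hE
          omega
      rcases hdims X ⟨1, by rw [hX, one_smul]⟩ hns with h | h
      · have := h 1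
        omega
      · have h1 := h 1
        have h2 : a ∣ 1 := by
          rw [Nat.dvd_add_right h1 |>.symm, hE]
          exact han
        have := Nat.le_of_dvd one_pos h2
        omega
    have hpq : ¬ r ∣ Fintype.card F := by
      obtain ⟨k, -, hk⟩ := FiniteField.card F p
      intro h
      rw [hk] at h
      exact hrp ((Nat.prime_dvd_prime_iff_eq hr hp).mp (hr.dvd_of_dvd_pow h))
    set o := orderOf ((Fintype.card F : ℕ) : ZMod r) with ho
    have hopos : 0 < o := order_pos (F := F) (p := p) (r := r) hrp
    have hon : o ≤ n := by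
      apply order_le_of_dvd_SL hn0 hr hpq
      refine (hΩ.trans (Subgroup.relIndex_dvd_card _ _)).trans (dvd_of_eq ?_)
      apply Nat.card_congr
      refine ⟨fun x => ⟨x.1.1, ?_⟩, fun X => ⟨Matrix.SpecialLinearGroup.toGL X, hmem X⟩, fun x => ?_, fun X => ?_⟩
      · have h1 : Matrix.GeneralLinearGroup.det x.1 = 1 := MonoidHom.mem_ker.1 x.2
        have := congrArg Units.val h1
        rwa [Matrix.GeneralLinearGroup.val_det_apply] at this
      · exact Subtype.ext (Units.ext rfl)
      · rfl
    by_cases ho1 : o = 1
    · obtain ⟨ζ, hζr, hζ1⟩ := exists_root_of_order_one (F := F) hr ho1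
      have hζ0 : ζ ≠ 0 := by
        rintro rfl
        rw [zero_pow hr.ne_zero] at hζr
        exact zero_ne_one hζr
      obtain ⟨X, hXr, hXn, hXE⟩ := exists_diag2 (n := n) (by omega) (1 : F) ζ ζ⁻¹ (by
        rw [mul_inv_cancel₀ hζ0, one_pow, one_mul]) hζ1
      have hd := hdims X ⟨1, hXr r 1 hζr (by rw [inv_pow, hζr, inv_one]) (one_pow r)⟩ hXn
      have hE1 : finrank F (E (tl X) 1) = n - 2 := by
        rw [hXE, if_neg hζ1, if_neg (fun h => hζ1 (inv_eq_one.1 h)), if_pos rfl]
        omega
      have hd2 : ∀ y : F, a ∣ finrank F (E (tl X) y) := by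
        rcases hd with h | h
        · have := h 1
          rw [hE1] at this
          omega
        · exact h
      have hr2 : r = 2 := by
        by_contra hr2
        have hne : ζ⁻¹ ≠ ζ := by
          intro h
          have h1 : ζ ^ 2 = 1 := by rw [pow_two]; nth_rewrite 1 [← h]; exact inv_mul_cancel₀ hζ0
          have hodd : Odd r := hr.odd_of_ne_two hr2
          obtain ⟨k, hk⟩ := hodd
          rw [hk, pow_succ, pow_mul, h1, one_pow, one_mul] at hζr
          exact hζ1 hζr
        have := hd2 ζ
        rw [hXE, if_pos rfl, if_neg hne, if_neg (Ne.symm hζ1)] at this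
        have := Nat.le_of_dvd (by norm_num) this
        omega
      subst hr2
      have hp2 : p ≠ 2 := Ne.symm hrp
      have h2F : (2 : F) ≠ 0 := by
        have := cast_ne_zero (F := F) (p := p) (r := 2) hrp
        exact_mod_cast this
      have hodd : Odd (Fintype.card F) := by
        rw [← Nat.not_even_iff_odd, even_iff_two_dvd]
        exact hpq
      have hζ : ζ = -1 := by
        rw [pow_two] at hζr
        rcases mul_self_eq_one_iff.mp hζr with h | h
        · exact absurd h hζ1
        · exact h
      have ha2 : a = 2 := by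
        have := hd2 ζ
        have hinv : ζ⁻¹ = ζ := by rw [hζ]; norm_num
        rw [hXE, if_pos rfl, if_pos hinv, if_neg (Ne.symm hζ1)] at this
        have := Nat.le_of_dvd (by norm_num) this
        omega
      refine ⟨rfl, ha2, hodd, ?_⟩
      by_contra hlt
      push Not at hlt
      obtain ⟨y, hy⟩ := exists_root_neg_one hn0 hlt
      have hy0 : y ≠ 0 := by
        rintro rfl
        rw [zero_pow hn0.ne'] at hy
        exact (neg_ne_zero.mpr (one_ne_zero (α := F))) hy.symm
      have hyy : -y ≠ y := by
        intro h
        have h1 : (2 : F) * y = 0 := by linear_combination -h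
        rcases mul_eq_zero.1 h1 with h3 | h3
        · exact h2F h3
        · exact hy0 h3
      obtain ⟨Y, hYr, hYn, hYE⟩ := exists_diag2 (n := n) (by omega) y (-y) y (by
        have h3 : y ^ n = y * y * y ^ (n - 2) := by
          rw [← pow_two, ← pow_add]; congr 1; omega
        rw [h3] at hy
        linear_combination -hy) hyy
      rcases hdims Y ⟨y ^ 2, hYr 2 (y ^ 2) (by ring) rfl rfl⟩ hYn with h | h
      · have := h y
        rw [hYE, if_neg hyy, if_pos rfl, if_pos rfl] at this
        omega
      · have := h (-y)
        rw [hYE, if_pos rfl, if_neg (Ne.symm hyy), if_neg (Ne.symm hyy)] at this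
        have := Nat.le_of_dvd (by norm_num) this
        omega
    · -- `r` does not divide `q - 1`
      exfalso
      obtain ⟨X, f, -, -, hXr, -, hss, hty⟩ := exists_typeB (F := F) (n := n) (p := p) (r := r) hrp (by omega)
        (s := 1) (k := n - o) (by rw [one_mul]; omega)
      have hE : finrank F (E (tl X) 1) = n - o := by
        have := hty.fin_e
        rwa [top_inf_eq] at this
      have hXn := nonscalar_of_ty hss (by omega) hty one_pos
      obtain ⟨A, B, hT⟩ := hTD X ⟨1, by rw [hXr, one_smul]⟩ hXn
      have hna : Nonempty (Fin a) := ⟨⟨0, by omega⟩⟩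
      have hnb : Nonempty (Fin b) := ⟨⟨0, by omega⟩⟩
      -- normalise
      obtain ⟨c, hc, hAc, hBc⟩ := (by have := hT.pow r; rwa [hXr] at this : TD (1 : Module.End F (Fin n → F)) ((Matrix.toLin' (A.1)ᵀ) ^ r) ((Matrix.toLin' B.1) ^ r)).one
      obtain ⟨β, hβ0, hβ⟩ := exists_rth_root (F := F) hr (by rw [← ho]; exact ho1) c hc
      set A' : Module.End F (Fin a → F) := β⁻¹ • Matrix.toLin' (A.1)ᵀ with hA'
      set B' : Module.End F (Fin b → F) := (β⁻¹)⁻¹ • Matrix.toLin' B.1 with hB'
      have hT' : TD (tl X) A' B' := hT.smul (inv_ne_zero hβ0)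
      have hA'r : A' ^ r = 1 := by
        rw [hA', smul_pow, hAc, smul_smul, inv_pow, hβ, inv_mul_cancel₀ hc, one_smul]
      have hB'r : B' ^ r = 1 := by
        rw [hB', smul_pow, hBc, smul_smul, inv_inv, hβ, mul_inv_cancel₀ hc, one_smul]
      have hssA : SS A' 1 o := ssB (p := p) hrp one_ne_zero (by rw [hA'r, one_pow, one_smul])
      have hssB : SS B' 1 o := ssB (p := p) hrp one_ne_zero (by rw [hB'r, one_pow, one_smul])
      obtain ⟨ea, sa, htya⟩ := hssA.exists_ty (W := ⊤) inv_top
      obtain ⟨eb, sb, htyb⟩ := hssB.exists_ty (W := ⊤) inv_top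
      have hA1 := htya.fin
      have hA2 := htya.fin_e
      have hB1 := htyb.fin
      have hB2 := htyb.fin_e
      rw [finrank_top, Module.finrank_fintype_fun_eq_card, Fintype.card_fin] at hA1 hB1
      rw [top_inf_eq] at hA2 hB2
      by_cases hAs : A' = 1
      · -- `A' = 1`
        have h1 := (hAs ▸ hT' : TD (tl X) (1 : Module.End F (Fin a → F)) B').finrank_E_one 1
        rw [hE, hB2, Module.finrank_fintype_fun_eq_card, Fintype.card_fin] at h1
        have h2 : a * b = a * eb + a * (sb * o) := by rw [hB1]; ring
        rw [← hab] at h2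
        have h3 : o = a * (sb * o) := by omega
        have hsb : sb ≠ 0 := by
          rintro rfl
          rw [zero_mul, mul_zero] at h3
          omega
        have h4 : 2 * o ≤ a * (sb * o) := by
          apply Nat.mul_le_mul ha
          exact Nat.le_mul_of_pos_left o (Nat.pos_of_ne_zero hsb)
        omega
      · have hAns : ∀ c : F, A' ≠ c • (1 : Module.End F (Fin a → F)) := by
          intro c hc'
          apply hAs
          have h1 : c ^ r = 1 := by
            have h2 := hA'r
            rw [hc', smul_pow, one_pow] at h2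
            by_contra hne
            obtain ⟨w, hw⟩ := exists_ne (0 : Fin a → F)
            have h3 := congrArg (fun f : Module.End F (Fin a → F) => f w) h2
            simp only [LinearMap.smul_apply, Module.End.one_apply] at h3
            have h4 : (c ^ r - 1) • w = 0 := by rw [sub_smul, h3, one_smul, sub_self]
            rcases smul_eq_zero.1 h4 with h5 | h5
            · exact hne (sub_eq_zero.1 h5)
            · exact hw h5
          have h2 : c = 1 := by
            by_contra hne
            apply ho1
            rw [ho]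
            have hc0 : c ≠ 0 := by
              rintro rfl
              rw [zero_pow hr.ne_zero] at h1
              exact zero_ne_one h1
            have h3 : orderOf (Units.mk0 c hc0) = r := by
              apply orderOf_eq_prime
              · ext; simpa using h1
              · intro h; apply hne; simpa using congrArg Units.val h
            have h4 := orderOf_dvd_natCard (Units.mk0 c hc0)
            rw [h3, Nat.card_units, Nat.card_eq_fintype_card] at h4
            exact Nat.dvd_one.1 (Cfsg.Agent.Lib.SubspaceCount.orderOf_dvd_of_dvd (k := 1) Fintype.card_pos (by rwa [pow_one]))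
          rw [hc', h2, one_smul]
        have hbij : Function.Bijective B' := by
          have h1 := bijective_toLin' B
          constructor
          · intro u v huv
            apply h1.1
            rw [hB', LinearMap.smul_apply, LinearMap.smul_apply] at huv
            exact smul_right_injective _ (inv_ne_zero (inv_ne_zero hβ0)) huv
          · intro v
            obtain ⟨w, hw⟩ := h1.2 (β⁻¹ • v)
            refine ⟨w, ?_⟩
            rw [hB', LinearMap.smul_apply, hw, smul_smul, inv_mul_cancel₀ (inv_ne_zero hβ0), one_smul]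
        have h1 := hT'.finrank_E_le hbij hAns 1
        rw [hE, Module.finrank_fintype_fun_eq_card, Fintype.card_fin, Module.finrank_fintype_fun_eq_card, Fintype.card_fin, ← hab] at h1
        have hsa : sa ≠ 0 := by
          rintro rfl
          rw [zero_mul, add_zero] at hA1
          apply hAs
          have : E A' 1 = ⊤ := by
            apply Submodule.eq_top_of_finrank_eq
            rw [hA2, Module.finrank_fintype_fun_eq_card, Fintype.card_fin, hA1]
          apply LinearMap.ext
          intro v
          have hv : v ∈ E A' 1 := by rw [this]; trivial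
          rw [Module.End.mem_eigenspace_iff, one_smul] at hv
          exact hv
        have h2 : o ≤ sa * o := Nat.le_mul_of_pos_left o (Nat.pos_of_ne_zero hsa)
        omega
  · rintro ⟨rfl, rfl, hodd, hv⟩ x hx ⟨z, hz⟩ hxn
    have hp2 : (2 : ℕ) ≠ p := by
      rintro rfl
      obtain ⟨k, -, hk⟩ := FiniteField.card F 2
      rw [hk] at hodd
      have := hodd.of_dvd_nat (dvd_pow_self 2 k.2.ne')
      exact absurd this (by decide)
    have h2F : (2 : F) ≠ 0 := by
      have := cast_ne_zero (F := F) (p := p) (r := 2) hp2
      exact_mod_cast this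
    have hdx : x.1.det = 1 := by
      rw [Cfsg.Geo.specialLinear, MonoidHom.mem_ker] at hx
      have := congrArg Units.val hx
      rwa [Matrix.GeneralLinearGroup.val_det_apply] at this
    let X : Matrix.SpecialLinearGroup (Fin n) F := ⟨x.1, hdx⟩
    have hXT : tl X = Matrix.toLin' x.1 := rfl
    have hX2 : ((X ^ 2 : Matrix.SpecialLinearGroup (Fin n) F) : Matrix (Fin n) (Fin n) F) = z • (1 : Matrix (Fin n) (Fin n) F) := by
      rw [Matrix.SpecialLinearGroup.coe_pow]
      rw [Units.val_pow_eq_pow_val] at hz
      exact hz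
    have hTz : (tl X) ^ 2 = z • (1 : Module.End F (Fin n → F)) := by rw [tl_pow, tl_eq_smul_iff, hX2]
    rcases structure_of (p := p) (r := 2) hp2 X z hX2 hn0 with ⟨y, hy0, hy, hss⟩ | ⟨hnp, hss, -, m, hm, hnm, hdet⟩
    · have hT' : (tl X) ^ 2 = (y ^ 2) • (1 : Module.End F (Fin n → F)) := by rw [hTz, hy]
      have hdet := det_inv h2F hy0 hT'
      rw [det_tl] at hdet
      have hfin := Submodule.finrank_add_eq_of_isCompl (isCompl_inv h2F hy0 hT')
      rw [Module.finrank_fintype_fun_eq_card, Fintype.card_fin] at hfin
      set e1 := finrank F (E (tl X) y) with he1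
      set s1 := finrank F (E (tl X) (-y)) with hs1
      have hs : Even s1 := by
        by_contra hodd'
        rw [Nat.not_even_iff_odd] at hodd'
        have h1 : y ^ n = -1 := by
          rw [neg_pow, hodd'.neg_one_pow] at hdet
          rw [← hfin, pow_add]
          linear_combination hdet
        have := val_lt_of_root h2F hn0 h1
        omega
      obtain ⟨j, hj⟩ := hs
      have hjb : j ≤ b := by omega
      let d : Fin b → F := fun i => if (i : ℕ) < j then -y else y
      have hd0 : ∀ i, d i ≠ 0 := by
        intro i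
        simp only [d]
        split_ifs
        · exact neg_ne_zero.2 hy0
        · exact hy0
      have hdd : (Matrix.diagonal d).det ≠ 0 := by
        rw [Matrix.det_diagonal, Finset.prod_ne_zero_iff]
        intro i _; exact hd0 i
      refine exists_conj_of (T := tl X) hn0 hXT hss.compl (1 : GL (Fin 2) F) (Matrix.GeneralLinearGroup.mkOfDetNeZero (Matrix.diagonal d) hdd) ?_
      intro S hS
      have hSd : ∀ v, phi e P (S v) = Matrix.toLin' (Matrix.diagonal d) ∘ₗ phi e P v ∘ₗ (1 : Module.End F (Fin 2 → F)) := by
        intro v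
        rw [hS]
        have : Matrix.toLin' ((1 : GL (Fin 2) F).1)ᵀ = (1 : Module.End F (Fin 2 → F)) := by
          rw [Units.val_one, Matrix.transpose_one, Matrix.toLin'_one]; rfl
        rw [this]
        rfl
      have hTDS : TD S (1 : Module.End F (Fin 2 → F)) (Matrix.toLin' (Matrix.diagonal d)) := ⟨phi e P, hSd⟩
      have hdy : Finset.card (Finset.univ.filter fun i => d i = -y) = j := by
        have : (Finset.univ.filter fun i => d i = -y) = Finset.univ.filter fun i : Fin b => (i : ℕ) < j := by
          ext i
          simp only [d, Finset.mem_filter, Finset.mem_univ, true_and]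
          constructor
          · intro h
            by_contra hlt
            rw [if_neg hlt] at h
            have h1 : (2 : F) * y = 0 := by linear_combination h
            rcases mul_eq_zero.1 h1 with h3 | h3
            · exact h2F h3
            · exact hy0 h3
          · intro h
            rw [if_pos h]
        rw [this, Fin.card_filter_val_lt]
        omega
      apply conj_of_sq h2F hy0 hT' _ rfl
      · rw [hTDS.finrank_E_one, finrank_E_diag, hdy, Module.finrank_fintype_fun_eq_card, Fintype.card_fin, ← hs1, hj]
        ring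
      · apply LinearMap.ext
        intro v
        apply (phi e P).injective
        rw [pow_two, Module.End.mul_apply, hSd, hSd, LinearMap.smul_apply, Module.End.one_apply, map_smul]
        have hdd2 : Matrix.toLin' (Matrix.diagonal d) ∘ₗ Matrix.toLin' (Matrix.diagonal d) = (y ^ 2) • (1 : Module.End F (Fin b → F)) := by
          rw [← Matrix.toLin'_mul, Matrix.diagonal_mul_diagonal]
          have : (fun i => d i * d i) = fun _ => y ^ 2 := by
            funext i
            simp only [d]
            split_ifs <;> ring
          rw [this, ← Matrix.smul_one_eq_diagonal, map_smul, Matrix.toLin'_one]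
          rfl
        rw [← LinearMap.comp_assoc, ← LinearMap.comp_assoc, ← LinearMap.comp_assoc, hdd2]
        rfl
    · -- nonsquare
      have hirr := Cfsg.Agent.Lib.ExtField.irred_sq hnp
      have hz0 : z ≠ 0 := by
        rintro rfl
        exact hnp 0 (by simp)
      let A : GL (Fin 2) F := Matrix.GeneralLinearGroup.mkOfDetNeZero !![0, z; 1, 0] (by
        rw [Matrix.det_fin_two_of]; simpa using hz0)
      refine exists_conj_of (T := tl X) hn0 hXT hss.compl A (1 : GL (Fin b) F) ?_
      intro S hS
      apply Cfsg.Agent.Lib.ExtField.exists_conj_irred hirr.1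
      · rw [map_sub, map_pow, Polynomial.aeval_X, Polynomial.aeval_C, hTz, Algebra.algebraMap_eq_smul_one, sub_self]
      · rw [map_sub, map_pow, Polynomial.aeval_X, Polynomial.aeval_C, Algebra.algebraMap_eq_smul_one, sub_eq_zero]
        apply LinearMap.ext
        intro v
        apply (phi e P).injective
        rw [pow_two, Module.End.mul_apply, hS, hS, LinearMap.smul_apply, Module.End.one_apply, map_smul]
        have h1 : Matrix.toLin' ((1 : GL (Fin b) F).1) = LinearMap.id := by
          rw [Units.val_one, Matrix.toLin'_one]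
        have h2 : Matrix.toLin' (A.1)ᵀ ∘ₗ Matrix.toLin' (A.1)ᵀ = z • LinearMap.id := by
          rw [← Matrix.toLin'_mul]
          have : (A.1)ᵀ * (A.1)ᵀ = z • (1 : Matrix (Fin 2) (Fin 2) F) := by
            ext i j
            fin_cases i <;> fin_cases j <;> simp [A, Matrix.mul_apply, Fin.sum_univ_two, Matrix.GeneralLinearGroup.mkOfDetNeZero]
          rw [this, map_smul, Matrix.toLin'_one]
        rw [h1, LinearMap.id_comp, LinearMap.id_comp, LinearMap.comp_assoc, h2, LinearMap.comp_smul, LinearMap.comp_id]
      · rfl

end Cfsg.Agent.S5979
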