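import Cfsg.Statements.S5980
import Cfsg.Agent.Lib.SpConj3

set_option autoImplicit false
open scoped MatrixGroups
open Cfsg

namespace Cfsg.Agent.S5980

open Cfsg.Agent.Lib.SpConj Cfsg.Agent.Lib.TenFix Cfsg.Agent.Lib.ElusiveTool Cfsg.Agent.Lib.Sesq Cfsg.Agent.Lib.PrimeOrd
  Cfsg.Agent.Lib.InvSub Module Matrix
open Cfsg.Agent.Lib.AltSim (JB)

section
variable {F : Type*} [Field F]

theorem nonscalar_of {V : Type*} [AddCommGroup V] [Module F V] [FiniteDimensional F V] {T : Module.End F V} {y : F}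
    (h1 : 0 < finrank F (E T y)) (h2 : finrank F (E T y) < finrank F V) (z : F) : T ≠ z • (1 : Module.End F V) := by
  intro hz
  have hz' : ∀ w, T w = z • w := fun w => by rw [hz]; rfl
  by_cases hzy : z = y
  · have : E T y = ⊤ := by
      rw [eq_top_iff]; intro w _
      rw [Module.End.mem_eigenspace_iff, hz', hzy]
    rw [this, finrank_top] at h2
    omega
  · have : E T y = ⊥ := by
      rw [eq_bot_iff]; intro w hw
      rw [Module.End.mem_eigenspace_iff, hz'] at hw
      have h2 : (z - y) • w = 0 := by rw [sub_smul, hw, sub_self]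
      exact (smul_eq_zero.1 h2).resolve_left (fun h => hzy (sub_eq_zero.1 h))
    rw [this, finrank_bot] at h1
    omega

/-- the odd case, arithmetic contradiction -/
theorem odd_case [Fintype F] {V : Type*} [AddCommGroup V] [Module F V] [FiniteDimensional F V] {p r a b : ℕ}
    (hp : p.Prime) (hc : CharP F p) (hr : r.Prime) (hrp : r ≠ p) (hodd : Odd r) (ha2 : 2 ≤ a) (hb : 3 ≤ b)
    (hV : finrank F V = a * b) {T : Module.End F V} (hTr : T ^ r = 1) (hE : finrank F (E T 1) + csz F r = a * b)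
    {B₁ : (Fin a → F) →ₗ[F] (Fin a → F) →ₗ[F] F} {B₂ : (Fin b → F) →ₗ[F] (Fin b → F) →ₗ[F] F}
    (halt : Alt B₁) (hnd : ND (σ := RingHom.id F) B₁ ⊤) (hsymm : ∀ u v, B₂ u v = B₂ v u) (hnd2 : ∀ u, (∀ v, B₂ u v = 0) → u = 0)
    (A : GL (Fin a) F) (B : GL (Fin b) F) {μ : F} (hμ : μ ≠ 0) (hTD : TD T (Matrix.toLin' (A.1)ᵀ) (Matrix.toLin' B.1))
    (hA : ∀ u u', B₁ (A.1 *ᵥ u) (A.1 *ᵥ u') = μ * B₁ u u') (hB : ∀ w w', B₂ (B.1 *ᵥ w) (B.1 *ᵥ w') = μ⁻¹ * B₂ w w') : False := by
  classical
  haveI : Fact p.Prime := ⟨hp⟩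
  haveI : Fact r.Prime := ⟨hr⟩
  have hna : Nonempty (Fin a) := ⟨⟨0, by omega⟩⟩
  have hnb : Nonempty (Fin b) := ⟨⟨0, by omega⟩⟩
  have hfa : finrank F (Fin a → F) = a := by simp
  have hfb : finrank F (Fin b → F) = b := by simp
  -- scalars
  obtain ⟨c, hc0, hAc, hBc⟩ := (by have := hTD.pow r; rwa [hTr] at this : TD (1 : Module.End F V) ((Matrix.toLin' (A.1)ᵀ) ^ r) ((Matrix.toLin' B.1) ^ r)).one
  have hAc' : (Matrix.toLin' A.1) ^ r = c • (1 : Module.End F (Fin a → F)) := by
    have h1 : (Matrix.toLin' (A.1)ᵀ) ^ r = Matrix.toLin' (((A.1)ᵀ) ^ r) := (map_pow Matrix.toLinAlgEquiv' (A.1)ᵀ r).symm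
    have h2 : (Matrix.toLin' A.1) ^ r = Matrix.toLin' (A.1 ^ r) := (map_pow Matrix.toLinAlgEquiv' A.1 r).symm
    have h3 : ((A.1)ᵀ) ^ r = c • (1 : Matrix (Fin a) (Fin a) F) := by
      apply Matrix.toLin'.injective
      rw [← h1, hAc, map_smul, Matrix.toLin'_one]; rfl
    have h4 : A.1 ^ r = c • (1 : Matrix (Fin a) (Fin a) F) := by
      have := congrArg Matrix.transpose h3
      rw [Matrix.transpose_pow, Matrix.transpose_transpose, Matrix.transpose_smul, Matrix.transpose_one] at this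
      exact this
    rw [h2, h4, map_smul, Matrix.toLin'_one]; rfl
  have hne1 : ∃ u u', B₁ u u' ≠ 0 := by
    obtain ⟨v, hv⟩ := exists_ne (0 : Fin a → F)
    by_contra hcon
    push Not at hcon
    exact hv (hnd v Submodule.mem_top (fun w _ => hcon v w))
  obtain ⟨δ, hδ, hA', hB', hAr, hBr⟩ := normalise (B₁ := B₁) (B₂ := B₂) (A := Matrix.toLin' A.1) (B := Matrix.toLin' B.1) hμ hc0 hne1 hA hB hodd hAc' hBc
  set M : Matrix (Fin a) (Fin a) F := δ⁻¹ • A.1 with hM
  set N : Matrix (Fin b) (Fin b) F := δ • B.1 with hN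
  have hMl : δ⁻¹ • Matrix.toLin' A.1 = Matrix.toLin' M := by rw [hM, map_smul]
  have hNl : δ • Matrix.toLin' B.1 = Matrix.toLin' N := by rw [hN, map_smul]
  rw [hMl] at hA' hAr
  rw [hNl] at hB' hBr
  have hTD' : TD T (Matrix.toLin' Mᵀ) (Matrix.toLin' N) := by
    have := hTD.smul (inv_ne_zero hδ)
    rw [inv_inv] at this
    have h1 : Matrix.toLin' Mᵀ = δ⁻¹ • Matrix.toLin' (A.1)ᵀ := by rw [hM, Matrix.transpose_smul, map_smul]
    rw [h1, ← hNl]
    exact this
  have hTDs := hTD'.swap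
  -- the two factors
  have hPO : PO F p r B₁ (Matrix.toLin' M) := ⟨hp, hc, hr, hrp, hodd, halt, hnd, hA', hAr⟩
  obtain ⟨s, hs⟩ := hPO.exists_ty inv_top hnd
  have hs1 := hs.f
  rw [top_inf_eq, finrank_top, hfa] at hs1
  obtain ⟨t, ht⟩ := csz_dvd_symm hp hc hr hrp hodd hsymm hnd2 hB' hBr
  rw [hfb] at ht
  have hcpos : 0 < csz F r := hPO.csz_pos
  set cc := csz F r with hcc
  -- transposes
  have hMt : ∀ y, finrank F (E (Matrix.toLin' Mᵀ) y) = finrank F (E (Matrix.toLin' M) y) := finrank_E_transpose M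
  have hNt : ∀ y, finrank F (E (Matrix.toLin' Nᵀ) y) = finrank F (E (Matrix.toLin' N) y) := finrank_E_transpose N
  have bij : ∀ {n : ℕ} {K : Matrix (Fin n) (Fin n) F}, (Matrix.toLin' K) ^ r = 1 → Function.Bijective (Matrix.toLin' K) := by
    intro n K hK
    have hr1 : r = (r - 1) + 1 := by have := hr.pos; omega
    constructor
    · intro u v huv
      have h1 : ∀ w, ((Matrix.toLin' K) ^ (r - 1)) (Matrix.toLin' K w) = w := by
        intro w
        rw [← Module.End.mul_apply, ← pow_succ, ← hr1, hK]; rfl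
      rw [← h1 u, huv, h1]
    · intro v
      refine ⟨((Matrix.toLin' K) ^ (r - 1)) v, ?_⟩
      rw [← Module.End.mul_apply, ← pow_succ', ← hr1, hK]; rfl
  have tr : ∀ {n : ℕ} {K : Matrix (Fin n) (Fin n) F}, (∀ c : F, Matrix.toLin' K ≠ c • (1 : Module.End F (Fin n → F))) →
      ∀ c : F, Matrix.toLin' Kᵀ ≠ c • (1 : Module.End F (Fin n → F)) := by
    intro n K h c hc
    apply h c
    have h1 : Kᵀ = c • (1 : Matrix (Fin n) (Fin n) F) := by
      apply Matrix.toLin'.injective
      rw [hc, map_smul, Matrix.toLin'_one]; rfl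
    have h2 : K = c • (1 : Matrix (Fin n) (Fin n) F) := by
      have := congrArg Matrix.transpose h1
      rwa [Matrix.transpose_transpose, Matrix.transpose_smul, Matrix.transpose_one] at this
    rw [h2, map_smul, Matrix.toLin'_one]; rfl
  by_cases hM1 : Matrix.toLin' M = 1
  · -- `M = 1`
    have hMt1 : Matrix.toLin' Mᵀ = 1 := by
      have h1 : M = 1 := by
        apply Matrix.toLin'.injective
        rw [hM1, Matrix.toLin'_one]; rfl
      rw [h1, Matrix.transpose_one, Matrix.toLin'_one]; rfl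
    have h1 := (hMt1 ▸ hTD' : TD T (1 : Module.End F (Fin a → F)) (Matrix.toLin' N)).finrank_E_one 1
    rw [hfa] at h1
    have h2 : a * b = a * finrank F (E (Matrix.toLin' N) 1) + a * (t * cc) := by rw [← mul_add, ← ht]
    have h3 : cc = a * (t * cc) := by omega
    have ht0 : t ≠ 0 := by rintro rfl; rw [zero_mul, mul_zero] at h3; omega
    have h4 : 2 * cc ≤ a * (t * cc) := Nat.mul_le_mul ha2 (Nat.le_mul_of_pos_left cc (Nat.pos_of_ne_zero ht0))
    omega
  by_cases hN1 : Matrix.toLin' N = 1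
  · have hNt1 : Matrix.toLin' Nᵀ = 1 := by
      have h1 : N = 1 := by
        apply Matrix.toLin'.injective
        rw [hN1, Matrix.toLin'_one]; rfl
      rw [h1, Matrix.transpose_one, Matrix.toLin'_one]; rfl
    have h1 := (hNt1 ▸ hTDs : TD T (1 : Module.End F (Fin b → F)) (Matrix.toLin' M)).finrank_E_one 1
    rw [hfb] at h1
    have h2 : a * b = b * finrank F (E (Matrix.toLin' M) 1) + b * (s * cc) := by rw [← mul_add, ← hs1]; ring
    have h3 : cc = b * (s * cc) := by omega
    have hs0 : s ≠ 0 := by rintro rfl; rw [zero_mul, mul_zero] at h3; omega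
    have h4 : 3 * cc ≤ b * (s * cc) := Nat.mul_le_mul hb (Nat.le_mul_of_pos_left cc (Nat.pos_of_ne_zero hs0))
    omega
  -- both nonscalar
  have nsc : ∀ {n : ℕ} (hn : 0 < n) {K : Matrix (Fin n) (Fin n) F} {B : (Fin n → F) →ₗ[F] (Fin n → F) →ₗ[F] F}, (∃ u u', B u u' ≠ 0) →
      (∀ u v, B (Matrix.toLin' K u) (Matrix.toLin' K v) = B u v) → (Matrix.toLin' K) ^ r = 1 → Matrix.toLin' K ≠ 1 →
      ∀ c : F, Matrix.toLin' K ≠ c • (1 : Module.End F (Fin n → F)) := by
    intro n hn K B hne hiso hK h1 c hc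
    apply h1
    have hnn : Nonempty (Fin n) := ⟨⟨0, hn⟩⟩
    obtain ⟨u, u', hu⟩ := hne
    have h2 := hiso u u'
    rw [hc] at h2
    simp only [LinearMap.smul_apply, Module.End.one_apply, map_smul, smul_eq_mul] at h2
    have h3 : (c ^ 2 - 1) * B u u' = 0 := by linear_combination h2
    have h4 : c ^ 2 = 1 := sub_eq_zero.1 ((mul_eq_zero.1 h3).resolve_right hu)
    have h5 : c ^ r = 1 := by
      obtain ⟨v, hv⟩ := exists_ne (0 : Fin n → F)
      have h6 := congrArg (fun f : Module.End F (Fin n → F) => f v) hK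
      rw [hc, smul_pow, one_pow] at h6
      simp only [LinearMap.smul_apply, Module.End.one_apply] at h6
      have h7 : (c ^ r - 1) • v = 0 := by rw [sub_smul, h6, one_smul, sub_self]
      exact sub_eq_zero.1 ((smul_eq_zero.1 h7).resolve_right hv)
    obtain ⟨k, hk⟩ := hodd
    rw [hk, pow_succ, pow_mul, h4, one_pow, one_mul] at h5
    rw [hc, h5, one_smul]
  have hne2 : ∃ u u', B₂ u u' ≠ 0 := by
    obtain ⟨v, hv⟩ := exists_ne (0 : Fin b → F)
    by_contra hcon
    push Not at hcon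
    exact hv (hnd2 v (fun w => hcon v w))
  have hMns := nsc (by omega) hne1 hA' hAr hM1
  have hNns := nsc (by omega) hne2 hB' hBr hN1
  have hb1 := hTD'.finrank_E_le (bij hBr) (tr hMns) 1
  have hb2 := hTDs.finrank_E_le (bij hAr) (tr hNns) 1
  rw [hfa, hfb] at hb1
  rw [hfa, hfb, mul_comm b a] at hb2
  have hs0 : s ≠ 0 := by
    rintro rfl
    rw [zero_mul, add_zero] at hs1
    apply hM1
    have : E (Matrix.toLin' M) 1 = ⊤ := by
      apply Submodule.eq_top_of_finrank_eq
      rw [hfa]; exact hs1.symm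
    apply LinearMap.ext
    intro v
    have hv : v ∈ E (Matrix.toLin' M) 1 := by rw [this]; trivial
    rw [Module.End.mem_eigenspace_iff, one_smul] at hv
    exact hv
  have hca : cc ≤ s * cc := Nat.le_mul_of_pos_left cc (Nat.pos_of_ne_zero hs0)
  -- `a = b = c`
  have e1 : a = cc := by omega
  have hE0 : finrank F (E (Matrix.toLin' M) 1) = 0 := by omega
  have hE0' : E (Matrix.toLin' Mᵀ) 1 = ⊥ := by
    apply Submodule.finrank_eq_zero.1
    rw [hMt, hE0]
  have hMtr : (Matrix.toLin' Mᵀ) ^ r = 1 := by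
    have h1 : (Matrix.toLin' Mᵀ) ^ r = Matrix.toLin' (Mᵀ ^ r) := (map_pow Matrix.toLinAlgEquiv' Mᵀ r).symm
    have h2 : (Matrix.toLin' M) ^ r = Matrix.toLin' (M ^ r) := (map_pow Matrix.toLinAlgEquiv' M r).symm
    have h3 : M ^ r = 1 := by
      apply Matrix.toLin'.injective
      rw [← h2, hAr, Matrix.toLin'_one]; rfl
    have h4 : Mᵀ ^ r = 1 := by rw [← Matrix.transpose_pow, h3, Matrix.transpose_one]
    rw [h1, h4, Matrix.toLin'_one]; rfl
  have hss : SS (Matrix.toLin' Mᵀ) 1 (orderOf ((Fintype.card F : ℕ) : ZMod r)) := ssB (p := p) hrp one_ne_zero (by rw [hMtr, one_pow, one_smul])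
  have hX : finrank F (Fin a → F) = orderOf ((Fintype.card F : ℕ) : ZMod r) ∨ finrank F (Fin a → F) = 2 * orderOf ((Fintype.card F : ℕ) : ZMod r) := by
    rw [hfa, e1, hcc, csz, csize]
    split_ifs
    · exact Or.inl rfl
    · exact Or.inr rfl
  have h2 := hTD'.finrank_E_le_two (bij hBr) hss hE0' hX 1
  rw [hfb] at h2
  -- a b - c ≤ 2 b, a = c, b ≤ c
  have h3 : 3 ≤ a := by omega
  have h4 : a * b ≤ 2 * b + a := by omega
  have h5 : b ≤ a := by omega
  have ht0 : t ≠ 0 := by
    rintro rfl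
    rw [zero_mul, add_zero] at ht
    apply hN1
    have : E (Matrix.toLin' N) 1 = ⊤ := by
      apply Submodule.eq_top_of_finrank_eq
      rw [hfb]; exact ht.symm
    apply LinearMap.ext
    intro v
    have hv : v ∈ E (Matrix.toLin' N) 1 := by rw [this]; trivial
    rw [Module.End.mem_eigenspace_iff, one_smul] at hv
    exact hv
  have hcb : cc ≤ t * cc := Nat.le_mul_of_pos_left cc (Nat.pos_of_ne_zero ht0)
  have h6 : a ≤ b := by omega
  have h7 : a = b := le_antisymm h6 h5
  rw [← h7] at h4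
  have h8 : a * a ≤ 3 * a := by omega
  have h9 : a ≤ 3 := Nat.le_of_mul_le_mul_right h8 (by omega)
  have h10 : a = 3 := by omega
  have h11 := csz_even (F := F) (r := r)
  rw [← hcc, ← e1, h10] at h11
  exact absurd h11 (by decide)

theorem finrank_E_conj {V W : Type*} [AddCommGroup V] [Module F V] [AddCommGroup W] [Module F W] {T : Module.End F V}
    {S : Module.End F W} (g : V ≃ₗ[F] W) (hg : ∀ v, g (T v) = S (g v)) (y : F) : finrank F (E T y) = finrank F (E S y) := by
  have h : (E T y).map (g : V →ₗ[F] W) = E S y := by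
    ext w
    constructor
    · rintro ⟨v, hv, rfl⟩
      have hv' := Module.End.mem_eigenspace_iff.1 hv
      rw [Module.End.mem_eigenspace_iff]
      show S (g v) = y • g v
      rw [← hg, hv', map_smul]
    · intro hw
      have hw' := Module.End.mem_eigenspace_iff.1 hw
      refine ⟨g.symm w, ?_, g.apply_symm_apply w⟩
      rw [SetLike.mem_coe, Module.End.mem_eigenspace_iff]
      apply g.injective
      rw [hg, map_smul, LinearEquiv.apply_symm_apply, hw']
  rw [← h]
  exact (LinearEquiv.finrank_map_eq g _).symm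

variable {d a b : ℕ}

theorem conj_into [Finite F] {e : (Fin d ⊕ Fin d) ≃ Fin a × Fin b} {P : GL (Fin d ⊕ Fin d) F}
    {f₁ : (Fin a → F) → (Fin a → F) → F} {f₂ : (Fin b → F) → (Fin b → F) → F}
    (hf₁ : Cfsg.Geo.IsBilinearForm f₁) (hf₂ : Cfsg.Geo.IsBilinearForm f₂)
    (hS : Cfsg.Geo.IsTensorFormStructure id (Cfsg.sympForm d F) f₁ f₂ e P)
    {x : GL (Fin d ⊕ Fin d) F} (hx : x ∈ Cfsg.spGL d F)
    (hcompl : ∀ W, Inv (Matrix.toLin' x.1) W → ∃ W', Inv (Matrix.toLin' x.1) W' ∧ IsCompl W W')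
    (A : GL (Fin a) F) (B : GL (Fin b) F) (hA : ∀ u u', f₁ (A.1 *ᵥ u) (A.1 *ᵥ u') = f₁ u u')
    (hB : ∀ w w', f₂ (B.1 *ᵥ w) (B.1 *ᵥ w') = f₂ w w')
    (h : ∀ S : Module.End F (Fin d ⊕ Fin d → F), Iso (σ := RingHom.id F) (JB (F := F) d) S →
      (∀ v, phi e P (S v) = Matrix.toLin' B.1 ∘ₗ phi e P v ∘ₗ Matrix.toLin' (A.1)ᵀ) →
      ∃ g : (Fin d ⊕ Fin d → F) ≃ₗ[F] (Fin d ⊕ Fin d → F), ∀ v, g (Matrix.toLin' x.1 v) = S (g v)) :
    ∃ g ∈ Cfsg.spGL d F, g⁻¹ * x * g ∈ Cfsg.Geo.tensorProductSubgroup a b e P := by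
  let S : Module.End F (Fin d ⊕ Fin d → F) :=
    { toFun := fun v => (phi e P).symm (Matrix.toLin' B.1 ∘ₗ phi e P v ∘ₗ Matrix.toLin' (A.1)ᵀ)
      map_add' := by
        intro u v
        rw [map_add, LinearMap.add_comp, LinearMap.comp_add, map_add]
      map_smul' := by
        intro c v
        rw [map_smul, LinearMap.smul_comp, LinearMap.comp_smul, map_smul, RingHom.id_apply] }
  have hS' : ∀ v, phi e P (S v) = Matrix.toLin' B.1 ∘ₗ phi e P v ∘ₗ Matrix.toLin' (A.1)ᵀ := by
    intro v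
    exact LinearEquiv.apply_symm_apply _ _
  obtain ⟨c, hc, hform⟩ := form_ten e P hf₁ hf₂ hS
  have hiso : Iso (σ := RingHom.id F) (JB (F := F) d) S := by
    have h1 : (JB (F := F) d).compl₁₂ S S = JB (F := F) d := by
      apply ten_ext e P
      intro u w u' w'
      have h4 := act_ten e P (S := S) (A := A.1) (B := B.1) hS'
      show JB (F := F) d (S (ten e P u w)) (S (ten e P u' w')) = _
      rw [h4, h4]
      show Cfsg.sympForm d F (ten e P (A.1 *ᵥ u) (B.1 *ᵥ w)) (ten e P (A.1 *ᵥ u') (B.1 *ᵥ w')) = Cfsg.sympForm d F (ten e P u w) (ten e P u' w')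
      rw [hform, hform, hA, hB]
    intro u v
    have := congrArg (fun f : (Fin d ⊕ Fin d → F) →ₗ[F] (Fin d ⊕ Fin d → F) →ₗ[F] F => f u v) h1
    exact this
  obtain ⟨g, hg⟩ := h S hiso hS'
  obtain ⟨k, hk, hk'⟩ := conj_spGL hx hiso hcompl g hg
  refine ⟨k, hk, ?_⟩
  rw [mem_iff]
  refine ⟨A, B, fun v => ?_⟩
  rw [← hS', ← hk']
  rfl

/-- dimension of the eigenspaces of an isometry with square `-1` -/
theorem finrank_eig [Finite F] {V : Type*} [AddCommGroup V] [Module F V] [FiniteDimensional F V] {B : V →ₗ[F] V →ₗ[F] F}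
    (hnd : ND (σ := RingHom.id F) B ⊤) (h2 : (2 : F) ≠ 0) {T : Module.End F V} (hT : Iso (σ := RingHom.id F) B T) {y : F}
    (hy : y ^ 2 = -1) (hTT : T ^ 2 = (y ^ 2) • (1 : Module.End F V)) : 2 * finrank F (E T (-y)) = finrank F V := by
  have hy0 : y ≠ 0 := by rintro rfl; simp at hy
  have hti : ∀ t : F, t ^ 2 = -1 → 2 * finrank F (E T t) ≤ finrank F V := by
    intro t ht
    have h1 : E T t ≤ perp (σ := RingHom.id F) B (E T t) := by
      intro v hv w hw
      have hv' := Module.End.mem_eigenspace_iff.1 hv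
      have hw' := Module.End.mem_eigenspace_iff.1 hw
      have h3 := hT w v
      rw [hv', hw'] at h3
      simp only [map_smul, LinearMap.smul_apply, smul_eq_mul, LinearMap.map_smulₛₗ, RingHom.id_apply] at h3
      have h4 : (2 : F) * B w v = 0 := by linear_combination (-1 : F) * h3 + (B w v) * ht
      exact (mul_eq_zero.1 h4).resolve_left h2
    have h2 := Submodule.finrank_mono h1
    have h3 := finrank_add_perp hnd (E T t)
    omega
  have h1 := hti y hy
  have h2' := hti (-y) (by rw [neg_pow, hy]; norm_num)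
  have h3 := Submodule.finrank_add_eq_of_isCompl (Cfsg.Agent.Lib.AltSim.isCompl_inv h2 hy0 hTT)
  omega

/-- the eigenspace `-1` of an involutory isometry is nondegenerate -/
theorem nd_neg [Finite F] {V : Type*} [AddCommGroup V] [Module F V] [FiniteDimensional F V] {B : V →ₗ[F] V →ₗ[F] F}
    (hB : Alt B) (hnd : ND (σ := RingHom.id F) B ⊤) (h2 : (2 : F) ≠ 0) {T : Module.End F V} (hT : Iso (σ := RingHom.id F) B T)
    (hTT : T ^ 2 = ((1 : F) ^ 2) • (1 : Module.End F V)) : Even (finrank F (E T (-1))) := by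
  apply even_of_nd hB
  intro w hw hw'
  apply hnd w Submodule.mem_top
  intro v _
  have hc := Cfsg.Agent.Lib.AltSim.isCompl_inv h2 (one_ne_zero (α := F)) hTT
  have hv : v ∈ E T 1 ⊔ E T (-1) := by rw [hc.sup_eq_top]; trivial
  obtain ⟨a, ha, b, hb, rfl⟩ := Submodule.mem_sup.1 hv
  rw [map_add, hw' b hb, add_zero]
  have ha' := Module.End.mem_eigenspace_iff.1 ha
  have hw'' := Module.End.mem_eigenspace_iff.1 hw
  have h3 := hT w a
  rw [ha', hw''] at h3
  simp only [map_smul, LinearMap.smul_apply, smul_eq_mul, LinearMap.map_smulₛₗ, RingHom.id_apply] at h3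
  have h4 : (2 : F) * B w a = 0 := by linear_combination (-1 : F) * h3
  exact (mul_eq_zero.1 h4).resolve_left h2

/-- involutory isometries of symmetric forms -/
theorem exists_symm_invol (h2 : (2 : F) ≠ 0) {f : (Fin b → F) → (Fin b → F) → F} (hf : Cfsg.Geo.IsBilinearForm f)
    (hs : ∀ u v, f u v = f v u) {j : ℕ} (hj : j ≤ b) :
    ∃ B : GL (Fin b) F, (∀ w w', f (B.1 *ᵥ w) (B.1 *ᵥ w') = f w w') ∧ B.1 * B.1 = 1 ∧
      finrank F (E (Matrix.toLin' B.1) (-1)) = j := by
  classical
  haveI : Invertible (2 : F) := invertibleOfNonzero h2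
  let B₂ : LinearMap.BilinForm F (Fin b → F) := LinearMap.mk₂ F f hf.add_left hf.smul_left hf.add_right hf.smul_right
  have hB₂ : LinearMap.IsSymm B₂ := ⟨fun u v => by
    show (RingHom.id F) (f u v) = f v u
    rw [RingHom.id_apply]; exact hs u v⟩
  obtain ⟨v, hv⟩ := LinearMap.BilinForm.exists_orthogonal_basis hB₂
  have hfr : finrank F (Fin b → F) = b := by simp
  let ε : Fin (finrank F (Fin b → F)) → F := fun i => if (i : ℕ) < j then -1 else 1
  have hε : ∀ i, ε i * ε i = 1 := by
    intro i; simp only [ε]; split_ifs <;> norm_num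
  let N : Module.End F (Fin b → F) := Matrix.toLin v v (Matrix.diagonal ε)
  have hNv : ∀ i, N (v i) = ε i • v i := by
    intro i
    rw [Matrix.toLin_self, Finset.sum_eq_single i]
    · rw [Matrix.diagonal_apply_eq]
    · intro k _ hk
      rw [Matrix.diagonal_apply_ne _ hk, zero_smul]
    · intro h; exact absurd (Finset.mem_univ _) h
  have hNN : N * N = 1 := by
    apply v.ext
    intro i
    rw [Module.End.mul_apply, hNv, map_smul, hNv, smul_smul, hε, one_smul]; rfl
  let M : Matrix (Fin b) (Fin b) F := LinearMap.toMatrix' N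
  have hMM : M * M = 1 := by
    show LinearMap.toMatrix' N * LinearMap.toMatrix' N = 1
    rw [← LinearMap.toMatrix'_mul, hNN, LinearMap.toMatrix'_one]
  let G : GL (Fin b) F := ⟨M, M, hMM, hMM⟩
  have hG : Matrix.toLin' G.1 = N := Matrix.toLin'_toMatrix' N
  have hGv : ∀ w, G.1 *ᵥ w = N w := fun w => by rw [← hG]; rfl
  refine ⟨G, ?_, hMM, ?_⟩
  · intro w w'
    rw [hGv, hGv]
    have h1 : B₂.compl₁₂ N N = B₂ := by
      apply v.ext
      intro i
      apply v.ext
      intro k
      show B₂ (N (v i)) (N (v k)) = B₂ (v i) (v k)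
      rw [hNv, hNv]
      simp only [map_smul, LinearMap.smul_apply, smul_eq_mul]
      by_cases hik : i = k
      · rw [hik, ← mul_assoc, hε, one_mul]
      · have h3 : B₂ (v i) (v k) = 0 := hv hik
        rw [h3]; ring
    have := congrArg (fun f : (Fin b → F) →ₗ[F] (Fin b → F) →ₗ[F] F => f w w') h1
    exact this
  · rw [hG]
    have h1 : ∀ w, v.equivFun (N w) = Matrix.toLin' (Matrix.diagonal ε) (v.equivFun w) := by
      intro w
      have h2 : ((v.equivFun : (Fin b → F) →ₗ[F] _) ∘ₗ N) = (Matrix.toLin' (Matrix.diagonal ε)) ∘ₗ (v.equivFun : (Fin b → F) →ₗ[F] _) := by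
        apply v.ext
        intro i
        show v.equivFun (N (v i)) = Matrix.toLin' (Matrix.diagonal ε) (v.equivFun (v i))
        rw [hNv, map_smul]
        ext k
        rw [Matrix.toLin'_apply, Matrix.mulVec_diagonal, Pi.smul_apply, smul_eq_mul, Basis.equivFun_self]
        by_cases hik : i = k
        · rw [hik]
        · rw [if_neg hik]; ring
      exact congrArg (fun f : (Fin b → F) →ₗ[F] _ => f w) h2
    rw [finrank_E_conj v.equivFun h1, finrank_E_diag]
    have h3 : (Finset.univ.filter fun i => ε i = -1) = Finset.univ.filter fun i : Fin (finrank F (Fin b → F)) => (i : ℕ) < j := by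
      ext i
      simp only [ε, Finset.mem_filter, Finset.mem_univ, true_and]
      constructor
      · intro h
        by_contra hlt
        rw [if_neg hlt] at h
        exact h2 (by linear_combination h)
      · intro h; rw [if_pos h]
    rw [h3, Fin.card_filter_val_lt]
    omega

end

/-- Elements of prime order of PSp_n(q), q odd, and the stabilizers of tensor decompositions Sp_a(q) ⊗ O_b(q). Here `T = PSp_{2d}(F)` for a field `F` with `q` elements, `q` odd, `d ≥ 2`, realised through the matrices preserving the standard alternating form `f`; `2d = a·b` with `a` even, `b ≥ 3`, and the bijection `e` and change of basis `P` exhibit `f` as a non-zero scalar multiple of the tensor product of a non-degenerate alternating form `f₁` on `F^a` and a non-degenerate symmetric bilinear form `f₂` on `F^b`; `H` is the subgroup of `T` stabilizing this tensor decomposition (the elements of `T` in the conjugate by `P` of the group of Kronecker products) — a subgroup of type Sp_a(q)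 ⊗ O^ε_b(q) (maximality is not assumed). Ω is the set of cosets of `H` in `T`, so an element of `T` of prime order `r` (`x ∈ T` with `x^r` scalar, `x` not scalar) fixes a point of Ω exactly when some `T`-conjugate of `x` lies in `H`. Let `r` be a prime dividing the index of `H`. Then every element of `T` of order `r` fixes a point of Ω if and only if `r = 2` and `a = 2`. -/
theorem result {F : Type*} [Field F] [Fintype F] {p : ℕ} [Fact p.Prime] [CharP F p] {q : ℕ} (hq : Fintype.card F = q)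
    (hodd : Odd q) (d : ℕ) (hd : 2 ≤ d) (a b : ℕ) (hab : 2 * d = a * b) (ha : Even a) (ha2 : 2 ≤ a) (hb : 3 ≤ b)
    (e : (Fin d ⊕ Fin d) ≃ Fin a × Fin b) (P : GL (Fin d ⊕ Fin d) F)
    (f₁ : (Fin a → F) → (Fin a → F) → F) (f₂ : (Fin b → F) → (Fin b → F) → F)
    (hf₁ : Cfsg.Geo.IsSymplecticForm f₁) (hf₂ : Cfsg.Geo.IsSymmetricForm f₂)
    (hS : Cfsg.Geo.IsTensorFormStructure id (Cfsg.sympForm d F) f₁ f₂ e P)
    (r : ℕ) [Fact r.Prime]
    (hΩ : r ∣ (Cfsg.Geo.tensorProductSubgroup a b e P).relIndex (Cfsg.spGL d F)) :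
    (∀ x ∈ Cfsg.spGL d F, (∃ z : F, ((x ^ r : GL (Fin d ⊕ Fin d) F) : Matrix (Fin d ⊕ Fin d) (Fin d ⊕ Fin d) F) = z • (1 : Matrix (Fin d ⊕ Fin d) (Fin d ⊕ Fin d) F)) →
      (∀ z : F, (x : Matrix (Fin d ⊕ Fin d) (Fin d ⊕ Fin d) F) ≠ z • (1 : Matrix (Fin d ⊕ Fin d) (Fin d ⊕ Fin d) F)) →
      ∃ g ∈ Cfsg.spGL d F, g⁻¹ * x * g ∈ Cfsg.Geo.tensorProductSubgroup a b e P) ↔ (r = 2 ∧ a = 2) := by
  classical
  subst hq
  have hr : r.Prime := Fact.out
  have hp : p.Prime := Fact.out
  have hchar : CharP F p := inferInstance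
  have h2F : (2 : F) ≠ 0 := two_ne_zero_of_odd hodd
  have hn₁ : ∀ v, (∀ w, f₁ v w = 0) → v = 0 := by
    intro v hv
    by_contra h0
    obtain ⟨x, hx⟩ := (hf₁.nondegenerate v h0).2
    exact hx (hv x)
  have hn₂ : ∀ v, (∀ w, f₂ v w = 0) → v = 0 := by
    intro v hv
    by_contra h0
    obtain ⟨x, hx⟩ := (hf₂.nondegenerate v h0).2
    exact hx (hv x)
  have ha0 : 0 < a := by omega
  have hb0 : 0 < b := by omega
  have hfin : finrank F (Fin d ⊕ Fin d → F) = a * b := by rw [finrank_jb]; exact hab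
  have hpq : ¬ 2 ∣ Fintype.card F := by
    rw [← even_iff_two_dvd, Nat.not_even_iff_odd]; exact hodd
  have hp2 : p ≠ 2 := by
    rintro rfl
    obtain ⟨k, -, hk⟩ := FiniteField.card F 2
    apply hpq
    rw [hk]
    exact dvd_pow_self 2 k.2.ne'
  constructor
  · intro hall
    have hstr : ∀ T : Module.End F (Fin d ⊕ Fin d → F), Iso (σ := RingHom.id F) (JB (F := F) d) T →
        (∃ z : F, T ^ r = z • (1 : Module.End F (Fin d ⊕ Fin d → F))) →
        (∀ z : F, T ≠ z • (1 : Module.End F (Fin d ⊕ Fin d → F))) →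
        ∃ (A : GL (Fin a) F) (B : GL (Fin b) F) (μ : F), μ ≠ 0 ∧ TD T (Matrix.toLin' (A.1)ᵀ) (Matrix.toLin' B.1) ∧
          (∀ u u', f₁ (A.1 *ᵥ u) (A.1 *ᵥ u') = μ * f₁ u u') ∧ (∀ w w', f₂ (B.1 *ᵥ w) (B.1 *ᵥ w') = μ⁻¹ * f₂ w w') := by
      intro T h1 h2 h3
      obtain ⟨x, hx, hxT, g, hg, hmem⟩ := of_hall hall h1 h2 h3
      have := struct ha0 hb0 hf₁.bilinear hn₁ hf₂.bilinear hn₂ hS hx hg hmem
      rw [hxT] at this
      exact this
    have hrp : r ≠ p := by
      rintro rfl
      obtain ⟨T, hT, hTp, hE, hns⟩ := exists_transv (jb_alt (F := F) d) (jb_nd d) (p := r) (by rw [finrank_jb]; omega)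
      obtain ⟨A, B, μ, -, hTD, -, -⟩ := hstr T hT ⟨1, by rw [hTp, one_smul]⟩ hns
      rw [hfin] at hE
      rcases dims ha0 hTD with h | h
      · have := h 1
        omega
      · have h1 := h 1
        have h2 : a ∣ 1 := by
          rw [← Nat.dvd_add_right h1, hE]
          exact dvd_mul_right a b
        have := Nat.le_of_dvd one_pos h2
        omega
    by_cases hr2 : r = 2
    · subst hr2
      refine ⟨rfl, ?_⟩
      have hntop : (⊤ : Submodule F (Fin d ⊕ Fin d → F)) ≠ ⊥ := by
        intro h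
        have := finrank_top F (Fin d ⊕ Fin d → F)
        rw [h, finrank_bot, finrank_jb] at this
        omega
      obtain ⟨W, -, hWnd, hWf⟩ := exists_plane (jb_alt (F := F) d) (jb_nd d) hntop
      obtain ⟨T, hT, hT2, hE1, hE2⟩ := exists_invol h2F (jb_alt (F := F) d) W hWnd
      have hE1' : finrank F (E T (-1)) = 2 := by rw [hE1, hWf]
      have hE2' : finrank F (E T 1) + 2 = a * b := by
        have h3 := Submodule.finrank_add_eq_of_isCompl (isCompl_perp (jb_alt (F := F) d).refl hWnd)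
        rw [hE2, ← hfin, ← h3, hWf]; omega
      have h6 : 6 ≤ a * b := by
        calc 6 = 2 * 3 := rfl
          _ ≤ a * b := Nat.mul_le_mul ha2 hb
      obtain ⟨A, B, μ, -, hTD, -, -⟩ := hstr T hT ⟨1, by rw [hT2, one_smul]⟩
        (nonscalar_of (y := -1) (by omega) (by rw [hfin]; omega))
      rcases dims ha0 hTD with h | h
      · have := h 1
        omega
      · have h1 := h (-1)
        rw [hE1'] at h1
        have := Nat.le_of_dvd (by norm_num) h1
        omega
    · exfalso
      have hodd' : Odd r := hr.odd_of_ne_two hr2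
      have hcsz : csz F r ≤ 2 * d := by
        apply csz_le_of_dvd hr hrp
        rw [← card_spGL]
        exact hΩ.trans (Subgroup.relIndex_dvd_card _ _)
      obtain ⟨T, hPO, hE⟩ := exists_po hp hchar hr hrp hodd' 1 (jb_alt (F := F) d) (jb_nd d) (by rw [one_mul, finrank_jb]; exact hcsz)
      rw [one_mul, hfin] at hE
      have hcpos := hPO.csz_pos
      have hns : ∀ z : F, T ≠ z • (1 : Module.End F (Fin d ⊕ Fin d → F)) := by
        intro z hz
        have hne : Nonempty (Fin d ⊕ Fin d) := ⟨Sum.inl ⟨0, by omega⟩⟩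
        have h1 := hPO.eq_one hz
        have h2 : E T 1 = ⊤ := by
          rw [eq_top_iff]; intro w _
          rw [Module.End.mem_eigenspace_iff, h1, one_smul]; rfl
        rw [h2, finrank_top, hfin] at hE
        omega
      obtain ⟨A, B, μ, hμ, hTD, hA, hB⟩ := hstr T hPO.iso ⟨1, by rw [hPO.pow, one_smul]⟩ hns
      let B₁ : (Fin a → F) →ₗ[F] (Fin a → F) →ₗ[F] F := LinearMap.mk₂ F f₁ hf₁.bilinear.add_left hf₁.bilinear.smul_left
        hf₁.bilinear.add_right hf₁.bilinear.smul_right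
      let B₂ : (Fin b → F) →ₗ[F] (Fin b → F) →ₗ[F] F := LinearMap.mk₂ F f₂ hf₂.bilinear.add_left hf₂.bilinear.smul_left
        hf₂.bilinear.add_right hf₂.bilinear.smul_right
      exact odd_case hp hchar hr hrp hodd' ha2 hb hfin hPO.pow hE (B₁ := B₁) (B₂ := B₂) hf₁.alternating
        (fun w _ h => hn₁ w (fun v => h v Submodule.mem_top)) hf₂.symm hn₂ A B hμ hTD hA hB
  · rintro ⟨rfl, rfl⟩ x hx ⟨z, hz⟩ hxn
    have hdb : d = b := by omega
    have hnV : Nontrivial (Fin d ⊕ Fin d → F) := by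
      have hne : Nonempty (Fin d ⊕ Fin d) := ⟨Sum.inl ⟨0, by omega⟩⟩
      infer_instance
    set T : Module.End F (Fin d ⊕ Fin d → F) := Matrix.toLin' x.1 with hTdef
    have hT : Iso (σ := RingHom.id F) (JB (F := F) d) T := (mem_spGL x).1 hx
    have hTz : T ^ 2 = z • (1 : Module.End F (Fin d ⊕ Fin d → F)) := by
      rw [scalar_iff, Units.val_pow_eq_pow_val] at hz
      rw [← hz]
      exact (map_pow Matrix.toLinAlgEquiv' x.1 2).symm
    have hz2 := sq_scalar (jb_nd d) hT hTz
    rw [pow_two] at hz2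
    rcases mul_self_eq_one_iff.1 hz2 with rfl | rfl
    · -- involutions
      have hT1 : T ^ 2 = ((1 : F) ^ 2) • (1 : Module.End F (Fin d ⊕ Fin d → F)) := by rw [hTz, one_pow]
      have hss : SS T 1 (orderOf ((Fintype.card F : ℕ) : ZMod 2)) := ssB (p := p) (Ne.symm hp2) one_ne_zero hT1
      obtain ⟨j, hj⟩ := nd_neg (jb_alt d) (jb_nd d) h2F hT hT1
      have hjb : j ≤ b := by
        have := Submodule.finrank_le (E T (-1))
        rw [finrank_jb] at this
        omega
      obtain ⟨B, hB, hBB, hBE⟩ := exists_symm_invol h2F hf₂.bilinear hf₂.symm hjb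
      apply conj_into hf₁.bilinear hf₂.bilinear hS hx hss.compl (1 : GL (Fin 2) F) B (by intro u u'; simp) hB
      intro S _ hS'
      have hSd : ∀ v, phi e P (S v) = Matrix.toLin' B.1 ∘ₗ phi e P v ∘ₗ (1 : Module.End F (Fin 2 → F)) := by
        intro v
        rw [hS']
        have : Matrix.toLin' ((1 : GL (Fin 2) F).1)ᵀ = (1 : Module.End F (Fin 2 → F)) := by
          rw [Units.val_one, Matrix.transpose_one, Matrix.toLin'_one]; rfl
        rw [this]
      have hTDS : TD S (1 : Module.End F (Fin 2 → F)) (Matrix.toLin' B.1) := ⟨phi e P, hSd⟩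
      apply conj_of_sq h2F (one_ne_zero) hT1 _ rfl
      · rw [hTDS.finrank_E_one, hBE, Module.finrank_fintype_fun_eq_card, Fintype.card_fin, hj]
        ring
      · apply LinearMap.ext
        intro v
        apply (phi e P).injective
        rw [pow_two, Module.End.mul_apply, hSd, hSd, one_pow, one_smul, Module.End.one_apply]
        have hdd2 : Matrix.toLin' B.1 ∘ₗ Matrix.toLin' B.1 = (1 : Module.End F (Fin b → F)) := by
          rw [← Matrix.toLin'_mul, hBB, Matrix.toLin'_one]; rfl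
        rw [← LinearMap.comp_assoc, ← LinearMap.comp_assoc, ← LinearMap.comp_assoc, hdd2]
        rfl
    · -- square `-1`
      have hcompl : ∀ W, Inv T W → ∃ W', Inv T W' ∧ IsCompl W W' := by
        by_cases hsq : ∃ y : F, y ^ 2 = -1
        · obtain ⟨y, hy⟩ := hsq
          have hy0 : y ≠ 0 := by rintro rfl; simp at hy
          exact (ssB (p := p) (r := 2) (Ne.symm hp2) hy0 (by rw [hTz, hy])).compl
        · push Not at hsq
          exact (ssC Nat.prime_two hsq hTz).1.compl
      let A : GL (Fin 2) F := Matrix.GeneralLinearGroup.mkOfDetNeZero !![0, -1; 1, 0] (by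
        rw [Matrix.det_fin_two_of]; simp)
      have hA : A.1 = !![0, -1; 1, 0] := rfl
      apply conj_into hf₁.bilinear hf₂.bilinear hS hx hcompl A (1 : GL (Fin b) F) (by
        intro u u'
        rw [form_eq_gram hf₁.bilinear, form_eq_gram hf₁.bilinear]
        have g00 : Cfsg.Geo.gramMatrix f₁ 0 0 = 0 := hf₁.alternating _
        have g11 : Cfsg.Geo.gramMatrix f₁ 1 1 = 0 := hf₁.alternating _
        have g10 : Cfsg.Geo.gramMatrix f₁ 1 0 = - Cfsg.Geo.gramMatrix f₁ 0 1 := hf₁.skew _ _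
        simp only [Fin.sum_univ_two, g00, g11, g10, hA]
        simp [Matrix.mulVec, dotProduct, Fin.sum_univ_two]
        ring) (by intro w w'; simp)
      intro S hSi hS'
      have hSS : S ^ 2 = (-1 : F) • (1 : Module.End F (Fin d ⊕ Fin d → F)) := by
        apply LinearMap.ext
        intro v
        apply (phi e P).injective
        rw [pow_two, Module.End.mul_apply, hS', hS', LinearMap.smul_apply, Module.End.one_apply, map_smul]
        have h1 : Matrix.toLin' ((1 : GL (Fin b) F).1) = LinearMap.id := by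
          rw [Units.val_one, Matrix.toLin'_one]
        have h2 : Matrix.toLin' (A.1)ᵀ ∘ₗ Matrix.toLin' (A.1)ᵀ = (-1 : F) • LinearMap.id := by
          rw [← Matrix.toLin'_mul]
          have : (A.1)ᵀ * (A.1)ᵀ = (-1 : F) • (1 : Matrix (Fin 2) (Fin 2) F) := by
            rw [hA]
            ext i j
            fin_cases i <;> fin_cases j <;> simp [Matrix.mul_apply, Fin.sum_univ_two]
          rw [this, map_smul, Matrix.toLin'_one]
        rw [h1, LinearMap.id_comp, LinearMap.id_comp, LinearMap.comp_assoc, h2, LinearMap.comp_smul, LinearMap.comp_id]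
      by_cases hsq : ∃ y : F, y ^ 2 = -1
      · obtain ⟨y, hy⟩ := hsq
        have hy0 : y ≠ 0 := by rintro rfl; simp at hy
        apply conj_of_sq h2F hy0 (by rw [hTz, hy]) (by rw [hSS, hy]) rfl
        have h1 := finrank_eig (jb_nd d) h2F hT hy (by rw [hTz, hy])
        have h2 := finrank_eig (jb_nd d) h2F hSi hy (by rw [hSS, hy])
        show finrank F (E T (-y)) = _
        omega
      · push Not at hsq
        have hirr := Cfsg.Agent.Lib.ExtField.irred_sq hsq
        apply Cfsg.Agent.Lib.ExtField.exists_conj_irred hirr.1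
        · rw [map_sub, map_pow, Polynomial.aeval_X, Polynomial.aeval_C, hTz, Algebra.algebraMap_eq_smul_one, sub_self]
        · rw [map_sub, map_pow, Polynomial.aeval_X, Polynomial.aeval_C, hSS, Algebra.algebraMap_eq_smul_one, sub_self]
        · rfl

end Cfsg.Agent.S5980
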