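import Cfsg.Statements.S5981
import Cfsg.Agent.Lib.QSim4
import Cfsg.Agent.Lib.OrthBridge
import Cfsg.Agent.Lib.ElusiveTool

set_option autoImplicit false
open scoped MatrixGroups
open Cfsg

namespace Cfsg.Agent.S5981

open Cfsg.Agent.Lib.QSim Cfsg.Agent.Lib.XSym Cfsg.Agent.Lib.PrimeOrd Cfsg.Agent.Lib.InvSub Cfsg.Agent.Lib.ElusiveLin Module Matrix QuadraticMap
open Cfsg.Agent.Lib.Quad Cfsg.Agent.Lib.QuadD67 Cfsg.Agent.Lib.QuadEmb67 Cfsg.Agent.Lib.OrthR67 Cfsg.Agent.Lib.ClOrthOrd
open Cfsg.Agent.Lib.NormTool (mem_SL_iff)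
open Cfsg.Agent.Lib.UnForm (exists_prim)
open Cfsg.Agent.Lib.OrthBridge (qf nd_qf)

theorem exists_ab {F : Type*} [Field F] [Fintype F] : ∃ b : F, ∀ x y : F, x ^ 2 + 1 * x * y + b * y ^ 2 = 0 → x = 0 ∧ y = 0 := by
  obtain ⟨b, hb⟩ := Cfsg.Agent.Lib.QuadEmb67.exists_b (F := F)
  refine ⟨b, fun x y h => ?_⟩
  have h1 := pl_aniso hb (x, y) (by rw [Cfsg.Agent.Lib.OReal67.pl_apply]; linear_combination h)
  exact ⟨congrArg Prod.fst h1, congrArg Prod.snd h1⟩

section
variable {F : Type*} [Field F] [Fintype F] {n : ℕ}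

theorem key_plus {r : ℕ} [hr : Fact r.Prime] (hrF : (r : F) ≠ 0) (heven : Even (orderOf ((Fintype.card F : ℕ) : ZMod r)))
    {Q : QuadraticForm F (Fin n → F)} (hQ : Nd Q) {m : ℕ} (hnm : n = 2 * (m + 1) ∨ n = 2 * (m + 1) + 1)
    (hd : r ∣ (Cfsg.Geo.quadSimilarityGroup ⇑Q).relIndex (Cfsg.Geo.specialLinear (Fin n) F))
    (h : n = 2 * (m + 1) → D Q = (Fintype.card F : ℤ) ^ (m + 1)) : r ∣ Fintype.card F ^ (m + 1) + 1 := by
  have hq : 1 < Fintype.card F := Fintype.one_lt_card
  obtain ⟨j, hj⟩ := emb hQ (nd_quadPlus (m := m + 1) (F := F)) (by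
    rcases hnm with h1 | h1
    · right
      rw [finrank_plus, Module.finrank_fin_fun, D_quadPlus, h h1, Nat.card_eq_fintype_card]
      exact ⟨h1.symm, ⟨m + 1, by omega⟩, rfl⟩
    · left
      rw [finrank_plus, Module.finrank_fin_fun]; omega)
  have h1 : 1 < Fintype.card F ^ (m + 1) := Nat.one_lt_pow (by omega) hq
  refine index_key hrF heven hQ hnm hd nd_quadPlus hj (X := Fintype.card F ^ (m + 1) - 1) (by omega) ?_ (card_O_plus m)
  rw [mul_comm, ← Nat.sq_sub_sq, one_pow, ← pow_mul, mul_comm (m + 1)]

theorem key_minus {r : ℕ} [hr : Fact r.Prime] (hrF : (r : F) ≠ 0) (heven : Even (orderOf ((Fintype.card F : ℕ) : ZMod r)))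
    {Q : QuadraticForm F (Fin n → F)} (hQ : Nd Q) {m : ℕ} (hnm : n = 2 * (m + 1) ∨ n = 2 * (m + 1) + 1)
    (hd : r ∣ (Cfsg.Geo.quadSimilarityGroup ⇑Q).relIndex (Cfsg.Geo.specialLinear (Fin n) F))
    (h : n = 2 * (m + 1) → D Q = -(Fintype.card F : ℤ) ^ (m + 1)) : r ∣ Fintype.card F ^ (m + 1) - 1 := by
  have hq : 1 < Fintype.card F := Fintype.one_lt_card
  obtain ⟨b, hab⟩ := exists_ab (F := F)
  have hnd : Nd (quadMinus m F 1 b) := nd_quadMinus (disc_ne_zero_of_anisotropic hab)
  obtain ⟨j, hj⟩ := emb hQ hnd (by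
    rcases hnm with h1 | h1
    · right
      rw [finrank_minus, Module.finrank_fin_fun, D_quadMinus m hab, h h1, Nat.card_eq_fintype_card]
      exact ⟨by omega, ⟨m + 1, by omega⟩, rfl⟩
    · left
      rw [finrank_minus, Module.finrank_fin_fun]; omega)
  have h1 : 1 < Fintype.card F ^ (m + 1) := Nat.one_lt_pow (by omega) hq
  refine index_key hrF heven hQ hnm hd hnd hj (X := Fintype.card F ^ (m + 1) + 1) (by omega) ?_ (card_O_minus hab m)
  rw [← Nat.sq_sub_sq, one_pow, ← pow_mul, mul_comm (m + 1)]

theorem two_dvd {r k : ℕ} (h0 : 1 ≤ k) (h1 : r ∣ k + 1) (h2 : r ∣ k - 1) : r ∣ 2 := by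
  have : 2 = (k + 1) - (k - 1) := by omega
  rw [this]; exact Nat.dvd_sub h1 h2

end

/-- Elements of prime order of PSL_n(q), q odd, and the subgroups of orthogonal type. Here `T = PSL_n(F)` for a field `F` with `q` elements, `q` odd, `n ≥ 3`; `Q` is a non-degenerate quadratic form on `F^n` (of either type when `n` is even) and `H` is the subgroup of matrices of determinant 1 that preserve `Q` up to a scalar — a subgroup of type O^ε_n(q) (maximality is not assumed); Ω is the set of cosets of `H` in `T`, so an element of `T` of prime order `r` (a matrix `x` of determinant 1 with `x^r` scalar, `x` not scalar) fixes a point of Ω exactly when some conjugate of `x` by a matrix of determinant 1 preserves `Q` up to a scalar. Let `r` be a prime dividing the index of `H`, with `(n, r) ≠ (6, 3)`. Then every element of `T` of order `r` fixes a point of Ω if and only if `r = 2`, or `r ∈ {3, 5}`, `n = r` and `(q − 1)_r = r` (the `r`-part of `q − 1` is exactly `r`). The case `(n, r) = (6, 3)` is not covered by this statement.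 -/
theorem result {F : Type*} [Field F] [Fintype F] {p : ℕ} [Fact p.Prime] [CharP F p] {q : ℕ} (hq : Fintype.card F = q)
    (hodd : Odd q) (n : ℕ) (hn : 3 ≤ n) (Q : (Fin n → F) → F) (hQ : Cfsg.Geo.IsNondegenerateQuadraticForm Q)
    (r : ℕ) [Fact r.Prime] (hgap : ¬ (n = 6 ∧ r = 3))
    (hΩ : r ∣ (Cfsg.Geo.quadSimilarityGroup Q).relIndex (Cfsg.Geo.specialLinear (Fin n) F)) :
    (∀ x ∈ Cfsg.Geo.specialLinear (Fin n) F, (∃ z : F, ((x ^ r : GL (Fin n) F) : Matrix (Fin n) (Fin n) F) = z • (1 : Matrix (Fin n) (Fin n) F)) →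
      (∀ z : F, (x : Matrix (Fin n) (Fin n) F) ≠ z • (1 : Matrix (Fin n) (Fin n) F)) →
      ∃ g ∈ Cfsg.Geo.specialLinear (Fin n) F, g⁻¹ * x * g ∈ Cfsg.Geo.quadSimilarityGroup Q) ↔
    (r = 2 ∨ ((r = 3 ∨ r = 5) ∧ n = r ∧ padicValNat r (q - 1) = 1)) := by
  classical
  subst hq
  have hp : p.Prime := Fact.out
  have hrp : r.Prime := Fact.out
  have hn0 : 0 < n := by omega
  have h2F : (2 : F) ≠ 0 := Cfsg.Agent.Lib.Quad.two_ne_zero_of_odd rfl hodd
  have hp2 : 2 ≠ p := by
    rintro rfl
    exact h2F (by exact_mod_cast CharP.cast_eq_zero F 2)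
  have toG : ∀ X : Matrix.SpecialLinearGroup (Fin n) F, ∃ x ∈ Cfsg.Geo.specialLinear (Fin n) F, x.1 = X.1 :=
    fun X => ⟨Matrix.GeneralLinearGroup.mkOfDetNeZero X.1 (by rw [X.2]; exact one_ne_zero), mem_SL_iff.2 X.2, rfl⟩
  have hpow : ∀ (x : GL (Fin n) F) (X : Matrix.SpecialLinearGroup (Fin n) F) (k : ℕ), x.1 = X.1 → (x ^ k).1 = (X ^ k).1 := by
    intro x X k h
    rw [Units.val_pow_eq_pow_val, h, Matrix.SpecialLinearGroup.coe_pow]
  have hlin : ∀ (X : Matrix.SpecialLinearGroup (Fin n) F) (x : GL (Fin n) F), x.1 = X.1 → tl X = Matrix.toLin' x.1 := by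
    intro X x h; rw [h]
  obtain ⟨Q', hQ', hQQ⟩ : ∃ Q' : QuadraticForm F (Fin n → F), Nd Q' ∧ ⇑Q' = Q := ⟨qf hQ, nd_qf hQ, rfl⟩
  subst hQQ
  rename QuadraticForm F (Fin n → F) => Q
  have hfrn : finrank F (Fin n → F) = n := Module.finrank_fin_fun F
  -- elements of order r whose r-th power is one
  have hone : ∀ x : GL (Fin n) F, Matrix.toLin' x.1 ^ r = 1 → ∀ g : GL (Fin n) F, Matrix.toLin' (g⁻¹ * x * g).1 ^ r = 1 := by
    intro x hx g
    have h1 : (x ^ r).1 = 1 := by
      rw [Units.val_pow_eq_pow_val]
      apply Matrix.toLin'.injective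
      rw [Matrix.toLin'_pow, hx, Matrix.toLin'_one]; rfl
    rw [← Matrix.toLin'_pow, ← Units.val_pow_eq_pow_val]
    have e1 : (g⁻¹ * x * g) ^ r = g⁻¹ * x ^ r * g := by
      have := conj_pow (i := r) (a := g⁻¹) (b := x)
      rw [inv_inv] at this
      exact this
    have h2 : x ^ r = 1 := Units.ext h1
    rw [e1, h2, mul_one, inv_mul_cancel, Units.val_one, Matrix.toLin'_one]; rfl
  constructor
  · intro hall
    by_contra hcon
    have hr2 : r ≠ 2 := fun h => hcon (Or.inl h)
    have hodd' : Odd r := hrp.odd_of_ne_two hr2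
    have h2r : ¬ r ∣ 2 := fun h => hr2 ((Nat.prime_dvd_prime_iff_eq hrp Nat.prime_two).mp h)
    by_cases hrp' : r = p
    · subst hrp'
      obtain ⟨X, hX, hXE⟩ := Cfsg.Agent.Lib.ElusiveTool.exists_transv (F := F) (n := n) (p := r) (by omega)
      obtain ⟨x, hx, hxX⟩ := toG X
      have htl := hlin X x hxX
      rw [htl] at hX hXE
      obtain ⟨g, -, c, hc⟩ := hall x hx ⟨1, by
        rw [Units.val_pow_eq_pow_val, one_smul]
        apply Matrix.toLin'.injective
        rw [Matrix.toLin'_pow, hX, Matrix.toLin'_one]; rfl⟩ (by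
        intro z hz
        have h1 : ∀ w, finrank F (E (z • (1 : Module.End F (Fin n → F))) w) = n ∨ finrank F (E (z • (1 : Module.End F (Fin n → F))) w) = 0 := by
          intro w
          by_cases hwz : w = z
          · left
            have : E (z • (1 : Module.End F (Fin n → F))) w = ⊤ := by
              rw [eq_top_iff]
              intro v _
              rw [Module.End.mem_eigenspace_iff, hwz]; rfl
            rw [this, finrank_top, hfrn]
          · right
            have : E (z • (1 : Module.End F (Fin n → F))) w = ⊥ := by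
              rw [eq_bot_iff]
              intro v hv
              rw [Module.End.mem_eigenspace_iff] at hv
              have h2 : (z - w) • v = 0 := by rw [sub_smul, ← hv]; exact sub_self _
              exact (smul_eq_zero.1 h2).resolve_left (sub_ne_zero.2 (Ne.symm hwz))
            rw [this, finrank_bot]
        have h2 : Matrix.toLin' x.1 = z • (1 : Module.End F (Fin n → F)) := by rw [hz, map_smul, Matrix.toLin'_one]; rfl
        rw [h2] at hXE
        rcases h1 1 with h3 | h3 <;> omega)
      have hT : ∀ v, Q (Matrix.toLin' (g⁻¹ * x * g).1 v) = (c : F) * Q v := hc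
      have h1 := mult_pow hQ' (by rw [hfrn]; omega) hT (hone x hX g)
      have h3 : (c : F) = 1 := frobenius_inj F r (by rw [frobenius_def, frobenius_def, h1, one_pow])
      refine no_transv hQ' h2F (fun v => by rw [hT, h3, one_mul]) (hone x hX g) (p := r) ?_
      have h4 := Cfsg.Agent.Lib.XR.finrank_conj' x g 1
      have h5 : finrank F (E (Matrix.toLin' (g⁻¹ * x * g).1) 1) = finrank F (E (Matrix.toLin' x.1) 1) := h4
      rw [h5, hfrn]; exact hXE
    · have hrF : (r : F) ≠ 0 := by
        intro h
        apply hrp'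
        exact ((Nat.prime_dvd_prime_iff_eq hp hrp).mp ((CharP.cast_eq_zero_iff F p r).1 h)).symm
      by_cases hrq : r ∣ Fintype.card F - 1
      · obtain ⟨ζ, hζ⟩ := exists_prim hrq
        obtain ⟨w, x, hw, hx, hxz, hxn, hxa⟩ := exists_asym hζ hn hr2 hgap (fun h => hcon (Or.inr h))
        obtain ⟨g, -, c, hc⟩ := hall x hx hxz hxn
        have hT : ∀ v, Q (Matrix.toLin' (g⁻¹ * x * g).1 v) = (c : F) * Q v := hc
        obtain ⟨a, ha0, -, hne⟩ := hxa c
        apply hne
        have hpol : ∀ u v, polarBilin Q (Matrix.toLin' (g⁻¹ * x * g).1 u) (Matrix.toLin' (g⁻¹ * x * g).1 v) = (c : F) * polarBilin Q u v := by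
          intro u v
          show polar Q _ _ = (c : F) * polar Q u v
          simp only [polar]
          rw [← map_add, hT, hT, hT]; ring
        have key : ∀ a b : F, b ≠ 0 → a * b = c → finrank F (E (Matrix.toLin' x.1) b) ≤ finrank F (E (Matrix.toLin' x.1) a) := by
          intro a b hb hab
          have h1 := Cfsg.Agent.Lib.UnForm.sim_le (σ := RingHom.id F) (B := polarBilin Q) (nd_top hQ') hpol (a := a) (b := b) hab hb
          have h4 : ∀ μ, finrank F (E (Matrix.toLin' (g⁻¹ * x * g).1) μ) = finrank F (E (Matrix.toLin' x.1) μ) := Cfsg.Agent.Lib.XR.finrank_conj' x g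
          rw [h4, h4] at h1
          exact h1
        apply le_antisymm
        · refine key _ _ ha0 ?_
          field_simp
        · refine key _ _ (div_ne_zero c.ne_zero ha0) ?_
          field_simp
      · set a := orderOf ((Fintype.card F : ℕ) : ZMod r) with ha
        have ha0 : 0 < a := ord_pos (F := F) hrp hrF
        have ha2 : 2 ≤ a := by
          rcases Nat.lt_or_ge a 2 with h | h
          · exfalso
            have h1 : a = 1 := by omega
            apply hrq
            have := Cfsg.Agent.Lib.SubspaceCount.dvd_of_orderOf_dvd (r := r) (k := 1) (q := Fintype.card F) (Fintype.card_pos (α := F)) (by rw [← ha, h1])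
            rwa [pow_one] at this
          · exact h
        -- isometries
        have hiso : ∀ x : GL (Fin n) F, Matrix.toLin' x.1 ^ r = 1 → ∀ g : GL (Fin n) F, g⁻¹ * x * g ∈ Cfsg.Geo.quadSimilarityGroup ⇑Q →
            PR r Q (Matrix.toLin' (g⁻¹ * x * g).1) := by
          rintro x hx g ⟨c, hc⟩
          have hT : ∀ v, Q (Matrix.toLin' (g⁻¹ * x * g).1 v) = (c : F) * Q v := hc
          have h1 := mult_pow hQ' (by rw [hfrn]; omega) hT (hone x hx g)
          have h3 := mult_one h1 hrq
          exact ⟨hrp, hodd', hrF, hQ', fun v => by rw [hT, h3, one_mul], hone x hx g⟩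
        -- application to elements of type B
        have hB : ∀ s k : ℕ, 0 < s → n = k + s * a → ∃ (T : Module.End F (Fin n → F)), PR r Q T ∧ finrank F (E T 1) = k := by
          intro s k hs hnk
          obtain ⟨X, -, -, -, hXr, -, hss, hty⟩ := exists_typeB (n := n) (F := F) hrp' (r := r) ha2 (s := s) (k := k) hnk
          obtain ⟨x, hx, hxX⟩ := toG X
          have htl := hlin X x hxX
          have hfe := hty.fin_e
          rw [top_inf_eq, htl] at hfe
          obtain ⟨g, -, hg⟩ := hall x hx ⟨1, by
            rw [Units.val_pow_eq_pow_val, one_smul]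
            apply Matrix.toLin'.injective
            rw [Matrix.toLin'_pow, ← htl, hXr, Matrix.toLin'_one]; rfl⟩ (by
            intro z hz
            refine nonscalar_of_ty hss ha2 hty hs z ?_
            rw [htl, hz, map_smul, Matrix.toLin'_one]; rfl)
          refine ⟨Matrix.toLin' (g⁻¹ * x * g).1, hiso x (by rw [← htl, hXr]) g hg, ?_⟩
          have h4 : finrank F (E (Matrix.toLin' (g⁻¹ * x * g).1) 1) = finrank F (E (Matrix.toLin' x.1) 1) := Cfsg.Agent.Lib.XR.finrank_conj' x g 1
          rw [h4, hfe]
        rcases Nat.even_or_odd a with hae | hao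
        · obtain ⟨m, hnm⟩ : ∃ m, n = 2 * (m + 1) ∨ n = 2 * (m + 1) + 1 := ⟨n / 2 - 1, by omega⟩
          have hq1 : 1 ≤ Fintype.card F ^ (m + 1) := Nat.one_le_pow _ _ Fintype.card_pos
          rcases hnm with h1 | h1
          · have hD : D Q = -1 ∨ r ∣ 2 ∨ (((D Q : ℤ) : ZMod r) = -1 ∧ r ∣ Fintype.card F ^ (2 * (m + 1)) - 1) := by
              right; right
              have h3 : Fintype.card F ^ (2 * (m + 1)) - 1 = (Fintype.card F ^ (m + 1) + 1) * (Fintype.card F ^ (m + 1) - 1) := by
                rw [← Nat.sq_sub_sq, one_pow, ← pow_mul, mul_comm (m + 1)]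
              rcases (D_cases (m + 1) hQ' (by rw [hfrn, h1])).2 with ⟨-, h2⟩ | ⟨-, h2⟩
              · rw [Nat.card_eq_fintype_card] at h2
                have h4 := key_plus hrF (by rw [← ha]; exact hae) hQ' (Or.inl h1) hΩ (fun _ => h2)
                refine ⟨?_, by rw [h3]; exact Dvd.dvd.mul_right h4 _⟩
                rw [h2]
                have h5 := (ZMod.natCast_eq_zero_iff _ _).2 h4
                push_cast at h5 ⊢
                linear_combination h5
              · rw [Nat.card_eq_fintype_card] at h2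
                have h4 := key_minus hrF (by rw [← ha]; exact hae) hQ' (Or.inl h1) hΩ (fun _ => h2)
                refine ⟨?_, by rw [h3]; exact Dvd.dvd.mul_left h4 _⟩
                rw [h2]
                have h5 := (ZMod.natCast_eq_zero_iff _ _).2 h4
                rw [Nat.cast_sub hq1] at h5
                push_cast at h5 ⊢
                linear_combination -h5
            rcases hD with hD | hD | ⟨hD1, hD2⟩
            · exfalso
              rcases (D_cases (m + 1) hQ' (by rw [hfrn, h1])).2 with ⟨-, h2⟩ | ⟨-, h2⟩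
              · rw [hD] at h2
                have : (0 : ℤ) ≤ (Nat.card F : ℤ) ^ (m + 1) := by positivity
                omega
              · rw [hD, Nat.card_eq_fintype_card] at h2
                have h3 : (Fintype.card F : ℤ) ^ (m + 1) = 1 := by linarith
                have h4 : Fintype.card F ^ (m + 1) = 1 := by exact_mod_cast h3
                have h5 : 1 < Fintype.card F ^ (m + 1) := Nat.one_lt_pow (by omega) Fintype.one_lt_card
                omega
            · exact h2r hD
            · have h6 := Cfsg.Agent.Lib.SubspaceCount.orderOf_dvd_of_dvd (q := Fintype.card F) (r := r) Fintype.card_pos hD2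
              rw [← ha, ← h1] at h6
              obtain ⟨s, hs⟩ := h6
              have hs0 : 0 < s := by
                rcases Nat.eq_zero_or_pos s with h | h
                · rw [h, mul_zero] at hs; omega
                · exact h
              obtain ⟨T, hT, hTE⟩ := hB s 0 hs0 (by rw [hs]; ring)
              have h7 := hT.D_mod (W := ⊤) (fun _ _ => trivial) (by
                rw [top_inf_eq]; exact Submodule.finrank_eq_zero.1 hTE)
              rw [D_top, hD1] at h7
              apply h2r
              rw [← ZMod.natCast_eq_zero_iff]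
              push_cast
              linear_combination -h7
          · have h4 := key_plus hrF (by rw [← ha]; exact hae) hQ' (Or.inr h1) hΩ (fun h => by omega)
            have h5 := key_minus hrF (by rw [← ha]; exact hae) hQ' (Or.inr h1) hΩ (fun h => by omega)
            exact h2r (two_dvd hq1 h4 h5)
        · have han : a ≤ n := by
            have h1 : r ∣ Nat.card ↥(Cfsg.Geo.specialLinear (Fin n) F) * (Fintype.card F - 1) :=
              Dvd.dvd.mul_right (hΩ.trans (Subgroup.relIndex_dvd_card _ _)) _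
            rw [card_SL hn0] at h1
            rcases (Nat.Prime.dvd_mul hrp).mp h1 with h2 | h2
            · exfalso
              obtain ⟨i, -, h3⟩ := (Prime.dvd_finsetProd_iff hrp.prime _).mp h2
              have h4 := hrp.dvd_of_dvd_pow h3
              apply hrF
              obtain ⟨e, -, hc⟩ := FiniteField.card F p
              rw [hc] at h4
              rw [(Nat.prime_dvd_prime_iff_eq hrp hp).mp (hrp.dvd_of_dvd_pow h4)]
              exact CharP.cast_eq_zero F p
            · obtain ⟨i, hi, h3⟩ := (Prime.dvd_finsetProd_iff hrp.prime _).mp h2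
              have h4 := Cfsg.Agent.Lib.SubspaceCount.orderOf_dvd_of_dvd (q := Fintype.card F) (r := r) Fintype.card_pos h3
              have h5 := Nat.le_of_dvd (by omega) h4
              have := Finset.mem_range.1 hi
              omega
          obtain ⟨T, hT, hTE⟩ := hB 1 (n - a) one_pos (by omega)
          exact no_odd_block hT (by rw [← ha]; exact hao) (by rw [hTE, ← ha, hfrn]; omega)
  · rintro (rfl | ⟨hr35, hnr, hval⟩) x hx ⟨z, hz⟩ -
    · exact yes_two h2F hn0 hQ' (p := p) hp2 hx hz
    · have hrd : r ∣ Fintype.card F - 1 := by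
        by_contra h
        rw [padicValNat.eq_zero_of_not_dvd h] at hval
        exact zero_ne_one hval
      have hr22 : ¬ r ^ 2 ∣ Fintype.card F - 1 := by
        rw [padicValNat_dvd_iff_le (by have := Fintype.one_lt_card (α := F); omega), hval]
        norm_num
      obtain ⟨ζ, hζ⟩ := exists_prim hrd
      rcases hr35 with rfl | rfl
      · subst hnr
        exact yes_three h2F hQ' hζ hr22 hx hz
      · subst hnr
        exact yes_five h2F hQ' hζ hr22 hx hz

end Cfsg.Agent.S5981
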