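import Cfsg.Statements.S5982
import Cfsg.Agent.Lib.UnForm4

set_option autoImplicit false
open scoped MatrixGroups
open Cfsg

namespace Cfsg.Agent.S5982

open Cfsg.Agent.Lib.UnForm Cfsg.Agent.Lib.UniPair Cfsg.Agent.Lib.XSym Cfsg.Agent.Lib.PrimeOrd Cfsg.Agent.Lib.Sesq Cfsg.Agent.Lib.InvSub Cfsg.Agent.Lib.ElusiveLin Module Matrix
open Cfsg.Agent.Lib.NormTool (mem_SL_iff)
open Cfsg.Agent.Lib.ClUnitary (frob)

section

variable {F : Type*} [Field F] [Fintype F] {q₀ n : ℕ}

/-- elements conjugate into the similarity group of the form are conjugate to similarities of the standard form -/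
theorem to_std (hF : Fintype.card F = q₀ ^ 2) {f : (Fin n → F) → (Fin n → F) → F} (hf : Cfsg.Geo.IsUnitaryFormPow q₀ f) {x g : GL (Fin n) F}
    (h : g⁻¹ * x * g ∈ Cfsg.Geo.similarityGroup f) : ∃ k : GL (Fin n) F, k⁻¹ * x * k ∈ Cfsg.Geo.similarityGroup (Cfsg.hermForm n F q₀) := by
  obtain ⟨P, hP⟩ := exists_P hF hf
  rw [sim_conj hP] at h
  refine ⟨g * P⁻¹, ?_⟩
  have : (g * P⁻¹)⁻¹ * x * (g * P⁻¹) = P * (g⁻¹ * x * g) * P⁻¹ := by group
  rw [this]; exact h

/-- the case `r = 2`, `q` odd, nonsquare -/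
theorem two_no (hF : Fintype.card F = q₀ ^ 2) (hn : 0 < n) (hodd : Odd q₀) {c : F} (hc : ∀ b : F, b ^ 2 ≠ c) {y : GL (Fin n) F}
    (hy : (y ^ 2).1 = c • (1 : Matrix (Fin n) (Fin n) F)) (hys : y ∈ Cfsg.Geo.similarityGroup (Cfsg.hermForm n F q₀)) : False := by
  obtain ⟨m, hm⟩ := hys
  have hmq := mult_fixed hF hn hm
  have h2F : (2 : F) ≠ 0 := Cfsg.Agent.Lib.Sesq.two_ne_zero_of_odd (by rw [hF]; exact hodd.pow)
  have h1 : (m : F) ^ 2 = c * c ^ q₀ := by
    have h2 : ∀ u v, Cfsg.hermForm n F q₀ ((y ^ 2).1 *ᵥ u) ((y ^ 2).1 *ᵥ v) = (m : F) ^ 2 * Cfsg.hermForm n F q₀ u v := by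
      intro u v
      rw [pow_two, Units.val_mul, ← Matrix.mulVec_mulVec, ← Matrix.mulVec_mulVec, hm, hm]; ring
    have hval : ∀ u, (y ^ 2).1 *ᵥ u = c • u := by
      intro u
      rw [hy, Matrix.smul_mulVec, Matrix.one_mulVec]
    have h3 := h2 (Pi.single ⟨0, hn⟩ 1) (Pi.single ⟨0, hn⟩ 1)
    rw [hval, Cfsg.Agent.Lib.HermMat.hermForm_smul_left,
      Cfsg.Agent.Lib.HermMat.hermForm_smul_right, Cfsg.Agent.Lib.HermMat.hermForm_single_left] at h3
    simp at h3
    exact h3.symm
  have hc0 : c ≠ 0 := by rintro rfl; exact hc 0 (by ring)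
  apply absurd (FiniteField.isSquare_iff (F := F) (by
      intro h
      have h3 := ringChar.Nat.cast_ringChar (R := F)
      rw [h] at h3
      exact h2F (by exact_mod_cast h3)) hc0).2
  · rintro h
    have h4 : IsSquare c := h ?_
    · obtain ⟨b, hb⟩ := h4
      exact hc b (by rw [hb, pow_two])
    · obtain ⟨k, hk⟩ := hodd
      have e1 : Fintype.card F / 2 = (q₀ + 1) * k := by
        have : q₀ ^ 2 = 1 + 2 * ((q₀ + 1) * k) := by rw [hk]; ring
        rw [hF, this]; omega
      rw [e1, pow_mul, pow_succ', ← h1, ← pow_mul]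
      have e2 : 2 * k = q₀ - 1 := by omega
      rw [e2]
      have e3 : (m : F) ^ (q₀ - 1) * m = 1 * m := by
        rw [← pow_succ, one_mul]
        have : q₀ - 1 + 1 = q₀ := by omega
        rw [this]; exact hmq
      exact mul_right_cancel₀ m.ne_zero e3

/-- the order of `q₀²` modulo `r` -/
theorem order_facts (hF : Fintype.card F = q₀ ^ 2) {p : ℕ} [hp : Fact p.Prime] [CharP F p] {r : ℕ} [hr : Fact r.Prime] (hr2 : r ≠ 2) {i : ℕ}
    (hi1 : 1 ≤ i) (hin : i < n) (hd : r ∣ (if Even i then q₀ ^ (i + 1) - 1 else q₀ ^ (i + 1) + 1)) :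
    orderOf ((Fintype.card F : ℕ) : ZMod r) ≤ n ∧ r ∣ (if Even (orderOf ((Fintype.card F : ℕ) : ZMod r)) then
      q₀ ^ (orderOf ((Fintype.card F : ℕ) : ZMod r)) + 1 else q₀ ^ (orderOf ((Fintype.card F : ℕ) : ZMod r)) - 1) := by
  have hq := Cfsg.Agent.Lib.InvolUnitMat.one_lt_q hF
  set a := orderOf ((Fintype.card F : ℕ) : ZMod r) with ha
  have hsq : ∀ j, Fintype.card F ^ j - 1 = (q₀ ^ j + 1) * (q₀ ^ j - 1) := by
    intro j
    rw [hF, ← Nat.sq_sub_sq, one_pow, ← pow_mul, ← pow_mul, mul_comm]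
  have h2r : ¬ r ∣ 2 := fun h => hr2 ((Nat.prime_dvd_prime_iff_eq hr.out Nat.prime_two).mp h)
  have haj : a ∣ i + 1 := by
    apply Cfsg.Agent.Lib.SubspaceCount.orderOf_dvd_of_dvd Fintype.card_pos
    rw [hsq]
    split_ifs at hd
    · exact Dvd.dvd.mul_left hd _
    · exact Dvd.dvd.mul_right hd _
  have hale : a ≤ i + 1 := Nat.le_of_dvd (by omega) haj
  have hapos : 0 < a := Nat.pos_of_dvd_of_pos haj (by omega)
  refine ⟨by omega, ?_⟩
  have hda : r ∣ (q₀ ^ a + 1) * (q₀ ^ a - 1) := by
    rw [← hsq]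
    exact Cfsg.Agent.Lib.SubspaceCount.dvd_of_orderOf_dvd (r := r) (k := a) (Fintype.card_pos (α := F)) (dvd_refl _)
  obtain ⟨t, ht⟩ := haj
  have hboth : ∀ j, ¬ (r ∣ q₀ ^ j + 1 ∧ r ∣ q₀ ^ j - 1) := by
    rintro j ⟨h1, h3⟩
    apply h2r
    have h4 : 1 ≤ q₀ ^ j := Nat.one_le_pow _ _ (by omega)
    have : 2 = (q₀ ^ j + 1) - (q₀ ^ j - 1) := by omega
    rw [this]; exact Nat.dvd_sub h1 h3
  have hminus : r ∣ q₀ ^ a - 1 → r ∣ q₀ ^ (i + 1) - 1 := by
    intro h
    rw [ht, pow_mul]
    have := Nat.sub_dvd_pow_sub_pow (q₀ ^ a) 1 t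
    rw [one_pow] at this
    exact h.trans this
  rcases (Nat.Prime.dvd_mul hr.out).mp hda with h1 | h1
  · split_ifs with hae
    · exact h1
    · exfalso
      rw [Nat.not_even_iff_odd] at hae
      rcases Nat.even_or_odd t with hte | hto
      · -- q₀^(i+1) ≡ 1, i + 1 even
        obtain ⟨s, hs⟩ := hte
        have h3 : r ∣ q₀ ^ (i + 1) - 1 := by
          rw [ht, pow_mul, hs, ← two_mul, pow_mul]
          have h5 : r ∣ (q₀ ^ a) ^ 2 - 1 := by
            have : (q₀ ^ a) ^ 2 - 1 = (q₀ ^ a + 1) * (q₀ ^ a - 1) := by rw [← Nat.sq_sub_sq, one_pow]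
            rw [this]; exact hda
          have := Nat.sub_dvd_pow_sub_pow ((q₀ ^ a) ^ 2) 1 s
          rw [one_pow] at this
          exact h5.trans this
        have hno : ¬ Even i := by
          intro he
          have : Even (i + 1) := by rw [ht, hs]; exact ⟨a * s, by ring⟩
          rw [Nat.even_add_one] at this
          exact this he
        rw [if_neg hno] at hd
        exact hboth _ ⟨hd, h3⟩
      · have h3 : r ∣ q₀ ^ (i + 1) + 1 := by
          rw [ht, pow_mul]
          have := hto.nat_add_dvd_pow_add_pow (q₀ ^ a) 1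
          rw [one_pow] at this
          exact h1.trans this
        have he : Even i := by
          have : Odd (i + 1) := by rw [ht]; exact hae.mul hto
          by_contra h
          rw [← Nat.even_add_one] at h
          exact (Nat.not_even_iff_odd.2 this) h
        rw [if_pos he] at hd
        exact hboth _ ⟨h3, hd⟩
  · split_ifs with hae
    · exfalso
      have h3 := hminus h1
      have hno : ¬ Even i := by
        intro he
        have : Even (i + 1) := by rw [ht]; exact hae.mul_right t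
        rw [Nat.even_add_one] at this
        exact this he
      rw [if_neg hno] at hd
      exact hboth _ ⟨hd, h3⟩
    · exact h1

end


/-- Elements of prime order of PSL_n(q), q = q₀², and the subgroups of unitary type. Here `T = PSL_n(F)` for a field `F` with `q = q₀²` elements (`n ≥ 3`), `f` is a non-degenerate unitary form on `F^n` for the involutory automorphism `x ↦ x^{q₀}`, and `H` is the subgroup of matrices of determinant 1 that preserve `f` up to a scalar — a subgroup of type GU_n(q₀) (maximality is not assumed); Ω is the set of cosets of `H` in `T`, so an element of `T` of prime order `r` (a matrix `x` of determinant 1 with `x^r` scalar, `x` not scalar) fixes a point of Ω exactly when some conjugate of `x` by a matrix of determinant 1 preserves `f` up to a scalar. Let `r` be a prime dividing the index of `H`, with `r = 2` or `r` different from the characteristic `p`, and with `(n, r) ≠ (6, 3)`. Then every element of `T` of order `r` fixes a point of Ω if and only if either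 `r = 2` and (`p = 2` or `(n)_2 ≤ (q − 1)_2`), or `r ∈ {3, 5}`, `n = r` and `(q₀ − 1)_r = r`. (Odd `r = p` and the case `(n, r) = (6, 3)` are not covered by this statement.) -/
theorem result {F : Type*} [Field F] [Fintype F] {p : ℕ} [Fact p.Prime] [CharP F p] {q : ℕ} (hq : Fintype.card F = q)
    (q₀ : ℕ) (hq₀ : q = q₀ ^ 2) (n : ℕ) (hn : 3 ≤ n) (f : (Fin n → F) → (Fin n → F) → F) (hf : Cfsg.Geo.IsUnitaryFormPow q₀ f)
    (r : ℕ) [Fact r.Prime] (hr : r = 2 ∨ r ≠ p) (hgap : ¬ (n = 6 ∧ r = 3))
    (hΩ : r ∣ (Cfsg.Geo.similarityGroup f).relIndex (Cfsg.Geo.specialLinear (Fin n) F)) :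
    (∀ x ∈ Cfsg.Geo.specialLinear (Fin n) F, (∃ z : F, ((x ^ r : GL (Fin n) F) : Matrix (Fin n) (Fin n) F) = z • (1 : Matrix (Fin n) (Fin n) F)) →
      (∀ z : F, (x : Matrix (Fin n) (Fin n) F) ≠ z • (1 : Matrix (Fin n) (Fin n) F)) →
      ∃ g ∈ Cfsg.Geo.specialLinear (Fin n) F, g⁻¹ * x * g ∈ Cfsg.Geo.similarityGroup f) ↔
    ((r = 2 ∧ (p = 2 ∨ padicValNat 2 n ≤ padicValNat 2 (q - 1))) ∨ ((r = 3 ∨ r = 5) ∧ n = r ∧ padicValNat r (q₀ - 1) = 1)) := by
  classical
  subst hq₀
  have hp : p.Prime := Fact.out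
  have hrp : r.Prime := Fact.out
  have hn0 : 0 < n := by omega
  have hq1 : 1 < q₀ := Cfsg.Agent.Lib.InvolUnitMat.one_lt_q hq
  have toX : ∀ x : GL (Fin n) F, x ∈ Cfsg.Geo.specialLinear (Fin n) F → ∃ X : Matrix.SpecialLinearGroup (Fin n) F, X.1 = x.1 :=
    fun x hx => ⟨⟨x.1, mem_SL_iff.1 hx⟩, rfl⟩
  have toG : ∀ X : Matrix.SpecialLinearGroup (Fin n) F, ∃ x ∈ Cfsg.Geo.specialLinear (Fin n) F, x.1 = X.1 :=
    fun X => ⟨Matrix.GeneralLinearGroup.mkOfDetNeZero X.1 (by rw [X.2]; exact one_ne_zero), mem_SL_iff.2 X.2, rfl⟩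
  have hpow : ∀ (x : GL (Fin n) F) (X : Matrix.SpecialLinearGroup (Fin n) F) (k : ℕ), x.1 = X.1 → (x ^ k).1 = (X ^ k).1 := by
    intro x X k h
    rw [Units.val_pow_eq_pow_val, h, Matrix.SpecialLinearGroup.coe_pow]
  have hlin : ∀ (X : Matrix.SpecialLinearGroup (Fin n) F) (x : GL (Fin n) F), x.1 = X.1 → tl X = Matrix.toLin' x.1 := by
    intro X x h; rw [h]
  have hpq : p ∣ q₀ := by
    obtain ⟨k, hk, hc⟩ := FiniteField.card F p
    have : p ∣ q₀ ^ 2 := by rw [← hq, hc]; exact dvd_pow_self p (by have := k.pos; omega)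
    exact hp.dvd_of_dvd_pow this
  have hoddq : p ≠ 2 → Odd q₀ := by
    intro hp2
    obtain ⟨e, -, he⟩ := FiniteField.card F p
    have h1 : Odd (q₀ ^ 2) := by rw [← hq, he]; exact (hp.odd_of_ne_two hp2).pow
    exact (Nat.odd_pow_iff (by norm_num)).mp h1
  constructor
  · intro hall
    by_cases hr2 : r = 2
    · subst hr2
      left
      refine ⟨rfl, ?_⟩
      by_contra hcon
      push Not at hcon
      obtain ⟨hp2, hlt⟩ := hcon
      have hodd := hoddq hp2
      have h2n : 2 ∣ n := by
        by_contra h2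
        rw [padicValNat.eq_zero_of_not_dvd h2] at hlt
        omega
      have h2q : 2 ∣ Fintype.card F - 1 := by
        have : Odd (Fintype.card F) := by rw [hq]; exact hodd.pow
        obtain ⟨m, hm⟩ := this; exact ⟨m, by omega⟩
      obtain ⟨c, hc, hdet⟩ := exists_typeC (F := F) Nat.prime_two h2q hn0 h2n (fun h => absurd h.1 (by rw [hq]; omega))
      obtain ⟨X, hX, -, -⟩ := exists_typeC_elt (n := n) (k := n / 2) Nat.prime_two hc (by omega) hdet
      obtain ⟨x, hx, hxX⟩ := toG X
      have hx2 : (x ^ 2).1 = c • (1 : Matrix (Fin n) (Fin n) F) := by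
        rw [hpow x X 2 hxX]
        exact (tl_eq_smul_iff _ _).1 (by rw [← tl_pow, hX])
      obtain ⟨g, -, hg⟩ := hall x hx ⟨c, hx2⟩ (by
        intro z hz
        have h1 : (x ^ 2).1 = (z ^ 2) • (1 : Matrix (Fin n) (Fin n) F) := by
          rw [Units.val_pow_eq_pow_val, hz, _root_.smul_pow, one_pow]
        rw [hx2] at h1
        have h2 := congrFun (congrFun h1 ⟨0, hn0⟩) ⟨0, hn0⟩
        simp at h2
        exact hc z h2.symm)
      obtain ⟨k, hk⟩ := to_std hq hf hg
      refine two_no hq hn0 hodd hc (y := k⁻¹ * x * k) ?_ hk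
      have e1 : (k⁻¹ * x * k) ^ 2 = k⁻¹ * x ^ 2 * k := by rw [pow_two, pow_two]; group
      rw [e1, Units.val_mul, Units.val_mul, hx2, Matrix.mul_smul, Matrix.smul_mul, Matrix.mul_one, ← Units.val_mul, inv_mul_cancel]
      rfl
    · right
      have hrp' : r ≠ p := hr.resolve_left hr2
      by_contra hcon
      obtain ⟨i, hi1, hin, hd⟩ := index_factor hq (by omega) hf (p := p) hrp' hΩ
      obtain ⟨han, had⟩ := order_facts (p := p) hq hr2 hi1 hin hd
      set a := orderOf ((Fintype.card F : ℕ) : ZMod r) with ha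
      by_cases ha1 : a = 1
      · rw [ha1, if_neg (by decide), pow_one] at had
        have hrq : r ∣ Fintype.card F - 1 := by
          rw [hq, Cfsg.Agent.Lib.ClUnitary.sq_sub_one]; exact Dvd.dvd.mul_left had _
        obtain ⟨ζ, hζ⟩ := exists_prim hrq
        obtain ⟨w, x, hw, hx, hxz, hxn, hxa⟩ := exists_asym hζ hn hr2 hgap (by
          rintro ⟨h1, h3, h4⟩
          apply hcon
          refine ⟨h1, h3, ?_⟩
          rw [hq, val_eq hr2 hq1 had] at h4
          exact h4)
        obtain ⟨g, -, hg⟩ := hall x hx hxz hxn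
        obtain ⟨k, m, hm⟩ := to_std hq hf hg
        have hmq := mult_fixed hq hn0 hm
        obtain ⟨b, hb0, hbr, hbne⟩ := hxa ((m : F) * w / w ^ q₀)
        apply hbne
        rw [← Cfsg.Agent.Lib.XR.finrank_conj' x k, ← Cfsg.Agent.Lib.XR.finrank_conj' x k]
        symm
        refine sim_dim hq hmq hm ?_
        have hbq : b ^ q₀ = w ^ q₀ * (b / w) := by
          have h1 : (b / w) ^ q₀ = b / w := by
            obtain ⟨s, hs⟩ := had
            have e1 : q₀ = r * s + 1 := by omega
            rw [e1, pow_succ, pow_mul, hbr, one_pow, one_mul]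
          rw [← h1, div_pow]
          field_simp
        rw [hbq]
        have : w ^ q₀ ≠ 0 := pow_ne_zero _ hw
        field_simp
      · have ha2 : 2 ≤ a := by
          have : 0 < a := orderOf_pos_iff.2 (by
            by_contra h
            rw [← orderOf_eq_zero_iff] at h
            have h0 : a = 0 := h
            rw [h0] at had
            simp at had
            exact hr2 ((Nat.prime_dvd_prime_iff_eq hrp Nat.prime_two).mp had))
          omega
        obtain ⟨X, -, -, -, hXr, -, hss, hty⟩ := exists_typeB (n := n) (F := F) hrp' (r := r) ha2 (s := 1) (k := n - a) (by rw [← ha]; omega)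
        obtain ⟨x, hx, hxX⟩ := toG X
        have htl := hlin X x hxX
        have hxr : x ^ r = 1 := by
          apply Units.ext
          rw [hpow x X r hxX]
          have : tl (X ^ r) = (1 : F) • (1 : Module.End F (Fin n → F)) := by rw [← tl_pow, hXr, one_smul]
          have := (tl_eq_smul_iff _ _).1 this
          rw [this, one_smul]; rfl
        have hfe := hty.fin_e
        rw [top_inf_eq, htl] at hfe
        obtain ⟨g, -, hg⟩ := hall x hx ⟨1, by rw [hxr, one_smul]; rfl⟩ (by
          intro z hz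
          refine nonscalar_of_ty hss ha2 hty (by norm_num) z ?_
          rw [htl, hz, map_smul, Matrix.toLin'_one]; rfl)
        obtain ⟨k, hk⟩ := to_std hq hf hg
        refine no_typeB hq (by omega) hrp' hr2 ?_ hk ?_ (i := a) ?_ had
        · intro h
          have h1 := Cfsg.Agent.Lib.SubspaceCount.orderOf_dvd_of_dvd (q := Fintype.card F) (r := r) (k := 1) Fintype.card_pos (by rwa [pow_one])
          rw [← ha] at h1
          have := Nat.le_of_dvd one_pos h1
          omega
        · have e1 : (k⁻¹ * x * k) ^ r = k⁻¹ * x ^ r * k := by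
            have := conj_pow (i := r) (a := k⁻¹) (b := x)
            rw [inv_inv] at this
            exact this
          rw [e1, hxr]; group
        · have h1 := Cfsg.Agent.Lib.XR.finrank_conj' x k 1
          have h2 : finrank F (E (Matrix.toLin' (k⁻¹ * x * k).1) 1) = n - a := h1.trans hfe
          rw [h2]; omega
  · rintro (⟨rfl, hcond⟩ | ⟨hr35, hnr, hval⟩) x hx ⟨z, hz⟩ -
    · by_cases hp2 : p = 2
      · subst hp2
        exact yes_two hq hn0 hf hx hz
      · have hv : padicValNat 2 n ≤ padicValNat 2 (q₀ ^ 2 - 1) := hcond.resolve_left hp2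
        have hodd := hoddq hp2
        have h2F : (2 : F) ≠ 0 := Cfsg.Agent.Lib.Sesq.two_ne_zero_of_odd (by rw [hq]; exact hodd.pow)
        obtain ⟨X, hX⟩ := toX x hx
        rcases structure_of (p := p) (r := 2) (Ne.symm hp2) X z (by rw [← hpow x X 2 hX.symm, hz]) hn0 with ⟨y, hy0, hy, -⟩ | ⟨hnp, -, -, m, hm, hnm, hdet⟩
        · have hneg : IsPrimitiveRoot (-1 : F) 2 := by
            have h1 : (-1 : F) ≠ 1 := by
              intro h
              exact h2F (by linear_combination (-1 : F) * h)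
            have := IsPrimitiveRoot.orderOf (-1 : F)
            rwa [orderOf_eq_prime (neg_one_sq) h1] at this
          obtain ⟨P, e, hP⟩ := Cfsg.Agent.Lib.DiagTool.exists_diag_mat (m := 2) (by exact_mod_cast h2F) hneg hy0 (M := x.1) (by
            rw [← Units.val_pow_eq_pow_val, hz, hy])
          let v : Fin n → F := fun j => (-1) ^ (e j).1
          have hv1 : ∀ j, v j * v j = 1 := by
            intro j
            show (-1 : F) ^ (e j).1 * (-1) ^ (e j).1 = 1
            rw [← mul_pow, neg_mul_neg, one_mul, one_pow]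
          have hDD : Matrix.diagonal v * Matrix.diagonal v = 1 := by
            rw [Matrix.diagonal_mul_diagonal, ← Matrix.diagonal_one]
            congr 1
            funext j; exact hv1 j
          let B : GL (Fin n) F := ⟨Matrix.diagonal v, Matrix.diagonal v, hDD, hDD⟩
          have hB : B ∈ Cfsg.GU n F q₀ := by
            rw [Cfsg.Agent.Lib.UniTool.mem_GU hq]
            have : Cfsg.Agent.Lib.UnitStar.st (frob hq) (Matrix.diagonal v) = Matrix.diagonal v := by
              rw [Cfsg.Agent.Lib.UnitStar.st, Matrix.diagonal_map (map_zero _), Matrix.diagonal_transpose]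
              congr 1
              funext j
              show (frob hq) ((-1) ^ (e j).1) = (-1) ^ (e j).1
              rw [map_pow, map_neg, map_one]
            show Cfsg.Agent.Lib.UnitStar.st (frob hq) (Matrix.diagonal v) * Matrix.diagonal v = 1
            rw [this, hDD]
          exact yes_diag hq hn0 hf hP 1 hy0 (v := v) (fun i => rfl) hB (k := 1) (by
            rw [Units.val_one, Matrix.mul_one, Matrix.one_mul])
        · exfalso
          apply not_typeC Nat.prime_two hnp hnm hm hdet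
          refine ⟨by rw [hq]; exact hv, fun _ _ => ?_⟩
          obtain ⟨s, hs⟩ := hodd
          rw [hq, hs]
          have : (2 * s + 1) ^ 2 = 4 * (s * (s + 1)) + 1 := by ring
          omega
    · have hr2 : r ≠ 2 := by rcases hr35 with h | h <;> rw [h] <;> norm_num
      have hrd : r ∣ q₀ - 1 := by
        by_contra h
        rw [padicValNat.eq_zero_of_not_dvd h] at hval
        exact zero_ne_one hval
      have hrq : r ∣ Fintype.card F - 1 := by
        rw [hq, Cfsg.Agent.Lib.ClUnitary.sq_sub_one]; exact Dvd.dvd.mul_left hrd _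
      have hr22 : ¬ r ^ 2 ∣ Fintype.card F - 1 := by
        rw [padicValNat_dvd_iff_le (by have := Fintype.one_lt_card (α := F); omega), hq, val_eq hr2 hq1 hrd, hval]
        norm_num
      obtain ⟨ζ, hζ⟩ := exists_prim hrq
      have hfix : ∀ a : F, a ^ r = 1 → a ^ q₀ = a := by
        intro a har
        obtain ⟨s, hs⟩ := hrd
        have e1 : q₀ = r * s + 1 := by omega
        rw [e1, pow_succ, pow_mul, har, one_pow, one_mul]
      have hne : ∀ a : F, a ^ r = 1 → a ≠ 0 := by
        rintro a har rfl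
        rw [zero_pow hrp.pos.ne'] at har
        exact zero_ne_one har
      have hinv : ∀ a : F, a ^ r = 1 → (a⁻¹) ^ r = 1 := fun a har => by rw [_root_.inv_pow, har, inv_one]
      rcases hr35 with rfl | rfl
      · subst hnr
        obtain ⟨P, u, π, c, ν, hc, hν, hP, hu⟩ := sym_three hζ hr22 hx hz
        have hv : ∀ i, (![ν, ν⁻¹, 1] : Fin 3 → F) i ^ 3 = 1 := by
          intro i
          fin_cases i
          · exact hν
          · exact hinv _ hν
          · exact one_pow 3
        obtain ⟨B, hB, k, hk⟩ := exists_B hq hn0 (v := ![ν, ν⁻¹, 1]) (fun i => hne _ (hv i)) (fun i => hfix _ (hv i)) (Equiv.swap 0 1) (by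
          intro i
          fin_cases i
          · show (![ν, ν⁻¹, 1] : Fin 3 → F) (Equiv.swap 0 1 0) = ν⁻¹
            rw [Equiv.swap_apply_left]; rfl
          · show (![ν, ν⁻¹, 1] : Fin 3 → F) (Equiv.swap 0 1 1) = (ν⁻¹)⁻¹
            rw [Equiv.swap_apply_right, inv_inv]; rfl
          · show (![ν, ν⁻¹, 1] : Fin 3 → F) (Equiv.swap 0 1 2) = (1 : F)⁻¹
            rw [Equiv.swap_apply_of_ne_of_ne (by decide) (by decide), inv_one]; rfl)
        refine yes_diag hq hn0 hf hP π (hne c hc) (fun i => ?_) hB hk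
        rw [hu]
        fin_cases i
        · rfl
        · rfl
        · show c = c * 1
          rw [mul_one]
      · subst hnr
        obtain ⟨P, u, π, c, ν, ν', hc, hν, hν', hP, hu⟩ := sym_five hζ hr22 hx hz
        have hv : ∀ i, (![ν, ν⁻¹, ν', ν'⁻¹, 1] : Fin 5 → F) i ^ 5 = 1 := by
          intro i
          fin_cases i
          · exact hν
          · exact hinv _ hν
          · exact hν'
          · exact hinv _ hν'
          · exact one_pow 5
        let ρ : Equiv.Perm (Fin 5) := Equiv.swap 0 1 * Equiv.swap 2 3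
        have p0 : ρ 0 = 1 := by decide
        have p1 : ρ 1 = 0 := by decide
        have p2 : ρ 2 = 3 := by decide
        have p3 : ρ 3 = 2 := by decide
        have p4 : ρ 4 = 4 := by decide
        obtain ⟨B, hB, k, hk⟩ := exists_B hq hn0 (v := ![ν, ν⁻¹, ν', ν'⁻¹, 1]) (fun i => hne _ (hv i)) (fun i => hfix _ (hv i)) ρ (by
          intro i
          fin_cases i
          · show (![ν, ν⁻¹, ν', ν'⁻¹, 1] : Fin 5 → F) (ρ 0) = ν⁻¹
            rw [p0]; rfl
          · show (![ν, ν⁻¹, ν', ν'⁻¹, 1] : Fin 5 → F) (ρ 1) = (ν⁻¹)⁻¹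
            rw [p1, inv_inv]; rfl
          · show (![ν, ν⁻¹, ν', ν'⁻¹, 1] : Fin 5 → F) (ρ 2) = ν'⁻¹
            rw [p2]; rfl
          · show (![ν, ν⁻¹, ν', ν'⁻¹, 1] : Fin 5 → F) (ρ 3) = (ν'⁻¹)⁻¹
            rw [p3, inv_inv]; rfl
          · show (![ν, ν⁻¹, ν', ν'⁻¹, 1] : Fin 5 → F) (ρ 4) = (1 : F)⁻¹
            rw [p4, inv_one]; rfl)
        refine yes_diag hq hn0 hf hP π (hne c hc) (fun i => ?_) hB hk
        rw [hu]
        fin_cases i
        · rfl
        · rfl
        · rfl
        · rfl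
        · show c = c * 1
          rw [mul_one]

end Cfsg.Agent.S5982
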