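import Cfsg.Statements.S5983
import Cfsg.Agent.Lib.QArf3

set_option autoImplicit false
open scoped MatrixGroups
open Cfsg

namespace Cfsg.Agent.S5983

open Cfsg.Agent.Lib.QArf Cfsg.Agent.Lib.SpConj Cfsg.Agent.Lib.Sesq Cfsg.Agent.Lib.PrimeOrd Cfsg.Agent.Lib.InvSub Module Matrix
open Cfsg.Agent.Lib.AltSim (JB)


/-- Elements of prime order of PSp_n(q), q even, and the subgroups of orthogonal type. Here `T = Sp_{2d}(F)` for a field `F` of characteristic 2 with `q` elements (`d ≥ 2`, `(d, q) ≠ (2, 2)`), realised as the invertible matrices preserving the standard alternating form; `Q` is a non-degenerate quadratic form on `F^{2d}` whose polar form is that alternating form, and `H` is the subgroup of `T` preserving `Q` up to a scalar (equivalently preserving `Q`) — a subgroup of type O^±_{2d}(q) (maximality is not assumed); `Q` is of plus type when `F^{2d}` contains a `d`-dimensional subspace on which `Q` vanishes, of minus type otherwise. Ω is the set of cosets of `H` in `T`, so an element of `T`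 of prime order `r` (`x ∈ T` with `x^r` scalar, `x` not scalar) fixes a point of Ω exactly when some `T`-conjugate of `x` preserves `Q`. Let `r` be a prime dividing the index of `H`. Then every element of `T` of order `r` fixes a point of Ω if and only if `r = 2` and either `Q` is of plus type or `d` is odd. -/
theorem result {F : Type*} [Field F] [Fintype F] {p : ℕ} [Fact p.Prime] [CharP F p] {q : ℕ} (hq : Fintype.card F = q)
    (hp : p = 2) (d : ℕ) (hd : 2 ≤ d) (hT : (d, q) ≠ (2, 2)) (Q : (Fin d ⊕ Fin d → F) → F) (hQ : Cfsg.Geo.IsNondegenerateQuadraticForm Q)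
    (hQf : ∀ u v, QuadraticMap.polar Q u v = Cfsg.sympForm d F u v)
    (r : ℕ) [Fact r.Prime]
    (hΩ : r ∣ (Cfsg.Geo.quadSimilarityGroup Q).relIndex (Cfsg.spGL d F)) :
    (∀ x ∈ Cfsg.spGL d F, (∃ z : F, ((x ^ r : GL (Fin d ⊕ Fin d) F) : Matrix (Fin d ⊕ Fin d) (Fin d ⊕ Fin d) F) = z • (1 : Matrix (Fin d ⊕ Fin d) (Fin d ⊕ Fin d) F)) →
      (∀ z : F, (x : Matrix (Fin d ⊕ Fin d) (Fin d ⊕ Fin d) F) ≠ z • (1 : Matrix (Fin d ⊕ Fin d) (Fin d ⊕ Fin d) F)) →
      ∃ g ∈ Cfsg.spGL d F, g⁻¹ * x * g ∈ Cfsg.Geo.quadSimilarityGroup Q) ↔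
    (r = 2 ∧ (Cfsg.Geo.IsPlusTypeOn Q ⊤ ∨ Odd d)) := by
  classical
  subst hp
  subst hq
  have hd0 : 0 < d := by omega
  have hQF := qf_of hQ hQf
  have hB := jb_alt (F := F) d
  have hnd := jb_nd (F := F) d
  have hrp : r.Prime := Fact.out
  have hfin := finrank_jb (F := F) d
  have hconj : ∀ (x g : GL (Fin d ⊕ Fin d) F) (v : Fin d ⊕ Fin d → F), Matrix.toLin' (g⁻¹ * x * g).1 v =
      Matrix.toLin' (g⁻¹).1 (Matrix.toLin' x.1 (Matrix.toLin' g.1 v)) := by
    intro x g v
    rw [Units.val_mul, Units.val_mul, Matrix.toLin'_mul, Matrix.toLin'_mul]; rfl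
  have hgg : ∀ (g : GL (Fin d ⊕ Fin d) F) (v : Fin d ⊕ Fin d → F), Matrix.toLin' g.1 (Matrix.toLin' (g⁻¹).1 v) = v := by
    intro g v
    have : g.1 * (g⁻¹).1 = 1 := by rw [← Units.val_mul, mul_inv_cancel]; rfl
    rw [← LinearMap.comp_apply, ← Matrix.toLin'_mul, this, Matrix.toLin'_one]; rfl
  have hgg' : ∀ (g : GL (Fin d ⊕ Fin d) F) (v : Fin d ⊕ Fin d → F), Matrix.toLin' (g⁻¹).1 (Matrix.toLin' g.1 v) = v := by
    intro g v
    have := hgg g⁻¹ v
    rwa [inv_inv] at this
  rw [plus_iff]
  constructor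
  · intro hall
    by_cases hr2 : r = 2
    · subst hr2
      refine ⟨rfl, ?_⟩
      by_contra hcon
      push Not at hcon
      obtain ⟨hnp, hnodd⟩ := hcon
      rw [Nat.not_odd_iff_even] at hnodd
      have hTT : ∀ v, (1 + revN F d) ((1 + revN F d) v) = v := by
        intro v
        show (v + revN F d v) + revN F d (v + revN F d v) = v
        rw [map_add, revN_sq, add_zero, add_assoc]
        have h1 : (2 : F) • revN F d v = 0 := by rw [Cfsg.Agent.Lib.QArf.two_eq, zero_smul]
        rw [two_smul] at h1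
        rw [h1, add_zero]
      have hE := finrank_E_revN (F := F) (d := d)
      obtain ⟨x, hx, hxT, g, hg, hgx⟩ := of_hall (P := fun x => ∃ g ∈ Cfsg.spGL d F, g⁻¹ * x * g ∈ Cfsg.Geo.quadSimilarityGroup Q) hall
        (revN_iso (F := F) (d := d)) ⟨1, by
          rw [one_smul, pow_two]
          exact LinearMap.ext hTT⟩ (by
          intro z hz
          have h1 : E (z • (1 : Module.End F (Fin d ⊕ Fin d → F))) 1 = ⊤ ∨ E (z • (1 : Module.End F (Fin d ⊕ Fin d → F))) 1 = ⊥ := by
            by_cases hz1 : z = 1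
            · left
              rw [eq_top_iff]
              intro v _
              rw [Module.End.mem_eigenspace_iff, hz1, one_smul, one_smul]; rfl
            · right
              rw [eq_bot_iff]
              intro v hv
              rw [Module.End.mem_eigenspace_iff] at hv
              have h2 : z • v = (1 : F) • v := hv
              rw [← sub_eq_zero, ← sub_smul] at h2
              exact (smul_eq_zero.1 h2).resolve_left (sub_ne_zero.2 hz1)
          rw [hz] at hE
          rcases h1 with h1 | h1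
          · rw [h1, finrank_top, hfin] at hE
            omega
          · rw [h1, finrank_bot] at hE
            omega)
      have hym : g⁻¹ * x * g ∈ Cfsg.spGL d F := mul_mem (mul_mem (inv_mem hg) hx) hg
      have hyQ := (sim_iff hd0 hQF hym).1 hgx
      set S : Module.End F (Fin d ⊕ Fin d → F) := Matrix.toLin' (g⁻¹ * x * g).1 with hS
      have hSv : ∀ v, S v = Matrix.toLin' (g⁻¹).1 ((1 + revN F d) (Matrix.toLin' g.1 v)) := by
        intro v
        rw [hS, hconj, hxT]
      have hSv' : ∀ v, S v = v + Matrix.toLin' (g⁻¹).1 (revN F d (Matrix.toLin' g.1 v)) := by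
        intro v
        rw [hSv]
        show Matrix.toLin' (g⁻¹).1 (Matrix.toLin' g.1 v + revN F d (Matrix.toLin' g.1 v)) = _
        rw [map_add, hgg']
      have hgiso := (mem_spGL g).1 hg
      apply hnp
      refine ⟨LinearMap.range (S - 1), ?_, ?_⟩
      · rintro _ ⟨v, rfl⟩
        have h1 : (S - 1) v = Matrix.toLin' (g⁻¹).1 (revN F d (Matrix.toLin' g.1 v)) := by
          show S v - v = _
          rw [hSv']; abel
        have h2 := hyQ v
        have h3 : S v = v + (S - 1) v := by show S v = v + (S v - v); abel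
        rw [h3, hQF.add] at h2
        have h4 : JB (F := F) d v ((S - 1) v) = 0 := by
          rw [h1, ← hgiso, hgg]
          exact jb_revN_self hnodd _
        rw [h4] at h2
        linear_combination h2
      · have h1 := LinearMap.finrank_range_add_finrank_ker (S - 1)
        have hker : LinearMap.ker (S - 1) = E S 1 := by
          ext v
          rw [LinearMap.mem_ker, Module.End.mem_eigenspace_iff, one_smul]
          show S v - v = 0 ↔ _
          rw [sub_eq_zero]
        have h2 : finrank F (E S 1) = d := by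
          rw [hS, Cfsg.Agent.Lib.XR.finrank_conj', hxT, hE]
        rw [hker, h2, hfin] at h1
        rw [hfin]
        omega
    · exfalso
      have hodd : Odd r := hrp.odd_of_ne_two hr2
      rw [relIndex_eq hd0 hQF] at hΩ
      have hcl := card_classes hB hnd hQF
      have hcardV : Nat.card (Fin d ⊕ Fin d → F) = Fintype.card F ^ (2 * d) := by
        rw [Module.natCard_eq_pow_finrank (K := F), hfin, Nat.card_eq_fintype_card]
      have h1 : r ∣ (Nat.card (Fin d ⊕ Fin d → F) - 1) * Nat.card (Fin d ⊕ Fin d → F) := by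
        rw [← hcl]
        exact Dvd.dvd.mul_left (Dvd.dvd.mul_right hΩ _) _
      obtain ⟨e, -, he⟩ := FiniteField.card F 2
      have h2 : r ∣ Fintype.card F ^ (2 * d) - 1 := by
        rcases (Nat.Prime.dvd_mul hrp).1 h1 with h2 | h2
        · rwa [hcardV] at h2
        · exfalso
          rw [hcardV, he, ← pow_mul] at h2
          exact hr2 ((Nat.prime_dvd_prime_iff_eq hrp Nat.prime_two).1 (hrp.dvd_of_dvd_pow h2))
      have h3 : csz F r ∣ 2 * d := csz_dvd_iff.2 (Cfsg.Agent.Lib.SubspaceCount.orderOf_dvd_of_dvd Fintype.card_pos h2)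
      obtain ⟨s, hs⟩ := h3
      obtain ⟨T, hT, hTE⟩ := exists_po (F := F) (p := 2) (r := r) Nat.prime_two inferInstance hrp hr2 hodd s hB hnd (by rw [hfin, hs, mul_comm])
      have hE0 : finrank F (E T 1) = 0 := by rw [hfin, hs, mul_comm] at hTE; omega
      have hEb : E T 1 = ⊥ := Submodule.finrank_eq_zero.1 hE0
      obtain ⟨x, hx, hxT, g, hg, hgx⟩ := of_hall (P := fun x => ∃ g ∈ Cfsg.spGL d F, g⁻¹ * x * g ∈ Cfsg.Geo.quadSimilarityGroup Q) hall
        hT.iso ⟨1, by rw [one_smul]; exact hT.pow⟩ (by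
          intro z hz
          have hnt : Nontrivial (Fin d ⊕ Fin d → F) := Module.nontrivial_of_finrank_pos (R := F) (by rw [hfin]; omega)
          have hzz := sq_scalar hnd hT.iso (z := z) (k := 1) (by rw [pow_one]; exact hz)
          have hz1 : z = 1 := Cfsg.Agent.Lib.QArf.eq_of_sq_eq (by rw [hzz, one_pow])
          obtain ⟨v, hv⟩ := exists_ne (0 : Fin d ⊕ Fin d → F)
          have : v ∈ E T 1 := by
            rw [Module.End.mem_eigenspace_iff, hz, hz1, one_smul, one_smul]; rfl
          rw [hEb, Submodule.mem_bot] at this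
          exact hv this)
      have hym : g⁻¹ * x * g ∈ Cfsg.spGL d F := mul_mem (mul_mem (inv_mem hg) hx) hg
      have hyQ := (sim_iff hd0 hQF hym).1 hgx
      set S : Module.End F (Fin d ⊕ Fin d → F) := Matrix.toLin' (g⁻¹ * x * g).1 with hS
      have hSr : S ^ r = 1 := by
        have h4 : (g⁻¹ * x * g) ^ r = g⁻¹ * x ^ r * g := by
          have := conj_pow (i := r) (a := g⁻¹) (b := x)
          rw [inv_inv] at this
          exact this
        have h5 : x ^ r = 1 := by
          apply Units.ext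
          rw [Units.val_pow_eq_pow_val]
          apply (Matrix.toLin' (R := F) (n := Fin d ⊕ Fin d) (m := Fin d ⊕ Fin d)).injective
          have : Matrix.toLin' (x.1 ^ r) = (Matrix.toLin' x.1) ^ r := map_pow Matrix.toLinAlgEquiv' x.1 r
          rw [this, hxT, hT.pow]
          exact (Matrix.toLin'_one).symm
        have h6 : S ^ r = Matrix.toLin' ((g⁻¹ * x * g) ^ r).1 := by
          rw [Units.val_pow_eq_pow_val]
          exact (map_pow Matrix.toLinAlgEquiv' (g⁻¹ * x * g).1 r).symm
        rw [h6, h4, h5, mul_one, inv_mul_cancel]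
        exact Matrix.toLin'_one
      have hSE : E S 1 = ⊥ := by
        apply Submodule.finrank_eq_zero.1
        rw [hS, Cfsg.Agent.Lib.XR.finrank_conj', hxT, hE0]
      have h4 := card_mod (r := r) hQF hSr hSE hyQ
      have h5 : 0 < Nat.card {a : Fin d ⊕ Fin d → F // Wp (Q a)} := by
        rw [Nat.card_pos_iff]
        exact ⟨⟨⟨0, by rw [hQF.zero]; exact wp_zero⟩⟩, inferInstance⟩
      have h6 : r ∣ 1 := by
        have : 1 = Nat.card {a : Fin d ⊕ Fin d → F // Wp (Q a)} - (Nat.card {a : Fin d ⊕ Fin d → F // Wp (Q a)} - 1) := by omega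
        rw [this]; exact Nat.dvd_sub hΩ h4
      exact hrp.one_lt.ne' (Nat.dvd_one.1 h6)
  · rintro ⟨rfl, htype⟩ x hx ⟨z, hz⟩ -
    have hxiso := (mem_spGL x).1 hx
    have hnt : Nontrivial (Fin d ⊕ Fin d → F) := Module.nontrivial_of_finrank_pos (R := F) (by rw [hfin]; omega)
    have hz' : (Matrix.toLin' x.1) ^ 2 = z • (1 : Module.End F (Fin d ⊕ Fin d → F)) := by
      have : Matrix.toLin' (x.1 ^ 2) = (Matrix.toLin' x.1) ^ 2 := map_pow Matrix.toLinAlgEquiv' x.1 2
      rw [← this, ← Units.val_pow_eq_pow_val, hz, map_smul, Matrix.toLin'_one]; rfl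
    have hzz := sq_scalar hnd hxiso hz'
    have hz1 : z = 1 := Cfsg.Agent.Lib.QArf.eq_of_sq_eq (by rw [hzz, one_pow])
    have hTT : ∀ v, Matrix.toLin' x.1 (Matrix.toLin' x.1 v) = v := by
      intro v
      have := LinearMap.congr_fun hz' v
      rw [pow_two, hz1, one_smul] at this
      exact this
    obtain ⟨Q', hQ', hfix, e, he, heQ⟩ := exists_fixed_type hB hnd hplus hQF hxiso hTT hfin htype
    obtain ⟨y, hy, hye⟩ := exists_spGL (T := (e : (Fin d ⊕ Fin d → F) →ₗ[F] (Fin d ⊕ Fin d → F))) he
    refine ⟨y⁻¹, inv_mem hy, ?_⟩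
    have hmem : y⁻¹⁻¹ * x * y⁻¹ ∈ Cfsg.spGL d F := mul_mem (mul_mem (inv_mem (inv_mem hy)) hx) (inv_mem hy)
    rw [sim_iff hd0 hQF hmem]
    intro v
    have hQe : ∀ v, Q' v = Q (Matrix.toLin' y.1 v) := by
      intro v; rw [hye]; exact heQ v
    rw [hconj, inv_inv, ← hQe, hfix, hQe, hgg]

end Cfsg.Agent.S5983
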