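import Cfsg.Statements.S5984
import Cfsg.Agent.Lib.UniPair5
import Cfsg.Agent.Lib.UniTool2

set_option autoImplicit false
open scoped MatrixGroups
open Cfsg

namespace Cfsg.Agent.S5984

open Cfsg.Agent.Lib.UniPair Cfsg.Agent.Lib.PrimeOrd Cfsg.Agent.Lib.Sesq Cfsg.Agent.Lib.InvSub Module


/-- Elements of prime order of PSU_n(q) and the stabilizers of pairs of complementary totally singular subspaces. Here `T = PSU_n(q)` is realised through `SU_n(q)`, the matrices of determinant 1 over the field `F` with `q²` elements preserving the hermitian form `Σ uᵢ vᵢ^q`, with `n ≥ 4` even; `D` is a pair of complementary subspaces of dimension `n/2` on each of which the form vanishes identically, and `H` is the subgroup of `SU_n(q)` fixing or interchanging the two members — a subgroup of type GL_{n/2}(q²).2 (maximality is not assumed). Ω is the set of cosets of `H`, so an element of `T` of prime order `r` (`x ∈ SU_n(q)` with `x^r` scalar, `x` not scalar) fixes a point of Ω exactly when some `SU_n(q)`-conjugate of `x` lies in `H`. Let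 `r` be a prime dividing the index of `H`. Then every element of `T` of order `r` fixes a point of Ω if and only if `r = 2`, `q` is odd and `(q + 1)_2 ≤ (n)_2` (2-parts). -/
theorem result {F : Type*} [Field F] [Fintype F] {p : ℕ} [Fact p.Prime] [CharP F p] {q : ℕ} (hq : Fintype.card F = q ^ 2)
    (n : ℕ) (hn : 4 ≤ n) (he : Even n) (D : Fin 2 → Submodule F (Fin n → F)) (hD : Cfsg.Geo.IsMDecomposition (n / 2) D)
    (hDs : ∀ i, Cfsg.Geo.IsTotallySingularFor (Cfsg.hermForm n F q) (D i))
    (r : ℕ) [Fact r.Prime]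
    (hΩ : r ∣ (Cfsg.Geo.decompositionStabilizer D).relIndex (Cfsg.GU n F q ⊓ Cfsg.Geo.specialLinear (Fin n) F)) :
    (∀ x ∈ Cfsg.GU n F q ⊓ Cfsg.Geo.specialLinear (Fin n) F, (∃ z : F, ((x ^ r : GL (Fin n) F) : Matrix (Fin n) (Fin n) F) = z • (1 : Matrix (Fin n) (Fin n) F)) →
      (∀ z : F, (x : Matrix (Fin n) (Fin n) F) ≠ z • (1 : Matrix (Fin n) (Fin n) F)) →
      ∃ g ∈ Cfsg.GU n F q ⊓ Cfsg.Geo.specialLinear (Fin n) F, g⁻¹ * x * g ∈ Cfsg.Geo.decompositionStabilizer D) ↔
    (r = 2 ∧ Odd q ∧ padicValNat 2 (q + 1) ≤ padicValNat 2 n) := by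
  classical
  have hp : p.Prime := Fact.out
  have hr : r.Prime := Fact.out
  obtain ⟨m, hnm⟩ := he
  have hm2 : n / 2 = m := by omega
  rw [hm2] at hD
  have hm : 2 ≤ m := by omega
  constructor
  · intro hall
    have hp1 : p ∣ q := by
      obtain ⟨k, hk, hc⟩ := FiniteField.card F p
      have : p ∣ q ^ 2 := by rw [← hq, hc]; exact dvd_pow_self p (by have := k.pos; omega)
      exact hp.dvd_of_dvd_pow this
    -- the test elements give a contradiction
    have key : ∀ x ∈ Cfsg.GU n F q ⊓ Cfsg.Geo.specialLinear (Fin n) F, ∀ z l : F, ((x ^ r : GL (Fin n) F) : Matrix (Fin n) (Fin n) F) = z • (1 : Matrix (Fin n) (Fin n) F) →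
        l ^ (q + 1) = 1 → ¬ Even (finrank F (E (Matrix.toLin' x.1) l)) → (Odd r ∨ m < finrank F (E (Matrix.toLin' x.1) l)) → False := by
      intro x hx z l hz hl hev hc
      refine no_conj hq hnm (by omega) hD hDs hx hz hl hev hc (hall x hx ⟨z, hz⟩ ?_)
      intro c hc'
      have hT : Matrix.toLin' x.1 = c • (1 : Module.End F (Fin n → F)) := by
        rw [hc', map_smul, Matrix.toLin'_one]; rfl
      by_cases hcl : c = l
      · have h1 : E (Matrix.toLin' x.1) l = ⊤ := by
          rw [eq_top_iff]
          intro v _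
          rw [Module.End.mem_eigenspace_iff, hT, hcl]; rfl
        rw [h1, finrank_top, Module.finrank_fin_fun] at hev
        exact hev ⟨m, hnm⟩
      · have h1 : E (Matrix.toLin' x.1) l = ⊥ := by
          rw [eq_bot_iff]
          intro v hv
          have hv' := Module.End.mem_eigenspace_iff.1 hv
          rw [hT] at hv'
          have h2 : (c - l) • v = 0 := by
            rw [sub_smul, sub_eq_zero]; exact hv'
          rcases smul_eq_zero.1 h2 with h3 | h3
          · exact absurd (sub_eq_zero.1 h3) hcl
          · exact (Submodule.mem_bot F).2 h3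
        rw [h1, finrank_bot] at hev
        exact hev ⟨0, rfl⟩
    by_cases hrp : r = p
    · exfalso
      obtain ⟨x, hx, hxp, hxf, -⟩ := Cfsg.Agent.Lib.UniTool.exists_transv_SU (n := n) hq (p := p) (by omega)
      have hxf' : finrank F (E (Matrix.toLin' x.1) 1) + 1 = n := hxf
      refine key x hx 1 1 ?_ (one_pow _) ?_ (Or.inr (by omega))
      · rw [hrp, hxp, one_smul]; rfl
      · rintro ⟨k, hk⟩; omega
    by_cases hr2 : r = 2
    · subst hr2
      have hqo : Odd q := by
        rw [← Nat.not_even_iff_odd]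
        intro hqe
        apply hrp
        have h1 : Even (Fintype.card F) := by rw [hq]; exact (Nat.even_pow.2 ⟨hqe, by norm_num⟩)
        obtain ⟨k, hk, hc⟩ := FiniteField.card F p
        rw [hc] at h1
        exact (((Nat.prime_dvd_prime_iff_eq Nat.prime_two hp).1 (Nat.prime_two.dvd_of_dvd_pow h1.two_dvd)))
      refine ⟨rfl, hqo, ?_⟩
      by_contra hv
      push Not at hv
      obtain ⟨c, hc1, hcn⟩ := exists_root_neg hq (n := n) (by omega) hv
      have h2 : (2 : F) ≠ 0 := Cfsg.Agent.Lib.Sesq.two_ne_zero_of_odd (by rw [hq]; exact hqo.pow)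
      have hc0 : c ≠ 0 := by rintro rfl; rw [zero_pow (by omega)] at hc1; exact zero_ne_one hc1
      have hcne : -c ≠ c := by
        intro h
        have : 2 * c = 0 := by linear_combination (-1 : F) * h
        rcases mul_eq_zero.1 this with h | h
        · exact h2 h
        · exact hc0 h
      obtain ⟨x, hx, hxr, hxf⟩ := exists_diagU hq (n := n) (by omega) c (-c) c (by
        have : c ^ n = c * c * c ^ (n - 2) := by
          rw [← pow_two, ← pow_add]; congr 1; omega
        rw [neg_mul, neg_mul, ← this, hcn, neg_neg]) hc1 (by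
        rw [hqo.add_one.neg_pow, hc1]) hc1
      have hxc := hxf c
      rw [if_neg hcne, if_pos rfl, if_pos rfl] at hxc
      refine key x hx (c ^ 2) c (hxr 2 (c ^ 2) (neg_pow_two c) rfl rfl) hc1 ?_ (Or.inr ?_)
      · rintro ⟨k, hk⟩; omega
      · omega
    · exfalso
      have hro : Odd r := hr.odd_of_ne_two hr2
      by_cases hrq : r ∣ q + 1
      · -- a primitive r-th root of norm one
        have h1 : r ∣ Nat.card Fˣ := by
          rw [Nat.card_units, Nat.card_eq_fintype_card, hq, Cfsg.Agent.Lib.ClUnitary.sq_sub_one]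
          exact Dvd.dvd.mul_right hrq _
        obtain ⟨u, hu⟩ := exists_prime_orderOf_dvd_card' r h1
        have hur : (u : F) ^ r = 1 := by
          have := congrArg Units.val (pow_orderOf_eq_one u)
          rw [hu] at this
          simpa using this
        have hu1 : (u : F) ≠ 1 := by
          intro h
          have h2 : u = 1 := Units.ext h
          rw [h2, orderOf_one] at hu
          exact hr.one_lt.ne hu
        have huq : (u : F) ^ (q + 1) = 1 := by
          obtain ⟨k, hk⟩ := hrq
          rw [hk, pow_mul, hur, one_pow]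
        have hu2 : (u : F)⁻¹ ≠ u := by
          intro h
          have h3 : (u : F) ^ 2 = 1 := by
            rw [pow_two]; nth_rewrite 1 [← h]; exact inv_mul_cancel₀ u.ne_zero
          obtain ⟨k, hk⟩ := hro
          rw [hk, pow_add, pow_mul, h3, one_pow, one_mul, pow_one] at hur
          exact hu1 hur
        obtain ⟨x, hx, hxr, hxf⟩ := exists_diagU hq (n := n) (by omega) 1 (u : F) (u : F)⁻¹ (by
          rw [mul_inv_cancel₀ u.ne_zero, one_pow, one_mul]) (one_pow _) huq (by rw [_root_.inv_pow, huq, inv_one])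
        have hxc := hxf u
        rw [if_pos rfl, if_neg hu2, if_neg (Ne.symm hu1)] at hxc
        refine key x hx 1 u (hxr r 1 hur (by rw [_root_.inv_pow, hur, inv_one]) (one_pow _)) huq ?_ (Or.inl hro)
        rw [hxc]; decide
      · obtain ⟨M, M', h1, h2, hg, d0, d1⟩ := exists_hyp hq hnm hD hDs
        have h3 := index_dvd hq (by omega) h1 h2 hg d0 d1 hΩ
        have h4 : r * Nat.card (GL (Fin m) F) ∣ Nat.card (Cfsg.GU (m + m) F q) := by rw [← hnm]; exact h3
        obtain ⟨k, hk, hd⟩ := exists_factor hq (p := p) hrp h4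
        obtain ⟨x, hx, hxr, hxf⟩ := exists_ord hq (p := p) hrp hro hrq hk hd hnm
        exact key x hx 1 1 (by rw [hxr, one_smul]; rfl) (one_pow _) hxf (Or.inl hro)
  · rintro ⟨rfl, hqo, hv⟩ x hx ⟨z, hz⟩ -
    exact yes_dir hq p hqo hv hnm (by omega) hD hDs hx hz

end Cfsg.Agent.S5984
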