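import Cfsg.Statements.S5985
import Cfsg.Agent.Lib.NsMain67

set_option autoImplicit false
open scoped MatrixGroups
open Cfsg

namespace Cfsg.Agent.S5985


open QuadraticMap Module Cfsg.Geo Cfsg.Agent.Lib.Quad Cfsg.Agent.Lib.GaussSign67 Cfsg.Agent.Lib.NsPt67 in
theorem aux {F : Type*} [Field F] [Finite F] [CharP F 2] (d : ℕ) (hd : 4 ≤ d) (r : ℕ) (hr : r.Prime)
    (hrΩ : r ∣ Nat.card {W : Submodule F (Fin d ⊕ Fin d → F) // Module.finrank F ↥W = 1 ∧ ∃ v ∈ W, quadPlus d F v ≠ 0}) :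
    (∀ g ∈ Om (quadPlus d F), g ^ r = 1 → g ≠ 1 → ∃ v, quadPlus d F v ≠ 0 ∧ g v = v) ↔ (r = 2 ∧ Odd d) := by
  have hFt := Fintype.ofFinite F
  obtain ⟨χ, hχ, hχ1⟩ := exists_char F
  have hnd : Nd (quadPlus d F) := nd_quadPlus
  have hfr : finrank F (Fin d ⊕ Fin d → F) = 2 * d := finrank_plus
  have hgen : GenHyp (quadPlus d F) := genHyp_of_card (Or.inr (by omega))
  constructor
  · intro H
    by_cases hr2 : r = 2
    · refine ⟨hr2, ?_⟩
      by_contra hodd
      rw [Nat.not_odd_iff_even] at hodd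
      obtain ⟨g, hg, hg2, hg1, hfix⟩ := exists_inv F hodd (by omega) hgen
      obtain ⟨v, hv, hgv⟩ := H g hg (by rw [hr2, hg2]) hg1
      exact hfix v hv hgv
    · exfalso
      have hrodd : Odd r := hr.odd_of_ne_two hr2
      have hq1 : 1 < Nat.card F := Finite.one_lt_card
      have hrq : ¬ r ∣ Nat.card F := by
        intro h
        obtain ⟨m, _, hm⟩ := FiniteField.card F 2
        rw [Nat.card_eq_fintype_card, hm] at h
        exact hr2 ((Nat.prime_dvd_prime_iff_eq hr Nat.prime_two).1 (hr.dvd_of_dvd_pow h))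
      rw [card_ns] at hrΩ
      have h1 := card_one (Q := quadPlus d F) hχ
      have hcV : Nat.card (Fin d ⊕ Fin d → F) = Nat.card F ^ (2 * d) := by
        rw [Module.natCard_eq_pow_finrank (K := F) (V := (Fin d ⊕ Fin d → F)), hfr]
      rw [gs_plus hχ, hcV] at h1
      have hqd : 1 < Nat.card F ^ d := Nat.one_lt_pow (by omega) hq1
      have h2 : r ∣ Nat.card F ^ d - 1 := by
        obtain ⟨c, hc⟩ := hrΩ
        have h3 : (r : ℤ) ∣ (Nat.card F : ℤ) ^ d * ((Nat.card F ^ d - 1 : ℕ) : ℤ) := by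
          refine ⟨Nat.card F * c, ?_⟩
          rw [hc] at h1
          push_cast [Nat.cast_sub hqd.le] at h1 ⊢
          linear_combination - h1
        have h4 : r ∣ Nat.card F ^ d * (Nat.card F ^ d - 1) := by exact_mod_cast h3
        rcases hr.dvd_mul.1 h4 with h5 | h5
        · exact absurd (hr.dvd_of_dvd_pow h5) hrq
        · exact h5
      obtain ⟨V, _, _, _, Q, T, hV, hQ, hgs, hT, hTo, hsr⟩ := tor_plus (F := F) hχ (d := d) (by omega)
      rcases classify hQ hV with ⟨e, he⟩ | ⟨k, hk, he⟩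
      · obtain ⟨g, hg, hgr, hg1, hfix⟩ := transport e he hT hTo hsr hr h2 (by omega)
        have hgOm := mem_Om_of_odd hnd hgen hg hrodd hgr
        obtain ⟨v, hv, hgv⟩ := H g hgOm hgr hg1
        refine hfix v ?_ hgv
        rintro rfl
        exact hv (QuadraticMap.map_zero _)
      · obtain ⟨a, b, hab⟩ := exists_aniso F
        obtain ⟨e, he⟩ := he a b hab
        have h5 := gs_equiv (χ := χ) e.toEquiv he
        rw [gs_minus hχ k a b hab, hgs, ← hk] at h5
        have : (0 : ℤ) < (Nat.card F : ℤ) ^ d := by positivity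
        linarith
  · rintro ⟨rfl, hodd⟩ g hg hg2 hg1
    by_contra hcon
    push Not at hcon
    have h := (inv_cases hnd hgen hfr hg hg2 hcon).1
    exact (Nat.not_even_iff_odd.2 hodd) h

/-- Elements of prime order of Ω⁺_n(q), q even, with no fixed nonsingular 1-space. Here `T = PΩ⁺_n(F)`, `n = 2d ≥ 8`, realised through `Ω⁺_n(q)`, the commutator subgroup of the isometry group of `Q = Σ xᵢyᵢ` over the field `F` with `q` elements; an element of `T` of prime order `r` is an element `x` of `Ω⁺_n(q)` with `x^r` scalar and `x` not scalar; `q` is even (so the centre is trivial). Let Ω be the set of 1-dimensional subspaces spanned by a vector `v` with `Q(v) ≠ 0`, and let `r` be a prime dividing their number. Then every element of `T` of order `r` fixes some nonsingular 1-space if and only if `r = 2` and `n ≡ 2 (mod 4)` (that is, `d` is odd). -/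
theorem result {F : Type*} [Field F] [Fintype F] {p : ℕ} [Fact p.Prime] [CharP F p] {q : ℕ} (hq : Fintype.card F = q)
    (hp : p = 2) (d : ℕ) (hd : 4 ≤ d) (r : ℕ) [Fact r.Prime]
    (hrΩ : r ∣ Nat.card {W : Submodule F (Fin d ⊕ Fin d → F) // Module.finrank F ↥W = 1 ∧ ∃ v ∈ W, Cfsg.quadFormPlus d F v ≠ 0}) :
    (∀ x : GL (Fin d ⊕ Fin d) F, x ∈ Cfsg.Geo.omegaGL (Cfsg.quadFormPlus d F) →
      (∃ z : F, ((x ^ r : GL (Fin d ⊕ Fin d) F) : Matrix (Fin d ⊕ Fin d) (Fin d ⊕ Fin d) F) = z • (1 : Matrix (Fin d ⊕ Fin d) (Fin d ⊕ Fin d) F)) →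
      (∀ z : F, (x : Matrix (Fin d ⊕ Fin d) (Fin d ⊕ Fin d) F) ≠ z • (1 : Matrix (Fin d ⊕ Fin d) (Fin d ⊕ Fin d) F)) →
      ∃ W : Submodule F (Fin d ⊕ Fin d → F), (Module.finrank F ↥W = 1 ∧ ∃ v ∈ W, Cfsg.quadFormPlus d F v ≠ 0) ∧ W.map (Matrix.toLin' (x : Matrix (Fin d ⊕ Fin d) (Fin d ⊕ Fin d) F)) ≤ W) ↔ (r = 2 ∧ Odd d) := by
  subst hp
  have h := aux (F := F) d hd r Fact.out hrΩ
  rw [← h]
  refine Cfsg.Agent.Lib.NsPt67.key (Cfsg.Agent.Lib.Quad.quadPlus d F) ?_ r
  exact Cfsg.Agent.Lib.Quad.Nd.exists_Q_ne_zero Cfsg.Agent.Lib.Quad.nd_quadPlus (by rw [Cfsg.Agent.Lib.Quad.finrank_plus]; omega)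


end Cfsg.Agent.S5985
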