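import Cfsg.Statements.S5986
import Cfsg.Agent.Lib.NsMain67

set_option autoImplicit false
open scoped MatrixGroups
open Cfsg

namespace Cfsg.Agent.S5986


open QuadraticMap Module Cfsg.Geo Cfsg.Agent.Lib.Quad Cfsg.Agent.Lib.GaussSign67 Cfsg.Agent.Lib.NsPt67 in
theorem aux {F : Type*} [Field F] [Finite F] [CharP F 2] (k : ℕ) (hk : 3 ≤ k) (r : ℕ) (hr : r.Prime) (a b : F)
    (hab : ∀ z₁ z₂ : F, z₁ ^ 2 + a * z₁ * z₂ + b * z₂ ^ 2 = 0 → z₁ = 0 ∧ z₂ = 0)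
    (hrΩ : r ∣ Nat.card {W : Submodule F ((Fin k ⊕ Fin k) ⊕ Fin 2 → F) // Module.finrank F ↥W = 1 ∧ ∃ v ∈ W, quadMinus k F a b v ≠ 0}) :
    (∀ g ∈ Om (quadMinus k F a b), g ^ r = 1 → g ≠ 1 → ∃ v, quadMinus k F a b v ≠ 0 ∧ g v = v) ↔ r = 2 := by
  have hFt := Fintype.ofFinite F
  obtain ⟨χ, hχ, hχ1⟩ := exists_char F
  have hnd : Nd (quadMinus k F a b) := nd_quadMinus (disc_ne_zero_of_anisotropic hab)
  have hfr : finrank F ((Fin k ⊕ Fin k) ⊕ Fin 2 → F) = 2 * (k + 1) := by rw [finrank_minus]; ring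
  have hgen : GenHyp (quadMinus k F a b) := genHyp_of_card (Or.inr (by omega))
  constructor
  · intro H
    by_contra hr2
    have hrodd : Odd r := hr.odd_of_ne_two hr2
    have hq1 : 1 < Nat.card F := Finite.one_lt_card
    have hrq : ¬ r ∣ Nat.card F := by
      intro h
      obtain ⟨m, _, hm⟩ := FiniteField.card F 2
      rw [Nat.card_eq_fintype_card, hm] at h
      exact hr2 ((Nat.prime_dvd_prime_iff_eq hr Nat.prime_two).1 (hr.dvd_of_dvd_pow h))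
    rw [card_ns] at hrΩ
    have h1 := card_one (Q := quadMinus k F a b) hχ
    have hcV : Nat.card ((Fin k ⊕ Fin k) ⊕ Fin 2 → F) = Nat.card F ^ (2 * (k + 1)) := by
      rw [Module.natCard_eq_pow_finrank (K := F) (V := ((Fin k ⊕ Fin k) ⊕ Fin 2 → F)), hfr]
    rw [gs_minus hχ k a b hab, hcV] at h1
    have hqd : 1 < Nat.card F ^ (k + 1) := Nat.one_lt_pow (by omega) hq1
    have h2 : r ∣ Nat.card F ^ (k + 1) + 1 := by
      obtain ⟨c, hc⟩ := hrΩ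
      have h3 : (r : ℤ) ∣ (Nat.card F : ℤ) ^ (k + 1) * ((Nat.card F ^ (k + 1) + 1 : ℕ) : ℤ) := by
        refine ⟨Nat.card F * c, ?_⟩
        rw [hc] at h1
        push_cast at h1 ⊢
        linear_combination - h1
      have h4 : r ∣ Nat.card F ^ (k + 1) * (Nat.card F ^ (k + 1) + 1) := by exact_mod_cast h3
      rcases hr.dvd_mul.1 h4 with h5 | h5
      · exact absurd (hr.dvd_of_dvd_pow h5) hrq
      · exact h5
    obtain ⟨V, _, _, _, Q, T, hV, hQ, hgs, hT, hTo, hsr⟩ := tor_minus (F := F) hχ hχ1 ⟨a, b, hab⟩ (d := k + 1) (by omega)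
    obtain ⟨e, he⟩ := minus_of_gs hχ hQ hV hgs hab
    obtain ⟨g, hg, hgr, hg1, hfix⟩ := transport e he hT hTo hsr hr h2 (by omega)
    have hgOm := mem_Om_of_odd hnd hgen hg hrodd hgr
    obtain ⟨v, hv, hgv⟩ := H g hgOm hgr hg1
    refine hfix v ?_ hgv
    rintro rfl
    exact hv (QuadraticMap.map_zero _)
  · rintro rfl g hg hg2 hg1
    by_contra hcon
    push Not at hcon
    obtain ⟨-, W, hW, hWd⟩ := inv_cases hnd hgen hfr hg hg2 hcon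
    have h3 := gs_of_ts (χ := χ) hχ hnd W hW (by rw [hWd, hfr])
    rw [gs_minus hχ k a b hab, hWd] at h3
    have h4 : (0 : ℤ) < (Nat.card F : ℤ) ^ (k + 1) := pow_pos (by exact_mod_cast Nat.card_pos) _
    linarith

/-- Elements of prime order of Ω⁻_n(q), q even, with no fixed nonsingular 1-space. Here `T = PΩ⁻_n(F)`, `n = 2d ≥ 8`, realised through `Ω⁻_n(q)`, the commutator subgroup of the isometry group of `Q = Σ_{i<d−1} xᵢyᵢ + z₁² + a z₁z₂ + b z₂²` with `z₁² + a z₁z₂ + b z₂²` anisotropic, over the field `F` with `q` elements; an element of `T` of prime order `r` is an element `x` of `Ω⁻_n(q)` with `x^r` scalar and `x` not scalar; `q` is even (so the centre is trivial). Let Ω be the set of 1-dimensional subspaces spanned by a vector `v` with `Q(v) ≠ 0`, and let `r` be a prime dividing their number. Then every element of `T` of order `r` fixes some nonsingular 1-space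 if and only if `r = 2`. -/
theorem result {F : Type*} [Field F] [Fintype F] {p : ℕ} [Fact p.Prime] [CharP F p] {q : ℕ} (hq : Fintype.card F = q)
    (hp : p = 2) (d : ℕ) (hd : 4 ≤ d) (a b : F) (hab : ∀ x y : F, x ^ 2 + a * x * y + b * y ^ 2 = 0 → x = 0 ∧ y = 0) (r : ℕ) [Fact r.Prime]
    (hrΩ : r ∣ Nat.card {W : Submodule F ((Fin (d - 1) ⊕ Fin (d - 1)) ⊕ Fin 2 → F) // Module.finrank F ↥W = 1 ∧ ∃ v ∈ W, Cfsg.quadFormMinus (d - 1) F a b v ≠ 0}) :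
    (∀ x : GL ((Fin (d - 1) ⊕ Fin (d - 1)) ⊕ Fin 2) F, x ∈ Cfsg.Geo.omegaGL (Cfsg.quadFormMinus (d - 1) F a b) →
      (∃ z : F, ((x ^ r : GL ((Fin (d - 1) ⊕ Fin (d - 1)) ⊕ Fin 2) F) : Matrix ((Fin (d - 1) ⊕ Fin (d - 1)) ⊕ Fin 2) ((Fin (d - 1) ⊕ Fin (d - 1)) ⊕ Fin 2) F) = z • (1 : Matrix ((Fin (d - 1) ⊕ Fin (d - 1)) ⊕ Fin 2) ((Fin (d - 1) ⊕ Fin (d - 1)) ⊕ Fin 2) F)) →
      (∀ z : F, (x : Matrix ((Fin (d - 1) ⊕ Fin (d - 1)) ⊕ Fin 2) ((Fin (d - 1) ⊕ Fin (d - 1)) ⊕ Fin 2) F) ≠ z • (1 : Matrix ((Fin (d - 1) ⊕ Fin (d - 1)) ⊕ Fin 2) ((Fin (d - 1) ⊕ Fin (d - 1)) ⊕ Fin 2) F)) →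
      ∃ W : Submodule F ((Fin (d - 1) ⊕ Fin (d - 1)) ⊕ Fin 2 → F), (Module.finrank F ↥W = 1 ∧ ∃ v ∈ W, Cfsg.quadFormMinus (d - 1) F a b v ≠ 0) ∧ W.map (Matrix.toLin' (x : Matrix ((Fin (d - 1) ⊕ Fin (d - 1)) ⊕ Fin 2) ((Fin (d - 1) ⊕ Fin (d - 1)) ⊕ Fin 2) F)) ≤ W) ↔ r = 2 := by
  subst hp
  obtain ⟨k, rfl⟩ : ∃ k, d = k + 1 := ⟨d - 1, by omega⟩
  have h := aux (F := F) k (by omega) r Fact.out a b hab hrΩ
  rw [← h]
  refine Cfsg.Agent.Lib.NsPt67.key (Cfsg.Agent.Lib.Quad.quadMinus k F a b) ?_ r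
  exact Cfsg.Agent.Lib.Quad.Nd.exists_Q_ne_zero (Cfsg.Agent.Lib.Quad.nd_quadMinus (Cfsg.Agent.Lib.Quad.disc_ne_zero_of_anisotropic hab))
    (by rw [Cfsg.Agent.Lib.Quad.finrank_minus]; omega)


end Cfsg.Agent.S5986
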