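import Cfsg.Statements.S5987
import Cfsg.Agent.Lib.OrthTSG67
import Cfsg.Agent.Lib.QuadForms

set_option autoImplicit false
open scoped MatrixGroups
open Cfsg

namespace Cfsg.Agent.S5987

open QuadraticMap Module Cfsg.Agent.Lib.Quad Cfsg.Agent.Lib.QuadD67 Cfsg.Agent.Lib.QuadEmb67 Cfsg.Agent.Lib.OrthR67
open Cfsg.Agent.Lib.InvSub Cfsg.Agent.Lib.PrimeOrd in
/-- Elements of prime order of PΩ⁻_n(q) with no fixed totally singular `m`-space. Here `T = PΩ⁻_n(F)`, `n = 2d ≥ 8`, realised through `Ω⁻_n(q)`, the commutator subgroup of the isometry group of `Q = Σ_{i<d−1} xᵢyᵢ + z₁² + a z₁z₂ + b z₂²` with `z₁² + a z₁z₂ + b z₂²` anisotropic, over the field `F` with `q` elements; an element of `T` of prime order `r` is an element `x` of `Ω⁻_n(q)` with `x^r` scalar and `x` not scalar. Let `1 ≤ m ≤ d − 1` and let `r` be a prime dividing the number of totally singular `m`-spaces (subspaces of dimension `m`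 on which `Q` vanishes); for `r ≠ p` let `i` be the multiplicative order of `q` modulo `r`, `c = i` for `i` even and `c = 2i` for `i` odd, and write `k = n mod c`, `ℓ = m mod i`, `n' = ⌊n/i⌋`, `m' = ⌊m/i⌋`, `t = (r−1)/i`. Then every element of `T` of order `r` fixes some totally singular `m`-space if and only if one of: (i) `r = 2 ≠ p` and (`n ≡ 0 (mod 4)`, or `m` is even, or `q ≢ 7 (mod 8)`); (ii) `r ≠ p` odd, `i` odd, `i ≤ m` and (`k = 0` or `k > 2ℓ`); (iii) `r ≠ p` odd, `i` even, `i ≤ m`, `n' − 2m' ≥ t`, and one of: (a) `i ≥ 2ℓ`, `k = 0`, `n/i` even and `n' − 2m' > t` (all four); (b) `k ≥ 2ℓ` and `n'` odd; (c) `k > 2ℓ` and `n'` even. -/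
theorem result {F : Type*} [Field F] [Fintype F] {p : ℕ} [Fact p.Prime] [CharP F p] {q : ℕ} (hq : Fintype.card F = q)
    (d m : ℕ) (hd : 4 ≤ d) (hm : 1 ≤ m) (hmd : m + 1 ≤ d) (a b : F) (hab : ∀ x y : F, x ^ 2 + a * x * y + b * y ^ 2 = 0 → x = 0 ∧ y = 0)
    (r : ℕ) [Fact r.Prime]
    (hrΩ : r ∣ Nat.card {W : Submodule F ((Fin (d - 1) ⊕ Fin (d - 1)) ⊕ Fin 2 → F) // Module.finrank F ↥W = m ∧ Cfsg.Geo.IsTotallySingularQuad (Cfsg.quadFormMinus (d - 1) F a b) W})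
    (i c : ℕ) (hi : i = orderOf (q : ZMod r)) (hc : c = if Even i then i else 2 * i) :
    (∀ x : GL ((Fin (d - 1) ⊕ Fin (d - 1)) ⊕ Fin 2) F, x ∈ Cfsg.Geo.omegaGL (Cfsg.quadFormMinus (d - 1) F a b) →
      (∃ z : F, ((x ^ r : GL ((Fin (d - 1) ⊕ Fin (d - 1)) ⊕ Fin 2) F) : Matrix ((Fin (d - 1) ⊕ Fin (d - 1)) ⊕ Fin 2) ((Fin (d - 1) ⊕ Fin (d - 1)) ⊕ Fin 2) F) = z • (1 : Matrix ((Fin (d - 1) ⊕ Fin (d - 1)) ⊕ Fin 2) ((Fin (d - 1) ⊕ Fin (d - 1)) ⊕ Fin 2) F)) →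
      (∀ z : F, (x : Matrix ((Fin (d - 1) ⊕ Fin (d - 1)) ⊕ Fin 2) ((Fin (d - 1) ⊕ Fin (d - 1)) ⊕ Fin 2) F) ≠ z • (1 : Matrix ((Fin (d - 1) ⊕ Fin (d - 1)) ⊕ Fin 2) ((Fin (d - 1) ⊕ Fin (d - 1)) ⊕ Fin 2) F)) →
      ∃ W : Submodule F ((Fin (d - 1) ⊕ Fin (d - 1)) ⊕ Fin 2 → F), (Module.finrank F ↥W = m ∧ Cfsg.Geo.IsTotallySingularQuad (Cfsg.quadFormMinus (d - 1) F a b) W) ∧ W.map (Matrix.toLin' (x : Matrix ((Fin (d - 1) ⊕ Fin (d - 1)) ⊕ Fin 2) ((Fin (d - 1) ⊕ Fin (d - 1)) ⊕ Fin 2) F)) ≤ W) ↔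
    ((r = 2 ∧ p ≠ 2 ∧ (Even d ∨ Even m ∨ q % 8 ≠ 7)) ∨
     (r ≠ p ∧ 2 < r ∧ Odd i ∧ i ≤ m ∧ ((2 * d) % c = 0 ∨ 2 * (m % i) < (2 * d) % c)) ∨
     (r ≠ p ∧ 2 < r ∧ Even i ∧ i ≤ m ∧ (r - 1) / i + 2 * (m / i) ≤ (2 * d) / i ∧
       ((2 * (m % i) ≤ i ∧ (2 * d) % c = 0 ∧ Even ((2 * d) / i) ∧ (r - 1) / i + 2 * (m / i) < (2 * d) / i) ∨
        (2 * (m % i) ≤ (2 * d) % c ∧ Odd ((2 * d) / i)) ∨
        (2 * (m % i) < (2 * d) % c ∧ Even ((2 * d) / i))))) := by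
  have hr : r.Prime := Fact.out
  have hQ : Nd (quadMinus (d - 1) F a b) := nd_quadMinus (disc_ne_zero_of_anisotropic hab)
  have hfr : finrank F ((Fin (d - 1) ⊕ Fin (d - 1)) ⊕ Fin 2 → F) = 2 * d := by rw [finrank_minus]; omega
  have hgen : GenHyp (quadMinus (d - 1) F a b) := genHyp_of_card (Or.inr (by rw [hfr]; omega))
  have hD : D (quadMinus (d - 1) F a b) = (-1) * (Nat.card F : ℤ) ^ d := by
    rw [D_quadMinus (d - 1) hab, show d - 1 + 1 = d by omega]; ring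
  have hcardeq : Nat.card {W : Submodule F ((Fin (d - 1) ⊕ Fin (d - 1)) ⊕ Fin 2 → F) // Module.finrank F ↥W = m ∧ Cfsg.Geo.IsTotallySingularQuad (Cfsg.quadFormMinus (d - 1) F a b) W} =
      Nat.card {W : Submodule F ((Fin (d - 1) ⊕ Fin (d - 1)) ⊕ Fin 2 → F) // Ts (quadMinus (d - 1) F a b) m W} :=
    Nat.card_congr (Equiv.subtypeEquivRight fun W => and_comm)
  rw [hcardeq] at hrΩ
  have hrp : r ≠ p := by
    rintro rfl
    exact not_dvd_card_ts (p := r) hQ (by omega) hrΩ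
  have hne : (r : F) ≠ 0 := Cfsg.Agent.Lib.PrimeOrd.cast_ne_zero (p := p) hrp
  have e1 := keyS (quadMinus (d - 1) F a b) (fun W => Ts (quadMinus (d - 1) F a b) m W) r
  rw [coe_quadMinus] at e1
  refine Iff.trans (forall_congr' fun x => forall_congr' fun _ => forall_congr' fun _ => forall_congr' fun _ => exists_congr fun W => ?_) (e1.trans ?_)
  · exact ⟨fun h => ⟨⟨h.1.2, h.1.1⟩, h.2⟩, fun h => ⟨⟨h.1.2, h.1.1⟩, h.2⟩⟩
  rcases hr.eq_two_or_odd' with rfl | ho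
  · have h2 : (2 : F) ≠ 0 := by exact_mod_cast hne
    have hqo : q % 2 = 1 := by
      have h3 := FiniteField.odd_card_of_char_ne_two (F := F) (by
        rw [ringChar.eq F p]
        exact Ne.symm hrp)
      rw [hq] at h3
      exact h3
    rw [two_ts_even h2 hQ hgen (d := d) (by omega) hfr (by omega) (Or.inr rfl) hD, FiniteField.isSquare_neg_one_iff, FiniteField.isSquare_two_iff, hq]
    have hpow : (-1 : ℤ) = (-1) ^ d ↔ Odd d := by
      rw [eq_comm, neg_one_pow_eq_neg_one_iff_odd (by norm_num)]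
    rw [hpow]
    constructor
    · intro H
      refine Or.inl ⟨rfl, Ne.symm hrp, ?_⟩
      by_cases h3 : Even d
      · exact Or.inl h3
      · right
        by_cases h4 : q % 8 = 7
        · left
          exact (H (by omega)).2 (Nat.not_even_iff_odd.1 h3) (Or.inr (by omega))
        · exact Or.inr h4
    · rintro (⟨-, -, h3⟩ | ⟨-, h3, -⟩ | ⟨-, h3, -⟩)
      · intro h4
        refine ⟨fun h => absurd h (by norm_num), fun h5 h6 => ?_⟩
        have hnd : ¬ Even d := by rwa [Nat.not_even_iff_odd]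
        rcases h3 with h3 | h3 | h3
        · exact absurd h3 hnd
        · exact h3
        · rcases h6 with h6 | h6
          · exact absurd h6 hnd
          · omega
      · omega
      · omega
  · have hr2 : 2 < r := by
      have := hr.two_le
      rcases ho with ⟨k, hk⟩
      omega
    rw [redS hQ hgen (by rw [hfr]; omega) ho, ts_main hQ hr ho hne (ε := -1) (by norm_num) (fun N hN => by
        have : N = d := by omega
        rw [hD, this, Nat.card_eq_fintype_card]) (i := i) (t := (r - 1) / i) (n := 2 * d)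
      (by rw [hi, hq]) rfl hfr (by omega) hrΩ]
    unfold TSok
    by_cases he : Even i
    · have hno : ¬ Odd i := by rwa [Nat.not_odd_iff_even]
      rw [if_pos he, hc, if_pos he]
      have hpow : (-1 : ℤ) = (-1) ^ (2 * d / i) ↔ Odd (2 * d / i) := by
        rw [eq_comm, neg_one_pow_eq_neg_one_iff_odd (by norm_num)]
      have hpow' : (-1 : ℤ) ≠ (-1) ^ (2 * d / i) ↔ Even (2 * d / i) := by
        rw [Ne, hpow, Nat.not_odd_iff_even]
      rw [hpow, hpow']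
      constructor
      · rintro ⟨h5, h6, ⟨h7, h8, h9, h10⟩ | h7 | ⟨h7, h8⟩⟩
        · exact Or.inr (Or.inr ⟨hrp, hr2, he, h5, h6, Or.inl ⟨h9, h7, h8, h10⟩⟩)
        · refine Or.inr (Or.inr ⟨hrp, hr2, he, h5, h6, Or.inr ?_⟩)
          rcases Nat.even_or_odd (2 * d / i) with h8 | h8
          · exact Or.inr ⟨h7, h8⟩
          · exact Or.inl ⟨h7.le, h8⟩
        · exact Or.inr (Or.inr ⟨hrp, hr2, he, h5, h6, Or.inr (Or.inl ⟨h7.le, h8⟩)⟩)
      · rintro (⟨h5, -⟩ | ⟨-, -, h5, -⟩ | ⟨-, -, -, h5, h6, ⟨h7, h8, h9, h10⟩ | ⟨h7, h8⟩ | ⟨h7, h8⟩⟩)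
        · omega
        · exact absurd h5 hno
        · exact ⟨h5, h6, Or.inl ⟨h8, h9, h7, h10⟩⟩
        · refine ⟨h5, h6, Or.inr ?_⟩
          rcases Nat.lt_or_ge (2 * (m % i)) (2 * d % i) with h9 | h9
          · exact Or.inl h9
          · exact Or.inr ⟨by omega, h8⟩
        · exact ⟨h5, h6, Or.inr (Or.inl h7)⟩
    · have ho' : Odd i := Nat.not_even_iff_odd.1 he
      rw [if_neg he, hc, if_neg he]
      constructor
      · rintro ⟨h5, ⟨h7, -⟩ | h7 | ⟨-, h7⟩⟩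
        · exact Or.inr (Or.inl ⟨hrp, hr2, ho', h5, Or.inl h7⟩)
        · exact Or.inr (Or.inl ⟨hrp, hr2, ho', h5, Or.inr h7⟩)
        · norm_num at h7
      · rintro (⟨h5, -⟩ | ⟨-, -, -, h5, h6 | h6⟩ | ⟨-, -, h5, -⟩)
        · omega
        · exact ⟨h5, Or.inl ⟨h6, by norm_num⟩⟩
        · exact ⟨h5, Or.inr (Or.inl h6)⟩
        · exact absurd h5 he

end Cfsg.Agent.S5987
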