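import Cfsg.Statements.S5988
import Cfsg.Agent.Lib.OrthStd67

set_option autoImplicit false
open scoped MatrixGroups
open Cfsg

namespace Cfsg.Agent.S5988

open QuadraticMap Module Cfsg.Agent.Lib.Quad Cfsg.Agent.Lib.QuadD67 Cfsg.Agent.Lib.QuadEmb67 Cfsg.Agent.Lib.OrthR67
open Cfsg.Agent.Lib.InvSub Cfsg.Agent.Lib.PrimeOrd in
/-- Elements of prime order of PΩ⁺_n(q) with no fixed elliptic `m`-space. Here `T = PΩ⁺_n(F)`, `n = 2d ≥ 8`, realised through `Ω⁺_n(q)`, the commutator subgroup of the isometry group of `Q = Σ xᵢyᵢ` over the field `F` with `q` elements; an element of `T` of prime order `r` is an element `x` of `Ω⁺_n(q)` with `x^r` scalar and `x` not scalar; a nondegenerate `m`-space (even `m`) is a subspace on which the polar form of `Q` is nondegenerate; it is hyperbolic if it contains an `m/2`-dimensional subspace on which `Q` vanishes, elliptic otherwise. Let `m` be even with `2 ≤ m < n/2` and let `r` be a prime dividing the number of elliptic `m`-spaces; for `r ≠ p`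 let `i` be the multiplicative order of `q` modulo `r`, `c = i` for `i` even and `c = 2i` for `i` odd, and write `k = n mod c`, `ℓ = m mod i`, `ℓ' = m mod c`, `n' = ⌊n/i⌋`, `m' = ⌊m/i⌋`, `t = (r−1)/i`. Then every element of `T` of order `r` fixes some elliptic `m`-space if and only if one of: (i) `r = 2 ≠ p` and either `n ≡ 0 (mod 4)`, `q ≡ 3 (mod 4)` and `m ≡ 2 (mod 4)`, or `n ≡ 2 (mod 4)` and `q ≢ 1 (mod 8)`; (ii) `r ≠ p` odd, `i` odd, `c ≤ m` and `k > ℓ' > 0`; (iii) `r ≠ p` odd, `i` even, and either `k = 0` and (`n/i` odd, or `ℓ' = 0` and `m/i` odd), or `i ≤ m` and (`k > ℓ' > 0`, or `k = ℓ' > 0` and `(n + m − 2k)/i` odd, or `k > ℓ' = 0` and `m/i` odd). (For `r = p` there is always an element of order `p` fixing no elliptic `m`-space.) -/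
theorem result {F : Type*} [Field F] [Fintype F] {p : ℕ} [Fact p.Prime] [CharP F p] {q : ℕ} (hq : Fintype.card F = q)
    (d m : ℕ) (hd : 4 ≤ d) (hm : 2 ≤ m) (hme : Even m) (hmd : m < d)
    (r : ℕ) [Fact r.Prime]
    (hrΩ : r ∣ Nat.card {W : Submodule F (Fin d ⊕ Fin d → F) // Module.finrank F ↥W = m ∧ Cfsg.Geo.IsNondegenerateOn (QuadraticMap.polar (Cfsg.quadFormPlus d F)) W ∧ ¬ Cfsg.Geo.IsPlusTypeOn (Cfsg.quadFormPlus d F) W})
    (i c : ℕ) (hi : i = orderOf (q : ZMod r)) (hc : c = if Even i then i else 2 * i) :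
    (∀ x : GL (Fin d ⊕ Fin d) F, x ∈ Cfsg.Geo.omegaGL (Cfsg.quadFormPlus d F) →
      (∃ z : F, ((x ^ r : GL (Fin d ⊕ Fin d) F) : Matrix (Fin d ⊕ Fin d) (Fin d ⊕ Fin d) F) = z • (1 : Matrix (Fin d ⊕ Fin d) (Fin d ⊕ Fin d) F)) →
      (∀ z : F, (x : Matrix (Fin d ⊕ Fin d) (Fin d ⊕ Fin d) F) ≠ z • (1 : Matrix (Fin d ⊕ Fin d) (Fin d ⊕ Fin d) F)) →
      ∃ W : Submodule F (Fin d ⊕ Fin d → F), (Module.finrank F ↥W = m ∧ Cfsg.Geo.IsNondegenerateOn (QuadraticMap.polar (Cfsg.quadFormPlus d F)) W ∧ ¬ Cfsg.Geo.IsPlusTypeOn (Cfsg.quadFormPlus d F) W) ∧ W.map (Matrix.toLin' (x : Matrix (Fin d ⊕ Fin d) (Fin d ⊕ Fin d) F)) ≤ W) ↔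
    ((r = 2 ∧ p ≠ 2 ∧ ((Even d ∧ q % 4 = 3 ∧ m % 4 = 2) ∨ (Odd d ∧ q % 8 ≠ 1))) ∨
     (r ≠ p ∧ 2 < r ∧ Odd i ∧ c ≤ m ∧ 0 < m % c ∧ m % c < (2 * d) % c) ∨
     (r ≠ p ∧ 2 < r ∧ Even i ∧
       (((2 * d) % c = 0 ∧ (Odd ((2 * d) / i) ∨ (m % c = 0 ∧ Odd (m / i)))) ∨
        (i ≤ m ∧ ((0 < m % c ∧ m % c < (2 * d) % c) ∨
                  (0 < m % c ∧ m % c = (2 * d) % c ∧ Odd ((2 * d + m - 2 * ((2 * d) % c)) / i)) ∨
                  (m % c = 0 ∧ 0 < (2 * d) % c ∧ Odd (m / i))))))) := by
  have hr : r.Prime := Fact.out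
  have hp : p.Prime := Fact.out
  have hQ : Nd (quadPlus d F) := nd_quadPlus
  have hfr : finrank F (Fin d ⊕ Fin d → F) = 2 * d := by rw [finrank_plus]
  obtain ⟨M, hM⟩ := hme
  have hm2 : m = 2 * M := by omega
  obtain ⟨X, i1, i2, i3, Q₀, hQ₀, hX, hD⟩ := exists_space (F := F) M (-1) (Or.inr ⟨rfl, by omega⟩)
  have hD' : D Q₀ = -(Nat.card F : ℤ) ^ M := by rw [hD]; ring
  have hP : ∀ W : Submodule F (Fin d ⊕ Fin d → F), (Module.finrank F ↥W = m ∧ Cfsg.Geo.IsNondegenerateOn (QuadraticMap.polar (Cfsg.quadFormPlus d F)) W ∧ ¬ Cfsg.Geo.IsPlusTypeOn (Cfsg.quadFormPlus d F) W) ↔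
      Cl (quadPlus d F) Q₀ W := by
    intro W
    rw [cl_minus hQ₀ hX hD', hm2]
    exact and_congr_right fun _ => and_congr_left' (ndOn_iff (Q := quadPlus d F))
  have hgen : GenHyp (quadPlus d F) := genHyp_of_card (Or.inr (by rw [hfr]; omega))
  simp only [hP] at hrΩ ⊢
  have e1 := keyS (quadPlus d F) (fun W => Cl (quadPlus d F) Q₀ W) r
  rw [coe_quadPlus] at e1
  rw [e1]
  have hcard : (0 : ℤ) < (Nat.card F : ℤ) := by exact_mod_cast Nat.card_pos
  by_cases hrp : r = p
  · -- the characteristic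
    subst hrp
    constructor
    · intro H
      exfalso
      obtain ⟨g, hg, h1, h2, h3⟩ := bad_plus (p := r) hQ hgen (by omega) hfr (D_quadPlus d)
      obtain ⟨W, hcl, hW⟩ := H g hg h1 h2
      have h4 := h3 W M hW (hcl.nd hQ₀) (by rw [hcl.finrank hQ₀, hX])
      rw [hcl.D hQ₀, hD'] at h4
      have h5 := pow_pos hcard M
      linarith
    · rintro (⟨h3, h4, -⟩ | ⟨h3, -⟩ | ⟨h3, -⟩)
      · exact absurd h3 h4
      · exact absurd rfl h3
      · exact absurd rfl h3
  rcases hr.eq_two_or_odd' with rfl | ho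
  · -- involutions, odd characteristic
    have h2 : (2 : F) ≠ 0 := by
      have := Cfsg.Agent.Lib.PrimeOrd.cast_ne_zero (F := F) (p := p) hrp
      exact_mod_cast this
    rw [two_main h2 hQ hQ₀ hgen (d := d) (by omega) hfr (by rw [hX, hfr]; omega)]
    have hqo : q % 2 = 1 := by
      have h3 := FiniteField.odd_card_of_char_ne_two (F := F) (by
        rw [ringChar.eq F p]
        exact fun h => hrp h.symm)
      rw [hq] at h3
      exact h3
    have hsq := FiniteField.isSquare_two_iff (F := F)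
    rw [hq] at hsq
    have hchi := chi_eq (F := F)
    rw [hq] at hchi
    have hpos : ∀ k : ℕ, (0 : ℤ) < (Nat.card F : ℤ) ^ k := fun k => pow_pos hcard k
    have hDeq : (D (quadPlus d F) = chi F ^ d * (Nat.card F : ℤ) ^ d) ↔ chi F ^ d = 1 := by
      rw [D_quadPlus]
      constructor
      · intro h
        have := hpos d
        have h3 : (chi F ^ d - 1) * (Nat.card F : ℤ) ^ d = 0 := by linear_combination -h
        rcases mul_eq_zero.1 h3 with h4 | h4
        · linarith
        · omega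
      · intro h
        rw [h, one_mul]
    have hD0 : (∃ j, finrank F X = 2 * j ∧ D Q₀ = chi F ^ j * (Nat.card F : ℤ) ^ j) ↔ chi F ^ M = -1 := by
      rw [hX]
      constructor
      · rintro ⟨j, hj, h⟩
        have : j = M := by omega
        subst this
        have := hpos j
        have h3 : (chi F ^ j + 1) * (Nat.card F : ℤ) ^ j = 0 := by linear_combination -h + hD'
        rcases mul_eq_zero.1 h3 with h4 | h4
        · linarith
        · omega
      · intro h
        exact ⟨M, rfl, by rw [h, hD']; ring⟩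
    rw [hDeq, hD0, hsq, hchi]
    by_cases h3 : q % 4 = 3
    · rw [if_pos h3]
      rw [neg_one_pow_eq_one_iff_even (by norm_num), neg_one_pow_eq_neg_one_iff_odd (by norm_num)]
      rcases Nat.even_or_odd d with he | ho
      · have hno : ¬ Odd d := by rwa [Nat.not_odd_iff_even]
        have hM' : Odd M ↔ m % 4 = 2 := by rw [Nat.odd_iff]; omega
        rw [hM']
        constructor
        · intro H
          exact Or.inl ⟨rfl, Ne.symm hrp, Or.inl ⟨he, h3, H he (Or.inl he)⟩⟩
        · rintro (⟨-, -, ⟨-, -, h4⟩ | ⟨h4, -⟩⟩ | ⟨-, h4, -⟩ | ⟨-, h4, -⟩)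
          · exact fun _ _ => h4
          · exact absurd h4 hno
          · omega
          · omega
      · have hne : ¬ Even d := by rwa [Nat.not_even_iff_odd]
        constructor
        · intro _
          exact Or.inl ⟨rfl, Ne.symm hrp, Or.inr ⟨ho, by omega⟩⟩
        · intro _ h4
          exact absurd h4 hne
    · rw [if_neg h3, one_pow, one_pow]
      constructor
      · intro H
        rcases Nat.even_or_odd d with he | ho
        · exact absurd (H rfl (Or.inl he)) (by norm_num)
        · refine Or.inl ⟨rfl, Ne.symm hrp, Or.inr ⟨ho, ?_⟩⟩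
          intro h4
          exact absurd (H rfl (Or.inr (by omega))) (by norm_num)
      · rintro (⟨-, -, ⟨-, h4, -⟩ | ⟨h4, h5⟩⟩ | ⟨-, h4, -⟩ | ⟨-, h4, -⟩)
        · exact absurd h4 h3
        · rintro - (h6 | h6)
          · exact absurd h6 (by rwa [Nat.not_even_iff_odd])
          · omega
        · omega
        · omega
  · have hr2 : 2 < r := by
      have := hr.two_le
      rcases ho with ⟨k, hk⟩
      omega
    have hne : (r : F) ≠ 0 := Cfsg.Agent.Lib.PrimeOrd.cast_ne_zero (p := p) hrp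
    have hε : ∀ N, finrank F (Fin d ⊕ Fin d → F) = 2 * N → D (quadPlus d F) = 1 * (Fintype.card F : ℤ) ^ N := fun N hN => by
      have : N = d := by omega
      rw [D_quadPlus, one_mul, this, Nat.card_eq_fintype_card]
    have hδ : ∀ N, finrank F X = 2 * N → D Q₀ = (-1) * (Fintype.card F : ℤ) ^ N := fun N hN => by
      have : N = M := by omega
      rw [hD, this, Nat.card_eq_fintype_card]
    have main := nd_main hQ hQ₀ hr ho hne (by norm_num) (by norm_num) hε hδ (Or.inr ⟨M, by omega⟩) (by omega) (by omega) hrΩ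
    have main' := nd_main' hQ hQ₀ hr ho hne (by norm_num) (by norm_num) hε hδ (Or.inr ⟨M, by omega⟩) (by omega) (by omega)
    rw [redS hQ hgen (by rw [hfr]; omega) ho]
    have hci : c = Cfsg.Agent.Lib.Sesq.csize i := hc
    rw [csize_eq] at hci
    have hi' : hF F r = hh i := by rw [hi, ← hq]
    have hs' : sF F r = sg i := by rw [hi, ← hq]
    have hc' : 2 * hF F r = c := by rw [hi', hci]
    rw [hc', hs', hfr, hX, ← hm2] at main main'
    have hc0 : 0 < c := by
      have h3 : 0 < hF F r := hh_pos (ord_pos hr hne)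
      omega
    unfold GG at main main'
    have hn := Nat.div_add_mod (2 * d) c
    have hmd' := Nat.div_add_mod m c
    have hMN : m / c ≤ 2 * d / c := Nat.div_le_div_right (by omega)
    by_cases he : Even i
    · have hci' : c = i := by rw [hc, if_pos he]
      have hsg : sg i = -1 := by unfold sg; rw [if_pos he]
      rw [hsg] at main main'
      have hno : ¬ Odd i := by rwa [Nat.not_odd_iff_even]
      have hpow1 : ∀ k : ℕ, ((1 : ℤ) ≠ (-1) ^ k) ↔ Odd k := fun k => by
        rw [ne_comm, Ne, neg_one_pow_eq_one_iff_even (by norm_num), Nat.not_even_iff_odd]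
      have hpow2 : ∀ k : ℕ, ((-1 : ℤ) = (-1) ^ k) ↔ Odd k := fun k => by
        rw [eq_comm, neg_one_pow_eq_neg_one_iff_odd (by norm_num)]
      have hpow3 : ∀ k : ℕ, ((1 : ℤ) = -1 * (-1) ^ k) ↔ Odd k := fun k => by
        rw [← neg_one_pow_eq_neg_one_iff_odd (R := ℤ) (by norm_num)]
        constructor <;> intro h <;> linarith
      simp only [hpow1, hpow2, hpow3] at main main'
      rw [← hci']
      have hquot : m % c = 2 * d % c → (2 * d + m - 2 * (2 * d % c)) / c = 2 * d / c + m / c := by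
        intro h
        have h1 : 2 * d + m - 2 * (2 * d % c) = c * (2 * d / c + m / c) := by
          rw [Nat.mul_add]; omega
        rw [h1, Nat.mul_div_cancel_left _ hc0]
      have hodd : Odd (2 * d / c - m / c) ↔ Odd (2 * d / c + m / c) := by
        rw [Nat.odd_iff, Nat.odd_iff]; omega
      constructor
      · intro H
        obtain ⟨h5, ⟨h6, h7⟩ | ⟨h6, h7, h8, h9⟩⟩ := main.1 H
        · exact Or.inr (Or.inr ⟨hrp, hr2, by rw [hci']; exact he, Or.inl ⟨h6, h7⟩⟩)
        · refine Or.inr (Or.inr ⟨hrp, hr2, by rw [hci']; exact he, Or.inr ⟨h5, ?_⟩⟩)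
          rcases Nat.eq_zero_or_pos (m % c) with h10 | h10
          · exact Or.inr (Or.inr ⟨h10, h6, h8 h10⟩)
          · rcases Nat.lt_or_ge (m % c) (2 * d % c) with h11 | h11
            · exact Or.inl ⟨h10, h11⟩
            · have h12 : m % c = 2 * d % c := by omega
              refine Or.inr (Or.inl ⟨h10, h12, ?_⟩)
              rw [hquot h12]
              exact hodd.1 (h9 h12)
      · rintro (⟨h5, -⟩ | ⟨-, -, h5, -⟩ | ⟨-, -, -, ⟨h5, h6⟩ | ⟨h4, h5⟩⟩)
        · omega
        · rw [hci'] at h5; exact absurd h5 hno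
        · exact main' (Or.inl ⟨h5, h6⟩)
        · rcases h5 with ⟨h6, h7⟩ | ⟨h6, h7, h8⟩ | ⟨h6, h7, h8⟩
          · exact main' (Or.inr ⟨by omega, by omega, fun h => by omega, fun h => by omega⟩)
          · exact main' (Or.inr ⟨by omega, by omega, fun h => by omega, fun h => hodd.2 (by rw [hquot h7] at h8; exact h8)⟩)
          · exact main' (Or.inr ⟨by omega, by omega, fun h => h8, fun h => by omega⟩)
    · have hsg : sg i = 1 := by unfold sg; rw [if_neg he]
      rw [hsg] at main main'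
      simp only [one_pow] at main main'
      have ho' : Odd i := Nat.not_even_iff_odd.1 he
      constructor
      · intro H
        obtain ⟨h5, ⟨h6, h7⟩ | ⟨h6, h7, h8, h9⟩⟩ := main.1 H
        · exfalso
          rcases h7 with h7 | ⟨-, h7⟩
          · exact h7 rfl
          · norm_num at h7
        · right; left
          refine ⟨hrp, hr2, ho', h5, ?_, ?_⟩
          · rcases Nat.eq_zero_or_pos (m % c) with h10 | h10
            · exact absurd (h8 h10) (by norm_num)
            · exact h10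
          · rcases Nat.lt_or_ge (m % c) (2 * d % c) with h11 | h11
            · exact h11
            · exact absurd (h9 (by omega)) (by norm_num)
      · rintro (⟨h5, -⟩ | ⟨-, -, -, h5, h6, h7⟩ | ⟨-, -, h5, -⟩)
        · omega
        · exact main' (Or.inr ⟨by omega, by omega, fun h8 => by omega, fun h8 => by omega⟩)
        · exact absurd h5 he

end Cfsg.Agent.S5988
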