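import Cfsg.Statements.S5990
import Cfsg.Agent.Lib.OrthEvB67

set_option autoImplicit false
open scoped MatrixGroups
open Cfsg

namespace Cfsg.Agent.S5990

open QuadraticMap Module Cfsg.Agent.Lib.Quad Cfsg.Agent.Lib.QuadD67 Cfsg.Agent.Lib.QuadEmb67 Cfsg.Agent.Lib.OrthR67
open Cfsg.Agent.Lib.InvSub Cfsg.Agent.Lib.PrimeOrd in
/-- Elements of prime order of PΩ⁻_n(q) with no fixed elliptic `m`-space. Here `T = PΩ⁻_n(F)`, `n = 2d ≥ 8`, realised through `Ω⁻_n(q)`, the commutator subgroup of the isometry group of `Q = Σ_{i<d−1} xᵢyᵢ + z₁² + a z₁z₂ + b z₂²` with `z₁² + a z₁z₂ + b z₂²` anisotropic, over the field `F` with `q` elements; an element of `T` of prime order `r` is an element `x` of `Ω⁻_n(q)` with `x^r` scalar and `x` not scalar; a nondegenerate `m`-space (even `m`) is a subspace on which the polar form of `Q` is nondegenerate; it is hyperbolic if it contains an `m/2`-dimensional subspace on which `Q` vanishes, elliptic otherwise. Let `m` be even with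 `2 ≤ m ≤ n − 2` (no restriction `m < n/2`: fixing an elliptic `m`-space is the same as fixing its hyperbolic orthogonal complement) and let `r` be a prime dividing the number of elliptic `m`-spaces, with `r = 2` or `r ≠ p`; for `r ≠ p` let `i` be the multiplicative order of `q` modulo `r`, `c = i` for `i` even and `c = 2i` for `i` odd, and write `k = n mod c`, `ℓ = m mod i`, `ℓ' = m mod c`, `n' = ⌊n/i⌋`, `m' = ⌊m/i⌋`, `t = (r−1)/i`. Then every element of `T` of order `r` fixes some elliptic `m`-space if and only if one of: (i) `r = p = 2` and (`n ≡ 0 (mod 4)` or `m ≡ 2 (mod 4)`); (ii) `r = 2 ≠ p` and (`n ≡ 0 (mod 4)`, or `q ≢ 7 (mod 8)`, or `m ≡ 2 (mod 4)`); (iii) `r ≠ p` odd, `i` odd, and `k = 0` or (`c ≤ m` and `k ≥ ℓ' > 0`); (iv) `r ≠ p` odd, `i` even, and either `k = 0` and (`n/i` even, or `ℓ' = 0` and `m/i` odd), or `k > 0`, `i ≤ m` and (`k > ℓ' > 0`, or `ℓ' = 0` and `m/i` odd, or `k = ℓ'` and `(n + m − 2k)/i` even). (Odd `r = p` is not covered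 by this statement.) -/
theorem result {F : Type*} [Field F] [Fintype F] {p : ℕ} [Fact p.Prime] [CharP F p] {q : ℕ} (hq : Fintype.card F = q)
    (d m : ℕ) (hd : 4 ≤ d) (hm : 2 ≤ m) (hme : Even m) (hmn : m + 2 ≤ 2 * d) (a b : F) (hab : ∀ x y : F, x ^ 2 + a * x * y + b * y ^ 2 = 0 → x = 0 ∧ y = 0)
    (r : ℕ) [Fact r.Prime] (hr : r = 2 ∨ r ≠ p)
    (hrΩ : r ∣ Nat.card {W : Submodule F ((Fin (d - 1) ⊕ Fin (d - 1)) ⊕ Fin 2 → F) // Module.finrank F ↥W = m ∧ Cfsg.Geo.IsNondegenerateOn (QuadraticMap.polar (Cfsg.quadFormMinus (d - 1) F a b)) W ∧ ¬ Cfsg.Geo.IsPlusTypeOn (Cfsg.quadFormMinus (d - 1) F a b) W})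
    (i c : ℕ) (hi : i = orderOf (q : ZMod r)) (hc : c = if Even i then i else 2 * i) :
    (∀ x : GL ((Fin (d - 1) ⊕ Fin (d - 1)) ⊕ Fin 2) F, x ∈ Cfsg.Geo.omegaGL (Cfsg.quadFormMinus (d - 1) F a b) →
      (∃ z : F, ((x ^ r : GL ((Fin (d - 1) ⊕ Fin (d - 1)) ⊕ Fin 2) F) : Matrix ((Fin (d - 1) ⊕ Fin (d - 1)) ⊕ Fin 2) ((Fin (d - 1) ⊕ Fin (d - 1)) ⊕ Fin 2) F) = z • (1 : Matrix ((Fin (d - 1) ⊕ Fin (d - 1)) ⊕ Fin 2) ((Fin (d - 1) ⊕ Fin (d - 1)) ⊕ Fin 2) F)) →
      (∀ z : F, (x : Matrix ((Fin (d - 1) ⊕ Fin (d - 1)) ⊕ Fin 2) ((Fin (d - 1) ⊕ Fin (d - 1)) ⊕ Fin 2) F) ≠ z • (1 : Matrix ((Fin (d - 1) ⊕ Fin (d - 1)) ⊕ Fin 2) ((Fin (d - 1) ⊕ Fin (d - 1)) ⊕ Fin 2) F)) →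
      ∃ W : Submodule F ((Fin (d - 1) ⊕ Fin (d - 1)) ⊕ Fin 2 → F), (Module.finrank F ↥W = m ∧ Cfsg.Geo.IsNondegenerateOn (QuadraticMap.polar (Cfsg.quadFormMinus (d - 1) F a b)) W ∧ ¬ Cfsg.Geo.IsPlusTypeOn (Cfsg.quadFormMinus (d - 1) F a b) W) ∧ W.map (Matrix.toLin' (x : Matrix ((Fin (d - 1) ⊕ Fin (d - 1)) ⊕ Fin 2) ((Fin (d - 1) ⊕ Fin (d - 1)) ⊕ Fin 2) F)) ≤ W) ↔
    ((r = 2 ∧ p = 2 ∧ (Even d ∨ m % 4 = 2)) ∨
     (r = 2 ∧ p ≠ 2 ∧ (Even d ∨ q % 8 ≠ 7 ∨ m % 4 = 2)) ∨
     (r ≠ p ∧ 2 < r ∧ Odd i ∧ ((2 * d) % c = 0 ∨ (c ≤ m ∧ 0 < m % c ∧ m % c ≤ (2 * d) % c))) ∨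
     (r ≠ p ∧ 2 < r ∧ Even i ∧
       (((2 * d) % c = 0 ∧ (Even ((2 * d) / i) ∨ (m % c = 0 ∧ Odd (m / i)))) ∨
        (0 < (2 * d) % c ∧ i ≤ m ∧ ((0 < m % c ∧ m % c < (2 * d) % c) ∨ (m % c = 0 ∧ Odd (m / i)) ∨
                                    (m % c = (2 * d) % c ∧ Even ((2 * d + m - 2 * ((2 * d) % c)) / i))))))) := by
  have hrp' : r.Prime := Fact.out
  have hp : p.Prime := Fact.out
  have hQ : Nd (quadMinus (d - 1) F a b) := nd_quadMinus (disc_ne_zero_of_anisotropic hab)
  have hfr : finrank F ((Fin (d - 1) ⊕ Fin (d - 1)) ⊕ Fin 2 → F) = 2 * d := by rw [finrank_minus]; omega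
  have hgen : GenHyp (quadMinus (d - 1) F a b) := genHyp_of_card (Or.inr (by rw [hfr]; omega))
  have hDm : D (quadMinus (d - 1) F a b) = -(Nat.card F : ℤ) ^ d := by
    rw [D_quadMinus (d - 1) hab, show d - 1 + 1 = d by omega]
  obtain ⟨M, hM⟩ := hme
  have hm2 : m = 2 * M := by omega
  obtain ⟨X, i1, i2, i3, Q₀, hQ₀, hX, hD⟩ := exists_space (F := F) M (-1) (Or.inr ⟨rfl, by omega⟩)
  have hD' : D Q₀ = -(Nat.card F : ℤ) ^ M := by rw [hD]; ring
  have hP : ∀ W : Submodule F ((Fin (d - 1) ⊕ Fin (d - 1)) ⊕ Fin 2 → F), (Module.finrank F ↥W = m ∧ Cfsg.Geo.IsNondegenerateOn (QuadraticMap.polar (Cfsg.quadFormMinus (d - 1) F a b)) W ∧ ¬ Cfsg.Geo.IsPlusTypeOn (Cfsg.quadFormMinus (d - 1) F a b) W) ↔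
      Cl (quadMinus (d - 1) F a b) Q₀ W := by
    intro W
    rw [cl_minus hQ₀ hX hD', hm2]
    exact and_congr_right fun _ => and_congr_left' (ndOn_iff (Q := quadMinus (d - 1) F a b))
  simp only [hP] at hrΩ ⊢
  have e1 := keyS (quadMinus (d - 1) F a b) (fun W => Cl (quadMinus (d - 1) F a b) Q₀ W) r
  rw [coe_quadMinus] at e1
  rw [e1]
  have hcard : (0 : ℤ) < (Nat.card F : ℤ) := by exact_mod_cast Nat.card_pos
  rcases hrp'.eq_two_or_odd' with rfl | ho
  · by_cases hp2 : p = 2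
    · -- characteristic two
      subst hp2
      rw [ev_minus hQ hQ₀ hgen (by omega) hfr hDm (by omega) (by omega) hX hD']
      rw [Nat.odd_iff]
      constructor
      · rintro (h3 | h3)
        · exact Or.inl ⟨rfl, rfl, Or.inl h3⟩
        · exact Or.inl ⟨rfl, rfl, Or.inr (by omega)⟩
      · rintro (⟨-, -, h3 | h3⟩ | ⟨-, h3, -⟩ | ⟨-, h3, -⟩ | ⟨-, h3, -⟩)
        · left; exact h3
        · right; omega
        · exact absurd rfl h3
        · omega
        · omega
    -- involutions, odd characteristic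
    have h2 : (2 : F) ≠ 0 := by
      have := Cfsg.Agent.Lib.PrimeOrd.cast_ne_zero (F := F) (p := p) (Ne.symm hp2)
      exact_mod_cast this
    rw [two_main h2 hQ hQ₀ hgen (d := d) (by omega) hfr (by rw [hX, hfr]; omega)]
    have hqo : q % 2 = 1 := by
      have h3 := FiniteField.odd_card_of_char_ne_two (F := F) (by
        rw [ringChar.eq F p]
        exact hp2)
      rw [hq] at h3
      exact h3
    have hsq := FiniteField.isSquare_two_iff (F := F)
    rw [hq] at hsq
    have hchi := chi_eq (F := F)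
    rw [hq] at hchi
    have hpos : ∀ k : ℕ, (0 : ℤ) < (Nat.card F : ℤ) ^ k := fun k => pow_pos hcard k
    have hDeq : (D (quadMinus (d - 1) F a b) = chi F ^ d * (Nat.card F : ℤ) ^ d) ↔ chi F ^ d = -1 := by
      rw [hDm]
      constructor
      · intro h
        have := hpos d
        have h3 : (chi F ^ d + 1) * (Nat.card F : ℤ) ^ d = 0 := by linear_combination -h
        rcases mul_eq_zero.1 h3 with h4 | h4
        · linarith
        · omega
      · intro h
        rw [h]; ring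
    have hD0 : (∃ j, finrank F X = 2 * j ∧ D Q₀ = chi F ^ j * (Nat.card F : ℤ) ^ j) ↔ chi F ^ M = -1 := by
      rw [hX]
      constructor
      · rintro ⟨j, hj, h⟩
        have : j = M := by omega
        subst this
        have := hpos j
        have h3 : (chi F ^ j + 1) * (Nat.card F : ℤ) ^ j = 0 := by linear_combination -h + hD'
        rcases mul_eq_zero.1 h3 with h4 | h4
        · linarith
        · omega
      · intro h
        exact ⟨M, rfl, by rw [h, hD']; ring⟩
    rw [hDeq, hD0, hsq, hchi]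
    by_cases h3 : q % 4 = 3
    · rw [if_pos h3]
      rw [neg_one_pow_eq_neg_one_iff_odd (by norm_num), neg_one_pow_eq_neg_one_iff_odd (by norm_num)]
      rw [Nat.odd_iff, Nat.odd_iff, Nat.even_iff]
      constructor
      · intro H
        refine Or.inr (Or.inl ⟨rfl, hp2, ?_⟩)
        by_cases h4 : d % 2 = 0
        · exact Or.inl h4
        · by_cases h5 : q % 8 = 7
          · right; right
            have := H (by omega) (Or.inr (by omega))
            omega
          · exact Or.inr (Or.inl h5)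
      · rintro (⟨-, h4, -⟩ | ⟨-, -, h4 | h4 | h4⟩ | ⟨-, h4, -⟩ | ⟨-, h4, -⟩)
        · exact absurd h4 hp2
        · intro h5
          omega
        · intro h5 h6
          omega
        · intro _ _
          omega
        · omega
        · omega
    · rw [if_neg h3, one_pow, one_pow]
      constructor
      · intro _
        exact Or.inr (Or.inl ⟨rfl, hp2, Or.inr (Or.inl (by omega))⟩)
      · intro _ h5
        norm_num at h5
  · have hr2 : 2 < r := by
      have := hrp'.two_le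
      rcases ho with ⟨k, hk⟩
      omega
    have hrp : r ≠ p := by
      rcases hr with h | h
      · omega
      · exact h
    have hne : (r : F) ≠ 0 := Cfsg.Agent.Lib.PrimeOrd.cast_ne_zero (p := p) hrp
    have hε : ∀ N, finrank F ((Fin (d - 1) ⊕ Fin (d - 1)) ⊕ Fin 2 → F) = 2 * N → D (quadMinus (d - 1) F a b) = (-1) * (Fintype.card F : ℤ) ^ N := fun N hN => by
      have : N = d := by omega
      rw [hDm, this, Nat.card_eq_fintype_card]; ring
    have hδ : ∀ N, finrank F X = 2 * N → D Q₀ = (-1) * (Fintype.card F : ℤ) ^ N := fun N hN => by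
      have : N = M := by omega
      rw [hD, this, Nat.card_eq_fintype_card]
    have main := nd_main hQ hQ₀ hrp' ho hne (by norm_num) (by norm_num) hε hδ (Or.inr ⟨M, by omega⟩) (by omega) (by omega) hrΩ
    have main' := nd_main' hQ hQ₀ hrp' ho hne (by norm_num) (by norm_num) hε hδ (Or.inr ⟨M, by omega⟩) (by omega) (by omega)
    rw [redS hQ hgen (by rw [hfr]; omega) ho]
    have hci : c = Cfsg.Agent.Lib.Sesq.csize i := hc
    rw [csize_eq] at hci
    have hi' : hF F r = hh i := by rw [hi, ← hq]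
    have hs' : sF F r = sg i := by rw [hi, ← hq]
    have hc' : 2 * hF F r = c := by rw [hi', hci]
    rw [hc', hs', hfr, hX, ← hm2] at main main'
    have hc0 : 0 < c := by
      have h3 : 0 < hF F r := hh_pos (ord_pos hrp' hne)
      omega
    unfold GG at main main'
    have hn := Nat.div_add_mod (2 * d) c
    have hmd' := Nat.div_add_mod m c
    have hMN : m / c ≤ 2 * d / c := Nat.div_le_div_right (by omega)
    by_cases he : Even i
    · have hci' : c = i := by rw [hc, if_pos he]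
      have hsg : sg i = -1 := by unfold sg; rw [if_pos he]
      rw [hsg] at main main'
      have hno : ¬ Odd i := by rwa [Nat.not_odd_iff_even]
      have hpow1 : ∀ k : ℕ, ((-1 : ℤ) ≠ (-1) ^ k) ↔ Even k := fun k => by
        rw [ne_comm, Ne, neg_one_pow_eq_neg_one_iff_odd (by norm_num), Nat.not_odd_iff_even]
      have hpow2 : ∀ k : ℕ, ((-1 : ℤ) = (-1) ^ k) ↔ Odd k := fun k => by
        rw [eq_comm, neg_one_pow_eq_neg_one_iff_odd (by norm_num)]
      have hpow3 : ∀ k : ℕ, ((-1 : ℤ) = -1 * (-1) ^ k) ↔ Even k := fun k => by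
        rw [← neg_one_pow_eq_one_iff_even (R := ℤ) (by norm_num)]
        constructor <;> intro h <;> linarith
      simp only [hpow1, hpow2, hpow3] at main main'
      rw [← hci']
      have hquot : m % c = 2 * d % c → (2 * d + m - 2 * (2 * d % c)) / c = 2 * d / c + m / c := by
        intro h
        have h1 : 2 * d + m - 2 * (2 * d % c) = c * (2 * d / c + m / c) := by
          rw [Nat.mul_add]; omega
        rw [h1, Nat.mul_div_cancel_left _ hc0]
      have hodd : Even (2 * d / c - m / c) ↔ Even (2 * d / c + m / c) := by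
        rw [Nat.even_iff, Nat.even_iff]; omega
      constructor
      · intro H
        obtain ⟨h5, ⟨h6, h7⟩ | ⟨h6, h7, h8, h9⟩⟩ := main.1 H
        · exact Or.inr (Or.inr (Or.inr ⟨hrp, hr2, by rw [hci']; exact he, Or.inl ⟨h6, h7⟩⟩))
        · refine Or.inr (Or.inr (Or.inr ⟨hrp, hr2, by rw [hci']; exact he, Or.inr ⟨h6, h5, ?_⟩⟩))
          rcases Nat.eq_zero_or_pos (m % c) with h10 | h10
          · exact Or.inr (Or.inl ⟨h10, h8 h10⟩)
          · rcases Nat.lt_or_ge (m % c) (2 * d % c) with h11 | h11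
            · exact Or.inl ⟨h10, h11⟩
            · have h12 : m % c = 2 * d % c := by omega
              refine Or.inr (Or.inr ⟨h12, ?_⟩)
              rw [hquot h12]
              exact hodd.1 (h9 h12)
      · rintro (⟨h5, -⟩ | ⟨h5, -⟩ | ⟨-, -, h5, -⟩ | ⟨-, -, -, ⟨h5, h6⟩ | ⟨h3, h4, h5⟩⟩)
        · omega
        · omega
        · rw [hci'] at h5; exact absurd h5 hno
        · exact main' (Or.inl ⟨h5, h6⟩)
        · rcases h5 with ⟨h6, h7⟩ | ⟨h6, h7⟩ | ⟨h7, h8⟩
          · exact main' (Or.inr ⟨by omega, by omega, fun h => by omega, fun h => by omega⟩)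
          · exact main' (Or.inr ⟨by omega, by omega, fun h => h7, fun h => by omega⟩)
          · exact main' (Or.inr ⟨by omega, by omega, fun h => by omega, fun h => hodd.2 (by rw [hquot h7] at h8; exact h8)⟩)
    · have hsg : sg i = 1 := by unfold sg; rw [if_neg he]
      rw [hsg] at main main'
      simp only [one_pow, mul_one] at main main'
      have ho' : Odd i := Nat.not_even_iff_odd.1 he
      constructor
      · intro H
        obtain ⟨h5, h6⟩ := main.1 H
        right; right; left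
        refine ⟨hrp, hr2, ho', ?_⟩
        rcases h6 with ⟨h6, -⟩ | ⟨h6, h7, h8, -⟩
        · exact Or.inl h6
        · refine Or.inr ⟨h5, ?_, h7⟩
          rcases Nat.eq_zero_or_pos (m % c) with h10 | h10
          · exact absurd (h8 h10) (by norm_num)
          · exact h10
      · rintro (⟨h5, -⟩ | ⟨h5, -⟩ | ⟨-, -, -, h5⟩ | ⟨-, -, h5, -⟩)
        · omega
        · omega
        · rcases h5 with h5 | ⟨h5, h6, h7⟩
          · exact main' (Or.inl ⟨h5, Or.inl (by norm_num)⟩)
          · exact main' (Or.inr ⟨by omega, h7, fun h => by omega, fun _ => trivial⟩)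
        · exact absurd h5 he

end Cfsg.Agent.S5990
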