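import Cfsg.Statements.S5991
import Cfsg.Agent.Lib.OrthPar67

set_option autoImplicit false
open scoped MatrixGroups
open Cfsg

namespace Cfsg.Agent.S5991

open QuadraticMap Module Cfsg.Agent.Lib.Quad Cfsg.Agent.Lib.QuadD67 Cfsg.Agent.Lib.QuadEmb67 Cfsg.Agent.Lib.OrthR67
open Cfsg.Agent.Lib.InvSub Cfsg.Agent.Lib.PrimeOrd in
/-- Elements of prime order of PΩ⁻_n(q), q odd, with no fixed nondegenerate `m`-space of odd dimension. Here `T = PΩ⁻_n(F)`, `n = 2d ≥ 8`, realised through `Ω⁻_n(q)`, the commutator subgroup of the isometry group of `Q = Σ_{i<d−1} xᵢyᵢ + z₁² + a z₁z₂ + b z₂²` with `z₁² + a z₁z₂ + b z₂²` anisotropic, over the field `F` with `q` elements; an element of `T` of prime order `r` is an element `x` of `Ω⁻_n(q)` with `x^r` scalar and `x` not scalar; `q` and `m` are odd, `1 ≤ m < n/2`. The nondegenerate `m`-spaces fall into two isometry classes, each an orbit of `T`, with equivalent actions; fix one such space `W₀`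 and let Ω be the set of nondegenerate `m`-spaces isometric to `W₀`. Let `r` be a prime dividing the size of Ω; for `r ≠ p` let `i` be the multiplicative order of `q` modulo `r`, `c = i` for `i` even and `c = 2i` for `i` odd, and write `k = n mod c`, `ℓ = m mod i`, `ℓ' = m mod c`, `n' = ⌊n/i⌋`, `m' = ⌊m/i⌋`, `t = (r−1)/i`. Then every element of `T` of order `r` fixes a member of Ω if and only if one of: (i) `r = 2` and (`n ≡ 0 (mod 4)` or `q ≢ 7 (mod 8)`); (ii) `r ≠ p` odd, `i` odd, and `k = 0` or (`c ≤ m` and `k > ℓ' > 0`); (iii) `r ≠ p` odd, `i` even, and either `k = 0` and `n/i` even, or `k > 0`, `i ≤ m` and `k > ℓ' > 0`. (For `r = p` there is always an element of order `p` fixing no member of Ω.) -/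
theorem result {F : Type*} [Field F] [Fintype F] {p : ℕ} [Fact p.Prime] [CharP F p] {q : ℕ} (hq : Fintype.card F = q)
    (hodd : Odd q) (d m : ℕ) (hd : 4 ≤ d) (hm : Odd m) (hmd : m < d) (a b : F) (hab : ∀ x y : F, x ^ 2 + a * x * y + b * y ^ 2 = 0 → x = 0 ∧ y = 0)
    (W₀ : Submodule F ((Fin (d - 1) ⊕ Fin (d - 1)) ⊕ Fin 2 → F)) (hW₀ : Module.finrank F ↥W₀ = m ∧ Cfsg.Geo.IsNondegenerateOn (QuadraticMap.polar (Cfsg.quadFormMinus (d - 1) F a b)) W₀)
    (r : ℕ) [Fact r.Prime]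
    (hrΩ : r ∣ Nat.card {W : Submodule F ((Fin (d - 1) ⊕ Fin (d - 1)) ⊕ Fin 2 → F) // Module.finrank F ↥W = m ∧ Cfsg.Geo.IsNondegenerateOn (QuadraticMap.polar (Cfsg.quadFormMinus (d - 1) F a b)) W ∧ Cfsg.Geo.AreIsometricFor (Cfsg.quadFormMinus (d - 1) F a b) W W₀})
    (i c : ℕ) (hi : i = orderOf (q : ZMod r)) (hc : c = if Even i then i else 2 * i) :
    (∀ x : GL ((Fin (d - 1) ⊕ Fin (d - 1)) ⊕ Fin 2) F, x ∈ Cfsg.Geo.omegaGL (Cfsg.quadFormMinus (d - 1) F a b) →
      (∃ z : F, ((x ^ r : GL ((Fin (d - 1) ⊕ Fin (d - 1)) ⊕ Fin 2) F) : Matrix ((Fin (d - 1) ⊕ Fin (d - 1)) ⊕ Fin 2) ((Fin (d - 1) ⊕ Fin (d - 1)) ⊕ Fin 2) F) = z • (1 : Matrix ((Fin (d - 1) ⊕ Fin (d - 1)) ⊕ Fin 2) ((Fin (d - 1) ⊕ Fin (d - 1)) ⊕ Fin 2) F)) →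
      (∀ z : F, (x : Matrix ((Fin (d - 1) ⊕ Fin (d - 1)) ⊕ Fin 2) ((Fin (d - 1) ⊕ Fin (d - 1)) ⊕ Fin 2) F) ≠ z • (1 : Matrix ((Fin (d - 1) ⊕ Fin (d - 1)) ⊕ Fin 2) ((Fin (d - 1) ⊕ Fin (d - 1)) ⊕ Fin 2) F)) →
      ∃ W : Submodule F ((Fin (d - 1) ⊕ Fin (d - 1)) ⊕ Fin 2 → F), (Module.finrank F ↥W = m ∧ Cfsg.Geo.IsNondegenerateOn (QuadraticMap.polar (Cfsg.quadFormMinus (d - 1) F a b)) W ∧ Cfsg.Geo.AreIsometricFor (Cfsg.quadFormMinus (d - 1) F a b) W W₀) ∧ W.map (Matrix.toLin' (x : Matrix ((Fin (d - 1) ⊕ Fin (d - 1)) ⊕ Fin 2) ((Fin (d - 1) ⊕ Fin (d - 1)) ⊕ Fin 2) F)) ≤ W) ↔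
    ((r = 2 ∧ (Even d ∨ q % 8 ≠ 7)) ∨
     (r ≠ p ∧ 2 < r ∧ Odd i ∧ ((2 * d) % c = 0 ∨ (c ≤ m ∧ 0 < m % c ∧ m % c < (2 * d) % c))) ∨
     (r ≠ p ∧ 2 < r ∧ Even i ∧ (((2 * d) % c = 0 ∧ Even ((2 * d) / i)) ∨ (0 < (2 * d) % c ∧ i ≤ m ∧ 0 < m % c ∧ m % c < (2 * d) % c)))) := by
  have hr : r.Prime := Fact.out
  have hp : p.Prime := Fact.out
  have h2 : (2 : F) ≠ 0 := two_ne_zero_of_odd hq hodd
  have hQ : Nd (quadMinus (d - 1) F a b) := nd_quadMinus (disc_ne_zero_of_anisotropic hab)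
  have hfr : finrank F ((Fin (d - 1) ⊕ Fin (d - 1)) ⊕ Fin 2 → F) = 2 * d := by rw [finrank_minus]; omega
  have hgen : GenHyp (quadMinus (d - 1) F a b) := genHyp_of_card (Or.inr (by rw [hfr]; omega))
  have hDm : D (quadMinus (d - 1) F a b) = -(Nat.card F : ℤ) ^ d := by
    rw [D_quadMinus (d - 1) hab, show d - 1 + 1 = d by omega]
  obtain ⟨hX, hW₀'⟩ := hW₀
  have hnd0 : NDq (quadMinus (d - 1) F a b) W₀ := (ndOn_iff (Q := quadMinus (d - 1) F a b)).1 hW₀'
  have hQ₀ : Nd (res (quadMinus (d - 1) F a b) W₀) := nd_res hnd0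
  have hP : ∀ W : Submodule F ((Fin (d - 1) ⊕ Fin (d - 1)) ⊕ Fin 2 → F), (Module.finrank F ↥W = m ∧ Cfsg.Geo.IsNondegenerateOn (QuadraticMap.polar (Cfsg.quadFormMinus (d - 1) F a b)) W ∧ Cfsg.Geo.AreIsometricFor (Cfsg.quadFormMinus (d - 1) F a b) W W₀) ↔
      Cl (quadMinus (d - 1) F a b) (res (quadMinus (d - 1) F a b) W₀) W := by
    intro W
    exact (cl_isom hnd0 hX).symm
  simp only [hP] at hrΩ ⊢
  have e1 := keyS (quadMinus (d - 1) F a b) (fun W => Cl (quadMinus (d - 1) F a b) (res (quadMinus (d - 1) F a b) W₀) W) r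
  rw [coe_quadMinus] at e1
  rw [e1]
  have hcard : (0 : ℤ) < (Nat.card F : ℤ) := by exact_mod_cast Nat.card_pos
  obtain ⟨jm, hjm⟩ := hm
  by_cases hrp : r = p
  · -- the characteristic
    subst hrp
    have ho : Odd r := odd_of_two (F := F) h2
    have hr2 : r ≠ 2 := by
      rintro rfl
      exact absurd ho (by decide)
    rw [redS hQ hgen (by rw [hfr]; omega) ho]
    constructor
    · intro H
      exfalso
      rcases Nat.even_or_odd d with hde | hdo
      · obtain ⟨T, h3, h4, h5, h6⟩ := bad_m_minus (p := r) h2 hQ hQ₀ hde (by omega) hfr (by rw [hX]; exact ⟨jm, hjm⟩) (by rw [hX, hfr]; omega)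
        obtain ⟨W, hcl, hW⟩ := H T h3 h4 h5
        exact h6 W hW hcl
      · obtain ⟨T, h3, h4, h5, h6⟩ := bad_m_odd (p := r) h2 hQ (d := d) (m := m) (by omega) hfr ⟨jm, hjm⟩ (Or.inl hdo)
        obtain ⟨W, hcl, hW⟩ := H T h3 h4 h5
        exact h6 W hW (hcl.nd hQ₀) (by rw [hcl.finrank hQ₀, hX])
    · rintro (⟨h3, -⟩ | ⟨h3, -⟩ | ⟨h3, -⟩)
      · exact absurd h3 hr2
      · exact absurd rfl h3
      · exact absurd rfl h3
  rcases hr.eq_two_or_odd' with rfl | ho
  · -- involutions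
    rw [two_main h2 hQ hQ₀ hgen (d := d) (by omega) hfr (by rw [hX, hfr]; omega)]
    have hsq := FiniteField.isSquare_two_iff (F := F)
    rw [hq] at hsq
    have hchi := chi_eq (F := F)
    rw [hq] at hchi
    have hpos : ∀ k : ℕ, (0 : ℤ) < (Nat.card F : ℤ) ^ k := fun k => pow_pos hcard k
    have hDeq : (D (quadMinus (d - 1) F a b) = chi F ^ d * (Nat.card F : ℤ) ^ d) ↔ chi F ^ d = -1 := by
      rw [hDm]
      constructor
      · intro h
        have := hpos d
        have h3 : (chi F ^ d + 1) * (Nat.card F : ℤ) ^ d = 0 := by linear_combination -h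
        rcases mul_eq_zero.1 h3 with h4 | h4
        · linarith
        · omega
      · intro h
        rw [h]; ring
    have hqo : q % 2 = 1 := Nat.odd_iff.1 hodd
    rw [hDeq, hsq, hchi]
    have hno : ¬ ∃ j, finrank F W₀ = 2 * j ∧ D (res (quadMinus (d - 1) F a b) W₀) = (if q % 4 = 3 then -1 else 1) ^ j * (Nat.card F : ℤ) ^ j := by
      rintro ⟨j, hj, -⟩
      omega
    constructor
    · intro H
      refine Or.inl ⟨rfl, ?_⟩
      by_contra hcon
      rcases Nat.even_or_odd d with he | hdo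
      · exact hcon (Or.inl he)
      · have h4 : q % 8 = 7 := by
          by_contra h5
          exact hcon (Or.inr h5)
        exact hno (H (by rw [if_pos (by omega)]; exact hdo.neg_one_pow) (Or.inr (by omega)))
    · rintro (⟨-, h3⟩ | ⟨-, h4, -⟩ | ⟨-, h4, -⟩)
      · intro h5 h6
        exfalso
        by_cases h7 : q % 4 = 3
        · rw [if_pos h7] at h5
          have hdo : Odd d := (neg_one_pow_eq_neg_one_iff_odd (by norm_num)).1 h5
          have hde : ¬ Even d := Nat.not_even_iff_odd.2 hdo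
          rcases h3 with h3 | h3
          · exact hde h3
          · rcases h6 with h6 | h6
            · exact hde h6
            · omega
        · rw [if_neg h7, one_pow] at h5
          norm_num at h5
      · omega
      · omega
  · have hr2 : 2 < r := by
      have := hr.two_le
      rcases ho with ⟨k, hk⟩
      omega
    have hne : (r : F) ≠ 0 := Cfsg.Agent.Lib.PrimeOrd.cast_ne_zero (p := p) hrp
    have hε : ∀ N, finrank F ((Fin (d - 1) ⊕ Fin (d - 1)) ⊕ Fin 2 → F) = 2 * N → D (quadMinus (d - 1) F a b) = (-1) * (Fintype.card F : ℤ) ^ N := fun N hN => by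
      have : N = d := by omega
      rw [hDm, this, Nat.card_eq_fintype_card]; ring
    have hδ : ∀ N, finrank F W₀ = 2 * N → D (res (quadMinus (d - 1) F a b) W₀) = 1 * (Fintype.card F : ℤ) ^ N := fun N hN => by omega
    have main := nd_main hQ hQ₀ hr ho hne (by norm_num) (by norm_num) hε hδ (Or.inl ⟨d, by omega⟩) (by omega) (by omega) hrΩ
    have main' := nd_main' hQ hQ₀ hr ho hne (by norm_num) (by norm_num) hε hδ (Or.inl ⟨d, by omega⟩) (by omega) (by omega)
    rw [redS hQ hgen (by rw [hfr]; omega) ho]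
    have hci : c = Cfsg.Agent.Lib.Sesq.csize i := hc
    rw [csize_eq] at hci
    have hi' : hF F r = hh i := by rw [hi, ← hq]
    have hs' : sF F r = sg i := by rw [hi, ← hq]
    have hc' : 2 * hF F r = c := by rw [hi', hci]
    rw [hc', hs', hfr, hX] at main main'
    have hc0 : 0 < c := by
      have h3 : 0 < hF F r := hh_pos (ord_pos hr hne)
      omega
    unfold GG at main main'
    have hk1 : 2 * d % c % 2 = 0 := by
      rw [Nat.mod_mod_of_dvd _ ⟨hF F r, by omega⟩]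
      omega
    have hl1 : m % c % 2 = 1 := by
      rw [Nat.mod_mod_of_dvd _ ⟨hF F r, by omega⟩]
      omega
    by_cases he : Even i
    · have hci' : c = i := by rw [hc, if_pos he]
      have hsg : sg i = -1 := by unfold sg; rw [if_pos he]
      rw [hsg] at main main'
      have hno : ¬ Odd i := by rwa [Nat.not_odd_iff_even]
      have hpow1 : ∀ k : ℕ, ((-1 : ℤ) ≠ (-1) ^ k) ↔ Even k := fun k => by
        rw [ne_comm, Ne, neg_one_pow_eq_neg_one_iff_odd (by norm_num), Nat.not_odd_iff_even]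
      rw [hpow1] at main main'
      rw [← hci']
      constructor
      · intro H
        obtain ⟨h5, ⟨h6, h7 | ⟨h7, -⟩⟩ | ⟨h6, h7, -, -⟩⟩ := main.1 H
        · exact Or.inr (Or.inr ⟨hrp, hr2, by rw [hci']; exact he, Or.inl ⟨h6, h7⟩⟩)
        · omega
        · exact Or.inr (Or.inr ⟨hrp, hr2, by rw [hci']; exact he, Or.inr ⟨by omega, h5, by omega, by omega⟩⟩)
      · rintro (⟨h5, -⟩ | ⟨-, -, h5, -⟩ | ⟨-, -, -, ⟨h5, h6⟩ | ⟨-, h4, h5, h6⟩⟩)
        · omega
        · rw [hci'] at h5; exact absurd h5 hno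
        · exact main' (Or.inl ⟨h5, Or.inl h6⟩)
        · exact main' (Or.inr ⟨by omega, by omega, fun h => by omega, fun h => by omega⟩)
    · have hsg : sg i = 1 := by unfold sg; rw [if_neg he]
      rw [hsg] at main main'
      simp only [one_pow] at main main'
      have ho' : Odd i := Nat.not_even_iff_odd.1 he
      constructor
      · intro H
        obtain ⟨h5, ⟨h6, h7⟩ | ⟨h6, h7, h8, h9⟩⟩ := main.1 H
        · exact Or.inr (Or.inl ⟨hrp, hr2, ho', Or.inl h6⟩)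
        · exact Or.inr (Or.inl ⟨hrp, hr2, ho', Or.inr ⟨h5, by omega, by omega⟩⟩)
      · rintro (⟨h5, -⟩ | ⟨-, -, -, h5 | ⟨h5, h6, h7⟩⟩ | ⟨-, -, h5, -⟩)
        · omega
        · exact main' (Or.inl ⟨h5, Or.inl (by norm_num)⟩)
        · exact main' (Or.inr ⟨by omega, by omega, fun h8 => by omega, fun h8 => by omega⟩)
        · exact absurd h5 he

end Cfsg.Agent.S5991
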