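import Cfsg.Statements.S5993
import Cfsg.Agent.Lib.OrthUniB67
import Cfsg.Agent.Lib.QuadForms

set_option autoImplicit false
open scoped MatrixGroups
open Cfsg

namespace Cfsg.Agent.S5993

open QuadraticMap Module Cfsg.Agent.Lib.Quad Cfsg.Agent.Lib.QuadD67 Cfsg.Agent.Lib.QuadEmb67 Cfsg.Agent.Lib.OrthR67
open Cfsg.Agent.Lib.InvSub Cfsg.Agent.Lib.PrimeOrd in
/-- Elements of prime order of Ω_n(q), nq odd, with no fixed elliptic `m`-space. Here `T = Ω_n(F)`, `n = 2d+1 ≥ 7`, `q` odd, realised as the commutator subgroup of the isometry group of `Q = x₀² + Σ xᵢyᵢ` over the field `F` with `q` elements (trivial centre, so its elements of prime order `r` are used directly); a nondegenerate `m`-space (even `m`) is a subspace on which the polar form of `Q` is nondegenerate; it is hyperbolic if it contains an `m/2`-dimensional subspace on which `Q` vanishes, elliptic otherwise. Let `m` be even with `2 ≤ m ≤ n − 1` (no restriction `m < n/2`) and let `r` be a prime dividing the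 number of elliptic `m`-spaces; for `r ≠ p` let `i` be the multiplicative order of `q` modulo `r`, `c = i` for `i` even and `c = 2i` for `i` odd, and write `k = n mod c`, `ℓ' = m mod c`. Then every element of `T` of order `r` fixes some elliptic `m`-space if and only if `r = 2`, or `r ≠ p` is odd and one of: (i) `i` odd, `c ≤ m` and `k > ℓ' > 0`; (ii) `i` even, `i ≤ m`, `k > ℓ'`, and `m/i` odd whenever `ℓ' = 0`. (For `r = p` there is always an element of order `p` fixing no elliptic `m`-space.) -/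
theorem result {F : Type*} [Field F] [Fintype F] {p : ℕ} [Fact p.Prime] [CharP F p] {q : ℕ} (hq : Fintype.card F = q) (hqodd : Odd q)
    (d m : ℕ) (hd : 3 ≤ d) (hm : 2 ≤ m) (hme : Even m) (hmn : m ≤ 2 * d)
    (r : ℕ) [Fact r.Prime]
    (hrΩ : r ∣ Nat.card {W : Submodule F (Unit ⊕ (Fin d ⊕ Fin d) → F) // Module.finrank F ↥W = m ∧ Cfsg.Geo.IsNondegenerateOn (QuadraticMap.polar (Cfsg.quadFormOdd d F)) W ∧ ¬ Cfsg.Geo.IsPlusTypeOn (Cfsg.quadFormOdd d F) W})
    (i c : ℕ) (hi : i = orderOf (q : ZMod r)) (hc : c = if Even i then i else 2 * i) :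
    (∀ x : GL (Unit ⊕ (Fin d ⊕ Fin d)) F, x ∈ Cfsg.Geo.omegaGL (Cfsg.quadFormOdd d F) → orderOf x = r →
      ∃ W : Submodule F (Unit ⊕ (Fin d ⊕ Fin d) → F), (Module.finrank F ↥W = m ∧ Cfsg.Geo.IsNondegenerateOn (QuadraticMap.polar (Cfsg.quadFormOdd d F)) W ∧ ¬ Cfsg.Geo.IsPlusTypeOn (Cfsg.quadFormOdd d F) W) ∧ W.map (Matrix.toLin' (x : Matrix (Unit ⊕ (Fin d ⊕ Fin d)) (Unit ⊕ (Fin d ⊕ Fin d)) F)) ≤ W) ↔
    (r = 2 ∨
     (r ≠ p ∧ 2 < r ∧ Odd i ∧ c ≤ m ∧ 0 < m % c ∧ m % c < (2 * d + 1) % c) ∨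
     (r ≠ p ∧ 2 < r ∧ Even i ∧ i ≤ m ∧ m % c < (2 * d + 1) % c ∧ (0 < m % c ∨ Odd (m / i)))) := by
  have hr : r.Prime := Fact.out
  have h2 : (2 : F) ≠ 0 := two_ne_zero_of_odd hq hqodd
  have hQ : Nd (quadOdd d F) := nd_quadOdd h2
  have hfr : finrank F (Unit ⊕ (Fin d ⊕ Fin d) → F) = 2 * d + 1 := finrank_odd
  obtain ⟨M, hM⟩ := hme
  have hm2 : m = 2 * M := by omega
  obtain ⟨X, i1, i2, i3, Q₀, hQ₀, hX, hD⟩ := exists_space (F := F) M (-1) (Or.inr ⟨rfl, by omega⟩)
  have hD' : D Q₀ = -(Nat.card F : ℤ) ^ M := by rw [hD]; ring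
  have hP : ∀ W : Submodule F (Unit ⊕ (Fin d ⊕ Fin d) → F), (Module.finrank F ↥W = m ∧ Cfsg.Geo.IsNondegenerateOn (QuadraticMap.polar (Cfsg.quadFormOdd d F)) W ∧ ¬ Cfsg.Geo.IsPlusTypeOn (Cfsg.quadFormOdd d F) W) ↔
      Cl (quadOdd d F) Q₀ W := by
    intro W
    rw [cl_minus hQ₀ hX hD', hm2]
    exact and_congr_right fun _ => and_congr_left' (ndOn_iff (Q := quadOdd d F))
  have hgen : GenHyp (quadOdd d F) := genHyp_of_card (Or.inr (by rw [hfr]; omega))
  simp only [hP] at hrΩ ⊢
  have e1 := keyO (quadOdd d F) (fun W => Cl (quadOdd d F) Q₀ W) hr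
  rw [coe_quadOdd] at e1
  rw [e1]
  rcases hr.eq_two_or_odd' with rfl | ho
  · refine ⟨fun _ => Or.inl rfl, fun _ g hg hg2 hg1 => ?_⟩
    have hpar := ((mem_Om_iff_homs hQ hgen ⟨g, Om_le hg⟩).1 hg).1
    have hev : Even (finrank F (mov g)) := sgn_eq_one_iff.1 hpar
    have hmf := finrank_mov_add_fixS g
    obtain ⟨k, hk⟩ := hev
    exact inv_fix h2 hQ hQ₀ (Om_le hg) hg2 ⟨k, hk⟩ hg1 (by omega) (by omega)
  · have hr2 : 2 < r := by
      have := hr.two_le
      rcases ho with ⟨k, hk⟩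
      omega
    by_cases hrp : r = p
    · -- the characteristic
      subst hrp
      rw [redO hQ hgen ho]
      constructor
      · intro H
        exfalso
        obtain ⟨T, hT⟩ : ∃ T : Module.End F (Unit ⊕ (Fin d ⊕ Fin d) → F), UP r (quadOdd d F) d T := by
          rcases Nat.even_or_odd d with ⟨k, hk⟩ | ⟨k, hk⟩
          · obtain ⟨T, h3, -⟩ := exists_UP_sq (p := r) hQ (k := k) (Or.inl (by omega))
            exact ⟨T, by rwa [show 2 * k = d by omega] at h3⟩
          · obtain ⟨T, h3, -⟩ := exists_UP_three (p := r) h2 hQ (k := k) (by omega)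
            exact ⟨T, by rwa [show 2 * k + 1 = d by omega] at h3⟩
        obtain ⟨W, hcl, hW⟩ := H T hT.iso hT.pow (by
          rintro rfl
          have h3 := (UP.one r (quadOdd d F)).fr
          rw [hT.fr] at h3
          omega)
        have h3 := uni_odd hQ hfr hT.iso hT.ts (by rw [hT.fr]) hW (hcl.nd hQ₀) (M := M) (by rw [hcl.finrank hQ₀, hX])
        rw [hcl.D hQ₀, hD'] at h3
        have h4 : (0 : ℤ) < (Nat.card F : ℤ) := by exact_mod_cast Nat.card_pos
        have h5 := pow_pos h4 M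
        linarith
      · rintro (h3 | ⟨h3, -⟩ | ⟨h3, -⟩)
        · omega
        · exact absurd rfl h3
        · exact absurd rfl h3
    have hne : (r : F) ≠ 0 := Cfsg.Agent.Lib.PrimeOrd.cast_ne_zero (p := p) hrp
    rw [redO hQ hgen ho, nd_main hQ hQ₀ hr ho hne (ε := 1) (δ := -1) (by norm_num) (by norm_num) (fun N hN => by omega)
      (fun N hN => by
        have : N = M := by omega
        rw [hD, this, Nat.card_eq_fintype_card]) (Or.inr ⟨M, by omega⟩) (by omega) (by omega) hrΩ]
    have hci : c = Cfsg.Agent.Lib.Sesq.csize i := hc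
    rw [csize_eq] at hci
    have hi' : hF F r = hh i := by rw [hi, ← hq]
    have hs' : sF F r = sg i := by rw [hi, ← hq]
    have hc' : 2 * hF F r = c := by rw [hi', hci]
    rw [hc', hs', hfr, hX, ← hm2]
    have hce : Even c := ⟨hF F r, by omega⟩
    have hc0 : 0 < c := by
      have h3 : 0 < hF F r := hh_pos (ord_pos hr hne)
      omega
    have hk1 : (2 * d + 1) % c % 2 = 1 := by
      obtain ⟨k, hk⟩ := hce
      rw [Nat.mod_mod_of_dvd _ ⟨k, by omega⟩]
      omega
    have hl1 : m % c % 2 = 0 := by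
      obtain ⟨k, hk⟩ := hce
      rw [Nat.mod_mod_of_dvd _ ⟨k, by omega⟩]
      omega
    unfold GG
    by_cases he : Even i
    · have hci' : c = i := by rw [hc, if_pos he]
      have hsg : sg i = -1 := by unfold sg; rw [if_pos he]
      rw [hsg]
      have hno : ¬ Odd i := by rwa [Nat.not_odd_iff_even]
      have hpow : (-1 : ℤ) = (-1) ^ (m / c) ↔ Odd (m / c) := by
        rw [eq_comm, neg_one_pow_eq_neg_one_iff_odd (by norm_num)]
      rw [hpow, ← hci']
      constructor
      · rintro ⟨h5, ⟨h6, -⟩ | ⟨h6, h7, h8, h9⟩⟩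
        · omega
        · right; right
          refine ⟨hrp, hr2, by rw [hci']; exact he, h5, by omega, ?_⟩
          by_cases h10 : m % c = 0
          · exact Or.inr (h8 h10)
          · left; omega
      · rintro (h5 | ⟨-, -, h5, -⟩ | ⟨-, -, -, h5, h6, h7⟩)
        · omega
        · rw [hci'] at h5; exact absurd h5 hno
        · refine ⟨h5, Or.inr ⟨by omega, by omega, fun h8 => ?_, fun h8 => by omega⟩⟩
          rcases h7 with h7 | h7
          · omega
          · exact h7
    · have hsg : sg i = 1 := by unfold sg; rw [if_neg he]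
      rw [hsg]
      simp only [one_pow]
      have ho' : Odd i := Nat.not_even_iff_odd.1 he
      constructor
      · rintro ⟨h5, ⟨h6, -⟩ | ⟨h6, h7, h8, h9⟩⟩
        · omega
        · right; left
          refine ⟨hrp, hr2, ho', h5, ?_, by omega⟩
          rcases Nat.eq_zero_or_pos (m % c) with h10 | h10
          · exact absurd (h8 h10) (by norm_num)
          · exact h10
      · rintro (h5 | ⟨-, -, -, h5, h6, h7⟩ | ⟨-, -, h5, -⟩)
        · omega
        · exact ⟨h5, Or.inr ⟨by omega, by omega, fun h8 => by omega, fun h8 => by omega⟩⟩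
        · exact absurd h5 he

end Cfsg.Agent.S5993
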