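import Cfsg.Statements.S5995
import Cfsg.Agent.Lib.OPart3
import Cfsg.Agent.Lib.AschO6

set_option autoImplicit false
open scoped MatrixGroups
open Cfsg

namespace Cfsg.Agent.S5995

/-- A necessary condition for every element of order p of Ω_n(q), nq odd, to fix a hyperbolic `m`-space. Here `T = Ω_n(F)`, `n = 2d+1 ≥ 7`, `q` odd, realised as the commutator subgroup of the isometry group of `Q = x₀² + Σ xᵢyᵢ` over the field `F` with `q` elements (trivial centre, so its elements of prime order `r` are used directly); a nondegenerate `m`-space (even `m`) is a subspace on which the polar form of `Q` is nondegenerate; it is hyperbolic if it contains an `m/2`-dimensional subspace on which `Q` vanishes, elliptic otherwise. Let `m` be even with `2 ≤ m ≤ n − 1` and suppose `p` divides the number of hyperbolic `m`-spaces. If every element of `T` of order `p` fixes some hyperbolic `m`-space, then `m ≡ 0 (mod 4)`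 and every partition of `n` into parts of size at most `p` in which every even part has even multiplicity contains (as a sub-multiset) a partition of `m` in which every even part has even multiplicity. -/
theorem result {F : Type*} [Field F] [Fintype F] {p : ℕ} [Fact p.Prime] [CharP F p] {q : ℕ} (hq : Fintype.card F = q) (hqodd : Odd q)
    (d m : ℕ) (hd : 3 ≤ d) (hm : 2 ≤ m) (hme : Even m) (hmn : m ≤ 2 * d)
    (hpΩ : p ∣ Nat.card {W : Submodule F (Unit ⊕ (Fin d ⊕ Fin d) → F) // Module.finrank F ↥W = m ∧ Cfsg.Geo.IsNondegenerateOn (QuadraticMap.polar (Cfsg.quadFormOdd d F)) W ∧ Cfsg.Geo.IsPlusTypeOn (Cfsg.quadFormOdd d F) W}) :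
    (∀ x : GL (Unit ⊕ (Fin d ⊕ Fin d)) F, x ∈ Cfsg.Geo.omegaGL (Cfsg.quadFormOdd d F) → orderOf x = p →
      ∃ W : Submodule F (Unit ⊕ (Fin d ⊕ Fin d) → F), (Module.finrank F ↥W = m ∧ Cfsg.Geo.IsNondegenerateOn (QuadraticMap.polar (Cfsg.quadFormOdd d F)) W ∧ Cfsg.Geo.IsPlusTypeOn (Cfsg.quadFormOdd d F) W) ∧ W.map (Matrix.toLin' (x : Matrix (Unit ⊕ (Fin d ⊕ Fin d)) (Unit ⊕ (Fin d ⊕ Fin d)) F)) ≤ W) →
    (m % 4 = 0 ∧ (∀ μ : Multiset ℕ, (∀ e ∈ μ, 0 < e ∧ e ≤ p) → (∀ e : ℕ, Even e → Even (μ.count e)) → μ.sum = 2 * d + 1 →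
        ∃ ν : Multiset ℕ, ν ≤ μ ∧ ν.sum = m ∧ ∀ e : ℕ, Even e → Even (ν.count e))) := by
  have h2 : (2 : F) ≠ 0 := Cfsg.Agent.Lib.AschSp.two_ne_of_odd (by rw [hq]; exact hqodd)
  have hcard : Fintype.card (Unit ⊕ (Fin d ⊕ Fin d)) = 2 * d + 1 := by simp; omega
  intro H
  have H2 : ∀ f ∈ Cfsg.Agent.Lib.Quad.Om (Cfsg.Agent.Lib.Quad.quadOdd d F), f ^ p = 1 → f ≠ 1 → ∃ W : Submodule F (Unit ⊕ (Fin d ⊕ Fin d) → F), (Module.finrank F ↥W = m ∧ Cfsg.Geo.IsNondegenerateOn (QuadraticMap.polar (Cfsg.quadFormOdd d F)) W ∧ Cfsg.Geo.IsPlusTypeOn (Cfsg.quadFormOdd d F) W) ∧ W.map (f : (Unit ⊕ (Fin d ⊕ Fin d) → F) →ₗ[F] (Unit ⊕ (Fin d ⊕ Fin d) → F)) ≤ W := by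
    intro f hf hfp hf1
    have hx : Cfsg.Agent.Lib.GeoBridge.le.symm f ∈ Cfsg.Geo.omegaGL ⇑(Cfsg.Agent.Lib.Quad.quadOdd d F) := by
      rw [Cfsg.Agent.Lib.OrthBridge.mem_omegaGL_iff, MulEquiv.apply_symm_apply]
      exact hf
    obtain ⟨W, hW1, hW2⟩ := H (Cfsg.Agent.Lib.GeoBridge.le.symm f) hx (orderOf_eq_prime (by rw [← map_pow, hfp, map_one])
      (fun h => hf1 (by rw [← MulEquiv.apply_symm_apply Cfsg.Agent.Lib.GeoBridge.le f, h, map_one])))
    refine ⟨W, hW1, ?_⟩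
    have : (Matrix.toLin' ((Cfsg.Agent.Lib.GeoBridge.le.symm f : GL (Unit ⊕ (Fin d ⊕ Fin d)) F) : Matrix (Unit ⊕ (Fin d ⊕ Fin d)) (Unit ⊕ (Fin d ⊕ Fin d)) F)) = (f : (Unit ⊕ (Fin d ⊕ Fin d) → F) →ₗ[F] (Unit ⊕ (Fin d ⊕ Fin d) → F)) := by
      apply LinearMap.ext
      intro v
      rw [Matrix.toLin'_apply, Cfsg.Agent.Lib.GeoBridge.le_symm_mulVec]; rfl
    rwa [this] at hW2
  have H3 := Cfsg.Agent.Lib.OPart.part_main (Cfsg.Agent.Lib.Quad.nd_quadOdd (m := d) h2) h2 (m := m) (by rw [hcard]; omega) (by rw [hcard]; omega) hme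
    (fun W hW => ⟨hW.1, hW.2.1⟩) H2
  rw [hcard] at H3
  refine ⟨Cfsg.Agent.Lib.OPart.mod_odd (p := p) ?_ (by omega) hme H3, H3⟩
  have h3 : p ≠ 2 := by
    rintro rfl
    exact h2 (CharTwo.two_eq_zero)
  have := (Fact.out : p.Prime).two_le
  omega

end Cfsg.Agent.S5995
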