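import Cfsg.Statements.S6001
import Cfsg.Agent.Lib.UniFive
import Cfsg.Agent.Lib.UniTool2
import Cfsg.Agent.S6000

set_option autoImplicit false
open scoped MatrixGroups
open Cfsg

namespace Cfsg.Agent.S6001

open Cfsg.Agent.Lib.XR Cfsg.Agent.Lib.DiagTool Cfsg.Agent.Lib.NormTool Cfsg.Agent.Lib.UniTool Module Matrix Polynomial
open Cfsg.Agent.Lib.ClUnitary (frob)
open Cfsg.Agent.Lib.UnitStar (st)
open Cfsg.Agent.S6000 (exists_I exists_Quad scale_sq anti_scale comm_scale dec_same dec_opp dec_const trace_of_diag sum_e count_of_trace)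

section

variable {F : Type*} [Field F] [Fintype F] {p : ℕ}

theorem inv_of_sq {a : GL (Fin 4) F} (h : a * a = -1) : (a⁻¹).1 = -a.1 := by
  have : a⁻¹ = -a := by
    rw [inv_eq_iff_mul_eq_one, mul_neg, h, neg_neg]
  rw [this]; rfl

theorem inv_of_invol {a : GL (Fin 4) F} (h : a * a = 1) : (a⁻¹).1 = a.1 := by
  rw [inv_eq_of_mul_eq_one_left h]

theorem gu_cz (hF : Fintype.card F = p ^ 2) {x y P : GL (Fin 4) F} (hx : x ∈ Cfsg.GU 4 F p) (hy : y ∈ Cfsg.GU 4 F p) (hxx : x * x = 1) (hyy : y * y = 1)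
    (hxy : x * y = y * x) (hPP : P * P = 1) (hP : P.1 = (2 : F)⁻¹ • (1 + x.1 + y.1 - x.1 * y.1)) : P ∈ Cfsg.GU 4 F p := by
  rw [mem_GU hF]
  have hsx : st (frob hF) x.1 = x.1 := by rw [st_eq_inv hF hx, inv_of_invol hxx]
  have hsy : st (frob hF) y.1 = y.1 := by rw [st_eq_inv hF hy, inv_of_invol hyy]
  have h2 : ((2 : F)⁻¹) ^ p = (2 : F)⁻¹ := by
    have h3 : frob hF ((2 : F)⁻¹) = (2 : F)⁻¹ := by rw [map_inv₀, map_ofNat]
    exact h3
  have hsP : st (frob hF) P.1 = P.1 := by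
    rw [hP, st_smul, h2, st_sub, Cfsg.Agent.Lib.UnitStar.st_add, Cfsg.Agent.Lib.UnitStar.st_add, Cfsg.Agent.Lib.UnitStar.st_mul, Cfsg.Agent.Lib.UnitStar.st_one, hsx, hsy]
    have : y.1 * x.1 = x.1 * y.1 := (congrArg Units.val hxy).symm
    rw [this]
  rw [hsP]
  exact congrArg Units.val hPP

theorem gu_three (hF : Fintype.card F = p ^ 2) {a b P : GL (Fin 4) F} (ha : a ∈ Cfsg.GU 4 F p) (hb : b ∈ Cfsg.GU 4 F p) (haa : a * a = -1) (hbb : b * b = -1)
    (hab : a * b = -(b * a)) (h2 : (2 : F) ≠ 0) (hPP : P.1 * P.1 + P.1 + 1 = 0) (hP : P.1 = (-(2 : F)⁻¹) • (1 + a.1 + b.1 + a.1 * b.1)) : P ∈ Cfsg.GU 4 F p := by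
  rw [mem_GU hF]
  have hsa : st (frob hF) a.1 = -a.1 := by rw [st_eq_inv hF ha, inv_of_sq haa]
  have hsb : st (frob hF) b.1 = -b.1 := by rw [st_eq_inv hF hb, inv_of_sq hbb]
  have h2p : (-(2 : F)⁻¹) ^ p = -(2 : F)⁻¹ := by
    have h3 : frob hF (-(2 : F)⁻¹) = -(2 : F)⁻¹ := by rw [map_neg, map_inv₀, map_ofNat]
    exact h3
  have mab : b.1 * a.1 = -(a.1 * b.1) := by
    have : b * a = -(a * b) := by rw [hab, neg_neg]
    exact congrArg Units.val this
  have e22 : (2 : F)⁻¹ * 2 = 1 := inv_mul_cancel₀ h2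
  have hsP : st (frob hF) P.1 = -P.1 - 1 := by
    rw [hP, st_smul, h2p, Cfsg.Agent.Lib.UnitStar.st_add, Cfsg.Agent.Lib.UnitStar.st_add, Cfsg.Agent.Lib.UnitStar.st_add, Cfsg.Agent.Lib.UnitStar.st_mul, Cfsg.Agent.Lib.UnitStar.st_one, hsa, hsb, neg_mul_neg, mab]
    have h3 : (1 : Matrix (Fin 4) (Fin 4) F) = ((2 : F)⁻¹ * 2) • (1 : Matrix (Fin 4) (Fin 4) F) := by rw [e22, one_smul]
    nth_rewrite 3 [h3]
    module
  rw [hsP, Matrix.sub_mul, Matrix.neg_mul, Matrix.one_mul]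
  have h4 : -(P.1 * P.1) - P.1 = 1 - (P.1 * P.1 + P.1 + 1) := by abel
  rw [h4, hPP, sub_zero]

theorem gu_refl (hF : Fintype.card F = p ^ 2) {x y P : GL (Fin 4) F} (hx : x ∈ Cfsg.GU 4 F p) (hy : y ∈ Cfsg.GU 4 F p) (hxx : x * x = 1) (hyy : y * y = 1)
    (hxy : x * y = -(y * x)) (hP : P.1 = x.1 - y.1) : st (frob hF) P.1 * P.1 = (2 : F) • (1 : Matrix (Fin 4) (Fin 4) F) := by
  have hsx : st (frob hF) x.1 = x.1 := by rw [st_eq_inv hF hx, inv_of_invol hxx]
  have hsy : st (frob hF) y.1 = y.1 := by rw [st_eq_inv hF hy, inv_of_invol hyy]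
  have m1 : x.1 * x.1 = 1 := congrArg Units.val hxx
  have m2 : y.1 * y.1 = 1 := congrArg Units.val hyy
  have m3 : x.1 * y.1 = -(y.1 * x.1) := congrArg Units.val hxy
  rw [hP, st_sub, hsx, hsy, Matrix.sub_mul, Matrix.mul_sub, Matrix.mul_sub, m1, m2, m3, two_smul]
  abel

/-- the test elements of order five -/
theorem exists_five_neg (hF : Fintype.card F = p ^ 2) [hp : Fact p.Prime] [CharP F p] (h2 : (2 : F) ≠ 0) (h5 : (5 : F) ≠ 0) {η : F} (hη : η ^ 2 + η - 1 = 0) (hηp : η ^ p = η) :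
    ∃ x ∈ Cfsg.GU 4 F p ⊓ Cfsg.Geo.specialLinear (Fin 4) F, x ^ 5 = 1 ∧ (∀ z : F, x.1 ≠ z • (1 : Matrix (Fin 4) (Fin 4) F)) ∧
      x.1.trace = 2 + η ∧ (x⁻¹).1.trace = 2 + η := by
  set e := η / 2 with he
  have he2 : 2 * e = η := by rw [he]; field_simp
  have hep : e ^ p = e := by
    have h3 : frob hF e = e := by
      rw [he, map_div₀, map_ofNat]
      have : frob hF η = η := hηp
      rw [this]
    exact h3
  obtain ⟨b, hb⟩ := Cfsg.Agent.Lib.ClUnitary.exists_norm hF (c := 1 - e ^ 2) (by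
    have h3 : frob hF (1 - e ^ 2) = 1 - e ^ 2 := by
      rw [map_sub, map_one, map_pow]
      have : frob hF e = e := hep
      rw [this]
    exact h3)
  set b' := b ^ p with hb'
  have hbb : b * b' = 1 - e ^ 2 := by rw [hb', ← pow_succ', hb]
  have hb'p : b' ^ p = b := Cfsg.Agent.Lib.ClUnitary.frob_frob hF b
  let M : Matrix (Fin 4) (Fin 4) F := !![1, 0, 0, 0; 0, 1, 0, 0; 0, 0, e, b; 0, 0, -b', e]
  let M' : Matrix (Fin 4) (Fin 4) F := !![1, 0, 0, 0; 0, 1, 0, 0; 0, 0, e, -b; 0, 0, b', e]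
  let N : Matrix (Fin 4) (Fin 4) F := !![1, 0, 0, 0; 0, 1, 0, 0; 0, 0, η * e - 1, η * b; 0, 0, -(η * b'), η * e - 1]
  have hMM' : M * M' = 1 := by
    ext i j
    fin_cases i <;> fin_cases j <;> simp [M, M', Matrix.mul_apply, Fin.sum_univ_four]
    · linear_combination hbb
    · ring
    · ring
    · linear_combination hbb
  have hM'M : M' * M = 1 := by
    ext i j
    fin_cases i <;> fin_cases j <;> simp [M, M', Matrix.mul_apply, Fin.sum_univ_four]
    · linear_combination hbb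
    · ring
    · ring
    · linear_combination hbb
  have hMM : M * M = N := by
    ext i j
    fin_cases i <;> fin_cases j <;> simp [M, N, Matrix.mul_apply, Fin.sum_univ_four]
    · linear_combination e * he2 - hbb
    · linear_combination b * he2
    · linear_combination (-b') * he2
    · linear_combination e * he2 - hbb
  have hNN : N * N = M' := by
    have he2' : e ^ 2 * 4 = η ^ 2 := by linear_combination (2 * e + η) * he2
    have key1 : (η * e - 1) * (η * e - 1) - η * b * (η * b') = e := by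
      apply mul_left_cancel₀ h2
      linear_combination (-2 * η ^ 2) * hbb + (η ^ 2) * he2' + (-2 * η - 1 ) * he2 + (η ^ 2 - η - 2) * hη
    have key2 : 2 * ((η * e - 1) * η) = -1 := by
      linear_combination (η ^ 2) * he2 + (η - 1) * hη
    ext i j
    fin_cases i <;> fin_cases j <;> simp [M', N, Matrix.mul_apply, Fin.sum_univ_four]
    · linear_combination key1
    · linear_combination b * key2
    · linear_combination (-b') * key2
    · linear_combination key1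
  have hdet : M.det = 1 := by
    simp [M, Matrix.det_succ_row_zero, Fin.sum_univ_succ, Fin.succAbove]
    linear_combination hbb
  let x : GL (Fin 4) F := ⟨M, M', hMM', hM'M⟩
  refine ⟨x, ⟨?_, mem_SL_iff.2 hdet⟩, ?_, ?_, ?_, ?_⟩
  · refine (mem_GU hF x).2 ?_
    have : st (frob hF) x.1 = M' := by
      ext i j
      show frob hF (M j i) = M' i j
      have h0 : frob hF b = b' := rfl
      have h1 : frob hF b' = b := hb'p
      have h3 : frob hF e = e := hep
      fin_cases i <;> fin_cases j <;> simp only [M, M'] <;> simp [-Cfsg.Agent.Lib.ClUnitary.frob_apply, h0, h1, h3]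
    rw [this]; exact hM'M
  · apply Units.ext
    rw [Units.val_pow_eq_pow_val]
    show M ^ 5 = 1
    have : M ^ 5 = (M * M) * (M * M) * M := by simp only [pow_succ, pow_zero, Matrix.one_mul, Matrix.mul_assoc]
    rw [this, hMM, hNN, hM'M]
  · intro z hz
    have e0 : M 0 0 = (z • (1 : Matrix (Fin 4) (Fin 4) F)) 0 0 := congrFun (congrFun hz 0) 0
    have e1 : M 2 2 = (z • (1 : Matrix (Fin 4) (Fin 4) F)) 2 2 := congrFun (congrFun hz 2) 2
    simp [M] at e0 e1
    apply h5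
    have h6 : η = 2 := by rw [← he2, e1, ← e0, mul_one]
    rw [h6] at hη
    linear_combination hη
  · show M.trace = _
    simp [M, Matrix.trace, Fin.sum_univ_four]
    linear_combination he2
  · show M'.trace = _
    simp [M', Matrix.trace, Fin.sum_univ_four]
    linear_combination he2


/-- the negative direction -/
theorem neg_dir [hp : Fact p.Prime] [CharP F p] (hF : Fintype.card F = p ^ 2) (hp4 : p % 4 = 3)
    {R : Subgroup (GL (Fin 4) F)} (h : XR R) {r : ℕ} [hr : Fact r.Prime] (hdvd : r ∣ Nat.card ↥(Cfsg.GU 4 F p ⊓ Cfsg.Geo.specialLinear (Fin 4) F))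
    (hall : ∀ x ∈ Cfsg.GU 4 F p ⊓ Cfsg.Geo.specialLinear (Fin 4) F, x ^ r = 1 → (∀ z : F, x.1 ≠ z • (1 : Matrix (Fin 4) (Fin 4) F)) →
      ∃ g ∈ Cfsg.GU 4 F p ⊓ Cfsg.Geo.specialLinear (Fin 4) F, g⁻¹ * x * g ∈ Subgroup.normalizer (R : Set (GL (Fin 4) F))) :
    r = 2 ∨ (r = 3 ∧ p % 3 = 1) ∨ (r = 5 ∧ orderOf (p : ZMod 5) = 4) := by
  classical
  by_contra hcon
  push Not at hcon
  obtain ⟨hr2, hr3, hr5⟩ := hcon
  have hodd : Odd r := hr.out.odd_of_ne_two hr2
  have hyr : ∀ y : GL (Fin 4) F, y ^ r = 1 → ∀ w ∈ R, y ^ r * w = w * y ^ r := by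
    intro y hy w _; rw [hy, one_mul, mul_one]
  by_cases h3 : r = 3
  · subst h3
    by_cases hp3 : p = 3
    · obtain ⟨x, hx, hxp, hfr, hxn⟩ := exists_transv_SU (n := 4) hF (p := p) (by norm_num)
      rw [hp3] at hxp
      obtain ⟨g, -, hg⟩ := hall x hx hxp hxn
      obtain ⟨c, hc⟩ := h.homology hodd (hyr _ (by rw [conj_pow_eq, hxp]; group)) hg (μ := 1) (by rw [finrank_conj']; omega)
      exact nonscalar_conj hxn c hc
    · have hp32 : p % 3 = 2 := by
        have h1 := hr3 rfl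
        have h2 : p % 3 ≠ 0 := by
          intro h
          exact hp3 ((Nat.prime_dvd_prime_iff_eq Nat.prime_three hp.out).1 (Nat.dvd_of_mod_eq_zero h)).symm
        omega
      obtain ⟨ω, hω3, hω1⟩ := Cfsg.Agent.Lib.ElusiveTool.exists_root_of_order_one (F := F) Nat.prime_three (by
        rw [orderOf_eq_one_iff, hF]
        have h1 : ((p ^ 2 : ℕ) : ZMod 3) = ((1 : ℕ) : ZMod 3) := by
          rw [ZMod.natCast_eq_natCast_iff', Nat.pow_mod, hp32]
        rw [h1]; simp)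
      have hω0 : ω ≠ 0 := by rintro rfl; norm_num at hω3
      have hωp : ω ^ (p + 1) = 1 := by
        obtain ⟨k, hk⟩ : 3 ∣ p + 1 := by omega
        rw [hk, pow_mul, hω3, one_pow]
      let u : Fin 4 → F := ![ω, ω, ω, 1]
      have hdet : (Matrix.diagonal u).det = 1 := by
        rw [Matrix.det_diagonal, Fin.prod_univ_four]
        show ω * ω * ω * 1 = 1
        linear_combination hω3
      let x : GL (Fin 4) F := Matrix.GeneralLinearGroup.mkOfDetNeZero (Matrix.diagonal u) (by rw [hdet]; exact one_ne_zero)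
      have hx1 : x.1 = Matrix.diagonal u := rfl
      have hxU : x ∈ Cfsg.GU 4 F p := by
        apply Cfsg.Agent.Lib.ClUnitary.mem_GU.2
        rw [hx1]
        apply Cfsg.Agent.Lib.ClUnitary.isUn_diagonal
        intro i
        fin_cases i
        · exact hωp
        · exact hωp
        · exact hωp
        · exact one_pow _
      have hx3 : x ^ 3 = 1 := by
        apply Units.ext
        rw [Units.val_pow_eq_pow_val, hx1, Matrix.diagonal_pow, Units.val_one, ← Matrix.diagonal_one]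
        congr 1
        funext i
        fin_cases i
        · exact hω3
        · exact hω3
        · exact hω3
        · exact one_pow 3
      have hxn : ∀ z : F, x.1 ≠ z • (1 : Matrix (Fin 4) (Fin 4) F) := by
        intro z hz
        rw [hx1] at hz
        have e0 := congrFun (congrFun hz 0) 0
        have e3 := congrFun (congrFun hz 3) 3
        simp [u] at e0 e3
        exact hω1 (e0.trans e3.symm)
      obtain ⟨g, -, hg⟩ := hall x ⟨hxU, mem_SL_iff.2 hdet⟩ hx3 hxn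
      have hfr : finrank F (Module.End.eigenspace (Matrix.toLin' (g⁻¹ * x * g).1) ω) = 3 := by
        rw [finrank_conj', hx1]
        have := Cfsg.Agent.Lib.ElusiveTool.finrank_E_diag u ω
        rw [show (Module.End.eigenspace (Matrix.toLin' (Matrix.diagonal u)) ω) = Cfsg.Agent.Lib.PrimeOrd.E (Matrix.toLin' (Matrix.diagonal u)) ω from rfl, this]
        rw [Finset.card_filter, Fin.sum_univ_four]
        simp [u, Ne.symm hω1]
      obtain ⟨c, hc⟩ := h.homology hodd (hyr _ (by rw [conj_pow_eq, hx3]; group)) hg hfr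
      exact nonscalar_conj hxn c hc
  · by_cases h5 : r = 5
    · subst h5
      have hp5 : p ≠ 5 := by rintro rfl; omega
      have h5F : (5 : F) ≠ 0 := by
        intro h
        have := (CharP.cast_eq_zero_iff F p 5).1 (by exact_mod_cast h)
        exact hp5 ((Nat.prime_dvd_prime_iff_eq hp.out (by norm_num)).1 this)
      obtain ⟨η₀, hη₀⟩ := exists_eta (F := ZMod p) (p := p) (by rintro rfl; omega) hp5 (hr5 rfl)
      set η : F := ZMod.castHom (dvd_refl p) F η₀ with hηd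
      have hη : η ^ 2 + η - 1 = 0 := by
        have := congrArg (ZMod.castHom (dvd_refl p) F) hη₀
        rw [map_sub, map_add, map_pow, map_one, map_zero] at this
        exact this
      have hηp : η ^ p = η := by rw [hηd, ← map_pow, ZMod.pow_card]
      obtain ⟨x, hx, hx5, hxn, ht, ht'⟩ := exists_five_neg hF h.char h5F hη hηp
      obtain ⟨g, -, hg⟩ := hall x hx hx5 hxn
      exact h5F (h.five_contra hg (by rw [conj_pow_eq, hx5]; group) (nonscalar_conj hxn) hη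
          (by rw [tr_conj, ht]) (by rw [inv_conj, tr_conj, ht']))
    · obtain ⟨x, hx, hxr, hxn⟩ := exists_order (m := 4) hdvd (fun x hx z hz => scalar_SL hx.2 hz) (by
        intro h
        have h1 : r ∣ 2 ^ 2 := h
        exact hr2 ((Nat.prime_dvd_prime_iff_eq hr.out Nat.prime_two).1 (hr.out.dvd_of_dvd_pow h1)))
      obtain ⟨g, -, hg⟩ := hall x hx hxr hxn
      rcases h.card_cases hodd (hyr _ (by rw [conj_pow_eq, hxr]; group)) hg (nonscalar_conj hxn) with ⟨-, h1⟩ | ⟨-, h1⟩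
      · omega
      · omega

/-- the case `r = 2` -/
theorem pos_two [hp : Fact p.Prime] [CharP F p] (hF : Fintype.card F = p ^ 2) (hp4 : p % 4 = 3)
    {R : Subgroup (GL (Fin 4) F)} (h : XR R) (hRU : R ≤ Cfsg.GU 4 F p) {i : F} (hi : i ^ 2 = -1) {I : GL (Fin 4) F} (hI : I ∈ R) (hIi : I.1 = i • (1 : Matrix (Fin 4) (Fin 4) F))
    {a b c d : GL (Fin 4) F} (hq : Quad R a b c d) {x : GL (Fin 4) F} (hx : x ∈ Cfsg.GU 4 F p ⊓ Cfsg.Geo.specialLinear (Fin 4) F) {z : F}
    (hz : x.1 ^ 2 = z • (1 : Matrix (Fin 4) (Fin 4) F)) (hxn : ∀ z : F, x.1 ≠ z • (1 : Matrix (Fin 4) (Fin 4) F)) :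
    ∃ g ∈ Cfsg.GU 4 F p ⊓ Cfsg.Geo.specialLinear (Fin 4) F, g⁻¹ * x * g ∈ Subgroup.normalizer (R : Set (GL (Fin 4) F)) := by
  have hp5 : 3 ≤ p := by have := hp.out.two_le; omega
  have h2 := h.char
  have hdx := mem_SL_iff.1 hx.2
  have hz4 : z ^ 4 = 1 := by
    have h1 := congrArg Matrix.det hz
    rw [Matrix.det_pow, hdx, one_pow, Matrix.det_smul, Matrix.det_one, mul_one, Fintype.card_fin] at h1
    exact h1.symm
  have hz0 : z ≠ 0 := by rintro rfl; norm_num at hz4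
  have hIc : ∀ w, I * w = w * I := by
    intro w
    apply Units.ext
    show I.1 * w.1 = w.1 * I.1
    rw [hIi]; simp
  have hII : I * I = -1 := by
    apply Units.ext
    show I.1 * I.1 = -1
    rw [hIi, Matrix.smul_mul, Matrix.mul_smul, smul_smul, ← pow_two, hi, Matrix.one_mul, neg_one_smul]
  have hneg : IsPrimitiveRoot (-1 : F) 2 := IsPrimitiveRoot.neg_one p (by rintro rfl; omega)
  have hchar : ringChar F ≠ 2 := by rw [ringChar.eq F p]; omega
  obtain ⟨t, ht⟩ : ∃ t : F, t ^ 2 = z := by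
    obtain ⟨t, ht⟩ : IsSquare z := by
      rw [FiniteField.isSquare_iff hchar hz0, hF]
      obtain ⟨k, hk⟩ : ∃ k, p ^ 2 / 2 = 4 * k := by
        obtain ⟨k, hk⟩ : ∃ k, p = 4 * k + 3 := ⟨p / 4, by omega⟩
        refine ⟨2 * k ^ 2 + 3 * k + 1, ?_⟩
        rw [hk]
        have : (4 * k + 3) ^ 2 = 2 * (4 * (2 * k ^ 2 + 3 * k + 1)) + 1 := by ring
        omega
      rw [hk, pow_mul, hz4, one_pow]
    exact ⟨t, by rw [ht, pow_two]⟩
  have ht0 : t ≠ 0 := by rintro rfl; rw [zero_pow (by norm_num)] at ht; exact hz0 ht.symm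
  obtain ⟨Q, e, hQ⟩ := exists_diag_mat (by exact_mod_cast h2) hneg ht0 (M := x.1) (by rw [hz, ht])
  -- the element with one eigenvalue
  have hIa2 : (I * a) * (I * a) = 1 := by
    have e1 : (I * a) * (I * a) = (I * I) * (a * a) := by
      rw [mul_assoc, ← mul_assoc a, ← hIc a, mul_assoc, mul_assoc]
    rw [e1, hII, hq.aa, neg_mul_neg, one_mul]
  have hcIa : c * (I * a) = (I * a) * c := by rw [← mul_assoc, ← hIc, mul_assoc, ← hq.ac, mul_assoc]
  obtain ⟨P, hP, hPP, hP1⟩ := h.exists_cz (x := c) (y := I * a) hq.hc (mul_mem hI hq.ha) hcIa hq.cc hIa2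
  have hPU : P ∈ Cfsg.GU 4 F p := gu_cz hF (hRU hq.hc) (hRU (mul_mem hI hq.ha)) hq.cc hIa2 hcIa hPP hP1
  have tc : c.1.trace = 0 := trace_of_anti h2 hq.cd
  have hIaB : (I * a) * b = -(b * (I * a)) := by
    rw [mul_assoc, hq.ab, mul_neg, ← mul_assoc, hIc b, mul_assoc]
  have tIa : (I * a).1.trace = 0 := trace_of_anti h2 hIaB
  have tcIa : (c * (I * a)).1.trace = 0 := by
    apply trace_of_anti h2 (y := b)
    rw [mul_assoc, hIaB, mul_neg, ← mul_assoc, ← hq.bc, mul_assoc]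
  have tP : P.1.trace = 2 := by
    rw [hP1, Matrix.trace_smul, Matrix.trace_sub, Matrix.trace_add, Matrix.trace_add, Matrix.trace_one, tc, tIa]
    have : (c.1 * (I * a).1).trace = 0 := tcIa
    rw [this, Fintype.card_fin, smul_eq_mul]
    push_cast
    have e22 : (2 : F)⁻¹ * 2 = 1 := inv_mul_cancel₀ h2
    linear_combination 2 * e22
  obtain ⟨QP, eP, hQP⟩ := exists_diag_mat (by exact_mod_cast h2) hneg one_ne_zero (M := P.1) (by
    rw [one_pow, one_smul, pow_two]; exact congrArg Units.val hPP)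
  obtain ⟨QC, eC, hQC⟩ := exists_diag_mat (by exact_mod_cast h2) hneg one_ne_zero (M := c.1) (by
    rw [one_pow, one_smul, pow_two]; exact congrArg Units.val hq.cc)
  have hx8 : x ^ 8 = 1 := by
    apply Units.ext
    rw [Units.val_pow_eq_pow_val, Units.val_one, show 8 = 2 * 4 by norm_num, pow_mul, hz, _root_.smul_pow, one_pow, hz4, one_smul]
  have hcop : Nat.Coprime 8 p := by
    have : Nat.Coprime 2 p := (Nat.coprime_primes Nat.prime_two hp.out).2 (by omega)
    exact Nat.Coprime.pow_left 3 this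
  have main : ∀ (y : GL (Fin 4) F) (Qy : GL (Fin 4) F) (ey : Fin 4 → Fin 2) (s : F), s ^ (p + 1) = 1 → y ∈ Subgroup.normalizer (R : Set (GL (Fin 4) F)) →
      y ∈ Cfsg.GU 4 F p →
      y.1 * Qy.1 = Qy.1 * Matrix.diagonal (fun j => (1 : F) * (-1) ^ (ey j).1) →
      (∃ π : Equiv.Perm (Fin 4), ∀ i, t * (-1) ^ (e (π i)).1 = s * (-1) ^ (ey i).1) →
      ∃ g ∈ Cfsg.GU 4 F p ⊓ Cfsg.Geo.specialLinear (Fin 4) F, g⁻¹ * x * g ∈ Subgroup.normalizer (R : Set (GL (Fin 4) F)) := by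
    intro y Qy ey s hs hy hyU hQy ⟨π, hπ⟩
    have hs0 : s ≠ 0 := by rintro rfl; rw [zero_pow (by omega)] at hs; exact zero_ne_one hs
    obtain ⟨y', hy'⟩ := exists_smul y hs0
    obtain ⟨g, -, hgy⟩ := conj_SL_of_diag (by norm_num) hQ (y := y') (Q := Qy) (w := fun j => s * (-1) ^ (ey j).1) (by
      rw [hy', Matrix.smul_mul, hQy, ← Matrix.mul_smul]
      congr 1
      rw [← Matrix.diagonal_smul]
      congr 1
      funext j
      simp) π hπ
    obtain ⟨k, hk, hky⟩ := conj_SU_of_conj hF p hx (smul_mem hF hyU hs hy') hgy hx8 hcop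
    exact ⟨k, hk, by rw [hky]; exact norm_smul hs0 hy' hy⟩
  by_cases h04 : (e 0).1 + (e 1).1 + (e 2).1 + (e 3).1 = 0 ∨ (e 0).1 + (e 1).1 + (e 2).1 + (e 3).1 = 4
  · exfalso
    apply hxn (t * (-1) ^ (e 0).1)
    apply scalar_of_diag (P := Q)
    rw [hQ]
    congr 2
    funext j
    rw [dec_const e h04 j]
  push Not at h04
  -- counts
  have castinj : ∀ a b : ℕ, ((a : ℕ) : F) = ((b : ℕ) : F) → a ≤ b → b < a + p → a = b := by
    intro a b hab h1 h2
    have h3 : ((b - a : ℕ) : F) = 0 := by rw [Nat.cast_sub h1, hab, sub_self]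
    have h4 := (CharP.cast_eq_zero_iff F p _).1 h3
    have h5 := Nat.eq_zero_of_dvd_of_lt h4 (by omega)
    omega
  have cC : (eC 0).1 + (eC 1).1 + (eC 2).1 + (eC 3).1 = 2 := by
    have h1 := trace_of_diag hQC
    rw [sum_e, tc, one_mul] at h1
    have h3 : ((2 : ℕ) : F) = (((eC 0).1 + (eC 1).1 + (eC 2).1 + (eC 3).1 : ℕ) : F) := by
      apply mul_left_cancel₀ h2
      push_cast at h1 ⊢
      linear_combination -h1
    rcases Nat.le_total 2 ((eC 0).1 + (eC 1).1 + (eC 2).1 + (eC 3).1) with h4 | h4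
    · exact (castinj _ _ h3 h4 (by omega)).symm
    · exact castinj _ _ h3.symm h4 (by omega)
  have hPn : ¬ ((eP 0).1 + (eP 1).1 + (eP 2).1 + (eP 3).1 = 0 ∨ (eP 0).1 + (eP 1).1 + (eP 2).1 + (eP 3).1 = 4) := by
    intro h04
    have hPs : P.1 = ((1 : F) * (-1) ^ (eP 0).1) • (1 : Matrix (Fin 4) (Fin 4) F) := by
      apply scalar_of_diag (P := QP)
      rw [hQP]
      congr 2
      funext j
      rw [dec_const eP h04 j]
    have e1 : P.1 * d.1 = d.1 * P.1 := by rw [hPs]; simp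
    have m1 : d.1 * c.1 = -(c.1 * d.1) := congrArg Units.val (anti_symm hq.cd)
    have m2 : d.1 * (I * a).1 = (I * a).1 * d.1 := by
      have : d * (I * a) = (I * a) * d := by rw [← mul_assoc, ← hIc, mul_assoc, ← hq.ad, mul_assoc]
      exact congrArg Units.val this
    rw [hP1, Matrix.smul_mul, Matrix.mul_smul] at e1
    have e2 : (1 + c.1 + (I * a).1 - c.1 * (I * a).1) * d.1 = d.1 * (1 + c.1 + (I * a).1 - c.1 * (I * a).1) := by
      have h3 : (2 : F)⁻¹ ≠ 0 := inv_ne_zero h2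
      exact smul_right_injective _ h3 e1
    have e3 : d.1 * (1 + c.1 + (I * a).1 - c.1 * (I * a).1) = (1 - c.1 + (I * a).1 + c.1 * (I * a).1) * d.1 := by
      have m3 : d.1 * (c.1 * (I * a).1) = -(c.1 * (I * a).1 * d.1) := by
        rw [← Matrix.mul_assoc, m1, Matrix.neg_mul, Matrix.mul_assoc, m2, ← Matrix.mul_assoc]
      rw [Matrix.mul_sub, Matrix.mul_add, Matrix.mul_add, m1, m2, m3, Matrix.add_mul, Matrix.add_mul, Matrix.sub_mul, Matrix.mul_one, Matrix.one_mul]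
      abel
    rw [e3] at e2
    have e4 : 1 + c.1 + (I * a).1 - c.1 * (I * a).1 = 1 - c.1 + (I * a).1 + c.1 * (I * a).1 := by
      have h3 : d.1 * (d⁻¹).1 = 1 := by rw [← Units.val_mul, mul_inv_cancel]; rfl
      have h4 := congrArg (fun M => M * (d⁻¹).1) e2
      simp only [Matrix.mul_assoc, h3, Matrix.mul_one] at h4
      exact h4
    have e5 : (2 : F) • c.1 = (2 : F) • (c.1 * (I * a).1) := by
      rw [two_smul, two_smul]
      have : c.1 + c.1 - (c.1 * (I * a).1 + c.1 * (I * a).1) = (1 + c.1 + (I * a).1 - c.1 * (I * a).1) - (1 - c.1 + (I * a).1 + c.1 * (I * a).1) := by abel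
      rw [e4, sub_self] at this
      exact sub_eq_zero.1 this
    have e6 : c.1 = c.1 * (I * a).1 := smul_right_injective _ h2 e5
    have e7 : c * 1 = c * (I * a) := by rw [mul_one]; exact Units.ext e6
    have e8 : (1 : GL (Fin 4) F) = I * a := mul_left_cancel e7
    apply nonscalar_of_anti h2 hIaB 1
    rw [← e8, one_smul]; rfl
  push Not at hPn
  have cP : (eP 0).1 + (eP 1).1 + (eP 2).1 + (eP 3).1 = 1 := by
    have h1 := trace_of_diag hQP
    rw [sum_e, tP, one_mul] at h1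
    have h3 : ((1 : ℕ) : F) = (((eP 0).1 + (eP 1).1 + (eP 2).1 + (eP 3).1 : ℕ) : F) := by
      apply mul_left_cancel₀ h2
      push_cast at h1 ⊢
      linear_combination -h1
    exact (castinj _ _ h3 (by omega) (by omega)).symm
  have htr := trace_of_diag hQ
  rw [sum_e] at htr
  have hinv : (x⁻¹).1 = z⁻¹ • x.1 := by
    have h1 : x.1 * (z⁻¹ • x.1) = 1 := by
      rw [Matrix.mul_smul, ← pow_two, hz, smul_smul, inv_mul_cancel₀ hz0, one_smul]
    have h3 : (x⁻¹).1 * x.1 = 1 := by rw [← Units.val_mul, inv_mul_cancel]; rfl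
    calc (x⁻¹).1 = (x⁻¹).1 * (x.1 * (z⁻¹ • x.1)) := by rw [h1, Matrix.mul_one]
      _ = _ := by rw [← Matrix.mul_assoc, h3, Matrix.one_mul]
  have hti := trace_inv hF hx.1
  rw [hinv, Matrix.trace_smul, smul_eq_mul] at hti
  have nrm : ∀ ε : F, ε ^ p = ε → ε ≠ 0 → x.1.trace = t * ε → t ^ (p + 1) = 1 := by
    intro ε hε hε0 h1
    rw [h1, mul_pow, hε, ← ht] at hti
    have h3 : (t ^ 2)⁻¹ * t = t ^ p := by
      apply mul_right_cancel₀ hε0
      rw [mul_assoc]; exact hti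
    rw [pow_succ, ← h3]
    field_simp
  have h2p : (2 : F) ^ p = 2 := by
    have h3 : frob hF (2 : F) = 2 := map_ofNat _ 2
    exact h3
  have hcases : (e 0).1 + (e 1).1 + (e 2).1 + (e 3).1 = 1 ∨ (e 0).1 + (e 1).1 + (e 2).1 + (e 3).1 = 2 ∨ (e 0).1 + (e 1).1 + (e 2).1 + (e 3).1 = 3 := by omega
  rcases hcases with h1 | h1 | h1
  · obtain ⟨π, hπ⟩ := dec_same e eP (by rw [h1, cP])
    exact main P QP eP t (nrm 2 h2p h2 (by rw [htr, h1]; push_cast; ring)) hP hPU hQP ⟨π, fun i => by rw [hπ]⟩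
  · obtain ⟨π, hπ⟩ := dec_same e eC (by rw [h1, cC])
    have hdet := det_of_diag hQ
    rw [hdx, Fin.prod_univ_four] at hdet
    have ht4 : t ^ 4 = 1 := by
      have h3 : (-1 : F) ^ ((e 0).1 + (e 1).1 + (e 2).1 + (e 3).1) = 1 := by rw [h1]; norm_num
      rw [pow_add, pow_add, pow_add] at h3
      linear_combination -hdet - t ^ 4 * h3
    have htn : t ^ (p + 1) = 1 := by
      obtain ⟨k, hk⟩ : 4 ∣ p + 1 := by omega
      rw [hk, pow_mul, ht4, one_pow]
    exact main c QC eC t htn (Subgroup.le_normalizer hq.hc) (hRU hq.hc) hQC ⟨π, fun i => by rw [hπ]⟩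
  · obtain ⟨π, hπ⟩ := dec_opp e eP (by rw [h1, cP])
    have htn := nrm (-2) (by rw [Cfsg.Agent.Lib.HermMat.neg_pow_q hF, h2p]) (neg_ne_zero.2 h2) (by rw [htr, h1]; push_cast; ring)
    refine main P QP eP (-t) ?_ hP hPU hQP ⟨π, fun i => ?_⟩
    · rw [Even.neg_pow (by rw [Nat.even_iff]; omega), htn]
    · rw [hπ]
      have : ∀ k : Fin 2, (-1 : F) ^ (1 + k).1 = -(-1) ^ k.1 := by
        intro k; fin_cases k <;> simp
      rw [this]; ring

def cnt (k : Fin 3) (e : Fin 4 → Fin 3) : ℕ := (if e 0 = k then 1 else 0) + (if e 1 = k then 1 else 0) + (if e 2 = k then 1 else 0) + (if e 3 = k then 1 else 0)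

theorem dec3_one : ∀ e : Fin 4 → Fin 3, cnt 1 e = 1 → cnt 2 e = 1 → ∃ π : Equiv.Perm (Fin 4), ∀ i, e (π i) = (![0, 0, 1, 2] : Fin 4 → Fin 3) i := by decide +kernel

theorem dec3_two : ∀ e : Fin 4 → Fin 3, cnt 1 e = 2 → cnt 2 e = 2 → ∃ π : Equiv.Perm (Fin 4), ∀ i, e (π i) = (![1, 1, 2, 2] : Fin 4 → Fin 3) i := by decide +kernel

theorem dec3_bd : ∀ e : Fin 4 → Fin 3, cnt 1 e + cnt 2 e ≤ 4 := by decide +kernel

theorem dec3_zero : ∀ e : Fin 4 → Fin 3, cnt 1 e = 0 → cnt 2 e = 0 → ∀ i, e i = 0 := by decide +kernel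

/-- elements of order three -/
theorem three_type [hp : Fact p.Prime] [CharP F p] (hF : Fintype.card F = p ^ 2) (hp3 : p % 3 = 1) {ω : F} (hω : IsPrimitiveRoot ω 3) (hωp : ω ^ p = ω)
    {u : GL (Fin 4) F} (hu : u ∈ Cfsg.GU 4 F p) (hu3 : u.1 ^ 3 = 1) :
    ∃ (P : GL (Fin 4) F) (e : Fin 4 → Fin 3), u.1 * P.1 = P.1 * Matrix.diagonal (fun j => (1 : F) * ω ^ (e j).1) ∧ cnt 1 e = cnt 2 e ∧
      u.1.trace = 4 - 3 * (cnt 1 e : F) := by
  have hp7 : 5 ≤ p := by
    have := hp.out.two_le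
    have : p ≠ 4 := by rintro rfl; exact absurd hp.out (by norm_num)
    omega
  have h3 : (3 : F) ≠ 0 := by
    intro h
    have := (CharP.cast_eq_zero_iff F p 3).1 (by exact_mod_cast h)
    have := (Nat.prime_dvd_prime_iff_eq hp.out Nat.prime_three).1 this
    omega
  have hω3 : ω ^ 3 = 1 := hω.pow_eq_one
  have hω1 : ω ≠ 1 := hω.ne_one (by norm_num)
  have hωq : ω ^ 2 + ω + 1 = 0 := by
    have : (ω - 1) * (ω ^ 2 + ω + 1) = 0 := by linear_combination hω3
    exact (mul_eq_zero.1 this).resolve_left (sub_ne_zero.2 hω1)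
  have hω2 : ω ^ 2 ≠ ω := by
    intro h
    apply hω1
    have h0 : ω ≠ 0 := by rintro rfl; norm_num at hω3
    have : ω * (ω - 1) = 0 := by linear_combination h
    exact sub_eq_zero.1 ((mul_eq_zero.1 this).resolve_left h0)
  obtain ⟨P, e, hP⟩ := exists_diag_mat (by exact_mod_cast h3) hω one_ne_zero (M := u.1) (by rw [hu3, one_pow, one_smul])
  have hval : ∀ k : Fin 3, (1 : F) * ω ^ k.1 = 1 + (if k = 1 then 1 else 0 : ℕ) * (ω - 1) + (if k = 2 then 1 else 0 : ℕ) * (ω ^ 2 - 1) := by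
    intro k; fin_cases k <;> simp
  have hval2 : ∀ k : Fin 3, ((1 : F) * ω ^ k.1) * ((1 : F) * ω ^ k.1) = 1 + (if k = 1 then 1 else 0 : ℕ) * (ω ^ 2 - 1) + (if k = 2 then 1 else 0 : ℕ) * (ω - 1) := by
    intro k; fin_cases k <;> simp
    · ring
    · linear_combination ω * hω3
  have htr := trace_of_diag hP
  rw [Fin.sum_univ_four, hval, hval, hval, hval] at htr
  have hP2 : (u.1 * u.1) * P.1 = P.1 * Matrix.diagonal (fun j => ((1 : F) * ω ^ (e j).1) * ((1 : F) * ω ^ (e j).1)) := by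
    rw [Matrix.mul_assoc, hP, ← Matrix.mul_assoc, hP, Matrix.mul_assoc, Matrix.diagonal_mul_diagonal]
  have htr2 := trace_of_diag hP2
  rw [Fin.sum_univ_four, hval2, hval2, hval2, hval2] at htr2
  have hinv : (u⁻¹).1 = u.1 * u.1 := by
    have h1 : u.1 * (u.1 * u.1) = 1 := by rw [← hu3]; simp only [pow_succ, pow_zero, Matrix.one_mul, Matrix.mul_assoc]
    have h3 : (u⁻¹).1 * u.1 = 1 := by rw [← Units.val_mul, inv_mul_cancel]; rfl
    calc (u⁻¹).1 = (u⁻¹).1 * (u.1 * (u.1 * u.1)) := by rw [h1, Matrix.mul_one]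
      _ = _ := by rw [← Matrix.mul_assoc, h3, Matrix.one_mul]
  have hti := trace_inv hF hu
  have hc1 : ((cnt 1 e : ℕ) : F) = (if e 0 = 1 then 1 else 0 : ℕ) + (if e 1 = 1 then 1 else 0 : ℕ) + (if e 2 = 1 then 1 else 0 : ℕ) + (if e 3 = 1 then 1 else 0 : ℕ) := by
    rw [cnt]; push_cast; rfl
  have hc2 : ((cnt 2 e : ℕ) : F) = (if e 0 = 2 then 1 else 0 : ℕ) + (if e 1 = 2 then 1 else 0 : ℕ) + (if e 2 = 2 then 1 else 0 : ℕ) + (if e 3 = 2 then 1 else 0 : ℕ) := by
    rw [cnt]; push_cast; rfl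
  have t1 : u.1.trace = 4 + (cnt 1 e : F) * (ω - 1) + (cnt 2 e : F) * (ω ^ 2 - 1) := by
    rw [htr, hc1, hc2]; ring
  have t2 : (u.1 * u.1).trace = 4 + (cnt 1 e : F) * (ω ^ 2 - 1) + (cnt 2 e : F) * (ω - 1) := by
    rw [htr2, hc1, hc2]; ring
  have t3 : u.1.trace ^ p = u.1.trace := by
    have h4 : frob hF u.1.trace = u.1.trace := by
      have h5 : frob hF ω = ω := hωp
      rw [t1, map_add, map_add, map_mul, map_mul, map_sub, map_sub, map_one, map_pow, h5, map_natCast, map_natCast, map_ofNat]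
    exact h4
  rw [hinv, t3, t1, t2] at hti
  have h6 : ((cnt 1 e : F) - (cnt 2 e : F)) * (ω ^ 2 - ω) = 0 := by linear_combination hti
  have h7 : (cnt 1 e : F) = (cnt 2 e : F) := sub_eq_zero.1 ((mul_eq_zero.1 h6).resolve_right (sub_ne_zero.2 hω2))
  have hbd := dec3_bd e
  have h8 : cnt 1 e = cnt 2 e := CharP.natCast_injOn_Iio F p (show cnt 1 e ∈ Set.Iio p by simp; omega) (show cnt 2 e ∈ Set.Iio p by simp; omega) h7
  refine ⟨P, e, hP, h8, ?_⟩
  rw [t1, ← h7]
  linear_combination (cnt 1 e : F) * hωq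

/-- the case `r = 3` -/
theorem pos_three [hp : Fact p.Prime] [CharP F p] (hF : Fintype.card F = p ^ 2) (hp4 : p % 4 = 3) (hp3 : p % 3 = 1)
    {R : Subgroup (GL (Fin 4) F)} (h : XR R) (hRU : R ≤ Cfsg.GU 4 F p)
    {a b c d : GL (Fin 4) F} (ha : a ∈ R) (hb : b ∈ R) (hc : c ∈ R) (hd : d ∈ R) (hab : a * b = -(b * a)) (hcd : c * d = -(d * c))
    (hac : a * c = c * a) (had : a * d = d * a) (hbc : b * c = c * b) (hbd : b * d = d * b) (haa : a * a = -1) (hbb : b * b = -1)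
    (hcc : c * c = -1) (hdd : d * d = -1)
    {x : GL (Fin 4) F} (hx : x ∈ Cfsg.GU 4 F p ⊓ Cfsg.Geo.specialLinear (Fin 4) F) {z : F}
    (hz : x.1 ^ 3 = z • (1 : Matrix (Fin 4) (Fin 4) F)) (hxn : ∀ z : F, x.1 ≠ z • (1 : Matrix (Fin 4) (Fin 4) F)) :
    ∃ g ∈ Cfsg.GU 4 F p ⊓ Cfsg.Geo.specialLinear (Fin 4) F, g⁻¹ * x * g ∈ Subgroup.normalizer (R : Set (GL (Fin 4) F)) := by
  have hp7 : 5 ≤ p := by
    have := hp.out.two_le
    omega
  have h2 := h.char
  have h3 : (3 : F) ≠ 0 := by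
    intro h
    have := (CharP.cast_eq_zero_iff F p 3).1 (by exact_mod_cast h)
    have := (Nat.prime_dvd_prime_iff_eq hp.out Nat.prime_three).1 this
    omega
  have hdx := mem_SL_iff.1 hx.2
  have hz4 : z ^ 4 = 1 := by
    have h1 := congrArg Matrix.det hz
    rw [Matrix.det_pow, hdx, one_pow, Matrix.det_smul, Matrix.det_one, mul_one, Fintype.card_fin] at h1
    exact h1.symm
  have hz0 : z ≠ 0 := by rintro rfl; norm_num at hz4
  set t := z ^ 3 with htd
  have ht3 : t ^ 3 = z := by rw [htd]; linear_combination (z ^ 5 + z) * hz4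
  have ht4 : t ^ 4 = 1 := by rw [htd, ← pow_mul, mul_comm, pow_mul, hz4, one_pow]
  have ht0 : t ≠ 0 := pow_ne_zero _ hz0
  have htn : t ^ (p + 1) = 1 := by
    obtain ⟨k, hk⟩ : 4 ∣ p + 1 := by omega
    rw [hk, pow_mul, ht4, one_pow]
  obtain ⟨ω₀, hω3, hω1⟩ := Cfsg.Agent.Lib.ElusiveTool.exists_root_of_order_one (F := ZMod p) Nat.prime_three (by
    rw [orderOf_eq_one_iff, ZMod.card]
    have h1 : ((p : ℕ) : ZMod 3) = ((1 : ℕ) : ZMod 3) := by
      rw [ZMod.natCast_eq_natCast_iff', hp3]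
    rw [h1]; simp)
  set ω : F := ZMod.castHom (dvd_refl p) F ω₀ with hωd
  have hωp : ω ^ p = ω := by rw [hωd, ← map_pow, ZMod.pow_card]
  have hωr : IsPrimitiveRoot ω 3 := by
    haveI : Fact (Nat.Prime 3) := ⟨Nat.prime_three⟩
    rw [IsPrimitiveRoot.iff_orderOf]
    refine orderOf_eq_prime (by rw [hωd, ← map_pow, hω3, map_one]) ?_
    intro h
    apply hω1
    apply (ZMod.castHom (dvd_refl p) F).injective
    rw [map_one]; exact h
  obtain ⟨x', hx'⟩ := exists_smul x (inv_ne_zero ht0)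
  have hx'U : x' ∈ Cfsg.GU 4 F p := smul_mem hF hx.1 (by rw [inv_pow, htn, inv_one]) hx'
  have hx'3 : x'.1 ^ 3 = 1 := by
    rw [hx', _root_.smul_pow, hz, smul_smul, inv_pow, ht3, inv_mul_cancel₀ hz0, one_smul]
  obtain ⟨Px, ex, hPx, hcx, -⟩ := three_type hF hp3 hωr hωp hx'U hx'3
  have hxd : x.1 * Px.1 = Px.1 * Matrix.diagonal (fun j => t * ((1 : F) * ω ^ (ex j).1)) := by
    have h1 : x.1 = t • x'.1 := by rw [hx', smul_smul, mul_inv_cancel₀ ht0, one_smul]
    rw [h1, Matrix.smul_mul, hPx, ← Matrix.mul_smul, ← Matrix.diagonal_smul]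
    rfl
  obtain ⟨P, hP, hP1, hPq, hPc⟩ := h.exists_three ha hb hab haa hbb
  obtain ⟨Q, hQ, hQ1, hQq, hQc⟩ := h.exists_three hc hd hcd hcc hdd
  have hPU := gu_three hF (hRU ha) (hRU hb) haa hbb hab h2 hPq hP1
  have hQU := gu_three hF (hRU hc) (hRU hd) hcc hdd hcd h2 hQq hQ1
  have cube : ∀ S : GL (Fin 4) F, S.1 * S.1 + S.1 + 1 = 0 → S ^ 3 = 1 := by
    intro S hS
    apply Units.ext
    rw [Units.val_pow_eq_pow_val, Units.val_one]
    have e1 : S.1 * (S.1 * S.1 + S.1 + 1) = 0 := by rw [hS, Matrix.mul_zero]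
    rw [Matrix.mul_add, Matrix.mul_add, Matrix.mul_one] at e1
    have e2 : S.1 ^ 3 = S.1 * (S.1 * S.1) := by simp only [pow_succ, pow_zero, Matrix.one_mul, Matrix.mul_assoc]
    rw [e2]
    have e3 : S.1 * (S.1 * S.1) - 1 = (S.1 * (S.1 * S.1) + S.1 * S.1 + S.1) - (S.1 * S.1 + S.1 + 1) := by abel
    rw [e1, hS, sub_zero] at e3
    exact sub_eq_zero.1 e3
  have hP3 := cube P hPq
  have hQ3 := cube Q hQq
  have hPC : P * c = c * P := hPc c hac hbc
  have hPD : P * d = d * P := hPc d had hbd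
  have hQP : Q * P = P * Q := hQc P hPC.symm hPD.symm
  have hPQ3 : (P * Q) ^ 3 = 1 := by
    have e1 : (P * Q) ^ 3 = P ^ 3 * Q ^ 3 := (show Commute P Q from hQP.symm).mul_pow 3
    rw [e1, hP3, hQ3, one_mul]
  have ta : a.1.trace = 0 := trace_of_anti h2 hab
  have tb : b.1.trace = 0 := trace_of_anti h2 (anti_symm hab)
  have habB : (a * b) * b = -(b * (a * b)) := by rw [← mul_assoc b, anti_symm hab, neg_mul, neg_neg]
  have tab : (a * b).1.trace = 0 := trace_of_anti h2 habB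
  have tP : P.1.trace = -2 := by
    rw [hP1, Matrix.trace_smul, Matrix.trace_add, Matrix.trace_add, Matrix.trace_add, Matrix.trace_one, ta, tb]
    have : (a.1 * b.1).trace = 0 := tab
    rw [this, Fintype.card_fin, smul_eq_mul]
    push_cast
    have e22 : (2 : F)⁻¹ * 2 = 1 := inv_mul_cancel₀ h2
    linear_combination (-2) * e22
  have tz : ∀ w k v : GL (Fin 4) F, w * k = -(k * w) → v * k = k * v → (w.1 * v.1).trace = 0 := by
    intro w k v h1 h4
    have h5 : (w * v) * k = -(k * (w * v)) := by rw [mul_assoc, h4, ← mul_assoc, h1, neg_mul, mul_assoc]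
    exact trace_of_anti h2 h5
  have tc : c.1.trace = 0 := trace_of_anti h2 hcd
  have td : d.1.trace = 0 := trace_of_anti h2 (anti_symm hcd)
  have hcdD : (c * d) * d = -(d * (c * d)) := by rw [← mul_assoc d, anti_symm hcd, neg_mul, neg_neg]
  have tcd : (c.1 * d.1).trace = 0 := trace_of_anti h2 hcdD
  have tab' : (a.1 * b.1).trace = 0 := tab
  have hcb : (c * d) * b = b * (c * d) := by rw [mul_assoc, ← hbd, ← mul_assoc, ← hbc, mul_assoc]
  have hca : (c * d) * a = a * (c * d) := by rw [mul_assoc, ← had, ← mul_assoc, ← hac, mul_assoc]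
  have tPQ : (P * Q).1.trace = 1 := by
    rw [Units.val_mul, hP1, hQ1, Matrix.smul_mul, Matrix.mul_smul, smul_smul, Matrix.trace_smul]
    have e1 : ((1 + a.1 + b.1 + a.1 * b.1) * (1 + c.1 + d.1 + c.1 * d.1)).trace = 4 := by
      have x1 := tz a b c hab hbc.symm
      have x2 := tz a b d hab hbd.symm
      have x3 : (a.1 * (c.1 * d.1)).trace = 0 := tz a b (c * d) hab hcb
      have x4 := tz b a c (anti_symm hab) hac.symm
      have x5 := tz b a d (anti_symm hab) had.symm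
      have x6 : (b.1 * (c.1 * d.1)).trace = 0 := tz b a (c * d) (anti_symm hab) hca
      have x7 : (a.1 * b.1 * c.1).trace = 0 := tz (a * b) b c habB hbc.symm
      have x8 : (a.1 * b.1 * d.1).trace = 0 := tz (a * b) b d habB hbd.symm
      have x9 : (a.1 * b.1 * (c.1 * d.1)).trace = 0 := tz (a * b) b (c * d) habB hcb
      rw [Matrix.add_mul, Matrix.add_mul, Matrix.add_mul, Matrix.mul_add, Matrix.mul_add, Matrix.mul_add, Matrix.mul_add, Matrix.mul_add, Matrix.mul_add,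
        Matrix.mul_add, Matrix.mul_add, Matrix.mul_add, Matrix.mul_add, Matrix.mul_add, Matrix.mul_add]
      simp only [Matrix.trace_add, Matrix.mul_one, Matrix.one_mul, x1, x2, x3, x4, x5, x6, x7, x8, x9, ta, tb, tab', tc, td, tcd, Matrix.trace_one, Fintype.card_fin]
      norm_num
    rw [e1, smul_eq_mul]
    have e22 : (2 : F)⁻¹ * 2 = 1 := inv_mul_cancel₀ h2
    linear_combination ((2 : F)⁻¹ * 2 + 1) * e22
  have castinj : ∀ a b : ℕ, a ≤ 4 → b ≤ 4 → ((a : ℕ) : F) = ((b : ℕ) : F) → a = b := by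
    intro a b h1 h4 hab
    exact CharP.natCast_injOn_Iio F p (show a ∈ Set.Iio p by simp; omega) (show b ∈ Set.Iio p by simp; omega) hab
  have hx12 : x ^ 12 = 1 := by
    apply Units.ext
    rw [Units.val_pow_eq_pow_val, Units.val_one, show 12 = 3 * 4 by norm_num, pow_mul, hz, _root_.smul_pow, one_pow, hz4, one_smul]
  have hcop : Nat.Coprime 12 p := by
    have e1 : Nat.Coprime 2 p := (Nat.coprime_primes Nat.prime_two hp.out).2 (by omega)
    have e3 : Nat.Coprime 3 p := (Nat.coprime_primes Nat.prime_three hp.out).2 (by omega)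
    exact Nat.Coprime.mul_left e3 (Nat.Coprime.pow_left 2 e1)
  have main : ∀ (y : GL (Fin 4) F) (Qy : GL (Fin 4) F) (ey std : Fin 4 → Fin 3), y ∈ Subgroup.normalizer (R : Set (GL (Fin 4) F)) →
      y ∈ Cfsg.GU 4 F p →
      y.1 * Qy.1 = Qy.1 * Matrix.diagonal (fun j => (1 : F) * ω ^ (ey j).1) →
      (∃ π : Equiv.Perm (Fin 4), ∀ i, ex (π i) = std i) → (∃ π : Equiv.Perm (Fin 4), ∀ i, ey (π i) = std i) →
      ∃ g ∈ Cfsg.GU 4 F p ⊓ Cfsg.Geo.specialLinear (Fin 4) F, g⁻¹ * x * g ∈ Subgroup.normalizer (R : Set (GL (Fin 4) F)) := by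
    intro y Qy ey std hy hyU hQy ⟨π1, hπ1⟩ ⟨π2, hπ2⟩
    obtain ⟨y', hy'⟩ := exists_smul y ht0
    obtain ⟨g, -, hgy⟩ := conj_SL_of_diag (by norm_num) hxd (y := y') (Q := Qy) (w := fun j => t * ((1 : F) * ω ^ (ey j).1)) (by
      rw [hy', Matrix.smul_mul, hQy, ← Matrix.mul_smul, ← Matrix.diagonal_smul]
      rfl) (π1 * π2⁻¹) (by
      intro i
      show t * (1 * ω ^ (ex (π1 (π2⁻¹ i))).1) = t * (1 * ω ^ (ey i).1)
      have h9 : π2 (π2⁻¹ i) = i := Equiv.apply_symm_apply π2 i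
      rw [hπ1, ← hπ2, h9])
    obtain ⟨k, hk, hky⟩ := conj_SU_of_conj hF p hx (smul_mem hF hyU htn hy') hgy hx12 hcop
    exact ⟨k, hk, by rw [hky]; exact norm_smul ht0 hy' hy⟩
  have hbd := dec3_bd ex
  have hk3 : cnt 1 ex = 0 ∨ cnt 1 ex = 1 ∨ cnt 1 ex = 2 := by omega
  rcases hk3 with hk | hk | hk
  · exfalso
    apply hxn t
    have h0 := dec3_zero ex hk (by omega)
    apply scalar_of_diag (P := Px)
    rw [hxd]
    congr 2
    funext j
    rw [h0 j]; simp
  · obtain ⟨Py, ey, hPy, hcy, hty⟩ := three_type hF hp3 hωr hωp (mul_mem hPU hQU) (by rw [← Units.val_pow_eq_pow_val, hPQ3]; rfl)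
    have hk2 : cnt 1 ey = 1 := by
      have hbd2 := dec3_bd ey
      apply castinj _ _ (by omega) (by omega)
      rw [tPQ] at hty
      apply mul_left_cancel₀ h3
      push_cast
      linear_combination hty
    exact main (P * Q) Py ey _ (mul_mem hP hQ) (mul_mem hPU hQU) hPy (dec3_one ex hk (by omega)) (dec3_one ey hk2 (by omega))
  · obtain ⟨Py, ey, hPy, hcy, hty⟩ := three_type hF hp3 hωr hωp hPU (by rw [← Units.val_pow_eq_pow_val, hP3]; rfl)
    have hk2 : cnt 1 ey = 2 := by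
      have hbd2 := dec3_bd ey
      apply castinj _ _ (by omega) (by omega)
      rw [tP] at hty
      apply mul_left_cancel₀ h3
      push_cast
      linear_combination hty
    exact main P Py ey _ hP hPU hPy (dec3_two ex hk (by omega)) (dec3_two ey hk2 (by omega))

/-- the case `r = 5` -/
theorem pos_five [hp : Fact p.Prime] [CharP F p] (hF : Fintype.card F = p ^ 2) (hp4 : p % 4 = 3) (hp5 : orderOf (p : ZMod 5) = 4)
    {R : Subgroup (GL (Fin 4) F)} (h : XR R) (hRU : R ≤ Cfsg.GU 4 F p) {a b c d : GL (Fin 4) F} (hq : Quad R a b c d)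
    {x : GL (Fin 4) F} (hx : x ∈ Cfsg.GU 4 F p ⊓ Cfsg.Geo.specialLinear (Fin 4) F) {z : F}
    (hz : x.1 ^ 5 = z • (1 : Matrix (Fin 4) (Fin 4) F)) (hxn : ∀ z : F, x.1 ≠ z • (1 : Matrix (Fin 4) (Fin 4) F)) :
    ∃ g ∈ Cfsg.GU 4 F p ⊓ Cfsg.Geo.specialLinear (Fin 4) F, g⁻¹ * x * g ∈ Subgroup.normalizer (R : Set (GL (Fin 4) F)) := by
  have hp2 : p ≠ 2 := by rintro rfl; omega
  have h2 := h.char
  have h4 : (4 : F) ≠ 0 := by
    have : (4 : F) = 2 ^ 2 := by norm_num
    rw [this]; exact pow_ne_zero _ h2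
  have hdx := mem_SL_iff.1 hx.2
  have hz4 : z ^ 4 = 1 := by
    have h1 := congrArg Matrix.det hz
    rw [Matrix.det_pow, hdx, one_pow, Matrix.det_smul, Matrix.det_one, mul_one, Fintype.card_fin] at h1
    exact h1.symm
  have hz0 : z ≠ 0 := by rintro rfl; norm_num at hz4
  have hzn : z ^ (p + 1) = 1 := by
    obtain ⟨k, hk⟩ : 4 ∣ p + 1 := by omega
    rw [hk, pow_mul, hz4, one_pow]
  obtain ⟨s, hs, hsp⟩ := exists_sqrt5 hF hp2 hp5
  -- the element x'
  obtain ⟨x', hx'⟩ := exists_smul x (inv_ne_zero hz0)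
  have hx'U : x' ∈ Cfsg.GU 4 F p := smul_mem hF hx.1 (by rw [inv_pow, hzn, inv_one]) hx'
  have hx'5 : x' ^ 5 = 1 := by
    apply Units.ext
    rw [Units.val_pow_eq_pow_val, hx', _root_.smul_pow, hz, smul_smul]
    have : z⁻¹ ^ 5 * z = 1 := by
      have : z⁻¹ ^ 5 * z = (z ^ 4)⁻¹ := by field_simp
      rw [this, hz4, inv_one]
    rw [this, one_smul]; rfl
  have hx'1 : x' ≠ 1 := by
    intro e
    apply hxn z
    have h1 : x.1 = z • x'.1 := by rw [hx', smul_smul, mul_inv_cancel₀ hz0, one_smul]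
    rw [h1, e]; rfl
  -- the element y
  obtain ⟨P, Q, S, T, hP, hQ, hS, hT, hy, ⟨w, hw⟩, hyn⟩ := h.exists_five hq rfl
  have hC := hq.cliff
  set e : Fin 5 → GL (Fin 4) F := ![c, d, (c * d) * a, (c * d) * b, (c * d) * (a * b)] with he
  set y := P * Q * S * T with hyd
  rw [Units.val_pow_eq_pow_val] at hw
  have sim := fun i j (hij : i ≠ j) (K : GL (Fin 4) F) (hK : K.1 = (e i).1 - (e j).1) =>
    gu_refl hF (hRU (hC.mem i)) (hRU (hC.mem j)) (hC.sq i) (hC.sq j) (hC.anti i j hij) hK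
  have sP := sim 0 1 (by decide) P hP
  have sQ := sim 1 2 (by decide) Q hQ
  have sS := sim 2 3 (by decide) S hS
  have sT := sim 3 4 (by decide) T hT
  have hyy : st (frob hF) y.1 * y.1 = (16 : F) • (1 : Matrix (Fin 4) (Fin 4) F) := by
    rw [hyd, Units.val_mul, Units.val_mul, Units.val_mul, Cfsg.Agent.Lib.UnitStar.st_mul, Cfsg.Agent.Lib.UnitStar.st_mul, Cfsg.Agent.Lib.UnitStar.st_mul]
    calc st (frob hF) T.1 * (st (frob hF) S.1 * (st (frob hF) Q.1 * st (frob hF) P.1)) * (P.1 * Q.1 * S.1 * T.1)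
        = st (frob hF) T.1 * (st (frob hF) S.1 * (st (frob hF) Q.1 * (st (frob hF) P.1 * P.1) * Q.1) * S.1) * T.1 := by simp only [Matrix.mul_assoc]
      _ = _ := by
        rw [sP, Matrix.mul_smul, Matrix.mul_one, Matrix.smul_mul, sQ, smul_smul, Matrix.mul_smul, Matrix.mul_one, Matrix.smul_mul, sS, smul_smul,
          Matrix.mul_smul, Matrix.mul_one, Matrix.smul_mul, sT, smul_smul]
        norm_num
  obtain ⟨y', hy'⟩ := exists_smul y (inv_ne_zero h4)
  have hy'U : y' ∈ Cfsg.GU 4 F p := by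
    rw [mem_GU hF, hy', st_smul, Matrix.smul_mul, Matrix.mul_smul, hyy, smul_smul, smul_smul]
    have h6 : ((4 : F)⁻¹) ^ p = (4 : F)⁻¹ := by
      have h3 : frob hF ((4 : F)⁻¹) = (4 : F)⁻¹ := by rw [map_inv₀, map_ofNat]
      exact h3
    rw [h6]
    have e44 : (4 : F)⁻¹ * 4 = 1 := inv_mul_cancel₀ h4
    have : (4 : F)⁻¹ * (4 : F)⁻¹ * 16 = 1 := by linear_combination ((4 : F)⁻¹ * 4 + 1) * e44
    rw [this, one_smul]
  have hy'5 : (y' ^ 5).1 = ((4 : F)⁻¹ ^ 5 * w) • (1 : Matrix (Fin 4) (Fin 4) F) := by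
    rw [Units.val_pow_eq_pow_val, hy', _root_.smul_pow, hw, smul_smul]
  set w' := (4 : F)⁻¹ ^ 5 * w with hw'
  have hw'n : w' ^ (p + 1) = 1 := scalar_norm hF (by norm_num) (pow_mem hy'U 5) hy'5
  have hw'0 : w' ≠ 0 := by rintro h0; rw [h0, zero_pow (by omega)] at hw'n; exact zero_ne_one hw'n
  obtain ⟨m, hm⟩ : ∃ m : ℕ, w' ^ (5 * m) = w' := by
    have hc5 : Nat.Coprime 5 (p + 1) := by
      rw [Nat.Prime.coprime_iff_not_dvd (by norm_num)]
      intro h5
      have h6 : ((p + 1 : ℕ) : ZMod 5) = 0 := (ZMod.natCast_eq_zero_iff _ _).2 h5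
      obtain ⟨-, h7⟩ := ord_four hp5
      apply h7
      have h8 : (p : ZMod 5) = -1 := by
        have : (p : ZMod 5) + 1 = 0 := by exact_mod_cast h6
        exact eq_neg_of_add_eq_zero_left this
      rw [h8, neg_one_sq]
    obtain ⟨m, -, hm1⟩ := Nat.exists_mul_mod_eq_one_of_coprime hc5 (by omega)
    refine ⟨m, ?_⟩
    rw [← Nat.div_add_mod (5 * m) (p + 1), hm1, pow_add, pow_mul, hw'n, one_pow, one_mul, pow_one]
  set t := w' ^ m with htd
  have ht5 : t ^ 5 = w' := by rw [htd, ← pow_mul, mul_comm]; exact hm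
  have ht0 : t ≠ 0 := pow_ne_zero _ hw'0
  have htn : t ^ (p + 1) = 1 := by rw [htd, ← pow_mul, mul_comm, pow_mul, hw'n, one_pow]
  obtain ⟨y'', hy''⟩ := exists_smul y' (inv_ne_zero ht0)
  have hy''U : y'' ∈ Cfsg.GU 4 F p := smul_mem hF hy'U (by rw [inv_pow, htn, inv_one]) hy''
  have hy''5 : y'' ^ 5 = 1 := by
    apply Units.ext
    rw [Units.val_pow_eq_pow_val, hy'', _root_.smul_pow, ← Units.val_pow_eq_pow_val y', hy'5, smul_smul, inv_pow, ht5, inv_mul_cancel₀ hw'0, one_smul]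
    rfl
  have hy''y : y''.1 = (t⁻¹ * (4 : F)⁻¹) • y.1 := by rw [hy'', hy', smul_smul]
  have hk0 : t⁻¹ * (4 : F)⁻¹ ≠ 0 := mul_ne_zero (inv_ne_zero ht0) (inv_ne_zero h4)
  have hy''1 : y'' ≠ 1 := by
    intro e
    apply hyn ((t⁻¹ * (4 : F)⁻¹)⁻¹)
    have h1 : y.1 = (t⁻¹ * (4 : F)⁻¹)⁻¹ • y''.1 := by rw [hy''y, smul_smul, inv_mul_cancel₀ hk0, one_smul]
    rw [h1, e]; rfl
  have hcx := charpoly_five hF hp2 hp5 hx'U hx'5 hx'1 hs hsp
  have hcy := charpoly_five hF hp2 hp5 hy''U hy''5 hy''1 hs hsp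
  have hdx' : x'.1.det = 1 := by
    rw [hx', Matrix.det_smul, hdx, mul_one, Fintype.card_fin, inv_pow, hz4, inv_one]
  have hpc5 : Nat.Coprime 5 p := by
    rw [Nat.coprime_primes (by norm_num) hp.out]
    rintro rfl
    omega
  obtain ⟨k, hk, hky⟩ := conj_SU hF p ⟨hx'U, mem_SL_iff.2 hdx'⟩ hy''U (by rw [hcx, hcy]) hx'5 hpc5 hy''5 hpc5
  refine ⟨k, hk, norm_smul (c := z * (t⁻¹ * (4 : F)⁻¹)) (mul_ne_zero hz0 hk0) ?_ hy⟩
  have h1 : x.1 = z • x'.1 := by rw [hx', smul_smul, mul_inv_cancel₀ hz0, one_smul]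
  rw [Units.val_mul, Units.val_mul, h1, Matrix.mul_smul, Matrix.smul_mul, ← Units.val_mul, ← Units.val_mul, hky, hy''y, smul_smul]

end

/-- Elements of prime order of PSU_4(p), p ≡ 3 (mod 4), and the normalizer of a 2-group of symplectic type of order 2⁶. Here `T = PSU_4(p)` for a prime `p ≡ 3 (mod 4)`, realised through `SU_4(p)`, the matrices of determinant 1 over the field `F` with `p²` elements preserving the hermitian form `f = Σ uᵢvᵢ^p`; `R` is an absolutely irreducible subgroup of the full unitary group of `f` of order 2⁶ that is a 2-group of symplectic type of exponent 4 with centre of order 4, and `H` is the subgroup of `SU_4(p)` normalizing `R` — a subgroup of type 2⁴.Sp₄(2) (maximality is not assumed). Ω is the set of cosets of `H`, so an element of `T` of prime order `r` (`x ∈ SU_4(p)` with `x^r` scalar, `x` not scalar) fixes a point of Ω exactly when some `SU_4(p)`-conjugate of `x` normalizes `R`. Let `r` be a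 prime dividing the index of `H`. Then every element of `T` of order `r` fixes a point of Ω if and only if `r = 2`, or `r = 3` and `p ≡ 1 (mod 3)`, or `r = 5` and `p ≡ ±2 (mod 5)` (`p` has multiplicative order 4 modulo 5). -/
theorem result {F : Type*} [Field F] [Fintype F] {p : ℕ} [Fact p.Prime] [CharP F p] (hF : Fintype.card F = p ^ 2) (hp4 : p % 4 = 3)
    (R : Subgroup (GL (Fin 4) F)) (hRs : Cfsg.Geo.IsSymplecticTypeGroup 2 R) (hRi : Cfsg.Geo.ActsAbsolutelyIrreducibly (Cfsg.Geo.matrixSet R))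
    (hRU : R ≤ Cfsg.GU 4 F p) (hR6 : Nat.card R = 2 ^ 6) (hRZ : Nat.card (Subgroup.center R) = 4)
    (r : ℕ) [Fact r.Prime]
    (hΩ : r ∣ (Cfsg.Geo.subgroupNormalizer R).relIndex (Cfsg.GU 4 F p ⊓ Cfsg.Geo.specialLinear (Fin 4) F)) :
    (∀ x ∈ Cfsg.GU 4 F p ⊓ Cfsg.Geo.specialLinear (Fin 4) F, (∃ z : F, ((x ^ r : GL (Fin 4) F) : Matrix (Fin 4) (Fin 4) F) = z • (1 : Matrix (Fin 4) (Fin 4) F)) →
      (∀ z : F, (x : Matrix (Fin 4) (Fin 4) F) ≠ z • (1 : Matrix (Fin 4) (Fin 4) F)) →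
      ∃ g ∈ Cfsg.GU 4 F p ⊓ Cfsg.Geo.specialLinear (Fin 4) F, g⁻¹ * x * g ∈ Cfsg.Geo.subgroupNormalizer R) ↔ (r = 2 ∨ (r = 3 ∧ p % 3 = 1) ∨ (r = 5 ∧ orderOf (p : ZMod 5) = 4)) := by
  have h2 : (2 : F) ≠ 0 := by
    intro h
    have := (CharP.cast_eq_zero_iff F p 2).1 (by exact_mod_cast h)
    have := (Nat.prime_dvd_prime_iff_eq Fact.out Nat.prime_two).1 this
    omega
  haveI : Finite R := Nat.finite_of_card_ne_zero (by rw [hR6]; norm_num)
  have h : XR R := XR.mk' h2 (by simp) hRs hRi (by rw [hR6, hRZ]; norm_num)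
  have hZ : Nat.card (Zs R) = 4 := by
    have := h.sc
    rw [hR6] at this
    omega
  obtain ⟨i, hi⟩ : ∃ i : F, i ^ 2 = -1 := by
    have h1 : IsSquare (-1 : F) := by
      rw [FiniteField.isSquare_neg_one_iff, hF]
      intro h3
      obtain ⟨k, hk⟩ : ∃ k, p = 4 * k + 3 := ⟨p / 4, by omega⟩
      have : p ^ 2 = 4 * (4 * k ^ 2 + 6 * k + 2) + 1 := by rw [hk]; ring
      omega
    obtain ⟨j, hj⟩ := h1
    exact ⟨j, by rw [hj, pow_two]⟩
  obtain ⟨I, hI, hIi⟩ := exists_I h hZ hi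
  obtain ⟨a, b, c, d, hq⟩ := exists_Quad h hRs hi hI hIi
  constructor
  · intro hall
    refine neg_dir hF hp4 h (hΩ.trans (Subgroup.relIndex_dvd_card _ _)) (fun x hx hxr hxn => ?_)
    exact hall x hx ⟨1, by rw [hxr, one_smul]; rfl⟩ hxn
  · intro hcase x hx ⟨z, hz⟩ hxn
    rw [Units.val_pow_eq_pow_val] at hz
    rcases hcase with rfl | ⟨rfl, hp3⟩ | ⟨rfl, hp5⟩
    · exact pos_two hF hp4 h hRU hi hI hIi hq hx hz hxn
    · have hIc : ∀ w, I * w = w * I := by
        intro w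
        apply Units.ext
        show I.1 * w.1 = w.1 * I.1
        rw [hIi]; simp
      have hII : I * I = -1 := by
        apply Units.ext
        show I.1 * I.1 = -1
        rw [hIi, Matrix.smul_mul, Matrix.mul_smul, smul_smul, ← pow_two, hi, Matrix.one_mul, neg_one_smul]
      have h1c : ∀ w : GL (Fin 4) F, 1 * w = w * 1 := by intro w; rw [one_mul, mul_one]
      have sq : ∀ u : GL (Fin 4) F, u * u = 1 → (I * u) * (I * u) = -1 := by
        intro u hu
        have e1 : (I * u) * (I * u) = (I * I) * (u * u) := by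
          rw [mul_assoc, ← mul_assoc u, ← hIc u, mul_assoc, mul_assoc]
        rw [e1, hII, hu, mul_one]
      refine pos_three (F := F) (p := p) hF hp4 hp3 h hRU hq.ha hq.hb (mul_mem hI hq.hc) (mul_mem hI hq.hd) hq.ab
        (anti_scale hIc hIc hq.cd) ?_ ?_ ?_ ?_ hq.aa hq.bb (sq _ hq.cc) (sq _ hq.dd) hx hz hxn
      · have := comm_scale h1c hIc hq.ac; simpa using this
      · have := comm_scale h1c hIc hq.ad; simpa using this
      · have := comm_scale h1c hIc hq.bc; simpa using this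
      · have := comm_scale h1c hIc hq.bd; simpa using this
    · exact pos_five hF hp4 hp5 h hRU hq hx hz hxn

end Cfsg.Agent.S6001
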