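import Cfsg.Statements.S6002
import Cfsg.Agent.Lib.XR10

set_option autoImplicit false
open scoped MatrixGroups
open Cfsg

namespace Cfsg.Agent.S6002

open Cfsg.Agent.Lib.XR Cfsg.Agent.Lib.NormTool Cfsg.Agent.Lib.InvSub Cfsg.Agent.Lib.PrimeOrd Cfsg.Agent.Lib.Sesq Cfsg.Agent.Lib.AltSim Cfsg.Agent.Lib.SpConj Module Matrix Polynomial

section

variable {F : Type*} [Field F]

local notation "ι₂" => (Fin 2 ⊕ Fin 2)

theorem scalar_sp {x : GL ι₂ F} (hx : x ∈ Cfsg.spGL 2 F) {z : F} (hz : x.1 = z • (1 : Matrix ι₂ ι₂ F)) : z ^ 2 = 1 := by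
  refine sq_scalar (jb_nd 2) ((mem_spGL x).1 hx) (k := 1) ?_
  rw [pow_one, hz, toLin_smul_one]

theorem smul_sp {x y : GL ι₂ F} (hx : x ∈ Cfsg.spGL 2 F) {z : F} (hz : z ^ 2 = 1) (h : y.1 = z • x.1) : y ∈ Cfsg.spGL 2 F := by
  rw [mem_spGL] at hx ⊢
  intro u v
  simp only [h, map_smul, LinearMap.smul_apply, smul_eq_mul, hx u v]
  linear_combination (JB 2 u v) * hz

/-- differences of self-adjoint involutions -/
theorem sim_two {x y P : GL ι₂ F} (hx : x ∈ Cfsg.spGL 2 F) (hy : y ∈ Cfsg.spGL 2 F) (hxx : x * x = 1) (hyy : y * y = 1) (hxy : x * y = -(y * x))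
    (hP : P.1 = x.1 - y.1) (u v : ι₂ → F) : JB (F := F) 2 (Matrix.toLin' P.1 u) (Matrix.toLin' P.1 v) = 2 * JB (F := F) 2 u v := by
  rw [mem_spGL] at hx hy
  have adj : ∀ {s : GL ι₂ F}, Iso (σ := RingHom.id F) (JB (F := F) 2) (Matrix.toLin' s.1) → s * s = 1 → ∀ a b,
      JB (F := F) 2 (Matrix.toLin' s.1 a) b = JB (F := F) 2 a (Matrix.toLin' s.1 b) := by
    intro s hs hss a b
    have e1 : Matrix.toLin' s.1 (Matrix.toLin' s.1 b) = b := by
      rw [← LinearMap.comp_apply, ← Matrix.toLin'_mul, ← Units.val_mul, hss, Units.val_one, Matrix.toLin'_one]; rfl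
    have e2 := hs a (Matrix.toLin' s.1 b)
    rw [e1] at e2
    exact e2
  have anti : ∀ b, Matrix.toLin' x.1 (Matrix.toLin' y.1 b) = -(Matrix.toLin' y.1 (Matrix.toLin' x.1 b)) := by
    intro b
    have e1 : x.1 * y.1 = -(y.1 * x.1) := congrArg Units.val hxy
    have e2 := congrArg (fun M => Matrix.toLin' M b) e1
    simp only [map_neg, LinearMap.neg_apply, Matrix.toLin'_mul, LinearMap.comp_apply] at e2
    exact e2
  have ex := hx u v
  have ey := hy u v
  have e1 := adj hx hxx u (Matrix.toLin' y.1 v)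
  have e2 := adj hy hyy u (Matrix.toLin' x.1 v)
  rw [anti, map_neg] at e1
  simp only [hP, map_sub, LinearMap.sub_apply]
  linear_combination ex + ey - e1 - e2


/-- the test elements -/
def MM (τ : F) : Matrix ι₂ ι₂ F := Matrix.fromBlocks !![1, 0; 0, 0] !![0, 0; 0, -1] !![0, 0; 0, 1] !![1, 0; 0, τ]

def MI (τ : F) : Matrix ι₂ ι₂ F := Matrix.fromBlocks !![1, 0; 0, τ] !![0, 0; 0, 1] !![0, 0; 0, -1] !![1, 0; 0, 0]

theorem MM_MI (τ : F) : MM τ * MI τ = 1 := by
  ext (i | i) (j | j) <;> fin_cases i <;> fin_cases j <;> simp [MM, MI, Matrix.mul_apply, Fintype.sum_sum_type, Fin.sum_univ_two, Matrix.one_apply]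

theorem MI_MM (τ : F) : MI τ * MM τ = 1 := by
  ext (i | i) (j | j) <;> fin_cases i <;> fin_cases j <;> simp [MM, MI, Matrix.mul_apply, Fintype.sum_sum_type, Fin.sum_univ_two, Matrix.one_apply]

def xx (τ : F) : GL ι₂ F := ⟨MM τ, MI τ, MM_MI τ, MI_MM τ⟩

theorem xx_mem (τ : F) : xx τ ∈ Cfsg.spGL 2 F := by
  rw [mem_spGL]
  apply jb_iso
  rw [SymplecticGroup.mem_iff]
  show MM τ * _ * (MM τ)ᵀ = _
  ext (i | i) (j | j) <;> fin_cases i <;> fin_cases j <;>
    simp [MM, Matrix.J, Matrix.mul_apply, Fintype.sum_sum_type, Fin.sum_univ_two, Matrix.one_apply]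

theorem xx_trace (τ : F) : (xx τ).1.trace = 2 + τ := by
  show (MM τ).trace = _
  simp [MM, Matrix.trace, Fintype.sum_sum_type, Fin.sum_univ_two]
  ring

theorem xx_trace' (τ : F) : (xx τ)⁻¹.1.trace = 2 + τ := by
  show (MI τ).trace = _
  simp [MI, Matrix.trace, Fintype.sum_sum_type, Fin.sum_univ_two]
  ring

theorem xx_ns (τ z : F) : (xx τ).1 ≠ z • (1 : Matrix ι₂ ι₂ F) := by
  intro h
  have e := congrFun (congrFun h (Sum.inr 1)) (Sum.inl 1)
  have e' : MM τ (Sum.inr 1) (Sum.inl 1) = (z • (1 : Matrix ι₂ ι₂ F)) (Sum.inr 1) (Sum.inl 1) := e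
  simp [MM] at e'

theorem xx_three : (xx (-1 : F)) ^ 3 = 1 := by
  apply Units.ext
  rw [Units.val_pow_eq_pow_val]
  show MM (-1 : F) ^ 3 = 1
  have h1 : MM (-1 : F) * MM (-1 : F) = MI (-1) := by
    ext (i | i) (j | j) <;> fin_cases i <;> fin_cases j <;> simp [MM, MI, Matrix.mul_apply, Fintype.sum_sum_type, Fin.sum_univ_two]
  rw [pow_succ, pow_two, h1, MI_MM]

theorem xx_five {η : F} (hη : η ^ 2 + η - 1 = 0) : (xx η) ^ 5 = 1 := by
  apply Units.ext
  rw [Units.val_pow_eq_pow_val]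
  show MM η ^ 5 = 1
  let N : Matrix ι₂ ι₂ F := Matrix.fromBlocks !![1, 0; 0, -1] !![0, 0; 0, -η] !![0, 0; 0, η] !![1, 0; 0, -η]
  have h1 : MM η * MM η = N := by
    ext (i | i) (j | j) <;> fin_cases i <;> fin_cases j <;> simp [MM, N, Matrix.mul_apply, Fintype.sum_sum_type, Fin.sum_univ_two]
    linear_combination hη
  have h2 : N * N = MI η := by
    ext (i | i) (j | j) <;> fin_cases i <;> fin_cases j <;> simp [MI, N, Matrix.mul_apply, Fintype.sum_sum_type, Fin.sum_univ_two]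
    · linear_combination -hη
    · linear_combination hη
    · linear_combination -hη
  have : MM η ^ 5 = (MM η * MM η) * (MM η * MM η) * MM η := by simp only [pow_succ, pow_zero, Matrix.one_mul, Matrix.mul_assoc]
  rw [this, h1, h2, MI_MM]

/-- the negative direction -/
theorem neg_dir [Fintype F] {p : ℕ} [hp : Fact p.Prime] [CharP F p] (hF : Fintype.card F = p)
    {R : Subgroup (GL ι₂ F)} (h : XR R) (hZ : Nat.card (Zs R) = 2) (hm : Cfsg.Geo.IsOfMinusType 2 R) {a b c d : GL ι₂ F} (hq : Quad R a b c d)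
    {r : ℕ} [hr : Fact r.Prime] (hdvd : r ∣ Nat.card (Cfsg.spGL 2 F))
    (hall : ∀ x ∈ Cfsg.spGL 2 F, x ^ r = 1 → (∀ z : F, x.1 ≠ z • (1 : Matrix ι₂ ι₂ F)) →
      ∃ g ∈ Cfsg.spGL 2 F, g⁻¹ * x * g ∈ Subgroup.normalizer (R : Set (GL ι₂ F))) :
    r = 2 ∨ (r = 5 ∧ orderOf (p : ZMod 5) = 4) := by
  by_contra hcon
  push Not at hcon
  obtain ⟨hr2, hr5⟩ := hcon
  have hodd : Odd r := hr.out.odd_of_ne_two hr2
  have hyr : ∀ y : GL ι₂ F, y ^ r = 1 → ∀ w ∈ R, y ^ r * w = w * y ^ r := by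
    intro y hy w _; rw [hy, one_mul, mul_one]
  have hp2 : p ≠ 2 := by
    rintro rfl
    exact h.char (by have := CharP.cast_eq_zero F 2; exact_mod_cast this)
  by_cases hrp : r = p
  · subst hrp
    obtain ⟨T, hT, hTp, hTE, hTn⟩ := exists_transv (F := F) (p := r) (jb_alt 2) (jb_nd 2) (by rw [finrank_jb]; norm_num)
    obtain ⟨x, hx, hxT⟩ := exists_spGL hT
    have hxr : x ^ r = 1 := by
      apply Units.ext
      apply Matrix.toLin'.injective
      rw [Units.val_pow_eq_pow_val, ← tl_pow, hxT, hTp, Units.val_one, Matrix.toLin'_one]; rfl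
    have hxn : ∀ z : F, x.1 ≠ z • (1 : Matrix ι₂ ι₂ F) := by
      intro z hz
      apply hTn z
      rw [← hxT, hz, toLin_smul_one]
    obtain ⟨g, -, hg⟩ := hall x hx hxr hxn
    obtain ⟨c, hc⟩ := h.homology hodd (hyr _ (by rw [conj_pow_eq, hxr]; group)) hg (μ := 1) (by
      rw [finrank_conj', hxT]
      rw [finrank_jb] at hTE
      have : finrank F (Module.End.eigenspace T 1) = finrank F (E T 1) := rfl
      omega)
    exact nonscalar_conj hxn c hc
  · by_cases h3 : r = 3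
    · subst h3
      obtain ⟨g, -, hg⟩ := hall (xx (-1)) (xx_mem _) xx_three (xx_ns _)
      have hy3 : (g⁻¹ * xx (-1 : F) * g) ^ 3 = 1 := by rw [conj_pow_eq, xx_three]; group
      have t1 : (g⁻¹ * xx (-1 : F) * g).1.trace = 1 := by rw [tr_conj, xx_trace]; norm_num
      have t2 : ((g⁻¹ * xx (-1 : F) * g)⁻¹).1.trace = 1 := by rw [inv_conj, tr_conj, xx_trace']; norm_num
      rcases h.card_cases hodd (hyr _ hy3) hg (nonscalar_conj (xx_ns _)) with ⟨h1, -⟩ | ⟨h1, -⟩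
      · exact h.three_contra hZ hm hq.hc hq.cc hq.cd hg hy3 h1
      · have h2 := h.trace_id hodd (hyr _ hy3) hg
        rw [h1, h.sc, hZ, t1, t2] at h2
        have h3 : (3 : F) * 2 ^ 5 = 0 := by
          push_cast at h2
          linear_combination -h2
        have h4 : (3 : F) = 0 := (mul_eq_zero.1 h3).resolve_right (pow_ne_zero _ h.char)
        have := (CharP.cast_eq_zero_iff F p 3).1 (by exact_mod_cast h4)
        exact hrp ((Nat.prime_dvd_prime_iff_eq hp.out Nat.prime_three).1 this).symm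
    · by_cases h5 : r = 5
      · subst h5
        obtain ⟨η, hη⟩ := exists_eta (F := F) (p := p) hp2 (fun h => hrp h.symm) (hr5 rfl)
        obtain ⟨g, -, hg⟩ := hall (xx η) (xx_mem _) (xx_five hη) (xx_ns _)
        have h50 := h.five_contra hg (by rw [conj_pow_eq, xx_five hη]; group) (nonscalar_conj (xx_ns _)) hη
          (by rw [tr_conj, xx_trace]) (by rw [inv_conj, tr_conj, xx_trace'])
        have := (CharP.cast_eq_zero_iff F p 5).1 (by exact_mod_cast h50)
        exact hrp ((Nat.prime_dvd_prime_iff_eq hp.out (by norm_num)).1 this).symm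
      · obtain ⟨x, hx, hxr, hxn⟩ := exists_order (m := 2) hdvd (fun x hx z hz => scalar_sp hx hz) (by
          intro h
          exact hr2 ((Nat.prime_dvd_prime_iff_eq hr.out Nat.prime_two).1 h))
        obtain ⟨g, -, hg⟩ := hall x hx hxr hxn
        rcases h.card_cases hodd (hyr _ (by rw [conj_pow_eq, hxr]; group)) hg (nonscalar_conj hxn) with ⟨-, h1⟩ | ⟨-, h1⟩
        · omega
        · omega

/-- the case `r = 2` -/
theorem pos_two [Finite F] 
    {R : Subgroup (GL ι₂ F)} (h : XR R) (hRf : R ≤ Cfsg.spGL 2 F) {a b c d : GL ι₂ F} (hq : Quad R a b c d) {x : GL ι₂ F} (hx : x ∈ Cfsg.spGL 2 F) {z : F}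
    (hz : x.1 ^ 2 = z • (1 : Matrix ι₂ ι₂ F)) (hxn : ∀ z : F, x.1 ≠ z • (1 : Matrix ι₂ ι₂ F)) :
    ∃ g ∈ Cfsg.spGL 2 F, g⁻¹ * x * g ∈ Subgroup.normalizer (R : Set (GL ι₂ F)) := by
  have h2 := h.char
  have hxi := (mem_spGL x).1 hx
  have hxT : (Matrix.toLin' x.1) ^ 2 = z • (1 : Module.End F (ι₂ → F)) := by rw [tl_pow, hz, toLin_smul_one]
  have hz2 : z ^ 2 = 1 := sq_scalar (jb_nd 2) hxi hxT
  have hz0 : z ≠ 0 := by rintro rfl; norm_num at hz2
  have fin : ∀ y : GL ι₂ F, y ∈ R → (∃ g : (ι₂ → F) ≃ₗ[F] (ι₂ → F), ∀ v, g (Matrix.toLin' x.1 v) = (Matrix.toLin' y.1) (g v)) →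
      ∃ g ∈ Cfsg.spGL 2 F, g⁻¹ * x * g ∈ Subgroup.normalizer (R : Set (GL ι₂ F)) := by
    rintro y hy ⟨g, hg⟩
    obtain ⟨k, hk, hky⟩ := conj_spGL hx ((mem_spGL y).1 (hRf hy)) (compl_of_sq h2 hz0 hxT) g hg
    refine ⟨k, hk, ?_⟩
    have : k⁻¹ * x * k = y := Units.ext (Matrix.toLin'.injective hky)
    rw [this]
    exact Subgroup.le_normalizer hy
  rw [pow_two] at hz2
  have sqL : ∀ y : GL ι₂ F, ∀ c : F, (y * y).1 = c • (1 : Matrix ι₂ ι₂ F) → (Matrix.toLin' y.1) ^ 2 = c • (1 : Module.End F (ι₂ → F)) := by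
    intro y c hy
    rw [tl_pow, pow_two, ← toLin_smul_one, ← hy]; rfl
  rcases mul_self_eq_one_iff.1 hz2 with rfl | rfl
  · have dim : ∀ y : GL ι₂ F, y ∈ Cfsg.spGL 2 F → (Matrix.toLin' y.1) ^ 2 = ((1 : F) ^ 2) • (1 : Module.End F (ι₂ → F)) →
        (∀ z : F, y.1 ≠ z • (1 : Matrix ι₂ ι₂ F)) → finrank F (E (Matrix.toLin' y.1) (-1)) = 2 := by
      intro y hy hyy hyn
      have e1 := even_neg (jb_alt 2) (jb_nd 2) h2 ((mem_spGL y).1 hy) hyy
      have e2 : finrank F (E (Matrix.toLin' y.1) (-1)) ≤ 4 := by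
        have := Submodule.finrank_le (E (Matrix.toLin' y.1) (-1))
        rwa [finrank_jb] at this
      have hc := Cfsg.Agent.Lib.AltSim.isCompl_inv h2 (one_ne_zero (α := F)) hyy
      have e3 := Submodule.finrank_add_eq_of_isCompl hc
      rw [finrank_jb] at e3
      have e4 : finrank F (E (Matrix.toLin' y.1) (-1)) ≠ 0 := by
        intro h0
        apply hyn 1
        apply Matrix.toLin'.injective
        rw [toLin_smul_one]
        exact eq_smul_of_finrank (one_ne_zero (α := F)) (by rw [inv_one, one_smul, finrank_jb]; omega)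
      have e5 : finrank F (E (Matrix.toLin' y.1) (-1)) ≠ 4 := by
        intro h0
        apply hyn (-1)
        have h1 := Submodule.eq_top_of_finrank_eq (K := F) (S := E (Matrix.toLin' y.1) (-1)) (by rw [h0, finrank_jb])
        apply Matrix.toLin'.injective
        rw [toLin_smul_one]
        apply LinearMap.ext
        intro v
        have h3 : v ∈ E (Matrix.toLin' y.1) (-1) := by rw [h1]; trivial
        exact Module.End.mem_eigenspace_iff.1 h3
      obtain ⟨k, hk⟩ := e1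
      omega
    have hcT := sqL c 1 (by rw [hq.cc, one_smul]; rfl)
    apply fin c hq.hc
    apply Cfsg.Agent.Lib.ElusiveTool.conj_of_sq h2 (one_ne_zero (α := F)) (by rw [one_pow]; exact hxT) (by rw [one_pow]; exact hcT) rfl
    rw [dim x hx (by rw [one_pow]; exact hxT) hxn, dim c (hRf hq.hc) (by rw [one_pow]; exact hcT) (nonscalar_of_anti h2 hq.cd)]
  · apply fin a hq.ha
    exact conj_neg_one (jb_nd 2) h2 hxi ((mem_spGL a).1 (hRf hq.ha)) hxT (sqL a (-1) (by rw [hq.aa, neg_one_smul]; rfl))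

/-- the case `r = 5` -/
theorem pos_five [Fintype F] {p : ℕ} [hp : Fact p.Prime] [CharP F p] (hF : Fintype.card F = p) (hp5 : orderOf (p : ZMod 5) = 4)
    {R : Subgroup (GL ι₂ F)} (h : XR R) (hRf : R ≤ Cfsg.spGL 2 F) {a b c d : GL ι₂ F} (hq : Quad R a b c d)
    {x : GL ι₂ F} (hx : x ∈ Cfsg.spGL 2 F) {z : F}
    (hz : x.1 ^ 5 = z • (1 : Matrix ι₂ ι₂ F)) (hxn : ∀ z : F, x.1 ≠ z • (1 : Matrix ι₂ ι₂ F)) :
    ∃ g ∈ Cfsg.spGL 2 F, g⁻¹ * x * g ∈ Subgroup.normalizer (R : Set (GL ι₂ F)) := by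
  haveI : Fact (Nat.Prime 5) := ⟨by norm_num⟩
  have hxi := (mem_spGL x).1 hx
  have hxT : (Matrix.toLin' x.1) ^ 5 = z • (1 : Module.End F (ι₂ → F)) := by rw [tl_pow, hz, toLin_smul_one]
  have hz2 : z ^ 2 = 1 := sq_scalar (jb_nd 2) hxi hxT
  have hz0 : z ≠ 0 := by rintro rfl; norm_num at hz2
  have hp5' : (5 : ℕ) ≠ p := by
    rintro rfl
    have h0 : ((5 : ℕ) : ZMod 5) = 0 := ZMod.natCast_self 5
    rw [h0, orderOf_zero] at hp5
    omega
  have h5 : (5 : F) ≠ 0 := by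
    intro h
    have := (CharP.cast_eq_zero_iff F p 5).1 (by exact_mod_cast h)
    exact hp5' ((Nat.prime_dvd_prime_iff_eq hp.out (by norm_num)).1 this).symm
  have h2 := h.char
  have h4 : (4 : F) ≠ 0 := by
    have : (4 : F) = 2 ^ 2 := by norm_num
    rw [this]; exact pow_ne_zero _ h2
  have hirr : Irreducible (cyclotomic 5 F) := Cfsg.Agent.Lib.ExtField.irr_cyclotomic (p := p) (r := 5) hp5' (by rw [hF, hp5])
  obtain ⟨P, Q, S, T, hP, hQ, hS, hT, hy, ⟨s, hs⟩, hyn⟩ := h.exists_five hq rfl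
  have hC := hq.cliff
  set e : Fin 5 → GL ι₂ F := ![c, d, (c * d) * a, (c * d) * b, (c * d) * (a * b)] with he
  set y := P * Q * S * T with hyd
  rw [Units.val_pow_eq_pow_val] at hs
  have sim := fun i j (hij : i ≠ j) (K : GL ι₂ F) (hK : K.1 = (e i).1 - (e j).1) =>
    sim_two (hRf (hC.mem i)) (hRf (hC.mem j)) (hC.sq i) (hC.sq j) (hC.anti i j hij) hK
  have sP := sim 0 1 (by decide) P hP
  have sQ := sim 1 2 (by decide) Q hQ
  have sS := sim 2 3 (by decide) S hS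
  have sT := sim 3 4 (by decide) T hT
  obtain ⟨y', hy'⟩ := exists_smul y (inv_ne_zero h4)
  have hy'i : Iso (σ := RingHom.id F) (JB (F := F) 2) (Matrix.toLin' y'.1) := by
    intro u v
    have e1 : ∀ w, Matrix.toLin' y.1 w = Matrix.toLin' P.1 (Matrix.toLin' Q.1 (Matrix.toLin' S.1 (Matrix.toLin' T.1 w))) := by
      intro w
      rw [hyd, Units.val_mul, Units.val_mul, Units.val_mul, Matrix.toLin'_mul, Matrix.toLin'_mul, Matrix.toLin'_mul]
      rfl
    have e2 : JB (F := F) 2 (Matrix.toLin' y.1 u) (Matrix.toLin' y.1 v) = 16 * JB (F := F) 2 u v := by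
      rw [e1, e1, sP, sQ, sS, sT]; ring
    simp only [hy', map_smul, LinearMap.smul_apply, smul_eq_mul, e2]
    have e44 : (4 : F)⁻¹ * 4 = 1 := inv_mul_cancel₀ h4
    linear_combination (JB 2 u v) * ((4 : F)⁻¹ * 4 + 1) * e44
  have hy'T : (Matrix.toLin' y'.1) ^ 5 = ((4 : F)⁻¹ ^ 5 * s) • (1 : Module.End F (ι₂ → F)) := by
    rw [tl_pow, hy', _root_.smul_pow, hs, smul_smul, toLin_smul_one]
  set s' := (4 : F)⁻¹ ^ 5 * s with hs'
  have hs'2 : s' ^ 2 = 1 := sq_scalar (jb_nd 2) hy'i hy'T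
  have hs'0 : s' ≠ 0 := by intro h0; rw [h0] at hs'2; norm_num at hs'2
  obtain ⟨y'', hy''⟩ := exists_smul y' hs'0
  have hy''m : y'' ∈ Cfsg.spGL 2 F := smul_sp ((mem_spGL y').2 hy'i) hs'2 hy''
  have hy''T : (Matrix.toLin' y''.1) ^ 5 = 1 := by
    rw [hy'', map_smul, _root_.smul_pow, hy'T, smul_smul]
    have : s' ^ 5 * s' = 1 := by
      have : s' ^ 5 * s' = (s' ^ 2) ^ 3 := by ring
      rw [this, hs'2, one_pow]
    rw [this, one_smul]
  have hyy : y''.1 = (s' * (4 : F)⁻¹) • y.1 := by rw [hy'', hy', smul_smul]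
  have dimy : finrank F (E (Matrix.toLin' y''.1) 1) = 0 := by
    have e1 := finrank_five (V := ι₂ → F) (by rw [finrank_jb]) h5 hirr (T := Matrix.toLin' y''.1) (one_ne_zero (α := F)) (by
      rw [inv_one, one_smul]; exact hy''T) (by
      intro e
      apply hyn ((s' * (4 : F)⁻¹)⁻¹)
      have h6 : y''.1 = 1 := by
        apply Matrix.toLin'.injective
        rw [e, one_smul, Matrix.toLin'_one]; rfl
      rw [← h6, hyy, smul_smul, inv_mul_cancel₀ (mul_ne_zero hs'0 (inv_ne_zero h4)), one_smul])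
    rwa [inv_one, one_smul] at e1
  have hz5 : z⁻¹ ^ 5 * z = 1 := by
    have : z⁻¹ = z := by
      rw [pow_two] at hz2
      exact (eq_inv_of_mul_eq_one_left hz2).symm
    rw [this]
    have : z ^ 5 * z = (z ^ 2) ^ 3 := by ring
    rw [this, hz2, one_pow]
  have hxT1 : (z⁻¹ • Matrix.toLin' x.1) ^ 5 = 1 := by
    rw [_root_.smul_pow, hxT, smul_smul, hz5, one_smul]
  have dimx : finrank F (E (z⁻¹ • Matrix.toLin' x.1) 1) = 0 := by
    refine finrank_five (V := ι₂ → F) (by rw [finrank_jb]) h5 hirr (T := Matrix.toLin' x.1) hz0 hxT1 ?_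
    intro e
    apply hxn z
    apply Matrix.toLin'.injective
    rw [e, toLin_smul_one]
  obtain ⟨g, hg⟩ := Cfsg.Agent.Lib.CycConj.conj_of_cyc (r := 5) (by exact_mod_cast h5) hirr hxT1 hy''T (by rw [dimx, dimy])
  obtain ⟨Y, hY⟩ := exists_smul y'' hz0
  have hYm : Y ∈ Cfsg.spGL 2 F := smul_sp hy''m hz2 hY
  have hz55 : z ^ 5 = z := by
    have : z ^ 5 = (z ^ 2) ^ 2 * z := by ring
    rw [this, hz2, one_pow, one_mul]
  obtain ⟨k, hk, hkY⟩ := conj_spGL hx ((mem_spGL Y).1 hYm) (ssB (p := p) (r := 5) hp5' hz0 (by rw [hxT, hz55])).compl g (by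
    intro v
    have h1 := hg v
    rw [LinearMap.smul_apply, map_smul] at h1
    rw [hY, map_smul, LinearMap.smul_apply, ← h1, smul_smul, mul_inv_cancel₀ hz0, one_smul])
  refine ⟨k, hk, ?_⟩
  have : k⁻¹ * x * k = Y := Units.ext (Matrix.toLin'.injective hkY)
  rw [this]
  refine norm_smul (c := z * (s' * (4 : F)⁻¹)) (mul_ne_zero hz0 (mul_ne_zero hs'0 (inv_ne_zero h4))) ?_ hy
  rw [hY, hyy, smul_smul]
end

/-- Elements of prime order of PSp_4(p), p odd, and the normalizer of an extraspecial 2-group of order 2⁵ of minus type. Here `T = PSp_4(F)` for the field `F` with `p` elements, `p` an odd prime, realised through the matrices preserving the standard alternating form `f`; `R` is an absolutely irreducible subgroup of `T` (it preserves `f`) that is a 2-group of symplectic type of exponent 4, order 2⁵ and centre of order 2, of minus type (no elementary abelian subgroup of order 2³), and `H` is the subgroup of `T` normalizing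 `R` — a subgroup of type 2^{1+4}.O₄⁻(2) (maximality is not assumed). Ω is the set of cosets of `H` in `T`, so an element of `T` of prime order `r` (`x ∈ T` with `x^r` scalar, `x` not scalar) fixes a point of Ω exactly when some `T`-conjugate of `x` normalizes `R`. Let `r` be a prime dividing the index of `H`. Then every element of `T` of order `r` fixes a point of Ω if and only if `r = 2`, or `r = 5` and `p` has multiplicative order 4 modulo 5. -/
theorem result {F : Type*} [Field F] [Fintype F] {p : ℕ} [Fact p.Prime] [CharP F p] (hF : Fintype.card F = p) (hodd : Odd p)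
    (R : Subgroup (GL (Fin 2 ⊕ Fin 2) F)) (hRs : Cfsg.Geo.IsSymplecticTypeGroup 2 R) (hRi : Cfsg.Geo.ActsAbsolutelyIrreducibly (Cfsg.Geo.matrixSet R))
    (hRf : R ≤ Cfsg.spGL 2 F) (hR5 : Nat.card R = 2 ^ 5) (hRZ : Nat.card (Subgroup.center R) = 2) (hRm : Cfsg.Geo.IsOfMinusType 2 R)
    (r : ℕ) [Fact r.Prime]
    (hΩ : r ∣ (Cfsg.Geo.subgroupNormalizer R).relIndex (Cfsg.spGL 2 F)) :
    (∀ x ∈ Cfsg.spGL 2 F, (∃ z : F, ((x ^ r : GL (Fin 2 ⊕ Fin 2) F) : Matrix (Fin 2 ⊕ Fin 2) (Fin 2 ⊕ Fin 2) F) = z • (1 : Matrix (Fin 2 ⊕ Fin 2) (Fin 2 ⊕ Fin 2) F)) →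
      (∀ z : F, (x : Matrix (Fin 2 ⊕ Fin 2) (Fin 2 ⊕ Fin 2) F) ≠ z • (1 : Matrix (Fin 2 ⊕ Fin 2) (Fin 2 ⊕ Fin 2) F)) →
      ∃ g ∈ Cfsg.spGL 2 F, g⁻¹ * x * g ∈ Cfsg.Geo.subgroupNormalizer R) ↔ (r = 2 ∨ (r = 5 ∧ orderOf (p : ZMod 5) = 4)) := by
  have h2 : (2 : F) ≠ 0 := by
    intro h
    have := (CharP.cast_eq_zero_iff F p 2).1 (by exact_mod_cast h)
    have := (Nat.prime_dvd_prime_iff_eq Fact.out Nat.prime_two).1 this
    rw [this] at hodd
    exact absurd hodd (by decide)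
  haveI : Finite R := Nat.finite_of_card_ne_zero (by rw [hR5]; norm_num)
  have h : XR R := XR.mk' h2 (by simp) hRs hRi (by rw [hR5, hRZ]; norm_num)
  have hZ : Nat.card (Zs R) = 2 := by
    have := h.sc
    rw [hR5] at this
    omega
  obtain ⟨a, b, c, d, hq⟩ := h.exists_Quad hRs hRm
  constructor
  · intro hall
    refine neg_dir hF h hZ hRm hq (hΩ.trans (Subgroup.relIndex_dvd_card _ _)) (fun x hx hxr hxn => ?_)
    exact hall x hx ⟨1, by rw [hxr, one_smul]; rfl⟩ hxn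
  · intro hcase x hx ⟨z, hz⟩ hxn
    rw [Units.val_pow_eq_pow_val] at hz
    rcases hcase with rfl | ⟨rfl, hp5⟩
    · exact pos_two h hRf hq hx hz hxn
    · exact pos_five hF hp5 h hRf hq hx hz hxn

end Cfsg.Agent.S6002
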